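import Cfsg.Agent.Lib.CharFS
import Cfsg.Agent.Lib.CharLin
import Cfsg.Agent.Lib.BlockNorm

/-! Alperin-Feit-Thompson: involution count modulo four in a two-group. -/

set_option autoImplicit false
set_option linter.unusedVariables false
set_option linter.unusedSectionVars false

namespace Cfsg.Agent.Lib.AFT

open Cfsg Cfsg.Agent.Lib Cfsg.Agent.Lib.CharBasic Cfsg.Agent.Lib.CharOrth Cfsg.Agent.Lib.CharAlg
open Cfsg.Agent.Lib.CharLin
open scoped ComplexConjugate

universe u

variable {G : Type u} [Group G]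

open Classical in
/-- sign homomorphism of an index two subgroup -/
noncomputable def sgn (K : Subgroup G) (hK : K.index = 2) : G →* ℂˣ where
  toFun g := if g ∈ K then 1 else -1
  map_one' := by simp [K.one_mem]
  map_mul' a b := by
    have := Subgroup.mul_mem_iff_of_index_two hK (a := a) (b := b)
    by_cases ha : a ∈ K <;> by_cases hb : b ∈ K <;> simp [ha, hb, this]

lemma sgn_mem (K : Subgroup G) (hK : K.index = 2) {g : G} (hg : g ∈ K) : sgn K hK g = 1 := by
  simp [sgn, hg]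

lemma sgn_not_mem (K : Subgroup G) (hK : K.index = 2) {g : G} (hg : g ∉ K) : sgn K hK g = -1 := by
  simp [sgn, hg]

lemma neg_one_ne_one_units : (-1 : ℂˣ) ≠ 1 := by
  intro h
  have := congrArg (fun u : ℂˣ => (u : ℂ)) h
  norm_num at this

lemma sgn_sq (K : Subgroup G) (hK : K.index = 2) : sgn K hK * sgn K hK = 1 := by
  ext g
  by_cases hg : g ∈ K
  · simp [sgn_mem K hK hg]
  · simp [sgn_not_mem K hK hg]

lemma sgn_ne_one (K : Subgroup G) (hK : K.index = 2) : sgn K hK ≠ 1 := by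
  intro h
  have htop : K ≠ ⊤ := by
    rintro rfl
    simp at hK
  apply htop
  rw [eq_top_iff]
  intro g _
  by_contra hg
  have := congrArg (fun f : G →* ℂˣ => f g) h
  simp only [sgn_not_mem K hK hg, MonoidHom.one_apply] at this
  exact neg_one_ne_one_units this

lemma sgn_inj (K₁ K₂ : Subgroup G) (h₁ : K₁.index = 2) (h₂ : K₂.index = 2)
    (h : sgn K₁ h₁ = sgn K₂ h₂) : K₁ = K₂ := by
  ext g
  have e : sgn K₁ h₁ g = sgn K₂ h₂ g := by rw [h]
  constructor
  · intro hg
    by_contra hg2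
    rw [sgn_mem K₁ h₁ hg, sgn_not_mem K₂ h₂ hg2] at e
    exact neg_one_ne_one_units e.symm
  · intro hg
    by_contra hg2
    rw [sgn_mem K₂ h₂ hg, sgn_not_mem K₁ h₁ hg2] at e
    exact neg_one_ne_one_units e

section Two

variable [Finite G]

lemma exists_index_two_ge (hG : IsPGroup 2 G) (H : Subgroup G) (hH : H ≠ ⊤) :
    ∃ K : Subgroup G, K.index = 2 ∧ H ≤ K := by
  classical
  haveI : Fact (Nat.Prime 2) := ⟨Nat.prime_two⟩
  obtain ⟨e, he⟩ := IsPGroup.iff_card.1 hG
  have hHd : Nat.card H ∣ 2 ^ e := he ▸ Subgroup.card_subgroup_dvd_card H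
  obtain ⟨j, hj, hHc⟩ := (Nat.dvd_prime_pow Nat.prime_two).1 hHd
  have hjlt : j < e := by
    rcases lt_or_eq_of_le hj with h | h
    · exact h
    · exfalso
      apply hH
      apply Subgroup.eq_top_of_card_eq
      rw [hHc, he, h]
  have h2 : 2 ^ e = 2 * 2 ^ (e - 1) := by
    rw [← pow_succ']
    congr 1
    omega
  obtain ⟨K, hKc, hHK⟩ := Sylow.exists_subgroup_card_pow_prime_le 2 (m := e - 1)
    (by rw [he, h2]; exact Dvd.intro_left _ rfl) H hHc (by omega)
  refine ⟨K, ?_, hHK⟩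
  have := Subgroup.index_mul_card K
  rw [hKc, he, h2] at this
  exact Nat.eq_of_mul_eq_mul_right (by positivity) this

lemma exists_two (hG : IsPGroup 2 G) (hc : ¬ IsCyclic G) :
    ∃ K₁ K₂ : Subgroup G, K₁.index = 2 ∧ K₂.index = 2 ∧ K₁ ≠ K₂ := by
  have hbot : (⊥ : Subgroup G) ≠ ⊤ := by
    intro h
    apply hc
    haveI : Subsingleton G := ⟨fun a b => by
      have ha : a ∈ (⊤ : Subgroup G) := Subgroup.mem_top a
      have hb : b ∈ (⊤ : Subgroup G) := Subgroup.mem_top b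
      rw [← h, Subgroup.mem_bot] at ha hb
      rw [ha, hb]⟩
    exact isCyclic_of_subsingleton
  obtain ⟨K₁, h₁, -⟩ := exists_index_two_ge hG ⊥ hbot
  have htop : K₁ ≠ ⊤ := by
    rintro rfl
    simp at h₁
  obtain ⟨g, hg⟩ : ∃ g, g ∉ K₁ := by
    by_contra hcon
    push_neg at hcon
    exact htop (eq_top_iff.2 fun g _ => hcon g)
  have hz : Subgroup.zpowers g ≠ ⊤ := by
    intro h
    apply hc
    exact ⟨⟨g, fun x => by
      show x ∈ Subgroup.zpowers g
      rw [h]
      exact Subgroup.mem_top x⟩⟩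
  obtain ⟨K₂, h₂, hle⟩ := exists_index_two_ge hG _ hz
  exact ⟨K₁, K₂, h₁, h₂, fun e => hg (e ▸ hle (Subgroup.mem_zpowers g))⟩

end Two

section Char

variable [Fintype G]

lemma hom_unit (μ : G →* ℂˣ) (g : G) : conj (μ g : ℂ) * (μ g : ℂ) = 1 := by
  have hpow : (μ g : ℂ) ^ Nat.card G = 1 := by
    have : (μ g) ^ Nat.card G = 1 := by
      rw [← map_pow, pow_card_eq_one', map_one]
    have h2 := congrArg (fun u : ℂˣ => (u : ℂ)) this
    simpa using h2
  have hn : ‖(μ g : ℂ)‖ = 1 := Complex.norm_eq_one_of_pow_eq_one hpow Nat.card_pos.ne'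
  rw [Complex.conj_mul', hn]
  simp

/-- twist by a linear character -/
noncomputable def tw (μ : G →* ℂˣ) (χ : IrrCharacter G) : IrrCharacter G :=
  ⟨fun g => (μ g : ℂ) * χ.1 g, isIrrCharacter_of_norm_one
    (IsCharacter.mul (IsIrrCharacter.isCharacter (isIrrCharacter_of_hom μ))
      (IsIrrCharacter.isCharacter χ.2))
    (by
      rw [← classInner_irr_self χ.2]
      unfold classInner
      congr 1
      apply Finset.sum_congr rfl
      intro g _
      rw [map_mul]
      linear_combination (χ.1 g * conj (χ.1 g)) * hom_unit μ g)⟩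

lemma tw_val (μ : G →* ℂˣ) (χ : IrrCharacter G) (g : G) : (tw μ χ).1 g = (μ g : ℂ) * χ.1 g := rfl

lemma tw_mul (μ ν : G →* ℂˣ) (χ : IrrCharacter G) : tw μ (tw ν χ) = tw (μ * ν) χ := by
  apply Subtype.ext
  funext g
  simp only [tw_val, MonoidHom.mul_apply, Units.val_mul]
  ring

lemma tw_one (χ : IrrCharacter G) : tw 1 χ = χ := by
  apply Subtype.ext
  funext g
  simp [tw_val]

lemma tw_comm (μ ν : G →* ℂˣ) (χ : IrrCharacter G) : tw μ (tw ν χ) = tw ν (tw μ χ) := by
  have e : μ * ν = ν * μ := by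
    ext g
    simp [mul_comm]
  rw [tw_mul, tw_mul, e]

lemma tw_deg (μ : G →* ℂˣ) (χ : IrrCharacter G) : (tw μ χ).1 1 = χ.1 1 := by
  simp [tw_val]

lemma stab_le (χ : IrrCharacter G) (hd : χ.1 1 = 2) (T : Finset (G →* ℂˣ))
    (hT : ∀ ν ∈ T, tw ν χ = χ) : T.card ≤ 4 := by
  classical
  have hφ : IsCharacter G (fun g => χ.1 g * conj (χ.1 g)) :=
    IsCharacter.mul (IsIrrCharacter.isCharacter χ.2)
      (IsCharacter.conj (IsIrrCharacter.isCharacter χ.2))
  obtain ⟨m, hm⟩ := IsCharacter.exists_nat_coeff hφ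
  let ψ : (G →* ℂˣ) → IrrCharacter G := fun ν => ⟨fun g => ν g, isIrrCharacter_of_hom ν⟩
  have hψinj : Function.Injective ψ := by
    intro a b hab
    ext g
    exact congrFun (congrArg Subtype.val hab) g
  have hm1 : ∀ ν ∈ T, m (ψ ν) = 1 := by
    intro ν hν
    have h1 : classInner (fun g => χ.1 g * conj (χ.1 g)) (ψ ν).1 = m (ψ ν) := by
      rw [hm]
      exact classInner_sum_irr (fun φ => (m φ : ℂ)) (ψ ν)
    have h2 : classInner (fun g => χ.1 g * conj (χ.1 g)) (ψ ν).1 = 1 := by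
      rw [← classInner_irr_self χ.2]
      unfold classInner
      congr 1
      apply Finset.sum_congr rfl
      intro g _
      have h3 : (ν g : ℂ) * χ.1 g = χ.1 g := congrFun (congrArg Subtype.val (hT ν hν)) g
      have h4 : conj (ν g : ℂ) * conj (χ.1 g) = conj (χ.1 g) := by rw [← map_mul, h3]
      show χ.1 g * conj (χ.1 g) * conj (ν g : ℂ) = χ.1 g * conj (χ.1 g)
      linear_combination (χ.1 g) * h4
    have : (m (ψ ν) : ℂ) = 1 := by rw [← h1, h2]
    exact_mod_cast this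
  choose d hd0 hdv using fun φ : IrrCharacter G => IsIrrCharacter.map_one_pos φ.2
  have h4 : ∑ φ : IrrCharacter G, m φ * d φ = 4 := by
    have h5 := congrFun hm 1
    simp only [Finset.sum_apply, Pi.smul_apply, smul_eq_mul] at h5
    have h6 : (χ.1 1 * conj (χ.1 1)) = 4 := by
      have h2c : conj (2 : ℂ) = 2 := by simp [Complex.ext_iff]
      rw [hd, h2c]
      norm_num
    rw [h6] at h5
    have h7 : ((∑ φ : IrrCharacter G, m φ * d φ : ℕ) : ℂ) = ((4 : ℕ) : ℂ) := by
      push_cast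
      rw [h5]
      apply Finset.sum_congr rfl
      intro φ _
      rw [hdv φ]
    exact_mod_cast h7
  calc T.card = ∑ ν ∈ T, 1 := by simp
    _ ≤ ∑ ν ∈ T, m (ψ ν) * d (ψ ν) := by
        apply Finset.sum_le_sum
        intro ν hν
        rw [hm1 ν hν, one_mul]
        exact hd0 _
    _ = ∑ φ ∈ T.image ψ, m φ * d φ := by
        rw [Finset.sum_image (fun a _ b _ h => hψinj h)]
    _ ≤ ∑ φ : IrrCharacter G, m φ * d φ :=
        Finset.sum_le_sum_of_subset (Finset.subset_univ _)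
    _ = 4 := h4

lemma parity {X : Type*} [DecidableEq X] (S : Finset X) (f : X → X) (hS : ∀ x ∈ S, f x ∈ S)
    (hf : ∀ x ∈ S, f (f x) = x) : Even S.card ↔ Even (S.filter (fun x => f x = x)).card := by
  have h1 : ∑ x ∈ S.filter (fun x => ¬ f x = x), (1 : ZMod 2) = 0 := by
    apply Finset.sum_involution (fun x _ => f x)
    · intro a _
      decide
    · intro a ha _
      exact (Finset.mem_filter.1 ha).2
    · intro a ha
      have ha' := Finset.mem_filter.1 ha
      refine Finset.mem_filter.2 ⟨hS a ha'.1, fun h => ?_⟩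
      apply ha'.2
      have := hf a ha'.1
      rw [h] at this
      exact this
    · intro a ha
      exact hf a (Finset.mem_filter.1 ha).1
  have h2 : Even (S.filter (fun x => ¬ f x = x)).card := by
    rw [← ZMod.natCast_eq_zero_iff_even]
    simpa using h1
  have h3 := Finset.card_filter_add_card_filter_not (s := S) (fun x => f x = x)
  rw [← h3, Nat.even_add]
  simp [h2]

lemma fs_count [DecidableEq G] : ∑ χ : IrrCharacter G,
    ((Nat.card G : ℂ)⁻¹ * ∑ s : G, χ.1 (s * s)) * χ.1 1 =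
      (((Finset.univ : Finset G).filter (fun x => x * x = 1)).card : ℂ) := by
  have hc : (Nat.card G : ℂ) ≠ 0 := by
    exact_mod_cast Nat.card_pos.ne'
  have h1 : ∀ χ : IrrCharacter G, ((Nat.card G : ℂ)⁻¹ * ∑ s : G, χ.1 (s * s)) * χ.1 1 =
      (Nat.card G : ℂ)⁻¹ * ∑ s : G, χ.1 1 * χ.1 (s * s) := by
    intro χ
    rw [mul_assoc, Finset.sum_mul]
    congr 1
    apply Finset.sum_congr rfl
    intro s _
    ring
  simp_rw [h1]
  rw [← Finset.mul_sum, Finset.sum_comm]
  have h2 : ∀ x : G, (∑ χ : IrrCharacter G, χ.1 1 * χ.1 (x * x)) =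
      (if x * x = 1 then (Nat.card G : ℂ) else 0) := by
    intro x
    rw [sum_degree_mul]
    by_cases h : x * x = 1 <;> simp [h]
  simp_rw [h2]
  rw [← Finset.sum_filter, Finset.sum_const, nsmul_eq_mul]
  field_simp

end Char

section Main

variable [Fintype G]

/-- real valued irreducible character -/
def IsRe (χ : IrrCharacter G) : Prop := ∀ g, (χ.1 g).im = 0

lemma im_zero_of_sq (z : ℂ) (h : z * z = 1) : z.im = 0 := by
  have h2 : (z - 1) * (z + 1) = 0 := by linear_combination h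
  rcases mul_eq_zero.1 h2 with h3 | h3
  · rw [sub_eq_zero.1 h3]
    simp
  · rw [eq_neg_of_add_eq_zero_left h3]
    simp

lemma tw_re (μ : G →* ℂˣ) (χ : IrrCharacter G) (hχ : IsRe χ)
    (h : ∀ g, χ.1 g ≠ 0 → (μ g : ℂ) * (μ g : ℂ) = 1) : IsRe (tw μ χ) := by
  intro g
  rw [tw_val]
  by_cases h0 : χ.1 g = 0
  · simp [h0]
  · have h1 := im_zero_of_sq _ (h g h0)
    have h2 := hχ g
    simp [Complex.mul_im, h1, h2]

lemma hom_sq_of_sq (μ : G →* ℂˣ) (h : μ * μ = 1) (g : G) : (μ g : ℂ) * (μ g : ℂ) = 1 := by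
  have e : (μ * μ) g = (1 : G →* ℂˣ) g := by rw [h]
  have e2 := congrArg (fun u : ℂˣ => (u : ℂ)) e
  simpa using e2

lemma tw_val_sq (μ : G →* ℂˣ) (χ : IrrCharacter G) (h : tw (μ * μ) χ = χ) (g : G)
    (h0 : χ.1 g ≠ 0) : (μ g : ℂ) * (μ g : ℂ) = 1 := by
  have e := congrFun (congrArg Subtype.val h) g
  have e2 : (μ g : ℂ) * (μ g : ℂ) * χ.1 g = χ.1 g := by
    have : (tw (μ * μ) χ).1 g = (μ g : ℂ) * (μ g : ℂ) * χ.1 g := by
      simp [tw_val]
    rw [← this]
    exact e
  exact mul_right_cancel₀ h0 (by rw [e2, one_mul])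

lemma exists_n (χ : IrrCharacter G) : ∃ n : ℤ, (n : ℂ) = (Nat.card G : ℂ)⁻¹ * ∑ s : G, χ.1 (s * s) ∧
    (n = 0 ∨ n = 1 ∨ n = -1) ∧ (n = 0 ↔ ¬ IsRe χ) := by
  have hFS : ((Nat.card G : ℂ)⁻¹ * ∑ s : G, χ.1 (s * s) = 0 ∨
      (Nat.card G : ℂ)⁻¹ * ∑ s : G, χ.1 (s * s) = 1 ∨
      (Nat.card G : ℂ)⁻¹ * ∑ s : G, χ.1 (s * s) = -1) ∧
      ((Nat.card G : ℂ)⁻¹ * ∑ s : G, χ.1 (s * s) = 0 ↔ ∃ s : G, (χ.1 s).im ≠ 0) := by
    obtain ⟨n, ρ, hρ, hχ⟩ := χ.2
    have := CharFS.frobenius_schur ρ hρ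
    rw [← hχ]
    exact this
  obtain ⟨h3, hiff⟩ := hFS
  have hre : (Nat.card G : ℂ)⁻¹ * ∑ s : G, χ.1 (s * s) = 0 ↔ ¬ IsRe χ := by
    rw [hiff]
    unfold IsRe
    push_neg
    rfl
  rcases h3 with h | h | h
  · refine ⟨0, by rw [h]; simp, Or.inl rfl, ?_⟩
    simp only [true_iff]
    exact hre.1 h
  · refine ⟨1, by rw [h]; simp, Or.inr (Or.inl rfl), ?_⟩
    constructor
    · intro e
      exact absurd e one_ne_zero
    · intro hn
      rw [h] at hre
      exact absurd (hre.2 hn) one_ne_zero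
  · refine ⟨-1, by rw [h]; simp, Or.inr (Or.inr rfl), ?_⟩
    constructor
    · intro e
      norm_num at e
    · intro hn
      rw [h] at hre
      have := hre.2 hn
      norm_num at this

lemma count_mod (hG : IsPGroup 2 G) [DecidableEq G] :
    ∀ [∀ χ : IrrCharacter G, Decidable (χ.1 1 = 1 ∧ IsRe χ)]
      [∀ χ : IrrCharacter G, Decidable (χ.1 1 = 2 ∧ IsRe χ)],
    (4 : ℤ) ∣ (((Finset.univ : Finset G).filter (fun x => x * x = 1)).card : ℤ)
      - (((Finset.univ : Finset (IrrCharacter G)).filter (fun χ => χ.1 1 = 1 ∧ IsRe χ)).card : ℤ)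
      - 2 * (((Finset.univ : Finset (IrrCharacter G)).filter
          (fun χ => χ.1 1 = 2 ∧ IsRe χ)).card : ℤ) := by
  intro _ _
  choose n hn hn3 hn0 using fun χ : IrrCharacter G => exists_n χ
  choose d hd0 hdv using fun χ : IrrCharacter G => IsIrrCharacter.map_one_pos χ.2
  obtain ⟨e, he⟩ := IsPGroup.iff_card.1 hG
  have hfs : (∑ χ : IrrCharacter G, n χ * (d χ : ℤ)) =
      (((Finset.univ : Finset G).filter (fun x => x * x = 1)).card : ℤ) := by
    have h1 := fs_count (G := G)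
    have h2 : ((∑ χ : IrrCharacter G, n χ * (d χ : ℤ) : ℤ) : ℂ) =
        ((((Finset.univ : Finset G).filter (fun x => x * x = 1)).card : ℤ) : ℂ) := by
      push_cast
      rw [← h1]
      apply Finset.sum_congr rfl
      intro χ _
      rw [hn χ, hdv χ]
    exact_mod_cast h2
  let a : IrrCharacter G → ℤ := fun χ => (if χ.1 1 = 1 ∧ IsRe χ then 1 else 0) +
    2 * (if χ.1 1 = 2 ∧ IsRe χ then 1 else 0)
  have hsum : ∑ χ, a χ =
      (((Finset.univ : Finset (IrrCharacter G)).filter (fun χ => χ.1 1 = 1 ∧ IsRe χ)).card : ℤ) +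
      2 * (((Finset.univ : Finset (IrrCharacter G)).filter
          (fun χ => χ.1 1 = 2 ∧ IsRe χ)).card : ℤ) := by
    simp only [a]
    rw [Finset.sum_add_distrib, ← Finset.mul_sum, Finset.sum_boole, Finset.sum_boole]
  have hper : ∀ χ : IrrCharacter G, (4 : ℤ) ∣ n χ * (d χ : ℤ) - a χ := by
    intro χ
    have hdχ : charDegree χ.1 = d χ := by
      unfold charDegree
      rw [hdv χ]
      simp
    have hdd : d χ ∣ 2 ^ e := by
      rw [← hdχ, ← he]
      exact BlockNorm.charDegree_dvd_card χ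
    obtain ⟨k, _, hk⟩ := (Nat.dvd_prime_pow Nat.prime_two).1 hdd
    have hone : χ.1 1 = 1 ↔ d χ = 1 := by
      rw [hdv χ]
      norm_cast
    have htwo : χ.1 1 = 2 ↔ d χ = 2 := by
      rw [hdv χ]
      norm_cast
    by_cases hre : IsRe χ
    · have hn' : n χ ≠ 0 := fun h => ((hn0 χ).1 h) hre
      rcases k with _ | _ | k
      · have hd1 : d χ = 1 := by simp [hk]
        have hn1 : n χ = 1 := by
          have h1 := CharFS.fs_eq_one_of_odd' χ.2 hre 1 (by rw [hdv χ, hd1]) odd_one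
          rw [← hn χ] at h1
          exact_mod_cast h1
        have ha : a χ = 1 := by
          simp only [a]
          rw [if_pos ⟨hone.2 hd1, hre⟩, if_neg (fun h => by
            have := htwo.1 h.1
            omega)]
          norm_num
        rw [ha, hn1, hd1]
        norm_num
      · have hd2 : d χ = 2 := by simp [hk]
        have ha : a χ = 2 := by
          simp only [a]
          rw [if_neg (fun h => by
            have := hone.1 h.1
            omega), if_pos ⟨htwo.2 hd2, hre⟩]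
          norm_num
        rw [ha, hd2]
        rcases hn3 χ with h | h | h
        · exact absurd h hn'
        · rw [h]
          norm_num
        · rw [h]
          norm_num
      · have hdk : d χ = 4 * 2 ^ k := by
          rw [hk]
          ring
        have hpos : 0 < 2 ^ k := by positivity
        have ha : a χ = 0 := by
          simp only [a]
          rw [if_neg (fun h => by
            have := hone.1 h.1
            omega), if_neg (fun h => by
            have := htwo.1 h.1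
            omega)]
          norm_num
        rw [ha, hdk]
        push_cast
        exact ⟨n χ * 2 ^ k, by ring⟩
    · have hn' : n χ = 0 := (hn0 χ).2 hre
      have ha : a χ = 0 := by
        simp only [a]
        rw [if_neg (fun h => hre h.2), if_neg (fun h => hre h.2)]
        norm_num
      rw [ha, hn']
      norm_num
  have hall : (4 : ℤ) ∣ ∑ χ : IrrCharacter G, (n χ * (d χ : ℤ) - a χ) :=
    Finset.dvd_sum (fun χ _ => hper χ)
  rw [Finset.sum_sub_distrib, hfs, hsum] at hall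
  have e1 : ∀ x y z : ℤ, x - (y + 2 * z) = x - y - 2 * z := fun x y z => by ring
  rwa [e1] at hall

lemma four_dvd_real (hG : IsPGroup 2 G) (μ₁ μ₂ : G →* ℂˣ) (s1 : μ₁ * μ₁ = 1) (s2 : μ₂ * μ₂ = 1)
    (n1 : μ₁ ≠ 1) (n2 : μ₂ ≠ 1) (n12 : μ₁ ≠ μ₂) :
    4 ∣ Nat.card {χ : IrrCharacter G // χ.1 1 = 1 ∧ IsRe χ} := by
  classical
  haveI : Finite (G →* ℂˣ) := Finite.of_equiv _ (linearEquivHom (G := G))
  let Rs : Subgroup (G →* ℂˣ) := (powMonoidHom 2 : (G →* ℂˣ) →* (G →* ℂˣ)).ker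
  have hRs : ∀ r : G →* ℂˣ, r ∈ Rs ↔ r * r = 1 := by
    intro r
    rw [MonoidHom.mem_ker, powMonoidHom_apply, pow_two]
  have hcard : Nat.card Rs = Nat.card {χ : IrrCharacter G // χ.1 1 = 1 ∧ IsRe χ} := by
    let f : Rs → {χ : IrrCharacter G // χ.1 1 = 1 ∧ IsRe χ} := fun r =>
      ⟨⟨fun g => (r.1 g : ℂ), isIrrCharacter_of_hom r.1⟩, by simp, fun g =>
        im_zero_of_sq _ (hom_sq_of_sq r.1 ((hRs r.1).1 r.2) g)⟩
    apply Nat.card_eq_of_bijective f
    constructor
    · intro a b hab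
      apply Subtype.ext
      ext g
      exact congrFun (congrArg (fun x : {χ : IrrCharacter G // χ.1 1 = 1 ∧ IsRe χ} => x.1.1) hab) g
    · rintro ⟨χ, h1, hre⟩
      obtain ⟨lam, hlam⟩ := exists_hom_of_linear (IsIrrCharacter.isCharacter χ.2) h1
      have hsq : lam * lam = 1 := by
        ext g
        have hv : χ.1 g = (lam g : ℂ) := congrFun hlam g
        have him := hre g
        rw [hv] at him
        have hc : conj (lam g : ℂ) = (lam g : ℂ) := Complex.conj_eq_iff_im.2 him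
        have hu := hom_unit lam g
        rw [hc] at hu
        simpa using hu
      refine ⟨⟨lam, (hRs lam).2 hsq⟩, ?_⟩
      apply Subtype.ext
      apply Subtype.ext
      exact hlam.symm
  rw [← hcard]
  have hp : IsPGroup 2 Rs := fun r => ⟨1, by
    apply Subtype.ext
    have := (hRs r.1).1 r.2
    simpa [pow_two] using this⟩
  obtain ⟨m, hm⟩ := IsPGroup.iff_card.1 hp
  haveI : Fintype Rs := Fintype.ofFinite Rs
  let r₁ : Rs := ⟨μ₁, (hRs μ₁).2 s1⟩
  let r₂ : Rs := ⟨μ₂, (hRs μ₂).2 s2⟩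
  have h3 : ({1, r₁, r₂} : Finset Rs).card = 3 :=
    Finset.card_eq_three.2 ⟨1, r₁, r₂, fun h => n1 (congrArg Subtype.val h).symm,
      fun h => n2 (congrArg Subtype.val h).symm, fun h => n12 (congrArg Subtype.val h), rfl⟩
  have h4 : 3 ≤ Nat.card Rs := by
    rw [Nat.card_eq_fintype_card, ← h3]
    exact Finset.card_le_univ _
  rw [hm] at h4 ⊢
  have hm2 : 2 ≤ m := by
    by_contra hlt
    have : m = 0 ∨ m = 1 := by omega
    rcases this with h | h <;> rw [h] at h4 <;> norm_num at h4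
  obtain ⟨j, rfl⟩ := Nat.exists_eq_add_of_le hm2
  exact ⟨2 ^ j, by rw [pow_add]; norm_num⟩

theorem main (hG : IsPGroup 2 G) (ht : Nat.card {x : G // orderOf x = 2} % 4 = 1) :
    IsCyclic G ∨ (commutator G).index = 4 := by
  classical
  by_contra hcon
  push_neg at hcon
  obtain ⟨hcyc, hidx⟩ := hcon
  haveI : Finite (G →* ℂˣ) := Finite.of_equiv _ (linearEquivHom (G := G))
  obtain ⟨K₁, K₂, h₁, h₂, hne⟩ := exists_two hG hcyc
  obtain ⟨μ₁, hμ₁⟩ : ∃ μ₁ : G →* ℂˣ, μ₁ = sgn K₁ h₁ := ⟨_, rfl⟩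
  obtain ⟨μ₂, hμ₂⟩ : ∃ μ₂ : G →* ℂˣ, μ₂ = sgn K₂ h₂ := ⟨_, rfl⟩
  have s1 : μ₁ * μ₁ = 1 := by rw [hμ₁]; exact sgn_sq _ _
  have s2 : μ₂ * μ₂ = 1 := by rw [hμ₂]; exact sgn_sq _ _
  have n1 : μ₁ ≠ 1 := by rw [hμ₁]; exact sgn_ne_one _ _
  have n2 : μ₂ ≠ 1 := by rw [hμ₂]; exact sgn_ne_one _ _
  have n12 : μ₁ ≠ μ₂ := by
    rw [hμ₁, hμ₂]
    exact fun e => hne (sgn_inj _ _ _ _ e)
  have a3 : (1 : G →* ℂˣ) ≠ μ₁ * μ₂ := by
    intro e
    apply n12
    apply MonoidHom.ext
    intro g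
    have h1 : μ₁ g * μ₂ g = 1 := by
      have : (μ₁ * μ₂) g = (1 : G →* ℂˣ) g := by rw [← e]
      exact this
    have h2 : μ₂ g * μ₂ g = 1 := by
      have : (μ₂ * μ₂) g = (1 : G →* ℂˣ) g := by rw [s2]
      exact this
    calc μ₁ g = μ₁ g * (μ₂ g * μ₂ g) := by rw [h2, mul_one]
      _ = (μ₁ g * μ₂ g) * μ₂ g := by rw [mul_assoc]
      _ = μ₂ g := by rw [h1, one_mul]
  have a5 : μ₁ ≠ μ₁ * μ₂ := by
    intro e
    apply n2
    apply MonoidHom.ext
    intro g
    have h1 : μ₁ g * μ₂ g = μ₁ g := by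
      have : (μ₁ * μ₂) g = μ₁ g := by rw [← e]
      exact this
    exact mul_eq_left.1 h1
  have a6 : μ₂ ≠ μ₁ * μ₂ := by
    intro e
    apply n1
    apply MonoidHom.ext
    intro g
    have h1 : μ₁ g * μ₂ g = μ₂ g := by
      have : (μ₁ * μ₂) g = μ₂ g := by rw [← e]
      exact this
    exact mul_eq_right.1 h1
  let V : Finset (G →* ℂˣ) := {1, μ₁, μ₂, μ₁ * μ₂}
  have hVc : V.card = 4 := by
    simp only [V]
    rw [Finset.card_insert_of_notMem (by
        simp only [Finset.mem_insert, Finset.mem_singleton, not_or]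
        exact ⟨n1.symm, n2.symm, a3⟩),
      Finset.card_insert_of_notMem (by
        simp only [Finset.mem_insert, Finset.mem_singleton, not_or]
        exact ⟨n12, a5⟩),
      Finset.card_insert_of_notMem (by
        simp only [Finset.mem_singleton]
        exact a6), Finset.card_singleton]
  obtain ⟨ν, hνV⟩ : ∃ ν : G →* ℂˣ, ν ∉ V := by
    by_contra hall
    push_neg at hall
    apply hidx
    rw [← card_linear, Nat.card_congr (linearEquivHom (G := G))]
    haveI : Fintype (G →* ℂˣ) := Fintype.ofFinite _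
    rw [Nat.card_eq_fintype_card, ← hVc, ← Finset.card_univ]
    rw [Finset.eq_univ_iff_forall.2 hall]
  obtain ⟨e, he⟩ := IsPGroup.iff_card.1 hG
  have hν1 : ν ^ (2 ^ e) = 1 := by
    ext g
    rw [← he]
    simp only [MonoidHom.pow_apply, MonoidHom.one_apply]
    rw [← map_pow, pow_card_eq_one', map_one]
  have hex : ∃ k, ν ^ (2 ^ k) ∈ V := ⟨e, by rw [hν1]; simp [V]⟩
  have hk0 : Nat.find hex ≠ 0 := by
    intro h
    have := Nat.find_spec hex
    rw [h] at this
    simp only [pow_zero, pow_one] at this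
    exact hνV this
  obtain ⟨μ, hμ⟩ : ∃ μ : G →* ℂˣ, μ = ν ^ (2 ^ (Nat.find hex - 1)) := ⟨_, rfl⟩
  have hμV : μ ∉ V := by
    rw [hμ]
    exact Nat.find_min hex (by omega)
  have hμ2 : μ * μ ∈ V := by
    have e1 : μ * μ = ν ^ (2 ^ Nat.find hex) := by
      apply MonoidHom.ext
      intro g
      show μ g * μ g = (ν ^ (2 ^ Nat.find hex)) g
      rw [hμ, MonoidHom.pow_apply, MonoidHom.pow_apply, ← pow_add]
      congr 1
      have : Nat.find hex = (Nat.find hex - 1) + 1 := by omega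
      conv_rhs => rw [this, pow_succ]
      ring
    rw [e1]
    exact Nat.find_spec hex
  let S0 : Finset (IrrCharacter G) := Finset.univ.filter (fun χ => χ.1 1 = 2 ∧ IsRe χ)
  let S1 : Finset (IrrCharacter G) := S0.filter (fun χ => tw μ₁ χ = χ)
  let S2 : Finset (IrrCharacter G) := S1.filter (fun χ => tw μ₂ χ = χ)
  have hS0 : ∀ χ, χ ∈ S0 ↔ χ.1 1 = 2 ∧ IsRe χ := by
    intro χ
    simp [S0]
  have hS1 : ∀ χ, χ ∈ S1 ↔ χ ∈ S0 ∧ tw μ₁ χ = χ := fun χ => Finset.mem_filter
  have hS2 : ∀ χ, χ ∈ S2 ↔ χ ∈ S1 ∧ tw μ₂ χ = χ := fun χ => Finset.mem_filter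
  have hVfix : ∀ χ ∈ S2, ∀ v ∈ V, tw v χ = χ := by
    intro χ hχ v hv
    have h₂' := (hS2 χ).1 hχ
    have h₁' := (hS1 χ).1 h₂'.1
    simp only [V, Finset.mem_insert, Finset.mem_singleton] at hv
    rcases hv with rfl | rfl | rfl | rfl
    · exact tw_one χ
    · exact h₁'.2
    · exact h₂'.2
    · rw [← tw_mul, h₂'.2, h₁'.2]
  have hS3 : S2.filter (fun χ => tw μ χ = χ) = ∅ := by
    rw [Finset.eq_empty_iff_forall_notMem]
    intro χ hχ
    obtain ⟨hχ2, hfix⟩ := Finset.mem_filter.1 hχ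
    have h₀ := ((hS0 χ).1 ((hS1 χ).1 ((hS2 χ).1 hχ2).1).1).1
    have hle := stab_le χ h₀ (insert μ V) (by
      intro v hv
      rcases Finset.mem_insert.1 hv with rfl | hv
      · exact hfix
      · exact hVfix χ hχ2 v hv)
    rw [Finset.card_insert_of_notMem hμV, hVc] at hle
    omega
  have hP2 : Even S2.card := by
    have := parity S2 (tw μ) (by
      intro χ hχ
      have hfixμ2 := hVfix χ hχ _ hμ2
      have h₂' := (hS2 χ).1 hχ
      have h₁' := (hS1 χ).1 h₂'.1
      have h₀' := (hS0 χ).1 h₁'.1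
      refine (hS2 _).2 ⟨(hS1 _).2 ⟨(hS0 _).2 ⟨?_, ?_⟩, ?_⟩, ?_⟩
      · rw [tw_deg]
        exact h₀'.1
      · exact tw_re μ χ h₀'.2 (tw_val_sq μ χ hfixμ2)
      · rw [tw_comm, h₁'.2]
      · rw [tw_comm, h₂'.2]) (by
      intro χ hχ
      rw [tw_mul]
      exact hVfix χ hχ _ hμ2)
    rw [this, hS3]
    simp
  have hP1 : Even S1.card := by
    have := parity S1 (tw μ₂) (by
      intro χ hχ
      have h₁' := (hS1 χ).1 hχ
      have h₀' := (hS0 χ).1 h₁'.1
      refine (hS1 _).2 ⟨(hS0 _).2 ⟨?_, ?_⟩, ?_⟩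
      · rw [tw_deg]
        exact h₀'.1
      · exact tw_re μ₂ χ h₀'.2 (fun g _ => hom_sq_of_sq μ₂ s2 g)
      · rw [tw_comm, h₁'.2]) (by
      intro χ hχ
      rw [tw_mul, s2, tw_one])
    rw [this]
    exact hP2
  have hP0 : Even S0.card := by
    have := parity S0 (tw μ₁) (by
      intro χ hχ
      have h₀' := (hS0 χ).1 hχ
      refine (hS0 _).2 ⟨?_, ?_⟩
      · rw [tw_deg]
        exact h₀'.1
      · exact tw_re μ₁ χ h₀'.2 (fun g _ => hom_sq_of_sq μ₁ s1 g)) (by
      intro χ hχ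
      rw [tw_mul, s1, tw_one])
    rw [this]
    exact hP1
  have hR := four_dvd_real hG μ₁ μ₂ s1 s2 n1 n2 n12
  have hmod := count_mod hG (G := G)
  have hRc : Nat.card {χ : IrrCharacter G // χ.1 1 = 1 ∧ IsRe χ} =
      ((Finset.univ : Finset (IrrCharacter G)).filter (fun χ => χ.1 1 = 1 ∧ IsRe χ)).card := by
    rw [Nat.card_eq_fintype_card, Fintype.card_subtype]
  rw [hRc] at hR
  have hinv : ((Finset.univ : Finset G).filter (fun x => x * x = 1)).card =
      Nat.card {x : G // orderOf x = 2} + 1 := by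
    rw [Nat.card_eq_fintype_card, Fintype.card_subtype]
    have hset : (Finset.univ : Finset G).filter (fun x => x * x = 1) =
        insert 1 ((Finset.univ : Finset G).filter (fun x => orderOf x = 2)) := by
      ext x
      simp only [Finset.mem_filter, Finset.mem_univ, true_and, Finset.mem_insert]
      constructor
      · intro h
        by_cases hx : x = 1
        · exact Or.inl hx
        · right
          haveI : Fact (Nat.Prime 2) := ⟨Nat.prime_two⟩
          exact orderOf_eq_prime (by rw [pow_two]; exact h) hx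
      · rintro (rfl | h)
        · simp
        · have := pow_orderOf_eq_one x
          rw [h, pow_two] at this
          exact this
    rw [hset, Finset.card_insert_of_notMem]
    simp
  have hS0c : S0.card = ((Finset.univ : Finset (IrrCharacter G)).filter
      (fun χ => χ.1 1 = 2 ∧ IsRe χ)).card := rfl
  rw [hinv, ← hS0c] at hmod
  obtain ⟨c₀, hc₀⟩ := hP0
  obtain ⟨c₁, hc₁⟩ := hR
  rw [hc₀, hc₁] at hmod
  obtain ⟨c₂, hc₂⟩ := hmod
  push_cast at hc₂
  have ht2 := Nat.div_add_mod (Nat.card {x : G // orderOf x = 2}) 4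
  rw [ht] at ht2
  omega

end Main

end Cfsg.Agent.Lib.AFT
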