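import Mathlib

/-! Faithful irreducible representations of abelian groups over a finite field that carry an
invariant nondegenerate form. -/

set_option autoImplicit false

namespace Cfsg.Agent.Lib.AbelSD

open Module

section Core

variable {F K H : Type*} [Field F] [Fintype F] [Field K] [Algebra F K] [FiniteDimensional F K]
  [CommGroup H] [Finite H]

lemma frob_pow_apply (k : ℕ) (x : K) :
    (FiniteField.frobeniusAlgHom F K ^ k) x = x ^ (Fintype.card F ^ k) := by
  rw [AlgHom.coe_pow, FiniteField.coe_frobeniusAlgHom, pow_iterate]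

theorem coreA (ι : H →* K) (hd : Nat.card H ∣ Fintype.card F ^ (finrank F K / 2) + 1) :
    ∃ B : LinearMap.BilinForm F K, B.Nondegenerate ∧
      ∀ (h : H) (x y : K), B (ι h * x) (ι h * y) = B x y := by
  classical
  haveI : Finite K := Module.finite_of_finite F
  let k := finrank F K / 2
  let σ : K →ₐ[F] K := FiniteField.frobeniusAlgHom F K ^ k
  have hσ : ∀ x, σ x = x ^ (Fintype.card F ^ k) := fun x => frob_pow_apply k x
  have hσinj : Function.Injective σ := σ.toRingHom.injective
  have hσsurj : Function.Surjective σ := Finite.surjective_of_injective hσinj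
  let T : LinearMap.BilinForm F K := Algebra.traceForm F K
  have hT : T.Nondegenerate := traceForm_nondegenerate F K
  let B : LinearMap.BilinForm F K := T.compl₁₂ LinearMap.id σ.toLinearMap
  have hBa : ∀ x y, B x y = Algebra.trace F K (x * σ y) := fun x y => by
    simp [B, T, LinearMap.compl₁₂_apply, Algebra.traceForm_apply]
  have hTa : ∀ x y, T x y = Algebra.trace F K (x * y) := fun x y => by
    simp [T, Algebra.traceForm_apply]
  refine ⟨B, ⟨?_, ?_⟩, ?_⟩
  · intro x hx
    apply hT.1 x
    intro y
    obtain ⟨z, rfl⟩ := hσsurj y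
    have := hx z
    rw [hBa] at this
    rw [hTa]
    exact this
  · intro y hy
    apply hσinj
    rw [map_zero]
    apply hT.2 (σ y)
    intro x
    have := hy x
    rw [hBa] at this
    rw [hTa]
    exact this
  · intro h x y
    rw [hBa, hBa, map_mul σ]
    have h1 : σ (ι h) * ι h = 1 := by
      rw [hσ, ← map_pow, ← map_mul, ← pow_succ]
      have : h ^ (Fintype.card F ^ k + 1) = 1 := by
        obtain ⟨c, hc⟩ := hd
        rw [hc, pow_mul, pow_card_eq_one', one_pow]
      rw [this, map_one]
    have e : ι h * x * (σ (ι h) * σ y) = x * σ y := by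
      linear_combination (x * σ y) * h1
    rw [e]

theorem coreB (ι : H →* K) (hinj : Function.Injective ι)
    (hgen : Algebra.adjoin F (Set.range ι) = ⊤) (hn : 2 ≤ finrank F K)
    (B : LinearMap.BilinForm F K) (hB : B.Nondegenerate)
    (hBi : ∀ (h : H) (x y : K), B (ι h * x) (ι h * y) = B x y) :
    Even (finrank F K) ∧ Nat.card H ∣ Fintype.card F ^ (finrank F K / 2) + 1 := by
  classical
  haveI : Finite K := Module.finite_of_finite F
  let lam : K →ₗ[F] F := (LinearMap.flip B) 1
  have hlama : ∀ x, lam x = B x 1 := fun x => rfl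
  have hlam : ∃ x, lam x ≠ 0 := by
    by_contra hcon
    push_neg at hcon
    exact one_ne_zero (hB.2 1 hcon)
  let P : K →ₗ[F] Module.Dual F K := (LinearMap.mul F K).compr₂ lam
  have hPa : ∀ c x, P c x = lam (c * x) := fun c x => rfl
  have hPinj : Function.Injective P := by
    rw [← LinearMap.ker_eq_bot, LinearMap.ker_eq_bot']
    intro c hc
    by_contra hne
    obtain ⟨x, hx⟩ := hlam
    apply hx
    have := LinearMap.congr_fun hc (c⁻¹ * x)
    rw [hPa, mul_inv_cancel_left₀ hne] at this
    exact this
  have hPsurj : Function.Surjective P := by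
    apply (LinearMap.injective_iff_surjective_of_finrank_eq_finrank _).1 hPinj
    exact (Subspace.dual_finrank_eq).symm
  let E : K ≃ₗ[F] Module.Dual F K := LinearEquiv.ofBijective P ⟨hPinj, hPsurj⟩
  let τ : K →ₗ[F] K := E.symm.toLinearMap ∘ₗ (LinearMap.flip B)
  have hτ : ∀ x y, lam (τ y * x) = B x y := by
    intro x y
    have : E (τ y) = LinearMap.flip B y := by simp [τ]
    have h2 := LinearMap.congr_fun this x
    exact h2
  have huniq : ∀ c d : K, (∀ x, lam (c * x) = lam (d * x)) → c = d := by
    intro c d h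
    apply hPinj
    ext x
    exact h x
  have hτ1 : τ 1 = 1 := by
    apply huniq
    intro x
    rw [hτ, one_mul]
    rfl
  have hιne : ∀ h, ι h ≠ 0 := by
    intro h h0
    have : ι h * ι h⁻¹ = 1 := by rw [← map_mul, mul_inv_cancel, map_one]
    rw [h0, zero_mul] at this
    exact zero_ne_one this
  have hιinv : ∀ h, ι h * ι h⁻¹ = 1 := fun h => by rw [← map_mul, mul_inv_cancel, map_one]
  have hτι : ∀ h y, τ (ι h * y) = ι h⁻¹ * τ y := by
    intro h y
    apply huniq
    intro x
    rw [hτ]
    have e := hBi h (ι h⁻¹ * x) y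
    have e2 : ι h * (ι h⁻¹ * x) = x := by
      rw [← mul_assoc, hιinv, one_mul]
    rw [e2] at e
    rw [e, ← hτ]
    congr 1
    ring
  have hτι1 : ∀ h, τ (ι h) = ι h⁻¹ := by
    intro h
    have := hτι h 1
    rwa [mul_one, hτ1, mul_one] at this
  have hτmul : ∀ a : K, ∀ y, τ (a * y) = τ a * τ y := by
    intro a
    have ha : a ∈ Algebra.adjoin F (Set.range ι) := by rw [hgen]; exact Algebra.mem_top
    induction ha using Algebra.adjoin_induction with
    | mem x hx =>
      obtain ⟨h, rfl⟩ := hx
      intro y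
      rw [hτι, hτι1]
    | algebraMap c =>
      intro y
      rw [Algebra.algebraMap_eq_smul_one, smul_mul_assoc, one_mul, map_smul, map_smul, hτ1,
        smul_mul_assoc, one_mul]
    | add a b _ _ iha ihb =>
      intro y
      rw [add_mul, map_add, map_add, iha, ihb, add_mul]
    | mul a b _ _ iha ihb =>
      intro y
      have e : τ (a * b) = τ a * τ b := iha b
      rw [e, mul_assoc, iha, ihb, mul_assoc]
  let τA : K →ₐ[F] K := AlgHom.ofLinearMap τ hτ1 hτmul
  have hτAa : ∀ x, τA x = τ x := fun x => rfl
  obtain ⟨⟨k, hk⟩, hkτ0⟩ := (FiniteField.bijective_frobeniusAlgHom_pow F K).2 τA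
  have hkτ : FiniteField.frobeniusAlgHom F K ^ k = τA := hkτ0
  have hkτ' : ∀ x, τ x = x ^ (Fintype.card F ^ k) := by
    intro x
    rw [← hτAa, ← hkτ]
    exact frob_pow_apply k x
  have hτ2 : τA.comp τA = AlgHom.id F K := by
    apply AlgHom.ext_of_adjoin_eq_top hgen
    rintro x ⟨h, rfl⟩
    show τ (τ (ι h)) = ι h
    rw [hτι1, hτι1, inv_inv]
  have hdvd : finrank F K ∣ 2 * k := by
    rw [← FiniteField.orderOf_frobeniusAlgHom F K]
    apply orderOf_dvd_of_pow_eq_one
    rw [two_mul, pow_add, hkτ]
    exact hτ2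
  have hk0 : k ≠ 0 := by
    rintro rfl
    have hall : ∀ h, ι h = 1 ∨ ι h = -1 := by
      intro h
      have e1 : τ (ι h) = ι h := by
        rw [hkτ']
        simp
      rw [hτι1] at e1
      have e2 := hιinv h
      rw [e1] at e2
      have : (ι h - 1) * (ι h + 1) = 0 := by linear_combination e2
      rcases mul_eq_zero.1 this with h3 | h3
      · left; exact sub_eq_zero.1 h3
      · right; exact eq_neg_of_add_eq_zero_left h3
    have hbot : (⊥ : Subalgebra F K) = ⊤ := by
      rw [eq_top_iff, ← hgen]
      apply Algebra.adjoin_le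
      rintro x ⟨h, rfl⟩
      rcases hall h with e | e
      · rw [e]; exact Subalgebra.one_mem _
      · rw [e]; exact Subalgebra.neg_mem _ (Subalgebra.one_mem _)
    have := Subalgebra.bot_eq_top_iff_finrank_eq_one.1 hbot
    omega
  have hkn : finrank F K = 2 * k := by
    obtain ⟨c, hc⟩ := hdvd
    have hc1 : c = 1 := by
      have hcpos : c ≠ 0 := by
        rintro rfl
        omega
      have hlt : c < 2 := by
        by_contra hge
        push_neg at hge
        have : finrank F K * 2 ≤ finrank F K * c := Nat.mul_le_mul_left _ hge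
        omega
      omega
    rw [hc1, mul_one] at hc
    exact hc.symm
  refine ⟨⟨k, by omega⟩, ?_⟩
  have hk2 : finrank F K / 2 = k := by omega
  rw [hk2]
  haveI : IsCyclic H := isCyclic_of_injective_ringHom ι hinj
  rw [← IsCyclic.exponent_eq_card]
  apply Monoid.exponent_dvd_of_forall_pow_eq_one
  intro h
  apply hinj
  rw [map_pow, map_one, pow_succ, ← hkτ', hτι1, mul_comm, hιinv]

end Core

section Transport

variable {F M₁ M₂ : Type*} [Field F] [AddCommGroup M₁] [Module F M₁] [AddCommGroup M₂] [Module F M₂]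

lemma pull_nondeg (e : M₁ ≃ₗ[F] M₂) (B : LinearMap.BilinForm F M₂) (hB : B.Nondegenerate) :
    (B.compl₁₂ e.toLinearMap e.toLinearMap : LinearMap.BilinForm F M₁).Nondegenerate := by
  constructor
  · intro x hx
    have : e x = 0 := hB.1 (e x) (fun v => by
      have := hx (e.symm v)
      simpa [LinearMap.compl₁₂_apply] using this)
    simpa using this
  · intro x hx
    have : e x = 0 := hB.2 (e x) (fun v => by
      have := hx (e.symm v)
      simpa [LinearMap.compl₁₂_apply] using this)
    simpa using this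

end Transport

section Main

variable {F H V : Type*} [Field F] [Fintype F] [CommGroup H] [Finite H]
  [AddCommGroup V] [Module F V] [FiniteDimensional F V]

theorem abstract_main {K : Type*} [Field K] [Algebra F K] [FiniteDimensional F K]
    (ρ : Representation F H V) (ι : H →* K) (hinj : Function.Injective ι)
    (hgen : Algebra.adjoin F (Set.range ι) = ⊤) (φ : K ≃ₗ[F] V)
    (hφ : ∀ (h : H) (x : K), φ (ι h * x) = ρ h (φ x)) (hn : 2 ≤ finrank F V) :
    (∃ B : LinearMap.BilinForm F V, B.Nondegenerate ∧
      ∀ h : H, ∀ x y : V, B (ρ h x) (ρ h y) = B x y) ↔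
    (Even (finrank F V) ∧ Nat.card H ∣ Fintype.card F ^ (finrank F V / 2) + 1) := by
  have hfr : finrank F K = finrank F V := φ.finrank_eq
  constructor
  · rintro ⟨B, hB, hBi⟩
    have := coreB (F := F) ι hinj hgen (by omega) (B.compl₁₂ φ.toLinearMap φ.toLinearMap)
      (pull_nondeg φ B hB) (fun h x y => by
        simp only [LinearMap.compl₁₂_apply, LinearEquiv.coe_coe]
        rw [hφ, hφ, hBi])
    rwa [hfr] at this
  · rintro ⟨_, hd⟩
    obtain ⟨B, hB, hBi⟩ := coreA (F := F) ι (by rwa [hfr])
    refine ⟨B.compl₁₂ φ.symm.toLinearMap φ.symm.toLinearMap, pull_nondeg φ.symm B hB, ?_⟩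
    intro h x y
    simp only [LinearMap.compl₁₂_apply, LinearEquiv.coe_coe]
    have e : ∀ z, φ.symm (ρ h z) = ι h * φ.symm z := by
      intro z
      apply φ.injective
      rw [hφ]
      simp
    rw [e, e, hBi]

theorem dim_one (ρ : Representation F H V) (hfaith : Function.Injective ρ)
    (hdim : finrank F V = 1) (B : LinearMap.BilinForm F V) (hB : B.Nondegenerate)
    (hBi : ∀ h : H, ∀ x y : V, B (ρ h x) (ρ h y) = B x y) : Nat.card H ≤ 2 := by
  classical
  obtain ⟨v, hv0, hv⟩ := finrank_eq_one_iff'.1 hdim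
  have hBv : B v v ≠ 0 := by
    intro h0
    apply hv0
    apply hB.1 v
    intro w
    obtain ⟨c, rfl⟩ := hv w
    rw [map_smul, h0, smul_zero]
  have hsq : ∀ h : H, ρ h v = v ∨ ρ h v = -v := by
    intro h
    obtain ⟨c, hc⟩ := hv (ρ h v)
    have e := hBi h v v
    rw [← hc, map_smul, map_smul, LinearMap.smul_apply, smul_eq_mul, smul_eq_mul] at e
    have e2 : (c - 1) * (c + 1) * B v v = 0 := by linear_combination e
    rcases mul_eq_zero.1 e2 with h3 | h3
    · rcases mul_eq_zero.1 h3 with h4 | h4
      · left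
        rw [← hc, sub_eq_zero.1 h4, one_smul]
      · right
        rw [← hc, eq_neg_of_add_eq_zero_left h4, neg_smul, one_smul]
    · exact absurd h3 hBv
  have hinj : Function.Injective (fun h : H => decide (ρ h v = v)) := by
    intro a b hab
    apply hfaith
    have hab' : ρ a v = ρ b v := by
      have hab2 : (ρ a v = v) ↔ (ρ b v = v) := by simpa using hab
      rcases hsq a with h1 | h1
      · rw [h1, hab2.1 h1]
      · rcases hsq b with h2 | h2
        · rw [h2, hab2.2 h2]
        · rw [h1, h2]
    ext w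
    obtain ⟨c, rfl⟩ := hv w
    simp only [map_smul]
    rw [hab']
  have := Nat.card_le_card_of_injective _ hinj
  simpa using this

theorem dim_ge (ρ : Representation F H V) (hfaith : Function.Injective ρ)
    (hirr : ∀ U : Submodule F V, (∀ h : H, ∀ u ∈ U, ρ h u ∈ U) → U = ⊥ ∨ U = ⊤)
    (hn : 2 ≤ finrank F V) :
    (∃ B : LinearMap.BilinForm F V, B.Nondegenerate ∧
      ∀ h : H, ∀ x y : V, B (ρ h x) (ρ h y) = B x y) ↔
    (Even (finrank F V) ∧ Nat.card H ∣ Fintype.card F ^ (finrank F V / 2) + 1) := by
  classical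
  have hcomm : ∀ x ∈ Set.range ρ, ∀ y ∈ Set.range ρ, x * y = y * x := by
    rintro _ ⟨a, rfl⟩ _ ⟨b, rfl⟩
    rw [← map_mul, ← map_mul, mul_comm]
  haveI : Nontrivial V := Module.nontrivial_of_finrank_pos (R := F) (by omega)
  letI crR : CommRing (Algebra.adjoin F (Set.range ρ)) := Algebra.adjoinCommRingOfComm F hcomm
  let ι : H →* (Algebra.adjoin F (Set.range ρ)) :=
    { toFun := fun h => ⟨ρ h, Algebra.subset_adjoin ⟨h, rfl⟩⟩
      map_one' := Subtype.ext (map_one ρ)
      map_mul' := fun a b => Subtype.ext (map_mul ρ a b) }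
  have hιinj : Function.Injective ι := fun a b hab => hfaith (congrArg Subtype.val hab)
  have hcm : ∀ (T : Algebra.adjoin F (Set.range ρ)) (h : H) (x : V),
      T.1 (ρ h x) = ρ h (T.1 x) := by
    intro T h x
    have e : T * ι h = ι h * T := mul_comm _ _
    have e2 := congrArg Subtype.val e
    exact LinearMap.congr_fun e2 x
  have hTinj : ∀ T : Algebra.adjoin F (Set.range ρ), T ≠ 0 → ∀ x, T.1 x = 0 → x = 0 := by
    intro T hT x hx
    rcases hirr (LinearMap.ker T.1) (fun h u hu => by
      rw [LinearMap.mem_ker] at hu ⊢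
      rw [hcm, hu, map_zero]) with h0 | h0
    · have : x ∈ LinearMap.ker T.1 := hx
      rw [h0] at this
      simpa using this
    · exfalso
      apply hT
      apply Subtype.ext
      exact LinearMap.ker_eq_top.1 h0
  haveI : NoZeroDivisors (Algebra.adjoin F (Set.range ρ)) := by
    constructor
    intro a b hab
    by_contra hcon
    push_neg at hcon
    apply hcon.2
    apply Subtype.ext
    ext x
    have e := LinearMap.congr_fun (congrArg Subtype.val hab) x
    exact hTinj a hcon.1 _ e
  haveI : IsDomain (Algebra.adjoin F (Set.range ρ)) := NoZeroDivisors.to_isDomain _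
  obtain ⟨v, hv0⟩ := exists_ne (0 : V)
  let φ : (Algebra.adjoin F (Set.range ρ)) →ₗ[F] V :=
    { toFun := fun T => T.1 v
      map_add' := fun _ _ => rfl
      map_smul' := fun _ _ => rfl }
  have hφinj : Function.Injective φ := by
    rw [← LinearMap.ker_eq_bot, LinearMap.ker_eq_bot']
    intro T hT
    by_contra hne
    exact hv0 (hTinj T hne v hT)
  have hφsurj : Function.Surjective φ := by
    rw [← LinearMap.range_eq_top]
    rcases hirr (LinearMap.range φ) (fun h u hu => by
      obtain ⟨T, rfl⟩ := hu
      exact ⟨ι h * T, rfl⟩) with h0 | h0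
    · exfalso
      have : φ 1 ∈ LinearMap.range φ := ⟨1, rfl⟩
      rw [h0] at this
      exact hv0 (by simpa [φ] using this)
    · exact h0
  let E := LinearEquiv.ofBijective φ ⟨hφinj, hφsurj⟩
  have hkey : ∀ (t : Module.End F V) (ht : t ∈ Algebra.adjoin F (Set.range ρ)),
      (⟨t, ht⟩ : Algebra.adjoin F (Set.range ρ)) ∈ Algebra.adjoin F (Set.range ι) := by
    intro t ht
    induction ht using Algebra.adjoin_induction with
    | mem x hx =>
      obtain ⟨h, rfl⟩ := hx
      exact Algebra.subset_adjoin ⟨h, rfl⟩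
    | algebraMap c =>
      exact Subalgebra.algebraMap_mem _ c
    | add a b ha hb iha ihb =>
      exact Subalgebra.add_mem _ iha ihb
    | mul a b ha hb iha ihb =>
      exact Subalgebra.mul_mem _ iha ihb
  have hgen : Algebra.adjoin F (Set.range ι) = ⊤ :=
    eq_top_iff.2 (fun T _ => hkey T.1 T.2)
  letI fR : Field (Algebra.adjoin F (Set.range ρ)) :=
    fieldOfFiniteDimensional F (Algebra.adjoin F (Set.range ρ))
  exact abstract_main ρ ι hιinj hgen E (fun h x => rfl) hn

end Main

end Cfsg.Agent.Lib.AbelSD
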