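import Mathlib

set_option autoImplicit false

namespace Cfsg.Agent.Lib.Alt4

open Matrix

variable {K : Type*} [Field K]

local notation "M" => Matrix (Fin 4) (Fin 4) K

/-- The alternating matrix with given upper entries. -/
def altOf (a b c d e f : K) : M := !![0, a, b, c; -a, 0, d, e; -b, -d, 0, f; -c, -e, -f, 0]

/-- The Pfaffian. -/
def Pf (A : M) : K := A 0 1 * A 2 3 - A 0 2 * A 1 3 + A 0 3 * A 1 2

theorem Pf_altOf (a b c d e f : K) : Pf (altOf a b c d e f) = a * f - b * e + c * d := rfl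

/-- Alternating matrices. -/
def IsAlt (A : M) : Prop := A = altOf (A 0 1) (A 0 2) (A 0 3) (A 1 2) (A 1 3) (A 2 3)

theorem isAlt_altOf (a b c d e f : K) : IsAlt (altOf a b c d e f) := rfl

theorem det4 (g : M) : g.det =
    g 0 0 * (g 1 1 * (g 2 2 * g 3 3 - g 2 3 * g 3 2) - g 1 2 * (g 2 1 * g 3 3 - g 2 3 * g 3 1) + g 1 3 * (g 2 1 * g 3 2 - g 2 2 * g 3 1))
    - g 0 1 * (g 1 0 * (g 2 2 * g 3 3 - g 2 3 * g 3 2) - g 1 2 * (g 2 0 * g 3 3 - g 2 3 * g 3 0) + g 1 3 * (g 2 0 * g 3 2 - g 2 2 * g 3 0))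
    + g 0 2 * (g 1 0 * (g 2 1 * g 3 3 - g 2 3 * g 3 1) - g 1 1 * (g 2 0 * g 3 3 - g 2 3 * g 3 0) + g 1 3 * (g 2 0 * g 3 1 - g 2 1 * g 3 0))
    - g 0 3 * (g 1 0 * (g 2 1 * g 3 2 - g 2 2 * g 3 1) - g 1 1 * (g 2 0 * g 3 2 - g 2 2 * g 3 0) + g 1 2 * (g 2 0 * g 3 1 - g 2 1 * g 3 0)) := by
  rw [Matrix.det_succ_row_zero]
  simp only [Fin.sum_univ_four, Matrix.det_fin_three, Matrix.submatrix_apply]
  simp [Fin.succAbove]
  ring

theorem sandwich_apply (g A : M) (i j : Fin 4) : (g * A * g.transpose) i j =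
    ∑ k : Fin 4, ∑ l : Fin 4, g i l * A l k * g j k := by
  simp only [Matrix.mul_apply, Matrix.transpose_apply, Finset.sum_mul]

theorem Pf_sandwich_altOf (g : M) (a b c d e f : K) : Pf (g * altOf a b c d e f * g.transpose) = g.det * Pf (altOf a b c d e f) := by
  rw [det4, Pf_altOf, Pf]
  simp only [sandwich_apply, Fin.sum_univ_four]
  simp [altOf]
  ring

theorem isAlt_of {A : M} (h1 : ∀ s t, A t s = - A s t) (h2 : ∀ s, A s s = 0) : IsAlt A := by
  unfold IsAlt altOf
  ext s t
  fin_cases s <;> fin_cases t <;> simp [h2, h1 1 0, h1 2 0, h1 3 0, h1 2 1, h1 3 1, h1 3 2]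

theorem isAlt_symm {A : M} (h : IsAlt A) (s t : Fin 4) : A t s = - A s t := by
  rw [h]
  unfold altOf
  fin_cases s <;> fin_cases t <;> simp

theorem isAlt_diag {A : M} (h : IsAlt A) (s : Fin 4) : A s s = 0 := by
  rw [h]
  unfold altOf
  fin_cases s <;> simp

theorem isAlt_sandwich (g : M) {A : M} (hA : IsAlt A) : IsAlt (g * A * g.transpose) := by
  rw [hA]
  generalize A 0 1 = a
  generalize A 0 2 = b
  generalize A 0 3 = c
  generalize A 1 2 = d
  generalize A 1 3 = e
  generalize A 2 3 = f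
  apply isAlt_of
  · intro s t
    simp only [sandwich_apply, Fin.sum_univ_four]
    fin_cases s <;> fin_cases t <;> simp [altOf] <;> ring
  · intro s
    simp only [sandwich_apply, Fin.sum_univ_four]
    fin_cases s <;> simp [altOf] <;> ring

theorem Pf_sandwich (g : M) {A : M} (hA : IsAlt A) : Pf (g * A * g.transpose) = g.det * Pf A := by
  rw [hA]
  exact Pf_sandwich_altOf _ _ _ _ _ _ _

/-- The elementary alternating matrices. -/
def Eij (i j : Fin 4) : M := Matrix.of fun s t => (if s = i ∧ t = j then 1 else 0) - (if s = j ∧ t = i then 1 else 0)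

theorem Eij_alt {i j : Fin 4} (hij : i ≠ j) : IsAlt (Eij (K := K) i j) := by
  apply isAlt_of
  · intro s t
    simp only [Eij, Matrix.of_apply]
    by_cases h1 : s = i ∧ t = j
    · obtain ⟨rfl, rfl⟩ := h1
      simp [hij, Ne.symm hij]
    · by_cases h2 : s = j ∧ t = i
      · obtain ⟨rfl, rfl⟩ := h2
        simp [hij, Ne.symm hij]
      · have h3 : ¬ (t = i ∧ s = j) := fun h => h2 ⟨h.2, h.1⟩
        have h4 : ¬ (t = j ∧ s = i) := fun h => h1 ⟨h.2, h.1⟩
        simp [h1, h2, h3, h4]
  · intro s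
    simp only [Eij, Matrix.of_apply]
    have h1 : ¬ (s = i ∧ s = j) := fun h => hij (h.1.symm.trans h.2)
    have h2 : ¬ (s = j ∧ s = i) := fun h => hij (h.2.symm.trans h.1)
    simp [h1, h2]

theorem minor (g : M) (i j k l : Fin 4) : (g * (Eij i j : M) * g.transpose : M) k l = g k i * g l j - g k j * g l i := by
  simp only [sandwich_apply, Eij, Matrix.of_apply]
  have h : ∀ a b : Fin 4, g k a * ((if a = i ∧ b = j then (1 : K) else 0) - (if a = j ∧ b = i then (1 : K) else 0)) * g l b =
      (if a = i then (if b = j then g k a * g l b else 0) else 0) - (if a = j then (if b = i then g k a * g l b else 0) else 0) := by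
    intro a b
    rw [mul_sub, sub_mul]
    congr 1
    · by_cases h1 : a = i <;> by_cases h2 : b = j <;> simp [h1, h2]
    · by_cases h3 : a = j <;> by_cases h4 : b = i <;> simp [h3, h4]
  rw [Finset.sum_comm]
  simp only [h, Finset.sum_sub_distrib]
  simp

/-- An element fixing all alternating matrices is `± 1`. -/
theorem scalar_of_fix (g : M) (h : ∀ A : M, IsAlt A → g * A * g.transpose = A) :
    ∃ r : K, r ^ 2 = 1 ∧ ∀ i j, g i j = if i = j then r else 0 := by
  have hm : ∀ i j k l : Fin 4, i ≠ j → g k i * g l j - g k j * g l i = Eij i j k l := fun i j k l hij => by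
    rw [← minor, h _ (Eij_alt hij)]
  have hoff : ∀ i j : Fin 4, i ≠ j → g i j = 0 := by
    intro i j hij
    obtain ⟨k, hki, hkj⟩ : ∃ k : Fin 4, k ≠ i ∧ k ≠ j := by
      revert i j
      decide
    have h1 := hm j k i k hkj.symm
    have h2 := hm i k i k hki.symm
    have h3 := hm i j i k hij
    have e1 : (Eij j k i k : K) = 0 := by
      simp [Eij, hij, Ne.symm hij, hki.symm]
    have e2 : (Eij i k i k : K) = 1 := by
      have h5 : i ≠ k := hki.symm
      simp [Eij, hki, h5]
    have e3 : (Eij i j i k : K) = 0 := by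
      simp [Eij, hkj, hij, Ne.symm hij, hki, hki.symm]
    rw [e1] at h1
    rw [e2] at h2
    rw [e3] at h3
    linear_combination (-g i j) * h2 + g i i * h1 + g i k * h3
  have hd : ∀ i k : Fin 4, i ≠ k → g i i * g k k = 1 := by
    intro i k hik
    have h2 := hm i k i k hik
    have e2 : (Eij i k i k : K) = 1 := by
      simp [Eij, hik, Ne.symm hik]
    rw [e2, hoff i k hik, zero_mul, sub_zero] at h2
    exact h2
  have h01 := hd 0 1 (by decide)
  have h02 := hd 0 2 (by decide)
  have h12 := hd 1 2 (by decide)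
  have h03 := hd 0 3 (by decide)
  have hne2 : g 2 2 ≠ 0 := by
    intro h0
    rw [h0, mul_zero] at h02
    exact zero_ne_one h02
  have h11 : g 1 1 = g 0 0 := by
    apply mul_right_cancel₀ hne2
    rw [h12, h02]
  have h22 : g 2 2 = g 0 0 := by
    have hne1 : g 1 1 ≠ 0 := by
      intro h0
      rw [h0, mul_zero] at h01
      exact zero_ne_one h01
    apply mul_left_cancel₀ hne1
    rw [h12, h11]
    rw [h11] at h01
    exact h01.symm
  have h33 : g 3 3 = g 2 2 := by
    have hne0 : g 0 0 ≠ 0 := by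
      intro h0
      rw [h0, zero_mul] at h01
      exact zero_ne_one h01
    apply mul_left_cancel₀ hne0
    rw [h03, h02]
  refine ⟨g 0 0, ?_, ?_⟩
  · rw [sq]
    rw [h11] at h01
    exact h01
  · intro i j
    by_cases hij : i = j
    · subst hij
      rw [if_pos rfl]
      fin_cases i
      · rfl
      · exact h11
      · exact h22
      · exact h33.trans h22
    · rw [if_neg hij]
      exact hoff i j hij

/-- An element fixing all alternating matrices is `± 1`. -/
theorem eq_one_or_neg_of_fix (g : M) (h : ∀ A : M, IsAlt A → g * A * g.transpose = A) : g = 1 ∨ g = -1 := by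
  obtain ⟨r, hr, hg⟩ := scalar_of_fix g h
  have h1 : (r - 1) * (r + 1) = 0 := by ring_nf; rw [hr]; ring
  rcases mul_eq_zero.1 h1 with h2 | h2
  · left
    have : r = 1 := sub_eq_zero.1 h2
    ext i j
    rw [hg, this, Matrix.one_apply]
  · right
    have : r = -1 := eq_neg_of_add_eq_zero_left h2
    ext i j
    rw [hg, this, Matrix.neg_apply, Matrix.one_apply]
    split_ifs <;> simp

/-- The Hodge star of an alternating matrix. -/
def sta (A : M) : M := altOf (A 2 3) (- A 1 3) (A 1 2) (A 0 3) (- A 0 2) (A 0 1)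

theorem isAlt_sta (A : M) : IsAlt (sta A) := rfl

theorem sta_sta {A : M} (hA : IsAlt A) : sta (sta A) = A := by
  rw [hA]
  ext s t
  fin_cases s <;> fin_cases t <;> simp [sta, altOf]

theorem alt_ext {A B : M} (hA : IsAlt A) (hB : IsAlt B) (h01 : A 0 1 = B 0 1) (h02 : A 0 2 = B 0 2) (h03 : A 0 3 = B 0 3)
    (h12 : A 1 2 = B 1 2) (h13 : A 1 3 = B 1 3) (h23 : A 2 3 = B 2 3) : A = B := by
  rw [hA, hB, h01, h02, h03, h12, h13, h23]

theorem isAlt_smul (c : K) {A : M} (hA : IsAlt A) : IsAlt (c • A) := by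
  apply isAlt_of
  · intro s t
    rw [Matrix.smul_apply, Matrix.smul_apply, isAlt_symm hA s t]
    simp
  · intro s
    rw [Matrix.smul_apply, isAlt_diag hA s]
    simp

set_option maxHeartbeats 4000000 in
/-- The star transforms contragrediently. -/
theorem sta_sandwich (g : M) {A : M} (hA : IsAlt A) :
    g.transpose * sta (g * A * g.transpose) * g = g.det • sta A := by
  have hL : IsAlt (g.transpose * sta (g * A * g.transpose) * g) := by
    have := isAlt_sandwich g.transpose (isAlt_sta (g * A * g.transpose))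
    rwa [Matrix.transpose_transpose] at this
  refine alt_ext hL (isAlt_smul _ (isAlt_sta A)) ?_ ?_ ?_ ?_ ?_ ?_
  all_goals
    rw [hA, det4]
    generalize A 0 1 = a
    generalize A 0 2 = b
    generalize A 0 3 = c
    generalize A 1 2 = d
    generalize A 1 3 = e
    generalize A 2 3 = f
    simp only [Matrix.mul_apply, Matrix.transpose_apply, Fin.sum_univ_four, Matrix.smul_apply, sta, smul_eq_mul]
    simp [altOf]
    ring

end Cfsg.Agent.Lib.Alt4
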