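import Cfsg.Prelude.Def_Classical

set_option autoImplicit false

namespace Cfsg.Agent.Lib.BaseChange

open Matrix Cfsg

/-- A double sum of an alternating array vanishes. -/
theorem alt_sum {ι K : Type*} [Fintype ι] [CommRing K] (x : ι → ι → K) (h1 : ∀ i, x i i = 0) (h2 : ∀ i j, x i j + x j i = 0) :
    ∑ i, ∑ j, x i j = 0 := by
  classical
  have key : ∀ A : Finset ι, ∑ i ∈ A, ∑ j ∈ A, x i j = 0 := by
    intro A
    induction A using Finset.induction_on with
    | empty => simp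
    | insert a A ha ih =>
      rw [Finset.sum_insert ha, Finset.sum_insert ha, h1, zero_add]
      have e : ∑ i ∈ A, ∑ j ∈ insert a A, x i j = ∑ i ∈ A, x i a + ∑ i ∈ A, ∑ j ∈ A, x i j := by
        rw [← Finset.sum_add_distrib]
        exact Finset.sum_congr rfl fun i _ => Finset.sum_insert ha
      rw [e, ih, add_zero, ← Finset.sum_add_distrib]
      exact Finset.sum_eq_zero fun i _ => h2 a i
  exact key Finset.univ

variable {ι F K : Type*} [Fintype ι] [DecidableEq ι] [Field F] [CommRing K]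

/-- A matrix whose quadratic form vanishes identically over `F` has vanishing form after any extension of scalars. -/
theorem alt_map (D : Matrix ι ι F) (hD : ∀ v : ι → F, v ⬝ᵥ (D *ᵥ v) = 0) (f : F →+* K) (w : ι → K) :
    w ⬝ᵥ ((D.map f) *ᵥ w) = 0 := by
  have hii : ∀ i, D i i = 0 := by
    intro i
    have := hD (Pi.single i 1)
    simpa [Matrix.mulVec_single_one, single_one_dotProduct] using this
  have hij : ∀ i j, D i j + D j i = 0 := by
    intro i j
    by_cases hne : i = j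
    · subst hne
      rw [hii]
      simp
    have := hD (Pi.single i 1 + Pi.single j 1)
    simp only [Matrix.mulVec_add, Matrix.mulVec_single_one, dotProduct_add, add_dotProduct, single_one_dotProduct] at this
    simp only [Matrix.col_apply, hii] at this
    have h3 : D j i + D i j = 0 := by simpa using this
    rw [add_comm]
    exact h3
  simp only [dotProduct, Matrix.mulVec, Finset.mul_sum]
  apply alt_sum
  · intro i
    simp [hii]
  · intro i j
    simp only [Matrix.map_apply]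
    have e : f (D j i) = - f (D i j) := by
      rw [← map_neg]
      congr 1
      linear_combination hij i j
    rw [e]
    ring

/-- Extending scalars in a quadratic form. -/
theorem isom_map (C g : Matrix ι ι F) (h : ∀ v : ι → F, (g *ᵥ v) ⬝ᵥ (C *ᵥ (g *ᵥ v)) = v ⬝ᵥ (C *ᵥ v)) (f : F →+* K) (w : ι → K) :
    ((g.map f) *ᵥ w) ⬝ᵥ ((C.map f) *ᵥ ((g.map f) *ᵥ w)) = w ⬝ᵥ ((C.map f) *ᵥ w) := by
  have h1 := alt_map (gᵀ * C * g - C) (fun v => by
    have e : ∀ M : Matrix ι ι F, (g *ᵥ v) ⬝ᵥ (M *ᵥ (g *ᵥ v)) = v ⬝ᵥ ((gᵀ * M * g) *ᵥ v) := by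
      intro M
      rw [← Matrix.mulVec_mulVec, ← Matrix.mulVec_mulVec, Matrix.dotProduct_mulVec v gᵀ, Matrix.vecMul_transpose]
    rw [Matrix.sub_mulVec, dotProduct_sub, ← e, h, sub_self]) f w
  have e2 : ((gᵀ * C * g - C).map f) = (g.map f)ᵀ * C.map f * g.map f - C.map f := by
    ext i j
    simp [Matrix.mul_apply, Matrix.sub_apply, map_sum, map_mul]
  rw [e2, Matrix.sub_mulVec, dotProduct_sub, sub_eq_zero] at h1
  rw [← h1, ← Matrix.mulVec_mulVec, ← Matrix.mulVec_mulVec, Matrix.dotProduct_mulVec w (g.map f)ᵀ, Matrix.vecMul_transpose]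

/-- Base change of isometry groups. -/
theorem base_change_embed {ι : Type} [Fintype ι] [DecidableEq ι] {F K : Type*} [Field F] [Field K] (C : Matrix ι ι F) (f : F →+* K) :
    ∃ φ : ↥(isometryGroup F (fun v : ι → F => v ⬝ᵥ (C *ᵥ v))) →* ↥(isometryGroup K (fun w : ι → K => w ⬝ᵥ ((C.map f) *ᵥ w))), Function.Injective φ := by
  let m : Matrix.GeneralLinearGroup ι F →* Matrix.GeneralLinearGroup ι K := Matrix.GeneralLinearGroup.map f
  have hm : ∀ g : Matrix.GeneralLinearGroup ι F, ((m g : Matrix.GeneralLinearGroup ι K) : Matrix ι ι K) = (g : Matrix ι ι F).map f := fun g => rfl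
  refine ⟨(m.comp (isometryGroup F (fun v : ι → F => v ⬝ᵥ (C *ᵥ v))).subtype).codRestrict _ ?_, ?_⟩
  · rintro ⟨g, hg⟩
    intro u _
    exact isom_map C (g : Matrix ι ι F) (fun v => hg v v) f u
  · intro a b hab
    apply Subtype.ext
    apply Units.ext
    have h1 : ((m a.1 : Matrix.GeneralLinearGroup ι K) : Matrix ι ι K) = ((m b.1 : Matrix.GeneralLinearGroup ι K) : Matrix ι ι K) :=
      congrArg (fun x : ↥(isometryGroup K (fun w : ι → K => w ⬝ᵥ ((C.map f) *ᵥ w))) => ((x.1 : Matrix.GeneralLinearGroup ι K) : Matrix ι ι K)) hab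
    rw [hm, hm] at h1
    exact Matrix.map_injective f.injective h1

/-- Conjugation by a linear equivalence between coordinate spaces. -/
noncomputable def conjHom {ι₁ ι₂ K : Type*} [Fintype ι₁] [DecidableEq ι₁] [Fintype ι₂] [DecidableEq ι₂] [CommRing K]
    (τ : (ι₁ → K) ≃ₗ[K] (ι₂ → K)) : Matrix ι₁ ι₁ K →* Matrix ι₂ ι₂ K where
  toFun M := LinearMap.toMatrix' (τ.toLinearMap ∘ₗ Matrix.toLin' M ∘ₗ τ.symm.toLinearMap)
  map_one' := by
    apply Matrix.mulVec_injective
    funext y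
    rw [LinearMap.toMatrix'_mulVec]
    simp
  map_mul' A B := by
    apply Matrix.mulVec_injective
    funext y
    rw [← Matrix.mulVec_mulVec, LinearMap.toMatrix'_mulVec, LinearMap.toMatrix'_mulVec, LinearMap.toMatrix'_mulVec]
    simp [Matrix.mulVec_mulVec]

theorem conjHom_mulVec {ι₁ ι₂ K : Type*} [Fintype ι₁] [DecidableEq ι₁] [Fintype ι₂] [DecidableEq ι₂] [CommRing K]
    (τ : (ι₁ → K) ≃ₗ[K] (ι₂ → K)) (M : Matrix ι₁ ι₁ K) (y : ι₂ → K) : conjHom τ M *ᵥ y = τ (M *ᵥ τ.symm y) := by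
  show LinearMap.toMatrix' _ *ᵥ y = _
  rw [LinearMap.toMatrix'_mulVec]
  simp

/-- Isometry groups of isometric forms are embedded. -/
theorem transfer_embed {ι₁ ι₂ : Type} [Fintype ι₁] [DecidableEq ι₁] [Fintype ι₂] [DecidableEq ι₂] {K : Type*} [Field K]
    (τ : (ι₁ → K) ≃ₗ[K] (ι₂ → K)) (Q₁ : (ι₁ → K) → K) (Q₂ : (ι₂ → K) → K) (hτ : ∀ w, Q₂ (τ w) = Q₁ w) :
    ∃ φ : ↥(isometryGroup K Q₁) →* ↥(isometryGroup K Q₂), Function.Injective φ := by
  let m : Matrix.GeneralLinearGroup ι₁ K →* Matrix.GeneralLinearGroup ι₂ K := Units.map (conjHom τ)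
  have hm : ∀ (g : Matrix.GeneralLinearGroup ι₁ K) (y : ι₂ → K), ((m g : Matrix.GeneralLinearGroup ι₂ K) : Matrix ι₂ ι₂ K) *ᵥ y = τ ((g : Matrix ι₁ ι₁ K) *ᵥ τ.symm y) :=
    fun g y => conjHom_mulVec τ _ y
  refine ⟨(m.comp (isometryGroup K Q₁).subtype).codRestrict _ ?_, ?_⟩
  · rintro ⟨g, hg⟩
    intro u _
    show Q₂ (((m g : Matrix.GeneralLinearGroup ι₂ K) : Matrix ι₂ ι₂ K) *ᵥ u) = Q₂ u
    rw [hm, hτ]
    have h1 : Q₁ ((g : Matrix ι₁ ι₁ K) *ᵥ τ.symm u) = Q₁ (τ.symm u) := hg (τ.symm u) (τ.symm u)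
    rw [h1, ← hτ]
    simp
  · intro a b hab
    apply Subtype.ext
    apply Units.ext
    apply Matrix.mulVec_injective
    funext x
    have h1 : ((m a.1 : Matrix.GeneralLinearGroup ι₂ K) : Matrix ι₂ ι₂ K) = ((m b.1 : Matrix.GeneralLinearGroup ι₂ K) : Matrix ι₂ ι₂ K) :=
      congrArg (fun x : ↥(isometryGroup K Q₂) => ((x.1 : Matrix.GeneralLinearGroup ι₂ K) : Matrix ι₂ ι₂ K)) hab
    have h2 := congrArg (fun M => M *ᵥ (τ x)) h1
    simp only [hm, LinearEquiv.symm_apply_apply] at h2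
    exact τ.injective h2

end Cfsg.Agent.Lib.BaseChange
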