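import Cfsg.Agent.Lib.BlockKn4

/-! Blocks of a given defect and classes of the same defect. -/

set_option autoImplicit false

namespace Cfsg.Agent.Lib.BlockPair

open Cfsg Cfsg.Agent.Lib.IrrBasic Cfsg.Agent.Lib.LocRing Cfsg.Agent.Lib.CyclicWords Cfsg.Agent.Lib
open Cfsg.Agent.Lib.BlockCore Cfsg.Agent.Lib.BlockOrth Cfsg.Agent.Lib.BlockBrauer
open Cfsg.Agent.Lib.BlockFixed Cfsg.Agent.Lib.BlockDefect Cfsg.Agent.Lib.BlockInduce
open Cfsg.Agent.Lib.BlockMain Cfsg.Agent.Lib.BlockMain2 Cfsg.Agent.Lib.BlockMain3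
open Cfsg.Agent.Lib.BlockMain4 Cfsg.Agent.Lib.BlockNorm Cfsg.Agent.Lib.BlockQuot Cfsg.Agent.Lib.BlockInfl
open Cfsg.Agent.Lib.BlockOku Cfsg.Agent.Lib.BlockInd Cfsg.Agent.Lib.BlockFrob Cfsg.Agent.Lib.BlockFirst
open Cfsg.Agent.Lib.BlockFirst2 Cfsg.Agent.Lib.BlockFirst3 Cfsg.Agent.Lib.BlockHeight Cfsg.Agent.Lib.BlockCentral
open Cfsg.Agent.Lib.BlockCanon Cfsg.Agent.Lib.BlockCover Cfsg.Agent.Lib.BlockCount Cfsg.Agent.Lib.BlockReg
open Cfsg.Agent.Lib.BlockReg2 Cfsg.Agent.Lib.BlockRank Cfsg.Agent.Lib.BlockSub Cfsg.Agent.Lib.BlockSec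
open Cfsg.Agent.Lib.BlockMaj Cfsg.Agent.Lib.BlockFeit
open scoped ComplexConjugate
open MonoidAlgebra Relation

universe u


section E3
variable {G : Type u} [Group G] [Fintype G] {M : Ideal AlgInt} {p : ℕ} [M.IsPrime] [hpf : Fact p.Prime]

theorem blockCoeff_mem_of_gt (hM : IsPModular p M) {B : Set (IrrCharacter G)} (hB : IsPBlock M B) {g : G}
    (h : blockDefect p B < (Nat.card (Subgroup.centralizer ({g} : Set G))).factorization p) :
    MemLocalIdeal M (blockCoeff B g) := by
  classical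
  by_contra hne
  obtain ⟨y', hy'⟩ := exists_isDefectClass hM hB
  obtain ⟨D'⟩ : Nonempty (Sylow p (Subgroup.centralizer ({y'} : Set G))) := inferInstance
  obtain ⟨x, Q'', hQ''⟩ := (minMax hM hB hy' D' g).1 (blockCoeff_mem hM hB g) hne
  have hcardD := card_defectGroup hM hB ⟨y', hy', D', rfl⟩
  have h1 : Nat.card ((Q'' : Subgroup _).map (Subgroup.centralizer ({g} : Set G)).subtype : Subgroup G) = Nat.card Q'' :=
    Nat.card_congr (Subgroup.equivMapOfInjective _ _ (Subgroup.subtype_injective _)).symm.toEquiv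
  have h2 : Nat.card (((D' : Subgroup _).map (Subgroup.centralizer ({y'} : Set G)).subtype).map (MulAut.conj x).toMonoidHom : Subgroup G)
      = p ^ blockDefect p B := by
    rw [← hcardD]
    exact Nat.card_congr (Subgroup.equivMapOfInjective _ _ (MulAut.conj x).injective).symm.toEquiv
  have h3 := Subgroup.card_le_of_le hQ''
  rw [h1, h2, Sylow.card_eq_multiplicity Q''] at h3
  have := (Nat.pow_le_pow_iff_right hpf.out.one_lt).mp h3
  omega

theorem s4505 (hM : IsPModular p M) (σ : ℕ) :
    Nat.card {B : Set (IrrCharacter G) // IsPBlock M B ∧ blockDefect p B = σ} ≤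
      Nat.card {C : ConjClasses G // ∃ g : G, ConjClasses.mk g = C ∧ ¬ p ∣ orderOf g ∧
        (Nat.card (Subgroup.centralizer ({g} : Set G))).factorization p = σ} := by
  classical
  refine card_blocks_le hM (fun B => IsPBlock M B ∧ blockDefect p B = σ) _ (fun B h => h.1) ?_
  rintro B B₀ ⟨hB, hBd⟩ ⟨hB₀, hB₀d⟩ K hK χ hχ
  by_cases hs : p ∣ orderOf K.out
  · rw [blockCoeff_eq_zero_of_singular hM hB₀ hs, zero_mul]
    exact memLocalIdeal_zero
  · rcases lt_trichotomy ((Nat.card (Subgroup.centralizer ({K.out} : Set G))).factorization p) σ with h | h | h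
    · exact memLocalIdeal_mul_left (blockCoeff_mem hM hB₀ _) (centralChar_mem_of_lt hM hB hχ (by omega))
    · exact (hK ⟨K.out, Quotient.out_eq K, hs, h⟩).elim
    · exact memLocalIdeal_mul_right (blockCoeff_mem_of_gt hM hB₀ (by omega))
        (mem_locRing_of_isIntegral (centralChar_isIntegral χ _))

theorem s4510 (hM : IsPModular p M) (d : ℕ) (χ ψ : IrrCharacter G)
    (hχ : blockDefect p (blockOf M χ.1) = d) (hψ : blockDefect p (blockOf M ψ.1) = d) :
    SameBlock M χ.1 ψ.1 ↔ ∀ x : G, ¬ p ∣ orderOf x →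
      (Nat.card (Subgroup.centralizer ({x} : Set G))).factorization p = d →
      MemLocalIdeal M (centralChar χ.1 x - centralChar ψ.1 x) := by
  classical
  constructor
  · intro h x _ _
    exact h x
  · intro h
    by_contra hne
    have : Finite (ConjClasses G) := Finite.of_surjective _ ConjClasses.mk_surjective
    have : Fintype (ConjClasses G) := Fintype.ofFinite _
    have hB₁ : IsPBlock M (blockOf M χ.1) := ⟨χ, rfl⟩
    have hB₂ : IsPBlock M (blockOf M ψ.1) := ⟨ψ, rfl⟩
    have hL := blockCoeff_mem hM hB₁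
    have hc := isCentral_idemOf _ hL
    have h1 := omegaA_idemOf _ hL χ
    have h2 := omegaA_idemOf _ hL ψ
    rw [if_pos (mem_blockOf_self χ)] at h1
    have hψn : ψ ∉ blockOf M χ.1 := hne
    rw [if_neg hψn] at h2
    rw [omegaA_expand χ hc] at h1
    rw [omegaA_expand ψ hc] at h2
    have h3 : MemLocalIdeal M (∑ c : ConjClasses G, (((idemOf _ hL).coeff c.out : locRing M) : ℂ) *
        (centralChar χ.1 c.out - centralChar ψ.1 c.out)) := by
      refine memLocalIdeal_finset_sum _ _ fun c _ => ?_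
      rw [coeff_idemOf]
      by_cases hs : p ∣ orderOf c.out
      · rw [blockCoeff_eq_zero_of_singular hM hB₁ hs, zero_mul]
        exact memLocalIdeal_zero
      · rcases lt_trichotomy ((Nat.card (Subgroup.centralizer ({c.out} : Set G))).factorization p) d with h4 | h4 | h4
        · refine memLocalIdeal_mul_left (blockCoeff_mem hM hB₁ _) (memLocalIdeal_sub
            (centralChar_mem_of_lt hM hB₁ (mem_blockOf_self χ) (by omega))
            (centralChar_mem_of_lt hM hB₂ (mem_blockOf_self ψ) (by omega)))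
        · exact memLocalIdeal_mul_left (blockCoeff_mem hM hB₁ _) (h _ hs h4)
        · refine memLocalIdeal_mul_right (blockCoeff_mem_of_gt hM hB₁ (by omega)) ?_
          exact sub_mem (mem_locRing_of_isIntegral (centralChar_isIntegral χ _))
            (mem_locRing_of_isIntegral (centralChar_isIntegral ψ _))
    have h4 : (∑ c : ConjClasses G, (((idemOf _ hL).coeff c.out : locRing M) : ℂ) *
        (centralChar χ.1 c.out - centralChar ψ.1 c.out)) = 1 := by
      simp only [mul_sub]
      rw [Finset.sum_sub_distrib, h1, h2, sub_zero]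
    rw [h4] at h3
    have h5 : (1 : locRing M) ∈ locIdeal M := by
      rw [mem_locIdeal_iff]
      simpa using h3
    exact one_notMemLocalIdeal h5

end E3

end Cfsg.Agent.Lib.BlockPair
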