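import Cfsg.Agent.Lib.BlockKn4

/-! Blocks of quotient groups contained in blocks: defect groups. -/

set_option autoImplicit false

namespace Cfsg.Agent.Lib.BlockPair

open Cfsg Cfsg.Agent.Lib.IrrBasic Cfsg.Agent.Lib.LocRing Cfsg.Agent.Lib.CyclicWords Cfsg.Agent.Lib
open Cfsg.Agent.Lib.BlockCore Cfsg.Agent.Lib.BlockOrth Cfsg.Agent.Lib.BlockBrauer
open Cfsg.Agent.Lib.BlockFixed Cfsg.Agent.Lib.BlockDefect Cfsg.Agent.Lib.BlockInduce
open Cfsg.Agent.Lib.BlockMain Cfsg.Agent.Lib.BlockMain2 Cfsg.Agent.Lib.BlockMain3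
open Cfsg.Agent.Lib.BlockMain4 Cfsg.Agent.Lib.BlockNorm Cfsg.Agent.Lib.BlockQuot Cfsg.Agent.Lib.BlockInfl
open Cfsg.Agent.Lib.BlockOku Cfsg.Agent.Lib.BlockInd Cfsg.Agent.Lib.BlockFrob Cfsg.Agent.Lib.BlockFirst
open Cfsg.Agent.Lib.BlockFirst2 Cfsg.Agent.Lib.BlockFirst3 Cfsg.Agent.Lib.BlockHeight Cfsg.Agent.Lib.BlockCentral
open Cfsg.Agent.Lib.BlockCanon Cfsg.Agent.Lib.BlockCover Cfsg.Agent.Lib.BlockCount Cfsg.Agent.Lib.BlockReg
open Cfsg.Agent.Lib.BlockReg2 Cfsg.Agent.Lib.BlockRank Cfsg.Agent.Lib.BlockSub Cfsg.Agent.Lib.BlockSec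
open Cfsg.Agent.Lib.BlockMaj Cfsg.Agent.Lib.BlockFeit
open scoped ComplexConjugate
open MonoidAlgebra Relation

universe u


section E4
variable {G : Type u} [Group G] [Fintype G] {M : Ideal AlgInt} {p : ℕ} [M.IsPrime] [hpf : Fact p.Prime]

theorem isDefectGroup_cM (hM : IsPModular p M) {B : Set (IrrCharacter G)} (hB : IsPBlock M B) {D : Subgroup G}
    (hD : IsDefectGroup p M B D) (x : G) : IsDefectGroup p M B (cM x D) := by
  classical
  have hcard : Nat.card (cM x D) = Nat.card D := Subgroup.card_map_of_injective (MulAut.conj x).injective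
  have hDc := card_defectGroup hM hB hD
  obtain ⟨y, hy, S, rfl⟩ := hD
  have hTp : IsPGroup p (cM x ((S : Subgroup _).map (Subgroup.centralizer ({y} : Set G)).subtype)) :=
    (isPGroup_map_sylow S).map _
  have hTC : cM x ((S : Subgroup _).map (Subgroup.centralizer ({y} : Set G)).subtype) ≤
      Subgroup.centralizer ({x * y * x⁻¹} : Set G) := by
    intro u hu
    rw [mem_cM] at hu
    rw [Subgroup.mem_centralizer_singleton_iff]
    have h1 := Subgroup.mem_centralizer_singleton_iff.mp (map_sylow_le S hu)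
    calc u * (x * y * x⁻¹) = x * ((x⁻¹ * u * x) * y) * x⁻¹ := by group
      _ = x * (y * (x⁻¹ * u * x)) * x⁻¹ := by rw [h1]
      _ = _ := by group
  have hu : ¬ MemLocalIdeal M (blockCoeff B (x * y * x⁻¹)) := by
    rw [blockCoeff_conj]
    exact hy.2.1
  obtain ⟨D', hD', hTD'⟩ := exists_defectGroup_ge hM hB hTp hTC hu
  have h1 : cM x ((S : Subgroup _).map (Subgroup.centralizer ({y} : Set G)).subtype) = D' := by
    apply Subgroup.eq_of_le_of_card_ge hTD'
    rw [hcard, hDc, card_defectGroup hM hB hD']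
  rwa [h1]

variable (N : Subgroup G) [hN : N.Normal] [Fintype (G ⧸ N)]

theorem map_cM_mk (x : G) (Q : Subgroup G) :
    (cM x Q).map (QuotientGroup.mk' N) = cM (QuotientGroup.mk' N x) (Q.map (QuotientGroup.mk' N)) := by
  show _ = Subgroup.map (MulAut.conj (QuotientGroup.mk' N x)).toMonoidHom (Subgroup.map (QuotientGroup.mk' N) Q)
  rw [Subgroup.map_map, Subgroup.map_map]
  congr 1

theorem qMap_idem_mul {Bbar : Set (IrrCharacter (G ⧸ N))} {B : Set (IrrCharacter G)}
    (hLbar : ∀ g, MemLocalRing M (blockCoeff Bbar g)) (hL : ∀ g, MemLocalRing M (blockCoeff B g))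
    (hsub : ∀ χ ∈ Bbar, inflIrr N χ ∈ B) :
    idemOf Bbar hLbar * qMap N (idemOf B hL) = idemOf Bbar hLbar := by
  classical
  apply central_ext ((isCentral_idemOf _ hLbar).mul (isCentral_qMap N (isCentral_idemOf _ hL)))
    (isCentral_idemOf _ hLbar)
  intro θ
  rw [omegaA_mul θ (isCentral_idemOf _ hLbar), omegaA_idemOf, omegaA_qMap, omegaA_idemOf]
  by_cases hθ : θ ∈ Bbar
  · rw [if_pos hθ, if_pos (hsub θ hθ), one_mul]
  · rw [if_neg hθ, zero_mul]

theorem map_sylow_comap_eq {T : Subgroup G} {Dbar : Subgroup (G ⧸ N)} (hDp : IsPGroup p Dbar)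
    (hT : T = Dbar.comap (QuotientGroup.mk' N)) (R : Sylow p T) :
    ((R : Subgroup T).map T.subtype).map (QuotientGroup.mk' N) = Dbar := by
  classical
  subst hT
  apply le_antisymm
  · rintro _ ⟨_, ⟨r, _, rfl⟩, rfl⟩
    exact r.2
  · obtain ⟨f, hf⟩ : ∃ f : (Dbar.comap (QuotientGroup.mk' N)) →* Dbar, f = MonoidHom.codRestrict
        ((QuotientGroup.mk' N).comp (Dbar.comap (QuotientGroup.mk' N)).subtype) Dbar (fun t => t.2) := ⟨_, rfl⟩
    have hfs : Function.Surjective f := by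
      rintro ⟨d, hd⟩
      obtain ⟨g, rfl⟩ := QuotientGroup.mk'_surjective N d
      exact ⟨⟨g, hd⟩, by rw [hf]; rfl⟩
    have h1 : ((R : Subgroup (Dbar.comap (QuotientGroup.mk' N))).map f).index ∣
        (R : Subgroup (Dbar.comap (QuotientGroup.mk' N))).index := Subgroup.index_map_dvd _ hfs
    have h2 : ¬ p ∣ (R : Subgroup (Dbar.comap (QuotientGroup.mk' N))).index := R.not_dvd_index
    have h3 : ((R : Subgroup (Dbar.comap (QuotientGroup.mk' N))).map f).index ∣ Nat.card Dbar :=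
      Subgroup.index_dvd_card _
    obtain ⟨k, hk⟩ := IsPGroup.iff_card.mp hDp
    rw [hk] at h3
    obtain ⟨j, -, hj⟩ := (Nat.dvd_prime_pow hpf.out).mp h3
    have h4 : j = 0 := by
      by_contra hne
      apply h2
      refine dvd_trans ?_ h1
      rw [hj]
      exact dvd_pow_self p hne
    rw [h4, pow_zero, Subgroup.index_eq_one] at hj
    intro d hd
    have h5 : (⟨d, hd⟩ : Dbar) ∈ (R : Subgroup (Dbar.comap (QuotientGroup.mk' N))).map f := by
      rw [hj]
      trivial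
    obtain ⟨r, hr, hrd⟩ := h5
    refine ⟨(r : G), ⟨r, hr, rfl⟩, ?_⟩
    have := congrArg Subtype.val hrd
    rw [hf] at this
    exact this

theorem s4433 (hM : IsPModular p M) {Bbar : Set (IrrCharacter (G ⧸ N))} (hBbar : IsPBlock M Bbar)
    {B : Set (IrrCharacter G)} (hB : IsPBlock M B)
    (hsub : ∀ χ ∈ Bbar, inflIrr N χ ∈ B) {Dbar : Subgroup (G ⧸ N)} (hDbar : IsDefectGroup p M Bbar Dbar) :
    ∃ P : Subgroup G, IsDefectGroup p M B P ∧ Dbar ≤ P.map (QuotientGroup.mk' N) := by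
  classical
  have hLbar := blockCoeff_mem hM hBbar
  have hL := blockCoeff_mem hM hB
  have hmul := qMap_idem_mul N hLbar hL hsub
  have hac : IsCentral (qMap N (idemOf B hL)) := isCentral_qMap N (isCentral_idemOf _ hL)
  have hDp : IsPGroup p Dbar := by
    obtain ⟨y, hy, S, rfl⟩ := hDbar
    exact isPGroup_map_sylow S
  have hbr := coeffIn_br_mul hM.1 (natCast_mem_locIdeal hM) hDp
    (isInv_of_isCentral (isCentral_idemOf Bbar hLbar) : IsInv Dbar (idemOf Bbar hLbar))
    (isInv_of_isCentral hac : IsInv Dbar (qMap N (idemOf B hL)))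
  rw [hmul] at hbr
  obtain ⟨y, hy, S, hS⟩ := hDbar
  have hyC : y ∈ Subgroup.centralizer (Dbar : Set (G ⧸ N)) := by
    rw [hS, mem_centralizer_iff_le]
    exact map_sylow_le S
  obtain ⟨u, huC, hu⟩ : ∃ u ∈ Subgroup.centralizer (Dbar : Set (G ⧸ N)),
      (qMap N (idemOf B hL)).coeff u ∉ locIdeal M := by
    by_contra hne
    push Not at hne
    have h1 : CoeffIn (locIdeal M) (br Dbar (qMap N (idemOf B hL))) := by
      intro g
      rw [coeff_br]
      split_ifs with hg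
      · exact hne g hg
      · exact Ideal.zero_mem _
    have h2 := (hbr.add (h1.mul_left (br Dbar (idemOf Bbar hLbar)))) y
    rw [sub_add_cancel, coeff_br, if_pos hyC, mem_locIdeal_iff, coeff_idemOf] at h2
    exact hy.2.1 h2
  obtain ⟨T, hT⟩ : ∃ T, T = Dbar.comap (QuotientGroup.mk' N) := ⟨_, rfl⟩
  obtain ⟨R⟩ : Nonempty (Sylow p T) := inferInstance
  have hRmap := map_sylow_comap_eq N hDp hT R
  obtain ⟨R₀, hR₀⟩ : ∃ R₀, R₀ = (R : Subgroup T).map T.subtype := ⟨_, rfl⟩
  have hR₀p : IsPGroup p R₀ := by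
    rw [hR₀]
    exact isPGroup_map_sylow R
  rw [← hR₀] at hRmap
  obtain ⟨φ, hφa⟩ : ∃ φ : R₀ →* Equiv.Perm G, ∀ (r : R₀) (g : G), φ r g = (r : G) * g * (r : G)⁻¹ := by
    refine ⟨(MulAut.toPerm G).comp ((MulAut.conj : G →* MulAut G).comp R₀.subtype), fun r g => ?_⟩
    rfl
  obtain ⟨V, hV⟩ : ∃ V : G → locRing M, V = fun g : G => if (g : G ⧸ N) = u then (idemOf B hL).coeff g else 0 := ⟨_, rfl⟩
  have hVinv : ∀ (r : R₀) (g : G), V (φ r g) = V g := by
    intro r g
    rw [hφa, hV]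
    simp only
    have hrD : ((r : G) : G ⧸ N) ∈ Dbar := by
      rw [← hRmap]
      exact ⟨r, r.2, rfl⟩
    have hcomm := Subgroup.mem_centralizer_iff.mp huC _ hrD
    have h1 : (((r : G) * g * (r : G)⁻¹ : G) : G ⧸ N) = u ↔ (g : G ⧸ N) = u := by
      rw [QuotientGroup.mk_mul, QuotientGroup.mk_mul, QuotientGroup.mk_inv]
      constructor
      · intro h
        have h2 : (g : G ⧸ N) = ((r : G) : G ⧸ N)⁻¹ * u * ((r : G) : G ⧸ N) := by
          rw [← h]
          group
        rw [h2, mul_assoc, ← hcomm]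
        group
      · intro h
        rw [h, hcomm]
        group
    by_cases h2 : (g : G ⧸ N) = u
    · rw [if_pos (h1.mpr h2), if_pos h2]
      exact isCentral_idemOf _ hL g r
    · rw [if_neg (fun h => h2 (h1.mp h)), if_neg h2]
  have hs : ∑ g, V g ∉ locIdeal M := by
    have h1 : ∑ g, V g = (qMap N (idemOf B hL)).coeff u := by
      rw [coeff_qMap, hV]
    rw [h1]
    exact hu
  obtain ⟨g, hfix, hg⟩ := exists_fixed_of_sum_notMem hM.1 (natCast_mem_locIdeal hM) hR₀p φ V hVinv hs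
  have hgc : ¬ MemLocalIdeal M (blockCoeff B g) := by
    intro h1
    apply hg
    rw [hV]
    simp only
    split_ifs
    · rw [mem_locIdeal_iff, coeff_idemOf]
      exact h1
    · exact Ideal.zero_mem _
  have hRC : R₀ ≤ Subgroup.centralizer ({g} : Set G) := by
    intro r hr
    rw [Subgroup.mem_centralizer_singleton_iff]
    have h1 := hfix ⟨r, hr⟩
    rw [hφa] at h1
    calc r * g = (r * g * r⁻¹) * r := by group
      _ = g * r := by rw [show r * g * r⁻¹ = g from h1]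
  obtain ⟨P, hP, hRP⟩ := exists_defectGroup_ge hM hB hR₀p hRC hgc
  refine ⟨P, hP, ?_⟩
  rw [← hRmap]
  exact Subgroup.map_mono hRP

theorem s4434 (hM : IsPModular p M) (hNp : IsPGroup p N) {B : Set (IrrCharacter G)} (hB : IsPBlock M B) :
    ∃ Bbar : Set (IrrCharacter (G ⧸ N)), IsPBlock M Bbar ∧ (∀ χ ∈ Bbar, inflIrr N χ ∈ B) ∧
      ∀ Dbar : Subgroup (G ⧸ N), IsDefectGroup p M Bbar Dbar ↔
        ∃ P : Subgroup G, IsDefectGroup p M B P ∧ Dbar = P.map (QuotientGroup.mk' N) := by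
  classical
  obtain ⟨y, hy⟩ := exists_isDefectClass hM hB
  obtain ⟨S⟩ : Nonempty (Sylow p (Subgroup.centralizer ({y} : Set G))) := inferInstance
  obtain ⟨P₀, hP₀d⟩ : ∃ P₀, P₀ = (S : Subgroup _).map (Subgroup.centralizer ({y} : Set G)).subtype := ⟨_, rfl⟩
  have hP₀ : IsDefectGroup p M B P₀ := ⟨y, hy, S, hP₀d⟩
  have hNP₀ : N ≤ P₀ := normal_le_defectGroup hM hB hP₀ hNp
  have hP₀C : P₀ ≤ Subgroup.centralizer ({y} : Set G) := by
    rw [hP₀d]
    exact map_sylow_le S
  have hreg : ¬ p ∣ orderOf y := not_dvd_orderOf_of_isDefectClass hM hB hy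
  have hL := blockCoeff_mem hM hB
  -- the coefficient of the image at the class of y
  have hcoef : (qMap N (idemOf B hL)).coeff (y : G ⧸ N) = (idemOf B hL).coeff y := by
    rw [coeff_qMap, Finset.sum_eq_single y]
    · rw [if_pos rfl]
    · intro g _ hgy
      split_ifs with h1
      · have hmem : y⁻¹ * g ∈ N := QuotientGroup.eq.mp h1.symm
        obtain ⟨n, hn⟩ : ∃ n, n = y⁻¹ * g := ⟨_, rfl⟩
        have hg : g = y * n := by
          rw [hn]
          group
        have hnN : n ∈ N := by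
          rw [hn]
          exact hmem
        have hn1 : n ≠ 1 := by
          intro h
          apply hgy
          rw [hg, h, mul_one]
        have hcomm : Commute y n := by
          have := Subgroup.mem_centralizer_singleton_iff.mp (hP₀C (hNP₀ hnN))
          exact this.symm
        obtain ⟨k, hk⟩ := IsPGroup.iff_orderOf.mp hNp ⟨n, hnN⟩
        have hk' : orderOf n = p ^ k := by
          rw [← hk, Subgroup.orderOf_mk]
        have hk0 : k ≠ 0 := by
          rintro rfl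
          rw [pow_zero, orderOf_eq_one_iff] at hk'
          exact hn1 hk'
        have hcop : (orderOf y).Coprime (orderOf n) := by
          rw [hk']
          exact Nat.Coprime.pow_right _ (Nat.coprime_comm.mp ((Nat.Prime.coprime_iff_not_dvd hpf.out).mpr hreg))
        have hord : p ∣ orderOf g := by
          rw [hg, hcomm.orderOf_mul_eq_mul_orderOf_of_coprime hcop, hk']
          exact Dvd.dvd.mul_left (dvd_pow_self p hk0) _
        apply Subtype.ext
        rw [coeff_idemOf, blockCoeff_eq_zero_of_singular hM hB hord]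
        rfl
      · rfl
    · simp
  -- the union of blocks contained in B
  obtain ⟨A, hAdef⟩ : ∃ A : Set (IrrCharacter (G ⧸ N)), A = {χ | inflIrr N χ ∈ B} := ⟨_, rfl⟩
  have hAU : ∀ χ ∈ A, blockOf M χ.1 ⊆ A := by
    intro χ hχ ψ hψ
    rw [hAdef] at hχ ⊢
    have h1 : SameBlock M (inflIrr N χ).1 (inflIrr N ψ).1 := sameBlock_infl N hψ
    rw [Set.mem_setOf_eq, eq_blockOf_of_mem hB hχ]
    exact h1
  have hLA : ∀ g, MemLocalRing M (blockCoeff A g) := blockCoeff_mem_of_union hM _ _ rfl hAU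
  have hq : qMap N (idemOf B hL) = idemOf A hLA := by
    apply central_ext (isCentral_qMap N (isCentral_idemOf _ hL)) (isCentral_idemOf _ hLA)
    intro θ
    rw [omegaA_qMap, omegaA_idemOf, omegaA_idemOf]
    by_cases hθ : inflIrr N θ ∈ B
    · rw [if_pos hθ, if_pos (by rw [hAdef]; exact hθ)]
    · rw [if_neg hθ, if_neg (by rw [hAdef]; exact hθ)]
  have hunitA : ¬ MemLocalIdeal M (blockCoeff A (y : G ⧸ N)) := by
    intro h1
    apply hy.2.1
    rw [← coeff_idemOf _ hLA, ← hq, hcoef, coeff_idemOf] at h1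
    exact h1
  obtain ⟨Bbar, hBbar, hBA, -, hunit⟩ := exists_block_of_unit A hAU hM (y : G ⧸ N) hunitA
  have hsub : ∀ χ ∈ Bbar, inflIrr N χ ∈ B := by
    intro χ hχ
    have := hBA hχ
    rw [hAdef] at this
    exact this
  refine ⟨Bbar, hBbar, hsub, ?_⟩
  obtain ⟨T, hTd⟩ : ∃ T, T = P₀.map (QuotientGroup.mk' N) := ⟨_, rfl⟩
  have hP₀p : IsPGroup p P₀ := by
    rw [hP₀d]
    exact isPGroup_map_sylow S
  have hTp : IsPGroup p T := by
    rw [hTd]
    exact hP₀p.map _
  have hTC : T ≤ Subgroup.centralizer ({(y : G ⧸ N)} : Set (G ⧸ N)) := by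
    rw [hTd]
    rintro _ ⟨g, hg, rfl⟩
    rw [Subgroup.mem_centralizer_singleton_iff]
    have h1 := Subgroup.mem_centralizer_singleton_iff.mp (hP₀C hg)
    show ((g : G) : G ⧸ N) * (y : G ⧸ N) = (y : G ⧸ N) * ((g : G) : G ⧸ N)
    rw [← QuotientGroup.mk_mul, h1, QuotientGroup.mk_mul]
  obtain ⟨Dbar₀, hD₀, hTD₀⟩ := exists_defectGroup_ge hM hBbar hTp hTC hunit
  obtain ⟨P', hP', hD₀P'⟩ := s4433 N hM hBbar hB hsub hD₀
  obtain ⟨x, hx⟩ := defect_conj hM hB hP₀ hP'
  have hT₀ : T = Dbar₀ := by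
    apply Subgroup.eq_of_le_of_card_ge hTD₀
    have h1 := Subgroup.card_le_of_le hD₀P'
    rw [← hx, map_cM_mk, ← hTd] at h1
    have h2 : Nat.card (cM (QuotientGroup.mk' N x) T) = Nat.card T :=
      Subgroup.card_map_of_injective (MulAut.conj _).injective
    rwa [h2] at h1
  have hTdef : IsDefectGroup p M Bbar T := by
    rw [hT₀]
    exact hD₀
  intro Dbar
  constructor
  · intro hD
    obtain ⟨z, hz⟩ := defect_conj hM hBbar hTdef hD
    obtain ⟨w, rfl⟩ := QuotientGroup.mk'_surjective N z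
    refine ⟨cM w P₀, isDefectGroup_cM hM hB hP₀ w, ?_⟩
    rw [map_cM_mk, ← hTd, hz]
  · rintro ⟨P₁, hP₁, rfl⟩
    obtain ⟨w, hw⟩ := defect_conj hM hB hP₀ hP₁
    rw [← hw, map_cM_mk, ← hTd]
    exact isDefectGroup_cM hM hBbar hTdef _

end E4

end Cfsg.Agent.Lib.BlockPair
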