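import Cfsg.Agent.Lib.BlockKn4
import Cfsg.Agent.Lib.CharGal

/-! Faithful characters of prime power degree: bounds for the defect. -/

set_option autoImplicit false

namespace Cfsg.Agent.Lib.BlockPair

open Cfsg Cfsg.Agent.Lib.IrrBasic Cfsg.Agent.Lib.LocRing Cfsg.Agent.Lib.CyclicWords Cfsg.Agent.Lib
open Cfsg.Agent.Lib.BlockCore Cfsg.Agent.Lib.BlockOrth Cfsg.Agent.Lib.BlockBrauer
open Cfsg.Agent.Lib.BlockFixed Cfsg.Agent.Lib.BlockDefect Cfsg.Agent.Lib.BlockInduce
open Cfsg.Agent.Lib.BlockMain Cfsg.Agent.Lib.BlockMain2 Cfsg.Agent.Lib.BlockMain3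
open Cfsg.Agent.Lib.BlockMain4 Cfsg.Agent.Lib.BlockNorm Cfsg.Agent.Lib.BlockQuot Cfsg.Agent.Lib.BlockInfl
open Cfsg.Agent.Lib.BlockOku Cfsg.Agent.Lib.BlockInd Cfsg.Agent.Lib.BlockFrob Cfsg.Agent.Lib.BlockFirst
open Cfsg.Agent.Lib.BlockFirst2 Cfsg.Agent.Lib.BlockFirst3 Cfsg.Agent.Lib.BlockHeight Cfsg.Agent.Lib.BlockCentral
open Cfsg.Agent.Lib.BlockCanon Cfsg.Agent.Lib.BlockCover Cfsg.Agent.Lib.BlockCount Cfsg.Agent.Lib.BlockReg
open Cfsg.Agent.Lib.BlockReg2 Cfsg.Agent.Lib.BlockRank Cfsg.Agent.Lib.BlockSub Cfsg.Agent.Lib.BlockSec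
open Cfsg.Agent.Lib.BlockMaj Cfsg.Agent.Lib.BlockFeit
open scoped ComplexConjugate
open MonoidAlgebra Relation

universe u


section E5
variable {G : Type u} [Group G] [Fintype G] {M : Ideal AlgInt} {p : ℕ} [M.IsPrime] [hpf : Fact p.Prime]

theorem dvd_degree_of_small (hM : IsPModular p M) (Z : Subgroup G) [Fintype Z] {b : ℕ} (hb : Nat.card Z = p ^ b)
    (χ : IrrCharacter G) (h : ∀ z : Z, z ≠ 1 → MemLocalIdeal M (χ.1 z / χ.1 1)) : p ^ b ∣ charDegree χ.1 := by
  classical
  obtain ⟨N, hN⟩ := CharAlg.IsCharacter.classInner_irr_nat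
    (CharAlg.IsCharacter.res (CharBasic.IsIrrCharacter.isCharacter χ.2) Z) (oneIrr Z).2
  have hne1 : χ.1 1 ≠ 0 := val_one_ne_zero χ
  have hcardZ : (Nat.card Z : ℂ) ≠ 0 := by
    exact_mod_cast Nat.card_pos.ne'
  obtain ⟨u, hu⟩ : ∃ u : ℂ, u = ∑ z : Z, χ.1 z / χ.1 1 := ⟨_, rfl⟩
  have hu1 : MemLocalIdeal M (u - 1) := by
    have h1 : u - 1 = ∑ z ∈ Finset.univ.erase (1 : Z), χ.1 z / χ.1 1 := by
      rw [hu, ← Finset.add_sum_erase Finset.univ _ (Finset.mem_univ (1 : Z))]
      simp [hne1]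
    rw [h1]
    exact memLocalIdeal_finset_sum _ _ fun z hz => h z (Finset.mem_erase.mp hz).1
  have hmain : (N : ℂ) * (Nat.card Z : ℂ) = (charDegree χ.1 : ℂ) * u := by
    have h0 : classInner (fun n : Z => χ.1 n) (oneIrr Z).1 = (Nat.card Z : ℂ)⁻¹ * ∑ z : Z, χ.1 z := by
      rw [classInner]
      congr 1
      refine Finset.sum_congr rfl fun z _ => ?_
      simp [oneIrr]
    have h2 : ∀ z : Z, χ.1 1 * (χ.1 z / χ.1 1) = χ.1 z := by
      intro z
      field_simp
    have h3 : χ.1 1 * ∑ z : Z, χ.1 z / χ.1 1 = ∑ z : Z, χ.1 z := by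
      rw [Finset.mul_sum]
      simp only [h2]
    rw [← hN, h0, hu, charDegree_eq, ← val_one, h3]
    field_simp
  have hd0 : charDegree χ.1 ≠ 0 := by
    rw [charDegree_eq]
    exact dim_ne_zero χ
  obtain ⟨e, m, hm, hdm⟩ := Nat.exists_eq_pow_mul_and_not_dvd hd0 p hpf.out.ne_one
  by_contra hnd
  have he : e < b := by
    by_contra hle
    apply hnd
    rw [hdm]
    exact Dvd.dvd.mul_right (pow_dvd_pow p (not_lt.mp hle)) m
  have hp0 : (p : ℂ) ≠ 0 := by
    exact_mod_cast hpf.out.ne_zero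
  have h3 : (N : ℂ) * (p : ℂ) ^ (b - e) = (m : ℂ) * u := by
    have h4 : (p : ℂ) ^ b = (p : ℂ) ^ e * (p : ℂ) ^ (b - e) := by
      rw [← pow_add]
      congr 1
      omega
    rw [hb, hdm] at hmain
    push_cast at hmain
    rw [h4] at hmain
    have h5 : (p : ℂ) ^ e ≠ 0 := pow_ne_zero _ hp0
    apply mul_left_cancel₀ h5
    linear_combination hmain
  have hpJ : MemLocalIdeal M (p : ℂ) := memLocalIdeal_natCast hM
  have hpe : MemLocalIdeal M ((p : ℂ) ^ (b - e)) := by
    obtain ⟨j, hj⟩ : ∃ j, b - e = j + 1 := ⟨b - e - 1, by omega⟩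
    rw [hj, pow_succ]
    exact memLocalIdeal_mul_left (pow_mem (natCast_mem_locRing (M := M) p) j) hpJ
  have h6 : MemLocalIdeal M ((m : ℂ) * u) := by
    rw [← h3]
    exact memLocalIdeal_mul_left (natCast_mem_locRing N) hpe
  have h7 : MemLocalIdeal M ((m : ℂ) * (u - 1)) := memLocalIdeal_mul_left (natCast_mem_locRing m) hu1
  have h8 : MemLocalIdeal M (m : ℂ) := by
    have := memLocalIdeal_sub h6 h7
    convert this using 1
    ring
  have hm0 : (m : ℂ) ≠ 0 := by
    have : m ≠ 0 := by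
      rintro rfl
      simp at hm
    exact_mod_cast this
  have h9 := memLocalIdeal_mul_left (memLocalRing_natCast_inv (M := M) hM hm) h8
  rw [inv_mul_cancel₀ hm0] at h9
  have h10 : (1 : locRing M) ∈ locIdeal M := by
    rw [mem_locIdeal_iff]
    simpa using h9
  exact one_notMemLocalIdeal h10

theorem s4730 (hM : IsPModular p M) (hZ : Subgroup.center G = ⊥) (P : Sylow p G) (a b : ℕ)
    (ha : Nat.card P = p ^ a) (hb : Nat.card (Subgroup.center ↥(P : Subgroup G)) = p ^ b) (χ : IrrCharacter G)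
    (hfaith : ∀ g : G, χ.1 g = χ.1 1 → g = 1) (n : ℕ) (hdeg : charDegree χ.1 = p ^ n) :
    blockDefect p (blockOf M χ.1) ≤ a - b ∧
      (IsMulCommutative ↥(P : Subgroup G) → blockDefect p (blockOf M χ.1) = 0) := by
  classical
  obtain ⟨Z, hZd⟩ : ∃ Z : Subgroup G, Z = (Subgroup.center ↥(P : Subgroup G)).map (P : Subgroup G).subtype := ⟨_, rfl⟩
  have : Fintype Z := Fintype.ofFinite _
  have hZcard : Nat.card Z = p ^ b := by
    rw [← hb, hZd]
    exact Subgroup.card_map_of_injective (Subgroup.subtype_injective _)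
  have hZP : ∀ z ∈ Z, (P : Subgroup G) ≤ Subgroup.centralizer ({z} : Set G) := by
    intro z hz u hu
    rw [hZd] at hz
    obtain ⟨w, hw, rfl⟩ := hz
    rw [Subgroup.mem_centralizer_singleton_iff]
    have h1 := Subgroup.mem_center_iff.mp hw ⟨u, hu⟩
    exact congrArg Subtype.val h1
  have hidx : ∀ z ∈ Z, ¬ p ∣ (Subgroup.centralizer ({z} : Set G)).index := by
    intro z hz
    have h1 : (Subgroup.centralizer ({z} : Set G)).index ∣ (P : Subgroup G).index :=
      Subgroup.index_dvd_of_le (hZP z hz)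
    exact fun h2 => P.not_dvd_index (h2.trans h1)
  -- χ vanishes on the nontrivial elements of Z
  have hvan : ∀ z : Z, z ≠ 1 → χ.1 z = 0 := by
    intro z hz1
    have hcop : Nat.Coprime (Module.finrank ℂ (Fin (dim χ) → ℂ)) (Subgroup.centralizer ({(z : G)} : Set G)).index := by
      have h1 : Module.finrank ℂ (Fin (dim χ) → ℂ) = p ^ n := by
        rw [← hdeg, charDegree_eq]
        simp
      rw [h1]
      exact Nat.Coprime.pow_left _ ((Nat.Prime.coprime_iff_not_dvd hpf.out).mpr (hidx z z.2))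
    rcases CharGal.char_zero_or_norm_of_coprime (rep χ) inferInstance (z : G) hcop with h2 | h2
    · rwa [rep_char_apply] at h2
    · exfalso
      apply hz1
      obtain ⟨c, hc⟩ := (CharBasic.norm_character_eq_iff (rep χ) (z : G)).mp h2
      have hinj : Function.Injective (rep χ) := by
        rw [← MonoidHom.ker_eq_bot_iff, eq_bot_iff]
        intro g hg
        rw [MonoidHom.mem_ker] at hg
        apply hfaith
        rw [← rep_char_apply, ← rep_char_apply]
        simp [Representation.character, hg]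
      have hcen := CharGal.mem_center_of_scalar (rep χ) hinj (z : G) c hc
      rw [hZ] at hcen
      exact Subtype.ext (Subgroup.mem_bot.mp hcen)
  -- every character of the block has degree divisible by |Z|
  have hdvd : ∀ ψ ∈ blockOf M χ.1, p ^ b ∣ charDegree ψ.1 := by
    intro ψ hψ
    apply dvd_degree_of_small hM Z hZcard ψ
    intro z hz1
    have h1 := hψ (z : G)
    have h2 : centralChar χ.1 (z : G) = 0 := by
      rw [centralChar, hvan z hz1]
      simp
    rw [h2, zero_sub] at h1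
    have h3 : MemLocalIdeal M (centralChar ψ.1 (z : G)) := by
      have := memLocalIdeal_neg h1
      simpa using this
    rw [centralChar] at h3
    have hd : ¬ p ∣ (Subgroup.centralizer ({(z : G)} : Set G)).index := hidx z z.2
    have h4 := memLocalIdeal_mul_left (memLocalRing_natCast_inv (M := M) hM hd) h3
    have hi0 : ((Subgroup.centralizer ({(z : G)} : Set G)).index : ℂ) ≠ 0 := by
      exact_mod_cast Subgroup.index_ne_zero_of_finite
    convert h4 using 1
    field_simp
  obtain ⟨y, hy⟩ : ∃ y, y ∈ blockOf M χ.1 := ⟨χ, mem_blockOf_self _⟩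
  have hinf : b ≤ sInf ((fun ψ : IrrCharacter G => (charDegree ψ.1).factorization p) '' blockOf M χ.1) := by
    apply le_csInf (Set.Nonempty.image _ ⟨y, hy⟩)
    rintro _ ⟨ψ, hψ, rfl⟩
    have hd0 : charDegree ψ.1 ≠ 0 := by
      rw [charDegree_eq]
      exact dim_ne_zero ψ
    exact (hpf.out.pow_dvd_iff_le_factorization hd0).mp (hdvd ψ hψ)
  have hGa : (Nat.card G).factorization p = a := by
    have h1 := Sylow.card_eq_multiplicity P
    rw [ha] at h1
    exact (Nat.pow_right_injective hpf.out.two_le h1).symm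
  have h1 : blockDefect p (blockOf M χ.1) ≤ a - b := by
    unfold blockDefect
    rw [hGa]
    omega
  refine ⟨h1, fun hc => ?_⟩
  have hab : a ≤ b := by
    have h2 : Subgroup.center ↥(P : Subgroup G) = ⊤ := by
      rw [Subgroup.eq_top_iff']
      intro x
      rw [Subgroup.mem_center_iff]
      intro y
      exact mul_comm' y x
    have h3 : Nat.card (Subgroup.center ↥(P : Subgroup G)) = Nat.card P := by
      rw [h2]
      simp
    rw [hb, ha] at h3
    exact le_of_eq (Nat.pow_right_injective hpf.out.two_le h3).symm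
  omega

end E5

end Cfsg.Agent.Lib.BlockPair
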