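import Cfsg.Agent.Lib.BlockQuot

/-!
# Defect groups as Sylow intersections
-/

set_option autoImplicit false

namespace Cfsg.Agent.Lib.BlockGreen

open Cfsg Cfsg.Agent.Lib.IrrBasic Cfsg.Agent.Lib.LocRing Cfsg.Agent.Lib.CyclicWords Cfsg.Agent.Lib
open Cfsg.Agent.Lib.BlockCore Cfsg.Agent.Lib.BlockOrth Cfsg.Agent.Lib.BlockBrauer
open Cfsg.Agent.Lib.BlockFixed Cfsg.Agent.Lib.BlockDefect Cfsg.Agent.Lib.BlockInduce
open Cfsg.Agent.Lib.BlockMain Cfsg.Agent.Lib.BlockMain2 Cfsg.Agent.Lib.BlockMain3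
open Cfsg.Agent.Lib.BlockMain4 Cfsg.Agent.Lib.BlockNorm Cfsg.Agent.Lib.BlockQuot
open scoped ComplexConjugate

universe u

section Green

variable {G : Type*} [Group G] [Fintype G] {M : Ideal AlgInt} [hMp : M.IsPrime] {p : ℕ}

theorem centralizer_conj_mem_iff {Q : Subgroup G} {u g : G} (hu : u ∈ Q) :
    u * g * u⁻¹ ∈ Subgroup.centralizer (Q : Set G) ↔ g ∈ Subgroup.centralizer (Q : Set G) :=
  mem_centralizer_conj_iff (Subgroup.le_normalizer hu) g

theorem coset_sum_modp (hp : p.Prime) (a : MonoidAlgebra (locRing M) G) (ha : IsCentral a)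
    (P Q : Subgroup G) (hQ : IsPGroup p Q) (c : G) (h1 : Q ≤ P) (h2 : ∀ q ∈ Q, c⁻¹ * q * c ∈ P) :
    ∃ s : locRing M, (by classical exact ∑ g, (if c⁻¹ * g ∈ P ∧ g ∉ Subgroup.centralizer (Q : Set G) then a.coeff g else 0)) = p • s := by
  classical
  refine dvd_sum_of_conj hp hQ _ ?_ ?_
  · intro u hu g
    have h3 : c⁻¹ * (u * g * u⁻¹) ∈ P ↔ c⁻¹ * g ∈ P := by
      have h4 : c⁻¹ * (u * g * u⁻¹) = (c⁻¹ * u * c) * (c⁻¹ * g) * u⁻¹ := by group
      have h5 := h2 u hu
      have h6 := h1 hu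
      rw [h4]
      constructor
      · intro h7
        have h8 : c⁻¹ * g = (c⁻¹ * u * c)⁻¹ * ((c⁻¹ * u * c) * (c⁻¹ * g) * u⁻¹) * u := by group
        rw [h8]
        exact P.mul_mem (P.mul_mem (P.inv_mem h5) h7) h6
      · intro h7
        exact P.mul_mem (P.mul_mem h5 h7) (P.inv_mem h6)
    simp only [h3, centralizer_conj_mem_iff hu, ha g u]
  · intro g hg
    rw [if_neg]
    exact fun h => h.2 hg

theorem sum_split (a : G → locRing M) (P C : G → Prop) [DecidablePred P] [DecidablePred C] :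
    (∑ g, if P g then a g else 0) =
      (∑ g, if P g ∧ C g then a g else 0) + (∑ g, if P g ∧ ¬ C g then a g else 0) := by
  rw [← Finset.sum_add_distrib]
  refine Finset.sum_congr rfl fun g _ => ?_
  by_cases h1 : P g <;> by_cases h2 : C g <;> simp [h1, h2]

set_option maxHeartbeats 1000000 in
/-- Existence of a coset with unit coefficient sum. -/
theorem exists_coset_unit [Fact p.Prime] (hM : IsPModular p M) {B : Set (IrrCharacter G)} (hB : IsPBlock M B) (D P : Subgroup G)
    (hD : IsPGroup p D) (hP : IsPGroup p P) {y : G} (hy : y ∈ Subgroup.centralizer (D : Set G))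
    (hu : ¬ MemLocalIdeal M (blockCoeff B y)) :
    ∃ c ∈ Subgroup.centralizer (D : Set G),
      (by classical exact ∑ g : G, if c⁻¹ * g ∈ P ∧ g ∈ Subgroup.centralizer (D : Set G) then
        (idemOf B (blockCoeff_mem hM hB)).coeff g else 0) ∉ locIdeal M := by
  classical
  let H := Subgroup.centralizer (D : Set G)
  have : Fintype H := Fintype.ofFinite _
  have hA := blockCoeff_mem (M := M) hM hB
  let e := idemOf B hA
  have hec : IsCentral e := isCentral_idemOf _ _
  have hHN : H ≤ Subgroup.normalizer (D : Set G) := Subgroup.centralizer_le_normalizer _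
  let E := brH (M := M) D H e
  have hEc : IsCentral E := isCentral_brH hHN hec
  have hE2 : CoeffIn (locIdeal M) (E - E * E) := by
    have := coeffIn_brH_mul (M := M) (H := H) hM hD (le_refl _) hec hec
    rwa [show e * e = e from idemOf_mul_self B hA] at this
  let R : Subgroup H := P.subgroupOf H
  have hR : IsPGroup p R := hP.comap_subtype
  have : Fintype R := Fintype.ofFinite _
  by_contra hcon
  push Not at hcon
  have hall : ∀ ξ : IrrCharacter H, MemLocalIdeal M (omegaA ξ E) := by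
    intro ξ
    refine omegaA_mem_of_coset_sum hM hR ξ hEc fun g => ?_
    have h1 := hcon g g.2
    have h2 : ∑ u : R, E.coeff (g * (u : H)) = (by classical exact ∑ x : G, if (g : G)⁻¹ * x ∈ P ∧ x ∈ Subgroup.centralizer (D : Set G) then e.coeff x else 0) := by
      refine Finset.sum_of_injOn (fun u : R => (g : G) * ((u : H) : G)) ?_ (by simp) ?_ ?_
      · intro u _ w _ h
        apply Subtype.ext
        apply Subtype.ext
        exact mul_left_cancel h
      · intro x _ hx
        rw [if_neg]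
        rintro ⟨h3, h4⟩
        apply hx
        have h5 : (g : G)⁻¹ * x ∈ H := H.mul_mem (H.inv_mem g.2) h4
        refine ⟨⟨⟨(g : G)⁻¹ * x, h5⟩, ?_⟩, by simp, by simp⟩
        exact h3
      · intro u _
        have h3 : ((u : H) : G) ∈ P := u.2
        have h4 : (g : G) * ((u : H) : G) ∈ H := H.mul_mem g.2 (u : H).2
        rw [if_pos ⟨by simpa using h3, h4⟩]
        simp only [E, brH, coeff_res, coeff_br, Subgroup.coe_mul]
        rw [if_pos h4]
    rw [h2]
    exact h1
  obtain ⟨r, hr, hrc⟩ := exists_pow_coeffIn hEc hall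
  obtain ⟨n, rfl⟩ : ∃ n, r = n + 1 := ⟨r - 1, by omega⟩
  have h1 := coeffIn_pow_sub_of_idem hE2 n
  have h2 : CoeffIn (locIdeal M) E := by
    have := hrc.sub h1
    simpa using this
  have h3 := h2 ⟨y, hy⟩
  apply hu
  simp only [E, brH, coeff_res, coeff_br, if_pos hy] at h3
  have h4 := mem_locIdeal_iff.mp h3
  rwa [coeff_idemOf] at h4

set_option maxHeartbeats 1000000 in
/-- S0956 -/
theorem defect_eq_sylow_inf [Fact p.Prime] (hM : IsPModular p M) {B : Set (IrrCharacter G)} (hB : IsPBlock M B) {D : Subgroup G}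
    (hD : IsDefectGroup p M B D) (P : Sylow p G) (hDP : D ≤ P) :
    ∃ x : G, ¬ p ∣ orderOf x ∧
      (∃ S : Sylow p (Subgroup.centralizer ({x} : Set G)),
        (S : Subgroup (Subgroup.centralizer ({x} : Set G))).map (Subgroup.centralizer ({x} : Set G)).subtype = D) ∧
      (P : Subgroup G) ⊓ (P : Subgroup G).map (MulAut.conj x).toMonoidHom = D := by
  classical
  have hp := hM.1
  obtain ⟨y, hy, D₀, rfl⟩ := hD
  set D := (D₀ : Subgroup (Subgroup.centralizer ({y} : Set G))).map (Subgroup.centralizer ({y} : Set G)).subtype with hDdef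
  have hDp : IsPGroup p D := D₀.isPGroup'.map _
  have hyC : y ∈ Subgroup.centralizer (D : Set G) := by
    rw [mem_centralizer_iff_le]
    rintro _ ⟨d, _, rfl⟩
    exact d.2
  have hA := blockCoeff_mem (M := M) hM hB
  let e := idemOf B hA
  have hec : IsCentral e := isCentral_idemOf _ _
  obtain ⟨c, hc, hcu⟩ := exists_coset_unit hM hB D (P : Subgroup G) hDp P.isPGroup' hyC hy.2.1
  let Pg : Subgroup G := P
  -- Step B
  have hcD : ∀ q ∈ D, c⁻¹ * q * c ∈ Pg := by
    intro q hq
    have h1 : c * q = q * c := by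
      have := (Subgroup.mem_centralizer_iff.mp hc) q hq
      exact this.symm
    have h2 : c⁻¹ * q * c = q := by
      calc c⁻¹ * q * c = c⁻¹ * (q * c) := by group
        _ = c⁻¹ * (c * q) := by rw [h1]
        _ = q := by group
    rw [h2]
    exact hDP hq
  obtain ⟨s₁, hs₁⟩ := coset_sum_modp (M := M) hp e hec Pg D hDp c hDP hcD
  let Q : Subgroup G := Pg ⊓ Pg.map (MulAut.conj c).toMonoidHom
  have hQp : IsPGroup p Q := P.isPGroup'.to_le inf_le_left
  have hQ2 : ∀ q ∈ Q, c⁻¹ * q * c ∈ Pg := fun q hq => mem_map_conj_iff.mp hq.2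
  obtain ⟨s₂, hs₂⟩ := coset_sum_modp (M := M) hp e hec Pg Q hQp c inf_le_left hQ2
  have hpm : ((p : ℕ) : locRing M) ∈ locIdeal M := natCast_mem_locIdeal hM
  have hsplit1 := sum_split (M := M) (fun g => e.coeff g) (fun g => c⁻¹ * g ∈ Pg) (fun g => g ∈ Subgroup.centralizer (D : Set G))
  have hsplit2 := sum_split (M := M) (fun g => e.coeff g) (fun g => c⁻¹ * g ∈ Pg) (fun g => g ∈ Subgroup.centralizer (Q : Set G))
  -- ∃ w
  obtain ⟨w, hw1, hw2, hw3⟩ : ∃ w, c⁻¹ * w ∈ Pg ∧ w ∈ Subgroup.centralizer (Q : Set G) ∧ e.coeff w ∉ locIdeal M := by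
    by_contra hcon
    push Not at hcon
    have h3 : (∑ g, if c⁻¹ * g ∈ Pg ∧ g ∈ Subgroup.centralizer (Q : Set G) then e.coeff g else 0) ∈ locIdeal M := by
      refine Ideal.sum_mem _ fun g _ => ?_
      split_ifs with h
      · exact hcon g h.1 h.2
      · exact (locIdeal M).zero_mem
    apply hcu
    have hs₁' : (∑ g, if c⁻¹ * g ∈ Pg ∧ g ∉ Subgroup.centralizer (D : Set G) then e.coeff g else 0) = p • s₁ := by
      convert hs₁
    have hs₂' : (∑ g, if c⁻¹ * g ∈ Pg ∧ g ∉ Subgroup.centralizer (Q : Set G) then e.coeff g else 0) = p • s₂ := by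
      convert hs₂
    have h4 : (∑ g, if c⁻¹ * g ∈ Pg ∧ g ∈ Subgroup.centralizer (D : Set G) then e.coeff g else 0) =
        (∑ g, if c⁻¹ * g ∈ Pg ∧ g ∈ Subgroup.centralizer (Q : Set G) then e.coeff g else 0) + p • s₂ - p • s₁ := by
      rw [← hs₂', ← hs₁', ← hsplit2, hsplit1]
      ring
    have h5 : (∑ g, if c⁻¹ * g ∈ Pg ∧ g ∈ Subgroup.centralizer (D : Set G) then e.coeff g else 0) ∈ locIdeal M := by
      rw [h4, nsmul_eq_mul, nsmul_eq_mul]
      exact (locIdeal M).sub_mem ((locIdeal M).add_mem h3 ((locIdeal M).mul_mem_right _ hpm)) ((locIdeal M).mul_mem_right _ hpm)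
    convert h5
  have hwu : ¬ MemLocalIdeal M (blockCoeff B w) := by
    intro h
    apply hw3
    rw [mem_locIdeal_iff, show ((e.coeff w : locRing M) : ℂ) = blockCoeff B w from coeff_idemOf _ _ _]
    exact h
  have hwreg : ¬ p ∣ orderOf w := by
    intro h
    apply hwu
    rw [blockCoeff_eq_zero_of_singular hM hB h]
    exact memLocalIdeal_zero
  -- the min-max theorem
  obtain ⟨x, T, hT⟩ := (minMax hM hB hy D₀ w).1 (hA w) hwu
  have hQw : Q ≤ Subgroup.centralizer ({w} : Set G) := mem_centralizer_iff_le.mp hw2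
  have hDQ : D ≤ Q := fun d hd => ⟨hDP hd, mem_map_conj_iff.mpr (hcD d hd)⟩
  let Q' : Subgroup (Subgroup.centralizer ({w} : Set G)) := Q.subgroupOf (Subgroup.centralizer ({w} : Set G))
  have hQ'p : IsPGroup p Q' := hQp.comap_subtype
  obtain ⟨T', hT'⟩ := hQ'p.exists_le_sylow
  have hQT' : Q ≤ (T' : Subgroup (Subgroup.centralizer ({w} : Set G))).map (Subgroup.centralizer ({w} : Set G)).subtype := by
    intro q hq
    exact ⟨⟨q, hQw hq⟩, hT' hq, rfl⟩
  have hcard1 : Nat.card T' = Nat.card T := by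
    rw [Sylow.card_eq_multiplicity, Sylow.card_eq_multiplicity]
  have hcard2 : Nat.card ((T' : Subgroup (Subgroup.centralizer ({w} : Set G))).map (Subgroup.centralizer ({w} : Set G)).subtype) = Nat.card T' :=
    Subgroup.card_map_of_injective (Subgroup.subtype_injective _)
  have hcard3 : Nat.card ((T : Subgroup (Subgroup.centralizer ({w} : Set G))).map (Subgroup.centralizer ({w} : Set G)).subtype) = Nat.card T :=
    Subgroup.card_map_of_injective (Subgroup.subtype_injective _)
  have hcard4 : Nat.card (D.map (MulAut.conj x).toMonoidHom) = Nat.card D :=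
    Subgroup.card_map_of_injective (MulAut.conj x).injective
  have hle1 : Nat.card ((T : Subgroup (Subgroup.centralizer ({w} : Set G))).map (Subgroup.centralizer ({w} : Set G)).subtype) ≤ Nat.card (D.map (MulAut.conj x).toMonoidHom) :=
    Subgroup.card_le_of_le hT
  have hle2 := Subgroup.card_le_of_le hQT'
  have hle3 : Nat.card Q ≤ Nat.card D := by omega
  have hQD : D = Q := Subgroup.eq_of_le_of_card_ge hDQ hle3
  have hT'D : (T' : Subgroup (Subgroup.centralizer ({w} : Set G))).map (Subgroup.centralizer ({w} : Set G)).subtype = D := by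
    symm
    refine Subgroup.eq_of_le_of_card_ge (hDQ.trans hQT') ?_
    omega
  refine ⟨w, hwreg, ⟨T', hT'D⟩, ?_⟩
  rw [hQD]
  have hv : c⁻¹ * w ∈ Pg := hw1
  ext g
  constructor
  · rintro ⟨h1, h2⟩
    refine ⟨h1, mem_map_conj_iff.mpr ?_⟩
    have h3 := mem_map_conj_iff.mp h2
    have h4 : c⁻¹ * g * c = (c⁻¹ * w) * (w⁻¹ * g * w) * (c⁻¹ * w)⁻¹ := by group
    rw [h4]
    exact Pg.mul_mem (Pg.mul_mem hv h3) (Pg.inv_mem hv)
  · rintro ⟨h1, h2⟩
    refine ⟨h1, mem_map_conj_iff.mpr ?_⟩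
    have h3 := mem_map_conj_iff.mp h2
    have h4 : w⁻¹ * g * w = (c⁻¹ * w)⁻¹ * (c⁻¹ * g * c) * (c⁻¹ * w) := by group
    rw [h4]
    exact Pg.mul_mem (Pg.mul_mem (Pg.inv_mem hv) h3) hv

end Green

end Cfsg.Agent.Lib.BlockGreen
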