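import Cfsg.Agent.Lib.BlockKlein

/-!
# Blocks with a single irreducible Brauer character
-/

set_option autoImplicit false
set_option linter.unusedSectionVars false
set_option linter.unusedVariables false
set_option linter.style.longLine false

namespace Cfsg.Agent.Lib.BlockL1

open Cfsg Cfsg.Agent.Lib.IrrBasic Cfsg.Agent.Lib.LocRing Cfsg.Agent.Lib.CyclicWords Cfsg.Agent.Lib
open Cfsg.Agent.Lib.BlockCore Cfsg.Agent.Lib.BlockOrth Cfsg.Agent.Lib.BlockBrauer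
open Cfsg.Agent.Lib.BlockFixed Cfsg.Agent.Lib.BlockDefect Cfsg.Agent.Lib.BlockInduce
open Cfsg.Agent.Lib.BlockMain Cfsg.Agent.Lib.BlockMain2 Cfsg.Agent.Lib.BlockMain3
open Cfsg.Agent.Lib.BlockMain4 Cfsg.Agent.Lib.BlockNorm Cfsg.Agent.Lib.BlockQuot Cfsg.Agent.Lib.BlockInfl
open Cfsg.Agent.Lib.BlockOku Cfsg.Agent.Lib.BlockInd Cfsg.Agent.Lib.BlockFrob Cfsg.Agent.Lib.BlockFirst
open Cfsg.Agent.Lib.BlockFirst2 Cfsg.Agent.Lib.BlockFirst3 Cfsg.Agent.Lib.BlockHeight Cfsg.Agent.Lib.BlockCentral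
open Cfsg.Agent.Lib.BlockCanon Cfsg.Agent.Lib.BlockCover Cfsg.Agent.Lib.BlockCount Cfsg.Agent.Lib.BlockReg
open Cfsg.Agent.Lib.BlockReg2 Cfsg.Agent.Lib.BlockRank Cfsg.Agent.Lib.BlockSub Cfsg.Agent.Lib.BlockSec
open Cfsg.Agent.Lib.BlockMaj Cfsg.Agent.Lib.BlockFeit Cfsg.Agent.Lib.BlockPair
open scoped ComplexConjugate
open MonoidAlgebra Relation

universe u

theorem bezout_finset {ι : Type*} [DecidableEq ι] (S : Finset ι) (f : ι → ℕ) :
    ∃ n : ι → ℤ, ∑ i ∈ S, n i * (f i : ℤ) = (S.gcd f : ℕ) := by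
  induction S using Finset.induction_on with
  | empty => exact ⟨0, by simp⟩
  | insert a S ha ih =>
    obtain ⟨n, hn⟩ := ih
    refine ⟨fun i => if i = a then Nat.gcdA (f a) (S.gcd f) else Nat.gcdB (f a) (S.gcd f) * n i, ?_⟩
    rw [Finset.sum_insert ha, Finset.gcd_insert]
    have h1 : ∑ i ∈ S, (if i = a then Nat.gcdA (f a) (S.gcd f) else Nat.gcdB (f a) (S.gcd f) * n i) * (f i : ℤ) =
        Nat.gcdB (f a) (S.gcd f) * ∑ i ∈ S, n i * (f i : ℤ) := by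
      rw [Finset.mul_sum]
      refine Finset.sum_congr rfl fun i hi => ?_
      have : i ≠ a := fun h => ha (h ▸ hi)
      rw [if_neg this]
      ring
    rw [h1, hn]
    beta_reduce
    rw [if_pos rfl]
    have h2 := Nat.gcd_eq_gcd_ab (f a) (S.gcd f)
    change ((Nat.gcd (f a) (S.gcd f) : ℕ) : ℤ) = _ at h2
    have h3 : (GCDMonoid.gcd (f a) (S.gcd f) : ℕ) = Nat.gcd (f a) (S.gcd f) := rfl
    rw [h3, h2]
    ring

variable {G : Type u} [Group G] [Fintype G] {p : ℕ} [hpf : Fact p.Prime] {M : Ideal AlgInt}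

theorem regular_one : IsPRegular p (1 : G) := by
  unfold IsPRegular
  rw [orderOf_one]
  exact hpf.out.one_lt.ne' ∘ Nat.dvd_one.mp

theorem prop_of_rank_one {B : Set (IrrCharacter G)} (hl : blockRank p B = 1) {χ ψ : IrrCharacter G}
    (hχ : χ ∈ B) (hψ : ψ ∈ B) {x : G} (hx : IsPRegular p x) : ψ.1 x * χ.1 1 = χ.1 x * ψ.1 1 := by
  classical
  have h1reg := regular_one (p := p) (G := G)
  let W := Submodule.span ℂ ((fun χ : IrrCharacter G => pRegularPart p χ.1) '' B)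
  have hmem : ∀ ξ ∈ B, pRegularPart p ξ.1 ∈ W := fun ξ hξ => Submodule.subset_span ⟨ξ, hξ, rfl⟩
  have hv : (⟨pRegularPart p χ.1, hmem χ hχ⟩ : W) ≠ 0 := by
    intro h
    have h2 := congrArg (fun w : W => (w : G → ℂ) 1) h
    simp only [pRegularPart, if_pos h1reg] at h2
    exact val_one_ne_zero χ h2
  obtain ⟨c, hc⟩ := (finrank_eq_one_iff_of_nonzero' _ hv).mp hl ⟨pRegularPart p ψ.1, hmem ψ hψ⟩
  have hc' : c • pRegularPart p χ.1 = pRegularPart p ψ.1 := congrArg Subtype.val hc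
  have h1 := congrFun hc' 1
  have h2 := congrFun hc' x
  simp only [Pi.smul_apply, smul_eq_mul, pRegularPart, if_pos h1reg, if_pos hx] at h1 h2
  rw [← h1, ← h2]
  ring

theorem s4675 (hM : IsPModular p M) {B : Set (IrrCharacter G)} (hB : IsPBlock M B) {P : Subgroup G}
    (hP : IsDefectGroup p M B P) (hl : blockRank p B = 1) :
    ∃ φ : G → ℂ, ∃ d : IrrCharacter G → ℕ,
      (∃ n : IrrCharacter G → ℤ, ∀ x : G, IsPRegular p x → φ x = ∑ᶠ ψ ∈ B, (n ψ : ℂ) * ψ.1 x) ∧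
      (∀ χ ∈ B, ∀ x : G, IsPRegular p x → χ.1 x = (d χ : ℂ) * φ x) ∧ ∑ᶠ χ ∈ B, d χ ^ 2 = Nat.card P := by
  classical
  haveI : M.IsPrime := hM.2.1.isPrime
  haveI : Fintype (IrrCharacter G) := Fintype.ofFinite _
  obtain ⟨S, hSdef⟩ : ∃ S : Finset (IrrCharacter G), S = Finset.univ.filter (fun ξ => ξ ∈ B) := ⟨_, rfl⟩
  have hS : ∀ ξ, ξ ∈ S ↔ ξ ∈ B := fun ξ => by rw [hSdef]; simp
  have hSB : (S : Set (IrrCharacter G)) = B := Set.ext fun ξ => hS ξ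
  have hfin : ∀ {R : Type} [AddCommMonoid R] (f : IrrCharacter G → R), ∑ᶠ ξ ∈ B, f ξ = ∑ ξ ∈ S, f ξ := by
    intro R _ f
    rw [← hSB, finsum_mem_coe_finset]
  obtain ⟨deg, hdeg⟩ : ∃ deg : IrrCharacter G → ℕ, deg = fun ξ => charDegree ξ.1 := ⟨_, rfl⟩
  have hdegv : ∀ ξ : IrrCharacter G, ξ.1 1 = (deg ξ : ℂ) := fun ξ => by
    rw [hdeg]; exact val_one_eq_charDegree ξ
  obtain ⟨χ₀, hχ₀, h00⟩ := exists_height_zero (p := p) hM hB
  obtain ⟨n, hn⟩ := bezout_finset S deg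
  obtain ⟨g, hg⟩ : ∃ g, g = S.gcd deg := ⟨_, rfl⟩
  rw [← hg] at hn
  have hgdvd : ∀ ξ ∈ S, g ∣ deg ξ := fun ξ hξ => hg ▸ Finset.gcd_dvd hξ
  have hdeg0 : ∀ ξ : IrrCharacter G, deg ξ ≠ 0 := fun ξ => by
    rw [hdeg]; exact charDegree_ne_zero' ξ
  have hg0 : g ≠ 0 := by
    intro h
    have h1 := hgdvd χ₀ ((hS _).mpr hχ₀)
    rw [h, zero_dvd_iff] at h1
    exact hdeg0 _ h1
  obtain ⟨d, hd⟩ : ∃ d : IrrCharacter G → ℕ, d = fun ξ => deg ξ / g := ⟨_, rfl⟩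
  have hdv : ∀ ξ ∈ S, deg ξ = g * d ξ := fun ξ hξ => by
    rw [hd]; exact (Nat.mul_div_cancel' (hgdvd ξ hξ)).symm
  have hgC : (g : ℂ) ≠ 0 := Nat.cast_ne_zero.mpr hg0
  have hnC : ∑ ξ ∈ S, (n ξ : ℂ) * (deg ξ : ℂ) = (g : ℂ) := by
    have := congrArg (fun z : ℤ => (z : ℂ)) hn
    push_cast at this
    exact this
  refine ⟨fun x => ∑ ψ ∈ S, (n ψ : ℂ) * ψ.1 x, d, ⟨n, fun x hx => (hfin _).symm⟩, ?_, ?_⟩
  · intro χ hχ x hx
    have h1 : (∑ ψ ∈ S, (n ψ : ℂ) * ψ.1 x) * χ.1 1 = (g : ℂ) * χ.1 x := by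
      rw [Finset.sum_mul, ← hnC, Finset.sum_mul]
      refine Finset.sum_congr rfl fun ψ hψ => ?_
      have h2 := prop_of_rank_one hl hχ ((hS _).mp hψ) hx
      rw [hdegv ψ] at h2
      linear_combination (n ψ : ℂ) * h2
    have h2 : χ.1 1 = (g : ℂ) * (d χ : ℂ) := by
      rw [hdegv, hdv χ ((hS _).mpr hχ)]
      push_cast
      ring
    rw [h2] at h1
    apply mul_left_cancel₀ hgC
    linear_combination -h1
  · rw [hfin]
    obtain ⟨c, hc⟩ : ∃ c, c = ∑ ξ ∈ S, d ξ ^ 2 := ⟨_, rfl⟩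
    rw [← hc, card_defectGroup hM hB hP]
    have hdegS : ∀ ξ ∈ S, (deg ξ : ℂ) = (g : ℂ) * (d ξ : ℂ) := fun ξ hξ => by
      rw [hdv ξ hξ]; push_cast; ring
    -- the inner products
    obtain ⟨R₀, hR₀⟩ : ∃ R₀, R₀ = regInner p χ₀ χ₀ := ⟨_, rfl⟩
    have hR₀0 : R₀ ≠ 0 := by
      rw [hR₀]
      intro h
      have := regInner_self_re_pos (p := p) χ₀
      rw [h] at this
      simp at this
    have hreg : ∀ ξ ∈ S, ∀ ψ ∈ S, regInner p ξ ψ * ((deg χ₀ : ℂ) ^ 2) = (deg ξ : ℂ) * (deg ψ : ℂ) * R₀ := by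
      intro ξ hξ ψ hψ
      rw [hR₀]
      simp only [regInner]
      rw [Finset.sum_mul, Finset.mul_sum]
      refine Finset.sum_congr rfl fun x _ => ?_
      by_cases hx : p ∣ orderOf x
      · simp [hx]
      · simp only [hx, not_false_eq_true, if_true]
        have h1 := prop_of_rank_one hl hχ₀ ((hS _).mp hξ) hx
        have h2 := prop_of_rank_one hl hχ₀ ((hS _).mp hψ) hx
        rw [hdegv, hdegv] at h1 h2
        have h3 := congrArg conj h2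
        simp only [map_mul, Complex.conj_natCast] at h3
        linear_combination (conj (ψ.1 x) * (deg χ₀ : ℂ)) * h1 + (χ₀.1 x * (deg ξ : ℂ)) * h3
    have hsum : ∑ ξ ∈ S, regInner p ξ ξ / (Nat.card G : ℂ) = 1 := by
      have h1 := blockRank_eq_sum hM hB
      rw [hl] at h1
      rw [hSdef, Finset.sum_filter]
      rw [Nat.cast_one] at h1
      rw [h1]
    have hGC : (Nat.card G : ℂ) ≠ 0 := Nat.cast_ne_zero.mpr Nat.card_pos.ne'
    have hdeg₀C : (deg χ₀ : ℂ) ≠ 0 := Nat.cast_ne_zero.mpr (hdeg0 _)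
    obtain ⟨Q, hQ⟩ : ∃ Q : ℂ, Q = ∑ ξ ∈ S, (deg ξ : ℂ) ^ 2 := ⟨_, rfl⟩
    have hQval : (Nat.card G : ℂ) * (deg χ₀ : ℂ) ^ 2 = R₀ * Q := by
      have h1 : ∑ ξ ∈ S, regInner p ξ ξ * (deg χ₀ : ℂ) ^ 2 = (Nat.card G : ℂ) * (deg χ₀ : ℂ) ^ 2 := by
        rw [← Finset.sum_mul]
        congr 1
        have h2 := hsum
        rw [← Finset.sum_div] at h2
        field_simp at h2
        exact h2
      rw [← h1, hQ, Finset.mul_sum]
      refine Finset.sum_congr rfl fun ξ hξ => ?_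
      rw [hreg ξ hξ ξ hξ]
      ring
    have hcC : (c : ℂ) = ∑ ξ ∈ S, (d ξ : ℂ) ^ 2 := by
      rw [hc]; push_cast; rfl
    have hQc : Q = (g : ℂ) ^ 2 * (c : ℂ) := by
      rw [hQ, hcC, Finset.mul_sum]
      refine Finset.sum_congr rfl fun ξ hξ => ?_
      rw [hdegS ξ hξ]
      ring
    have hA : ∀ ξ ∈ S, ∀ ψ ∈ S, (regA p B ξ ψ) * (c : ℤ) = (d ξ : ℤ) * (d ψ : ℤ) * ((p ^ blockDefect p B : ℕ) : ℤ) := by
      intro ξ hξ ψ hψ
      have h1 := regInner_mul_eq_regA hM hB ξ ((hS _).mp hψ)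
      have h2 : (deg ξ : ℂ) * (deg ψ : ℂ) * R₀ * ((p ^ blockDefect p B : ℕ) : ℂ) =
          (Nat.card G : ℂ) * (regA p B ξ ψ : ℂ) * (deg χ₀ : ℂ) ^ 2 := by
        rw [← hreg ξ hξ ψ hψ, ← h1]
        ring
      have h3 : (deg ξ : ℂ) * (deg ψ : ℂ) * ((p ^ blockDefect p B : ℕ) : ℂ) = Q * (regA p B ξ ψ : ℂ) := by
        apply mul_left_cancel₀ hR₀0
        linear_combination h2 + (regA p B ξ ψ : ℂ) * hQval
      rw [hdegS ξ hξ, hdegS ψ hψ, hQc] at h3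
      have h4 : (d ξ : ℂ) * (d ψ : ℂ) * ((p ^ blockDefect p B : ℕ) : ℂ) = (regA p B ξ ψ : ℂ) * (c : ℂ) := by
        apply mul_left_cancel₀ (pow_ne_zero 2 hgC)
        linear_combination h3
      have h5 : (((d ξ : ℤ) * (d ψ : ℤ) * ((p ^ blockDefect p B : ℕ) : ℤ) : ℤ) : ℂ) = (((regA p B ξ ψ) * (c : ℤ) : ℤ) : ℂ) := by
        push_cast
        push_cast at h4
        exact h4
      exact (Int.cast_injective h5).symm
    -- Bezout for `d`
    have hnd : ∑ ξ ∈ S, n ξ * (d ξ : ℤ) = 1 := by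
      have h1 : (g : ℤ) * ∑ ξ ∈ S, n ξ * (d ξ : ℤ) = (g : ℤ) := by
        conv_rhs => rw [← hn]
        rw [Finset.mul_sum]
        refine Finset.sum_congr rfl fun ξ hξ => ?_
        rw [hdv ξ hξ]
        push_cast
        ring
      have hgZ : (g : ℤ) ≠ 0 := Nat.cast_ne_zero.mpr hg0
      exact mul_left_cancel₀ hgZ (by rw [h1, mul_one])
    have hdvd : (c : ℤ) ∣ ((p ^ blockDefect p B : ℕ) : ℤ) := by
      refine ⟨∑ ξ ∈ S, ∑ ψ ∈ S, n ξ * n ψ * regA p B ξ ψ, ?_⟩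
      have h1 : ((p ^ blockDefect p B : ℕ) : ℤ) =
          (∑ ξ ∈ S, n ξ * (d ξ : ℤ)) * (∑ ψ ∈ S, n ψ * (d ψ : ℤ)) * ((p ^ blockDefect p B : ℕ) : ℤ) := by
        rw [hnd]; ring
      rw [h1, Finset.sum_mul_sum, Finset.sum_mul, Finset.mul_sum]
      refine Finset.sum_congr rfl fun ξ hξ => ?_
      rw [Finset.sum_mul, Finset.mul_sum]
      refine Finset.sum_congr rfl fun ψ hψ => ?_
      linear_combination (-(n ξ * n ψ)) * hA ξ hξ ψ hψ
    have hdvd' : c ∣ p ^ blockDefect p B := by exact_mod_cast hdvd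
    obtain ⟨f, hf, hcf⟩ := (Nat.dvd_prime_pow hpf.out).mp hdvd'
    rw [hcf]
    have hf' : f = blockDefect p B := by
      by_contra hne
      have hlt : f < blockDefect p B := lt_of_le_of_ne hf hne
      have hχ₀S := (hS _).mpr hχ₀
      have h1 := hA χ₀ hχ₀S χ₀ hχ₀S
      rw [hcf] at h1
      have h2 : blockDefect p B = f + (blockDefect p B - f) := by omega
      have hpZ : ((p ^ f : ℕ) : ℤ) ≠ 0 := by
        exact_mod_cast (pow_ne_zero f hpf.out.ne_zero)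
      have h3 : regA p B χ₀ χ₀ = (d χ₀ : ℤ) * (d χ₀ : ℤ) * ((p ^ (blockDefect p B - f) : ℕ) : ℤ) := by
        apply mul_right_cancel₀ hpZ
        rw [h1]
        conv_lhs => rw [h2, pow_add]
        push_cast
        ring
      have h4 : (p : ℤ) ∣ regA p B χ₀ χ₀ := by
        rw [h3]
        refine Dvd.dvd.mul_left ?_ _
        push_cast
        exact dvd_pow_self (p : ℤ) (by omega)
      have h5 := regA_val hM hB hχ₀ hχ₀ h00
      rw [h00] at h5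
      have h6 := regA_ne_zero hM hB hχ₀ hχ₀ h00
      have h7 : p ∣ (regA p B χ₀ χ₀).natAbs := Int.natCast_dvd.mp h4
      have h8 := (hpf.out.dvd_iff_one_le_factorization (Int.natAbs_ne_zero.mpr h6)).mp h7
      omega
    rw [hf']

end Cfsg.Agent.Lib.BlockL1
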