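import Cfsg.Agent.Lib.LocRing
import Mathlib.RingTheory.RootsOfUnity.PrimitiveRoots
import Mathlib.RingTheory.RootsOfUnity.Complex
import Mathlib.RingTheory.Polynomial.Cyclotomic.Basic
import Mathlib.FieldTheory.IntermediateField.Adjoin.Basic
import Mathlib.Algebra.CharP.Lemmas
import Mathlib.FieldTheory.Finite.Basic
import Mathlib.Algebra.Algebra.ZMod

/-!
# Residues and roots of unity
-/

set_option autoImplicit false

namespace Cfsg.Agent.Lib.BlockRoot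

open Cfsg Cfsg.Agent.Lib.LocRing Polynomial

variable {p : ℕ} {M : Ideal AlgInt}

theorem eq_one_of_sub_one_mem (hM : IsPModular p M) {ζ : AlgInt} {n : ℕ} (hn : ¬ p ∣ n) (h1 : ζ ^ n = 1)
    (h2 : ζ - 1 ∈ M) : ζ = 1 := by
  have := hM.2.1.isPrime
  by_contra hne
  have h3 : ∑ i ∈ Finset.range n, ζ ^ i = 0 := by
    have h4 := geom_sum_mul ζ n
    rw [h1, sub_self] at h4
    exact (mul_eq_zero.mp h4).resolve_right (sub_ne_zero.mpr hne)
  have h5 : Ideal.Quotient.mk M ζ = 1 := by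
    have := (Ideal.Quotient.eq (I := M)).mpr h2
    simpa using this
  have h6 : ((n : ℕ) : AlgInt) ∈ M := by
    rw [← Ideal.Quotient.eq_zero_iff_mem]
    have h7 := congrArg (Ideal.Quotient.mk M) h3
    simp only [map_sum, map_pow, h5, one_pow, map_zero, Finset.sum_const, Finset.card_range,
      nsmul_eq_mul, mul_one] at h7
    simpa using h7
  have h8 := intCast_notMem_of_coprime hM.1 hM.2.2 (c := (n : ℤ)) (by exact_mod_cast hn)
  apply h8
  simpa using h6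

theorem eq_of_sub_mem (hM : IsPModular p M) {ε₁ ε₂ : AlgInt} {m₁ m₂ : ℕ} (h₁ : ¬ p ∣ m₁) (h₂ : ¬ p ∣ m₂)
    (e₁ : ε₁ ^ m₁ = 1) (e₂ : ε₂ ^ m₂ = 1) (h : ε₁ - ε₂ ∈ M) : ε₁ = ε₂ := by
  have hm₂ : m₂ ≠ 0 := by
    rintro rfl
    exact h₂ (dvd_zero _)
  obtain ⟨k, rfl⟩ : ∃ k, m₂ = k + 1 := ⟨m₂ - 1, by omega⟩
  have h1 : ε₂ ^ k * ε₂ = 1 := by rw [← pow_succ, e₂]
  have h2 : (ε₁ * ε₂ ^ k) ^ (m₁ * (k + 1)) = 1 := by
    rw [mul_pow, pow_mul ε₁, e₁, one_pow, one_mul, ← pow_mul,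
      show k * (m₁ * (k + 1)) = (k + 1) * (k * m₁) by ring, pow_mul, e₂, one_pow]
  have h3 : ε₁ * ε₂ ^ k - 1 ∈ M := by
    have h4 : ε₁ * ε₂ ^ k - 1 = ε₂ ^ k * (ε₁ - ε₂) := by
      rw [mul_sub, mul_comm _ ε₁, h1]
    rw [h4]
    exact M.mul_mem_left _ h
  have h4 := eq_one_of_sub_one_mem hM (n := m₁ * (k + 1)) ((Nat.Prime.dvd_mul hM.1).not.mpr (by tauto)) h2 h3
  have h5 : ε₂ ^ k ≠ 0 := by
    intro h0
    rw [h0] at h1
    simp at h1
  apply mul_right_cancel₀ h5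
  rw [h4, mul_comm ε₂, h1]

/-- Finite order in the residue field. -/
theorem exists_pow_sub_one_mem [hp : Fact p.Prime] (hM : IsPModular p M) {a : AlgInt} (ha : a ∉ M) :
    ∃ n : ℕ, 0 < n ∧ ¬ p ∣ n ∧ a ^ n - 1 ∈ M := by
  classical
  have hmax := hM.2.1
  let _ : Field (AlgInt ⧸ M) := Ideal.Quotient.field M
  have hc : CharP (AlgInt ⧸ M) p := by
    rw [CharP.charP_iff_prime_eq_zero hp.out]
    have := (Ideal.Quotient.eq_zero_iff_mem (I := M)).mpr hM.2.2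
    simpa using this
  let _ : Algebra (ZMod p) (AlgInt ⧸ M) := ZMod.algebra _ p
  obtain ⟨x, hx⟩ : ∃ x, x = Ideal.Quotient.mk M a := ⟨_, rfl⟩
  have hx0 : x ≠ 0 := by
    rw [hx]
    exact fun h => ha (Ideal.Quotient.eq_zero_iff_mem.mp h)
  have hI : IsIntegral ℤ x := by
    rw [hx]
    have h1 : IsIntegral ℤ a := integralClosure.isIntegral a
    exact h1.map (Ideal.Quotient.mkₐ ℤ M)
  have hI' : IsIntegral (ZMod p) x := hI.tower_top
  have hfd : FiniteDimensional (ZMod p) (IntermediateField.adjoin (ZMod p) {x}) :=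
    IntermediateField.adjoin.finiteDimensional hI'
  have hfin : Finite (IntermediateField.adjoin (ZMod p) {x}) := Module.finite_of_finite (ZMod p)
  obtain ⟨y, hy⟩ : ∃ y : IntermediateField.adjoin (ZMod p) {x}, (y : AlgInt ⧸ M) = x :=
    ⟨⟨x, IntermediateField.mem_adjoin_simple_self _ x⟩, rfl⟩
  have hy0 : y ≠ 0 := by
    rintro rfl
    exact hx0 (by rw [← hy]; rfl)
  obtain ⟨n, hn0, hn⟩ := (isOfFinOrder_iff_pow_eq_one).mp (isOfFinOrder_of_finite (Units.mk0 y hy0))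
  have hn1 : x ^ n = 1 := by
    have := congrArg (fun u : (IntermediateField.adjoin (ZMod p) {x})ˣ => ((u : IntermediateField.adjoin (ZMod p) {x}) : AlgInt ⧸ M)) hn
    simpa [hy] using this
  obtain ⟨e, m, hm, rfl⟩ := Nat.exists_eq_pow_mul_and_not_dvd hn0.ne' p hp.out.ne_one
  refine ⟨m, Nat.pos_of_ne_zero (by rintro rfl; exact hm (dvd_zero _)), hm, ?_⟩
  rw [← Ideal.Quotient.eq_zero_iff_mem]
  have h2 : (x ^ m - 1) ^ (p ^ e) = 0 := by
    rw [sub_pow_char_pow, ← pow_mul, mul_comm m, hn1, one_pow, sub_self]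
  have h3 := eq_zero_of_pow_eq_zero h2
  rw [map_sub, map_pow, map_one, ← hx]
  exact h3

/-- Every residue is that of a root of unity of order prime to `p`. -/
theorem exists_root [hp : Fact p.Prime] (hM : IsPModular p M) {a : AlgInt} (ha : a ∉ M) :
    ∃ ε : AlgInt, (∃ m : ℕ, ¬ p ∣ m ∧ (ε : ℂ) ^ m = 1) ∧ a - ε ∈ M := by
  classical
  obtain ⟨n, hn0, hn, han⟩ := exists_pow_sub_one_mem hM ha
  have hprim := Complex.isPrimitiveRoot_exp n hn0.ne'
  obtain ⟨ζ, hζ⟩ : ∃ ζ : ℂ, ζ = Complex.exp (2 * Real.pi * Complex.I / n) := ⟨_, rfl⟩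
  rw [← hζ] at hprim
  have hζint : IsIntegral ℤ ζ :=
    IsIntegral.of_pow hn0 (by rw [hprim.pow_eq_one]; exact isIntegral_one)
  let ζ' : AlgInt := ⟨ζ, hζint⟩
  have hprim' : IsPrimitiveRoot ζ' n :=
    IsPrimitiveRoot.of_map_of_injective (f := (algebraMap AlgInt ℂ)) hprim Subtype.val_injective
  have h1 := X_pow_sub_one_eq_prod hn0 hprim'
  have h2 := congrArg (Polynomial.eval a) h1
  simp only [eval_sub, eval_pow, eval_X, eval_one, eval_prod, eval_C] at h2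
  rw [h2] at han
  have := hM.2.1.isPrime
  obtain ⟨ε, hε, h3⟩ := (Ideal.IsPrime.prod_mem_iff).mp han
  refine ⟨ε, ⟨n, hn, ?_⟩, h3⟩
  have h4 := (mem_nthRootsFinset hn0 (1 : AlgInt)).mp hε
  have := congrArg (fun z : AlgInt => (z : ℂ)) h4
  simpa using this

end Cfsg.Agent.Lib.BlockRoot
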