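import Mathlib
import Cfsg.Agent.Lib.Invol

/-! Brauer–Fowler counting. -/

set_option autoImplicit false
set_option linter.unusedSectionVars false
set_option linter.unusedVariables false

namespace Cfsg.Agent.Lib.BrauerFowler

open Cfsg.Agent.Lib.Invol

variable {G : Type*} [Group G]

/-- The subgroup of elements sending `x` to `x` or `x⁻¹`. -/
def stabInv (x : G) : Subgroup G where
  carrier := {g | g * x * g⁻¹ = x ∨ g * x * g⁻¹ = x⁻¹}
  mul_mem' := by
    intro a b ha hb
    have e : a * b * x * (a * b)⁻¹ = a * (b * x * b⁻¹) * a⁻¹ := by group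
    simp only [Set.mem_ofPred_eq] at *
    rw [e]
    rcases hb with hb | hb
    · rw [hb]; exact ha
    · rw [hb]
      have e2 : a * x⁻¹ * a⁻¹ = (a * x * a⁻¹)⁻¹ := by group
      rw [e2]
      rcases ha with ha | ha
      · right; rw [ha]
      · left; rw [ha, inv_inv]
  one_mem' := by
    left; simp
  inv_mem' := by
    intro a ha
    simp only [Set.mem_ofPred_eq] at *
    rcases ha with ha | ha
    · left
      calc a⁻¹ * x * a⁻¹⁻¹ = a⁻¹ * (a * x * a⁻¹) * a := by rw [ha, inv_inv]
        _ = x := by group
    · right
      have e6 : a * x⁻¹ * a⁻¹ = x := by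
        have : a * x⁻¹ * a⁻¹ = (a * x * a⁻¹)⁻¹ := by group
        rw [this, ha, inv_inv]
      calc a⁻¹ * x * a⁻¹⁻¹ = a⁻¹ * (a * x⁻¹ * a⁻¹) * a := by rw [e6, inv_inv]
        _ = x⁻¹ := by group

theorem mem_stabInv {x g : G} : g ∈ stabInv x ↔ g * x * g⁻¹ = x ∨ g * x * g⁻¹ = x⁻¹ := Iff.rfl

theorem mem_centralizer_singleton {x g : G} : g ∈ Subgroup.centralizer ({x} : Set G) ↔ g * x * g⁻¹ = x := by
  rw [Subgroup.mem_centralizer_singleton_iff]
  constructor
  · intro h; rw [h, mul_inv_cancel_right]
  · intro h
    calc g * x = g * x * g⁻¹ * g := by group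
      _ = x * g := by rw [h]

variable [Finite G]

open Classical in
/-- the main counting inequality -/
theorem core (hZ : Odd (Nat.card (Subgroup.center G))) (hno : ∀ H : Subgroup G, H ≠ ⊤ → H.index ≠ 2) (k : ℕ)
    (hk : ∀ H : Subgroup G, H ≠ ⊤ → Nat.card H ≤ k) :
    2 * (Nat.card {t : G // orderOf t = 2}) ^ 2 + k ≤ (Nat.card G + Nat.card {t : G // orderOf t = 2}) * k := by
  classical
  haveI : Fintype G := Fintype.ofFinite G
  set I : Finset G := Finset.univ.filter (fun t => orderOf t = 2) with hI
  have hmemI : ∀ t : G, t ∈ I ↔ orderOf t = 2 := by simp [hI]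
  have hn : Nat.card {t : G // orderOf t = 2} = I.card := by
    rw [Nat.card_eq_fintype_card, Fintype.card_subtype]
  have hG : Nat.card G = (Finset.univ : Finset G).card := by
    rw [Nat.card_eq_fintype_card, Finset.card_univ]
  rw [hn, hG]
  set N : G → ℕ := fun x => (I.filter (fun u => u * x ∈ I)).card with hN
  have h1I : (1 : G) ∉ I := by
    rw [hmemI]; simp
  have hcardSub : ∀ C : Subgroup G, Nat.card C = (Finset.univ.filter (fun g => g ∈ C)).card := by
    intro C
    rw [Nat.card_eq_fintype_card, Fintype.card_subtype]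
  -- total count
  have hsum : ∑ x, N x = I.card * I.card := by
    have h1 := Finset.sum_card_bipartiteAbove_eq_sum_card_bipartiteBelow (s := I) (t := (Finset.univ : Finset G))
      (fun u x => u * x ∈ I)
    simp only [Finset.bipartiteAbove, Finset.bipartiteBelow] at h1
    rw [hN]
    simp only
    rw [← h1]
    have h2 : ∀ u ∈ I, (Finset.univ.filter (fun x => u * x ∈ I)).card = I.card := by
      intro u _
      apply Finset.card_bij (fun x _ => u * x)
      · intro x hx
        exact (Finset.mem_filter.mp hx).2
      · intro a _ b _ hab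
        exact mul_left_cancel hab
      · intro b hb
        exact ⟨u⁻¹ * b, by simpa using hb, by simp⟩
    rw [Finset.sum_congr rfl h2, Finset.sum_const, smul_eq_mul]
  have hN1 : N 1 = I.card := by
    simp only [hN, mul_one]
    congr 1
    exact Finset.filter_true_of_mem (fun u hu => hu)
  -- bound
  have hbound : ∀ x : G, x ≠ 1 → 2 * N x + 2 * (if x ∈ I then 1 else 0) ≤ k + k * (if x ∈ I then 1 else 0) := by
    intro x hx1
    by_cases hxI : x ∈ I
    · simp only [hxI, if_true, mul_one]
      have hx2 : orderOf x = 2 := (hmemI x).mp hxI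
      set C := Subgroup.centralizer ({x} : Set G) with hC
      have hCtop : C ≠ ⊤ := by
        intro h
        have hxc : x ∈ Subgroup.center G := by
          rw [Subgroup.mem_center_iff]
          intro g
          have : g ∈ C := by rw [h]; trivial
          exact Subgroup.mem_centralizer_singleton_iff.mp this
        have h3 : orderOf (⟨x, hxc⟩ : Subgroup.center G) = 2 := by
          rw [← Subgroup.orderOf_mk x hxc] at hx2
          exact hx2
        have h4 : 2 ∣ Nat.card (Subgroup.center G) := h3 ▸ orderOf_dvd_natCard _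
        exact (Nat.not_even_iff_odd.mpr hZ) (even_iff_two_dvd.mpr h4)
      have h5 := hk C hCtop
      have h6 : N x + 1 ≤ Nat.card C := by
        rw [hcardSub C]
        have hsub : insert (1 : G) (I.filter (fun u => u * x ∈ I)) ⊆ Finset.univ.filter (fun g => g ∈ C) := by
          intro u hu
          rcases Finset.mem_insert.mp hu with rfl | hu
          · simp [C.one_mem]
          · obtain ⟨hu1, hu2⟩ := Finset.mem_filter.mp hu
            have hu1' := (hmemI u).mp hu1
            have hu2' := (hmemI _).mp hu2
            have h7 : u * x * (u * x) = 1 := mul_self_eq_one hu2'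
            have h8 : u * x * u⁻¹ = x := by
              rw [inv_eq_self hu1']
              have : u * x * u = x⁻¹ := by
                apply eq_inv_of_mul_eq_one_left
                rw [mul_assoc (u * x)]
                exact h7
              rw [this, inv_eq_self hx2]
            simp only [Finset.mem_filter, Finset.mem_univ, true_and]
            exact mem_centralizer_singleton.mpr h8
        have h9 := Finset.card_le_card hsub
        rw [Finset.card_insert_of_notMem (by
          intro h; exact h1I (Finset.mem_filter.mp h).1)] at h9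
        exact h9
      omega
    · simp only [hxI, if_false, mul_zero, add_zero]
      have hxinv : x ≠ x⁻¹ := by
        intro h
        apply hxI
        rw [hmemI]
        have h2 : x ^ 2 = 1 := by
          rw [pow_two]; nth_rewrite 2 [h]; simp
        exact orderOf_two_of h2 hx1
      by_cases hF : (I.filter (fun u => u * x ∈ I)) = ∅
      · simp [hN, hF]
      obtain ⟨u₀, hu₀⟩ := Finset.nonempty_iff_ne_empty.mpr hF
      have hinv : ∀ u ∈ I.filter (fun u => u * x ∈ I), u * x * u⁻¹ = x⁻¹ := by
        intro u hu
        obtain ⟨hu1, hu2⟩ := Finset.mem_filter.mp hu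
        have hu1' := (hmemI u).mp hu1
        have hu2' := (hmemI _).mp hu2
        have h7 : u * x * (u * x) = 1 := mul_self_eq_one hu2'
        rw [inv_eq_self hu1']
        apply eq_inv_of_mul_eq_one_left
        rw [mul_assoc (u * x)]
        exact h7
      have hu₀I : orderOf u₀ = 2 := (hmemI u₀).mp (Finset.mem_filter.mp hu₀).1
      have hu₀inv := hinv u₀ hu₀
      set C := Subgroup.centralizer ({x} : Set G) with hC
      set H := stabInv x with hH
      have hCH : C ≤ H := fun g hg => Or.inl (mem_centralizer_singleton.mp hg)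
      have hu₀H : u₀ ∈ H := Or.inr hu₀inv
      have hu₀C : u₀ ∉ C := by
        intro h
        have := mem_centralizer_singleton.mp h
        rw [this] at hu₀inv
        exact hxinv hu₀inv
      have hCH' : C < H := lt_of_le_of_ne hCH (fun h => hu₀C (h ▸ hu₀H))
      have hHtop : H ≠ ⊤ := by
        intro h
        have hidx : C.index = 2 := by
          rw [Subgroup.index_eq_two_iff]
          refine ⟨u₀, fun b => ?_⟩
          have hb : b ∈ H := by rw [h]; trivial
          have e1 : b * u₀ * x * (b * u₀)⁻¹ = (b * x * b⁻¹)⁻¹ := by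
            have : b * u₀ * x * (b * u₀)⁻¹ = b * (u₀ * x * u₀⁻¹) * b⁻¹ := by group
            rw [this, hu₀inv]; group
          rw [mem_centralizer_singleton, mem_centralizer_singleton, e1]
          rcases hb with hb | hb
          · rw [hb]
            right
            exact ⟨rfl, hxinv.symm⟩
          · rw [hb]
            left
            exact ⟨inv_inv x, hxinv.symm⟩
        refine hno C ?_ hidx
        intro h2
        rw [h2, Subgroup.index_top] at hidx
        omega
      have h5 := hk H hHtop
      have h6 : N x ≤ Nat.card C := by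
        rw [hcardSub C]
        apply Finset.card_le_card_of_injOn (fun u => u * u₀⁻¹)
        · intro u hu
          have hu' := hinv u hu
          simp only [Finset.coe_filter, Finset.mem_univ, true_and, Set.mem_ofPred_eq]
          apply mem_centralizer_singleton.mpr
          have : u * u₀⁻¹ * x * (u * u₀⁻¹)⁻¹ = u * (u₀⁻¹ * x * u₀) * u⁻¹ := by group
          rw [this]
          have e7 : u₀⁻¹ * x * u₀ = x⁻¹ := by
            rw [inv_eq_self hu₀I]
            have := hu₀inv
            rw [inv_eq_self hu₀I] at this
            exact this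
          rw [e7]
          have e8 : u * x⁻¹ * u⁻¹ = (u * x * u⁻¹)⁻¹ := by group
          rw [e8, hu', inv_inv]
        · intro a _ b _ hab
          exact mul_right_cancel hab
      have h7 : 2 * Nat.card C ≤ Nat.card H := by
        have hdvd : Nat.card C ∣ Nat.card H := Subgroup.card_dvd_of_le hCH
        have hlt : Nat.card C < Nat.card H :=
          lt_of_le_of_ne (Nat.le_of_dvd Nat.card_pos hdvd) (fun h => hCH'.ne (Subgroup.eq_of_le_of_card_ge hCH h.ge))
        obtain ⟨c, hc⟩ := hdvd
        rw [hc] at hlt ⊢
        have hpos : 0 < Nat.card C := Nat.card_pos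
        have hc2 : 2 ≤ c := by
          by_contra hcon
          push Not at hcon
          interval_cases c <;> omega
        nlinarith
      omega
  -- sum the bounds
  have hsumb := Finset.sum_le_sum (s := Finset.univ.erase (1 : G)) (fun x hx => hbound x (Finset.ne_of_mem_erase hx))
  rw [Finset.sum_add_distrib, Finset.sum_add_distrib, ← Finset.mul_sum, ← Finset.mul_sum, ← Finset.mul_sum, Finset.sum_const,
    smul_eq_mul] at hsumb
  have hite : ∑ x ∈ Finset.univ.erase (1 : G), (if x ∈ I then 1 else 0) = I.card := by
    rw [Finset.sum_boole, Nat.cast_id]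
    congr 1
    ext y
    simp only [Finset.mem_filter, Finset.mem_erase, Finset.mem_univ, and_true]
    constructor
    · exact fun h => h.2
    · intro h
      exact ⟨fun h2 => h1I (h2 ▸ h), h⟩
  rw [hite] at hsumb
  have hsplit : ∑ x, N x = N 1 + ∑ x ∈ Finset.univ.erase (1 : G), N x := (Finset.add_sum_erase _ _ (Finset.mem_univ 1)).symm
  rw [hsum, hN1] at hsplit
  have hce : (Finset.univ.erase (1 : G)).card = (Finset.univ : Finset G).card - 1 := Finset.card_erase_of_mem (Finset.mem_univ 1)
  have hpos : 0 < (Finset.univ : Finset G).card := Finset.card_pos.mpr ⟨1, Finset.mem_univ _⟩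
  rw [hce] at hsumb
  obtain ⟨M, hM⟩ : ∃ M, (Finset.univ : Finset G).card = M + 1 := ⟨(Finset.univ : Finset G).card - 1, by omega⟩
  rw [hM] at hsumb ⊢
  simp only [Nat.add_sub_cancel] at hsumb
  nlinarith

open Classical in
theorem brauer_fowler (heven : Even (Nat.card G)) (hZ : Odd (Nat.card (Subgroup.center G))) :
    ∃ H : Subgroup G, H ≠ ⊤ ∧ (H.index = 2 ∨ 2 * H.index * (Nat.card {t : G // orderOf t = 2}) ^ 2 <
      Nat.card G * (Nat.card G + Nat.card {t : G // orderOf t = 2})) := by
  by_cases h2 : ∃ H : Subgroup G, H ≠ ⊤ ∧ H.index = 2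
  · obtain ⟨H, h3, h4⟩ := h2
    exact ⟨H, h3, Or.inl h4⟩
  push Not at h2
  have hbot : (⊥ : Subgroup G) ≠ ⊤ := by
    intro h
    have h3 : Nat.card G = 1 := by
      rw [← Subgroup.card_top (G := G), ← h, Subgroup.card_bot]
    rw [h3] at heven
    exact absurd heven (by decide)
  haveI : Nonempty {H : Subgroup G // H ≠ ⊤} := ⟨⟨⊥, hbot⟩⟩
  obtain ⟨⟨H, hH⟩, hmax⟩ := Finite.exists_max (fun H : {H : Subgroup G // H ≠ ⊤} => Nat.card H.1)
  refine ⟨H, hH, Or.inr ?_⟩
  have h5 := core hZ h2 (Nat.card H) (fun K hK => hmax ⟨K, hK⟩)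
  have h6 : H.index * Nat.card H = Nat.card G := Subgroup.index_mul_card H
  set n := Nat.card {t : G // orderOf t = 2} with hn
  have hpos : 0 < Nat.card G := Nat.card_pos
  have h7 := Nat.mul_le_mul_left H.index h5
  have h8 : H.index * (2 * n ^ 2 + Nat.card H) = 2 * H.index * n ^ 2 + Nat.card G := by
    rw [← h6]; ring
  have h9 : H.index * ((Nat.card G + n) * Nat.card H) = Nat.card G * (Nat.card G + n) := by
    calc H.index * ((Nat.card G + n) * Nat.card H) = (H.index * Nat.card H) * (Nat.card G + n) := by ring
      _ = _ := by rw [h6]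
  rw [h8, h9] at h7
  omega

/-- The class of an involution has at most `n` elements, so `|G| ≤ n |C(t)|`. -/
theorem card_le_mul_centralizer (t : G) (ht : orderOf t = 2) :
    Nat.card G ≤ Nat.card (Subgroup.centralizer ({t} : Set G)) * Nat.card {t : G // orderOf t = 2} := by
  classical
  haveI : Fintype G := Fintype.ofFinite G
  set C := Subgroup.centralizer ({t} : Set G) with hC
  have hn : Nat.card {t : G // orderOf t = 2} = (Finset.univ.filter (fun t : G => orderOf t = 2)).card := by
    rw [Nat.card_eq_fintype_card, Fintype.card_subtype]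
  have hcC : Nat.card C = (Finset.univ.filter (fun g => g ∈ C)).card := by
    rw [Nat.card_eq_fintype_card, Fintype.card_subtype]
  rw [hn, hcC, Nat.card_eq_fintype_card, ← Finset.card_univ]
  set f : G → G := fun g => g * t * g⁻¹ with hf
  have h1 := Finset.card_le_mul_card_image (f := f) Finset.univ (Finset.univ.filter (fun g => g ∈ C)).card (by
    intro a ha
    obtain ⟨g₀, _, rfl⟩ := Finset.mem_image.mp ha
    apply Finset.card_le_card_of_injOn (fun g => g₀⁻¹ * g)
    · intro g hg
      have hg' : f g = f g₀ := (Finset.mem_filter.mp hg).2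
      simp only [Finset.coe_filter, Finset.mem_univ, true_and, Set.mem_ofPred_eq]
      apply mem_centralizer_singleton.mpr
      have : g₀⁻¹ * g * t * (g₀⁻¹ * g)⁻¹ = g₀⁻¹ * (g * t * g⁻¹) * g₀ := by group
      rw [this]
      simp only [hf] at hg'
      rw [hg']
      group
    · intro a _ b _ hab
      exact mul_left_cancel hab)
  refine h1.trans (Nat.mul_le_mul_left _ (Finset.card_le_card ?_))
  intro y hy
  obtain ⟨g, _, rfl⟩ := Finset.mem_image.mp hy
  simp only [Finset.mem_filter, Finset.mem_univ, true_and]
  rw [hf]
  simp only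
  rw [orderOf_conj', ht]

theorem card_le_factorial_index {G : Type*} [Group G] [Finite G] [IsSimpleGroup G] (H : Subgroup G) (hH : H ≠ ⊤) :
    Nat.card G ≤ Nat.factorial H.index := by
  classical
  haveI : Fintype (G ⧸ H) := Fintype.ofFinite _
  set φ := MulAction.toPermHom G (G ⧸ H) with hφ
  have hker : φ.ker ≠ ⊤ := by
    intro h
    apply hH
    rw [eq_top_iff]
    intro x _
    have hx : x ∈ φ.ker := by rw [h]; trivial
    have h1 : φ x = 1 := hx
    have h2 : x • ((1 : G) : G ⧸ H) = ((1 : G) : G ⧸ H) := by
      have := congrArg (fun p : Equiv.Perm (G ⧸ H) => p ((1 : G) : G ⧸ H)) h1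
      exact this
    have h3 : ((x : G) : G ⧸ H) = ((1 : G) : G ⧸ H) := by
      calc ((x : G) : G ⧸ H) = ((x * 1 : G) : G ⧸ H) := by rw [mul_one]
        _ = x • ((1 : G) : G ⧸ H) := rfl
        _ = _ := h2
    rw [QuotientGroup.eq] at h3
    simpa using H.inv_mem h3
  have hinj : Function.Injective φ := by
    rw [← MonoidHom.ker_eq_bot_iff]
    exact (IsSimpleGroup.eq_bot_or_eq_top_of_normal φ.ker (MonoidHom.normal_ker φ)).resolve_right hker
  have h1 := Nat.card_le_card_of_injective φ hinj
  rw [Nat.card_perm] at h1
  exact h1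

end Cfsg.Agent.Lib.BrauerFowler
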