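import Cfsg.Agent.Lib.CharBerger2
import Cfsg.Agent.Lib.CharBrauer
import Cfsg.Agent.Lib.CharAbQ

/-!
# Berger's theorem on quasi-primitive characters of solvable groups: the induction
-/

set_option autoImplicit false
set_option linter.unusedVariables false
set_option linter.unusedSectionVars false
set_option linter.style.longLine false

open Cfsg Module
open scoped ComplexConjugate commutatorElement Pointwise TensorProduct
open Cfsg.Agent.Lib.CharBasic Cfsg.Agent.Lib.CharOrth Cfsg.Agent.Lib.CharAlg Cfsg.Agent.Lib.CharInd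
  Cfsg.Agent.Lib.CharLin Cfsg.Agent.Lib.CharProj Cfsg.Agent.Lib.CharGall Cfsg.Agent.Lib.CharRelM
  Cfsg.Agent.Lib.CharBerger Cfsg.Agent.Lib.CharMisc Cfsg.Agent.Lib.CharClifford Cfsg.Agent.Lib.CharBerger2

universe u v w

namespace Cfsg.Agent.Lib.CharBerger3

/-- A counterexample with the measure `n`. -/
def BergerCE (n : ℕ) (Y : Type u) [Group Y] [Fintype Y] (χ : Y → ℂ) : Prop :=
  Group.IsSolvable Y ∧ IsIrrCharacter Y χ ∧ (∃ Z : Subgroup Y, Z.index ≤ n ∧ ∀ z ∈ Z, ‖χ z‖ = ‖χ 1‖) ∧
    (∀ N : Subgroup Y, N.Normal → ∃ (φ : N → ℂ) (e : ℕ), IsIrrCharacter N φ ∧ (fun m : N => χ m) = (e : ℂ) • φ) ∧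
    ∃ (K : Subgroup Y) (ψ : K → ℂ), K ≠ ⊤ ∧ IsCharacter K ψ ∧ indFun K ψ = χ

section CaseA

theorem le_smul_irr {Y : Type u} [Group Y] [Fintype Y] {A B φ : Y → ℂ} (hA : IsCharacter Y A) (hB : IsCharacter Y B)
    (hφ : IsIrrCharacter Y φ) (e : ℕ) (h : A + B = (e : ℂ) • φ) : A = classInner A φ • φ := by
  apply Cfsg.Agent.Lib.CharNormal.eq_smul_of_single_constituent (classFunction_of_isCharacter hA) hφ
  intro ξ hξ hne
  obtain ⟨a, ha⟩ := IsCharacter.classInner_irr_nat hA hξ
  obtain ⟨b, hb⟩ := IsCharacter.classInner_irr_nat hB hξ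
  have h1 : classInner (A + B) ξ = 0 := by
    rw [h, classInner_smul_left, classInner_irr hφ hξ, if_neg (fun h => hne h.symm), mul_zero]
  rw [classInner_add_left, ha, hb] at h1
  have h2 : a + b = 0 := by exact_mod_cast h1
  have h3 : a = 0 := by omega
  rw [ha, h3]
  simp

variable {G : Type u} [Group G] [Fintype G] (N : Subgroup G) [hN : N.Normal] [Fintype N]
  {V : Type v} [AddCommGroup V] [Module ℂ V] [FiniteDimensional ℂ V] (ρ : Representation ℂ N V)
  {W : Type w} [AddCommGroup W] [Module ℂ W] [FiniteDimensional ℂ W] (σ : Representation ℂ G W)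
  (hρ : ρ.IsIrreducible) (hσ : σ.IsIrreducible) (hinv : ∀ (g : G) (n : N), ρ.character (cn N g n) = ρ.character n)
  (hne : finrank ℂ (homN N ρ σ) ≠ 0) (hdeg : finrank ℂ W = finrank ℂ (homN N ρ σ) * finrank ℂ V)

include hρ hσ hinv hne hdeg in
theorem caseA_induced [Fintype (gamma N ρ)] (H : Subgroup G) [Fintype H] (hNH : N ≤ H) {U : Type*} [AddCommGroup U] [Module ℂ U]
    [FiniteDimensional ℂ U] (R : Representation ℂ H U) (hR : R.IsIrreducible)
    (hind : indFun H R.character = σ.character) (e : ℕ) (hχN : (fun n : N => σ.character n) = (e : ℂ) • ρ.character)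
    [Fintype (H.comap (piG N ρ))] :
    ∃ β : (H.comap (piG N ρ)) → ℂ, IsCharacter _ β ∧ indFun (H.comap (piG N ρ)) β = (gammaRep N ρ σ).character := by
  classical
  haveI hV : Nontrivial V := ((isIrreducible_iff ρ).mp hρ).1
  let π : gamma N ρ →* G := piG N ρ
  have hπs : Function.Surjective π := piG_surjective N ρ hinv
  have hχ := isIrrCharacter_character σ hσ
  let rH : Representation ℂ H W := σ.comp H.subtype
  have hRc := isIrrCharacter_character R hR
  have hin : classInner rH.character R.character ≠ 0 := by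
    have h1 := frobenius H R.character σ.character (classFunction_of_isIrrCharacter hχ)
    rw [hind, classInner_irr_self hχ] at h1
    have h2 : classInner rH.character R.character = conj (classInner R.character rH.character) :=
      (classInner_conj_symm _ _).symm
    rw [h2]
    have h3 : classInner R.character rH.character = 1 := h1.symm
    rw [h3]
    simp
  obtain ⟨j, hj, hi⟩ := exists_inj R hR rH hin
  let rN : Representation ℂ N U := R.comp (Subgroup.inclusion hNH)
  let S' : Submodule ℂ (homN N ρ σ) :=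
    { carrier := {T | ∀ v, (T : V →ₗ[ℂ] W) v ∈ LinearMap.range j}
      add_mem' := by
        intro a b ha hb v
        exact Submodule.add_mem _ (ha v) (hb v)
      zero_mem' := by
        intro v
        exact Submodule.zero_mem _
      smul_mem' := by
        intro c a ha v
        exact Submodule.smul_mem _ c (ha v) }
  have hS : ∀ t ∈ H.comap π, ∀ v ∈ S', gammaRep N ρ σ t v ∈ S' := by
    intro t ht T hT v
    rw [gammaRep_apply]
    obtain ⟨u, hu⟩ := hT ((((t : G × (Module.End ℂ V)ˣ).2⁻¹ : (Module.End ℂ V)ˣ) : Module.End ℂ V) v)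
    refine ⟨R ⟨(t : G × (Module.End ℂ V)ˣ).1, ht⟩ u, ?_⟩
    rw [hi, hu]
    rfl
  let jR := LinearEquiv.ofInjective j hj
  have hjR : ∀ x : LinearMap.range j, j (jR.symm x) = x := by
    intro x
    have := jR.apply_symm_apply x
    exact congrArg Subtype.val this
  let Φ : Representation.IntertwiningMap ρ rN →ₗ[ℂ] S' :=
    { toFun := fun I => ⟨⟨j ∘ₗ I.toLinearMap, by
          intro n v
          show j (I (ρ n v)) = σ n (j (I v))
          rw [Representation.IntertwiningMap.isIntertwining ρ rN I n v]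
          exact hi ⟨n, hNH n.2⟩ (I v)⟩, fun v => ⟨I v, rfl⟩⟩
      map_add' := by
        intro a b
        apply Subtype.ext
        apply Subtype.ext
        ext v
        simp
      map_smul' := by
        intro c a
        apply Subtype.ext
        apply Subtype.ext
        ext v
        simp }
  have hΦinj : Function.Injective Φ := by
    intro a b hab
    apply Representation.IntertwiningMap.ext
    ext v
    apply hj
    have h1 := congrArg (fun T : S' => ((T : homN N ρ σ) : V →ₗ[ℂ] W) v) hab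
    exact h1
  have hΦsurj : Function.Surjective Φ := by
    rintro ⟨T, hT⟩
    let L : V →ₗ[ℂ] U := jR.symm.toLinearMap ∘ₗ (T : V →ₗ[ℂ] W).codRestrict (LinearMap.range j) hT
    have hL : ∀ v, j (L v) = (T : V →ₗ[ℂ] W) v := fun v => hjR _
    refine ⟨L.intertwiningMap_of_isIntertwiningMap ρ rN ?_, ?_⟩
    · intro n v
      apply hj
      show j (L (ρ n v)) = j (R ⟨n, hNH n.2⟩ (L v))
      rw [hL, hi, hL]
      exact T.2 n v
    · apply Subtype.ext
      apply Subtype.ext
      ext v
      exact hL v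
  have hfinS : finrank ℂ S' = finrank ℂ (Representation.IntertwiningMap ρ rN) :=
    (LinearEquiv.ofBijective Φ ⟨hΦinj, hΦsurj⟩).finrank_eq.symm
  have hφ := isIrrCharacter_character ρ hρ
  have hsum : rN.character + (fun n : N => (rH.character - R.character) (Subgroup.inclusion hNH n)) = (e : ℂ) • ρ.character := by
    rw [← hχN]
    funext n
    simp only [Pi.add_apply, Pi.sub_apply]
    have h1 : rN.character n = R.character (Subgroup.inclusion hNH n) := rfl
    rw [h1]
    have h2 : rH.character (Subgroup.inclusion hNH n) = σ.character n := rfl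
    rw [h2]
    ring
  have hB : IsCharacter N (fun n : N => (rH.character - R.character) (Subgroup.inclusion hNH n)) :=
    IsCharacter.comp (sub_irr_isCharacter (isCharacter_character rH) hRc hin) (Subgroup.inclusion hNH)
  have h1 := le_smul_irr (isCharacter_character rN) hB hφ e hsum
  have hn' : classInner rN.character ρ.character = (finrank ℂ S' : ℂ) := by
    rw [hfinS, classInner_character]
  rw [hn'] at h1
  have hd1 : σ.character 1 = e * ρ.character 1 := by
    have := congrFun hχN 1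
    simpa using this
  have hd2 : σ.character 1 = H.index * R.character 1 := by
    rw [← hind, indFun_one_apply]
  have hd3 : R.character 1 = (finrank ℂ S' : ℂ) * ρ.character 1 := by
    have h2 := congrFun h1 1
    have h3 : rN.character 1 = R.character 1 := by
      show R.character (Subgroup.inclusion hNH 1) = _
      rw [map_one]
    rw [← h3, h2]
    simp
  have hφ1 : ρ.character 1 ≠ 0 := IsIrrCharacter.ne_zero hφ
  have hfinH : (finrank ℂ (homN N ρ σ) : ℂ) = e := by
    rw [finrank_homN, hχN, classInner_smul_left, classInner_irr_self hφ, mul_one]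
  have hdim : (H.comap π).index * finrank ℂ S' = finrank ℂ (homN N ρ σ) := by
    rw [Subgroup.index_comap_of_surjective H hπs]
    have h4 : ((H.index * finrank ℂ S' : ℕ) : ℂ) = (finrank ℂ (homN N ρ σ) : ℕ) := by
      rw [hfinH]
      push_cast
      apply mul_right_cancel₀ hφ1
      rw [← hd1, hd2, hd3]
      ring
    exact_mod_cast h4
  have hS0 : S' ≠ ⊥ := by
    intro h
    rw [h, finrank_bot, mul_zero] at hdim
    exact hne hdim.symm
  have hτ := gammaRep_irr N ρ σ hρ hσ hinv hne hdeg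
  exact induced_of_subspace (H.comap π) (gammaRep N ρ σ) hτ S' hS hdim hS0

include hρ hσ hinv hne hdeg in
theorem gamma_CE [Fintype (gamma N ρ)] (hs : Group.IsSolvable G)
    (hqp : ∀ N' : Subgroup G, N'.Normal → ∃ (φ : N' → ℂ) (e : ℕ), IsIrrCharacter N' φ ∧ (fun n : N' => σ.character n) = (e : ℂ) • φ)
    (H : Subgroup G) (hH : IsCoatom H) [Fintype (H.comap (piG N ρ))] (β : (H.comap (piG N ρ)) → ℂ) (hβ : IsCharacter _ β)
    (hβind : indFun (H.comap (piG N ρ)) β = (gammaRep N ρ σ).character) :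
    BergerCE N.index (gamma N ρ) (gammaRep N ρ σ).character := by
  classical
  haveI hV : Nontrivial V := ((isIrreducible_iff ρ).mp hρ).1
  have hπs : Function.Surjective (piG N ρ) := piG_surjective N ρ hinv
  have hτ := gammaRep_irr N ρ σ hρ hσ hinv hne hdeg
  refine ⟨gamma_solvable N ρ hρ hs, isIrrCharacter_character _ hτ, ⟨N.comap (piG N ρ), ?_, ?_⟩, ?_, H.comap (piG N ρ), β, ?_, hβ, hβind⟩
  · rw [Subgroup.index_comap_of_surjective N hπs]
  · intro z hz
    obtain ⟨c, hc⟩ := gammaRep_scalar N ρ σ hρ z hz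
    rw [(norm_character_eq_iff (gammaRep N ρ σ) z).mpr ⟨c, hc⟩, Representation.char_one]
    simp
  · intro K₁ hK₁
    exact qp_Y N ρ σ hρ hσ hinv hne hdeg (MonoidHom.id _) (fun γ => ⟨γ, 1, Subgroup.one_mem _, (mul_one γ).symm⟩) hqp K₁ hK₁
  · intro h
    have h1 : (H.comap (piG N ρ)).index = 1 := by rw [h]; exact Subgroup.index_top
    rw [Subgroup.index_comap_of_surjective H hπs] at h1
    exact hH.1 (Subgroup.index_eq_one.mp h1)

end CaseA

section Aux

theorem classInner_comp_surjective {X : Type*} {Y : Type*} [Group X] [Group Y] [Fintype X] [Fintype Y] (f : X →* Y)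
    (hf : Function.Surjective f) (a b : Y → ℂ) : classInner (a ∘ f) (b ∘ f) = classInner a b := by
  classical
  simp only [classInner, Function.comp_apply]
  have hfib : ∀ y : Y, (Finset.univ.filter (fun x => f x = y)).card = Nat.card f.ker := by
    intro y
    have h1 := MonoidHom.card_fiber_eq_of_mem_range f (x := 1) (y := y) ⟨1, map_one f⟩ (hf y)
    rw [← h1, Nat.card_eq_fintype_card, Fintype.card_subtype]
    congr 1
    ext x
    simp [MonoidHom.mem_ker]
  have hsum : ∑ x : X, a (f x) * conj (b (f x)) = (Nat.card f.ker : ℂ) * ∑ y : Y, a y * conj (b y) := by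
    rw [← Finset.sum_fiberwise Finset.univ f, Finset.mul_sum]
    apply Finset.sum_congr rfl
    intro y _
    rw [Finset.sum_congr rfl (g := fun _ => a y * conj (b y)) (by
      intro x hx
      rw [(Finset.mem_filter.mp hx).2])]
    rw [Finset.sum_const, hfib, nsmul_eq_mul]
  have hcard : Nat.card X = Nat.card f.ker * Nat.card Y := by
    have h1 := Subgroup.card_mul_index f.ker
    rw [Subgroup.index_ker, MonoidHom.range_eq_top.mpr hf, Nat.card_congr (Subgroup.topEquiv).toEquiv] at h1
    exact h1.symm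
  have h0 : (Nat.card f.ker : ℂ) ≠ 0 := by exact_mod_cast Nat.card_pos.ne'
  rw [hsum, hcard]
  push_cast
  rw [mul_inv, mul_assoc, ← mul_assoc _ (Nat.card f.ker : ℂ), mul_comm (Nat.card Y : ℂ)⁻¹, mul_assoc, inv_mul_cancel_left₀ h0]

theorem conj_indFun {Y : Type u} [Group Y] [Fintype Y] (T : Subgroup Y) (θ : T → ℂ) (g : Y) :
    conj (indFun T θ g) = indFun T (fun t => conj (θ t)) g := by
  classical
  rw [indFun_apply, indFun_apply, map_mul, map_inv₀, Complex.conj_natCast, map_sum]
  congr 1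
  apply Finset.sum_congr rfl
  intro x _
  by_cases hx : x⁻¹ * g * x ∈ T
  · rw [extendByZero_of_mem _ _ hx, extendByZero_of_mem _ _ hx]
  · rw [extendByZero_of_not_mem _ _ hx, extendByZero_of_not_mem _ _ hx]
    simp

theorem comm_of_scalar {L : Type*} [Group L] {E : Type*} [AddCommGroup E] [Module ℂ E] [FiniteDimensional ℂ E] [Nontrivial E]
    (r : Representation ℂ L E) (x y : L) (ω μ : ℂ) (q : ℕ) (h1 : r ⁅x, y⁆ = ω • LinearMap.id)
    (h2 : r (y ^ q) = μ • LinearMap.id) (hcop : Nat.Coprime (finrank ℂ E) q) : r x * r y = r y * r x := by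
  have hrinv : ∀ g : L, r g * r g⁻¹ = 1 := fun g => by rw [← map_mul, mul_inv_cancel, map_one]
  have hrinv' : ∀ g : L, r g⁻¹ * r g = 1 := fun g => by rw [← map_mul, inv_mul_cancel, map_one]
  have hdetmul : ∀ a b : L, LinearMap.det (r (a * b)) = LinearMap.det (r a) * LinearMap.det (r b) := by
    intro a b
    rw [map_mul, map_mul]
  have hdet1 : ∀ g : L, LinearMap.det (r g) * LinearMap.det (r g⁻¹) = 1 := by
    intro g
    rw [← hdetmul, mul_inv_cancel, map_one, map_one]
  have hdetc : LinearMap.det (r ⁅x, y⁆) = 1 := by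
    rw [commutatorElement_def, hdetmul, hdetmul, hdetmul]
    calc _ = (LinearMap.det (r x) * LinearMap.det (r x⁻¹)) * (LinearMap.det (r y) * LinearMap.det (r y⁻¹)) := by ring
      _ = 1 := by rw [hdet1, hdet1, one_mul]
  have hω1 : ω ^ finrank ℂ E = 1 := by
    rw [h1, LinearMap.det_smul, LinearMap.det_id, mul_one] at hdetc
    exact hdetc
  have hconj : r (x * y * x⁻¹) = ω • r y := by
    have e1 : x * y * x⁻¹ = ⁅x, y⁆ * y := by
      rw [commutatorElement_def]
      group
    rw [e1, map_mul, h1]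
    ext v
    simp
  have hμ : μ ≠ 0 := by
    rintro rfl
    have h3 := hrinv (y ^ q)
    rw [h2, zero_smul, zero_mul] at h3
    exact zero_ne_one h3
  have hω2 : ω ^ q = 1 := by
    have e1 : r (x * y ^ q * x⁻¹) = μ • LinearMap.id := by
      rw [map_mul, map_mul, h2]
      ext v
      have := congrArg (fun f : E →ₗ[ℂ] E => f v) (hrinv x)
      simp only [Module.End.mul_apply, LinearMap.smul_apply, LinearMap.id_apply, map_smul] at this ⊢
      rw [this]
      simp
    have e2 : r (x * y ^ q * x⁻¹) = (ω ^ q * μ) • LinearMap.id := by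
      rw [← conj_pow, map_pow, hconj, smul_pow, ← map_pow, h2, smul_smul]
    rw [e1] at e2
    obtain ⟨v, hv⟩ := exists_ne (0 : E)
    have h3 := congrArg (fun f : E →ₗ[ℂ] E => f v) e2
    simp only [LinearMap.smul_apply, LinearMap.id_apply] at h3
    have h4 := smul_left_injective ℂ hv h3
    field_simp at h4
    exact h4.symm
  have hω : ω = 1 := by
    have h3 := pow_gcd_eq_one.mpr ⟨hω1, hω2⟩
    rw [hcop.gcd_eq_one, pow_one] at h3
    exact h3
  rw [hω, one_smul] at hconj
  calc r x * r y = r (x * y * x⁻¹ * x) := by rw [map_mul _ (x * y * x⁻¹) x]; simp [map_mul]; rw [mul_assoc (r x * r y), hrinv', mul_one]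
    _ = r y * r x := by rw [map_mul _ (x * y * x⁻¹) x, hconj]

/-- A commuting homogeneous restriction is scalar. -/
theorem scalar_of_comm_homog {K : Type u} [Group K] [Fintype K] {E : Type*} [AddCommGroup E] [Module ℂ E] [FiniteDimensional ℂ E]
    (rK : Representation ℂ K E) (hrK : rK.IsIrreducible) (L : Subgroup K) [hL : L.Normal] [Fintype L]
    {ν : L → ℂ} (hν : IsIrrCharacter L ν) (hinv : ∀ (g : K) (n : L), ν ⟨g * n * g⁻¹, hL.conj_mem n n.2 g⟩ = ν n)
    (hc : classInner (fun n : L => rK.character n) ν ≠ 0)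
    (hcomm : ∀ x ∈ L, ∀ y ∈ L, rK x * rK y = rK y * rK x) (x : K) (hx : x ∈ L) :
    ∃ ω : ℂ, rK x = ω • LinearMap.id := by
  classical
  obtain ⟨e₁, he₁, -, hres⟩ := Cfsg.Agent.Lib.CharAbQ.res_eq_smul_of_inv L hν hinv (isIrrCharacter_character rK hrK) hc
  obtain ⟨n, r, hr, rfl⟩ := hν
  let rL : Representation ℂ L E := rK.comp L.subtype
  obtain ⟨j, hj, hi⟩ := exists_inj r hr rL hc
  have hcommr : ∀ a b : L, r a * r b = r b * r a := by
    intro a b
    refine LinearMap.ext fun v => ?_
    apply hj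
    show j (r a (r b v)) = j (r b (r a v))
    rw [hi, hi, hi, hi]
    exact congrArg (fun f : E →ₗ[ℂ] E => f (j v)) (hcomm a a.2 b b.2)
  obtain ⟨c, hc'⟩ := schur r hr (r ⟨x, hx⟩) (by
    intro g v
    exact congrArg (fun f : (Fin n → ℂ) →ₗ[ℂ] (Fin n → ℂ) => f v) (hcommr ⟨x, hx⟩ g))
  have h1 := (norm_character_eq_iff r ⟨x, hx⟩).mpr ⟨c, hc'⟩
  rw [← norm_character_eq_iff]
  have h2 := congrFun hres ⟨x, hx⟩
  have h3 := congrFun hres 1
  simp only [Pi.smul_apply, smul_eq_mul] at h2 h3
  have h4 : rK.character ((1 : L) : K) = (finrank ℂ E : ℂ) := Representation.char_one rK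
  rw [h4, Representation.char_one] at h3
  have h5 : rK.character x = (e₁ : ℂ) * r.character ⟨x, hx⟩ := h2
  rw [h5, norm_mul, h1, Complex.norm_natCast]
  have h6 : ((finrank ℂ E : ℕ) : ℂ) = ((e₁ * finrank ℂ (Fin n → ℂ) : ℕ) : ℂ) := by
    rw [h3]
    push_cast
    ring
  have h7 : finrank ℂ E = e₁ * finrank ℂ (Fin n → ℂ) := by exact_mod_cast h6
  rw [h7]
  push_cast
  ring

end Aux

section CaseB

variable {G : Type u} [Group G] [Fintype G] (N : Subgroup G) [hN : N.Normal]
  {V : Type v} [AddCommGroup V] [Module ℂ V] [FiniteDimensional ℂ V] (ρ : Representation ℂ N V)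
  {W : Type w} [AddCommGroup W] [Module ℂ W] [FiniteDimensional ℂ W] (σ : Representation ℂ G W)

/-- The inverse image of `H` in `gamma`. -/
noncomputable abbrev T0 (H : Subgroup G) : Subgroup (gamma N ρ) := H.comap (piG N ρ)

/-- `τ` on `T0`. -/
noncomputable def rT0 (H : Subgroup G) : Representation ℂ (T0 N ρ H) (homN N ρ σ) :=
  (gammaRep N ρ σ).comp (T0 N ρ H).subtype

/-- `ς` on `T0`. -/
noncomputable def rS0 (H : Subgroup G) : Representation ℂ (T0 N ρ H) V :=
  (sRep N ρ).comp (T0 N ρ H).subtype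

/-- The projection of `T0` on `H`. -/
noncomputable def pi0 (H : Subgroup G) : T0 N ρ H →* H := (piG N ρ).subgroupComap H

theorem sRep_core [Fintype N] (hρ : ρ.IsIrreducible) (C : Subgroup G) (hCN : C ≤ N)
    (hC : ∀ c ∈ C, ‖σ.character c‖ = ‖σ.character 1‖) (f : ℕ) (hf : (fun n : N => σ.character n) = (f : ℂ) • ρ.character)
    (hf0 : f ≠ 0) (γ : gamma N ρ) (hγ : piG N ρ γ ∈ C) : ∃ ω : ℂ, sRep N ρ γ = ω • LinearMap.id := by
  have hγN : piG N ρ γ ∈ N := hCN hγ
  obtain ⟨μ, hμ⟩ := gamma_over_N N ρ hρ γ.2 hγN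
  have h1 := congrFun hf ⟨piG N ρ γ, hγN⟩
  have h2 := congrFun hf 1
  simp only [Pi.smul_apply, smul_eq_mul] at h1 h2
  have h3 := hC _ hγ
  have hf' : (0 : ℝ) < f := by exact_mod_cast Nat.pos_of_ne_zero hf0
  have h4 : ‖ρ.character ⟨piG N ρ γ, hγN⟩‖ = (finrank ℂ V : ℝ) := by
    have e1 : σ.character (piG N ρ γ) = _ := h1
    have e2 : σ.character 1 = _ := h2
    rw [e1, e2, norm_mul, norm_mul, Complex.norm_natCast, Representation.char_one, Complex.norm_natCast] at h3
    exact mul_left_cancel₀ hf'.ne' h3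
  obtain ⟨ω, hω⟩ := (norm_character_eq_iff ρ _).mp h4
  refine ⟨μ * ω, ?_⟩
  rw [sRep_apply, hμ]
  have e : ρ ⟨(γ : G × (Module.End ℂ V)ˣ).1, hγN⟩ = ω • LinearMap.id := hω
  rw [e, smul_smul]

/-- Scalars on the inverse image of `N₂ ⊓ H` force `N₂ ⊓ H` into the core. -/
theorem core_of_scalar [Fintype N] (hρ : ρ.IsIrreducible) (hinv : ∀ (g : G) (n : N), ρ.character (cn N g n) = ρ.character n)
    (H N₂ : Subgroup G) [hN₂ : N₂.Normal] (hdec : ∀ g, ∃ m ∈ N, ∃ h ∈ H, g = m * h) (ϑ : H → ℂ) (hϑ : IsCharacter H ϑ)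
    (hϑ1 : ϑ 1 ≠ 0) (hind : indFun H ϑ = σ.character) (f : ℕ) (hf : (fun n : N => σ.character n) = (f : ℂ) • ρ.character)
    (hσ : IsCharacter G σ.character)
    (hsc : ∀ γ : gamma N ρ, piG N ρ γ ∈ N₂ ⊓ H → ∃ ω : ℂ, sRep N ρ γ = ω • LinearMap.id) : N₂ ⊓ H ≤ H.normalCore := by
  classical
  haveI hV : Nontrivial V := ((isIrreducible_iff ρ).mp hρ).1
  have hπs : Function.Surjective (piG N ρ) := piG_surjective N ρ hinv
  have hcl := classFunction_of_isCharacter hσ
  have step1 : ∀ d ∈ N₂ ⊓ H, ∀ n : N, d * n * d⁻¹ * (n : G)⁻¹ ∈ H.normalCore := by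
    intro d hd n
    obtain ⟨γ, rfl⟩ := hπs d
    obtain ⟨ω, hω⟩ := hsc γ hd
    rw [sRep_apply] at hω
    have hmem := γ.2.2
    have hω0 : ω ≠ 0 := by
      rintro rfl
      have hu := ((γ : G × (Module.End ℂ V)ˣ).2).isUnit
      rw [hω, zero_smul] at hu
      exact not_isUnit_zero hu
    have h1 : ρ (cn N (piG N ρ γ) n) = ρ n := by
      ext1 v
      have h2 := hmem n v
      rw [hω] at h2
      simp only [LinearMap.smul_apply, LinearMap.id_apply, map_smul] at h2
      exact (smul_right_injective _ hω0 h2).symm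
    let y : N := cn N (piG N ρ γ) n * n⁻¹
    have hy : ρ y = 1 := by
      show ρ (cn N (piG N ρ γ) n * n⁻¹) = 1
      rw [map_mul, h1, ← map_mul, mul_inv_cancel, map_one]
    have hy1 : ρ.character y = ρ.character 1 := by
      simp only [Representation.character, hy, map_one]
    have hχy : σ.character y = σ.character 1 := by
      have h2 := congrFun hf y
      have h3 := congrFun hf 1
      simp only [Pi.smul_apply, smul_eq_mul] at h2 h3
      have e3 : σ.character 1 = _ := h3
      rw [h2, e3, hy1]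
    have hyval : (y : G) = piG N ρ γ * n * (piG N ρ γ)⁻¹ * (n : G)⁻¹ := rfl
    rw [← hyval]
    intro b
    apply mem_of_norm_eq H hϑ hϑ1
    rw [hind, hcl, hχy]
  intro d hd b
  obtain ⟨m, hm, h, hh, rfl⟩ := hdec b
  have hd' : h * d * h⁻¹ ∈ N₂ ⊓ H := ⟨hN₂.conj_mem d hd.1 h, H.mul_mem (H.mul_mem hh hd.2) (H.inv_mem hh)⟩
  have h1 := step1 _ hd' ⟨m, hm⟩
  have h2 := Subgroup.normalCore_le H h1
  have e1 : (m * h) * d * (m * h)⁻¹ = (h * d * h⁻¹ * m * (h * d * h⁻¹)⁻¹ * m⁻¹)⁻¹ * (h * d * h⁻¹) := by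
    group
  rw [e1]
  exact H.mul_mem (H.inv_mem h2) hd'.2

variable (hρ : ρ.IsIrreducible) (hσ : σ.IsIrreducible) (hinv : ∀ (g : G) (n : N), ρ.character (cn N g n) = ρ.character n)
  (hne : finrank ℂ (homN N ρ σ) ≠ 0) (hdeg : finrank ℂ W = finrank ℂ (homN N ρ σ) * finrank ℂ V)

include hρ hinv in
theorem cover_T0 [Fintype N] (H : Subgroup G) (hdec : ∀ g, ∃ h ∈ H, ∃ m ∈ N, g = h * m) (γ : gamma N ρ) :
    ∃ t : T0 N ρ H, ∃ a ∈ N.comap (piG N ρ), γ = (t : gamma N ρ) * a := by
  haveI hV : Nontrivial V := ((isIrreducible_iff ρ).mp hρ).1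
  obtain ⟨h, hh, m, hm, hγ⟩ := hdec (piG N ρ γ)
  obtain ⟨t, ht⟩ := piG_surjective N ρ hinv h
  refine ⟨⟨t, by show piG N ρ t ∈ H; rw [ht]; exact hh⟩, t⁻¹ * γ, ?_, by simp⟩
  show piG N ρ (t⁻¹ * γ) ∈ N
  rw [map_mul, map_inv, ht, hγ]
  simpa using hm

include hρ hσ hinv hne hdeg in
theorem theta0_irr [Fintype N] (H : Subgroup G) (hdec : ∀ g, ∃ h ∈ H, ∃ m ∈ N, g = h * m) : (rT0 N ρ σ H).IsIrreducible := by
  haveI hV : Nontrivial V := ((isIrreducible_iff ρ).mp hρ).1
  apply irr_of_cover (gammaRep N ρ σ) (gammaRep_irr N ρ σ hρ hσ hinv hne hdeg)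
  intro γ
  obtain ⟨t, a, ha, rfl⟩ := cover_T0 N ρ hρ hinv H hdec γ
  obtain ⟨c, hc⟩ := gammaRep_scalar N ρ σ hρ a ha
  refine ⟨t, c, ?_⟩
  rw [map_mul, hc]
  ext T v
  simp [rT0]

include hρ hσ hinv hne hdeg in
theorem theta0_eq [Fintype N] (H : Subgroup G) [Fintype (T0 N ρ H)] [Fintype H] (hdec : ∀ g, ∃ h ∈ H, ∃ m ∈ N, g = h * m)
    {U : Type*} [AddCommGroup U] [Module ℂ U] [FiniteDimensional ℂ U] (R : Representation ℂ H U)
    (hind : indFun H R.character = σ.character) (hU : finrank ℂ (homN N ρ σ) = finrank ℂ V * finrank ℂ U) :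
    (rT0 N ρ σ H).character = fun t => conj ((rS0 N ρ H).character t) * R.character (pi0 N ρ H t) := by
  classical
  haveI hV : Nontrivial V := ((isIrreducible_iff ρ).mp hρ).1
  have hπs : Function.Surjective (piG N ρ) := piG_surjective N ρ hinv
  have hχ := isIrrCharacter_character σ hσ
  have hθ := isIrrCharacter_character _ (theta0_irr N ρ σ hρ hσ hinv hne hdeg H hdec)
  have hΦ : IsCharacter (T0 N ρ H) (fun t => conj ((rS0 N ρ H).character t) * R.character (pi0 N ρ H t)) :=
    IsCharacter.mul (IsCharacter.conj (isCharacter_character (rS0 N ρ H))) (IsCharacter.comp (isCharacter_character R) (pi0 N ρ H))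
  have hpi0 : Function.Surjective (pi0 N ρ H) := (piG N ρ).subgroupComap_surjective_of_surjective H hπs
  have h1 : classInner (rT0 N ρ σ H).character (fun t => conj ((rS0 N ρ H).character t) * R.character (pi0 N ρ H t)) = 1 := by
    have h2 := classInner_comp_surjective (pi0 N ρ H) hpi0 (fun h : H => σ.character h) R.character
    have h3 := frobenius H R.character σ.character (classFunction_of_isIrrCharacter hχ)
    rw [hind, classInner_irr_self hχ] at h3
    have h4 : classInner (fun h : H => σ.character h) R.character = 1 := by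
      rw [← classInner_conj_symm, ← h3]
      simp
    rw [h4] at h2
    rw [← h2]
    simp only [classInner]
    congr 1
    apply Finset.sum_congr rfl
    intro t _
    have h5 := trace_ident N ρ σ hρ hσ hinv hne hdeg (t : gamma N ρ)
    have h6 : σ.character ((pi0 N ρ H t : H) : G) = σ.character (piG N ρ t) := rfl
    simp only [Function.comp]
    rw [h6, h5, map_mul, Complex.conj_conj]
    have h7 : (rT0 N ρ σ H).character t = (gammaRep N ρ σ).character t := rfl
    have h8 : (rS0 N ρ H).character t = (sRep N ρ).character t := rfl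
    rw [h7, h8]
    ring
  have h2 : classInner (fun t => conj ((rS0 N ρ H).character t) * R.character (pi0 N ρ H t)) (rT0 N ρ σ H).character ≠ 0 := by
    rw [← classInner_conj_symm, h1]
    simp
  refine (eq_of_inner_of_deg hΦ hθ h2 ?_).symm
  simp only [map_one, Representation.char_one, Complex.conj_natCast]
  rw [hU]
  push_cast
  rfl

include hρ hσ hinv hne hdeg in
theorem sigma0_irr [Fintype N] (H : Subgroup G) [Fintype (T0 N ρ H)] [Fintype H] (hdec : ∀ g, ∃ h ∈ H, ∃ m ∈ N, g = h * m)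
    {U : Type*} [AddCommGroup U] [Module ℂ U] [FiniteDimensional ℂ U] (R : Representation ℂ H U)
    (hind : indFun H R.character = σ.character) (hU : finrank ℂ (homN N ρ σ) = finrank ℂ V * finrank ℂ U) :
    (rS0 N ρ H).IsIrreducible := by
  have hθ := isIrrCharacter_character _ (theta0_irr N ρ σ hρ hσ hinv hne hdeg H hdec)
  rw [theta0_eq N ρ σ hρ hσ hinv hne hdeg H hdec R hind hU] at hθ
  have h1 := irr_of_mul (IsCharacter.conj (isCharacter_character (rS0 N ρ H))) (IsCharacter.comp (isCharacter_character R) (pi0 N ρ H)) hθ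
  have h2 := IsIrrCharacter.conj h1
  simp only [Complex.conj_conj] at h2
  exact isIrreducible_of_character _ h2

include hρ hσ hinv hne hdeg in
theorem caseB_main [Fintype N] [Fintype (gamma N ρ)] (H : Subgroup G) [Fintype (T0 N ρ H)] [Fintype H]
    (hs : Group.IsSolvable G)
    (hqp : ∀ N' : Subgroup G, N'.Normal → ∃ (φ : N' → ℂ) (e : ℕ), IsIrrCharacter N' φ ∧ (fun n : N' => σ.character n) = (e : ℂ) • φ)
    (hdec : ∀ g, ∃ h ∈ H, ∃ m ∈ N, g = h * m) (hdec' : ∀ g, ∃ m ∈ N, ∃ h ∈ H, g = m * h)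
    {U : Type*} [AddCommGroup U] [Module ℂ U] [FiniteDimensional ℂ U] (R : Representation ℂ H U) (hR : R.IsIrreducible)
    (hind : indFun H R.character = σ.character) (hU : finrank ℂ (homN N ρ σ) = finrank ℂ V * finrank ℂ U)
    (C : Subgroup G) (hCN : C ≤ N) (hCH : C ≤ H) (hC : ∀ c ∈ C, ‖σ.character c‖ = ‖σ.character 1‖)
    (hNHC : ∀ x ∈ N, x ∈ H → x ∈ C)
    (f : ℕ) (hf : (fun n : N => σ.character n) = (f : ℂ) • ρ.character) (hf0 : f ≠ 0)
    (N₂ : Subgroup G) [hN₂ : N₂.Normal] (hNN : ⁅N₂, N₂⁆ ≤ N) (q : ℕ) (hq : ∀ x ∈ N₂, x ^ q ∈ N)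
    (hcop : Nat.Coprime (finrank ℂ V) q) :
    N₂ ⊓ H ≤ H.normalCore ∨ BergerCE (C.relIndex H) (T0 N ρ H) (rT0 N ρ σ H).character := by
  classical
  haveI hV : Nontrivial V := ((isIrreducible_iff ρ).mp hρ).1
  have hπs : Function.Surjective (piG N ρ) := piG_surjective N ρ hinv
  have hθ := theta0_irr N ρ σ hρ hσ hinv hne hdeg H hdec
  have heq := theta0_eq N ρ σ hρ hσ hinv hne hdeg H hdec R hind hU
  have hς := sigma0_irr N ρ σ hρ hσ hinv hne hdeg H hdec R hind hU
  have hχ := isIrrCharacter_character σ hσ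
  have hRc := isIrrCharacter_character R hR
  let L : Subgroup (T0 N ρ H) := (N₂.comap (piG N ρ)).subgroupOf (T0 N ρ H)
  haveI hLn : L.Normal := by
    haveI : (N₂.comap (piG N ρ)).Normal := Subgroup.Normal.comap hN₂ _
    exact Subgroup.normal_subgroupOf
  haveI : Fintype L := Fintype.ofFinite L
  have hLc : IsCharacter L (fun n : L => (rS0 N ρ H).character n) := IsCharacter.res (isCharacter_character _) L
  have hL1 : (fun n : L => (rS0 N ρ H).character n) 1 ≠ 0 := by
    have h1 : (rS0 N ρ H).character ((1 : L) : T0 N ρ H) = (finrank ℂ V : ℂ) := Representation.char_one _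
    show (rS0 N ρ H).character ((1 : L) : T0 N ρ H) ≠ 0
    rw [h1]
    exact_mod_cast (finrank_pos (R := ℂ) (M := V)).ne'
  obtain ⟨ν, hν, hc⟩ := exists_constituent hLc hL1
  have hscC := sRep_core N ρ σ hρ C hCN hC f hf hf0
  have hcomm : ∀ x ∈ L, ∀ y ∈ L, rS0 N ρ H x * rS0 N ρ H y = rS0 N ρ H y * rS0 N ρ H x := by
    intro x hx y hy
    have hxN : piG N ρ x ∈ N₂ := hx
    have hyN : piG N ρ y ∈ N₂ := hy
    have hxH : piG N ρ x ∈ H := x.2
    have hyH : piG N ρ y ∈ H := y.2
    have hcomN : piG N ρ ⁅(x : gamma N ρ), (y : gamma N ρ)⁆ ∈ C := by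
      rw [map_commutatorElement]
      apply hNHC _ (hNN (Subgroup.commutator_mem_commutator hxN hyN))
      rw [commutatorElement_def]
      exact H.mul_mem (H.mul_mem (H.mul_mem hxH hyH) (H.inv_mem hxH)) (H.inv_mem hyH)
    have hpowN : piG N ρ ((y : gamma N ρ) ^ q) ∈ C := by
      rw [map_pow]
      exact hNHC _ (hq _ hyN) (H.pow_mem hyH q)
    obtain ⟨ω, hω⟩ := hscC _ hcomN
    obtain ⟨μ, hμ⟩ := hscC _ hpowN
    exact comm_of_scalar (sRep N ρ) x y ω μ q hω hμ hcop
  by_cases hT : Cfsg.Agent.Lib.CharClifford.inertia L ν = ⊤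
  · left
    apply core_of_scalar N ρ σ hρ hinv H N₂ hdec' R.character (isCharacter_character R) (IsIrrCharacter.ne_zero hRc) hind f hf (isCharacter_character σ)
    intro γ hγ
    have hγT : γ ∈ T0 N ρ H := hγ.2
    exact scalar_of_comm_homog (rS0 N ρ H) hς L hν (fun g n => (mem_inertia L ν g).mp (by rw [hT]; trivial) n) hc hcomm ⟨γ, hγT⟩ hγ.1
  · right
    haveI : Fintype (inertia L ν) := Fintype.ofFinite _
    obtain ⟨ψ₂, hψ₂, hind₂, -⟩ := clifford_exists L (inertia L ν) (le_inertia L (classFunction_of_isIrrCharacter hν)) hν (fun g => Iff.rfl)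
      (isIrrCharacter_character _ hς) hc
    have hvt : IsCharacter (T0 N ρ H) (fun t => R.character (pi0 N ρ H t)) := IsCharacter.comp (isCharacter_character R) (pi0 N ρ H)
    have hcl := classFunction_of_isCharacter hvt
    refine ⟨?_, isIrrCharacter_character _ hθ, ⟨(C.comap (piG N ρ)).subgroupOf (T0 N ρ H), ?_, ?_⟩, ?_, inertia L ν,
      fun t => conj (ψ₂ t) * R.character (pi0 N ρ H t), hT, ?_, ?_⟩
    · haveI := gamma_solvable N ρ hρ hs
      exact Group.isSolvable_of_isSolvable_injective (f := (T0 N ρ H).subtype) Subtype.val_injective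
    · apply le_of_eq
      show (C.comap (piG N ρ)).relIndex (T0 N ρ H) = _
      rw [Subgroup.relIndex_comap, Subgroup.map_comap_eq_self_of_surjective hπs]
    · intro z hz
      have hzC : piG N ρ z ∈ C := hz
      have h5 := trace_ident N ρ σ hρ hσ hinv hne hdeg (z : gamma N ρ)
      have h6 := hC _ hzC
      rw [h5, norm_mul, Representation.char_one, Complex.norm_natCast, hdeg] at h6
      have h7 := norm_character_le (gammaRep N ρ σ) (z : gamma N ρ)
      have h8 := norm_character_le (sRep N ρ) (z : gamma N ρ)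
      have hE : (0 : ℝ) < finrank ℂ V := by exact_mod_cast (finrank_pos (R := ℂ) (M := V))
      have hF : (0 : ℝ) < finrank ℂ (homN N ρ σ) := by exact_mod_cast Nat.pos_of_ne_zero hne
      push_cast at h6
      have hz1 : (rT0 N ρ σ H).character z = (gammaRep N ρ σ).character (z : gamma N ρ) := rfl
      rw [hz1, Representation.char_one, Complex.norm_natCast]
      apply le_antisymm h7
      by_contra hlt
      push Not at hlt
      have h10 := mul_le_mul_of_nonneg_left h8 (norm_nonneg ((gammaRep N ρ σ).character (z : gamma N ρ)))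
      have h11 := mul_lt_mul_of_pos_right hlt hE
      linarith
    · intro K₁ hK₁
      exact qp_Y N ρ σ hρ hσ hinv hne hdeg (T0 N ρ H).subtype (fun γ => by
        obtain ⟨t, a, ha, h⟩ := cover_T0 N ρ hρ hinv H hdec γ
        exact ⟨t, a, ha, h⟩) hqp K₁ hK₁
    · exact IsCharacter.mul (IsCharacter.conj (IsIrrCharacter.isCharacter hψ₂)) (IsCharacter.res hvt (inertia L ν))
    · have h1 := Cfsg.Agent.Lib.CharBrauer.indFun_mul_class (inertia L ν) (fun t => conj (ψ₂ t)) (fun t => R.character (pi0 N ρ H t)) hcl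
      rw [h1, heq]
      funext t
      rw [← conj_indFun, hind₂]

end CaseB

section Step

variable {G : Type u} [Group G] [Fintype G]

/-- The step in the case where the core of `H` is not scalar. -/
theorem caseA (n : ℕ) (ih : ∀ m < n, ∀ (Y : Type u) [Group Y] [Fintype Y] (χ : Y → ℂ), ¬ BergerCE m Y χ)
    (hs : Group.IsSolvable G) {d : ℕ} (σ : Representation ℂ G (Fin d → ℂ)) (hσ : σ.IsIrreducible)
    (Z : Subgroup G) (hZ : Z.index ≤ n) (hZs : ∀ z ∈ Z, ‖σ.character z‖ = ‖σ.character 1‖)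
    (hqp : ∀ N : Subgroup G, N.Normal → ∃ (φ : N → ℂ) (e : ℕ), IsIrrCharacter N φ ∧ (fun m : N => σ.character m) = (e : ℂ) • φ)
    (H : Subgroup G) (hH : IsCoatom H) (ϑ : H → ℂ) (hϑ : IsIrrCharacter H ϑ) (hind : indFun H ϑ = σ.character)
    (hnot : ¬ ∀ c ∈ H.normalCore, ‖σ.character c‖ = ‖σ.character 1‖) : False := by
  classical
  have hχ := isIrrCharacter_character σ hσ
  have hCn : H.normalCore.Normal := Subgroup.normalCore_normal H
  have hCH : H.normalCore ≤ H := Subgroup.normalCore_le H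
  have hZC : Z ≤ H.normalCore := by
    intro z hz b
    apply mem_of_norm_eq H (IsIrrCharacter.isCharacter hϑ) (IsIrrCharacter.ne_zero hϑ)
    rw [hind, classFunction_of_isIrrCharacter hχ]
    exact hZs z hz
  generalize hCdef : H.normalCore = C at hCn hCH hZC hnot
  haveI := hCn
  haveI : Fintype C := Fintype.ofFinite C
  have hZlt : C.index < Z.index := by
    have h1 : Z.relIndex C * C.index = Z.index := Subgroup.relIndex_mul_index hZC
    have h2 : Z.relIndex C ≠ 1 := by
      intro h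
      apply hnot
      intro c hc
      exact hZs c (Subgroup.relIndex_eq_one.mp h hc)
    have h4 : Z.index ≠ 0 := Subgroup.index_ne_zero_of_finite
    have h5 : Z.relIndex C ≠ 0 := by
      intro h
      rw [h, zero_mul] at h1
      exact h4 h1.symm
    have h3 : 0 < C.index := Nat.pos_of_ne_zero Subgroup.index_ne_zero_of_finite
    rw [← h1]
    have h6 : 2 ≤ Z.relIndex C := by omega
    nlinarith
  obtain ⟨φ, e, hφ, he⟩ := hqp C hCn
  have hχ1 : σ.character 1 ≠ 0 := IsIrrCharacter.ne_zero hχ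
  have he0 : (e : ℂ) ≠ 0 := by
    intro h0
    have h1 := congrFun he 1
    simp only [Pi.smul_apply, smul_eq_mul, h0, zero_mul] at h1
    exact hχ1 h1
  obtain ⟨k, ρ, hρ, rfl⟩ := hφ
  haveI hVn : Nontrivial (Fin k → ℂ) := ((isIrreducible_iff ρ).mp hρ).1
  have hinv : ∀ (g : G) (n : C), ρ.character (cn C g n) = ρ.character n := by
    intro g n
    have h1 := congrFun he (cn C g n)
    have h2 := congrFun he n
    simp only [Pi.smul_apply, smul_eq_mul] at h1 h2
    have h3 : σ.character ((cn C g n : C) : G) = σ.character (n : G) := classFunction_of_isIrrCharacter hχ _ _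
    rw [h3, h2] at h1
    exact (mul_left_cancel₀ he0 h1).symm
  have hφ := isIrrCharacter_character ρ hρ
  have hfinH : (finrank ℂ (homN C ρ σ) : ℂ) = e := by
    rw [finrank_homN, he, classInner_smul_left, classInner_irr_self hφ, mul_one]
  have hne : finrank ℂ (homN C ρ σ) ≠ 0 := by
    intro h
    rw [h] at hfinH
    exact he0 (by rw [← hfinH]; simp)
  have hdeg : finrank ℂ (Fin d → ℂ) = finrank ℂ (homN C ρ σ) * finrank ℂ (Fin k → ℂ) := by
    have h1 := congrFun he 1
    simp only [Pi.smul_apply, smul_eq_mul] at h1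
    have h2 : ((1 : C) : G) = 1 := rfl
    rw [h2, Representation.char_one, Representation.char_one, ← hfinH] at h1
    exact_mod_cast h1
  haveI hfin : Finite (gamma C ρ) := finite_gamma C ρ hρ hinv
  haveI : Fintype (gamma C ρ) := Fintype.ofFinite _
  let π : gamma C ρ →* G := piG C ρ
  have hπs : Function.Surjective π := piG_surjective C ρ hinv
  haveI : Fintype H := Fintype.ofFinite H
  haveI : Fintype (H.comap (piG C ρ)) := Fintype.ofFinite _
  have hτ := gammaRep_irr C ρ σ hρ hσ hinv hne hdeg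
  obtain ⟨n₁, R, hR, rfl⟩ := hϑ
  have hCH' : C ≤ H := hCH
  obtain ⟨β, hβ, hβind⟩ := caseA_induced C ρ σ hρ hσ hinv hne hdeg H hCH R hR hind e he
  exact ih C.index (lt_of_lt_of_le hZlt hZ) _ _ (gamma_CE C ρ σ hρ hσ hinv hne hdeg hs hqp H hH β hβ hβind)

end Step

section Final

variable {G : Type u} [Group G] [Fintype G]

open Classical in
/-- The norm on a normal subgroup meeting `H` in a normal subgroup of scalars. -/
theorem norm_M (H C M : Subgroup G) (ϑ : H → ℂ) (hCH : C ≤ H)
    [hM : M.Normal] [Fintype M] (hMH : ∀ x ∈ M, x ∈ H → x ∈ C) (hCM : C ≤ M)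
    (hinv : ∀ (g c : G), c ∈ C → extendByZero H ϑ (g⁻¹ * c * g) = extendByZero H ϑ c)
    (n : ℕ) (hn : ∀ c ∈ C, ‖extendByZero H ϑ c‖ = n)
    (hcard : Nat.card M * Nat.card H = Nat.card C * Nat.card G) :
    classInner (fun n : M => indFun H ϑ n) (fun n : M => indFun H ϑ n) = (Nat.card G : ℂ) * (Nat.card H : ℂ)⁻¹ * (n : ℂ) ^ 2 := by
  rw [norm_formula]
  have hterm : ∀ g : G, ∑ x : M, extendByZero H ϑ x * conj (extendByZero H ϑ (g⁻¹ * x * g)) = (Nat.card C : ℂ) * (n : ℂ) ^ 2 := by
    intro g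
    have h3 : ∀ x : G, (if x ∈ C then (n : ℂ) ^ 2 else 0) =
        if x ∈ M then extendByZero H ϑ x * conj (extendByZero H ϑ (g⁻¹ * x * g)) else 0 := by
      intro x
      by_cases hxC : x ∈ C
      · rw [if_pos hxC, if_pos (hCM hxC), hinv g x hxC, Complex.mul_conj, Complex.normSq_eq_norm_sq, hn x hxC]
        simp
      · rw [if_neg hxC]
        by_cases hxM : x ∈ M
        · rw [if_pos hxM]
          have hxH : x ∉ H := fun h => hxC (hMH x hxM h)
          rw [extendByZero_of_not_mem _ _ hxH]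
          simp
        · rw [if_neg hxM]
    have h2 : ∑ x : M, extendByZero H ϑ x * conj (extendByZero H ϑ (g⁻¹ * x * g)) =
        ∑ x : G, (if x ∈ C then (n : ℂ) ^ 2 else 0) := by
      simp only [h3]
      rw [← Finset.sum_filter]
      rw [Finset.sum_subtype (p := fun x => x ∈ M) (Finset.univ.filter (fun x => x ∈ M)) (by simp)]
    rw [h2, ← Finset.sum_filter, Finset.sum_const, nsmul_eq_mul]
    congr 2
    rw [Nat.card_eq_fintype_card, Fintype.card_subtype]
  simp only [hterm]
  rw [Finset.sum_const, Finset.card_univ, nsmul_eq_mul, ← Nat.card_eq_fintype_card]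
  have hMpos : (Nat.card M : ℂ) ≠ 0 := by exact_mod_cast Nat.card_pos.ne'
  have hHpos : (Nat.card H : ℂ) ≠ 0 := by exact_mod_cast Nat.card_pos.ne'
  have h2 : (Nat.card M : ℂ) * Nat.card H = Nat.card C * Nat.card G := by
    exact_mod_cast hcard
  have h3 : (Nat.card G : ℂ) * ((Nat.card C : ℂ) * (n : ℂ) ^ 2) = Nat.card M * Nat.card H * (n : ℂ) ^ 2 := by rw [h2]; ring
  rw [h3]
  field_simp

/-- The values of the character of `H` on scalar elements. -/
theorem core_values {W : Type v} [AddCommGroup W] [Module ℂ W] [FiniteDimensional ℂ W] (σ : Representation ℂ G W)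
    (hσ : σ.IsIrreducible) (H : Subgroup G) {U : Type w} [AddCommGroup U] [Module ℂ U] [FiniteDimensional ℂ U]
    (R : Representation ℂ H U) (hR : R.IsIrreducible) (hind : indFun H R.character = σ.character) (c : H)
    (hc : ‖σ.character c‖ = ‖σ.character 1‖) :
    (finrank ℂ W : ℂ) * R.character c = (finrank ℂ U : ℂ) * σ.character c ∧ ‖R.character c‖ = finrank ℂ U := by
  classical
  haveI : Fintype H := Fintype.ofFinite H
  haveI hW : Nontrivial W := ((isIrreducible_iff σ).mp hσ).1
  have hχ := isIrrCharacter_character σ hσ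
  let rH : Representation ℂ H W := σ.comp H.subtype
  have hRc := isIrrCharacter_character R hR
  have hin : classInner rH.character R.character ≠ 0 := by
    have h1 := frobenius H R.character σ.character (classFunction_of_isIrrCharacter hχ)
    rw [hind, classInner_irr_self hχ] at h1
    have h2 : classInner rH.character R.character = conj (classInner R.character rH.character) :=
      (classInner_conj_symm _ _).symm
    rw [h2]
    have h3 : classInner R.character rH.character = 1 := h1.symm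
    rw [h3]
    simp
  obtain ⟨j, hj, hi⟩ := exists_inj R hR rH hin
  have h1 : ‖σ.character c‖ = (finrank ℂ W : ℝ) := by
    rw [hc, Representation.char_one, Complex.norm_natCast]
  obtain ⟨l, hl⟩ := (norm_character_eq_iff σ c).mp h1
  have h2 : R c = l • LinearMap.id := scalar_transfer R rH j hj hi c l hl
  have e1 : σ.character c = l * (finrank ℂ W : ℂ) := by
    simp only [Representation.character, hl]
    rw [map_smul, LinearMap.trace_id, smul_eq_mul]
  have e2 : R.character c = l * (finrank ℂ U : ℂ) := by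
    simp only [Representation.character, h2]
    rw [map_smul, LinearMap.trace_id, smul_eq_mul]
  refine ⟨?_, ?_⟩
  · rw [e1, e2]
    ring
  · exact (norm_character_eq_iff R c).mpr ⟨l, h2⟩

theorem hom_facts (N : Subgroup G) [hN : N.Normal] [Fintype N] {V : Type v} [AddCommGroup V] [Module ℂ V] [FiniteDimensional ℂ V]
    (ρ : Representation ℂ N V) {W : Type w} [AddCommGroup W] [Module ℂ W] [FiniteDimensional ℂ W] (σ : Representation ℂ G W)
    (hρ : ρ.IsIrreducible) (hσ : σ.IsIrreducible) (f : ℕ) (hf : (fun n : N => σ.character n) = (f : ℂ) • ρ.character) :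
    f ≠ 0 ∧ (∀ (g : G) (n : N), ρ.character (cn N g n) = ρ.character n) ∧ finrank ℂ (homN N ρ σ) = f ∧
      finrank ℂ W = finrank ℂ (homN N ρ σ) * finrank ℂ V := by
  have hχ := isIrrCharacter_character σ hσ
  have hχ1 : σ.character 1 ≠ 0 := IsIrrCharacter.ne_zero hχ
  have he0 : (f : ℂ) ≠ 0 := by
    intro h0
    have h1 := congrFun hf 1
    simp only [Pi.smul_apply, smul_eq_mul, h0, zero_mul] at h1
    exact hχ1 h1
  have hφ := isIrrCharacter_character ρ hρ
  have hfinH : (finrank ℂ (homN N ρ σ) : ℂ) = f := by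
    rw [finrank_homN, hf, classInner_smul_left, classInner_irr_self hφ, mul_one]
  have hfinH' : finrank ℂ (homN N ρ σ) = f := by exact_mod_cast hfinH
  refine ⟨fun h => he0 (by rw [h]; simp), ?_, hfinH', ?_⟩
  · intro g n
    have h1 := congrFun hf (cn N g n)
    have h2 := congrFun hf n
    simp only [Pi.smul_apply, smul_eq_mul] at h1 h2
    have h3 : σ.character ((cn N g n : N) : G) = σ.character (n : G) := classFunction_of_isIrrCharacter hχ _ _
    rw [h3, h2] at h1
    exact (mul_left_cancel₀ he0 h1).symm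
  · have h1 := congrFun hf 1
    simp only [Pi.smul_apply, smul_eq_mul] at h1
    have h2 : ((1 : N) : G) = 1 := rfl
    rw [h2, Representation.char_one, Representation.char_one, ← hfinH] at h1
    exact_mod_cast h1

end Final

section Finish

variable {G : Type u} [Group G] [Fintype G]

set_option maxHeartbeats 2000000 in
/-- The step in the case where the core of `H` is scalar. -/
theorem caseB (n : ℕ) (ih : ∀ m < n, ∀ (Y : Type u) [Group Y] [Fintype Y] (χ : Y → ℂ), ¬ BergerCE m Y χ)
    (hs : Group.IsSolvable G) {d : ℕ} (σ : Representation ℂ G (Fin d → ℂ)) (hσ : σ.IsIrreducible)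
    (Z : Subgroup G) (hZ : Z.index ≤ n) (hZs : ∀ z ∈ Z, ‖σ.character z‖ = ‖σ.character 1‖)
    (hqp : ∀ N : Subgroup G, N.Normal → ∃ (φ : N → ℂ) (e : ℕ), IsIrrCharacter N φ ∧ (fun m : N => σ.character m) = (e : ℂ) • φ)
    (H : Subgroup G) (hH : IsCoatom H) {n₁ : ℕ} (R : Representation ℂ H (Fin n₁ → ℂ)) (hR : R.IsIrreducible)
    (hind : indFun H R.character = σ.character)
    (hall : ∀ c ∈ H.normalCore, ‖σ.character c‖ = ‖σ.character 1‖) : False := by
  classical
  have hχ := isIrrCharacter_character σ hσ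
  have hRc := isIrrCharacter_character R hR
  have hCn : H.normalCore.Normal := Subgroup.normalCore_normal H
  have hCH : H.normalCore ≤ H := Subgroup.normalCore_le H
  have hZC : Z ≤ H.normalCore := by
    intro z hz b
    apply mem_of_norm_eq H (IsIrrCharacter.isCharacter hRc) (IsIrrCharacter.ne_zero hRc)
    rw [hind, classFunction_of_isIrrCharacter hχ]
    exact hZs z hz
  generalize hCdef : H.normalCore = C at hCn hCH hZC hall
  haveI := hCn
  haveI : Fintype C := Fintype.ofFinite C
  haveI : Fintype H := Fintype.ofFinite H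
  have hCtop : C < ⊤ := lt_of_le_of_lt hCH (lt_top_iff_ne_top.mpr hH.1)
  have hsC : Group.IsSolvable (G ⧸ C) := inferInstance
  obtain ⟨M, hMn, hCM, -, hmin, hMab, p, hp, hpexp⟩ := exists_chief_above C ⊤ hCtop hsC
  haveI := hMn
  haveI : Fact p.Prime := ⟨hp⟩
  have hMH : ¬ M ≤ H := fun h => hCM.not_ge (by rw [← hCdef]; exact Subgroup.normal_le_normalCore.mpr h)
  have hsup : H ⊔ M = ⊤ := hH.2 _ (lt_of_le_of_ne le_sup_left (fun h => hMH (by rw [h]; exact le_sup_right)))
  have hdec' : ∀ g : G, ∃ m ∈ M, ∃ h ∈ H, g = m * h := by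
    intro g
    have h1 : g ∈ (↑(M ⊔ H) : Set G) := by rw [sup_comm, hsup]; trivial
    rw [Subgroup.normal_mul] at h1
    obtain ⟨m, hm, h, hh, rfl⟩ := Set.mem_mul.mp h1
    exact ⟨m, hm, h, hh, rfl⟩
  have hdec : ∀ g, ∃ h ∈ H, ∃ m ∈ M, g = h * m := by
    intro g
    obtain ⟨m, hm, h, hh, e⟩ := hdec' g⁻¹
    exact ⟨h⁻¹, H.inv_mem hh, m⁻¹, M.inv_mem hm, by rw [← mul_inv_rev, ← e, inv_inv]⟩
  have hMHC : M ⊓ H ≤ C := by
    rw [← hCdef]
    intro x hx b
    obtain ⟨m, hm, h, hh, rfl⟩ := hdec' b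
    have hyM : h * x * h⁻¹ ∈ M := hMn.conj_mem x hx.1 h
    have hyH : h * x * h⁻¹ ∈ H := H.mul_mem (H.mul_mem hh hx.2) (H.inv_mem hh)
    have hc : ⁅m, h * x * h⁻¹⁆ ∈ C := hMab (Subgroup.commutator_mem_commutator hm hyM)
    have e1 : (m * h) * x * (m * h)⁻¹ = ⁅m, h * x * h⁻¹⁆ * (h * x * h⁻¹) := by
      simp only [commutatorElement_def]
      group
    rw [e1]
    exact H.mul_mem (hCH hc) hyH
  have hHM : H ⊓ M = C := le_antisymm (by rw [inf_comm]; exact hMHC) (le_inf hCH hCM.le)
  have hrel : C.relIndex M = H.index := by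
    rw [← hHM, Subgroup.inf_relIndex_right, Cfsg.Agent.Lib.PNilp.relIndex_eq_relIndex_sup_of_normal H M, hsup,
      Subgroup.relIndex_top_right]
  obtain ⟨k0, hk0⟩ := relIndex_pow_of_exp C M p (fun x hx => ⟨1, by rw [pow_one]; exact hpexp x hx⟩)
  have hHidx : Nat.card H * H.index = Nat.card G := H.card_mul_index
  have hcardM : Nat.card M * Nat.card H = Nat.card C * Nat.card G := by
    have h1 := Cfsg.Agent.Lib.PNilp.card_mul_relIndex' C M hCM.le
    rw [hrel] at h1
    rw [← h1, ← hHidx]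
    ring
  haveI : Fintype M := Fintype.ofFinite M
  haveI hWn : Nontrivial (Fin d → ℂ) := ((isIrreducible_iff σ).mp hσ).1
  have hd0 : (d : ℂ) ≠ 0 := by
    have h1 := (finrank_pos (R := ℂ) (M := Fin d → ℂ)).ne'
    rw [Module.finrank_fin_fun] at h1
    exact_mod_cast h1
  have hval := fun c : H => core_values σ hσ H R hR hind c
  simp only [Module.finrank_fin_fun] at hval
  have hcl := classFunction_of_isIrrCharacter hχ
  have hinvC : ∀ (g c : G), c ∈ C → extendByZero H R.character (g⁻¹ * c * g) = extendByZero H R.character c := by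
    intro g c hc
    have hc' : g⁻¹ * c * g ∈ C := by
      simpa using hCn.conj_mem c hc g⁻¹
    rw [extendByZero_of_mem _ _ (hCH hc), extendByZero_of_mem _ _ (hCH hc')]
    have h1 := (hval ⟨c, hCH hc⟩ (hall c hc)).1
    have h2 := (hval ⟨_, hCH hc'⟩ (hall _ hc')).1
    apply mul_left_cancel₀ hd0
    rw [h1, h2]
    congr 1
    have h3 := hcl c g⁻¹
    rw [inv_inv] at h3
    exact h3
  have hnormC : ∀ c ∈ C, ‖extendByZero H R.character c‖ = (n₁ : ℝ) := by
    intro c hc
    rw [extendByZero_of_mem _ _ (hCH hc)]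
    exact (hval ⟨c, hCH hc⟩ (hall c hc)).2
  have hXM := norm_M H C M R.character hCH (fun x hx hxH => hMHC ⟨hx, hxH⟩) hCM.le hinvC n₁ hnormC hcardM
  rw [hind] at hXM
  have hHpos : (Nat.card H : ℂ) ≠ 0 := by exact_mod_cast Nat.card_pos.ne'
  have hidxC : (Nat.card G : ℂ) * (Nat.card H : ℂ)⁻¹ = (H.index : ℂ) := by
    rw [← hHidx]
    push_cast
    field_simp
  rw [hidxC] at hXM
  by_cases hMtop : M = ⊤
  · have h1 := hXM
    rw [classInner_of_forall_mem M (fun x => by rw [hMtop]; trivial) σ.character, classInner_irr_self hχ] at h1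
    have h2 : H.index * n₁ ^ 2 = 1 := by exact_mod_cast h1.symm
    have h3 : H.index = 1 := Nat.dvd_one.mp (Dvd.intro _ h2)
    exact hH.1 (Subgroup.index_eq_one.mp h3)
  have hMlt : M < ⊤ := lt_top_iff_ne_top.mpr hMtop
  obtain ⟨η, f, hη, hf⟩ := hqp M hMn
  have hfsq : f ^ 2 = H.index * n₁ ^ 2 := by
    have h1 := hXM
    rw [hf, inner_smul_irr hη] at h1
    exact_mod_cast h1
  obtain ⟨k, ρ, hρ, rfl⟩ := hη
  obtain ⟨hf0, hinv, hfin, hdeg⟩ := hom_facts M ρ σ hρ hσ f hf
  have hdk : d = f * k := by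
    have h1 := hdeg
    rw [hfin] at h1
    simpa only [Module.finrank_fin_fun] using h1
  have hdidx : d = H.index * n₁ := by
    have h1 : σ.character 1 = H.index * R.character 1 := by
      rw [← hind, indFun_one_apply]
    rw [Representation.char_one, Representation.char_one] at h1
    simp only [Module.finrank_fin_fun] at h1
    exact_mod_cast h1
  have hkk : k ^ 2 = H.index := by
    have h1 : f ^ 2 * k ^ 2 = f ^ 2 * H.index := by
      calc f ^ 2 * k ^ 2 = (f * k) ^ 2 := by ring
        _ = (H.index * n₁) ^ 2 := by rw [← hdk, hdidx]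
        _ = (H.index * n₁ ^ 2) * H.index := by ring
        _ = f ^ 2 * H.index := by rw [hfsq]
    exact Nat.eq_of_mul_eq_mul_left (pow_pos (Nat.pos_of_ne_zero hf0) 2) h1
  have hk0' : k ≠ 0 := by
    rintro rfl
    have : H.index = 0 := by rw [← hkk]; rfl
    exact Subgroup.index_ne_zero_of_finite this
  have hfk : f = k * n₁ := by
    have h1 : f * k = (k * n₁) * k := by
      rw [← hdk, hdidx, ← hkk]
      ring
    exact Nat.eq_of_mul_eq_mul_right (Nat.pos_of_ne_zero hk0') h1
  have hsM : Group.IsSolvable (G ⧸ M) := inferInstance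
  obtain ⟨N, hNn, hMN, -, -, hNab, q, hq, hqexp⟩ := exists_chief_above M ⊤ hMlt hsM
  haveI := hNn
  haveI : Fact q.Prime := ⟨hq⟩
  have hfinish : N ⊓ H ≤ C → False := by
    intro hD
    apply hMN.not_ge
    intro x hx
    obtain ⟨m, hm, h, hh, rfl⟩ := hdec' x
    have h1 : h ∈ N := by
      have : h = m⁻¹ * (m * h) := by group
      rw [this]
      exact N.mul_mem (N.inv_mem (hMN.le hm)) hx
    exact M.mul_mem hm (hCM.le (hD ⟨h1, hh⟩))
  apply hfinish
  by_cases hpq : p = q
  · subst hpq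
    have hcomm := comm_le C M N hCM hMN.le hmin p (fun x hx => ⟨2, by
      have h1 := hpexp _ (hqexp x hx)
      rw [pow_two, pow_mul]
      exact h1⟩)
    rw [← hCdef]
    intro x hx b
    obtain ⟨m, hm, h, hh, rfl⟩ := hdec' b
    have hyN : h * x * h⁻¹ ∈ N := hNn.conj_mem x hx.1 h
    have hyH : h * x * h⁻¹ ∈ H := H.mul_mem (H.mul_mem hh hx.2) (H.inv_mem hh)
    have hc : ⁅m, h * x * h⁻¹⁆ ∈ C := hcomm (Subgroup.commutator_mem_commutator hm hyN)
    have e1 : (m * h) * x * (m * h)⁻¹ = ⁅m, h * x * h⁻¹⁆ * (h * x * h⁻¹) := by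
      simp only [commutatorElement_def]
      group
    rw [e1]
    exact H.mul_mem (hCH hc) hyH
  · haveI hVn : Nontrivial (Fin k → ℂ) := ((isIrreducible_iff ρ).mp hρ).1
    haveI hfinG : Finite (gamma M ρ) := finite_gamma M ρ hρ hinv
    haveI : Fintype (gamma M ρ) := Fintype.ofFinite _
    haveI : Fintype (T0 M ρ H) := Fintype.ofFinite _
    have hne : finrank ℂ (homN M ρ σ) ≠ 0 := by rw [hfin]; exact hf0
    have hcop : Nat.Coprime (finrank ℂ (Fin k → ℂ)) q := by
      rw [Module.finrank_fin_fun]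
      have h1 : k ∣ p ^ k0 := by
        rw [← hk0, hrel, ← hkk]
        exact dvd_pow_self k (by norm_num)
      exact Nat.Coprime.coprime_dvd_left h1 (Nat.Coprime.pow_left k0 ((Nat.coprime_primes hp hq).mpr hpq))
    have hU : finrank ℂ (homN M ρ σ) = finrank ℂ (Fin k → ℂ) * finrank ℂ (Fin n₁ → ℂ) := by
      rw [hfin, Module.finrank_fin_fun, Module.finrank_fin_fun]
      exact hfk
    rcases caseB_main M ρ σ hρ hσ hinv hne hdeg H hs hqp hdec hdec' R hR hind hU C
      (fun c hc => hCM.le hc) hCH hall (fun x hx hxH => hMHC ⟨hx, hxH⟩) f hf hf0 N hNab q hqexp hcop with h | h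
    · rw [hCdef] at h
      exact h
    · exfalso
      refine ih (C.relIndex H) ?_ _ _ h
      have h1 : C.relIndex H * H.index = C.index := Subgroup.relIndex_mul_index hCH
      have h2 : Z.relIndex C * C.index = Z.index := Subgroup.relIndex_mul_index hZC
      have hCi : C.index ≠ 0 := Subgroup.index_ne_zero_of_finite
      have hZi : Z.index ≠ 0 := Subgroup.index_ne_zero_of_finite
      have h3 : H.index ≠ 1 := fun h => hH.1 (Subgroup.index_eq_one.mp h)
      have h4 : H.index ≠ 0 := Subgroup.index_ne_zero_of_finite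
      have h5 : C.relIndex H ≠ 0 := by
        intro h0
        rw [h0, zero_mul] at h1
        exact hCi h1.symm
      have h6 : Z.relIndex C ≠ 0 := by
        intro h0
        rw [h0, zero_mul] at h2
        exact hZi h2.symm
      have h7 : C.relIndex H < C.index := by
        rw [← h1]
        have h8 : 2 ≤ H.index := by omega
        have h9 : 0 < C.relIndex H := Nat.pos_of_ne_zero h5
        nlinarith
      have h10 : C.index ≤ Z.index := by
        rw [← h2]
        exact Nat.le_mul_of_pos_left _ (Nat.pos_of_ne_zero h6)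
      omega

theorem berger_aux (n : ℕ) : ∀ (Y : Type u) [Group Y] [Fintype Y] (χ : Y → ℂ), ¬ BergerCE n Y χ := by
  induction n using Nat.strong_induction_on with
  | _ n ih =>
    intro Y _ _ χ h
    obtain ⟨hs, hχ, ⟨Z, hZ, hZs⟩, hqp, K, ψ, hK, hψ, hind⟩ := h
    obtain ⟨H, ϑ, hH, hϑ, hind'⟩ := to_coatom hχ K hK ψ hψ hind
    obtain ⟨d, σ, hσ, rfl⟩ := hχ
    by_cases hc : ∀ c ∈ H.normalCore, ‖σ.character c‖ = ‖σ.character 1‖
    · obtain ⟨n₁, R, hR, rfl⟩ := hϑ
      exact caseB n ih hs σ hσ Z hZ hZs hqp H hH R hR hind' hc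
    · exact caseA n ih hs σ hσ Z hZ hZs hqp H hH ϑ hϑ hind' hc

/-- Berger's theorem. -/
theorem s0889 [hs : Group.IsSolvable G] (χ : G → ℂ) (hχ : IsIrrCharacter G χ)
    (hqp : ∀ (N : Subgroup G), N.Normal → ∃ (ϑ : N → ℂ) (e : ℕ), IsIrrCharacter N ϑ ∧ (fun n : N => χ n) = (e : ℂ) • ϑ)
    (K : Subgroup G) (hK : K ≠ ⊤) (ψ : K → ℂ) (hψ : IsCharacter K ψ) : indFun K ψ ≠ χ := by
  intro h
  refine berger_aux _ G χ ⟨hs, hχ, ⟨⊥, le_rfl, ?_⟩, hqp, K, ψ, hK, hψ, h⟩
  intro z hz
  rw [Subgroup.mem_bot.mp hz]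

end Finish

end Cfsg.Agent.Lib.CharBerger3
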