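import Cfsg.Agent.Lib.CharBerger2
import Cfsg.Agent.Lib.CharBrauer2
import Cfsg.Agent.Lib.CharMisc2

/-!
# Brauer's splitting field theorem
-/

set_option autoImplicit false
set_option linter.unusedVariables false
set_option linter.unusedSectionVars false
set_option linter.style.longLine false

open Cfsg Module
open scoped ComplexConjugate TensorProduct
open Cfsg.Agent.Lib.CharBasic Cfsg.Agent.Lib.CharOrth Cfsg.Agent.Lib.CharAlg Cfsg.Agent.Lib.CharInd
  Cfsg.Agent.Lib.CharMisc Cfsg.Agent.Lib.CharBerger2

universe u

namespace Cfsg.Agent.Lib.CharSplit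

section Gen

variable {G : Type u} [Group G] [Fintype G] {K : Type} [Field K] [Algebra K ℂ]
  {M : Type} [AddCommGroup M] [Module K M]

/-- The complex character of a `K`-representation. -/
noncomputable def cch {M : Type*} [AddCommGroup M] [Module K M] (r : Representation K G M) : G → ℂ :=
  fun g => algebraMap K ℂ (r.character g)

/-- The complexification. -/
noncomputable def cRep (r : Representation K G M) : Representation ℂ G (ℂ ⊗[K] M) :=
  (Module.End.baseChangeHom K ℂ M).toMonoidHom.comp r

theorem cRep_apply (r : Representation K G M) (g : G) : cRep r g = Module.End.baseChangeHom K ℂ M (r g) := rfl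

variable [FiniteDimensional K M]

theorem character_cRep (r : Representation K G M) : (cRep r).character = cch r := by
  funext g
  exact LinearMap.trace_baseChange (r g) ℂ

theorem isCharacter_cch (r : Representation K G M) : IsCharacter G (cch r) := by
  rw [← character_cRep]
  exact isCharacter_character _

variable [NeZero (Nat.card G : K)]

theorem inner_eq_finrank {N : Type} [AddCommGroup N] [Module K N] [FiniteDimensional K N]
    (ρ : Representation K G M) (σ : Representation K G N) :
    classInner (cch σ) (cch ρ) = (finrank K (Representation.IntertwiningMap ρ σ) : ℂ) := by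
  have : Invertible (Nat.card G : K) := invertibleOfNonzero (NeZero.ne _)
  have h := Representation.card_inv_mul_sum_char_mul_char_eq_finrank ρ σ
  have h2 := congrArg (algebraMap K ℂ) h
  rw [map_natCast] at h2
  rw [← h2, map_mul, map_inv₀, map_natCast, map_sum]
  simp only [classInner]
  congr 1
  apply Finset.sum_congr rfl
  intro g _
  rw [← IsCharacter.map_inv (isCharacter_cch ρ), map_mul]
  rfl

theorem char_add (r : Representation K G M) (U U' : Subrepresentation r) (h : IsCompl U U') :
    r.character = U.toRepresentation.character + U'.toRepresentation.character := by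
  funext g
  have hc : IsCompl U.toSubmodule U'.toSubmodule := by
    constructor
    · rw [disjoint_iff]
      exact congrArg Subrepresentation.toSubmodule h.inf_eq_bot
    · rw [codisjoint_iff]
      exact congrArg Subrepresentation.toSubmodule h.sup_eq_top
  let N : Bool → Submodule K M := fun b => if b then U.toSubmodule else U'.toSubmodule
  have hN : DirectSum.IsInternal N := by
    rw [DirectSum.isInternal_submodule_iff_isCompl N (i := true) (j := false) (by simp)
      (by ext b; cases b <;> simp)]
    simpa [N] using hc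
  have hmaps : ∀ b, Set.MapsTo (r g) (N b) (N b) := by
    intro b v hv
    cases b
    · exact U'.apply_mem_toSubmodule g hv
    · exact U.apply_mem_toSubmodule g hv
  have := LinearMap.trace_eq_sum_trace_restrict hN hmaps
  simp only [Representation.character, Pi.add_apply]
  rw [this]
  simp only [Fintype.sum_bool]
  rfl

theorem cch_add (r : Representation K G M) (U U' : Subrepresentation r) (h : IsCompl U U') :
    cch r = cch U.toRepresentation + cch U'.toRepresentation := by
  funext g
  simp only [cch, Pi.add_apply, char_add r U U' h, map_add]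

theorem finrank_lt (r : Representation K G M) (U : Subrepresentation r) (h : U ≠ ⊤) :
    finrank K U.toSubmodule < finrank K M := by
  apply Submodule.finrank_lt
  intro h1
  apply h
  apply Subrepresentation.toSubmodule_injective
  exact h1

/-- A simple constituent. -/
theorem exists_simple (χ : G → ℂ) (n : ℕ) : ∀ (M : Type) [AddCommGroup M] [Module K M] [FiniteDimensional K M]
    (r : Representation K G M), finrank K M = n → classInner (cch r) χ ≠ 0 →
    ∃ (M' : Type) (_ : AddCommGroup M') (_ : Module K M') (_ : FiniteDimensional K M') (r' : Representation K G M'),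
      r'.IsIrreducible ∧ classInner (cch r') χ ≠ 0 := by
  induction n using Nat.strong_induction_on with
  | _ n ih =>
    intro M _ _ _ r hn hne
    by_cases hs : r.IsIrreducible
    · exact ⟨M, inferInstance, inferInstance, inferInstance, r, hs, hne⟩
    by_cases hV : Subsingleton M
    · exfalso
      apply hne
      have h0 : cch r = 0 := by
        funext g
        have : r g = 0 := by
          ext v
          exact Subsingleton.elim _ _
        simp [cch, Representation.character, this]
      rw [h0]
      simp [classInner]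
    rw [not_subsingleton_iff_nontrivial] at hV
    have hex : ∃ U : Subrepresentation r, U ≠ ⊥ ∧ U ≠ ⊤ := by
      by_contra hcon
      push Not at hcon
      apply hs
      refine { exists_pair_ne := ⟨⊥, ⊤, ?_⟩, eq_bot_or_eq_top := ?_ }
      · intro h1
        have : (⊥ : Submodule K M) = ⊤ := congrArg Subrepresentation.toSubmodule h1
        exact bot_ne_top this
      · intro U
        by_cases hU : U = ⊥
        · exact Or.inl hU
        · exact Or.inr (hcon U hU)
    obtain ⟨U, hU1, hU2⟩ := hex
    obtain ⟨U', hU'⟩ := ComplementedLattice.exists_isCompl U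
    have hU'top : U' ≠ ⊤ := by
      intro h1
      rw [h1] at hU'
      exact hU1 (by simpa using hU'.inf_eq_bot)
    rw [cch_add r U U' hU', classInner_add_left] at hne
    by_cases h1 : classInner (cch U.toRepresentation) χ = 0
    · rw [h1, zero_add] at hne
      exact ih _ (hn ▸ finrank_lt r U' hU'top) _ U'.toRepresentation rfl hne
    · exact ih _ (hn ▸ finrank_lt r U hU2) _ U.toRepresentation rfl h1

/-- The inner product of characters having a common constituent is nonzero. -/
theorem inner_ne_zero_of_common {X Y χ : G → ℂ} (hX : IsCharacter G X) (hY : IsCharacter G Y) (hχ : IsIrrCharacter G χ)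
    (h1 : classInner X χ ≠ 0) (h2 : classInner Y χ ≠ 0) : classInner X Y ≠ 0 := by
  have hX' := sub_irr_isCharacter hX hχ h1
  have hY' := sub_irr_isCharacter hY hχ h2
  have e1 : X = χ + (X - χ) := by simp
  have e2 : Y = χ + (Y - χ) := by simp
  rw [e1, e2, classInner_add_left, classInner_add_right, classInner_add_right, classInner_irr_self hχ]
  obtain ⟨a, ha⟩ := IsCharacter.classInner_nat (IsIrrCharacter.isCharacter hχ) hY'
  obtain ⟨b, hb⟩ := IsCharacter.classInner_nat hX' (IsIrrCharacter.isCharacter hχ)
  obtain ⟨c, hc⟩ := IsCharacter.classInner_nat hX' hY'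
  rw [ha, hb, hc]
  intro h
  have : 1 + a + (b + c) = 0 := by exact_mod_cast h
  omega

theorem character_range {T : Type} [AddCommGroup T] [Module K T] [FiniteDimensional K T]
    (rT : Representation K G T) (r : Representation K G M) (f : Representation.IntertwiningMap rT r)
    (hf : Function.Injective f) (U : Subrepresentation r) (hU : U.toSubmodule = LinearMap.range f.toLinearMap) :
    U.toRepresentation.character = rT.character := by
  funext g
  let e0 := LinearEquiv.ofInjective f.toLinearMap hf
  let e : T ≃ₗ[K] U.toSubmodule := e0.trans (LinearEquiv.ofEq _ _ hU.symm)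
  have he : ∀ t, ((e t : U.toSubmodule) : M) = f t := fun t => rfl
  have h1 : e.conj (rT g) = U.toRepresentation g := by
    ext1 u
    obtain ⟨t, rfl⟩ := e.surjective u
    apply Subtype.ext
    rw [LinearEquiv.conj_apply_apply, LinearEquiv.symm_apply_apply, he]
    show f (rT g t) = r g (e t)
    rw [he]
    exact Representation.IntertwiningMap.isIntertwining rT r f g t
  show LinearMap.trace K _ (U.toRepresentation g) = LinearMap.trace K _ (rT g)
  rw [← h1]
  exact LinearMap.trace_conj' (rT g) e

/-- The multiplicity of `χ` in any `K`-representation is a multiple of its multiplicity in a simple one. -/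
theorem mult_multiple {T : Type} [AddCommGroup T] [Module K T] [FiniteDimensional K T]
    (rT : Representation K G T) (hT : rT.IsIrreducible) {χ : G → ℂ} (hχ : IsIrrCharacter G χ)
    (hTχ : classInner (cch rT) χ ≠ 0) (n : ℕ) : ∀ (M : Type) [AddCommGroup M] [Module K M] [FiniteDimensional K M]
    (r : Representation K G M), finrank K M = n → ∃ c : ℕ, classInner (cch r) χ = c * classInner (cch rT) χ := by
  induction n using Nat.strong_induction_on with
  | _ n ih =>
    intro M _ _ _ r hn
    by_cases h0 : classInner (cch r) χ = 0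
    · exact ⟨0, by simp [h0]⟩
    have h1 := inner_ne_zero_of_common (isCharacter_cch r) (isCharacter_cch rT) hχ h0 hTχ
    rw [inner_eq_finrank] at h1
    have hpos : 0 < finrank K (Representation.IntertwiningMap rT r) := by
      apply Nat.pos_of_ne_zero
      intro h2
      apply h1
      rw [h2]
      simp
    haveI : Nontrivial (Representation.IntertwiningMap rT r) := Module.nontrivial_of_finrank_pos hpos
    obtain ⟨f, hf⟩ := exists_ne (0 : Representation.IntertwiningMap rT r)
    haveI := hT
    have hfi : Function.Injective f := (Representation.IsIrreducible.injective_or_eq_zero (ρ := rT) (σ := r) f).resolve_right hf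
    let U : Subrepresentation r := ⟨LinearMap.range f.toLinearMap, by
      rintro g _ ⟨t, rfl⟩
      exact ⟨rT g t, Representation.IntertwiningMap.isIntertwining rT r f g t⟩⟩
    obtain ⟨U', hU'⟩ := ComplementedLattice.exists_isCompl U
    have hUT : cch U.toRepresentation = cch rT := by
      funext g
      simp only [cch, character_range rT r f hfi U rfl]
    have hTn : Nontrivial T := by
      by_contra hcon
      rw [not_nontrivial_iff_subsingleton] at hcon
      apply hf
      apply Representation.IntertwiningMap.ext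
      ext t
      rw [Subsingleton.elim t 0]
      simp
    have hUbot : U ≠ ⊥ := by
      intro h
      obtain ⟨t, ht⟩ := exists_ne (0 : T)
      have h2 : f t ∈ U.toSubmodule := ⟨t, rfl⟩
      rw [h] at h2
      have h3 : f t = 0 := h2
      apply ht
      apply hfi
      rw [h3, map_zero]
    have hU'top : U' ≠ ⊤ := by
      intro h1
      rw [h1] at hU'
      exact hUbot (by simpa using hU'.inf_eq_bot)
    obtain ⟨c, hc⟩ := ih _ (hn ▸ finrank_lt r U' hU'top) _ U'.toRepresentation rfl
    refine ⟨c + 1, ?_⟩
    rw [cch_add r U U' hU', classInner_add_left, hUT, hc]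
    push_cast
    ring

end Gen

section Unique

variable {G : Type u} [Group G] [Fintype G] {K : Type} [Field K] [Algebra K ℂ] [NeZero (Nat.card G : K)]
  {T : Type} [AddCommGroup T] [Module K T] [FiniteDimensional K T]

theorem baseChange_sum (r : Representation K G T) (c : G → K) :
    Module.End.baseChangeHom K ℂ T (∑ g, c g • r g) = ∑ g, (algebraMap K ℂ (c g)) • cRep r g := by
  rw [map_sum]
  apply Finset.sum_congr rfl
  intro g _
  rw [map_smul]
  refine LinearMap.ext fun x => ?_
  show c g • (cRep r g x) = (algebraMap K ℂ (c g)) • (cRep r g x)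
  rw [algebraMap_smul]

theorem constituent_unique (rT : Representation K G T) (hT : rT.IsIrreducible) {χ : G → ℂ} (hχ : IsIrrCharacter G χ)
    (φ : G → K) (hφ : ∀ g, algebraMap K ℂ (φ g) = χ g) (hTχ : classInner (cch rT) χ ≠ 0) {ξ : G → ℂ}
    (hξ : IsIrrCharacter G ξ) (hTξ : classInner (cch rT) ξ ≠ 0) : ξ = χ := by
  classical
  by_contra hne
  let c : G → K := fun g => (Nat.card G : K)⁻¹ * φ g⁻¹
  let E : Module.End K T := ∑ g, c g • rT g
  have hcl := classFunction_of_isIrrCharacter hχ
  have hinjK : Function.Injective (algebraMap K ℂ) := (algebraMap K ℂ).injective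
  have hc : ∀ h g, c (h * g * h⁻¹) = c g := by
    intro h g
    have e : (h * g * h⁻¹)⁻¹ = h * g⁻¹ * h⁻¹ := by group
    simp only [c, e]
    congr 1
    apply hinjK
    rw [hφ, hφ, hcl]
  have hcomm : ∀ h, E * rT h = rT h * E := by
    intro h
    simp only [E, Finset.sum_mul, Finset.mul_sum]
    rw [← Equiv.sum_comp (MulAut.conj h).toEquiv (fun g => c g • rT g * rT h)]
    apply Finset.sum_congr rfl
    intro g _
    simp only [MulEquiv.toEquiv_eq_coe, EquivLike.coe_coe, MulAut.conj_apply]
    rw [hc, smul_mul_assoc, mul_smul_comm, ← map_mul, ← map_mul]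
    congr 2
    group
  have hch : ∀ g, conj (χ g) = χ g⁻¹ := fun g => (IsCharacter.map_inv (IsIrrCharacter.isCharacter hχ) g).symm
  have htr : algebraMap K ℂ (LinearMap.trace K T E) = classInner (cch rT) χ := by
    simp only [E, map_sum, map_smul, smul_eq_mul, classInner, Finset.mul_sum]
    apply Finset.sum_congr rfl
    intro g _
    simp only [c, map_mul, map_inv₀, map_natCast, hφ, hch]
    simp only [cch, Representation.character]
    ring
  have hE0 : E ≠ 0 := by
    intro h
    rw [h, map_zero, map_zero] at htr
    exact hTχ htr.symm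
  let Ef : Representation.IntertwiningMap rT rT := LinearMap.intertwiningMap_of_isIntertwiningMap rT rT E (fun g v => by
    exact congrArg (fun F : Module.End K T => F v) (hcomm g))
  haveI := hT
  have hEinj : Function.Injective E := by
    rcases Representation.IsIrreducible.injective_or_eq_zero (ρ := rT) (σ := rT) Ef with h | h
    · exact h
    · exfalso
      apply hE0
      ext1 v
      exact congrArg (fun F : Representation.IntertwiningMap rT rT => F v) h
  obtain ⟨E', hE'⟩ := LinearMap.exists_leftInverse_of_injective E (LinearMap.ker_eq_bot.mpr hEinj)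
  have hleft : Module.End.baseChangeHom K ℂ T E' * Module.End.baseChangeHom K ℂ T E = 1 := by
    rw [← map_mul]
    have : E' * E = 1 := hE'
    rw [this, map_one]
  have hEC : ∀ x, Module.End.baseChangeHom K ℂ T E x = 0 → x = 0 := by
    intro x hx
    have := congrArg (fun F : Module.End ℂ (ℂ ⊗[K] T) => F x) hleft
    simp only [Module.End.mul_apply, hx, map_zero, Module.End.one_apply] at this
    exact this.symm
  obtain ⟨k, R, hR, rfl⟩ := hξ
  rw [← character_cRep] at hTξ
  obtain ⟨j, hj, hi⟩ := exists_inj R hR (cRep rT) hTξ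
  let Eξ : Module.End ℂ (Fin k → ℂ) := ∑ g, (algebraMap K ℂ (c g)) • R g
  have hc' : ∀ h g, algebraMap K ℂ (c (h * g * h⁻¹)) = algebraMap K ℂ (c g) := fun h g => by rw [hc]
  have hcommξ : ∀ h, Eξ * R h = R h * Eξ := by
    intro h
    simp only [Eξ, Finset.sum_mul, Finset.mul_sum]
    rw [← Equiv.sum_comp (MulAut.conj h).toEquiv (fun g => (algebraMap K ℂ (c g)) • R g * R h)]
    apply Finset.sum_congr rfl
    intro g _
    simp only [MulEquiv.toEquiv_eq_coe, EquivLike.coe_coe, MulAut.conj_apply]
    rw [hc', smul_mul_assoc, mul_smul_comm, ← map_mul, ← map_mul]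
    congr 2
    group
  obtain ⟨c₀, hc₀⟩ := schur R hR Eξ (fun g v => congrArg (fun F : Module.End ℂ (Fin k → ℂ) => F v) (hcommξ g))
  have htrξ : LinearMap.trace ℂ _ Eξ = classInner R.character χ := by
    simp only [Eξ, map_sum, map_smul, smul_eq_mul, classInner, Finset.mul_sum]
    apply Finset.sum_congr rfl
    intro g _
    simp only [c, map_mul, map_inv₀, map_natCast, hφ, hch]
    simp only [Representation.character]
    ring
  rw [classInner_irr (isIrrCharacter_character R hR) hχ, if_neg hne, hc₀, map_smul, LinearMap.trace_id] at htrξ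
  haveI hkn : Nontrivial (Fin k → ℂ) := ((isIrreducible_iff R).mp hR).1
  have hk0 : (finrank ℂ (Fin k → ℂ) : ℂ) ≠ 0 := by exact_mod_cast (finrank_pos (R := ℂ) (M := Fin k → ℂ)).ne'
  have hc00 : c₀ = 0 := by
    have h2 : c₀ * (finrank ℂ (Fin k → ℂ) : ℂ) = 0 := by exact_mod_cast htrξ
    exact (mul_eq_zero.mp h2).resolve_right hk0
  obtain ⟨v, hv⟩ := exists_ne (0 : Fin k → ℂ)
  apply hv
  apply hj
  rw [map_zero]
  apply hEC
  rw [baseChange_sum]
  have h3 : Eξ v = 0 := by
    rw [hc₀, hc00]
    simp
  have h4 : j (Eξ v) = 0 := by rw [h3, map_zero]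
  rw [← h4]
  simp only [Eξ, LinearMap.sum_apply, LinearMap.smul_apply, map_sum, map_smul, hi]

/-- A simple representation exists with character `χ`. -/
theorem exists_real {χ : G → ℂ} (hχ : IsIrrCharacter G χ)
    (hspan : χ ∈ AddSubgroup.closure {f : G → ℂ | ∃ (M : Type) (_ : AddCommGroup M) (_ : Module K M) (_ : FiniteDimensional K M)
      (r : Representation K G M), cch r = f}) :
    ∃ (M : Type) (_ : AddCommGroup M) (_ : Module K M) (_ : FiniteDimensional K M) (r : Representation K G M), cch r = χ := by
  classical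
  have hval : ∀ f ∈ AddSubgroup.closure {f : G → ℂ | ∃ (M : Type) (_ : AddCommGroup M) (_ : Module K M) (_ : FiniteDimensional K M)
      (r : Representation K G M), cch r = f}, ∀ g, f g ∈ (algebraMap K ℂ).range := by
    intro f hf g
    induction hf using AddSubgroup.closure_induction with
    | mem x hx =>
      obtain ⟨M, _, _, _, r, rfl⟩ := hx
      exact ⟨_, rfl⟩
    | zero => exact Subring.zero_mem _
    | add a b _ _ ha hb => exact Subring.add_mem _ ha hb
    | neg a _ ha => exact Subring.neg_mem _ ha
  choose φ hφ using hval χ hspan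
  have hne : ∃ (M : Type) (_ : AddCommGroup M) (_ : Module K M) (_ : FiniteDimensional K M) (r : Representation K G M),
      classInner (cch r) χ ≠ 0 := by
    by_contra hcon
    push Not at hcon
    have hall : ∀ f ∈ AddSubgroup.closure {f : G → ℂ | ∃ (M : Type) (_ : AddCommGroup M) (_ : Module K M) (_ : FiniteDimensional K M)
        (r : Representation K G M), cch r = f}, classInner f χ = 0 := by
      intro f hf
      induction hf using AddSubgroup.closure_induction with
      | mem x hx =>
        obtain ⟨M, _, _, _, r, rfl⟩ := hx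
        exact hcon M inferInstance inferInstance inferInstance r
      | zero => simp [classInner]
      | add a b _ _ ha hb => rw [classInner_add_left, ha, hb, add_zero]
      | neg a _ ha =>
        have e : -a = (-1 : ℂ) • a := by simp
        rw [e, classInner_smul_left, ha, mul_zero]
    have h1 := hall χ hspan
    rw [classInner_irr_self hχ] at h1
    exact one_ne_zero h1
  obtain ⟨M₀, _, _, _, r₀, hr₀⟩ := hne
  obtain ⟨T, _, _, _, rT, hT, hTχ⟩ := exists_simple χ _ M₀ r₀ rfl hr₀
  obtain ⟨a₀, ha₀⟩ := IsCharacter.classInner_irr_nat (isCharacter_cch rT) hχ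
  have hdiv : ∀ f ∈ AddSubgroup.closure {f : G → ℂ | ∃ (M : Type) (_ : AddCommGroup M) (_ : Module K M) (_ : FiniteDimensional K M)
      (r : Representation K G M), cch r = f}, ∃ c : ℤ, classInner f χ = c * a₀ := by
    intro f hf
    induction hf using AddSubgroup.closure_induction with
    | mem x hx =>
      obtain ⟨M, _, _, _, r, rfl⟩ := hx
      obtain ⟨c, hc⟩ := mult_multiple rT hT hχ hTχ _ M r rfl
      refine ⟨c, ?_⟩
      rw [hc, ha₀]
      simp
    | zero => exact ⟨0, by simp [classInner]⟩
    | add a b _ _ ha hb =>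
      obtain ⟨c, hc⟩ := ha
      obtain ⟨d, hd⟩ := hb
      refine ⟨c + d, ?_⟩
      rw [classInner_add_left, hc, hd]
      push_cast
      ring
    | neg a _ ha =>
      obtain ⟨c, hc⟩ := ha
      refine ⟨-c, ?_⟩
      have e : -a = (-1 : ℂ) • a := by simp
      rw [e, classInner_smul_left, hc]
      push_cast
      ring
  obtain ⟨c, hc⟩ := hdiv χ hspan
  rw [classInner_irr_self hχ] at hc
  have h1 : c * (a₀ : ℤ) = 1 := by exact_mod_cast hc.symm
  have h2 : a₀ = 1 := by
    have h3 : (a₀ : ℤ) ∣ 1 := Dvd.intro_left c h1
    have h4 : a₀ ∣ 1 := by exact_mod_cast h3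
    exact Nat.dvd_one.mp h4
  refine ⟨T, inferInstance, inferInstance, inferInstance, rT, ?_⟩
  have h3 := Cfsg.Agent.Lib.CharNormal.eq_smul_of_single_constituent (classFunction_of_isCharacter (isCharacter_cch rT)) hχ (by
    intro ξ hξ hξne
    by_contra h
    exact hξne (constituent_unique rT hT hχ φ hφ hTχ hξ h))
  rw [ha₀, h2] at h3
  simpa using h3

end Unique

section Induced

variable {G : Type u} [Group G] [Fintype G] (H : Subgroup G) {K : Type} [Field K] [Algebra K ℂ] (lam : H →* Kˣ)

theorem cocy_mem (g : G) (t : G ⧸ H) : ((g • t).out)⁻¹ * g * t.out ∈ H := by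
  rw [mul_assoc, ← QuotientGroup.eq]
  have e1 : (((g • t).out : G) : G ⧸ H) = g • t := QuotientGroup.out_eq' _
  have e2 : ((g * t.out : G) : G ⧸ H) = g • ((t.out : G) : G ⧸ H) := rfl
  rw [e1, e2, QuotientGroup.out_eq']

/-- The cocycle. -/
noncomputable def cocy (g : G) (t : G ⧸ H) : H := ⟨_, cocy_mem H g t⟩

theorem cocy_mul (g₁ g₂ : G) (t : G ⧸ H) : cocy H (g₁ * g₂) t = cocy H g₁ (g₂ • t) * cocy H g₂ t := by
  apply Subtype.ext
  show ((g₁ * g₂) • t).out⁻¹ * (g₁ * g₂) * t.out = (g₁ • g₂ • t).out⁻¹ * g₁ * (g₂ • t).out * ((g₂ • t).out⁻¹ * g₂ * t.out)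
  rw [mul_smul]
  group

theorem cocy_one (t : G ⧸ H) : cocy H 1 t = 1 := by
  apply Subtype.ext
  show ((1 : G) • t).out⁻¹ * 1 * t.out = 1
  rw [one_smul]
  group

/-- The induced monomial representation. -/
noncomputable def indR : Representation K G (G ⧸ H → K) where
  toFun g :=
    { toFun := fun f t => ((lam (cocy H g (g⁻¹ • t)) : Kˣ) : K) * f (g⁻¹ • t)
      map_add' := by
        intro a b
        funext t
        simp [mul_add]
      map_smul' := by
        intro c a
        funext t
        simp only [Pi.smul_apply, smul_eq_mul, RingHom.id_apply]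
        ring }
  map_one' := by
    refine LinearMap.ext fun f => funext fun t => ?_
    simp [cocy_one]
  map_mul' := by
    intro g₁ g₂
    refine LinearMap.ext fun f => funext fun t => ?_
    show ((lam (cocy H (g₁ * g₂) ((g₁ * g₂)⁻¹ • t)) : Kˣ) : K) * f ((g₁ * g₂)⁻¹ • t) =
      ((lam (cocy H g₁ (g₁⁻¹ • t)) : Kˣ) : K) * (((lam (cocy H g₂ (g₂⁻¹ • g₁⁻¹ • t)) : Kˣ) : K) * f (g₂⁻¹ • g₁⁻¹ • t))
    have e : (g₁ * g₂)⁻¹ • t = g₂⁻¹ • g₁⁻¹ • t := by rw [mul_inv_rev, mul_smul]
    rw [e, cocy_mul, map_mul, Units.val_mul, mul_assoc]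
    congr 3
    rw [smul_inv_smul]

theorem indR_apply (g : G) (f : G ⧸ H → K) (t : G ⧸ H) :
    indR H lam g f t = ((lam (cocy H g (g⁻¹ • t)) : Kˣ) : K) * f (g⁻¹ • t) := rfl

open Classical in
theorem trace_indR [Fintype (G ⧸ H)] (g : G) :
    (indR H lam).character g = ∑ t : G ⧸ H, if g • t = t then ((lam (cocy H g t) : Kˣ) : K) else 0 := by
  simp only [Representation.character]
  rw [LinearMap.trace_eq_matrix_trace K (Pi.basisFun K (G ⧸ H)) (indR H lam g), Matrix.trace]
  apply Finset.sum_congr rfl
  intro t _
  simp only [Matrix.diag_apply, LinearMap.toMatrix_apply, Pi.basisFun_repr, Pi.basisFun_apply, indR_apply]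
  by_cases h : g • t = t
  · have e : g⁻¹ • t = t := by
      conv_lhs => rw [← h, inv_smul_smul]
    rw [if_pos h, e]
    simp
  · have e : g⁻¹ • t ≠ t := by
      intro e1
      apply h
      conv_lhs => rw [← e1, smul_inv_smul]
    rw [if_neg h]
    simp [Pi.single_apply, e]

open Classical in
theorem sum_quot_mk' [Fintype (G ⧸ H)] (f : G ⧸ H → ℂ) :
    ∑ x : G, f (x : G ⧸ H) = (Nat.card H : ℂ) * ∑ q : G ⧸ H, f q := by
  have h1 := Finset.sum_comp (s := (Finset.univ : Finset G)) f (fun x : G => (x : G ⧸ H))
  rw [h1]
  have h2 : Finset.univ.image (fun x : G => (x : G ⧸ H)) = Finset.univ := by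
    apply Finset.eq_univ_of_forall
    intro q
    simp only [Finset.mem_image, Finset.mem_univ, true_and]
    exact QuotientGroup.mk_surjective q
  rw [h2, Finset.mul_sum]
  apply Finset.sum_congr rfl
  intro q _
  obtain ⟨y, rfl⟩ := QuotientGroup.mk_surjective q
  have h3 : (Finset.univ.filter (fun x : G => (x : G ⧸ H) = (y : G ⧸ H))).card = Nat.card H := by
    rw [← Fintype.card_subtype, ← Nat.card_eq_fintype_card]
    apply Nat.card_congr
    refine ⟨fun x => ⟨y⁻¹ * x.1, ?_⟩, fun a => ⟨y * a.1, ?_⟩, ?_, ?_⟩
    · have h4 : ((x : G) : G ⧸ H) = (y : G ⧸ H) := x.2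
      have h5 := H.inv_mem (QuotientGroup.eq.mp h4)
      simpa using h5
    · show ((y * a.1 : G) : G ⧸ H) = (y : G ⧸ H)
      rw [QuotientGroup.eq]
      simp
    · intro x
      apply Subtype.ext
      simp
    · intro a
      apply Subtype.ext
      simp
  rw [h3, nsmul_eq_mul]

open Classical in
theorem cch_indR : cch (indR H lam) = indFun H (fun e => algebraMap K ℂ ((lam e : Kˣ) : K)) := by
  haveI : Fintype (G ⧸ H) := Fintype.ofFinite _
  funext g
  set ϑ : H → ℂ := fun e => algebraMap K ℂ ((lam e : Kˣ) : K) with hϑ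
  have hcl : ∀ (a b : H), ϑ (a * b * a⁻¹) = ϑ b := by
    intro a b
    simp only [hϑ, map_mul, map_inv]
    rw [mul_comm (lam a), mul_assoc, mul_inv_cancel, mul_one]
  let F : G ⧸ H → ℂ := fun t => extendByZero H ϑ (t.out⁻¹ * g * t.out)
  have hF : ∀ x : G, extendByZero H ϑ (x⁻¹ * g * x) = F (x : G ⧸ H) := by
    intro x
    have hx : ∃ h ∈ H, x = (x : G ⧸ H).out * h := by
      refine ⟨((x : G ⧸ H).out)⁻¹ * x, ?_, by group⟩
      rw [← QuotientGroup.eq]
      exact QuotientGroup.out_eq' _
    obtain ⟨h, hh, hxh⟩ := hx
    simp only [F]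
    generalize (x : G ⧸ H).out = w at hxh ⊢
    subst hxh
    have e : (w * h)⁻¹ * g * (w * h) = h⁻¹ * (w⁻¹ * g * w) * h := by group
    rw [e]
    by_cases hy : w⁻¹ * g * w ∈ H
    · have hy' : h⁻¹ * (w⁻¹ * g * w) * h ∈ H := H.mul_mem (H.mul_mem (H.inv_mem hh) hy) hh
      rw [extendByZero_of_mem _ _ hy, extendByZero_of_mem _ _ hy']
      have := hcl ⟨h, hh⟩⁻¹ ⟨_, hy⟩
      rw [← this]
      congr 1
      apply Subtype.ext
      simp
    · have hy' : h⁻¹ * (w⁻¹ * g * w) * h ∉ H := by
        intro h2
        apply hy
        have e2 : w⁻¹ * g * w = h * (h⁻¹ * (w⁻¹ * g * w) * h) * h⁻¹ := by group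
        rw [e2]
        exact H.mul_mem (H.mul_mem hh h2) (H.inv_mem hh)
      rw [extendByZero_of_not_mem _ _ hy, extendByZero_of_not_mem _ _ hy']
  rw [indFun_apply]
  simp only [hF]
  rw [sum_quot_mk' H F, ← mul_assoc, inv_mul_cancel₀ (by exact_mod_cast Nat.card_pos.ne'), one_mul]
  simp only [cch]
  rw [trace_indR, map_sum]
  apply Finset.sum_congr rfl
  intro t _
  simp only [F]
  by_cases h : g • t = t
  · have hm := cocy_mem H g t
    rw [h] at hm
    rw [if_pos h, extendByZero_of_mem _ _ hm]
    simp only [hϑ]
    congr 3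
    apply Subtype.ext
    show (g • t).out⁻¹ * g * t.out = _
    rw [h]
  · rw [if_neg h, map_zero, extendByZero_of_not_mem]
    intro hm
    apply h
    have e1 : ((t.out⁻¹ * g * t.out : G)) ∈ H := hm
    rw [mul_assoc, ← QuotientGroup.eq] at e1
    have e2 : ((g * t.out : G) : G ⧸ H) = g • ((t.out : G) : G ⧸ H) := rfl
    rw [e2, QuotientGroup.out_eq'] at e1
    exact e1.symm

end Induced

section Final

variable {G : Type u} [Group G] [Fintype G] {K : Type} [Field K] [Algebra K ℂ]

theorem neZero_K : NeZero (Nat.card G : K) :=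
  ⟨fun h => by
    have h1 := congrArg (algebraMap K ℂ) h
    rw [map_natCast, map_zero] at h1
    exact (Nat.cast_ne_zero.mpr Nat.card_pos.ne') h1⟩

/-- The `K`-realisable functions as a submonoid. -/
def realSub (G : Type u) [Group G] [Fintype G] (K : Type) [Field K] [Algebra K ℂ] : AddSubmonoid (G → ℂ) where
  carrier := {f | ∃ (M : Type) (_ : AddCommGroup M) (_ : Module K M) (_ : FiniteDimensional K M)
    (r : Representation K G M), cch r = f}
  zero_mem' := by
    refine ⟨PUnit, inferInstance, inferInstance, inferInstance, 1, ?_⟩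
    funext g
    simp [cch, Representation.character, Module.finrank_zero_of_subsingleton]
  add_mem' := by
    rintro a b ⟨M, _, _, _, r, rfl⟩ ⟨N, _, _, _, s, rfl⟩
    refine ⟨M × N, inferInstance, inferInstance, inferInstance, r.prod s, ?_⟩
    funext g
    simp only [cch, Representation.character, Pi.add_apply]
    rw [← map_add]
    congr 1
    exact LinearMap.trace_prodMap' (r g) (s g)

/-- A coordinate form of a representation. -/
theorem exists_fin_form {M : Type*} [AddCommGroup M] [Module K M] [FiniteDimensional K M] (r : Representation K G M) :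
    ∃ (d : ℕ) (r' : Representation K G (Fin d → K)), cch r' = cch r := by
  let e := (Module.finBasis K M).equivFun
  let r' : Representation K G (Fin (finrank K M) → K) :=
    { toFun := fun g => e.toLinearMap ∘ₗ r g ∘ₗ e.symm.toLinearMap
      map_one' := by
        refine LinearMap.ext fun v => ?_
        simp
      map_mul' := by
        intro a b
        refine LinearMap.ext fun v => ?_
        simp }
  refine ⟨_, r', ?_⟩
  funext g
  simp only [cch, Representation.character]
  congr 1
  exact LinearMap.trace_conj' (r g) e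

/-- Root-of-unity valued characters of subgroups take values in `K`. -/
theorem lift_units (H : Subgroup G) (lam : H →* ℂˣ) (hmem : ∀ h, ((lam h : ℂˣ) : ℂ) ∈ (algebraMap K ℂ).range) :
    ∃ lam' : H →* Kˣ, ∀ h, algebraMap K ℂ ((lam' h : Kˣ) : K) = (lam h : ℂˣ) := by
  choose x hx using hmem
  have hinj : Function.Injective (algebraMap K ℂ) := (algebraMap K ℂ).injective
  have hx0 : ∀ h, x h ≠ 0 := by
    intro h h0
    have := hx h
    rw [h0, map_zero] at this
    exact (lam h).ne_zero this.symm
  let lam' : H →* Kˣ :=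
    { toFun := fun h => Units.mk0 (x h) (hx0 h)
      map_one' := by
        apply Units.ext
        apply hinj
        simp [hx]
      map_mul' := by
        intro a b
        apply Units.ext
        apply hinj
        simp [hx] }
  exact ⟨lam', fun h => hx h⟩

theorem ind_mem_real (H : Subgroup G) (lam : H →* ℂˣ) (hmem : ∀ h, ((lam h : ℂˣ) : ℂ) ∈ (algebraMap K ℂ).range) :
    indFun H (fun e => ((lam e : ℂˣ) : ℂ)) ∈ realSub G K := by
  classical
  haveI : Fintype (G ⧸ H) := Fintype.ofFinite _
  obtain ⟨lam', hl⟩ := lift_units H lam hmem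
  obtain ⟨d, r', hr'⟩ := exists_fin_form (indR H lam')
  refine ⟨Fin d → K, inferInstance, inferInstance, inferInstance, r', ?_⟩
  rw [hr', cch_indR]
  simp only [hl]

end Final

section Main

variable {G : Type u} [Group G] [Finite G]

set_option maxHeartbeats 1000000 in
/-- Brauer's splitting field theorem. -/
theorem s0166 (n : ℕ) (ρ : Representation ℂ G (Fin n → ℂ)) :
    ∃ σ : Representation ℂ G (Fin n → ℂ), Nonempty (ρ.Equiv σ) ∧
      ∀ g : G, ∀ i j : Fin n, LinearMap.toMatrix' (σ g) i j ∈
        Algebra.adjoin ℚ ({Complex.exp (2 * Real.pi * Complex.I / (Monoid.exponent G : ℂ))} : Set ℂ) := by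
  classical
  haveI := Fintype.ofFinite G
  have hm : Monoid.exponent G ≠ 0 := Monoid.exponent_ne_zero_of_finite
  generalize hζdef : Complex.exp (2 * Real.pi * Complex.I / (Monoid.exponent G : ℂ)) = ζ
  have hζ : IsPrimitiveRoot ζ (Monoid.exponent G) := by
    rw [← hζdef]
    exact Complex.isPrimitiveRoot_exp _ hm
  have hint : IsIntegral ℚ ζ := by
    apply IsIntegral.of_pow (Nat.pos_of_ne_zero hm)
    rw [hζ.pow_eq_one]
    exact isIntegral_one
  let K : IntermediateField ℚ ℂ := IntermediateField.adjoin ℚ {ζ}
  have hK : ∀ x : K, (x : ℂ) ∈ Algebra.adjoin ℚ ({ζ} : Set ℂ) := by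
    intro x
    have h := IntermediateField.adjoin_simple_toSubalgebra_of_isAlgebraic hint.isAlgebraic
    rw [← h]
    exact x.2
  have hroot : ∀ x : ℂ, x ^ Monoid.exponent G = 1 → x ∈ (algebraMap K ℂ).range := by
    intro x hx
    obtain ⟨i, hi, rfl⟩ := hζ.eq_pow_of_pow_eq_one hx
    have hζK : ζ ∈ K := IntermediateField.mem_adjoin_simple_self ℚ ζ
    refine ⟨(⟨ζ, hζK⟩ : K) ^ i, ?_⟩
    rfl
  haveI : NeZero (Nat.card G : K) := neZero_K
  have hirr : ∀ χ, IsIrrCharacter G χ → χ ∈ realSub G K := by
    intro χ hχ
    apply exists_real hχ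
    obtain ⟨l, hl, hχl⟩ := Cfsg.Agent.Lib.CharBrauer2.brauer_induction (IsIrrCharacter.isCharacter hχ)
    rw [hχl]
    apply list_sum_mem
    intro f hf
    obtain ⟨t, -, rfl⟩ := List.mem_map.mp hf
    have h1 : indFun t.1 (fun e => ((t.2.1 e : ℂˣ) : ℂ)) ∈ realSub G K := by
      apply ind_mem_real
      intro h
      apply hroot
      rw [← Units.val_pow_eq_pow_val, ← map_pow]
      have : h ^ Monoid.exponent G = 1 := by
        apply Subtype.ext
        exact Monoid.pow_exponent_eq_one (h : G)
      rw [this, map_one, Units.val_one]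
    have h2 : ((t.2.2 : ℤ) : ℂ) • indFun t.1 (fun e => ((t.2.1 e : ℂˣ) : ℂ)) = t.2.2 • indFun t.1 (fun e => ((t.2.1 e : ℂˣ) : ℂ)) := by
      funext g
      simp
    rw [h2]
    exact AddSubgroup.zsmul_mem _ (AddSubgroup.subset_closure h1) _
  have hρ : ρ.character ∈ realSub G K := by
    obtain ⟨c, hc⟩ := IsCharacter.exists_nat_coeff (isCharacter_character ρ)
    rw [hc]
    apply sum_mem
    intro ψ _
    rw [Nat.cast_smul_eq_nsmul ℂ]
    exact nsmul_mem (hirr _ ψ.2) _
  obtain ⟨M, _, _, _, r, hr⟩ := hρ
  have hfin : finrank K M = n := by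
    have h1 := congrFun hr 1
    simp only [cch, Representation.char_one, map_natCast, Module.finrank_fin_fun] at h1
    exact_mod_cast h1
  let b : Module.Basis (Fin n) K M := Module.finBasisOfFinrankEq K M hfin
  let σ : Representation ℂ G (Fin n → ℂ) :=
    { toFun := fun g => Matrix.toLin' ((LinearMap.toMatrix b b (r g)).map (algebraMap K ℂ))
      map_one' := by
        rw [map_one, LinearMap.toMatrix_one, Matrix.map_one _ (map_zero _) (map_one _), Matrix.toLin'_one]
        rfl
      map_mul' := by
        intro x y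
        rw [map_mul, LinearMap.toMatrix_mul, Matrix.map_mul, Matrix.toLin'_mul]
        rfl }
  have hσ : ∀ g, σ g = Matrix.toLin' ((LinearMap.toMatrix b b (r g)).map (algebraMap K ℂ)) := fun g => rfl
  refine ⟨σ, ?_, ?_⟩
  · apply Cfsg.Agent.Lib.CharMisc2.equiv_of_character_eq
    funext g
    rw [← hr]
    simp only [cch, Representation.character, hσ]
    rw [Matrix.trace_toLin'_eq, LinearMap.trace_eq_matrix_trace K b (r g), Matrix.trace, Matrix.trace, map_sum]
    rfl
  · intro g i j
    rw [hσ, LinearMap.toMatrix'_toLin', Matrix.map_apply]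
    exact hK _

end Main

end Cfsg.Agent.Lib.CharSplit
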