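import Cfsg.Prelude.Def_LieExceptional
import Mathlib

/-!
# Elementary facts on Zassenhaus groups.
-/

set_option autoImplicit false
set_option linter.unusedVariables false
set_option linter.unusedSectionVars false
set_option linter.style.longLine false

open Cfsg

universe u v

namespace Cfsg.Agent.Lib.CharZass

variable {G : Type u} {Ω : Type v} [Group G] [Fintype G] [MulAction G Ω] [Fintype Ω]

open Classical in
theorem zass_card (h3 : ∀ g : G, ∀ a b c : Ω, a ≠ b → b ≠ c → a ≠ c → g • a = a → g • b = b → g • c = c → g = 1)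
    (a : Ω) (H : Subgroup G) (hHa : H ≤ MulAction.stabilizer G a)
    (hHcard : Nat.card H + 1 = Fintype.card Ω) (hHfix : ∀ u ∈ H, u ≠ 1 → ∀ c : Ω, u • c = c → c = a) :
    ∀ g : G, g • a = a → (g = 1 ∨ ∀ c : Ω, g • c = c → c = a) → g ∈ H := by
  let K : Finset G := Finset.univ.filter (fun g => g • a = a)
  let X : Finset Ω := Finset.univ.filter (fun c => c ≠ a)
  let HF : Finset G := Finset.univ.filter (fun g => g ∈ H)
  let S : Finset G := K.filter (fun g => g = 1 ∨ ∀ c : Ω, g • c = c → c = a)
  let T : Finset G := K.filter (fun g => ¬ (g = 1 ∨ ∀ c : Ω, g • c = c → c = a))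
  let E : Ω → Finset G := fun c => K.filter (fun g => g • c = c)
  have hX : X.card + 1 = Fintype.card Ω := by
    have h1 : X = Finset.univ.erase a := by
      ext c
      simp [X]
    rw [h1, Finset.card_erase_of_mem (Finset.mem_univ a), Finset.card_univ]
    have : 0 < Fintype.card Ω := Fintype.card_pos_iff.mpr ⟨a⟩
    omega
  have hHF : HF.card = Nat.card H := by
    rw [Nat.card_eq_fintype_card, Fintype.card_subtype]
  have hHX : HF.card = X.card := by omega
  have hfree : ∀ c ∈ X, ∀ w ∈ HF, ∀ w' ∈ HF, w • c = w' • c → w = w' := by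
    intro c hc w hw w' hw' h
    have hw1 : w ∈ H := (Finset.mem_filter.mp hw).2
    have hw2 : w' ∈ H := (Finset.mem_filter.mp hw').2
    have hc' : c ≠ a := (Finset.mem_filter.mp hc).2
    by_contra hne
    have h1 : w'⁻¹ * w ≠ 1 := by
      intro h2
      exact hne (inv_mul_eq_one.mp h2).symm
    apply hc'
    apply hHfix _ (H.mul_mem (H.inv_mem hw2) hw1) h1
    rw [mul_smul, h, inv_smul_smul]
  have htrans : ∀ c ∈ X, ∀ d ∈ X, ∃ w ∈ HF, w • c = d := by
    intro c hc d hd
    have h1 : HF.image (fun w => w • c) = X := by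
      apply Finset.eq_of_subset_of_card_le
      · intro y hy
        obtain ⟨w, hw, rfl⟩ := Finset.mem_image.mp hy
        have hw1 : w ∈ H := (Finset.mem_filter.mp hw).2
        have hwa : w • a = a := hHa hw1
        simp only [X, Finset.mem_filter, Finset.mem_univ, true_and]
        intro h2
        have hc' : c ≠ a := (Finset.mem_filter.mp hc).2
        apply hc'
        have : w • c = w • a := by rw [h2, hwa]
        exact smul_left_cancel w this
      · rw [Finset.card_image_of_injOn]
        · exact hHX.ge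
        · intro w hw w' hw' h
          exact hfree c hc w hw w' hw' h
    rw [← h1] at hd
    obtain ⟨w, hw, hh⟩ := Finset.mem_image.mp hd
    exact ⟨w, hw, hh⟩
  have hE : ∀ c ∈ X, HF.card * (E c).card = K.card := by
    intro c hc
    rw [← Finset.card_product]
    apply Finset.card_bij (fun (p : G × G) _ => p.1 * p.2)
    · rintro ⟨w, x⟩ hp
      obtain ⟨hw, hx⟩ := Finset.mem_product.mp hp
      have hw1 : w ∈ H := (Finset.mem_filter.mp hw).2
      have hwa : w • a = a := hHa hw1
      have hxa : x • a = a := (Finset.mem_filter.mp (Finset.mem_filter.mp hx).1).2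
      simp only [K, Finset.mem_filter, Finset.mem_univ, true_and]
      rw [mul_smul, hxa, hwa]
    · rintro ⟨w, x⟩ hp ⟨w', x'⟩ hp' h
      obtain ⟨hw, hx⟩ := Finset.mem_product.mp hp
      obtain ⟨hw', hx'⟩ := Finset.mem_product.mp hp'
      have hxc : x • c = c := (Finset.mem_filter.mp hx).2
      have hxc' : x' • c = c := (Finset.mem_filter.mp hx').2
      simp only at h
      have h1 : w • c = w' • c := by
        have := congrArg (fun g : G => g • c) h
        simpa [mul_smul, hxc, hxc'] using this
      have h2 := hfree c hc w hw w' hw' h1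
      subst h2
      have h3 := mul_left_cancel h
      rw [h3]
    · intro g hg
      have hga : g • a = a := (Finset.mem_filter.mp hg).2
      have hgc : g • c ∈ X := by
        simp only [X, Finset.mem_filter, Finset.mem_univ, true_and]
        intro h2
        have hc' : c ≠ a := (Finset.mem_filter.mp hc).2
        apply hc'
        have : g • c = g • a := by rw [h2, hga]
        exact smul_left_cancel g this
      obtain ⟨w, hw, hwc⟩ := htrans c hc _ hgc
      have hw1 : w ∈ H := (Finset.mem_filter.mp hw).2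
      have hwa : w • a = a := hHa hw1
      refine ⟨(w, w⁻¹ * g), ?_, by simp⟩
      refine Finset.mem_product.mpr ⟨hw, ?_⟩
      simp only [E, K, Finset.mem_filter, Finset.mem_univ, true_and]
      constructor
      · rw [mul_smul, hga, inv_smul_eq_iff, hwa]
      · rw [mul_smul, inv_smul_eq_iff, hwc]
  have hone : ∀ c, (1 : G) ∈ E c := by
    intro c
    simp [E, K]
  have hTeq : T = X.biUnion (fun c => (E c).erase 1) := by
    ext g
    simp only [T, Finset.mem_biUnion, Finset.mem_erase, Finset.mem_filter, E, K, X, Finset.mem_univ, true_and]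
    constructor
    · rintro ⟨hg, h2⟩
      push Not at h2
      obtain ⟨h2, c, hc, hca⟩ := h2
      exact ⟨c, hca, h2, hg, hc⟩
    · rintro ⟨c, hca, h2, hg, hc⟩
      refine ⟨hg, ?_⟩
      push Not
      exact ⟨h2, c, hc, hca⟩
  have hTcard : T.card + HF.card = K.card := by
    rw [hTeq, Finset.card_biUnion]
    · by_cases hXe : X = ∅
      · have h0 : HF.card = 0 := by rw [hHX, hXe]; simp
        have : (1 : G) ∈ HF := by simp [HF, H.one_mem]
        rw [Finset.card_eq_zero] at h0
        rw [h0] at this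
        simp at this
      obtain ⟨c₀, hc₀⟩ := Finset.nonempty_iff_ne_empty.mpr hXe
      have hsum : ∑ u ∈ X, ((E u).erase 1).card = X.card * ((E c₀).card - 1) := by
        rw [Finset.sum_const_nat]
        intro c hc
        rw [Finset.card_erase_of_mem (hone c)]
        have h1 := hE c hc
        have h2 := hE c₀ hc₀
        have hpos : 0 < HF.card := Finset.card_pos.mpr ⟨1, by simp [HF, H.one_mem]⟩
        have h3 : (E c).card = (E c₀).card := by
          apply Nat.eq_of_mul_eq_mul_left hpos
          rw [h1, h2]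
        rw [h3]
      rw [hsum, ← hE c₀ hc₀, hHX]
      have h1 : 0 < (E c₀).card := Finset.card_pos.mpr ⟨1, hone c₀⟩
      obtain ⟨k, hk⟩ : ∃ k, (E c₀).card = k + 1 := ⟨(E c₀).card - 1, by omega⟩
      rw [hk]
      simp only [Nat.add_sub_cancel]
      ring
    · intro c hc d hd hcd
      rw [Function.onFun, Finset.disjoint_left]
      intro g hg hg'
      obtain ⟨hg1, hg2⟩ := Finset.mem_erase.mp hg
      obtain ⟨hg3, hg4⟩ := Finset.mem_erase.mp hg'
      apply hg1
      have hca : c ≠ a := (Finset.mem_filter.mp hc).2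
      have hda : d ≠ a := (Finset.mem_filter.mp hd).2
      exact h3 g a c d hca.symm hcd hda.symm (Finset.mem_filter.mp (Finset.mem_filter.mp hg2).1).2
        (Finset.mem_filter.mp hg2).2 (Finset.mem_filter.mp hg4).2
  have hSTcard : S.card + T.card = K.card := Finset.card_filter_add_card_filter_not _
  have hsub : HF ⊆ S := by
    intro u hu
    have hu1 : u ∈ H := (Finset.mem_filter.mp hu).2
    have hua : u • a = a := hHa hu1
    simp only [S, K, Finset.mem_filter, Finset.mem_univ, true_and]
    refine ⟨hua, ?_⟩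
    by_cases h1 : u = 1
    · exact Or.inl h1
    · exact Or.inr (hHfix u hu1 h1)
  have hSeq : HF = S := by
    apply Finset.eq_of_subset_of_card_le hsub
    omega
  intro g hga hg
  have hgS : g ∈ S := by
    simp only [S, K, Finset.mem_filter, Finset.mem_univ, true_and]
    exact ⟨hga, hg⟩
  rw [← hSeq] at hgS
  exact (Finset.mem_filter.mp hgS).2

theorem s0878 (hZ : IsZassenhausGroup G Ω) (a : Ω) (H : Subgroup G) (hHa : H ≤ MulAction.stabilizer G a)
    (hHcard : Nat.card H + 1 = Fintype.card Ω) (hHfix : ∀ u ∈ H, u ≠ 1 → ∀ c : Ω, u • c = c → c = a) :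
    (∀ g : G, g ∉ MulAction.stabilizer G a → ∀ u ∈ H, g * u * g⁻¹ ∈ H → u = 1) ∧
      Subgroup.normalizer (H : Set G) = MulAction.stabilizer G a := by
  classical
  obtain ⟨hfaith, h2, h3, ⟨g₀, hg₀, a₀, b₀, hab₀, hga₀, hgb₀⟩, -⟩ := hZ
  have hmain : ∀ g : G, g ∉ MulAction.stabilizer G a → ∀ u ∈ H, g * u * g⁻¹ ∈ H → u = 1 := by
    intro g hg u hu hv
    by_contra hu1
    apply hg
    have hv1 : g * u * g⁻¹ ≠ 1 := by
      intro h
      apply hu1
      have := congrArg (fun x => g⁻¹ * x * g) h
      simpa [mul_assoc] using this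
    apply hHfix _ hv hv1
    have hua : u • a = a := hHa hu
    simp [mul_smul, hua]
  refine ⟨hmain, ?_⟩
  apply le_antisymm
  · intro g hg
    by_contra hga
    -- `H` is nontrivial
    have hΩ : 3 ≤ Fintype.card Ω := by
      obtain ⟨c, hc⟩ : ∃ c : Ω, g₀ • c ≠ c := by
        by_contra h
        push Not at h
        apply hg₀
        exact FaithfulSMul.eq_of_smul_eq_smul (fun c => by rw [one_smul]; exact h c)
      have hca : c ≠ a₀ := by
        rintro rfl
        exact hc hga₀
      have hcb : c ≠ b₀ := by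
        rintro rfl
        exact hc hgb₀
      have : ({a₀, b₀, c} : Finset Ω).card = 3 := by
        rw [Finset.card_eq_three]
        exact ⟨a₀, b₀, c, hab₀, hca.symm, hcb.symm, rfl⟩
      rw [← this]
      exact Finset.card_le_univ _
    have hHc : 1 < Nat.card H := by omega
    haveI := Finite.one_lt_card_iff_nontrivial.mp hHc
    obtain ⟨u, hu⟩ := exists_ne (1 : H)
    have hu1 : (u : G) ≠ 1 := fun h => hu (Subtype.ext h)
    have hv : g * u * g⁻¹ ∈ H := (Subgroup.mem_normalizer_iff.mp hg u).mp u.2
    exact hu1 (hmain g hga u u.2 hv)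
  · intro g hg
    rw [Subgroup.mem_normalizer_iff]
    have hga : g • a = a := hg
    have hkey : ∀ g : G, g • a = a → ∀ u ∈ H, g * u * g⁻¹ ∈ H := by
      intro g hga u hu
      have hua : u • a = a := hHa hu
      have hfix := zass_card h3 a H hHa hHcard hHfix (g * u * g⁻¹)
      apply hfix
      · simp [mul_smul]
        rw [inv_smul_eq_iff.mpr hga.symm, hua, hga]
      · by_cases h1 : u = 1
        · left
          simp [h1]
        · right
          intro c hc
          have h5 : g⁻¹ • a = a := inv_smul_eq_iff.mpr hga.symm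
          have h4 : u • (g⁻¹ • c) = g⁻¹ • c := by
            have := congrArg (fun x => g⁻¹ • x) hc
            simpa [mul_smul] using this
          have h6 := hHfix u hu h1 _ h4
          have : c = g • a := by rw [← h6, smul_inv_smul]
          rw [this, hga]
    intro u
    constructor
    · exact hkey g hga u
    · intro hu
      have h5 : g⁻¹ • a = a := inv_smul_eq_iff.mpr hga.symm
      have := hkey g⁻¹ h5 _ hu
      simpa [mul_assoc] using this

theorem s0879 (hZ : IsZassenhausGroup G Ω) {a b : Ω} (hab : a ≠ b) :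
    (∀ g : G, g ∉ Subgroup.normalizer ((MulAction.stabilizer G a ⊓ MulAction.stabilizer G b : Subgroup G) : Set G) →
      ∀ x ∈ (MulAction.stabilizer G a ⊓ MulAction.stabilizer G b : Subgroup G),
        g * x * g⁻¹ ∈ (MulAction.stabilizer G a ⊓ MulAction.stabilizer G b : Subgroup G) → x = 1) ∧
    ((MulAction.stabilizer G a ⊓ MulAction.stabilizer G b : Subgroup G).subgroupOf
      (Subgroup.normalizer ((MulAction.stabilizer G a ⊓ MulAction.stabilizer G b : Subgroup G) : Set G))).index = 2 := by
  classical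
  obtain ⟨hfaith, h2, h3, ⟨g₀, hg₀, a₀, b₀, hab₀, hga₀, hgb₀⟩, -⟩ := hZ
  rw [MulAction.is_two_pretransitive_iff] at h2
  set E : Subgroup G := MulAction.stabilizer G a ⊓ MulAction.stabilizer G b with hE
  have hmemE : ∀ x : G, x ∈ E ↔ x • a = a ∧ x • b = b := by
    intro x
    simp [hE, MulAction.mem_stabilizer_iff]
  -- three fixed points are impossible
  have hfix2 : ∀ x : G, x ≠ 1 → x • a = a → x • b = b → ∀ c, x • c = c → c = a ∨ c = b := by
    intro x hx h1 h4 c hc
    by_contra h
    push Not at h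
    exact hx (h3 x a b c hab h.2.symm h.1.symm h1 h4 hc)
  -- an element mapping the pair into the pair
  have hset : ∀ g : G, ∀ x ∈ E, x ≠ 1 → g * x * g⁻¹ ∈ E → (g • a = a ∧ g • b = b) ∨ (g • a = b ∧ g • b = a) := by
    intro g x hx hx1 hv
    obtain ⟨h1, h4⟩ := (hmemE x).mp hx
    obtain ⟨h5, h6⟩ := (hmemE _).mp hv
    have hv1 : g * x * g⁻¹ ≠ 1 := by
      intro h
      apply hx1
      have := congrArg (fun y => g⁻¹ * y * g) h
      simpa [mul_assoc] using this
    have h7 : (g * x * g⁻¹) • (g • a) = g • a := by simp [mul_smul, h1]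
    have h8 : (g * x * g⁻¹) • (g • b) = g • b := by simp [mul_smul, h4]
    have h9 := hfix2 _ hv1 h5 h6 _ h7
    have h10 := hfix2 _ hv1 h5 h6 _ h8
    have hne : g • a ≠ g • b := fun h => hab (smul_left_cancel g h)
    rcases h9 with h9 | h9 <;> rcases h10 with h10 | h10
    · exact absurd (h9.trans h10.symm) hne
    · exact Or.inl ⟨h9, h10⟩
    · exact Or.inr ⟨h9, h10⟩
    · exact absurd (h9.trans h10.symm) hne
  -- the normalizer contains the pair stabilizer
  have hnorm : ∀ g : G, ((g • a = a ∧ g • b = b) ∨ (g • a = b ∧ g • b = a)) → g ∈ Subgroup.normalizer (E : Set G) := by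
    intro g hg
    rw [Subgroup.mem_normalizer_iff]
    have hinv : (g⁻¹ • a = a ∧ g⁻¹ • b = b) ∨ (g⁻¹ • a = b ∧ g⁻¹ • b = a) := by
      rcases hg with ⟨h1, h4⟩ | ⟨h1, h4⟩
      · left
        exact ⟨inv_smul_eq_iff.mpr h1.symm, inv_smul_eq_iff.mpr h4.symm⟩
      · right
        exact ⟨inv_smul_eq_iff.mpr h4.symm, inv_smul_eq_iff.mpr h1.symm⟩
    intro x
    constructor
    · intro hx
      obtain ⟨h1, h4⟩ := (hmemE x).mp hx
      rw [hmemE]
      rcases hinv with ⟨h5, h6⟩ | ⟨h5, h6⟩
      · simp only [mul_smul]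
        rw [h5, h6, h1, h4]
        rcases hg with ⟨h7, h8⟩ | ⟨h7, h8⟩
        · exact ⟨h7, h8⟩
        · exact absurd (h5.symm.trans (inv_smul_eq_iff.mpr h8.symm)) hab
      · simp only [mul_smul]
        rw [h5, h6, h1, h4]
        rcases hg with ⟨h7, h8⟩ | ⟨h7, h8⟩
        · exact absurd (h5.symm.trans (inv_smul_eq_iff.mpr h7.symm)) hab.symm
        · exact ⟨h8, h7⟩
    · intro hx
      obtain ⟨h1, h4⟩ := (hmemE _).mp hx
      rw [hmemE]
      simp only [mul_smul] at h1 h4
      rcases hg with ⟨h7, h8⟩ | ⟨h7, h8⟩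
      · rw [inv_smul_eq_iff.mpr h7.symm] at h1
        rw [inv_smul_eq_iff.mpr h8.symm] at h4
        constructor
        · exact smul_left_cancel g (h1.trans h7.symm)
        · exact smul_left_cancel g (h4.trans h8.symm)
      · rw [inv_smul_eq_iff.mpr h8.symm] at h1
        rw [inv_smul_eq_iff.mpr h7.symm] at h4
        constructor
        · exact smul_left_cancel g (h4.trans h7.symm)
        · exact smul_left_cancel g (h1.trans h8.symm)
  constructor
  · intro g hg x hx hv
    by_contra hx1
    exact hg (hnorm g (hset g x hx hx1 hv))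
  · -- `E` is nontrivial
    obtain ⟨t₀, ht₀, ht₀'⟩ := h2 hab₀ hab
    let x₀ := t₀ * g₀ * t₀⁻¹
    have hx₀ : x₀ ∈ E := by
      rw [hmemE]
      constructor
      · rw [← ht₀]
        simp [x₀, mul_smul, hga₀]
      · rw [← ht₀']
        simp [x₀, mul_smul, hgb₀]
    have hx₀1 : x₀ ≠ 1 := by
      intro h
      apply hg₀
      have := congrArg (fun y => t₀⁻¹ * y * t₀) h
      simpa [x₀, mul_assoc] using this
    -- `N(E)` is the pair stabilizer
    have hnormiff : ∀ g : G, g ∈ Subgroup.normalizer (E : Set G) → (g • a = a ∧ g • b = b) ∨ (g • a = b ∧ g • b = a) := by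
      intro g hg
      exact hset g x₀ hx₀ hx₀1 ((Subgroup.mem_normalizer_iff.mp hg x₀).mp hx₀)
    obtain ⟨t, ht, ht'⟩ := h2 hab hab.symm
    have htN : t ∈ Subgroup.normalizer (E : Set G) := hnorm t (Or.inr ⟨ht, ht'⟩)
    rw [Subgroup.index_eq_two_iff]
    refine ⟨⟨t, htN⟩, ?_⟩
    rintro ⟨n, hn⟩
    simp only [Subgroup.mem_subgroupOf, Subgroup.coe_mul]
    rcases hnormiff n hn with ⟨h1, h4⟩ | ⟨h1, h4⟩
    · right
      refine ⟨(hmemE n).mpr ⟨h1, h4⟩, ?_⟩
      rw [hmemE]
      rintro ⟨h5, -⟩
      rw [mul_smul, ht, h4] at h5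
      exact hab h5.symm
    · left
      refine ⟨?_, ?_⟩
      · rw [hmemE]
        constructor
        · rw [mul_smul, ht, h4]
        · rw [mul_smul, ht', h1]
      · rw [hmemE]
        rintro ⟨h5, -⟩
        exact hab (h5.symm.trans h1)

end Cfsg.Agent.Lib.CharZass
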