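import Cfsg.Agent.Lib.CharZass
import Cfsg.Agent.Lib.CharCN2
import Cfsg.Agent.Lib.H1FC
import Cfsg.Agent.Lib.H1FrobThm
import Cfsg.Agent.Lib.InvolSylow
import Cfsg.Agent.Lib.PNilp
import Cfsg.Agent.Lib.SylowTools

/-!
# Zassenhaus groups with two-point stabilizers of odd order: counting and fusion
-/

set_option autoImplicit false
set_option linter.unusedVariables false
set_option linter.unusedSectionVars false
set_option linter.style.longLine false

open Cfsg
open scoped Pointwise commutatorElement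
open Cfsg.Agent.Lib.CharBasic Cfsg.Agent.Lib.CharOrth Cfsg.Agent.Lib.CharAlg Cfsg.Agent.Lib.CharInd
open Cfsg.Agent.Lib.CharLin

universe u v

namespace Cfsg.Agent.Lib.CharZass2

section Count

variable {G : Type u} {Ω : Type v} [Group G] [Fintype G] [MulAction G Ω] [Fintype Ω]

/-- The two-point stabilizer. -/
abbrev EE (G : Type u) {Ω : Type v} [Group G] [MulAction G Ω] (a b : Ω) : Subgroup G :=
  MulAction.stabilizer G a ⊓ MulAction.stabilizer G b

omit [Fintype G] [Fintype Ω] in
theorem mem_EE {a b : Ω} {x : G} : x ∈ EE G a b ↔ x • a = a ∧ x • b = b := by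
  simp [EE, Subgroup.mem_inf, MulAction.mem_stabilizer_iff]

/-- The transitivity hypotheses. -/
structure ZH (G : Type u) (Ω : Type v) [Group G] [MulAction G Ω] : Prop where
  two : ∀ a b c d : Ω, a ≠ b → c ≠ d → ∃ g : G, g • a = c ∧ g • b = d
  three : ∀ g : G, ∀ a b c : Ω, a ≠ b → b ≠ c → a ≠ c → g • a = a → g • b = b → g • c = c → g = 1

omit [Fintype G] [Fintype Ω] in
theorem zh_of (hZ : IsZassenhausGroup G Ω) : ZH G Ω := by
  obtain ⟨hfaith, h2, h3, -, -⟩ := hZ
  rw [MulAction.is_two_pretransitive_iff] at h2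
  exact ⟨fun a b c d hab hcd => by
    obtain ⟨g, hg⟩ := h2 hab hcd
    exact ⟨g, hg⟩, h3⟩

variable (hz : ZH G Ω)
include hz

open Classical in
theorem fiber_card {a b c d : Ω} (hab : a ≠ b) (hcd : c ≠ d) :
    (Finset.univ.filter (fun g : G => g • a = c ∧ g • b = d)).card = Nat.card (EE G a b) := by
  obtain ⟨g₀, h1, h2⟩ := hz.two a b c d hab hcd
  rw [Nat.card_eq_fintype_card, Fintype.card_subtype]
  symm
  apply Finset.card_bij (fun x _ => g₀ * x)
  · intro x hx
    have hx' := mem_EE.mp (Finset.mem_filter.mp hx).2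
    refine Finset.mem_filter.mpr ⟨Finset.mem_univ _, ?_, ?_⟩
    · rw [mul_smul, hx'.1, h1]
    · rw [mul_smul, hx'.2, h2]
  · intro x _ y _ hxy
    exact mul_left_cancel hxy
  · intro y hy
    have hy' := (Finset.mem_filter.mp hy).2
    refine ⟨g₀⁻¹ * y, Finset.mem_filter.mpr ⟨Finset.mem_univ _, mem_EE.mpr ⟨?_, ?_⟩⟩, by group⟩
    · rw [mul_smul, hy'.1, ← h1, inv_smul_smul]
    · rw [mul_smul, hy'.2, ← h2, inv_smul_smul]

open Classical in
theorem card_group {a b : Ω} (hab : a ≠ b) :
    Nat.card G = Fintype.card Ω * (Fintype.card Ω - 1) * Nat.card (EE G a b) := by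
  have h1 := Finset.card_eq_sum_card_fiberwise (s := (Finset.univ : Finset G))
    (t := (Finset.univ : Finset Ω).offDiag) (f := fun g => (g • a, g • b)) (by
      intro g _
      simp only [Finset.coe_offDiag, Set.mem_offDiag]
      refine ⟨by simp, by simp, fun h => hab ?_⟩
      exact smul_left_cancel g h)
  have h2 : ∀ p ∈ (Finset.univ : Finset Ω).offDiag,
      ((Finset.univ : Finset G).filter (fun g => (g • a, g • b) = p)).card = Nat.card (EE G a b) := by
    rintro ⟨c, d⟩ hp
    have hcd : c ≠ d := (Finset.mem_offDiag.mp hp).2.2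
    rw [← fiber_card hz hab hcd]
    congr 1
    ext g
    simp [Prod.ext_iff]
  rw [Finset.sum_congr rfl h2, Finset.sum_const, Finset.offDiag_card] at h1
  simp only [Finset.card_univ] at h1
  rw [Nat.card_eq_fintype_card, h1, smul_eq_mul, Nat.mul_sub_one]

theorem card_EE_eq {a b c d : Ω} (hab : a ≠ b) (hcd : c ≠ d) : Nat.card (EE G c d) = Nat.card (EE G a b) := by
  obtain ⟨g₀, h1, h2⟩ := hz.two a b c d hab hcd
  have : (EE G a b).map (MulAut.conj g₀).toMonoidHom = EE G c d := by
    ext x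
    constructor
    · rintro ⟨y, hy, rfl⟩
      have hy' := mem_EE.mp hy
      refine mem_EE.mpr ⟨?_, ?_⟩
      · simp [MulAut.conj_apply, mul_smul, ← h1, hy'.1]
      · simp [MulAut.conj_apply, mul_smul, ← h2, hy'.2]
    · intro hx
      have hx' := mem_EE.mp hx
      refine ⟨g₀⁻¹ * x * g₀, mem_EE.mpr ⟨?_, ?_⟩, by simp [MulAut.conj_apply, mul_assoc]⟩
      · rw [mul_smul, mul_smul, h1, hx'.1, ← h1, inv_smul_smul]
      · rw [mul_smul, mul_smul, h2, hx'.2, ← h2, inv_smul_smul]
  rw [← this]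
  exact Subgroup.card_map_of_injective (MulAut.conj g₀).injective

open Classical in
theorem card_stab {a b : Ω} (hab : a ≠ b) (c : Ω) :
    (Finset.univ.filter (fun g : G => g • c = c)).card = (Fintype.card Ω - 1) * Nat.card (EE G a b) := by
  -- choose a second point
  obtain ⟨b', hb'⟩ : ∃ b' : Ω, c ≠ b' := by
    by_cases h : c = a
    · exact ⟨b, h ▸ hab⟩
    · exact ⟨a, h⟩
  have hEE : Nat.card (EE G c b') = Nat.card (EE G a b) := card_EE_eq hz hab hb'
  have h1 := Finset.card_eq_sum_card_fiberwise (s := (Finset.univ.filter (fun g : G => g • c = c)))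
    (t := (Finset.univ : Finset Ω).erase c) (f := fun g => g • b') (by
      intro g hg
      have hg' : g • c = c := (Finset.mem_filter.mp hg).2
      simp only [Finset.coe_erase, Finset.coe_univ, Set.mem_sdiff, Set.mem_univ, true_and, Set.mem_singleton_iff]
      intro h
      apply hb'
      apply smul_left_cancel g
      rw [hg', h])
  have h2 : ∀ d ∈ (Finset.univ : Finset Ω).erase c,
      ((Finset.univ.filter (fun g : G => g • c = c)).filter (fun g => g • b' = d)).card = Nat.card (EE G a b) := by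
    intro d hd
    have hcd : c ≠ d := (Finset.ne_of_mem_erase hd).symm
    rw [← hEE, ← fiber_card hz hb' hcd, Finset.filter_filter]
  rw [Finset.sum_congr rfl h2, Finset.sum_const, Finset.card_erase_of_mem (Finset.mem_univ c), Finset.card_univ, smul_eq_mul] at h1
  exact h1

open Classical in
/-- Number of fixed points. -/
noncomputable def fix (G : Type u) {Ω : Type v} [Group G] [MulAction G Ω] [Fintype Ω] (g : G) : ℕ :=
  (Finset.univ.filter (fun c : Ω => g • c = c)).card

open Classical in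
theorem sum_fix {a b : Ω} (hab : a ≠ b) :
    ∑ g : G, (fix G (Ω := Ω) g : ℤ) = (Nat.card G : ℤ) := by
  have h1 : ∀ g : G, (fix G (Ω := Ω) g : ℤ) = ∑ c : Ω, (if g • c = c then 1 else 0) := by
    intro g
    rw [fix, Finset.natCast_card_filter]
  simp only [h1]
  rw [Finset.sum_comm]
  have h2 : ∀ c : Ω, ∑ g : G, (if g • c = c then (1 : ℤ) else 0) = ((Fintype.card Ω - 1) * Nat.card (EE G a b) : ℕ) := by
    intro c
    rw [← card_stab hz hab c, Finset.natCast_card_filter]
  simp only [h2]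
  rw [Finset.sum_const, Finset.card_univ, card_group hz hab]
  simp [mul_assoc]

open Classical in
theorem sum_fix_sq {a b : Ω} (hab : a ≠ b) :
    ∑ g : G, (fix G (Ω := Ω) g : ℤ) ^ 2 = 2 * (Nat.card G : ℤ) := by
  have h1 : ∀ g : G, (fix G (Ω := Ω) g : ℤ) ^ 2 = ∑ c : Ω, ∑ d : Ω, (if g • c = c ∧ g • d = d then 1 else 0) := by
    intro g
    have : (fix G (Ω := Ω) g : ℤ) = ∑ c : Ω, (if g • c = c then 1 else 0) := by
      rw [fix, Finset.natCast_card_filter]
    rw [pow_two, this, Finset.sum_mul_sum]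
    apply Finset.sum_congr rfl
    intro c _
    apply Finset.sum_congr rfl
    intro d _
    split_ifs <;> simp_all
  simp only [h1]
  rw [Finset.sum_comm]
  have h2 : ∀ c : Ω, ∑ g : G, ∑ d : Ω, (if g • c = c ∧ g • d = d then (1 : ℤ) else 0) =
      (2 * ((Fintype.card Ω - 1) * Nat.card (EE G a b)) : ℕ) := by
    intro c
    rw [Finset.sum_comm]
    have h3 : ∀ d : Ω, ∑ g : G, (if g • c = c ∧ g • d = d then (1 : ℤ) else 0) =
        if d = c then (((Fintype.card Ω - 1) * Nat.card (EE G a b) : ℕ) : ℤ) else (Nat.card (EE G a b) : ℤ) := by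
      intro d
      split_ifs with hd
      · subst hd
        rw [← card_stab hz hab d, Finset.natCast_card_filter]
        apply Finset.sum_congr rfl
        intro g _
        simp only [and_self]
      · have hcd : c ≠ d := fun h => hd h.symm
        have hEE := fiber_card (a := c) (b := d) (c := c) (d := d) hz hcd hcd
        have h5 : Nat.card (EE G c d) = Nat.card (EE G a b) := card_EE_eq hz hab hcd
        rw [← h5, ← hEE, Finset.natCast_card_filter]
    simp only [h3]
    rw [Finset.sum_ite, Finset.filter_eq' Finset.univ c, if_pos (Finset.mem_univ c)]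
    simp only [Finset.sum_singleton, Finset.sum_const]
    have h6 : (Finset.univ.filter (fun d : Ω => ¬ d = c)).card = Fintype.card Ω - 1 := by
      rw [Finset.filter_ne' Finset.univ c, Finset.card_erase_of_mem (Finset.mem_univ c), Finset.card_univ]
    rw [h6]
    push_cast
    simp
    ring
  simp only [h2]
  rw [Finset.sum_const, Finset.card_univ, card_group hz hab]
  push_cast
  simp
  ring

open Classical in
theorem fix_le_two {g : G} (hg : g ≠ 1) : fix G (Ω := Ω) g ≤ 2 := by
  by_contra h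
  push Not at h
  obtain ⟨x, hx, y, hy, z, hz', hxy, hxz, hyz⟩ := Finset.two_lt_card.mp h
  exact hg (hz.three g x y z hxy hyz hxz (Finset.mem_filter.mp hx).2 (Finset.mem_filter.mp hy).2 (Finset.mem_filter.mp hz').2)

open Classical in
/-- The number of fixed point free elements. -/
theorem card_fpf {a b : Ω} (hab : a ≠ b) :
    (2 * (Finset.univ.filter (fun g : G => ∀ c : Ω, g • c ≠ c)).card : ℤ) +
      ((Fintype.card Ω : ℤ) - 1) * ((Fintype.card Ω : ℤ) - 2) = (Nat.card G : ℤ) := by
  have h1 := sum_fix hz hab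
  have h2 := sum_fix_sq hz hab
  have h3 : ∑ g : G, ((fix G (Ω := Ω) g : ℤ) - 1) * ((fix G (Ω := Ω) g : ℤ) - 2) = (Nat.card G : ℤ) := by
    have : ∀ g : G, ((fix G (Ω := Ω) g : ℤ) - 1) * ((fix G (Ω := Ω) g : ℤ) - 2) =
        (fix G (Ω := Ω) g : ℤ) ^ 2 - 3 * (fix G (Ω := Ω) g : ℤ) + 2 := by
      intro g; ring
    simp only [this]
    rw [Finset.sum_add_distrib, Finset.sum_sub_distrib, ← Finset.mul_sum, h1, h2]
    simp [Nat.card_eq_fintype_card]
    ring
  have h4 : ∀ g : G, ((fix G (Ω := Ω) g : ℤ) - 1) * ((fix G (Ω := Ω) g : ℤ) - 2) =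
      (if g = 1 then ((Fintype.card Ω : ℤ) - 1) * ((Fintype.card Ω : ℤ) - 2) else 0) +
      (if ∀ c : Ω, g • c ≠ c then 2 else 0) := by
    intro g
    by_cases hg : g = 1
    · subst hg
      have h5 : fix G (Ω := Ω) (1 : G) = Fintype.card Ω := by
        simp [fix, Finset.card_univ]
      have h6 : ¬ ∀ c : Ω, (1 : G) • c ≠ c := by
        intro h7
        exact h7 a (one_smul _ _)
      rw [if_pos rfl, if_neg h6, h5]
      simp
    · rw [if_neg hg, zero_add]
      have h5 := fix_le_two hz (Ω := Ω) hg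
      by_cases hf : ∀ c : Ω, g • c ≠ c
      · rw [if_pos hf]
        have : fix G (Ω := Ω) g = 0 := by
          simp only [fix, Finset.card_eq_zero, Finset.filter_eq_empty_iff]
          intro c _
          exact hf c
        rw [this]
        norm_num
      · rw [if_neg hf]
        have : 0 < fix G (Ω := Ω) g := by
          push Not at hf
          obtain ⟨c, hc⟩ := hf
          exact Finset.card_pos.mpr ⟨c, Finset.mem_filter.mpr ⟨Finset.mem_univ _, hc⟩⟩
        have h7 : fix G (Ω := Ω) g = 1 ∨ fix G (Ω := Ω) g = 2 := by omega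
        rcases h7 with h7 | h7 <;> rw [h7] <;> norm_num
  simp only [h4] at h3
  rw [Finset.sum_add_distrib, Finset.sum_ite_eq' Finset.univ (1 : G), if_pos (Finset.mem_univ _), Finset.sum_ite, Finset.sum_const_zero, add_zero, Finset.sum_const, nsmul_eq_mul] at h3
  linarith

end Count

section S0880

variable {G : Type u} {Ω : Type v} [Group G] [Fintype G] [MulAction G Ω] [Fintype Ω]

theorem EE_card_ne_one (hZ : IsZassenhausGroup G Ω) {a b : Ω} (hab : a ≠ b) : Nat.card (EE G a b) ≠ 1 := by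
  have hz := zh_of hZ
  obtain ⟨-, -, -, ⟨g₀, hg₀, a₀, b₀, hab₀, hga₀, hgb₀⟩, -⟩ := hZ
  rw [card_EE_eq hz hab₀ hab]
  intro h1
  have h2 := Subgroup.eq_bot_of_card_eq _ h1
  have h3 : g₀ ∈ EE G a₀ b₀ := mem_EE.mpr ⟨hga₀, hgb₀⟩
  rw [h2] at h3
  exact hg₀ (Subgroup.mem_bot.mp h3)

theorem s0880 (hZ : IsZassenhausGroup G Ω) {a b : Ω} (hab : a ≠ b)
    (hodd : Odd (Nat.card (EE G a b))) (hlt : Nat.card (EE G a b) < Fintype.card Ω - 2) :
    ∃ x y : G, (∀ c : Ω, x • c ≠ c) ∧ (∀ c : Ω, y • c ≠ c) ∧ ¬ IsConj x y := by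
  classical
  have hz := zh_of hZ
  have hne := EE_card_ne_one hZ hab
  obtain ⟨f, hf⟩ := hodd
  have hf1 : 1 ≤ f := by
    rcases f with _ | f
    · exact absurd hf hne
    · omega
  have hG := card_group hz hab
  have hF := card_fpf hz hab
  obtain ⟨h, hh⟩ : ∃ h, Fintype.card Ω = h + 1 := ⟨Fintype.card Ω - 1, by omega⟩
  rw [hh] at hG hF hlt
  rw [hf] at hG hlt
  simp only [Nat.add_sub_cancel] at hG
  set F := Finset.univ.filter (fun g : G => ∀ c : Ω, g • c ≠ c) with hFdef
  have hFcard : (F.card : ℤ) = h * ((h + 1) * f + 1) := by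
    rw [hG] at hF
    push_cast at hF
    nlinarith
  have hFcard' : F.card = h * ((h + 1) * f + 1) := by exact_mod_cast hFcard
  have hFpos : 0 < F.card := by
    rw [hFcard']
    apply Nat.mul_pos (by omega) (by positivity)
  obtain ⟨x₀, hx₀⟩ := Finset.card_pos.mp hFpos
  have hx₀' : ∀ c : Ω, x₀ • c ≠ c := (Finset.mem_filter.mp hx₀).2
  by_contra hcon
  push Not at hcon
  have hcl : Nat.card {y : G // IsConj x₀ y} = F.card := by
    rw [Nat.card_eq_fintype_card, Fintype.card_subtype]
    congr 1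
    ext y
    simp only [Finset.mem_filter, Finset.mem_univ, true_and, hFdef]
    constructor
    · intro hy c hc
      obtain ⟨g, rfl⟩ := isConj_iff.mp hy
      apply hx₀' (g⁻¹ • c)
      have : (g * x₀ * g⁻¹) • c = c := hc
      rw [mul_smul, mul_smul] at this
      rw [← smul_left_cancel_iff g, this]
      simp
    · intro hy
      exact hcon x₀ y hx₀' hy
  have horb := Cfsg.Agent.Lib.InvolSylow.orbit_conj_card x₀
  rw [hcl, hFcard', hG] at horb
  set c := Nat.card (Subgroup.centralizer ({x₀} : Set G)) with hc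
  have hh0 : 0 < h := by omega
  have h1 : ((h + 1) * f + 1) * c = (h + 1) * (2 * f + 1) := by
    apply Nat.eq_of_mul_eq_mul_left hh0
    calc h * (((h + 1) * f + 1) * c) = h * ((h + 1) * f + 1) * c := by ring
      _ = (h + 1) * h * (2 * f + 1) := horb
      _ = h * ((h + 1) * (2 * f + 1)) := by ring
  have hm : 2 ≤ h := by omega
  rcases c with _ | _ | _ | c
  · simp at h1
  · nlinarith
  · nlinarith
  · have e1 : h + 1 ≤ (h + 1) * f := Nat.le_mul_of_pos_right _ hf1
    have e2 := Nat.mul_le_mul_left ((h + 1) * f + 1) (show 3 ≤ c + 1 + 1 + 1 by omega)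
    have e3 : (h + 1) * (2 * f + 1) = 2 * ((h + 1) * f) + (h + 1) := by ring
    omega

end S0880

section Focal

variable {G : Type u} {Ω : Type v} [Group G] [Fintype G] [MulAction G Ω] [Fintype Ω]

omit [Fintype G] [Fintype Ω] in
theorem fixed_two (hz : ZH G Ω) {a b c : Ω} (hab : a ≠ b) {y : G} (hy : y ≠ 1) (h1 : y • a = a) (h2 : y • b = b)
    (h3 : y • c = c) : c = a ∨ c = b := by
  by_contra h
  push Not at h
  exact hy (hz.three y a b c hab h.2.symm h.1.symm h1 h2 h3)

omit [Fintype G] [Fintype Ω] in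
theorem conj_cases (hz : ZH G Ω) {a b : Ω} (hab : a ≠ b) {x u : G} (hx : x ∈ EE G a b) (hx1 : x ≠ 1)
    (hu : u * x * u⁻¹ ∈ EE G a b) : (u • a = a ∧ u • b = b) ∨ (u • a = b ∧ u • b = a) := by
  have hx' := mem_EE.mp hx
  have hu' := mem_EE.mp hu
  have hy1 : u * x * u⁻¹ ≠ 1 := by
    intro h
    apply hx1
    have := congrArg (fun t => u⁻¹ * t * u) h
    simpa [mul_assoc] using this
  have h1 : (u * x * u⁻¹) • (u • a) = u • a := by
    simp [mul_smul, hx'.1]
  have h2 : (u * x * u⁻¹) • (u • b) = u • b := by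
    simp [mul_smul, hx'.2]
  have hne : u • a ≠ u • b := fun h => hab (smul_left_cancel u h)
  rcases fixed_two hz hab hy1 hu'.1 hu'.2 h1 with h3 | h3 <;> rcases fixed_two hz hab hy1 hu'.1 hu'.2 h2 with h4 | h4
  · exact absurd (h3.trans h4.symm) hne
  · exact Or.inl ⟨h3, h4⟩
  · exact Or.inr ⟨h3, h4⟩
  · exact absurd (h3.trans h4.symm) hne

/-- A prime dividing the order of the two-point stabilizer does not divide the number of ordered pairs. -/
theorem prime_not_dvd (hz : ZH G Ω) {a b : Ω} (hab : a ≠ b) (hodd : Odd (Nat.card (EE G a b))) {p : ℕ} [Fact p.Prime]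
    (hp : p ∣ Nat.card (EE G a b)) : ¬ p ∣ Fintype.card Ω * (Fintype.card Ω - 1) := by
  classical
  have hpp : p.Prime := Fact.out
  obtain ⟨x, hx⟩ := exists_prime_orderOf_dvd_card' p hp
  have hx1 : (x : G) ≠ 1 := by
    intro h
    have : x = 1 := Subtype.ext h
    rw [this, orderOf_one] at hx
    exact hpp.one_lt.ne hx
  have hxE := mem_EE.mp x.2
  have hord : orderOf (x : G) = p := by
    rw [← hx]; exact (Subgroup.orderOf_coe x)
  have hZp : IsPGroup p (Subgroup.zpowers (x : G)) := by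
    apply IsPGroup.of_card (n := 1)
    rw [Nat.card_zpowers, hord, pow_one]
  have hmod := hZp.card_modEq_card_fixedPoints Ω
  have hfx : MulAction.fixedPoints (Subgroup.zpowers (x : G)) Ω = {a, b} := by
    ext c
    simp only [MulAction.mem_fixedPoints, Set.mem_insert_iff, Set.mem_singleton_iff]
    constructor
    · intro h
      have : (x : G) • c = c := h ⟨x, Subgroup.mem_zpowers _⟩
      exact fixed_two hz hab hx1 hxE.1 hxE.2 this
    · have key : ∀ c : Ω, (x : G) • c = c → ∀ g : Subgroup.zpowers (x : G), g • c = c := by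
        rintro c hc ⟨_, j, rfl⟩
        show (x : G) ^ j • c = c
        have : ((x : G) ^ j) • c = c := by
          have h3 : (x : G) ∈ MulAction.stabilizer G c := hc
          exact Subgroup.zpow_mem _ h3 j
        exact this
      rintro (rfl | rfl)
      · exact key _ hxE.1
      · exact key _ hxE.2
  have hcard2 : Nat.card (MulAction.fixedPoints (Subgroup.zpowers (x : G)) Ω) = 2 := by
    rw [hfx]
    have : Nat.card ({a, b} : Set Ω) = ({a, b} : Finset Ω).card := by
      rw [Nat.card_eq_fintype_card, ← Set.toFinset_card]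
      congr 1
      ext c
      simp
    rw [this, Finset.card_pair hab]
  rw [hcard2, Nat.card_eq_fintype_card] at hmod
  have h2le : 2 ≤ Fintype.card Ω := by
    have := Finset.card_le_univ ({a, b} : Finset Ω)
    rwa [Finset.card_pair hab] at this
  have hd : p ∣ Fintype.card Ω - 2 := (Nat.modEq_iff_dvd' h2le).mp hmod.symm
  have hp2 : p ≠ 2 := by
    rintro rfl
    exact (Nat.not_even_iff_odd.mpr hodd) (even_iff_two_dvd.mpr hp)
  intro hdvd
  rcases (Nat.Prime.dvd_mul hpp).mp hdvd with h | h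
  · have h3 : p ∣ 2 := by
      have := (Nat.dvd_sub h hd)
      rwa [show Fintype.card Ω - (Fintype.card Ω - 2) = 2 by omega] at this
    have := (Nat.prime_dvd_prime_iff_eq hpp Nat.prime_two).mp h3
    exact hp2 this
  · have h3 : p ∣ 1 := by
      have := (Nat.dvd_sub h hd)
      rwa [show Fintype.card Ω - 1 - (Fintype.card Ω - 2) = 1 by omega] at this
    exact hpp.one_lt.ne' (Nat.dvd_one.mp h3)

/-- **The transfer argument.**  A homomorphism of `E` with commutative image invariant under a swap is trivial. -/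
theorem focal_trivial (hz : ZH G Ω) (hsimple : ∀ N : Subgroup G, N.Normal → N = ⊥ ∨ N = ⊤)
    (hnc : ∃ x y : G, x * y ≠ y * x) {a b : Ω} (hab : a ≠ b) (hodd : Odd (Nat.card (EE G a b)))
    {A : Type*} [Group A] (f : EE G a b →* A) (hcomm : ∀ x y, f x * f y = f y * f x)
    {w : G} (hwa : w • a = b) (hwb : w • b = a)
    (hf : ∀ (x : EE G a b) (hx : w * x * w⁻¹ ∈ EE G a b), f ⟨w * x * w⁻¹, hx⟩ = f x) : ∀ x, f x = 1 := by
  classical
  by_contra hcon
  push Not at hcon
  obtain ⟨y₀, hy₀⟩ := hcon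
  haveI : Finite A ∨ True := Or.inr trivial
  -- a prime power part on which `f` is nontrivial
  have hofin : orderOf y₀ ≠ 0 := (orderOf_pos y₀).ne'
  have hfo : (f y₀) ^ orderOf y₀ = 1 := by
    rw [← map_pow, pow_orderOf_eq_one, map_one]
  have hfopos : orderOf (f y₀) ≠ 1 := fun h => hy₀ (orderOf_eq_one_iff.mp h)
  obtain ⟨p, hp, hpdvd⟩ := Nat.exists_prime_and_dvd hfopos
  haveI : Fact p.Prime := ⟨hp⟩
  have hpo : p ∣ orderOf y₀ := hpdvd.trans (orderOf_dvd_of_pow_eq_one hfo)
  have hpE : p ∣ Nat.card (EE G a b) := hpo.trans (orderOf_dvd_natCard y₀)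
  obtain ⟨k, m', hm', hk⟩ := Nat.exists_eq_pow_mul_and_not_dvd hofin p hp.ne_one
  set y₁ := y₀ ^ m' with hy₁
  have hy₁p : y₁ ^ p ^ k = 1 := by
    rw [hy₁, ← pow_mul, mul_comm, ← hk, pow_orderOf_eq_one]
  have hfy₁ : f y₁ ≠ 1 := by
    intro h
    rw [hy₁, map_pow] at h
    exact hm' (hpdvd.trans (orderOf_dvd_of_pow_eq_one h))
  -- a Sylow subgroup of `E` containing `y₁`
  have hP₀ : IsPGroup p (Subgroup.zpowers y₁) := by
    rw [isPGroup_iff_pow_pow_eq_one] 
    rintro ⟨_, j, rfl⟩
    refine ⟨k, Subtype.ext ?_⟩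
    show ((y₁ ^ j : EE G a b)) ^ p ^ k = 1
    rw [← zpow_natCast, ← zpow_mul, mul_comm, zpow_mul, zpow_natCast, hy₁p, one_zpow]
  obtain ⟨Q, hQ⟩ := hP₀.exists_le_sylow
  have hy₁Q : y₁ ∈ (Q : Subgroup (EE G a b)) := hQ (Subgroup.mem_zpowers _)
  let P : Subgroup G := (Q : Subgroup (EE G a b)).map (EE G a b).subtype
  have hPp : IsPGroup p P := Q.2.map _
  have hPE : P ≤ EE G a b := by
    rintro _ ⟨x, _, rfl⟩
    exact x.2
  have hidx : ¬ p ∣ P.index := by
    have h1 : Nat.card P = Nat.card (Q : Subgroup (EE G a b)) :=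
      Subgroup.card_map_of_injective (EE G a b).subtype_injective
    have h2 := Subgroup.card_mul_index P
    have h3 := Subgroup.card_mul_index (Q : Subgroup (EE G a b))
    rw [card_group hz hab, h1] at h2
    rw [← h3] at h2
    have h4 : P.index = Fintype.card Ω * (Fintype.card Ω - 1) * (Q : Subgroup (EE G a b)).index := by
      have hpos : 0 < Nat.card (Q : Subgroup (EE G a b)) := Nat.card_pos
      apply Nat.eq_of_mul_eq_mul_left hpos
      rw [h2]; ring
    rw [h4]
    intro hd
    rcases (Nat.Prime.dvd_mul hp).mp hd with h5 | h5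
    · exact prime_not_dvd hz hab hodd hpE h5
    · exact Q.not_dvd_index h5
  let T : Sylow p G := hPp.toSylow hidx
  have hT : (T : Subgroup G) = P := IsPGroup.toSylow_coe _ _
  have hfoc := Cfsg.Agent.Lib.PNilp.focal_eq_of_pResidual_eq_top T (Cfsg.Agent.Lib.CharCN2.pResidual_top hsimple hnc)
  rw [hT] at hfoc
  let K : Subgroup G := (f.ker).map (EE G a b).subtype
  have hle : P.focalSubgroup ≤ K := by
    rw [Subgroup.focalSubgroup, Subgroup.closure_le]
    rintro g ⟨hgP, x, hxP, u, rfl⟩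
    have hxE : x ∈ EE G a b := hPE hxP
    have hx'P : u * x⁻¹ * u⁻¹ ∈ P := by
      have : u * x⁻¹ * u⁻¹ = x⁻¹ * ⁅x, u⁆ := by
        rw [commutatorElement_def]; group
      rw [this]
      exact P.mul_mem (P.inv_mem hxP) hgP
    have hx'E : u * x⁻¹ * u⁻¹ ∈ EE G a b := hPE hx'P
    let X : EE G a b := ⟨x, hxE⟩
    let X' : EE G a b := ⟨u * x⁻¹ * u⁻¹, hx'E⟩
    have hgX : ⁅x, u⁆ = ((X * X' : EE G a b) : G) := by
      show ⁅x, u⁆ = x * (u * x⁻¹ * u⁻¹)
      rw [commutatorElement_def]; group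
    have hkey : f X' = (f X)⁻¹ := by
      by_cases hx1 : x = 1
      · have h1 : X = 1 := Subtype.ext hx1
        have h2 : X' = 1 := Subtype.ext (by simp [X', hx1])
        rw [h1, h2]; simp
      · have hxi1 : x⁻¹ ≠ 1 := by simpa using hx1
        rcases conj_cases hz hab ((EE G a b).inv_mem hxE) hxi1 hx'E with ⟨h1, h2⟩ | ⟨h1, h2⟩
        · let U : EE G a b := ⟨u, mem_EE.mpr ⟨h1, h2⟩⟩
          have : X' = U * X⁻¹ * U⁻¹ := Subtype.ext (by simp [X', U, X])
          rw [this, map_mul, map_mul, hcomm U X⁻¹, map_inv f U, mul_inv_cancel_right, map_inv]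
        · have hw1 : w⁻¹ • a = b := by rw [← hwb, inv_smul_smul]
          have hw2 : w⁻¹ • b = a := by rw [← hwa, inv_smul_smul]
          have hs : u * w⁻¹ ∈ EE G a b := mem_EE.mpr ⟨by rw [mul_smul, hw1, h2], by rw [mul_smul, hw2, h1]⟩
          let S : EE G a b := ⟨u * w⁻¹, hs⟩
          have hY : w * x⁻¹ * w⁻¹ ∈ EE G a b := by
            have : w * x⁻¹ * w⁻¹ = (u * w⁻¹)⁻¹ * (u * x⁻¹ * u⁻¹) * (u * w⁻¹) := by group
            rw [this]
            exact (EE G a b).mul_mem ((EE G a b).mul_mem ((EE G a b).inv_mem hs) hx'E) hs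
          let Y : EE G a b := ⟨w * x⁻¹ * w⁻¹, hY⟩
          have h3 : X' = S * Y * S⁻¹ := Subtype.ext (by
            show u * x⁻¹ * u⁻¹ = (u * w⁻¹) * (w * x⁻¹ * w⁻¹) * (u * w⁻¹)⁻¹
            group)
          have h4 : f Y = (f X)⁻¹ := by
            have h5 := hf X⁻¹ (by simpa using hY)
            have h6 : (⟨w * ((X⁻¹ : EE G a b) : G) * w⁻¹, by simpa using hY⟩ : EE G a b) = Y := Subtype.ext (by simp [Y, X])
            rw [h6] at h5
            rw [h5, map_inv]
          rw [h3, map_mul, map_mul, hcomm S Y, map_inv f S, mul_inv_cancel_right, h4]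
    refine ⟨X * X', ?_, hgX.symm⟩
    rw [SetLike.mem_coe, MonoidHom.mem_ker, map_mul, hkey, mul_inv_cancel]
  have hy₁P : (y₁ : G) ∈ P := ⟨y₁, hy₁Q, rfl⟩
  rw [← hfoc] at hy₁P
  obtain ⟨z, hz1, hz2⟩ := hle hy₁P
  have : z = y₁ := Subtype.ext hz2
  rw [this] at hz1
  exact hfy₁ (MonoidHom.mem_ker.mp hz1)

end Focal

section Inv

variable {G : Type u} {Ω : Type v} [Group G] [Fintype G] [MulAction G Ω] [Fintype Ω]

/-- A third point. -/
theorem exists_third (hZ : IsZassenhausGroup G Ω) {a b : Ω} (hab : a ≠ b) : ∃ c : Ω, c ≠ a ∧ c ≠ b := by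
  have hz := zh_of hZ
  have hne := EE_card_ne_one hZ hab
  obtain ⟨x, hx⟩ : ∃ x : EE G a b, x ≠ 1 := by
    by_contra h
    push Not at h
    apply hne
    rw [Nat.card_eq_one_iff_unique]
    exact ⟨⟨fun u v => by rw [h u, h v]⟩, ⟨1⟩⟩
  have hfaith := hZ.1
  have hx' := mem_EE.mp x.2
  by_contra hcon
  push Not at hcon
  apply hx
  apply Subtype.ext
  apply hfaith.eq_of_smul_eq_smul (α := Ω)
  intro c
  show (x : G) • c = (1 : G) • c
  rw [one_smul]
  by_cases hc : c = a
  · rw [hc]; exact hx'.1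
  · rw [hcon c hc]; exact hx'.2

theorem noncomm (hZ : IsZassenhausGroup G Ω) {a b : Ω} (hab : a ≠ b) : ∃ x y : G, x * y ≠ y * x := by
  have hz := zh_of hZ
  have hne := EE_card_ne_one hZ hab
  obtain ⟨x, hx⟩ : ∃ x : EE G a b, x ≠ 1 := by
    by_contra h
    push Not at h
    apply hne
    rw [Nat.card_eq_one_iff_unique]
    exact ⟨⟨fun u v => by rw [h u, h v]⟩, ⟨1⟩⟩
  have hx' := mem_EE.mp x.2
  obtain ⟨c, hca, hcb⟩ := exists_third hZ hab
  obtain ⟨g, hg1, hg2⟩ := hz.two a b c a hab hca
  by_contra hcon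
  push Not at hcon
  have h1 : (x : G) • c = c := by
    rw [← hg1, ← mul_smul, hcon x g, mul_smul, hx'.1]
  rcases fixed_two hz hab (fun h => hx (Subtype.ext h)) hx'.1 hx'.2 h1 with h2 | h2
  · exact hca h2
  · exact hcb h2

/-- The two-point stabilizer is a Frobenius complement of odd order, so a Z-group. -/
theorem E_zgroup (hZ : IsZassenhausGroup G Ω) {a b : Ω} (hab : a ≠ b) (hodd : Odd (Nat.card (EE G a b))) :
    IsZGroup (EE G a b) := by
  classical
  have hz := zh_of hZ
  have hne := EE_card_ne_one hZ hab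
  obtain ⟨x₀, hx₀⟩ : ∃ x : EE G a b, x ≠ 1 := by
    by_contra h
    push Not at h
    apply hne
    rw [Nat.card_eq_one_iff_unique]
    exact ⟨⟨fun u v => by rw [h u, h v]⟩, ⟨1⟩⟩
  obtain ⟨c, hca, hcb⟩ := exists_third hZ hab
  let B : Subgroup G := MulAction.stabilizer G a
  let E' : Subgroup B := (EE G a b).subgroupOf B
  have hmemE' : ∀ x : B, x ∈ E' ↔ (x : G) • b = b := by
    intro x
    rw [Subgroup.mem_subgroupOf, mem_EE]
    exact ⟨fun h => h.2, fun h => ⟨x.2, h⟩⟩
  have hF : IsFrobeniusComplement E' := by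
    refine ⟨?_, ?_, ?_⟩
    · intro h
      have hx₀B : (x₀ : G) ∈ B := (mem_EE.mp x₀.2).1
      have : (⟨x₀, hx₀B⟩ : B) ∈ E' := (hmemE' _).mpr (mem_EE.mp x₀.2).2
      rw [h, Subgroup.mem_bot] at this
      apply hx₀
      apply Subtype.ext
      have h5 : ((⟨x₀, hx₀B⟩ : B) : G) = ((1 : B) : G) := congrArg Subtype.val this
      exact h5
    · intro h
      obtain ⟨g, hg1, hg2⟩ := hz.two a b a c hab hca.symm
      have hgB : g ∈ B := hg1
      have : (⟨g, hgB⟩ : B) ∈ E' := by rw [h]; trivial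
      have h3 := (hmemE' _).mp this
      simp only at h3
      rw [hg2] at h3
      exact hcb h3
    · intro g hg
      rw [eq_bot_iff]
      intro y hy
      have hy1 : y ∈ E' := (Subgroup.mem_inf.mp hy).1
      have hy2 : y ∈ (MulAut.conj g • E' : Subgroup B) := (Subgroup.mem_inf.mp hy).2
      rw [Subgroup.mem_pointwise_smul_iff_inv_smul_mem] at hy2
      have hy3 : g⁻¹ * y * g ∈ E' := by
        simpa [MulAut.smul_def, MulAut.conj_inv_apply] using hy2
      rw [Subgroup.mem_bot]
      by_contra hy1'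
      have hz1 : ((g⁻¹ * y * g : B) : G) ∈ EE G a b := Subgroup.mem_subgroupOf.mp hy3
      have hz2 : ((g⁻¹ * y * g : B) : G) ≠ 1 := by
        intro h
        apply hy1'
        have h5 : g⁻¹ * y * g = 1 := Subtype.ext h
        have := congrArg (fun t => g * t * g⁻¹) h5
        simpa [mul_assoc] using this
      have hz3 : (g : G) * ((g⁻¹ * y * g : B) : G) * (g : G)⁻¹ ∈ EE G a b := by
        have e : (g : G) * ((g⁻¹ * y * g : B) : G) * (g : G)⁻¹ = (y : G) := by
          simp [mul_assoc]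
        rw [e]
        exact Subgroup.mem_subgroupOf.mp hy1
      rcases conj_cases hz hab hz1 hz2 hz3 with ⟨h1, h2⟩ | ⟨h1, h2⟩
      · exact hg ((hmemE' _).mpr h2)
      · have h3 : (g : G) • a = a := g.2
        rw [h3] at h1
        exact hab h1
  obtain ⟨N', hN's, hN'n, hcompl⟩ := Cfsg.Agent.Lib.H1FrobThm.frobenius_theorem hF
  let K : Subgroup G := N'.map B.subtype
  refine Cfsg.Agent.Lib.H1FC.isZGroup_of_fpf_odd (K := K) ?_ ?_ hodd ?_
  · intro x hx
    have hxB : x ∈ B := (mem_EE.mp hx).1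
    have key : ∀ (t : G), t ∈ B → ∀ y ∈ K, t * y * t⁻¹ ∈ K := by
      rintro t ht _ ⟨n, hn, rfl⟩
      exact ⟨_, hN'n.conj_mem n hn ⟨t, ht⟩, by simp⟩
    rw [Subgroup.mem_normalizer_iff]
    intro y
    refine ⟨key x hxB y, fun hy => ?_⟩
    have := key x⁻¹ (B.inv_mem hxB) _ hy
    simpa [mul_assoc] using this
  · intro h
    have h1 : N' = ⊥ := by
      rw [eq_bot_iff]
      intro n hn
      have h2 : (n : G) ∈ K := ⟨n, hn, rfl⟩
      rw [h, Subgroup.mem_bot] at h2
      exact Subgroup.mem_bot.mpr (Subtype.ext h2)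
    have h2 := hcompl.sup_eq_top
    rw [h1, bot_sup_eq] at h2
    exact hF.2.1 h2
  · intro s hs hs1
    rw [eq_bot_iff]
    intro u hu
    have hu1 : u ∈ K := (Subgroup.mem_inf.mp hu).1
    have hu2 : u ∈ Subgroup.centralizer ({s} : Set G) := (Subgroup.mem_inf.mp hu).2
    rw [Subgroup.mem_centralizer_singleton_iff] at hu2
    obtain ⟨n, hn, rfl⟩ := hu1
    by_contra hne1
    have hn1 : n ≠ 1 := by
      rintro rfl
      exact hne1 (by simp)
    have hn2 : (n : B) ∈ frobeniusKernel E' := by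
      rw [← hN's]
      exact hn
    rcases hn2 with h3 | h3
    · exact hn1 h3
    · apply h3 1
      have hs' := mem_EE.mp hs
      have h4 : s • ((n : G) • b) = (n : G) • b := by
        rw [← mul_smul]
        have h5 : s * (n : G) = (n : G) * s := hu2.symm
        rw [h5, mul_smul, hs'.2]
      have h5 := fixed_two hz hab hs1 hs'.1 hs'.2 h4
      have h6 : (n : G) • a = a := n.2
      have h7 : (n : G) • b = b := by
        rcases h5 with h5 | h5
        · exfalso
          apply hab
          apply smul_left_cancel (n : G)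
          rw [h6, h5]
        · exact h5
      have h8 : n ∈ E' := (hmemE' _).mpr h7
      simpa using h8

/-- The action of a swap on `E`. -/
theorem swap_conj_mem {a b : Ω} {w : G} (hwa : w • a = b) (hwb : w • b = a) {x : G} (hx : x ∈ EE G a b) :
    w * x * w⁻¹ ∈ EE G a b := by
  have hx' := mem_EE.mp hx
  have hw1 : w⁻¹ • a = b := by rw [← hwb, inv_smul_smul]
  have hw2 : w⁻¹ • b = a := by rw [← hwa, inv_smul_smul]
  refine mem_EE.mpr ⟨?_, ?_⟩
  · rw [mul_smul, mul_smul, hw1, hx'.2, hwb]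
  · rw [mul_smul, mul_smul, hw2, hx'.1, hwa]

theorem swap_mem_normalizer {a b : Ω} {w : G} (hwa : w • a = b) (hwb : w • b = a) :
    w ∈ Subgroup.normalizer ((EE G a b : Subgroup G) : Set G) := by
  rw [Subgroup.mem_normalizer_iff]
  intro x
  refine ⟨swap_conj_mem hwa hwb, fun hx => ?_⟩
  have hw1 : w⁻¹ • a = b := by rw [← hwb, inv_smul_smul]
  have hw2 : w⁻¹ • b = a := by rw [← hwa, inv_smul_smul]
  have := swap_conj_mem (w := w⁻¹) hw1 hw2 hx
  simpa [mul_assoc] using this

/-- **`E` is abelian.** -/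
theorem E_abelian (hZ : IsZassenhausGroup G Ω) (hsimple : ∀ N : Subgroup G, N.Normal → N = ⊥ ∨ N = ⊤)
    {a b : Ω} (hab : a ≠ b) (hodd : Odd (Nat.card (EE G a b))) {w : G} (hwa : w • a = b) (hwb : w • b = a) :
    ∀ x ∈ EE G a b, ∀ y ∈ EE G a b, x * y = y * x := by
  classical
  have hz := zh_of hZ
  have hnc := noncomm hZ hab
  haveI hzg : IsZGroup (EE G a b) := E_zgroup hZ hab hodd
  set E : Subgroup G := EE G a b with hE
  let D₀ : Subgroup E := commutator E
  let D : Subgroup G := D₀.map E.subtype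
  have hDeq : D = ⁅E, E⁆ := Subgroup.map_subtype_commutator E
  haveI hD₀c : IsCyclic D₀ := IsZGroup.isCyclic_commutator E
  haveI hDc : IsCyclic D := by
    let e := D₀.equivMapOfInjective E.subtype E.subtype_injective
    exact isCyclic_of_injective e.symm.toMonoidHom e.symm.injective
  have hnormD : ∀ g : G, g ∈ Subgroup.normalizer (E : Set G) → g ∈ Subgroup.normalizer (D : Set G) := by
    intro g hg
    rw [Cfsg.Agent.Lib.PNilp.mem_normalizer_iff_map'] at hg ⊢
    rw [hDeq, Subgroup.map_commutator, hg]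
  have hEN : E ≤ Subgroup.normalizer (D : Set G) := fun x hx => hnormD x (Subgroup.le_normalizer hx)
  have hwN : w ∈ Subgroup.normalizer (D : Set G) := hnormD w (swap_mem_normalizer hwa hwb)
  let φ := D.normalizerMonoidHom
  have hc : ∀ p q : MulAut D, p * q = q * p := by
    intro p q
    apply (IsCyclic.mulAutMulEquiv D).injective
    rw [map_mul, map_mul, mul_comm]
  let f : E →* MulAut D := φ.comp (Subgroup.inclusion hEN)
  have hf1 := focal_trivial hz hsimple hnc hab hodd f (fun x y => hc _ _) hwa hwb (by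
    intro x hx
    have e : (Subgroup.inclusion hEN ⟨w * x * w⁻¹, hx⟩ : Subgroup.normalizer (D : Set G)) =
        ⟨w, hwN⟩ * Subgroup.inclusion hEN x * ⟨w, hwN⟩⁻¹ := Subtype.ext (by simp)
    show φ (Subgroup.inclusion hEN ⟨w * x * w⁻¹, hx⟩) = φ (Subgroup.inclusion hEN x)
    rw [e, map_mul, map_mul, hc (φ ⟨w, hwN⟩), map_inv φ ⟨w, hwN⟩, mul_inv_cancel_right])
  have hcent : ∀ x : E, ∀ d ∈ D, d * (x : G) = (x : G) * d := by
    intro x d hd
    have h1 : Subgroup.inclusion hEN x ∈ φ.ker := MonoidHom.mem_ker.mpr (hf1 x)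
    rw [Subgroup.normalizerMonoidHom_ker, Subgroup.mem_subgroupOf] at h1
    exact Subgroup.mem_centralizer_iff.mp h1 d hd
  have hcop : (Nat.card D₀).Coprime D₀.index := IsZGroup.coprime_commutator_index E
  intro x hx y hy
  let X : E := ⟨x, hx⟩
  let Y : E := ⟨y, hy⟩
  set c : G := ⁅x, y⁆ with hc0
  have hcD : c ∈ D := by
    rw [hDeq]
    exact Subgroup.commutator_mem_commutator hx hy
  have hxyc : x * y * x⁻¹ = c * y := by
    rw [hc0, commutatorElement_def]; group
  have hxc : ∀ k : ℕ, x * c ^ k = c ^ k * x := by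
    intro k
    exact (hcent X (c ^ k) (D.pow_mem hcD k)).symm
  have hpow : ∀ k : ℕ, x ^ k * y * (x ^ k)⁻¹ = c ^ k * y := by
    intro k
    induction k with
    | zero => simp
    | succ k ih =>
      calc x ^ (k + 1) * y * (x ^ (k + 1))⁻¹ = x * (x ^ k * y * (x ^ k)⁻¹) * x⁻¹ := by
            rw [pow_succ' x k]; group
        _ = x * (c ^ k * y) * x⁻¹ := by rw [ih]
        _ = c ^ k * (x * y * x⁻¹) := by
            rw [← mul_assoc x, hxc k]; group
        _ = c ^ k * (c * y) := by rw [hxyc]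
        _ = c ^ (k + 1) * y := by rw [pow_succ c k]; group
  have hn₀ : x ^ D₀.index ∈ D := by
    have h1 : X ^ D₀.index ∈ D₀ := Subgroup.pow_index_mem D₀ X
    exact ⟨_, h1, by simp [X]⟩
  have h1 : x ^ D₀.index * y * (x ^ D₀.index)⁻¹ = y := by
    have := hcent Y _ hn₀
    have e : (Y : G) = y := rfl
    rw [e] at this
    rw [this]
    simp
  have h2 : c ^ D₀.index = 1 := by
    have := hpow D₀.index
    rw [h1] at this
    exact (mul_eq_right.mp this.symm)
  have h3 : c ^ Nat.card D₀ = 1 := by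
    have hcard : Nat.card D = Nat.card D₀ := Subgroup.card_map_of_injective E.subtype_injective
    rw [← hcard]
    have := pow_card_eq_one' (x := (⟨c, hcD⟩ : D))
    exact congrArg Subtype.val this
  have h4 : orderOf c = 1 := Nat.eq_one_of_dvd_coprimes hcop.symm (orderOf_dvd_of_pow_eq_one h2) (orderOf_dvd_of_pow_eq_one h3)
  have h5 : c = 1 := orderOf_eq_one_iff.mp h4
  rw [hc0, commutatorElement_eq_one_iff_mul_comm] at h5
  exact h5

/-- **A swap inverts `E`.** -/
theorem E_inverted (hZ : IsZassenhausGroup G Ω) (hsimple : ∀ N : Subgroup G, N.Normal → N = ⊥ ∨ N = ⊤)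
    {a b : Ω} (hab : a ≠ b) (hodd : Odd (Nat.card (EE G a b))) {w : G} (hwa : w • a = b) (hwb : w • b = a) :
    ∀ x ∈ EE G a b, w * x * w⁻¹ = x⁻¹ := by
  classical
  have hz := zh_of hZ
  have hnc := noncomm hZ hab
  have hab' := E_abelian hZ hsimple hab hodd hwa hwb
  set E : Subgroup G := EE G a b with hE
  have hcomm : ∀ x y : E, x * y = y * x := fun x y => Subtype.ext (hab' x x.2 y y.2)
  have hmem : ∀ x : E, w * x * w⁻¹ ∈ E := fun x => swap_conj_mem hwa hwb x.2
  let f : E →* E := MonoidHom.mk' (fun x => x * ⟨w * x * w⁻¹, hmem x⟩) (by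
    intro x y
    apply Subtype.ext
    have h1 : ((x * y : E) : G) = (x : G) * y := rfl
    have e1 : w * ((x : G) * y) * w⁻¹ = (w * x * w⁻¹) * (w * y * w⁻¹) := by group
    show ((x * y : E) : G) * (w * ((x * y : E) : G) * w⁻¹) = (x : G) * (w * x * w⁻¹) * ((y : G) * (w * y * w⁻¹))
    rw [h1, e1]
    have h2 : (y : G) * (w * x * w⁻¹) = (w * x * w⁻¹) * y := hab' _ y.2 _ (hmem x)
    calc (x : G) * y * (w * x * w⁻¹ * (w * y * w⁻¹)) = x * (y * (w * x * w⁻¹)) * (w * y * w⁻¹) := by group
      _ = x * ((w * x * w⁻¹) * y) * (w * y * w⁻¹) := by rw [h2]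
      _ = _ := by group)
  have hf1 := focal_trivial hz hsimple hnc hab hodd f (fun x y => hcomm _ _) hwa hwb (by
    intro x hx
    apply Subtype.ext
    show (w * x * w⁻¹) * (w * (w * x * w⁻¹) * w⁻¹) = (x : G) * (w * x * w⁻¹)
    have hw2 : w * w ∈ E := mem_EE.mpr ⟨by rw [mul_smul, hwa, hwb], by rw [mul_smul, hwb, hwa]⟩
    have h3 : (w * w) * (x : G) = x * (w * w) := hab' _ hw2 _ x.2
    have h4 : w * (w * x * w⁻¹) * w⁻¹ = x := by
      calc w * (w * x * w⁻¹) * w⁻¹ = ((w * w) * x) * (w * w)⁻¹ := by group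
        _ = x := by rw [h3]; group
    rw [h4]
    exact hab' _ (hmem x) _ x.2)
  intro x hx
  have h1 := hf1 ⟨x, hx⟩
  have h2 : x * (w * x * w⁻¹) = 1 := congrArg Subtype.val h1
  exact (eq_inv_of_mul_eq_one_right h2)

end Inv

section S0881

variable {G : Type u} {Ω : Type v} [Group G] [Fintype G] [MulAction G Ω] [Fintype Ω]

/-- The point stabilizer. -/
abbrev St (G : Type u) {Ω : Type v} [Group G] [MulAction G Ω] (a : Ω) : Subgroup G := MulAction.stabilizer G a

/-- An element of the stabilizer of `a` outside `H` lies in a conjugate of `E` under the stabilizer. -/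
theorem lam_trivial (hZ : IsZassenhausGroup G Ω) (hsimple : ∀ N : Subgroup G, N.Normal → N = ⊥ ∨ N = ⊤)
    {a b : Ω} (hab : a ≠ b) (hodd : Odd (Nat.card (EE G a b))) (H : Subgroup G)
    (hHa : H ≤ MulAction.stabilizer G a) (hHcard : Nat.card H + 1 = Fintype.card Ω)
    (hHfix : ∀ u ∈ H, u ≠ 1 → ∀ c : Ω, u • c = c → c = a)
    (lam : MulAction.stabilizer G a →* ℂˣ) (hlamH : ∀ u : MulAction.stabilizer G a, (u : G) ∈ H → lam u = 1)
    {x : G} {c : Ω} (hxc : x • a = c) (hca : c ≠ a)
    (hx : ∀ (y : MulAction.stabilizer G a) (hy : x⁻¹ * y * x ∈ MulAction.stabilizer G a), lam y = lam ⟨x⁻¹ * y * x, hy⟩) :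
    ∀ u, lam u = 1 := by
  classical
  have hz := zh_of hZ
  obtain ⟨w, hwa, hwb⟩ := hz.two a b b a hab hab.symm
  have hinv := E_inverted hZ hsimple hab hodd hwa hwb
  obtain ⟨t, hta, htc⟩ := hz.two a c a b hca.symm hab
  have htB : t ∈ (St G a) := hta
  have hw1 : w⁻¹ • b = a := by rw [← hwa, inv_smul_smul]
  have ht' : w⁻¹ * t * x ∈ (St G a) := by
    show (w⁻¹ * t * x) • a = a
    rw [mul_smul, mul_smul, hxc, htc, hw1]
  have hconjB : ∀ (r y : (St G a)), lam (r * y * r⁻¹) = lam y := by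
    intro r y
    rw [map_mul, map_mul, map_inv, mul_comm (lam r), mul_inv_cancel_right]
  have hE : ∀ s : EE G a b, lam ⟨s, (mem_EE.mp s.2).1⟩ = 1 := by
    intro s
    have hs := s.2
    have hs' := mem_EE.mp hs
    have hsB : (s : G) ∈ (St G a) := hs'.1
    have hs1 : w * s * w⁻¹ ∈ EE G a b := swap_conj_mem hwa hwb hs
    have hs1B : w * s * w⁻¹ ∈ (St G a) := (mem_EE.mp hs1).1
    have hYB : t⁻¹ * (w * s * w⁻¹) * t ∈ (St G a) := by
      exact (St G a).mul_mem ((St G a).mul_mem ((St G a).inv_mem htB) hs1B) htB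
    have hY2 : x⁻¹ * (t⁻¹ * (w * s * w⁻¹) * t) * x = (w⁻¹ * t * x)⁻¹ * s * (w⁻¹ * t * x) := by group
    have hY3 : x⁻¹ * (t⁻¹ * (w * s * w⁻¹) * t) * x ∈ (St G a) := by
      rw [hY2]
      exact (St G a).mul_mem ((St G a).mul_mem ((St G a).inv_mem ht') hsB) ht'
    have h1 := hx ⟨_, hYB⟩ hY3
    have h2 : lam ⟨t⁻¹ * (w * s * w⁻¹) * t, hYB⟩ = lam ⟨w * s * w⁻¹, hs1B⟩ := by
      have e : (⟨t⁻¹ * (w * s * w⁻¹) * t, hYB⟩ : (St G a)) = (⟨t, htB⟩ : (St G a))⁻¹ * ⟨w * s * w⁻¹, hs1B⟩ * ((⟨t, htB⟩ : (St G a))⁻¹)⁻¹ :=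
        Subtype.ext (by simp)
      rw [e, hconjB]
    have h3 : lam ⟨x⁻¹ * (t⁻¹ * (w * s * w⁻¹) * t) * x, hY3⟩ = lam ⟨s, hsB⟩ := by
      have e : (⟨x⁻¹ * (t⁻¹ * (w * s * w⁻¹) * t) * x, hY3⟩ : (St G a)) = (⟨_, ht'⟩ : (St G a))⁻¹ * ⟨s, hsB⟩ * ((⟨_, ht'⟩ : (St G a))⁻¹)⁻¹ :=
        Subtype.ext (by
          show x⁻¹ * (t⁻¹ * (w * s * w⁻¹) * t) * x = (w⁻¹ * t * x)⁻¹ * s * ((w⁻¹ * t * x)⁻¹)⁻¹
          rw [hY2, inv_inv])
      rw [e, hconjB]
    have h4 : lam ⟨w * s * w⁻¹, hs1B⟩ = (lam ⟨s, hsB⟩)⁻¹ := by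
      have e : (⟨w * s * w⁻¹, hs1B⟩ : (St G a)) = (⟨s, hsB⟩ : (St G a))⁻¹ := Subtype.ext (by simp [hinv s hs])
      rw [e, map_inv]
    have h5 : lam ⟨s, hsB⟩ = (lam ⟨s, hsB⟩)⁻¹ := by
      rw [← h4, ← h2, h1, h3]
    have h6 : (lam ⟨s, hsB⟩) ^ 2 = 1 := by
      rw [pow_two]
      nth_rw 1 [h5]
      simp
    have h7 : (lam ⟨s, hsB⟩) ^ orderOf s = 1 := by
      rw [← map_pow]
      have : (⟨s, hsB⟩ : (St G a)) ^ orderOf s = 1 := by
        apply Subtype.ext
        show (s : G) ^ orderOf s = 1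
        rw [← Subgroup.orderOf_coe s]
        exact pow_orderOf_eq_one (s : G)
      rw [this, map_one]
    have h8 : Odd (orderOf s) := Odd.of_dvd_nat hodd (orderOf_dvd_natCard s)
    have h9 : orderOf (lam ⟨s, hsB⟩) = 1 := by
      apply Nat.eq_one_of_dvd_coprimes (Nat.coprime_two_left.mpr h8) (orderOf_dvd_of_pow_eq_one h6) (orderOf_dvd_of_pow_eq_one h7)
    exact orderOf_eq_one_iff.mp h9
  intro y
  by_cases hy : (y : G) ∈ H
  · exact hlamH y hy
  · have hzc := Cfsg.Agent.Lib.CharZass.zass_card hz.three a H hHa hHcard hHfix (y : G) y.2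
    have h1 : ¬ ((y : G) = 1 ∨ ∀ c : Ω, (y : G) • c = c → c = a) := fun h => hy (hzc h)
    push Not at h1
    obtain ⟨-, c', hc', hc'a⟩ := h1
    obtain ⟨t₂, ht₂a, ht₂c⟩ := hz.two a c' a b hc'a.symm hab
    have ht₂B : t₂ ∈ (St G a) := ht₂a
    have hs : t₂ * y * t₂⁻¹ ∈ EE G a b := by
      refine mem_EE.mpr ⟨?_, ?_⟩
      · exact (St G a).mul_mem ((St G a).mul_mem ht₂B y.2) ((St G a).inv_mem ht₂B)
      · have h2 : t₂⁻¹ • b = c' := by rw [← ht₂c, inv_smul_smul]
        rw [mul_smul, mul_smul, h2, hc', ht₂c]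
    have h3 := hE ⟨_, hs⟩
    have e : (⟨t₂ * y * t₂⁻¹, (mem_EE.mp hs).1⟩ : (St G a)) = (⟨t₂, ht₂B⟩ : (St G a)) * y * (⟨t₂, ht₂B⟩ : (St G a))⁻¹ := Subtype.ext (by simp)
    have h4 : lam ⟨t₂ * y * t₂⁻¹, (mem_EE.mp hs).1⟩ = 1 := h3
    rw [e, hconjB] at h4
    exact h4

theorem s0881 (hZ : IsZassenhausGroup G Ω) {a b : Ω} (hab : a ≠ b) (hsimple : ∀ N : Subgroup G, N.Normal → N = ⊥ ∨ N = ⊤)
    (hodd : Odd (Nat.card (EE G a b)))
    (H : Subgroup G) (hHa : H ≤ MulAction.stabilizer G a) (hHcard : Nat.card H + 1 = Fintype.card Ω)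
    (hHfix : ∀ u ∈ H, u ≠ 1 → ∀ c : Ω, u • c = c → c = a) (μ : MulAction.stabilizer G a → ℂ)
    (hμ : IsCharacter (MulAction.stabilizer G a) μ ∧ μ 1 = 1)
    (hμH : ∀ u : MulAction.stabilizer G a, (u : G) ∈ H → μ u = 1) (hμne : μ ≠ fun _ => 1) :
    IsIrrCharacter G (indFun (MulAction.stabilizer G a) μ) ∧ ∀ u ∈ H, u ≠ 1 → indFun (MulAction.stabilizer G a) μ u = 1 := by
  classical
  have hz := zh_of hZ
  obtain ⟨lam, rfl⟩ := exists_hom_of_linear hμ.1 hμ.2
  haveI : Fintype (St G a) := Fintype.ofFinite _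
  have hB0 : (Nat.card (St G a) : ℂ) ≠ 0 := by exact_mod_cast Nat.card_pos.ne'
  have hlamH : ∀ u : (St G a), (u : G) ∈ H → lam u = 1 := by
    intro u hu
    apply Units.ext
    simpa using hμH u hu
  have hcard : ∑ x : G, (if x ∈ (St G a) then (1 : ℂ) else 0) = (Nat.card (St G a) : ℂ) := by
    rw [Finset.sum_ite, Finset.sum_const_zero, add_zero, Finset.sum_const, nsmul_eq_mul, mul_one]
    congr 2
    rw [Nat.card_eq_fintype_card, Fintype.card_subtype]
  have hconjB : ∀ (r y : (St G a)), lam (r⁻¹ * y * r) = lam y := by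
    intro r y
    rw [map_mul, map_mul, map_inv, mul_comm (lam r)⁻¹, inv_mul_cancel_right]
  have hval : ∀ u ∈ H, u ≠ 1 → indFun (St G a) (fun g => (lam g : ℂ)) u = 1 := by
    intro u hu hu1
    rw [indFun_apply]
    have : ∀ x : G, extendByZero (St G a) (fun g => (lam g : ℂ)) (x⁻¹ * u * x) = if x ∈ (St G a) then (1 : ℂ) else 0 := by
      intro x
      by_cases hx : x ∈ (St G a)
      · rw [if_pos hx]
        have huB : u ∈ (St G a) := hHa hu
        have hm : x⁻¹ * u * x ∈ (St G a) := (St G a).mul_mem ((St G a).mul_mem ((St G a).inv_mem hx) huB) hx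
        rw [extendByZero_of_mem _ _ hm]
        have e : (⟨x⁻¹ * u * x, hm⟩ : (St G a)) = (⟨x, hx⟩ : (St G a))⁻¹ * ⟨u, huB⟩ * ⟨x, hx⟩ := Subtype.ext (by simp)
        rw [e, hconjB, hlamH ⟨u, huB⟩ hu]
        simp
      · rw [if_neg hx]
        apply extendByZero_of_not_mem
        intro hm
        apply hx
        have h1 : (x⁻¹ * u * x) • a = a := hm
        have h2 : u • (x • a) = x • a := by
          have := congrArg (fun t => x • t) h1
          simpa [mul_smul] using this
        have h3 := hHfix u hu hu1 _ h2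
        exact h3
    simp only [this]
    rw [hcard]
    field_simp
  refine ⟨?_, hval⟩
  -- the norm
  have hChar : IsCharacter G (indFun (St G a) (fun g => (lam g : ℂ))) :=
    IsCharacter.ind (St G a) (IsIrrCharacter.isCharacter (isIrrCharacter_of_hom lam))
  have hconjval : ∀ y : (St G a), (starRingEnd ℂ) (lam y : ℂ) = ((lam y)⁻¹ : ℂˣ) := by
    intro y
    have hn : Nat.card (St G a) ≠ 0 := Nat.card_pos.ne'
    have h1 : (lam y : ℂ) ^ Nat.card (St G a) = 1 := by
      have : (lam y) ^ Nat.card (St G a) = 1 := by rw [← map_pow, pow_card_eq_one', map_one]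
      have h2 := congrArg Units.val this
      simpa using h2
    rw [conj_root_of_unity hn h1]
    simp
  have hJ : ∀ x : G, ∑ y : (St G a), (lam y : ℂ) * (starRingEnd ℂ) (extendByZero (St G a) (fun g => (lam g : ℂ)) (x⁻¹ * y * x)) =
      if x ∈ (St G a) then (Nat.card (St G a) : ℂ) else 0 := by
    intro x
    by_cases hx : x ∈ (St G a)
    · rw [if_pos hx]
      have : ∀ y : (St G a), (lam y : ℂ) * (starRingEnd ℂ) (extendByZero (St G a) (fun g => (lam g : ℂ)) (x⁻¹ * y * x)) = 1 := by
        intro y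
        have hm : x⁻¹ * y * x ∈ (St G a) := (St G a).mul_mem ((St G a).mul_mem ((St G a).inv_mem hx) y.2) hx
        rw [extendByZero_of_mem _ _ hm]
        have e : (⟨x⁻¹ * y * x, hm⟩ : (St G a)) = (⟨x, hx⟩ : (St G a))⁻¹ * y * ⟨x, hx⟩ := Subtype.ext (by simp)
        rw [e, hconjB, hconjval]
        simp
      simp only [this]
      rw [Finset.sum_const, Finset.card_univ, ← Nat.card_eq_fintype_card]
      simp
    · rw [if_neg hx]
      have hca : x • a ≠ a := hx
      -- find a nontrivial translation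
      by_contra hne
      have hall : ∀ (y : (St G a)) (hy : x⁻¹ * y * x ∈ (St G a)), lam y = lam ⟨x⁻¹ * y * x, hy⟩ := by
        intro y₀ hy₀
        by_contra hne2
        set ζ : ℂ := (lam y₀ : ℂ) * ((lam ⟨x⁻¹ * y₀ * x, hy₀⟩)⁻¹ : ℂˣ) with hζ
        have hζ1 : ζ ≠ 1 := by
          intro h
          apply hne2
          have h2 : lam y₀ * (lam ⟨x⁻¹ * y₀ * x, hy₀⟩)⁻¹ = 1 := by
            apply Units.ext
            rw [Units.val_mul, Units.val_one]
            exact h
          exact mul_inv_eq_one.mp h2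
        set g : (St G a) → ℂ := fun y => (lam y : ℂ) * (starRingEnd ℂ) (extendByZero (St G a) (fun g => (lam g : ℂ)) (x⁻¹ * y * x)) with hg
        have hshift : ∀ y : (St G a), g (y₀ * y) = ζ * g y := by
          intro y
          simp only [hg]
          by_cases hm : x⁻¹ * y * x ∈ (St G a)
          · have hm2 : x⁻¹ * ((y₀ * y : (St G a)) : G) * x ∈ (St G a) := by
              have e : x⁻¹ * ((y₀ * y : (St G a)) : G) * x = (x⁻¹ * y₀ * x) * (x⁻¹ * y * x) := by
                simp only [Subgroup.coe_mul]; group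
              rw [e]
              exact (St G a).mul_mem hy₀ hm
            rw [extendByZero_of_mem _ _ hm, extendByZero_of_mem _ _ hm2]
            have e : (⟨x⁻¹ * ((y₀ * y : (St G a)) : G) * x, hm2⟩ : (St G a)) = ⟨x⁻¹ * y₀ * x, hy₀⟩ * ⟨x⁻¹ * y * x, hm⟩ := Subtype.ext (by
              simp only [Subgroup.coe_mul]; group)
            rw [e, map_mul, map_mul, Units.val_mul, Units.val_mul, map_mul (starRingEnd ℂ)]
            simp only [hconjval]
            rw [hζ]
            simp only [Units.val_inv_eq_inv_val]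
            ring
          · have hm2 : x⁻¹ * ((y₀ * y : (St G a)) : G) * x ∉ (St G a) := by
              intro h
              apply hm
              have e : x⁻¹ * y * x = (x⁻¹ * y₀ * x)⁻¹ * (x⁻¹ * ((y₀ * y : (St G a)) : G) * x) := by
                simp only [Subgroup.coe_mul]; group
              rw [e]
              exact (St G a).mul_mem ((St G a).inv_mem hy₀) h
            rw [extendByZero_of_not_mem _ _ hm, extendByZero_of_not_mem _ _ hm2]
            simp
        have hsum : ∑ y : (St G a), g y = ζ * ∑ y : (St G a), g y := by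
          rw [Finset.mul_sum]
          simp only [← hshift]
          exact (Equiv.sum_comp (Equiv.mulLeft y₀) g).symm
        apply hne
        have : (1 - ζ) * ∑ y : (St G a), g y = 0 := by linear_combination hsum
        rcases mul_eq_zero.mp this with h | h
        · exact absurd (sub_eq_zero.mp h).symm hζ1
        · exact h
      have htriv := lam_trivial hZ hsimple hab hodd H hHa hHcard hHfix lam hlamH (x := x) rfl hca hall
      apply hμne
      funext y
      simp [htriv y]
  have hnorm : classInner (indFun (St G a) (fun g => (lam g : ℂ))) (indFun (St G a) (fun g => (lam g : ℂ))) = 1 := by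
    rw [frobenius (St G a) _ _ (indFun_classFunction (St G a) _)]
    simp only [classInner, indFun_apply, map_mul, map_inv₀, Complex.conj_natCast, map_sum]
    have h1 : ∑ y : (St G a), (lam y : ℂ) * ((Nat.card (St G a) : ℂ)⁻¹ * ∑ x : G, (starRingEnd ℂ) (extendByZero (St G a) (fun g => (lam g : ℂ)) (x⁻¹ * y * x))) =
        (Nat.card (St G a) : ℂ)⁻¹ * ∑ x : G, ∑ y : (St G a), (lam y : ℂ) * (starRingEnd ℂ) (extendByZero (St G a) (fun g => (lam g : ℂ)) (x⁻¹ * y * x)) := by
      rw [Finset.sum_comm, Finset.mul_sum]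
      apply Finset.sum_congr rfl
      intro y _
      rw [← mul_assoc, mul_comm (lam y : ℂ), mul_assoc, Finset.mul_sum]
    rw [h1]
    simp only [hJ]
    have h2 : ∑ x : G, (if x ∈ (St G a) then (Nat.card (St G a) : ℂ) else 0) = (Nat.card (St G a) : ℂ) * (Nat.card (St G a) : ℂ) := by
      rw [Finset.sum_ite, Finset.sum_const_zero, add_zero, Finset.sum_const, nsmul_eq_mul]
      congr 2
      rw [Nat.card_eq_fintype_card, Fintype.card_subtype]
    rw [h2]
    field_simp
  exact isIrrCharacter_of_norm_one hChar hnorm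

end S0881

section Invol

variable {G : Type u} {Ω : Type v} [Group G] [Fintype G] [MulAction G Ω] [Fintype Ω]

variable (hZ : IsZassenhausGroup G Ω) (hsimple : ∀ N : Subgroup G, N.Normal → N = ⊥ ∨ N = ⊤)
  {a b : Ω} (hab : a ≠ b) (hodd : Odd (Nat.card (EE G a b)))
include hZ hsimple hab hodd

theorem odd_EE {c d : Ω} (hcd : c ≠ d) : Odd (Nat.card (EE G c d)) := by
  rw [card_EE_eq (zh_of hZ) hab hcd]
  exact hodd

/-- Every swap is an involution. -/
theorem swap_invol {c d : Ω} (hcd : c ≠ d) {g : G} (h1 : g • c = d) (h2 : g • d = c) : g * g = 1 := by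
  have hoddc := odd_EE hZ hsimple hab hodd hcd
  have hx : g * g ∈ EE G c d := mem_EE.mpr ⟨by rw [mul_smul, h1, h2], by rw [mul_smul, h2, h1]⟩
  have h3 := E_inverted hZ hsimple hcd hoddc h1 h2 (g * g) hx
  have h4 : g * (g * g) * g⁻¹ = g * g := by group
  rw [h4] at h3
  have h5 : (g * g) ^ 2 = 1 := by
    rw [pow_two]
    nth_rw 1 [h3]
    simp
  have h6 : orderOf (g * g) ∣ Nat.card (EE G c d) := Subgroup.orderOf_dvd_natCard _ hx
  have h7 : orderOf (g * g) ∣ 2 := orderOf_dvd_of_pow_eq_one h5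
  have h8 : orderOf (g * g) = 1 :=
    Nat.eq_one_of_dvd_coprimes (Nat.coprime_two_left.mpr hoddc) h7 h6
  exact orderOf_eq_one_iff.mp h8

omit hsimple in
/-- An involution fixes at most one point. -/
theorem invol_fix {z : G} (hz : orderOf z = 2) {c d : Ω} (hc : z • c = c) (hd : z • d = d) : c = d := by
  by_contra hcd
  have hoddc : Odd (Nat.card (EE G c d)) := by
    rw [card_EE_eq (zh_of hZ) hab hcd]
    exact hodd
  have h1 : z ∈ EE G c d := mem_EE.mpr ⟨hc, hd⟩
  have h2 := Subgroup.orderOf_dvd_natCard _ h1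
  rw [hz] at h2
  exact (Nat.not_even_iff_odd.mpr hoddc) (even_iff_two_dvd.mpr h2)

omit hZ hsimple hab hodd in
theorem invol_swap {z : G} (hz : orderOf z = 2) {c d : Ω} (h1 : z • c = d) : z • d = c := by
  have h2 : z * z = 1 := by rw [← pow_two, ← hz, pow_orderOf_eq_one]
  rw [← h1, ← mul_smul, h2, one_smul]

open Classical in
/-- The number of involutions taking one given point to another. -/
theorem count_pair {c d : Ω} (hcd : c ≠ d) :
    (Finset.univ.filter (fun z : G => orderOf z = 2 ∧ z • c = d)).card = Nat.card (EE G a b) := by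
  have hz := zh_of hZ
  rw [← card_EE_eq hz hab hcd, ← fiber_card (a := c) (b := d) (c := d) (d := c) hz hcd hcd.symm]
  congr 1
  ext z
  simp only [Finset.mem_filter, Finset.mem_univ, true_and]
  constructor
  · rintro ⟨h1, h2⟩
    exact ⟨h2, invol_swap h1 h2⟩
  · rintro ⟨h1, h2⟩
    refine ⟨?_, h1⟩
    apply orderOf_eq_prime
    · rw [pow_two]; exact swap_invol hZ hsimple hab hodd hcd h1 h2
    · rintro rfl
      rw [one_smul] at h1
      exact hcd h1

omit hsimple in
open Classical in
/-- The number of points moved by an involution. -/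
theorem moved_card {z : G} (hz : orderOf z = 2) :
    (Finset.univ.filter (fun c : Ω => z • c ≠ c)).card =
      if Even (Fintype.card Ω) then Fintype.card Ω else Fintype.card Ω - 1 := by
  have h2 : 2 ∣ (Finset.univ.filter (fun c : Ω => z • c ≠ c)).card := by
    have h3 : (MulAction.toPerm z : Equiv.Perm Ω) ^ 2 = 1 := by
      ext c
      simp only [Equiv.Perm.coe_pow, Function.iterate_succ, Function.iterate_zero, Function.comp_apply, id_eq, MulAction.toPerm_apply, Equiv.Perm.coe_one]
      rw [← mul_smul, ← pow_two, ← hz, pow_orderOf_eq_one, one_smul]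
    have h4 := Equiv.Perm.two_dvd_card_support h3
    have h5 : (MulAction.toPerm z : Equiv.Perm Ω).support = Finset.univ.filter (fun c : Ω => z • c ≠ c) := by
      ext c
      simp
    rwa [h5] at h4
  have hle : (Finset.univ.filter (fun c : Ω => z • c = c)).card ≤ 1 := by
    rw [Finset.card_le_one]
    intro c hc d hd
    exact invol_fix hZ hab hodd hz (Finset.mem_filter.mp hc).2 (Finset.mem_filter.mp hd).2
  have hsum : (Finset.univ.filter (fun c : Ω => z • c = c)).card + (Finset.univ.filter (fun c : Ω => z • c ≠ c)).card = Fintype.card Ω := by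
    rw [← Finset.card_univ]
    exact Finset.card_filter_add_card_filter_not (s := (Finset.univ : Finset Ω)) (fun c : Ω => z • c = c)
  split_ifs with hev
  · obtain ⟨k, hk⟩ := hev
    obtain ⟨l, hl⟩ := h2
    omega
  · rw [Nat.not_even_iff_odd] at hev
    obtain ⟨k, hk⟩ := hev
    obtain ⟨l, hl⟩ := h2
    omega

open Classical in
/-- Double counting. -/
theorem count_total :
    (Finset.univ.filter (fun z : G => orderOf z = 2)).card *
      (if Even (Fintype.card Ω) then Fintype.card Ω else Fintype.card Ω - 1) =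
      Fintype.card Ω * (Fintype.card Ω - 1) * Nat.card (EE G a b) := by
  have h1 : ∑ z ∈ Finset.univ.filter (fun z : G => orderOf z = 2),
      (Finset.univ.filter (fun c : Ω => z • c ≠ c)).card =
      (Finset.univ.filter (fun z : G => orderOf z = 2)).card *
      (if Even (Fintype.card Ω) then Fintype.card Ω else Fintype.card Ω - 1) := by
    rw [Finset.sum_congr rfl (fun z hz => moved_card hZ hab hodd (Finset.mem_filter.mp hz).2), Finset.sum_const, smul_eq_mul]
  rw [← h1]
  -- count pairs `(z, c)`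
  have h2 : ∀ z ∈ Finset.univ.filter (fun z : G => orderOf z = 2),
      (Finset.univ.filter (fun c : Ω => z • c ≠ c)).card =
      ∑ c : Ω, (if z • c ≠ c then 1 else 0) := by
    intro z _
    rw [Finset.card_filter]
  rw [Finset.sum_congr rfl h2, Finset.sum_comm]
  have h3 : ∀ c : Ω, ∑ z ∈ Finset.univ.filter (fun z : G => orderOf z = 2), (if z • c ≠ c then 1 else 0) =
      (Fintype.card Ω - 1) * Nat.card (EE G a b) := by
    intro c
    rw [← Finset.card_filter, Finset.filter_filter]
    have h4 := Finset.card_eq_sum_card_fiberwise (s := Finset.univ.filter (fun z : G => orderOf z = 2 ∧ z • c ≠ c))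
      (t := (Finset.univ : Finset Ω).erase c) (f := fun z => z • c) (by
        intro z hz
        simp only [Finset.coe_filter, Finset.mem_univ, true_and, Set.mem_ofPred_eq] at hz
        simp [hz.2])
    have h5 : ∀ d ∈ (Finset.univ : Finset Ω).erase c,
        ((Finset.univ.filter (fun z : G => orderOf z = 2 ∧ z • c ≠ c)).filter (fun z => z • c = d)).card = Nat.card (EE G a b) := by
      intro d hd
      have hcd : c ≠ d := (Finset.ne_of_mem_erase hd).symm
      rw [← count_pair hZ hsimple hab hodd hcd, Finset.filter_filter]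
      congr 1
      ext z
      simp only [Finset.mem_filter, Finset.mem_univ, true_and]
      constructor
      · rintro ⟨⟨h6, _⟩, h7⟩
        exact ⟨h6, h7⟩
      · rintro ⟨h6, h7⟩
        exact ⟨⟨h6, by rw [h7]; exact hcd.symm⟩, h7⟩
    rw [Finset.sum_congr rfl h5, Finset.sum_const, smul_eq_mul, Finset.card_erase_of_mem (Finset.mem_univ c), Finset.card_univ] at h4
    exact h4
  rw [Finset.sum_congr rfl (fun c _ => h3 c), Finset.sum_const, smul_eq_mul, Finset.card_univ]
  ring

/-- All involutions are conjugate. -/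
theorem invol_conj {x y : G} (hx : orderOf x = 2) (hy : orderOf y = 2) : IsConj x y := by
  classical
  have hz := zh_of hZ
  have hmove : ∀ t : G, orderOf t = 2 → ∃ c : Ω, t • c ≠ c := by
    intro t ht
    by_contra hcon
    push Not at hcon
    have ht1 : t = 1 := by
      apply hZ.1.eq_of_smul_eq_smul (α := Ω)
      intro c
      rw [hcon c, one_smul]
    rw [ht1, orderOf_one] at ht
    omega
  obtain ⟨c, hc⟩ := hmove x hx
  obtain ⟨c', hc'⟩ := hmove y hy
  obtain ⟨g, hg1, hg2⟩ := hz.two c' (y • c') c (x • c) hc'.symm hc.symm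
  have hcd : c ≠ x • c := hc.symm
  have hoddc := odd_EE hZ hsimple hab hodd hcd
  set y' := g * y * g⁻¹ with hy'
  have hyy : y * y = 1 := by rw [← pow_two, ← hy, pow_orderOf_eq_one]
  have hgi : g⁻¹ • c = c' := by rw [← hg1, inv_smul_smul]
  have hgi2 : g⁻¹ • (x • c) = y • c' := by rw [← hg2, inv_smul_smul]
  have hy'1 : y' • c = x • c := by
    rw [hy', mul_smul, mul_smul, hgi, hg2]
  have hy'2 : y' • (x • c) = c := by
    rw [hy', mul_smul, mul_smul, hgi2, ← mul_smul y y, hyy, one_smul, hg1]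
  have hxx : x * x = 1 := by rw [← pow_two, ← hx, pow_orderOf_eq_one]
  have hs : x * y' ∈ EE G c (x • c) := by
    refine mem_EE.mpr ⟨?_, ?_⟩
    · rw [mul_smul, hy'1, ← mul_smul, hxx, one_smul]
    · rw [mul_smul, hy'2]
  have hinv := E_inverted hZ hsimple hcd hoddc (w := x) rfl (by rw [← mul_smul, hxx, one_smul])
  obtain ⟨k, hk⟩ := hoddc
  set s : G := x * y' with hsdef
  have hspow : s ^ (2 * k + 1) = 1 := by
    rw [← hk]
    have := pow_card_eq_one' (x := (⟨s, hs⟩ : EE G c (x • c)))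
    exact congrArg Subtype.val this
  -- `r = s ^ (k + 1)`, with `r ^ 2 = s`
  set r : G := s ^ (k + 1) with hr
  have hrE : r ∈ EE G c (x • c) := Subgroup.pow_mem _ hs _
  have hr2 : r * r = s := by
    rw [hr, ← pow_add, show k + 1 + (k + 1) = (2 * k + 1) + 1 by ring, pow_succ, hspow, one_mul]
  have hxr : x * r * x⁻¹ = r⁻¹ := hinv r hrE
  have hconj : r⁻¹ * x * r = y' := by
    have h1 : x * r = r⁻¹ * x := by
      rw [← hxr]; group
    calc r⁻¹ * x * r = r⁻¹ * (x * r) := by group
      _ = r⁻¹ * (r⁻¹ * x) := by rw [h1]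
      _ = (r * r)⁻¹ * x := by group
      _ = s⁻¹ * x := by rw [hr2]
      _ = y' := by
          rw [hsdef]
          have : (x * y')⁻¹ * x = y'⁻¹ * (x⁻¹ * x) := by group
          rw [this, inv_mul_cancel, mul_one]
          have hy'y' : y' * y' = 1 := by
            rw [hy']
            have : y * y = 1 := by rw [← pow_two, ← hy, pow_orderOf_eq_one]
            calc g * y * g⁻¹ * (g * y * g⁻¹) = g * (y * y) * g⁻¹ := by group
              _ = 1 := by rw [this]; simp
          exact inv_eq_of_mul_eq_one_left hy'y'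
  have h1 : IsConj x y' := isConj_iff.mpr ⟨r⁻¹, by rw [inv_inv]; exact hconj⟩
  have h2 : IsConj y y' := isConj_iff.mpr ⟨g, rfl⟩
  exact h1.trans h2.symm

/-- The count of involutions in the form of S0882. -/
theorem s0882 (h e : ℕ) (hh : Fintype.card Ω = h + 1) (he : Nat.card (EE G a b) = e) :
    (∀ x y : G, orderOf x = 2 → orderOf y = 2 → IsConj x y) ∧
      Nat.card {x : G // orderOf x = 2} = (if Even h then e * (h + 1) else e * h) := by
  classical
  refine ⟨fun x y hx hy => invol_conj hZ hsimple hab hodd hx hy, ?_⟩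
  have h1 := count_total hZ hsimple hab hodd
  rw [hh, he] at h1
  have hcard : Nat.card {x : G // orderOf x = 2} = (Finset.univ.filter (fun z : G => orderOf z = 2)).card := by
    rw [Nat.card_eq_fintype_card, Fintype.card_subtype]
  rw [hcard]
  set I := (Finset.univ.filter (fun z : G => orderOf z = 2)).card with hI
  have h2le : 2 ≤ h + 1 := by
    rw [← hh]
    have := Finset.card_le_univ ({a, b} : Finset Ω)
    rwa [Finset.card_pair hab] at this
  have hh0 : 0 < h := by omega
  simp only [Nat.add_sub_cancel] at h1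
  by_cases hev : Even h
  · rw [if_pos hev]
    have h3 : ¬ Even (h + 1) := by
      rw [Nat.not_even_iff_odd]
      exact hev.add_one
    rw [if_neg h3] at h1
    apply Nat.eq_of_mul_eq_mul_right hh0
    rw [h1]; ring
  · rw [if_neg hev]
    have h3 : Even (h + 1) := by
      rw [Nat.not_even_iff_odd] at hev
      exact hev.add_one
    rw [if_pos h3] at h1
    apply Nat.eq_of_mul_eq_mul_right (show 0 < h + 1 by omega)
    rw [h1]; ring

end Invol

section BF

variable {G : Type u} {Ω : Type v} [Group G] [Fintype G] [MulAction G Ω] [Fintype Ω]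

omit [Fintype G] [Fintype Ω] in
theorem exists_smul_eq (hz : ZH G Ω) {a b : Ω} (hab : a ≠ b) (c d : Ω) : ∃ g : G, g • c = d := by
  obtain ⟨c', hc'⟩ : ∃ c' : Ω, c ≠ c' := by
    by_cases h : c = a
    · exact ⟨b, h ▸ hab⟩
    · exact ⟨a, h⟩
  obtain ⟨d', hd'⟩ : ∃ d' : Ω, d ≠ d' := by
    by_cases h : d = a
    · exact ⟨b, h ▸ hab⟩
    · exact ⟨a, h⟩
  obtain ⟨g, hg, -⟩ := hz.two c c' d d' hc' hd'
  exact ⟨g, hg⟩

omit [Fintype Ω] in
open Classical in
theorem card_Ic_conj {c d : Ω} {g : G} (hg : g • c = d) :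
    (Finset.univ.filter (fun z : G => orderOf z = 2 ∧ z • c = c)).card =
      (Finset.univ.filter (fun z : G => orderOf z = 2 ∧ z • d = d)).card := by
  apply Finset.card_nbij' (i := fun z => g * z * g⁻¹) (j := fun z => g⁻¹ * z * g)
  · intro z hz
    have hz' := (Finset.mem_filter.mp hz).2
    refine Finset.mem_filter.mpr ⟨Finset.mem_univ _, ?_, ?_⟩
    · rw [Cfsg.Agent.Lib.PNilp.orderOf_conj']; exact hz'.1
    · rw [← hg, mul_smul, mul_smul, inv_smul_smul, hz'.2]
  · intro z hz
    have hz' := (Finset.mem_filter.mp hz).2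
    refine Finset.mem_filter.mpr ⟨Finset.mem_univ _, ?_, ?_⟩
    · have := Cfsg.Agent.Lib.PNilp.orderOf_conj' g⁻¹ z
      rw [inv_inv] at this
      rw [this]; exact hz'.1
    · rw [mul_smul, mul_smul, hg, hz'.2, ← hg, inv_smul_smul]
  · intro z _
    group
  · intro z _
    group

variable (hZ : IsZassenhausGroup G Ω) (hsimple : ∀ N : Subgroup G, N.Normal → N = ⊥ ∨ N = ⊤)
  {a b : Ω} (hab : a ≠ b) (hodd : Odd (Nat.card (EE G a b)))
include hZ hsimple hab hodd

open Classical in
/-- If an involution has a fixed point `c`, exactly `e` involutions fix `c`. -/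
theorem card_Ic {x : G} (hx : orderOf x = 2) {c : Ω} (hc : x • c = c) :
    (Finset.univ.filter (fun z : G => orderOf z = 2 ∧ z • c = c)).card = Nat.card (EE G a b) := by
  have hz := zh_of hZ
  have hm := moved_card hZ hab hodd hx
  have hcardn : (Finset.univ.filter (fun c : Ω => x • c ≠ c)).card < Fintype.card Ω := by
    rw [← Finset.card_univ]
    apply Finset.card_lt_card
    refine Finset.ssubset_univ_iff.mpr ?_
    intro h
    have : c ∈ Finset.univ.filter (fun c : Ω => x • c ≠ c) := by rw [h]; exact Finset.mem_univ c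
    exact (Finset.mem_filter.mp this).2 hc
  have hnodd : ¬ Even (Fintype.card Ω) := by
    intro hev
    rw [if_pos hev] at hm
    omega
  have hn2 : 2 ≤ Fintype.card Ω := by
    have := Finset.card_le_univ ({a, b} : Finset Ω)
    rwa [Finset.card_pair hab] at this
  have htot := count_total hZ hsimple hab hodd
  rw [if_neg hnodd] at htot
  have hI : (Finset.univ.filter (fun z : G => orderOf z = 2)).card = Fintype.card Ω * Nat.card (EE G a b) := by
    apply Nat.eq_of_mul_eq_mul_right (show 0 < Fintype.card Ω - 1 by omega)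
    rw [htot]; ring
  -- every involution has exactly one fixed point
  have hone : ∀ z ∈ Finset.univ.filter (fun z : G => orderOf z = 2),
      (Finset.univ.filter (fun c : Ω => z • c = c)).card = 1 := by
    intro z hz'
    have hz2 := (Finset.mem_filter.mp hz').2
    have h1 := moved_card hZ hab hodd hz2
    rw [if_neg hnodd] at h1
    have hsum : (Finset.univ.filter (fun c : Ω => z • c = c)).card + (Finset.univ.filter (fun c : Ω => z • c ≠ c)).card = Fintype.card Ω := by
      rw [← Finset.card_univ]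
      exact Finset.card_filter_add_card_filter_not (s := (Finset.univ : Finset Ω)) (fun c : Ω => z • c = c)
    omega
  have h2 : ∑ z ∈ Finset.univ.filter (fun z : G => orderOf z = 2), (Finset.univ.filter (fun c : Ω => z • c = c)).card =
      (Finset.univ.filter (fun z : G => orderOf z = 2)).card := by
    rw [Finset.sum_congr rfl hone, Finset.sum_const, smul_eq_mul, mul_one]
  have h3 : ∑ z ∈ Finset.univ.filter (fun z : G => orderOf z = 2), (Finset.univ.filter (fun c : Ω => z • c = c)).card =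
      ∑ d : Ω, (Finset.univ.filter (fun z : G => orderOf z = 2 ∧ z • d = d)).card := by
    have h4 : ∀ z ∈ Finset.univ.filter (fun z : G => orderOf z = 2),
        (Finset.univ.filter (fun c : Ω => z • c = c)).card = ∑ c : Ω, (if z • c = c then 1 else 0) := by
      intro z _
      rw [Finset.card_filter]
    rw [Finset.sum_congr rfl h4, Finset.sum_comm]
    apply Finset.sum_congr rfl
    intro d _
    rw [← Finset.card_filter, Finset.filter_filter]
  have h5 : ∀ d : Ω, (Finset.univ.filter (fun z : G => orderOf z = 2 ∧ z • d = d)).card =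
      (Finset.univ.filter (fun z : G => orderOf z = 2 ∧ z • c = c)).card := by
    intro d
    obtain ⟨g, hg⟩ := exists_smul_eq hz hab d c
    exact card_Ic_conj hg
  rw [Finset.sum_congr rfl (fun d _ => h5 d), Finset.sum_const, smul_eq_mul, Finset.card_univ, h2, hI] at h3
  have hpos : 0 < Fintype.card Ω := by omega
  exact (Nat.eq_of_mul_eq_mul_left hpos h3).symm

omit hZ hsimple hab hodd [Fintype G] [Fintype Ω] in
/-- The two factors of an element of `H` fix the point. -/
theorem prod_fix {H : Subgroup G} (hHa : H ≤ MulAction.stabilizer G a)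
    (hHfix : ∀ u ∈ H, u ≠ 1 → ∀ c : Ω, u • c = c → c = a) {u x y : G} (hu : u ∈ H) (hu1 : u ≠ 1)
    (hx : orderOf x = 2) (hy : orderOf y = 2) (hxy : x * y = u) : x • a = a ∧ y • a = a := by
  have hxx : x * x = 1 := by rw [← pow_two, ← hx, pow_orderOf_eq_one]
  have hyy : y * y = 1 := by rw [← pow_two, ← hy, pow_orderOf_eq_one]
  have hxi : x⁻¹ = x := inv_eq_of_mul_eq_one_left hxx
  have hyi : y⁻¹ = y := inv_eq_of_mul_eq_one_left hyy
  have hui : u⁻¹ = y * x := by rw [← hxy, mul_inv_rev, hxi, hyi]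
  have hua : u • a = a := hHa hu
  have h2 : u⁻¹ • (y • a) = y • a := by
    rw [hui, mul_smul, ← mul_smul x y, hxy, hua]
  have h3 := hHfix u⁻¹ (H.inv_mem hu) (inv_ne_one.mpr hu1) _ h2
  refine ⟨?_, h3⟩
  rw [← hxy, mul_smul, h3] at hua
  exact hua

open Classical in
/-- `H` centralizes every involution fixing `a`. -/
theorem H_comm {H : Subgroup G} (hHa : H ≤ MulAction.stabilizer G a) (hHcard : Nat.card H + 1 = Fintype.card Ω)
    (hHfix : ∀ u ∈ H, u ≠ 1 → ∀ c : Ω, u • c = c → c = a) {x : G} (hx : orderOf x = 2) (hxa : x • a = a) :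
    ∀ u ∈ H, u * x = x * u := by
  have hz := zh_of hZ
  have hxx : x * x = 1 := by rw [← pow_two, ← hx, pow_orderOf_eq_one]
  let C₀ : Subgroup G := Subgroup.centralizer {x} ⊓ MulAction.stabilizer G a
  have hmemC : ∀ g : G, g ∈ C₀ ↔ x * g = g * x ∧ g • a = a := by
    intro g
    simp only [C₀, Subgroup.mem_inf, Subgroup.mem_centralizer_singleton_iff, MulAction.mem_stabilizer_iff]
    rw [eq_comm]
  have hC₀H : C₀ ≤ H := by
    intro g hg
    obtain ⟨hgx, hga⟩ := (hmemC g).mp hg
    apply Cfsg.Agent.Lib.CharZass.zass_card hz.three a H hHa hHcard hHfix g hga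
    by_contra hcon
    push Not at hcon
    obtain ⟨hg1, c, hgc, hca⟩ := hcon
    have hxc : x • c ≠ c := fun h => hca (invol_fix hZ hab hodd hx h hxa)
    have hxca : x • c ≠ a := fun h => hca (by
      have h2 : x • c = x • a := by rw [h, hxa]
      exact smul_left_cancel x h2)
    have hgxc : g • (x • c) = x • c := by rw [← mul_smul, ← hgx, mul_smul, hgc]
    exact hg1 (hz.three g a c (x • c) (Ne.symm hca) hxc.symm (Ne.symm hxca) hga hgc hgxc)
  have hB := card_stab hz hab (G := G) a
  have hcardH : Nat.card H = Fintype.card Ω - 1 := by omega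
  have himg : ((Finset.univ.filter (fun g : G => g • a = a)).image (fun g => g * x * g⁻¹)).card ≤ Nat.card (EE G a b) := by
    rw [← card_Ic hZ hsimple hab hodd hx hxa]
    apply Finset.card_le_card
    intro z hz'
    obtain ⟨g, hg, rfl⟩ := Finset.mem_image.mp hz'
    have hga := (Finset.mem_filter.mp hg).2
    refine Finset.mem_filter.mpr ⟨Finset.mem_univ _, ?_, ?_⟩
    · rw [Cfsg.Agent.Lib.PNilp.orderOf_conj']; exact hx
    · have hgi : g⁻¹ • a = a := by
        rw [inv_smul_eq_iff, hga]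
      rw [mul_smul, mul_smul, hgi, hxa, hga]
  have hfib : ∀ t ∈ (Finset.univ.filter (fun g : G => g • a = a)).image (fun g => g * x * g⁻¹),
      ((Finset.univ.filter (fun g : G => g • a = a)).filter (fun g => g * x * g⁻¹ = t)).card ≤ Nat.card C₀ := by
    intro t ht
    obtain ⟨g₀, hg₀, rfl⟩ := Finset.mem_image.mp ht
    have hg₀a := (Finset.mem_filter.mp hg₀).2
    rw [Nat.card_eq_fintype_card, Fintype.card_subtype]
    apply Finset.card_le_card_of_injOn (fun g => g₀⁻¹ * g)
    · intro g hg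
      have hg' := Finset.mem_filter.mp hg
      have hga := (Finset.mem_filter.mp hg'.1).2
      refine Finset.mem_filter.mpr ⟨Finset.mem_univ _, (hmemC _).mpr ⟨?_, ?_⟩⟩
      · have h1 := hg'.2
        have : g₀⁻¹ * (g * x * g⁻¹) * g₀ = x := by rw [h1]; group
        calc x * (g₀⁻¹ * g) = (g₀⁻¹ * (g * x * g⁻¹) * g₀) * (g₀⁻¹ * g) := by rw [this]
          _ = g₀⁻¹ * g * x := by group
      · rw [mul_smul, hga, inv_smul_eq_iff, hg₀a]
    · intro g₁ _ g₂ _ h
      exact mul_left_cancel h
  have hle := Finset.card_le_mul_card_image (Finset.univ.filter (fun g : G => g • a = a)) (Nat.card C₀) hfib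
  rw [hB] at hle
  have hepos : 0 < Nat.card (EE G a b) := Nat.card_pos
  have hle2 : (Fintype.card Ω - 1) * Nat.card (EE G a b) ≤ Nat.card C₀ * Nat.card (EE G a b) :=
    hle.trans (Nat.mul_le_mul_left _ himg)
  have hge : Nat.card H ≤ Nat.card C₀ := by
    rw [hcardH]
    exact Nat.le_of_mul_le_mul_right hle2 hepos
  have heq : C₀ = H := Subgroup.eq_of_le_of_card_ge hC₀H hge
  intro u hu
  have hu' : u ∈ C₀ := heq ▸ hu
  exact ((hmemC u).mp hu').1.symm

/-- The statement S0883. -/
theorem s0883 {H : Subgroup G} (hHa : H ≤ MulAction.stabilizer G a) (hHcard : Nat.card H + 1 = Fintype.card Ω)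
    (hHfix : ∀ u ∈ H, u ≠ 1 → ∀ c : Ω, u • c = c → c = a) {u x y : G} (hu : u ∈ H) (hu1 : u ≠ 1)
    (hx : orderOf x = 2) (hy : orderOf y = 2) (hxy : x * y = u) : orderOf u = 2 := by
  classical
  have hz := zh_of hZ
  obtain ⟨hxa, hya⟩ := prod_fix hHa hHfix hu hu1 hx hy hxy
  have hcomm := H_comm hZ hsimple hab hodd hHa hHcard hHfix hx hxa
  have hyH : y ∈ H := Cfsg.Agent.Lib.CharZass.zass_card hz.three a H hHa hHcard hHfix y hya
    (Or.inr (fun c hc => invol_fix hZ hab hodd hy hc hya))
  have h1 : y * x = x * y := hcomm y hyH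
  have hxx : x * x = 1 := by rw [← pow_two, ← hx, pow_orderOf_eq_one]
  have hyy : y * y = 1 := by rw [← pow_two, ← hy, pow_orderOf_eq_one]
  apply orderOf_eq_prime
  · rw [pow_two, ← hxy]
    calc x * y * (x * y) = x * (y * x) * y := by group
      _ = x * (x * y) * y := by rw [h1]
      _ = (x * x) * (y * y) := by group
      _ = 1 := by simp [hxx, hyy]
  · exact hu1

end BF

section BF2

variable {G : Type u} {Ω : Type v} [Group G] [Fintype G] [MulAction G Ω] [Fintype Ω]

open Classical in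
/-- The number of involutions `z` such that `z * g` is also an involution. -/
noncomputable def aa (g : G) : ℕ :=
  (Finset.univ.filter (fun z : G => orderOf z = 2 ∧ orderOf (z * g) = 2)).card

omit [Fintype Ω] in
open Classical in
theorem sum_aa : ∑ g : G, aa g =
    (Finset.univ.filter (fun z : G => orderOf z = 2)).card * (Finset.univ.filter (fun z : G => orderOf z = 2)).card := by
  unfold aa
  simp only [Finset.card_filter]
  rw [Finset.sum_comm]
  have h : ∀ z : G, ∑ g : G, (if orderOf z = 2 ∧ orderOf (z * g) = 2 then 1 else 0) =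
      (if orderOf z = 2 then 1 else 0) * ∑ t : G, (if orderOf t = 2 then 1 else 0) := by
    intro z
    by_cases hz : orderOf z = 2
    · simp only [hz, true_and, if_true, one_mul]
      exact Equiv.sum_comp (Equiv.mulLeft z) (fun t => if orderOf t = 2 then 1 else 0)
    · simp [hz]
  simp only [h]
  rw [Finset.sum_mul]

omit [Fintype G] [Fintype Ω] in
theorem inverts {z g : G} (hz : orderOf z = 2) (hzg : orderOf (z * g) = 2) : z * g = g⁻¹ * z := by
  have hzz : z * z = 1 := by rw [← pow_two, ← hz, pow_orderOf_eq_one]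
  have hzg2 : (z * g) * (z * g) = 1 := by rw [← pow_two, ← hzg, pow_orderOf_eq_one]
  have h1 := inv_eq_of_mul_eq_one_left hzg2
  have hzi : z⁻¹ = z := inv_eq_of_mul_eq_one_left hzz
  rw [mul_inv_rev, hzi] at h1
  exact h1.symm

omit [Fintype Ω] in
open Classical in
theorem aa_le (g : G) : aa g ≤ Nat.card (Subgroup.centralizer ({g} : Set G)) := by
  unfold aa
  by_cases hne : (Finset.univ.filter (fun z : G => orderOf z = 2 ∧ orderOf (z * g) = 2)).Nonempty
  · obtain ⟨z₀, hz₀⟩ := hne
    obtain ⟨-, hz₀1, hz₀2⟩ := Finset.mem_filter.mp hz₀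
    rw [Nat.card_eq_fintype_card, Fintype.card_subtype]
    apply Finset.card_le_card_of_injOn (fun z => z * z₀⁻¹)
    · intro z hz
      obtain ⟨-, hz1, hz2⟩ := Finset.mem_filter.mp hz
      refine Finset.mem_filter.mpr ⟨Finset.mem_univ _, Subgroup.mem_centralizer_singleton_iff.mpr ?_⟩
      have h0 := inverts hz₀1 hz₀2
      have h1 := inverts hz1 hz2
      have hzz0 : z₀ * z₀ = 1 := by rw [← pow_two, ← hz₀1, pow_orderOf_eq_one]
      have hz0i : z₀⁻¹ = z₀ := inv_eq_of_mul_eq_one_left hzz0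
      have hz' : z * g⁻¹ = g * z := by
        calc z * g⁻¹ = g * (g⁻¹ * z) * g⁻¹ := by group
          _ = g * (z * g) * g⁻¹ := by rw [h1]
          _ = g * z := by group
      rw [hz0i]
      calc z * z₀ * g = z * (z₀ * g) := by group
        _ = z * (g⁻¹ * z₀) := by rw [h0]
        _ = (z * g⁻¹) * z₀ := by group
        _ = (g * z) * z₀ := by rw [hz']
        _ = g * (z * z₀) := by group
    · intro z₁ _ z₂ _ h
      exact mul_right_cancel h
  · rw [Finset.not_nonempty_iff_eq_empty.mp hne]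
    simp

omit [Fintype Ω] in
open Classical in
theorem aa_one : aa (1 : G) = (Finset.univ.filter (fun z : G => orderOf z = 2)).card := by
  unfold aa
  simp only [mul_one, and_self]

open Classical in
/-- Elements conjugate into `H`. -/
theorem aa_conj_H (hZ : IsZassenhausGroup G Ω) (hsimple : ∀ N : Subgroup G, N.Normal → N = ⊥ ∨ N = ⊤)
    {a b : Ω} (hab : a ≠ b) (hodd : Odd (Nat.card (EE G a b)))
    {H : Subgroup G} (hHa : H ≤ MulAction.stabilizer G a) (hHcard : Nat.card H + 1 = Fintype.card Ω)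
    (hHfix : ∀ u ∈ H, u ≠ 1 → ∀ c : Ω, u • c = c → c = a) {g v : G} (hg1 : g ≠ 1) (hv : v * g * v⁻¹ ∈ H)
    (hne : aa g ≠ 0) : orderOf g = 2 ∧ aa g ≤ Nat.card (EE G a b) := by
  unfold aa at hne ⊢
  obtain ⟨z, hz⟩ := Finset.card_ne_zero.mp hne
  obtain ⟨-, hz1, hz2⟩ := Finset.mem_filter.mp hz
  have hzz : z * z = 1 := by rw [← pow_two, ← hz1, pow_orderOf_eq_one]
  have hu1 : v * g * v⁻¹ ≠ 1 := by
    intro h
    apply hg1
    have : g = v⁻¹ * (v * g * v⁻¹) * v := by group
    rw [this, h]; group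
  have hxy : (v * z * v⁻¹) * (v * (z * g) * v⁻¹) = v * g * v⁻¹ := by
    calc (v * z * v⁻¹) * (v * (z * g) * v⁻¹) = v * (z * z) * g * v⁻¹ := by group
      _ = v * g * v⁻¹ := by rw [hzz, mul_one]
  have ho := s0883 hZ hsimple hab hodd hHa hHcard hHfix hv hu1
    (by rwa [Cfsg.Agent.Lib.PNilp.orderOf_conj']) (by rwa [Cfsg.Agent.Lib.PNilp.orderOf_conj']) hxy
  have hog : orderOf g = 2 := by rwa [Cfsg.Agent.Lib.PNilp.orderOf_conj'] at ho
  have hgfix : g • (v⁻¹ • a) = v⁻¹ • a := by
    have h1 : (v * g * v⁻¹) • a = a := hHa hv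
    rw [mul_smul, mul_smul] at h1
    rw [eq_inv_smul_iff]
    exact h1
  refine ⟨hog, ?_⟩
  rw [← card_Ic hZ hsimple hab hodd hog hgfix]
  apply Finset.card_le_card
  intro z' hz'
  obtain ⟨-, hz'1, hz'2⟩ := Finset.mem_filter.mp hz'
  refine Finset.mem_filter.mpr ⟨Finset.mem_univ _, hz'1, ?_⟩
  have h1 := inverts hz'1 hz'2
  have hgg : g * g = 1 := by rw [← pow_two, ← hog, pow_orderOf_eq_one]
  have hgi : g⁻¹ = g := inv_eq_of_mul_eq_one_left hgg
  rw [hgi] at h1
  have hf : g • (z' • (v⁻¹ • a)) = z' • (v⁻¹ • a) := by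
    rw [← mul_smul, ← h1, mul_smul, hgfix]
  exact invol_fix hZ hab hodd hog hf hgfix

omit [Fintype Ω] in
open Classical in
theorem sum_X (H : Subgroup G) :
    ∑ g ∈ Finset.univ.filter (fun g : G => ∀ v : G, v * g * v⁻¹ ∉ H), Nat.card (Subgroup.centralizer ({g} : Set G)) =
      Nat.card {C : ConjClasses G // ∀ g : G, ConjClasses.mk g = C → g ∉ H} * Nat.card G := by
  haveI : Fintype (ConjClasses G) := Fintype.ofFinite _
  have hd : Nat.card {C : ConjClasses G // ∀ g : G, ConjClasses.mk g = C → g ∉ H} =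
      (Finset.univ.filter (fun C : ConjClasses G => ∀ g : G, ConjClasses.mk g = C → g ∉ H)).card := by
    rw [Nat.card_eq_fintype_card, Fintype.card_subtype]
  rw [hd]
  have hmaps : ∀ g ∈ Finset.univ.filter (fun g : G => ∀ v : G, v * g * v⁻¹ ∉ H),
      ConjClasses.mk g ∈ Finset.univ.filter (fun C : ConjClasses G => ∀ g : G, ConjClasses.mk g = C → g ∉ H) := by
    intro g hg
    have hg' := (Finset.mem_filter.mp hg).2
    refine Finset.mem_filter.mpr ⟨Finset.mem_univ _, ?_⟩
    intro g' hg'g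
    have h1 : IsConj g g' := (ConjClasses.mk_eq_mk_iff_isConj.mp hg'g).symm
    obtain ⟨c, rfl⟩ := isConj_iff.mp h1
    exact hg' c
  rw [← Finset.sum_fiberwise_of_maps_to hmaps]
  have hfib : ∀ C ∈ Finset.univ.filter (fun C : ConjClasses G => ∀ g : G, ConjClasses.mk g = C → g ∉ H),
      ∑ g ∈ (Finset.univ.filter (fun g : G => ∀ v : G, v * g * v⁻¹ ∉ H)).filter (fun g => ConjClasses.mk g = C),
        Nat.card (Subgroup.centralizer ({g} : Set G)) = Nat.card G := by
    intro C hC
    have hC' := (Finset.mem_filter.mp hC).2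
    obtain ⟨x, rfl⟩ := ConjClasses.exists_rep C
    have hset : (Finset.univ.filter (fun g : G => ∀ v : G, v * g * v⁻¹ ∉ H)).filter (fun g => ConjClasses.mk g = ConjClasses.mk x) =
        Finset.univ.filter (fun g : G => IsConj x g) := by
      ext g
      simp only [Finset.mem_filter, Finset.mem_univ, true_and]
      constructor
      · rintro ⟨-, h⟩
        exact (ConjClasses.mk_eq_mk_iff_isConj.mp h).symm
      · intro h
        refine ⟨fun v => ?_, ConjClasses.mk_eq_mk_iff_isConj.mpr h.symm⟩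
        apply hC'
        apply ConjClasses.mk_eq_mk_iff_isConj.mpr
        have h2 : IsConj g (v * g * v⁻¹) := isConj_iff.mpr ⟨v, rfl⟩
        exact h2.symm.trans h.symm
    rw [hset]
    have hconst : ∀ g ∈ Finset.univ.filter (fun g : G => IsConj x g),
        Nat.card (Subgroup.centralizer ({g} : Set G)) = Nat.card (Subgroup.centralizer ({x} : Set G)) := by
      intro g hg
      have hxg := (Finset.mem_filter.mp hg).2
      have h1 := Cfsg.Agent.Lib.InvolSylow.orbit_conj_card x
      have h2 := Cfsg.Agent.Lib.InvolSylow.orbit_conj_card g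
      have h3 : (fun y => IsConj g y) = (fun y => IsConj x y) :=
        funext fun y => propext ⟨hxg.trans, hxg.symm.trans⟩
      have h4 : Nat.card {y : G // IsConj g y} = Nat.card {y : G // IsConj x y} := by
        simp only [h3]
      rw [h4] at h2
      have h5 : 0 < Nat.card {y : G // IsConj x y} := by
        haveI : Nonempty {y : G // IsConj x y} := ⟨⟨x, IsConj.refl x⟩⟩
        exact Nat.card_pos
      exact Nat.eq_of_mul_eq_mul_left h5 (h2.trans h1.symm)
    rw [Finset.sum_congr rfl hconst, Finset.sum_const, smul_eq_mul, ← Cfsg.Agent.Lib.InvolSylow.orbit_conj_card x]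
    congr 1
    rw [Nat.card_eq_fintype_card, Fintype.card_subtype]
  rw [Finset.sum_congr rfl hfib, Finset.sum_const, smul_eq_mul]

/-- The statement S0884 (Brauer--Fowler counting). -/
theorem s0884 (hZ : IsZassenhausGroup G Ω) (hsimple : ∀ N : Subgroup G, N.Normal → N = ⊥ ∨ N = ⊤)
    {a b : Ω} (hab : a ≠ b) (hodd : Odd (Nat.card (EE G a b))) (h e : ℕ) (hh : Fintype.card Ω = h + 1)
    (he : Nat.card (EE G a b) = e) (hlt : 2 * e < h - 1)
    {H : Subgroup G} (hHa : H ≤ MulAction.stabilizer G a) (hHcard : Nat.card H + 1 = Fintype.card Ω)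
    (hHfix : ∀ u ∈ H, u ≠ 1 → ∀ c : Ω, u • c = c → c = a) :
    e ≤ Nat.card {C : ConjClasses G // ∀ g : G, ConjClasses.mk g = C → g ∉ H} := by
  classical
  have hI := (s0882 hZ hsimple hab hodd h e hh he).2
  have hIc : Nat.card {x : G // orderOf x = 2} = (Finset.univ.filter (fun z : G => orderOf z = 2)).card := by
    rw [Nat.card_eq_fintype_card, Fintype.card_subtype]
  rw [hIc] at hI
  have hG := card_group (zh_of hZ) (G := G) hab
  rw [hh, he, Nat.add_sub_cancel] at hG
  have h1 := sum_aa (G := G)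
  have hX := sum_X H
  rw [← Finset.sum_filter_add_sum_filter_not (Finset.univ : Finset G) (fun g : G => ∀ v : G, v * g * v⁻¹ ∉ H)] at h1
  have h3 : ∑ g ∈ Finset.univ.filter (fun g : G => ∀ v : G, v * g * v⁻¹ ∉ H), aa g ≤
      Nat.card {C : ConjClasses G // ∀ g : G, ConjClasses.mk g = C → g ∉ H} * Nat.card G := by
    rw [← hX]
    exact Finset.sum_le_sum (fun g _ => aa_le g)
  have h4 : ∑ g ∈ Finset.univ.filter (fun g : G => ¬ ∀ v : G, v * g * v⁻¹ ∉ H), aa g ≤
      (Finset.univ.filter (fun z : G => orderOf z = 2)).card + (Finset.univ.filter (fun z : G => orderOf z = 2)).card * e := by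
    calc ∑ g ∈ Finset.univ.filter (fun g : G => ¬ ∀ v : G, v * g * v⁻¹ ∉ H), aa g
        ≤ ∑ g ∈ Finset.univ.filter (fun g : G => ¬ ∀ v : G, v * g * v⁻¹ ∉ H),
          ((if g = 1 then (Finset.univ.filter (fun z : G => orderOf z = 2)).card else 0) + (if orderOf g = 2 then e else 0)) := by
          apply Finset.sum_le_sum
          intro g hg
          have hg' := (Finset.mem_filter.mp hg).2
          push Not at hg'
          obtain ⟨v, hv⟩ := hg'
          by_cases hg1 : g = 1
          · subst hg1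
            rw [if_pos rfl, aa_one]
            omega
          · rw [if_neg hg1, zero_add]
            by_cases hne : aa g = 0
            · rw [hne]; omega
            · obtain ⟨h5, h6⟩ := aa_conj_H hZ hsimple hab hodd hHa hHcard hHfix hg1 hv hne
              rw [if_pos h5, ← he]
              exact h6
      _ ≤ ∑ g : G, ((if g = 1 then (Finset.univ.filter (fun z : G => orderOf z = 2)).card else 0) + (if orderOf g = 2 then e else 0)) :=
          Finset.sum_le_sum_of_subset (Finset.filter_subset _ _)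
      _ = _ := by
          rw [Finset.sum_add_distrib, Finset.sum_ite_eq' Finset.univ (1 : G), if_pos (Finset.mem_univ _), ← Finset.sum_filter,
            Finset.sum_const, smul_eq_mul]
  have hmain : (Finset.univ.filter (fun z : G => orderOf z = 2)).card * (Finset.univ.filter (fun z : G => orderOf z = 2)).card ≤
      Nat.card {C : ConjClasses G // ∀ g : G, ConjClasses.mk g = C → g ∉ H} * Nat.card G +
        ((Finset.univ.filter (fun z : G => orderOf z = 2)).card + (Finset.univ.filter (fun z : G => orderOf z = 2)).card * e) := by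
    rw [← h1]
    exact Nat.add_le_add h3 h4
  rw [hG] at hmain
  generalize Nat.card {C : ConjClasses G // ∀ g : G, ConjClasses.mk g = C → g ∉ H} = d at hmain ⊢
  generalize (Finset.univ.filter (fun z : G => orderOf z = 2)).card = I at hmain hI
  have hepos : 0 < e := by rw [← he]; exact Nat.card_pos
  by_contra hcon
  have hde : d + 1 ≤ e := by omega
  have hh4 : 2 * e + 2 ≤ h := by omega
  by_cases hev : Even h
  · rw [if_pos hev] at hI
    subst hI
    have h7 : e * (h + 1) * (e * (h + 1)) ≤ e * (h + 1) * (d * h + 1 + e) := by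
      calc e * (h + 1) * (e * (h + 1)) ≤ d * ((h + 1) * h * e) + (e * (h + 1) + e * (h + 1) * e) := hmain
        _ = e * (h + 1) * (d * h + 1 + e) := by ring
    have h8 : e * (h + 1) ≤ d * h + 1 + e := Nat.le_of_mul_le_mul_left h7 (by positivity)
    have h9 : (d + 1) * h ≤ e * h := Nat.mul_le_mul_right h hde
    nlinarith
  · rw [if_neg hev] at hI
    subst hI
    have hhpos : 0 < h := by omega
    have h7 : e * h * (e * h) ≤ e * h * (d * (h + 1) + 1 + e) := by
      calc e * h * (e * h) ≤ d * ((h + 1) * h * e) + (e * h + e * h * e) := hmain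
        _ = e * h * (d * (h + 1) + 1 + e) := by ring
    have h8 : e * h ≤ d * (h + 1) + 1 + e := Nat.le_of_mul_le_mul_left h7 (by positivity)
    have h9 : (d + 1) * (h + 1) ≤ e * (h + 1) := Nat.mul_le_mul_right _ hde
    nlinarith

end BF2

end Cfsg.Agent.Lib.CharZass2
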