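import Cfsg.Agent.Lib.ChevTab
import Cfsg.Prelude.Def_ChevB2

/-! Fast tables for type B2. -/

set_option autoImplicit false

namespace Cfsg.Agent.Lib.ChevTbB2

open Cfsg.Agent.Lib.ChevTab

def chRows : List ℕ := [0x15000024000000000000000000000000000,
  0x320b400000000078008110000000000200000000000,
  0x4a0c4000260000000000000a0240000000001800000,
  0x29000000000000000000000d00000000000,
  0xc4000000000000000000005400000,
  0x3a0000001e835000000000000000680e80d,
  0xf8000000720b40002200000010811,
  0x350000a400000]
def caRows : List ℕ := [0xa8a6a686,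
  0x897a6978]
def coRows : List ℕ := [0x77,
  0x67,
  0x87,
  0x78,
  0x98,
  0x89,
  0xa9,
  0x99]
def simL : List ℕ := [5, 4]
def reflRows : List ℕ := [0x406020700050103,
  0x705060304010200]
def epsRows : List ℕ := [0xff,
  0x5a]

noncomputable def T : Tb := mkTb 8 2 22 4194303 chRows caRows coRows simL reflRows epsRows

end Cfsg.Agent.Lib.ChevTbB2
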