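import Cfsg.Agent.Lib.ChevTab
import Cfsg.Prelude.Def_ChevD4

/-! Fast tables for type D4. -/

set_option autoImplicit false

namespace Cfsg.Agent.Lib.ChevTbD4

open Cfsg.Agent.Lib.ChevTab

def chRows : List ℕ := [0x1342083906a0001081d02a02400000000000000000000000000000000000000,
  0xea0002e8550000d4148000000000c811000000008000000000000000000000000,
  0xf2194000000aa0f40002900000010800012000000050000000000000000000000,
  0x1021b4000000ba11400000052000000210000240000000a0000000000000000000,
  0x11a00036865000134000000000a400000032044000000000040000000000000000,
  0x2344287d0ea0000000000000000000000000108190220240000000000000000,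
  0x132244000000000000005d0aa00020839000000000000000000680500000000000,
  0x14a000488000000003280000015424800062000000000000000a80000200000000,
  0x15a0000009100000036800000174000490000c4000000000000e80000000400000,
  0x162000000001220000006d0ca000000000820e4000000000001280000000002800,
  0x2844c8000000003c871000000000000000001e8350000000001501a00000000,
  0x2a400099000000408000e2000000000000002280006a0000001d00003400000,
  0x58800142000000890001e4000000000000004d0000f40000004a0000a800,
  0xb115200000000112204000000000000000009a114000000000940e800,
  0x2e400000000264000000000004287d000000000590a20000002d0000000000d,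
  0x5e80000028400000000000468000ea000308000001440000005a00000011,
  0xbd0002a4000000000000008d0001d434800000164000000000b400019,
  0x1722c4000000000000000010a1f4000690c20000000000000016825,
  0x5a8ad14a2740000000000000000000000000490820e418800,
  0x5e800000000568a50000004a800000000388000b214400031,
  0xb90000005a80013a000000950000003c8610000002883d,
  0x172000000b50002740000012a000408690000002c845,
  0x2f40000015a29400000000254448000d218400049,
  0x5a8a91422740008910a1f438800]
def caRows : List ℕ := [0x89999a777788889999677778,
  0x978897899a77996778978897,
  0x8997789977a8869977899778,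
  0x89797897978a689797897978]
def coRows : List ℕ := [0x7767,
  0x7777,
  0x8777,
  0x7877,
  0x8877,
  0x8887,
  0x7778,
  0x8778,
  0x7878,
  0x8878,
  0x8788,
  0x7888,
  0x9888,
  0x8988,
  0x8898,
  0x9898,
  0x8998,
  0x9998,
  0x8889,
  0x8899,
  0x9899,
  0x8999,
  0x9999,
  0x99a9]
def simL : List ℕ := [18, 14, 13, 12]
def reflRows : List ℕ := [0x1711100f0e05161514130d0c0b0a04030201120908070600,
  0x161715141213110d0c09100f08070e0b0a06040503020001,
  0x1714131615120f0e11100a0c0b0d07060908050201040300,
  0x17151613141210110e0f0d0b0c0a08090607050304010200]
def epsRows : List ℕ := [0x7c3e0,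
  0x887e11,
  0x6324c6,
  0x52994a]

noncomputable def T : Tb := mkTb 24 4 11 2047 chRows caRows coRows simL reflRows epsRows

end Cfsg.Agent.Lib.ChevTbD4
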