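import Cfsg.Agent.Lib.ChevValid
import Cfsg.Agent.Lib.ChevTbE6

/-! Kernel verification of the tables of type E6. -/

set_option autoImplicit false

namespace Cfsg.Agent.Lib.ChevValidE6

open Cfsg.Lie Cfsg.Agent.Lib.ChevTab Cfsg.Agent.Lib.ChevMono Cfsg.Agent.Lib.ChevRel Cfsg.Agent.Lib.ChevValid Cfsg.Agent.Lib.ChevTbE6

theorem chk_faith : checkFaith chevE6 T = true := by decide +kernel
theorem chk_rows : chRows.length ≤ 72 := by decide +kernel
theorem chk_mono : checkMono T = true := by decide +kernel
theorem chk_refl : checkRefl T = true := by decide +kernel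
theorem chk_cartan : checkCartan2 T = true := by decide +kernel
theorem chk_al : checkAl chevE6 T = true := by decide +kernel
theorem chk_up : checkUp T = true := by decide +kernel
theorem chk_base : checkBaseAdd T = true := by decide +kernel
theorem chk_cf : checkCF chevE6 T = true := by decide +kernel
theorem chk_refl2 : checkRefl2 T = true := by decide +kernel
theorem chk_neg : checkNeg T = true := by decide +kernel

theorem valid : Valid chevE6 T :=
  ⟨faithful_of_check chk_faith (fun _ _ h => mkCh_out_left (le_trans chk_rows h)) (fun _ _ h => mkCh_out_right h),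
    chk_mono, chk_refl, chk_cartan, chk_al, chk_up, chk_base, chk_cf, chk_refl2, chk_neg⟩

end Cfsg.Agent.Lib.ChevValidE6
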