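import Cfsg.Agent.Lib.ChevValidG2
import Cfsg.Agent.Lib.ChevValidB2
import Cfsg.Agent.Lib.ChevValidD4
import Cfsg.Agent.Lib.ChevValidF4
import Cfsg.Agent.Lib.ChevValidE6
import Cfsg.Agent.Lib.ChevValidE7
import Cfsg.Agent.Lib.ChevValidE8

/-! All seven tables are valid. -/

set_option autoImplicit false

namespace Cfsg.Agent.Lib.ChevAll

open Cfsg.Lie Cfsg.Agent.Lib.ChevTab Cfsg.Agent.Lib.ChevValid

theorem exists_valid {D : ChevalleyDatum}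
    (hD : D ∈ [chevG2, chevB2, chevD4, chevF4, chevE6, chevE7, chevE8]) : ∃ T, Valid D T := by
  simp only [List.mem_cons, List.not_mem_nil, or_false] at hD
  rcases hD with rfl | rfl | rfl | rfl | rfl | rfl | rfl
  · exact ⟨_, Cfsg.Agent.Lib.ChevValidG2.valid⟩
  · exact ⟨_, Cfsg.Agent.Lib.ChevValidB2.valid⟩
  · exact ⟨_, Cfsg.Agent.Lib.ChevValidD4.valid⟩
  · exact ⟨_, Cfsg.Agent.Lib.ChevValidF4.valid⟩
  · exact ⟨_, Cfsg.Agent.Lib.ChevValidE6.valid⟩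
  · exact ⟨_, Cfsg.Agent.Lib.ChevValidE7.valid⟩
  · exact ⟨_, Cfsg.Agent.Lib.ChevValidE8.valid⟩

end Cfsg.Agent.Lib.ChevAll
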