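import Cfsg.Agent.Lib.ChevL2
import Cfsg.Agent.Lib.ChevValidB2

/-! Root coefficient tables for type B2. -/

set_option autoImplicit false

namespace Cfsg.Agent.Lib.ChevV2B2

open Cfsg.Lie Cfsg.Agent.Lib.ChevTab Cfsg.Agent.Lib.ChevL2 Cfsg.Agent.Lib.ChevTbB2

def coefRows : List ℕ := [0x76, 0x77, 0x87, 0x78, 0x98, 0x89, 0x99, 0x9a]

noncomputable def C : Tc := mkTc coefRows

theorem chk_coef : checkCoef chevB2 T C = true := by decide +kernel
theorem chk_pos : checkPos chevB2 T C = true := by decide +kernel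
theorem chk_eps : (allBelow T.l fun i => decide (T.eps i (T.sim i) = -1)) = true := by decide +kernel

theorem chk_l : 0 < T.l := by decide +kernel

theorem valid2 : Valid2 chevB2 T C := ⟨chk_coef, chk_pos, chk_eps, chk_l⟩

end Cfsg.Agent.Lib.ChevV2B2
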