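import Cfsg.Agent.Lib.ChevL2
import Cfsg.Agent.Lib.ChevValidD4

/-! Root coefficient tables for type D4. -/

set_option autoImplicit false

namespace Cfsg.Agent.Lib.ChevV2D4

open Cfsg.Lie Cfsg.Agent.Lib.ChevTab Cfsg.Agent.Lib.ChevL2 Cfsg.Agent.Lib.ChevTbD4

def coefRows : List ℕ := [0x7767, 0x7777, 0x8777, 0x7877, 0x8877, 0x8887, 0x7778, 0x8778, 0x7878, 0x8878, 0x8788, 0x7888, 0x9888, 0x8988, 0x8898, 0x9898, 0x8998, 0x9998, 0x8889, 0x8899, 0x9899, 0x8999, 0x9999, 0x99a9]

noncomputable def C : Tc := mkTc coefRows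

theorem chk_coef : checkCoef chevD4 T C = true := by decide +kernel
theorem chk_pos : checkPos chevD4 T C = true := by decide +kernel
theorem chk_eps : (allBelow T.l fun i => decide (T.eps i (T.sim i) = -1)) = true := by decide +kernel

theorem chk_l : 0 < T.l := by decide +kernel

theorem valid2 : Valid2 chevD4 T C := ⟨chk_coef, chk_pos, chk_eps, chk_l⟩

end Cfsg.Agent.Lib.ChevV2D4
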