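import Cfsg.Agent.Lib.ChevL2
import Cfsg.Agent.Lib.ChevValidE6

/-! Root coefficient tables for type E6. -/

set_option autoImplicit false

namespace Cfsg.Agent.Lib.ChevV2E6

open Cfsg.Lie Cfsg.Agent.Lib.ChevTab Cfsg.Agent.Lib.ChevL2 Cfsg.Agent.Lib.ChevTbE6

def coefRows : List ℕ := [0x765667, 0x765677, 0x766677, 0x776677, 0x876677, 0x766777, 0x776777, 0x876777, 0x777777, 0x877777, 0x887777, 0x777787, 0x877787, 0x887787, 0x888787, 0x888887, 0x766778, 0x776778, 0x876778, 0x777778, 0x877778, 0x887778, 0x777878, 0x877878, 0x887878, 0x888878, 0x777788, 0x877788, 0x887788, 0x888788, 0x777888, 0x877888, 0x887888, 0x778888, 0x878888, 0x788888, 0x988888, 0x898888, 0x998888, 0x889888, 0x899888, 0x999888, 0x888988, 0x889988, 0x899988, 0x999988, 0x888898, 0x889898, 0x899898, 0x999898, 0x889998, 0x899998, 0x999998, 0x89a998, 0x99a998, 0x9aa998, 0x888889, 0x888989, 0x889989, 0x899989, 0x999989, 0x889999, 0x899999, 0x999999, 0x89a999, 0x99a999, 0x9aa999, 0x89aa99, 0x99aa99, 0x9aaa99, 0x9aba99,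 0x9abaa9]

noncomputable def C : Tc := mkTc coefRows

theorem chk_coef : checkCoef chevE6 T C = true := by decide +kernel
theorem chk_pos : checkPos chevE6 T C = true := by decide +kernel
theorem chk_eps : (allBelow T.l fun i => decide (T.eps i (T.sim i) = -1)) = true := by decide +kernel

theorem chk_l : 0 < T.l := by decide +kernel

theorem valid2 : Valid2 chevE6 T C := ⟨chk_coef, chk_pos, chk_eps, chk_l⟩

end Cfsg.Agent.Lib.ChevV2E6
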