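import Cfsg.Agent.Lib.ChevL2
import Cfsg.Agent.Lib.ChevValidE7

/-! Root coefficient tables for type E7. -/

set_option autoImplicit false

namespace Cfsg.Agent.Lib.ChevV2E7

open Cfsg.Lie Cfsg.Agent.Lib.ChevTab Cfsg.Agent.Lib.ChevL2 Cfsg.Agent.Lib.ChevTbE7

def coefRows : List ℕ := [0x7654566, 0x7654567, 0x7654667, 0x7655667, 0x7665667, 0x7765667, 0x8765667, 0x7655677, 0x7665677, 0x7765677, 0x8765677, 0x7666677, 0x7766677, 0x8766677, 0x7776677, 0x8776677, 0x8876677, 0x7666777, 0x7766777, 0x8766777, 0x7776777, 0x8776777, 0x8876777, 0x7777777, 0x8777777, 0x8877777, 0x8887777, 0x7777787, 0x8777787, 0x8877787, 0x8887787, 0x8888787, 0x8888887, 0x7666778, 0x7766778, 0x8766778, 0x7776778, 0x8776778, 0x8876778, 0x7777778, 0x8777778, 0x8877778, 0x8887778, 0x7777878, 0x8777878, 0x8877878, 0x8887878, 0x8888878, 0x7777788, 0x8777788, 0x8877788, 0x8887788, 0x8888788, 0x7777888, 0x8777888, 0x8877888, 0x8887888, 0x7778888, 0x8778888, 0x8878888,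 0x7788888, 0x8788888, 0x7888888, 0x9888888, 0x8988888, 0x9988888, 0x8898888, 0x8998888, 0x9998888, 0x8889888, 0x8899888, 0x8999888, 0x9999888, 0x8888988, 0x8889988, 0x8899988, 0x8999988, 0x9999988, 0x8888898, 0x8889898, 0x8899898, 0x8999898, 0x9999898, 0x8889998, 0x8899998, 0x8999998, 0x9999998, 0x889a998, 0x899a998, 0x999a998, 0x89aa998, 0x99aa998, 0x9aaa998, 0x8888889, 0x8888989, 0x8889989, 0x8899989, 0x8999989, 0x9999989, 0x8889999, 0x8899999, 0x8999999, 0x9999999, 0x889a999, 0x899a999, 0x999a999, 0x89aa999, 0x99aa999, 0x9aaa999, 0x889aa99, 0x899aa99, 0x999aa99, 0x89aaa99, 0x99aaa99, 0x9aaaa99, 0x89aba99, 0x99aba99, 0x9aaba99, 0x9abba99, 0x89abaa9, 0x99abaa9, 0x9aabaa9, 0x9abbaa9, 0x9abcaa9, 0x9abcba9, 0x9abcbaa]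

noncomputable def C : Tc := mkTc coefRows

theorem chk_coef : checkCoef chevE7 T C = true := by decide +kernel
theorem chk_pos : checkPos chevE7 T C = true := by decide +kernel
theorem chk_eps : (allBelow T.l fun i => decide (T.eps i (T.sim i) = -1)) = true := by decide +kernel

theorem chk_l : 0 < T.l := by decide +kernel

theorem valid2 : Valid2 chevE7 T C := ⟨chk_coef, chk_pos, chk_eps, chk_l⟩

end Cfsg.Agent.Lib.ChevV2E7
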