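import Cfsg.Agent.Lib.ChevL2
import Cfsg.Agent.Lib.ChevValidF4

/-! Root coefficient tables for type F4. -/

set_option autoImplicit false

namespace Cfsg.Agent.Lib.ChevV2F4

open Cfsg.Lie Cfsg.Agent.Lib.ChevTab Cfsg.Agent.Lib.ChevL2 Cfsg.Agent.Lib.ChevTbF4

def coefRows : List ℕ := [0x6546, 0x7546, 0x7646, 0x7656, 0x7666, 0x7766, 0x8766, 0x7657, 0x7667, 0x7767, 0x8767, 0x7777, 0x8777, 0x8877, 0x8887, 0x7668, 0x7768, 0x8768, 0x7778, 0x8778, 0x8878, 0x7788, 0x8788, 0x7888, 0x9888, 0x8988, 0x9988, 0x8898, 0x8998, 0x9998, 0x89a8, 0x99a8, 0x9aa8, 0x8889, 0x8899, 0x8999, 0x9999, 0x89a9, 0x99a9, 0x9aa9, 0x9ab9, 0x89aa, 0x99aa, 0x9aaa, 0x9aba, 0x9aca, 0x9bca, 0xabca]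

noncomputable def C : Tc := mkTc coefRows

theorem chk_coef : checkCoef chevF4 T C = true := by decide +kernel
theorem chk_pos : checkPos chevF4 T C = true := by decide +kernel
theorem chk_eps : (allBelow T.l fun i => decide (T.eps i (T.sim i) = -1)) = true := by decide +kernel

theorem chk_l : 0 < T.l := by decide +kernel

theorem valid2 : Valid2 chevF4 T C := ⟨chk_coef, chk_pos, chk_eps, chk_l⟩

end Cfsg.Agent.Lib.ChevV2F4
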