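import Cfsg.Agent.Lib.ChevV3
import Cfsg.Agent.Lib.ChevV2D4

/-! Descent tables for type D4. -/

set_option autoImplicit false

namespace Cfsg.Agent.Lib.ChevV3D4

open Cfsg.Lie Cfsg.Agent.Lib.ChevTab Cfsg.Agent.Lib.ChevL2 Cfsg.Agent.Lib.ChevV3 Cfsg.Agent.Lib.ChevTbD4 Cfsg.Agent.Lib.ChevV2D4

noncomputable def X : Tc3 := mkTc3 0x40302020100020101000000010101020203010203030405 0x10302030100030203010203030201030203000103020301

theorem chk_cr : checkCoefRefl T C = true := by decide +kernel
theorem chk_s : checkSimple T = true := by decide +kernel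
theorem chk_cl : checkCaLin T C = true := by decide +kernel
theorem chk_ds : checkDescent T X = true := by decide +kernel
theorem chk_pp : checkPosPerm T = true := by decide +kernel

theorem valid3 : Valid3 T C X := ⟨chk_cr, chk_s, chk_cl, chk_ds, chk_pp⟩

end Cfsg.Agent.Lib.ChevV3D4
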