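import Cfsg.Agent.Lib.ChevV3
import Cfsg.Agent.Lib.ChevV2E6

/-! Descent tables for type E6. -/

set_option autoImplicit false

namespace Cfsg.Agent.Lib.ChevV3E6

open Cfsg.Lie Cfsg.Agent.Lib.ChevTab Cfsg.Agent.Lib.ChevL2 Cfsg.Agent.Lib.ChevV3 Cfsg.Agent.Lib.ChevTbE6 Cfsg.Agent.Lib.ChevV2E6

noncomputable def X : Tc3 := mkTc3 0xa0908070607060505040304030201000605040403020302010003020100020100010000010102010203010203040102030403040505060701020304050405060607080708090a0b 0x10304050204050305040105040302000405030504020504030105040302050403050405050405030405020304050103040502040503050400020304050104050305040205040301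

theorem chk_cr : checkCoefRefl T C = true := by decide +kernel
theorem chk_s : checkSimple T = true := by decide +kernel
theorem chk_cl : checkCaLin T C = true := by decide +kernel
theorem chk_ds : checkDescent T X = true := by decide +kernel
theorem chk_pp : checkPosPerm T = true := by decide +kernel

theorem valid3 : Valid3 T C X := ⟨chk_cr, chk_s, chk_cl, chk_ds, chk_pp⟩

end Cfsg.Agent.Lib.ChevV3E6
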