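import Cfsg.Agent.Lib.ChevV3
import Cfsg.Agent.Lib.ChevV2E7

/-! Descent tables for type E7. -/

set_option autoImplicit false

namespace Cfsg.Agent.Lib.ChevV3E7

open Cfsg.Lie Cfsg.Agent.Lib.ChevTab Cfsg.Agent.Lib.ChevL2 Cfsg.Agent.Lib.ChevV3 Cfsg.Agent.Lib.ChevTbE7 Cfsg.Agent.Lib.ChevV2E7

noncomputable def X : Tc3 := mkTc3 0x100f0e0d0c0b0a0c0b0a090a0908080706090807070605060504030504030201000807060605040504030204030201000403020100030201000201000100000101020102030102030401020304050102030405030405060506070708090102030405060405060706070808090a070809090a0b0a0b0c0d0b0c0d0e0f1011 0x203040506010405060305060406050205060406050306050401060504030200050604060503060504020605040301060504030206050403060504060506060506040506030405060203040506010304050602040506030506040605000203040506010405060305060406050205060406050306050401060504030200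

theorem chk_cr : checkCoefRefl T C = true := by decide +kernel
theorem chk_s : checkSimple T = true := by decide +kernel
theorem chk_cl : checkCaLin T C = true := by decide +kernel
theorem chk_ds : checkDescent T X = true := by decide +kernel
theorem chk_pp : checkPosPerm T = true := by decide +kernel

theorem valid3 : Valid3 T C X := ⟨chk_cr, chk_s, chk_cl, chk_ds, chk_pp⟩

end Cfsg.Agent.Lib.ChevV3E7
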