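import Cfsg.Agent.Lib.ChevV3G2
import Cfsg.Agent.Lib.ChevV3B2
import Cfsg.Agent.Lib.ChevV3D4
import Cfsg.Agent.Lib.ChevV3F4
import Cfsg.Agent.Lib.ChevV3E6
import Cfsg.Agent.Lib.ChevV3E7
import Cfsg.Agent.Lib.ChevV3E8

/-! All seven tables satisfy the third set of checks. -/

set_option autoImplicit false

namespace Cfsg.Agent.Lib.ChevAll3

open Cfsg.Lie Cfsg.Agent.Lib.ChevTab Cfsg.Agent.Lib.ChevValid Cfsg.Agent.Lib.ChevL2 Cfsg.Agent.Lib.ChevV3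

theorem exists_valid3 {D : ChevalleyDatum}
    (hD : D ∈ [chevG2, chevB2, chevD4, chevF4, chevE6, chevE7, chevE8]) :
    ∃ T C X, Valid D T ∧ Valid2 D T C ∧ Valid3 T C X := by
  simp only [List.mem_cons, List.not_mem_nil, or_false] at hD
  rcases hD with rfl | rfl | rfl | rfl | rfl | rfl | rfl
  · exact ⟨_, _, _, Cfsg.Agent.Lib.ChevValidG2.valid, Cfsg.Agent.Lib.ChevV2G2.valid2, Cfsg.Agent.Lib.ChevV3G2.valid3⟩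
  · exact ⟨_, _, _, Cfsg.Agent.Lib.ChevValidB2.valid, Cfsg.Agent.Lib.ChevV2B2.valid2, Cfsg.Agent.Lib.ChevV3B2.valid3⟩
  · exact ⟨_, _, _, Cfsg.Agent.Lib.ChevValidD4.valid, Cfsg.Agent.Lib.ChevV2D4.valid2, Cfsg.Agent.Lib.ChevV3D4.valid3⟩
  · exact ⟨_, _, _, Cfsg.Agent.Lib.ChevValidF4.valid, Cfsg.Agent.Lib.ChevV2F4.valid2, Cfsg.Agent.Lib.ChevV3F4.valid3⟩
  · exact ⟨_, _, _, Cfsg.Agent.Lib.ChevValidE6.valid, Cfsg.Agent.Lib.ChevV2E6.valid2, Cfsg.Agent.Lib.ChevV3E6.valid3⟩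
  · exact ⟨_, _, _, Cfsg.Agent.Lib.ChevValidE7.valid, Cfsg.Agent.Lib.ChevV2E7.valid2, Cfsg.Agent.Lib.ChevV3E7.valid3⟩
  · exact ⟨_, _, _, Cfsg.Agent.Lib.ChevValidE8.valid, Cfsg.Agent.Lib.ChevV2E8.valid2, Cfsg.Agent.Lib.ChevV3E8.valid3⟩

end Cfsg.Agent.Lib.ChevAll3
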