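import Cfsg.Agent.Lib.ChevV4
import Cfsg.Agent.Lib.ChevV3B2

/-! More tables for type B2. -/

set_option autoImplicit false

namespace Cfsg.Agent.Lib.ChevV4B2

open Cfsg.Lie Cfsg.Agent.Lib.ChevTab Cfsg.Agent.Lib.ChevL2 Cfsg.Agent.Lib.ChevV4 Cfsg.Agent.Lib.ChevTbB2 Cfsg.Agent.Lib.ChevV2B2

noncomputable def Y : Tc4 := mkTc4 [0, 1, 0, 1] 0 0x0 0x100 0x1000000000000 0x201010202010102 0x500000201000001 0x401010707010104

theorem chk_w0 : checkW0 T Y = true := by decide +kernel
theorem chk_conn : checkConn T Y = true := by decide +kernel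
theorem chk_co : checkCo T C = true := by decide +kernel
theorem chk_st2 : checkSt2 T Y = true := by decide +kernel
theorem chk_perf : checkPerf T Y = true := by decide +kernel

theorem valid4 : Valid4 chevB2 T C Y := ⟨chk_w0, chk_conn, chk_co, chk_st2, chk_perf, Or.inl (by simp)⟩

end Cfsg.Agent.Lib.ChevV4B2
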