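import Cfsg.Agent.Lib.ChevV4
import Cfsg.Agent.Lib.ChevV3D4

/-! More tables for type D4. -/

set_option autoImplicit false

namespace Cfsg.Agent.Lib.ChevV4D4

open Cfsg.Lie Cfsg.Agent.Lib.ChevTab Cfsg.Agent.Lib.ChevL2 Cfsg.Agent.Lib.ChevV4 Cfsg.Agent.Lib.ChevTbD4 Cfsg.Agent.Lib.ChevV2D4

noncomputable def Y : Tc4 := mkTc4 [0, 1, 0, 2, 1, 0, 3, 1, 0, 2, 1, 3] 0 0x1010000 0x2020100 0x10000000000020101000000000000000000000000000000 0x0 0xe0908070606040302010302010100000000010000000001 0x1617171717161717171716161514161514131111100f0e09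

theorem chk_w0 : checkW0 T Y = true := by decide +kernel
theorem chk_conn : checkConn T Y = true := by decide +kernel
theorem chk_co : checkCo T C = true := by decide +kernel
theorem chk_st2 : checkSt2 T Y = true := by decide +kernel
theorem chk_perf : checkPerf T Y = true := by decide +kernel
theorem chk_k : (allBelow T.n fun q => Nat.beq (Y.pk q) 0) = true := by decide +kernel

theorem valid4 : Valid4 chevD4 T C Y := ⟨chk_w0, chk_conn, chk_co, chk_st2, chk_perf, Or.inr chk_k⟩

end Cfsg.Agent.Lib.ChevV4D4
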