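import Cfsg.Agent.Lib.ChevV4
import Cfsg.Agent.Lib.ChevV3E6

/-! More tables for type E6. -/

set_option autoImplicit false

namespace Cfsg.Agent.Lib.ChevV4E6

open Cfsg.Lie Cfsg.Agent.Lib.ChevTab Cfsg.Agent.Lib.ChevL2 Cfsg.Agent.Lib.ChevV4 Cfsg.Agent.Lib.ChevTbE6 Cfsg.Agent.Lib.ChevV2E6

noncomputable def Y : Tc4 := mkTc4 [0, 1, 2, 0, 3, 1, 2, 0, 3, 2, 4, 3, 1, 2, 0, 3, 2, 4, 3, 1, 5, 4, 3, 1, 2, 0, 3, 2, 4, 3, 1, 5, 4, 3, 2, 0] 0 0x40302000300 0x40302010300 0x10302020200000000000000000000000403030101010101010002020200030300040000000000000000000000000000000000000000000000000000000000000000000000000000 0x0 0x2e1918171615141312111012111010100a09080706050403020107060505040302040304030202010101020101010000000000000000000005020101010000000000000000000001 0x46474747474747474747474646464542474747474747474747474646464546464645454443444345444342424140464544434241403f3e3d373737363537363534333231302f2e19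

theorem chk_w0 : checkW0 T Y = true := by decide +kernel
theorem chk_conn : checkConn T Y = true := by decide +kernel
theorem chk_co : checkCo T C = true := by decide +kernel
theorem chk_st2 : checkSt2 T Y = true := by decide +kernel
theorem chk_perf : checkPerf T Y = true := by decide +kernel
theorem chk_k : (allBelow T.n fun q => Nat.beq (Y.pk q) 0) = true := by decide +kernel

theorem valid4 : Valid4 chevE6 T C Y := ⟨chk_w0, chk_conn, chk_co, chk_st2, chk_perf, Or.inr chk_k⟩

end Cfsg.Agent.Lib.ChevV4E6
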