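import Cfsg.Agent.Lib.ChevV4
import Cfsg.Agent.Lib.ChevV3E7

/-! More tables for type E7. -/

set_option autoImplicit false

namespace Cfsg.Agent.Lib.ChevV4E7

open Cfsg.Lie Cfsg.Agent.Lib.ChevTab Cfsg.Agent.Lib.ChevL2 Cfsg.Agent.Lib.ChevV4 Cfsg.Agent.Lib.ChevTbE7 Cfsg.Agent.Lib.ChevV2E7

noncomputable def Y : Tc4 := mkTc4 [0, 1, 2, 0, 3, 1, 2, 0, 3, 2, 4, 3, 1, 2, 0, 3, 2, 4, 3, 1, 5, 4, 3, 1, 2, 0, 3, 2, 4, 3, 1, 5, 4, 3, 2, 0, 6, 5, 4, 3, 1, 2, 0, 3, 2, 4, 3, 1, 5, 4, 3, 2, 0, 6, 5, 4, 3, 1, 2, 3, 4, 5, 6] 0 0x5040302000300 0x5040302010300 0x203010101010403030302020202020200000000000000000000000000000000050404030303010101010101010100020202020003030300040400050000000000000000000000000000000000000000000000000000000000000000000000000000000000000000000000000000000000000000000000000000000000 0x0 0x5d201f1e1d1c1b1a191817161514131211100f0e0d0c0b0a090807060504030201100f0e0d0c0b0a0908070a09080707060504030206050403060504060506050404030303020202020101010101030202020201010101010101010101000000000000000000000000000000000000000000000000000000000000000001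 0x7c7d7d7d7d7d7d7d7d7d7d7d7d7d7d7d7d7d7d7d7d7d7d7d7d7d7d7d7d7d7d7d7d7c7c7c7c7c7c7c7c7c7c7b7b7b7b7a7c7c7c7c7c7b7b7b7b7a7a7a7979787778777978777a7978777b7a7978777676757473767574737271706f6e6d7c7b7a797877767574737271706f6e6d6c6b6a696867666564636261605f5e5d20

theorem chk_w0 : checkW0 T Y = true := by decide +kernel
theorem chk_conn : checkConn T Y = true := by decide +kernel
theorem chk_co : checkCo T C = true := by decide +kernel
theorem chk_st2 : checkSt2 T Y = true := by decide +kernel
theorem chk_perf : checkPerf T Y = true := by decide +kernel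
theorem chk_k : (allBelow T.n fun q => Nat.beq (Y.pk q) 0) = true := by decide +kernel

theorem valid4 : Valid4 chevE7 T C Y := ⟨chk_w0, chk_conn, chk_co, chk_st2, chk_perf, Or.inr chk_k⟩

end Cfsg.Agent.Lib.ChevV4E7
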