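import Cfsg.Agent.Lib.ChevV4
import Cfsg.Agent.Lib.ChevV3F4

/-! More tables for type F4. -/

set_option autoImplicit false

namespace Cfsg.Agent.Lib.ChevV4F4

open Cfsg.Lie Cfsg.Agent.Lib.ChevTab Cfsg.Agent.Lib.ChevL2 Cfsg.Agent.Lib.ChevV4 Cfsg.Agent.Lib.ChevTbF4 Cfsg.Agent.Lib.ChevV2F4

noncomputable def Y : Tc4 := mkTc4 [0, 1, 0, 2, 1, 0, 2, 1, 2, 3, 2, 1, 0, 2, 1, 2, 3, 2, 1, 0, 2, 1, 2, 3] 0 0x2010000 0x3020100 0x30201000000000102010100000000020101030200020000000000000000000000000000000000000000000000000000 0x0 0x18171521100f0f0e0d0c0b0a0908070504040a0908020201000100070707010000030303030303030301000007000001 0x2e2f2f282f2f2e2c2c2c2c2c2c2c2c2f2f2e2828282f2e2f2e2d2d2726252b2b2a282726252423222120201f0e1a1817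

theorem chk_w0 : checkW0 T Y = true := by decide +kernel
theorem chk_conn : checkConn T Y = true := by decide +kernel
theorem chk_co : checkCo T C = true := by decide +kernel
theorem chk_st2 : checkSt2 T Y = true := by decide +kernel
theorem chk_perf : checkPerf T Y = true := by decide +kernel
theorem chk_k : (allBelow T.n fun q => Nat.beq (Y.pk q) 0) = true := by decide +kernel

theorem valid4 : Valid4 chevF4 T C Y := ⟨chk_w0, chk_conn, chk_co, chk_st2, chk_perf, Or.inr chk_k⟩

end Cfsg.Agent.Lib.ChevV4F4
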