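import Cfsg.Agent.Lib.ChevV5
import Cfsg.Agent.Lib.ChevV4E7

/-! Chain steps for type E7. -/

set_option autoImplicit false

namespace Cfsg.Agent.Lib.ChevV5E7

open Cfsg.Lie Cfsg.Agent.Lib.ChevTab Cfsg.Agent.Lib.ChevV5 Cfsg.Agent.Lib.ChevTbE7

theorem chk_step : checkStep T = true := by decide +kernel

end Cfsg.Agent.Lib.ChevV5E7
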