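import Cfsg.Agent.Lib.ChevV6
import Cfsg.Agent.Lib.ChevV5B2

/-! Orbit tables for the Weyl group of type B2. -/

set_option autoImplicit false
set_option maxRecDepth 100000

namespace Cfsg.Agent.Lib.ChevV6B2

open Cfsg.Lie Cfsg.Agent.Lib.ChevTab Cfsg.Agent.Lib.ChevV6 Cfsg.Agent.Lib.ChevTbB2

/-- table part -/
def tb0c0 : List (ℕ × List ℤ) := [(0,[1,0]), (1,[-1,2]), (2,[1,-2]), (3,[-1,0])]

/-- table part -/
def tb1c0 : List (ℕ × List ℤ) := [(0,[0,1]), (1,[1,-1])]

/-- The orbit tables -/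
def steps : List (ℕ × List (ℕ × List ℤ)) := [
  (0, tb0c0),
  (1, tb1c0)]

/-- The degrees -/
def ds : List ℕ := [2, 4]

theorem chk_chain : chkChain T steps = true := by decide +kernel

theorem chk_cov : allBelow T.l (fun m => anyL steps (fun s => Nat.beq s.1 m)) = true := by decide +kernel

theorem chk_poly : chkPoly 2 ds steps = true := by decide +kernel

end Cfsg.Agent.Lib.ChevV6B2
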