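import Cfsg.Agent.Lib.ChevW3
import Cfsg.Agent.Lib.ChevV6D4

/-! The Coxeter matrix of type D4. -/

set_option autoImplicit false

namespace Cfsg.Agent.Lib.ChevV7D4

open Cfsg.Lie Cfsg.Agent.Lib.ChevTab Cfsg.Agent.Lib.ChevW3 Cfsg.Agent.Lib.ChevTbD4

theorem chk_cox : ∀ i j : Fin 4, ordW T [i.1, j.1] ((Cfsg.Lie.coxeterD4) i j) = true := by decide +kernel

theorem chk_h : ordW T (List.range 4) 6 = true := by decide +kernel

theorem chk_card : (Cfsg.Agent.Lib.ChevV6D4.steps.map fun s => (s.2.map fun e => 1 ^ e.1).sum).prod = 192 := by decide +kernel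

theorem N_quot {F : Type*} [Field F] :
    ∃ φ : ↥(chevD4.monomialSubgroup F) →* (Cfsg.Lie.coxeterD4).Group, Function.Surjective φ ∧
      φ.ker = (chevD4.diagonalSubgroup F).subgroupOf (chevD4.monomialSubgroup F) ∧
      ∀ (i : Fin 4) (g : ↥(chevD4.monomialSubgroup F)),
        ((g : GL chevD4.Idx F) : Matrix chevD4.Idx chevD4.Idx F) = chevD4.nMat F (chevD4.simple i) 1 → φ g = (Cfsg.Lie.coxeterD4).simple i :=
  Cfsg.Agent.Lib.ChevW3.N_quot Cfsg.Agent.Lib.ChevValidD4.valid Cfsg.Agent.Lib.ChevV2D4.valid2 Cfsg.Agent.Lib.ChevV3D4.valid3 Cfsg.Agent.Lib.ChevV4D4.valid4 rfl _ chk_cox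

theorem coxeter_elt : orderOf ((List.finRange 4).map (Cfsg.Lie.coxeterD4).simple).prod = 6 :=
  Cfsg.Agent.Lib.ChevW3.coxeter_elt Cfsg.Agent.Lib.ChevValidD4.valid Cfsg.Agent.Lib.ChevV2D4.valid2 Cfsg.Agent.Lib.ChevV3D4.valid3 Cfsg.Agent.Lib.ChevV4D4.valid4 (ZMod 2) rfl _ chk_cox chk_h

theorem card_cox : Nat.card (Cfsg.Lie.coxeterD4).Group = 192 :=
  (Cfsg.Agent.Lib.ChevW3.card_cox Cfsg.Agent.Lib.ChevValidD4.valid Cfsg.Agent.Lib.ChevV2D4.valid2 Cfsg.Agent.Lib.ChevV3D4.valid3 Cfsg.Agent.Lib.ChevV4D4.valid4 (ZMod 2) rfl _ chk_cox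
    Cfsg.Agent.Lib.ChevV6D4.steps Cfsg.Agent.Lib.ChevV6D4.chk_chain Cfsg.Agent.Lib.ChevV6D4.chk_cov).trans chk_card

end Cfsg.Agent.Lib.ChevV7D4
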