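import Cfsg.Agent.Lib.ChevGen
import Cfsg.Agent.Lib.ChevV7D4

/-! Generation data for type D4. -/

set_option autoImplicit false
set_option maxRecDepth 100000

namespace Cfsg.Agent.Lib.ChevGTD4

open Cfsg.Lie Cfsg.Agent.Lib.ChevTab Cfsg.Agent.Lib.ChevW3 Cfsg.Agent.Lib.ChevGen Cfsg.Agent.Lib.ChevTbD4

/-- The connecting words. -/
def Wl : List (List (List ℕ)) := [[[],[0,1],[1,2,0,1],[1,3,0,1]],[[1,0],[],[1,2],[1,3]],[[1,2,0,1],[2,1],[],[1,3,2,1]],[[1,3,0,1],[3,1],[1,3,2,1],[]]]

/-- The data. -/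
def dat : GenData chevD4 T where
  Sh := [0, 1, 2, 3]
  Lg := []
  Wf := fun i m => (Wl.getD i []).getD m []
  cd := []
  i0 := 0

theorem ok : GenOK dat where
  hWlt := by decide +kernel
  hSh := by decide +kernel
  hcov := by decide +kernel
  hconnS := by decide +kernel
  hconnL := by decide +kernel
  hi0 := by decide +kernel
  hcd := by decide +kernel
  hcd2 := by decide +kernel

theorem short_mem : ∀ i < 4, chevD4.isLong (chevD4.simple i) = false → i ∈ dat.Sh := by
  intro i hi _
  revert i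
  decide +kernel

end Cfsg.Agent.Lib.ChevGTD4
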