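import Cfsg.Agent.Lib.ChevV6
import Cfsg.Agent.Lib.ChevV5E6

/-! Orbit tables for the Weyl group of type E6. -/

set_option autoImplicit false
set_option maxRecDepth 100000

namespace Cfsg.Agent.Lib.ChevV6E6

open Cfsg.Lie Cfsg.Agent.Lib.ChevTab Cfsg.Agent.Lib.ChevV6 Cfsg.Agent.Lib.ChevTbE6

/-- table part -/
def tb0c0 : List (ℕ × List ℤ) := [(0,[1,0,0,0,0,0]), (1,[-1,0,1,0,0,0]), (2,[0,0,-1,1,0,0]), (3,[0,1,0,-1,1,0]), (4,[0,-1,0,0,1,0]), (4,[0,1,0,0,-1,1]), (5,[0,-1,0,1,-1,1]), (5,[0,1,0,0,0,-1]), (6,[0,0,1,-1,0,1]), (6,[0,-1,0,1,0,-1]), (7,[1,0,-1,0,0,1]), (7,[0,0,1,-1,1,-1]), (8,[-1,0,0,0,0,1]), (8,[1,0,-1,0,1,-1]), (8,[0,0,1,0,-1,0]), (9,[-1,0,0,0,1,-1]), (9,[1,0,-1,1,-1,0]), (10,[-1,0,0,1,-1,0]), (10,[1,1,0,-1,0,0]), (11,[-1,1,1,-1,0,0]), (11,[1,-1,0,0,0,0]), (12,[-1,-1,1,0,0,0]), (12,[0,1,-1,0,0,0]),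 (13,[0,-1,-1,1,0,0]), (14,[0,0,0,-1,1,0]), (15,[0,0,0,0,-1,1]), (16,[0,0,0,0,0,-1])]

/-- table part -/
def tb1c0 : List (ℕ × List ℤ) := [(0,[0,0,0,0,0,1]), (1,[0,0,0,0,1,-1]), (2,[0,0,0,1,-1,0]), (3,[0,1,1,-1,0,0]), (4,[0,-1,1,0,0,0]), (4,[1,1,-1,0,0,0]), (5,[1,-1,-1,1,0,0]), (6,[1,0,0,-1,1,0]), (7,[1,0,0,0,-1,1]), (8,[1,0,0,0,0,-1])]

/-- table part -/
def tb2c0 : List (ℕ × List ℤ) := [(0,[0,1,0,0,0,0]), (1,[0,-1,0,1,0,0]), (2,[0,0,1,-1,1,0]), (3,[1,0,-1,0,1,0]), (3,[0,0,1,0,-1,1]), (4,[1,0,-1,1,-1,1]), (5,[1,1,0,-1,0,1]), (6,[1,-1,0,0,0,1])]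

/-- table part -/
def tb3c0 : List (ℕ × List ℤ) := [(0,[0,0,1,0,0,0]), (1,[1,0,-1,1,0,0]), (2,[1,1,0,-1,1,0]), (3,[1,1,0,0,-1,1])]

/-- table part -/
def tb4c0 : List (ℕ × List ℤ) := [(0,[0,0,0,1,0,0]), (1,[0,1,1,-1,1,0]), (2,[0,1,1,0,-1,1])]

/-- table part -/
def tb5c0 : List (ℕ × List ℤ) := [(0,[0,0,0,0,1,0]), (1,[0,0,0,1,-1,1])]

/-- The orbit tables -/
def steps : List (ℕ × List (ℕ × List ℤ)) := [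
  (0, tb0c0),
  (5, tb1c0),
  (1, tb2c0),
  (2, tb3c0),
  (3, tb4c0),
  (4, tb5c0)]

/-- The degrees -/
def ds : List ℕ := [2, 5, 6, 8, 9, 12]

theorem chk_chain : chkChain T steps = true := by decide +kernel

theorem chk_cov : allBelow T.l (fun m => anyL steps (fun s => Nat.beq s.1 m)) = true := by decide +kernel

theorem chk_poly : chkPoly 6 ds steps = true := by decide +kernel

end Cfsg.Agent.Lib.ChevV6E6
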