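import Cfsg.Agent.Lib.ChevW3
import Cfsg.Agent.Lib.ChevV6E7

/-! The Coxeter matrix of type E7. -/

set_option autoImplicit false

namespace Cfsg.Agent.Lib.ChevV7E7

open Cfsg.Lie Cfsg.Agent.Lib.ChevTab Cfsg.Agent.Lib.ChevW3 Cfsg.Agent.Lib.ChevTbE7

theorem chk_cox : ∀ i j : Fin 7, ordW T [i.1, j.1] ((CoxeterMatrix.E₇) i j) = true := by decide +kernel

theorem chk_h : ordW T (List.range 7) 18 = true := by decide +kernel

theorem chk_card : (Cfsg.Agent.Lib.ChevV6E7.steps.map fun s => (s.2.map fun e => 1 ^ e.1).sum).prod = 2903040 := by decide +kernel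

theorem N_quot {F : Type*} [Field F] :
    ∃ φ : ↥(chevE7.monomialSubgroup F) →* (CoxeterMatrix.E₇).Group, Function.Surjective φ ∧
      φ.ker = (chevE7.diagonalSubgroup F).subgroupOf (chevE7.monomialSubgroup F) ∧
      ∀ (i : Fin 7) (g : ↥(chevE7.monomialSubgroup F)),
        ((g : GL chevE7.Idx F) : Matrix chevE7.Idx chevE7.Idx F) = chevE7.nMat F (chevE7.simple i) 1 → φ g = (CoxeterMatrix.E₇).simple i :=
  Cfsg.Agent.Lib.ChevW3.N_quot Cfsg.Agent.Lib.ChevValidE7.valid Cfsg.Agent.Lib.ChevV2E7.valid2 Cfsg.Agent.Lib.ChevV3E7.valid3 Cfsg.Agent.Lib.ChevV4E7.valid4 rfl _ chk_cox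

theorem coxeter_elt : orderOf ((List.finRange 7).map (CoxeterMatrix.E₇).simple).prod = 18 :=
  Cfsg.Agent.Lib.ChevW3.coxeter_elt Cfsg.Agent.Lib.ChevValidE7.valid Cfsg.Agent.Lib.ChevV2E7.valid2 Cfsg.Agent.Lib.ChevV3E7.valid3 Cfsg.Agent.Lib.ChevV4E7.valid4 (ZMod 2) rfl _ chk_cox chk_h

theorem card_cox : Nat.card (CoxeterMatrix.E₇).Group = 2903040 :=
  (Cfsg.Agent.Lib.ChevW3.card_cox Cfsg.Agent.Lib.ChevValidE7.valid Cfsg.Agent.Lib.ChevV2E7.valid2 Cfsg.Agent.Lib.ChevV3E7.valid3 Cfsg.Agent.Lib.ChevV4E7.valid4 (ZMod 2) rfl _ chk_cox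
    Cfsg.Agent.Lib.ChevV6E7.steps Cfsg.Agent.Lib.ChevV6E7.chk_chain Cfsg.Agent.Lib.ChevV6E7.chk_cov).trans chk_card

end Cfsg.Agent.Lib.ChevV7E7
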