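import Cfsg.Agent.Lib.ChevGen
import Cfsg.Agent.Lib.ChevV7E8

/-! Generation data for type E8. -/

set_option autoImplicit false
set_option maxRecDepth 100000

namespace Cfsg.Agent.Lib.ChevGTE8

open Cfsg.Lie Cfsg.Agent.Lib.ChevTab Cfsg.Agent.Lib.ChevW3 Cfsg.Agent.Lib.ChevGen Cfsg.Agent.Lib.ChevTbE8

/-- The connecting words. -/
def Wl : List (List (List ℕ)) := [[[],[3,2,1,3,0,2],[0,2],[2,3,0,2],[3,4,2,3,0,2],[4,5,3,4,2,3,0,2],[5,6,4,5,3,4,2,3,0,2],[6,7,5,6,4,5,3,4,2,3,0,2]],[[2,3,0,2,1,3],[],[3,2,1,3],[1,3],[3,4,1,3],[4,5,3,4,1,3],[5,6,4,5,3,4,1,3],[6,7,5,6,4,5,3,4,1,3]],[[2,0],[3,2,1,3],[],[2,3],[3,4,2,3],[4,5,3,4,2,3],[5,6,4,5,3,4,2,3],[6,7,5,6,4,5,3,4,2,3]],[[2,3,0,2],[3,1],[3,2],[],[3,4],[4,5,3,4],[5,6,4,5,3,4],[6,7,5,6,4,5,3,4]],[[2,3,4,0,2,3],[3,4,1,3],[3,4,2,3],[4,3],[],[4,5],[5,6,4,5],[6,7,5,6,4,5]],[[2,3,4,5,0,2,3,4],[3,4,5,1,3,4],[3,4,5,2,3,4],[4,5,3,4],[5,4],[],[5,6],[6,7,5,6]],[[2,3,4,5,6,0,2,3,4,5],[3,4,5,6,1,3,4,5],[3,4,5,6,2,3,4,5],[4,5,6,3,4,5],[5,6,4,5],[6,5],[],[6,7]],[[2,3,4,5,6,7,0,2,3,4,5,6],[3,4,5,6,7,1,3,4,5,6],[3,4,5,6,7,2,3,4,5,6],[4,5,6,7,3,4,5,6],[5,6,7,4,5,6],[6,7,5,6],[7,6],[]]]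

/-- The data. -/
def dat : GenData chevE8 T where
  Sh := [0, 1, 2, 3, 4, 5, 6, 7]
  Lg := []
  Wf := fun i m => (Wl.getD i []).getD m []
  cd := []
  i0 := 0

theorem ok : GenOK dat where
  hWlt := by decide +kernel
  hSh := by decide +kernel
  hcov := by decide +kernel
  hconnS := by decide +kernel
  hconnL := by decide +kernel
  hi0 := by decide +kernel
  hcd := by decide +kernel
  hcd2 := by decide +kernel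

theorem short_mem : ∀ i < 8, chevE8.isLong (chevE8.simple i) = false → i ∈ dat.Sh := by
  intro i hi _
  revert i
  decide +kernel

end Cfsg.Agent.Lib.ChevGTE8
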