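import Cfsg.Agent.Lib.ChevV6
import Cfsg.Agent.Lib.ChevV5F4

/-! Orbit tables for the Weyl group of type F4. -/

set_option autoImplicit false
set_option maxRecDepth 100000

namespace Cfsg.Agent.Lib.ChevV6F4

open Cfsg.Lie Cfsg.Agent.Lib.ChevTab Cfsg.Agent.Lib.ChevV6 Cfsg.Agent.Lib.ChevTbF4

/-- table part -/
def tb0c0 : List (ℕ × List ℤ) := [(0,[1,0,0,0]), (1,[-1,1,0,0]), (2,[0,-1,2,0]), (3,[0,1,-2,2]), (4,[1,-1,0,2]), (4,[0,1,0,-2]), (5,[-1,0,0,2]), (5,[1,-1,2,-2]), (6,[-1,0,2,-2]), (6,[1,1,-2,0]), (7,[-1,2,-2,0]), (7,[2,-1,0,0]), (8,[1,-2,2,0]), (8,[-2,1,0,0]), (9,[-1,-1,2,0]), (9,[1,0,-2,2]), (10,[-1,1,-2,2]), (10,[1,0,0,-2]), (11,[0,-1,0,2]), (11,[-1,1,0,-2]), (12,[0,-1,2,-2]), (13,[0,1,-2,0]), (14,[1,-1,0,0]), (15,[-1,0,0,0])]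

/-- table part -/
def tb1c0 : List (ℕ × List ℤ) := [(0,[0,0,0,1]), (1,[0,0,1,-1]), (2,[0,1,-1,0]), (3,[1,-1,1,0]), (4,[1,0,-1,1]), (5,[1,0,0,-1])]

/-- table part -/
def tb2c0 : List (ℕ × List ℤ) := [(0,[0,1,0,0]), (1,[1,-1,2,0]), (2,[1,1,-2,2]), (3,[2,-1,0,2])]

/-- table part -/
def tb3c0 : List (ℕ × List ℤ) := [(0,[0,0,1,0]), (1,[0,1,-1,1])]

/-- The orbit tables -/
def steps : List (ℕ × List (ℕ × List ℤ)) := [
  (0, tb0c0),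
  (3, tb1c0),
  (1, tb2c0),
  (2, tb3c0)]

/-- The degrees -/
def ds : List ℕ := [2, 6, 8, 12]

theorem chk_chain : chkChain T steps = true := by decide +kernel

theorem chk_cov : allBelow T.l (fun m => anyL steps (fun s => Nat.beq s.1 m)) = true := by decide +kernel

theorem chk_poly : chkPoly 4 ds steps = true := by decide +kernel

end Cfsg.Agent.Lib.ChevV6F4
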