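import Cfsg.Agent.Lib.ChevGen
import Cfsg.Agent.Lib.ChevV7F4

/-! Generation data for type F4. -/

set_option autoImplicit false
set_option maxRecDepth 100000

namespace Cfsg.Agent.Lib.ChevGTF4

open Cfsg.Lie Cfsg.Agent.Lib.ChevTab Cfsg.Agent.Lib.ChevW3 Cfsg.Agent.Lib.ChevGen Cfsg.Agent.Lib.ChevTbF4

/-- The connecting words. -/
def Wl : List (List (List ℕ)) := [[[],[0,1],[],[]],[[1,0],[],[],[]],[[],[],[],[2,3]],[[],[],[3,2],[]]]

/-- The data. -/
def dat : GenData chevF4 T where
  Sh := [0, 1]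
  Lg := [2, 3]
  Wf := fun i m => (Wl.getD i []).getD m []
  cd := [(2, 9, [3,1,2,1,0], 39, [2,3,1,2,1], -2), (3, 10, [1,2,1,0], 38, [3,1,2,1], -2)]
  i0 := 0

theorem ok : GenOK dat where
  hWlt := by decide +kernel
  hSh := by decide +kernel
  hcov := by decide +kernel
  hconnS := by decide +kernel
  hconnL := by decide +kernel
  hi0 := by decide +kernel
  hcd := by decide +kernel
  hcd2 := by decide +kernel

theorem short_mem : ∀ i < 4, chevF4.isLong (chevF4.simple i) = false → i ∈ dat.Sh := by decide +kernel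

theorem long_mem : ∀ i < 4, chevF4.isLong (chevF4.simple i) = true → i ∈ dat.Lg := by decide +kernel

end Cfsg.Agent.Lib.ChevGTF4
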