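import Cfsg.Agent.Lib.ChevGen
import Cfsg.Agent.Lib.ChevV7G2

/-! Generation data for type G2. -/

set_option autoImplicit false
set_option maxRecDepth 100000

namespace Cfsg.Agent.Lib.ChevGTG2

open Cfsg.Lie Cfsg.Agent.Lib.ChevTab Cfsg.Agent.Lib.ChevW3 Cfsg.Agent.Lib.ChevGen Cfsg.Agent.Lib.ChevTbG2

/-- The connecting words. -/
def Wl : List (List (List ℕ)) := [[[],[]],[[],[]]]

/-- The data. -/
def dat : GenData chevG2 T where
  Sh := [0]
  Lg := [1]
  Wf := fun i m => (Wl.getD i []).getD m []
  cd := [(1, 4, [0], 8, [1], -3)]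
  i0 := 0

theorem ok : GenOK dat where
  hWlt := by decide +kernel
  hSh := by decide +kernel
  hcov := by decide +kernel
  hconnS := by decide +kernel
  hconnL := by decide +kernel
  hi0 := by decide +kernel
  hcd := by decide +kernel
  hcd2 := by decide +kernel

theorem short_mem : ∀ i < 2, chevG2.isLong (chevG2.simple i) = false → i ∈ dat.Sh := by decide +kernel

theorem long_mem : ∀ i < 2, chevG2.isLong (chevG2.simple i) = true → i ∈ dat.Lg := by decide +kernel

end Cfsg.Agent.Lib.ChevGTG2
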