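import Cfsg.Agent.Lib.ChevW3
import Cfsg.Agent.Lib.ChevAut2

/-! Generation of the group by `N` and few root subgroups. -/

set_option autoImplicit false

namespace Cfsg.Agent.Lib.ChevGen

open Cfsg.Lie Cfsg.Agent.Lib.ChevEngine Cfsg.Agent.Lib.ChevTab Cfsg.Agent.Lib.ChevMono
  Cfsg.Agent.Lib.ChevRel Cfsg.Agent.Lib.ChevValid Cfsg.Agent.Lib.ChevGL Cfsg.Agent.Lib.ChevGrad Cfsg.Agent.Lib.ChevL2
  Cfsg.Agent.Lib.ChevU Cfsg.Agent.Lib.ChevU2 Cfsg.Agent.Lib.ChevU3 Cfsg.Agent.Lib.ChevDiag Cfsg.Agent.Lib.ChevV3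
  Cfsg.Agent.Lib.ChevH Cfsg.Agent.Lib.ChevN Cfsg.Agent.Lib.ChevN2 Cfsg.Agent.Lib.ChevN3 Cfsg.Agent.Lib.ChevBN Cfsg.Agent.Lib.ChevBN2
  Cfsg.Agent.Lib.ChevW3

variable {D : ChevalleyDatum} {T : Tb} {C : Tc} {X : Tc3} {F : Type*} [Field F]

section
variable (V : Valid D T) (V2 : Valid2 D T C) (V3 : Valid3 T C X)

include V2 V3 in
theorem refl_mem {K : Subgroup (GL D.Idx F)} (hN : D.monomialSubgroup F ≤ K) {i r : ℕ} (hi : i < T.l) (hr : r < T.n)
    (h : ∀ t : F, xU V r t ∈ K) (t : F) : xU V (T.refl i r) t ∈ K := by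
  have hi' : i < D.rank := by rw [← V.hl]; exact hi
  have hr' : r < D.nroots := by rw [← V.hn]; exact hr
  have Rr := reflFacts V.hR i hi r hr
  have he : (((T.eps i r : ℤ) : F)) * ((T.eps i r : ℤ) : F) = 1 := by
    rcases Rr.eps_pm with h7 | h7 <;> simp [h7]
  have h3 := nU_conj' V hi' hr' (((T.eps i r : ℤ) : F) * t)
  rw [← mul_assoc, he, one_mul] at h3
  rw [← h3]
  have hn := hN (n_mem_N V V2 V3 (F := F) hi)
  exact K.mul_mem (K.mul_mem hn (h _)) (K.inv_mem hn)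

include V in
theorem wact_lt {r : ℕ} (hr : r < T.n) {w : List ℕ} (hw : ∀ i ∈ w, i < T.l) : wact T w r < T.n := by
  induction w with
  | nil => exact hr
  | cons a w ih =>
    rw [wact_cons]
    exact (reflFacts V.hR a (hw a (by simp)) _ (ih (fun b hb => hw b (by simp [hb])))).w_lt

include V2 V3 in
theorem word_mem {K : Subgroup (GL D.Idx F)} (hN : D.monomialSubgroup F ≤ K) {r : ℕ} (hr : r < T.n)
    (h : ∀ t : F, xU V r t ∈ K) {w : List ℕ} (hw : ∀ i ∈ w, i < T.l) (t : F) : xU V (wact T w r) t ∈ K := by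
  induction w generalizing t with
  | nil => exact h t
  | cons i w ih =>
    rw [wact_cons]
    have h2 : wact T w r < T.n := wact_lt V hr (fun b hb => hw b (by simp [hb]))
    exact refl_mem V V2 V3 hN (hw i (by simp)) h2 (fun t => ih (fun b hb => hw b (by simp [hb])) t) t

include V3 in
theorem comm_mem {K : Subgroup (GL D.Idx F)} {r s b : ℕ} {c : ℤ} (hr : r < T.n) (hs : s < T.n) (h1 : s ≠ r) (h2 : s ≠ T.neg r)
    (hrK : ∀ t : F, xU V r t ∈ K) (hsK : ∀ t : F, xU V s t ∈ K) (hT : D.commTerms r s = [(b, c, 1, 1)]) (hc : (c : F) ≠ 0) (t : F) :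
    xU V b t ∈ K := by
  have hr' : r < D.nroots := by rw [← V.hn]; exact hr
  have hs' : s < D.nroots := by rw [← V.hn]; exact hs
  have h2' : s ≠ D.neg r := by rw [V.neg_eq hr']; exact h2
  have h3 := cfU V hr' hs' h1 h2' (-t / c) (1 : F)
  have h4 : D.commWord F r s (-t / c) 1 = [(b, t)] := by
    unfold ChevalleyDatum.commWord
    rw [hT]
    simp only [List.map_cons, List.map_nil, pow_one, one_pow, mul_one, neg_div, neg_neg]
    congr 2
    field_simp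
  rw [h4] at h3
  have h5 : wordU V [(b, t)] = xU V b t := by
    apply Units.ext
    simp [wordU_val, ChevalleyDatum.wordMat]
  rw [h5] at h3
  have h6 : xU V b t = (xU V r (-t / c) * xU V s 1)⁻¹ * (xU V s 1 * xU V r (-t / c)) := by
    rw [h3]; group
  rw [h6]
  exact K.mul_mem (K.inv_mem (K.mul_mem (hrK _) (hsK _))) (K.mul_mem (hsK _) (hrK _))

include V2 V3 in
/-- Main generation theorem. -/
theorem group_le {K : Subgroup (GL D.Idx F)} (hN : D.monomialSubgroup F ≤ K)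
    (h : ∀ m < T.l, ∀ t : F, xU V (T.sim m) t ∈ K) : D.group F ≤ K := by
  have key : ∀ r < T.n, ∀ t : F, xU V r t ∈ K := by
    apply V3.reach V (P := fun r => ∀ t : F, xU V r t ∈ K)
    · exact h
    · intro i hi r hr hp t
      exact refl_mem V V2 V3 hN hi hr hp t
  rw [group_eq V, Subgroup.closure_le]
  rintro g ⟨r, t, hr, rfl⟩
  exact key r (by rw [V.hn]; exact hr) t

theorem neg_two_ne (h : ringChar F ≠ 2) : ((-2 : ℤ) : F) ≠ 0 := by
  have := Ring.two_ne_zero h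
  simpa using this

theorem neg_three_ne (h : ringChar F ≠ 3) : ((-3 : ℤ) : F) ≠ 0 := by
  intro h2
  have h3 : ((3 : ℕ) : F) = 0 := by
    have : ((3 : ℕ) : F) = -((-3 : ℤ) : F) := by push_cast; ring
    rw [this, h2, neg_zero]
  rw [CharP.cast_eq_zero_iff F (ringChar F) 3] at h3
  rcases (Nat.dvd_prime Nat.prime_three).1 h3 with h4 | h4
  · have := ringChar.Nat.cast_ringChar (R := F)
    rw [h4, Nat.cast_one] at this
    exact one_ne_zero this
  · exact h h4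

/-- The data of the generation theorem. -/
structure GenData (D : ChevalleyDatum) (T : Tb) where
  /-- short nodes -/
  Sh : List ℕ
  /-- long nodes -/
  Lg : List ℕ
  /-- connecting words -/
  Wf : ℕ → ℕ → List ℕ
  /-- commutator data -/
  cd : List (ℕ × ℕ × List ℕ × ℕ × List ℕ × ℤ)
  /-- a base node -/
  i0 : ℕ

/-- The checks -/
structure GenOK (G : GenData D T) : Prop where
  hWlt : ∀ i ∈ G.Sh ++ G.Lg, ∀ m ∈ G.Sh ++ G.Lg, ∀ a ∈ G.Wf i m, a < T.l
  hSh : ∀ i ∈ G.Sh ++ G.Lg, i < T.l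
  hcov : ∀ m < T.l, m ∈ G.Sh ∨ m ∈ G.Lg
  hconnS : ∀ i ∈ G.Sh, ∀ m ∈ G.Sh, wact T (G.Wf i m) (T.sim i) = T.sim m
  hconnL : ∀ i ∈ G.Lg, ∀ m ∈ G.Lg, wact T (G.Wf i m) (T.sim i) = T.sim m
  hi0 : G.i0 ∈ G.Sh
  hcd : ∀ m ∈ G.Lg, ∃ e ∈ G.cd, e.1 = m
  hcd2 : ∀ e ∈ G.cd, (∀ a ∈ e.2.2.1, a < T.l) ∧ (∀ a ∈ e.2.2.2.2.1, a < T.l) ∧ wact T e.2.2.1 (T.sim G.i0) = e.2.1 ∧ wact T e.2.2.2.2.1 (T.sim G.i0) = e.2.2.2.1 ∧
    e.2.2.2.1 ≠ e.2.1 ∧ e.2.2.2.1 ≠ T.neg e.2.1 ∧ D.commTerms e.2.1 e.2.2.2.1 = [(T.sim e.1, e.2.2.2.2.2, 1, 1)]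

include V V2 V3 in
theorem s2416_gen {G : GenData D T} (hG : GenOK G) (hc : ∀ e ∈ G.cd, ((e.2.2.2.2.2 : ℤ) : F) ≠ 0) {i : ℕ} (hi : i ∈ G.Sh) :
    D.group F ≤ D.monomialSubgroup F ⊔ D.rootSubgroup F (D.simple i) := by
  have hN : D.monomialSubgroup F ≤ D.monomialSubgroup F ⊔ D.rootSubgroup F (D.simple i) := le_sup_left
  have hiL : i < T.l := hG.hSh i (by simp [hi])
  have hi' : i < D.rank := by rw [← V.hl]; exact hiL
  have hb : ∀ t : F, xU V (T.sim i) t ∈ D.monomialSubgroup F ⊔ D.rootSubgroup F (D.simple i) := by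
    intro t
    apply Subgroup.mem_sup_right
    rw [← V.simple_eq hi']
    exact (mem_rootSubgroup V).mpr ⟨t, rfl⟩
  have hS : ∀ m ∈ G.Sh, ∀ t : F, xU V (T.sim m) t ∈ D.monomialSubgroup F ⊔ D.rootSubgroup F (D.simple i) := by
    intro m hm t
    have h1 := word_mem V V2 V3 hN (sim_lt' V V2 V3 hiL) hb (w := G.Wf i m) (hG.hWlt i (by simp [hi]) m (by simp [hm])) t
    rwa [hG.hconnS i hi m hm] at h1
  apply group_le V V2 V3 hN
  intro m hm t
  rcases hG.hcov m hm with h | h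
  · exact hS m h t
  · obtain ⟨e, he, rfl⟩ := hG.hcd m h
    obtain ⟨h1, h2, h3, h4, h5, h6, h7⟩ := hG.hcd2 e he
    have hi0L : G.i0 < T.l := hG.hSh _ (by simp [hG.hi0])
    have hs0 := sim_lt' V V2 V3 hi0L
    have hb0 := hS G.i0 hG.hi0
    have hr : ∀ t : F, xU V e.2.1 t ∈ D.monomialSubgroup F ⊔ D.rootSubgroup F (D.simple i) := by
      intro t
      have := word_mem V V2 V3 hN hs0 hb0 h1 t
      rwa [h3] at this
    have hs : ∀ t : F, xU V e.2.2.2.1 t ∈ D.monomialSubgroup F ⊔ D.rootSubgroup F (D.simple i) := by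
      intro t
      have := word_mem V V2 V3 hN hs0 hb0 h2 t
      rwa [h4] at this
    have hrn : e.2.1 < T.n := by rw [← h3]; exact wact_lt V hs0 h1
    have hsn : e.2.2.2.1 < T.n := by rw [← h4]; exact wact_lt V hs0 h2
    exact comm_mem V V3 hrn hsn h5 h6 hr hs h7 (hc e he) t

include V V2 V3 in
theorem s2417_gen {G : GenData D T} (hG : GenOK G) {i j : ℕ} (hi : i ∈ G.Sh) (hj : j ∈ G.Lg) :
    D.group F ≤ D.monomialSubgroup F ⊔ D.rootSubgroup F (D.simple i) ⊔ D.rootSubgroup F (D.simple j) := by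
  have hN : D.monomialSubgroup F ≤ D.monomialSubgroup F ⊔ D.rootSubgroup F (D.simple i) ⊔ D.rootSubgroup F (D.simple j) :=
    le_trans le_sup_left le_sup_left
  have hiL : i < T.l := hG.hSh i (by simp [hi])
  have hjL : j < T.l := hG.hSh j (by simp [hj])
  have hi' : i < D.rank := by rw [← V.hl]; exact hiL
  have hj' : j < D.rank := by rw [← V.hl]; exact hjL
  have hb : ∀ t : F, xU V (T.sim i) t ∈ D.monomialSubgroup F ⊔ D.rootSubgroup F (D.simple i) ⊔ D.rootSubgroup F (D.simple j) := by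
    intro t
    apply Subgroup.mem_sup_left
    apply Subgroup.mem_sup_right
    rw [← V.simple_eq hi']
    exact (mem_rootSubgroup V).mpr ⟨t, rfl⟩
  have hb2 : ∀ t : F, xU V (T.sim j) t ∈ D.monomialSubgroup F ⊔ D.rootSubgroup F (D.simple i) ⊔ D.rootSubgroup F (D.simple j) := by
    intro t
    apply Subgroup.mem_sup_right
    rw [← V.simple_eq hj']
    exact (mem_rootSubgroup V).mpr ⟨t, rfl⟩
  apply group_le V V2 V3 hN
  intro m hm t
  rcases hG.hcov m hm with h | h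
  · have h1 := word_mem V V2 V3 hN (sim_lt' V V2 V3 hiL) hb (w := G.Wf i m) (hG.hWlt i (by simp [hi]) m (by simp [h])) t
    rwa [hG.hconnS i hi m h] at h1
  · have h1 := word_mem V V2 V3 hN (sim_lt' V V2 V3 hjL) hb2 (w := G.Wf j m) (hG.hWlt j (by simp [hj]) m (by simp [h])) t
    rwa [hG.hconnL j hj m h] at h1

end

end Cfsg.Agent.Lib.ChevGen
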