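import Cfsg.Agent.Lib.ChevHOrd
import Cfsg.Agent.Lib.ChevV6D4

/-! Smith normal form of the Cartan matrix of type D4. -/

set_option autoImplicit false

namespace Cfsg.Agent.Lib.ChevSmD4

open Cfsg.Lie Cfsg.Agent.Lib.ChevTab Cfsg.Agent.Lib.ChevHOrd Cfsg.Agent.Lib.ChevTbD4

/-- Matrices from lists. -/
def ofL (L : List (List ℤ)) : Matrix (Fin T.l) (Fin T.l) ℤ := fun i j => (L.getD i []).getD j 0

/-- `U` -/
def U : Matrix (Fin T.l) (Fin T.l) ℤ := ofL [[-1,0,0,0], [2,-1,0,0], [-1,2,-1,0], [-1,0,1,1]]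
/-- `U⁻¹` -/
def U' : Matrix (Fin T.l) (Fin T.l) ℤ := ofL [[-1,0,0,0], [-2,-1,0,0], [-3,-2,-1,0], [2,2,1,1]]
/-- `W` -/
def W : Matrix (Fin T.l) (Fin T.l) ℤ := ofL [[-2,1,0,0], [-3,0,1,1], [-2,0,0,1], [1,0,0,0]]
/-- `W⁻¹` -/
def W' : Matrix (Fin T.l) (Fin T.l) ℤ := ofL [[0,0,0,1], [1,0,0,2], [0,1,-1,1], [0,0,1,2]]
/-- The invariant factors. -/
def s : Fin T.l → ℕ := fun i => [1, 1, 2, 2].getD i 0

theorem hM : cartanM T = U * Matrix.diagonal (fun k => (s k : ℤ)) * W := by decide +kernel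
theorem hU : U * U' = 1 := by decide +kernel
theorem hU' : U' * U = 1 := by decide +kernel
theorem hW : W * W' = 1 := by decide +kernel

end Cfsg.Agent.Lib.ChevSmD4
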