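import Cfsg.Agent.Lib.ChevOrd2
import Cfsg.Agent.Lib.ChevSmD4

/-! The orders of `H` and of the group for type D4. -/

set_option autoImplicit false

namespace Cfsg.Agent.Lib.ChevOFD4

open Cfsg.Lie Cfsg.Agent.Lib.ChevTab Cfsg.Agent.Lib.ChevHOrd Cfsg.Agent.Lib.ChevOrd2

variable {F : Type*} [Field F] [Fintype F]

theorem card_H : (Nat.gcd 2 (Fintype.card F - 1) ^ 2) * Nat.card (chevD4.diagonalSubgroup F) = (Fintype.card F - 1) ^ 4 := by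
  have h := card_H_smith Cfsg.Agent.Lib.ChevValidD4.valid Cfsg.Agent.Lib.ChevV2D4.valid2 Cfsg.Agent.Lib.ChevV3D4.valid3 (F := F)
    Cfsg.Agent.Lib.ChevSmD4.s Cfsg.Agent.Lib.ChevSmD4.hM Cfsg.Agent.Lib.ChevSmD4.hU Cfsg.Agent.Lib.ChevSmD4.hU' Cfsg.Agent.Lib.ChevSmD4.hW
  have e : (∏ k : Fin Cfsg.Agent.Lib.ChevTbD4.T.l, (Fintype.card F - 1).gcd (Cfsg.Agent.Lib.ChevSmD4.s k)) = Nat.gcd 2 (Fintype.card F - 1) ^ 2 := by
    show (∏ k : Fin 4, (Fintype.card F - 1).gcd (Cfsg.Agent.Lib.ChevSmD4.s k)) = Nat.gcd 2 (Fintype.card F - 1) ^ 2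
    simp [Fin.prod_univ_succ, Cfsg.Agent.Lib.ChevSmD4.s, Nat.gcd_comm, pow_two]
  rw [e] at h
  exact h

theorem card_G : (Nat.gcd 2 (Fintype.card F - 1) ^ 2) * Nat.card (chevD4.group F) =
    Fintype.card F ^ (chevD4.nroots / 2) * ([2, 4, 4, 6].map fun e => Fintype.card F ^ e - 1).prod :=
  order_formula Cfsg.Agent.Lib.ChevValidD4.valid Cfsg.Agent.Lib.ChevV2D4.valid2 Cfsg.Agent.Lib.ChevV3D4.valid3 Cfsg.Agent.Lib.ChevV4D4.valid4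
    Cfsg.Agent.Lib.ChevV6D4.steps Cfsg.Agent.Lib.ChevV6D4.ds Cfsg.Agent.Lib.ChevV6D4.chk_chain Cfsg.Agent.Lib.ChevV6D4.chk_cov
    Cfsg.Agent.Lib.ChevV6D4.chk_poly card_H

end Cfsg.Agent.Lib.ChevOFD4
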