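import Cfsg.Agent.Lib.ChevHOrd
import Cfsg.Agent.Lib.ChevV6E6

/-! Smith normal form of the Cartan matrix of type E6. -/

set_option autoImplicit false

namespace Cfsg.Agent.Lib.ChevSmE6

open Cfsg.Lie Cfsg.Agent.Lib.ChevTab Cfsg.Agent.Lib.ChevHOrd Cfsg.Agent.Lib.ChevTbE6

/-- Matrices from lists. -/
def ofL (L : List (List ℤ)) : Matrix (Fin T.l) (Fin T.l) ℤ := fun i j => (L.getD i []).getD j 0

/-- `U` -/
def U : Matrix (Fin T.l) (Fin T.l) ℤ := ofL [[-1,0,0,0,0,0], [0,-1,0,0,0,0], [2,-1,0,0,-1,0], [-1,2,-1,0,0,0], [0,-1,2,-1,0,0], [0,0,-1,2,4,-1]]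
/-- `U⁻¹` -/
def U' : Matrix (Fin T.l) (Fin T.l) ℤ := ofL [[-1,0,0,0,0,0], [0,-1,0,0,0,0], [1,-2,0,-1,0,0], [2,-3,0,-2,-1,0], [-2,1,-1,0,0,0], [-5,0,-4,-3,-2,-1]]
/-- `W` -/
def W : Matrix (Fin T.l) (Fin T.l) ℤ := ofL [[-2,0,1,0,0,0], [0,-2,0,1,0,0], [2,-3,0,0,1,0], [4,-4,0,0,0,1], [-3,2,0,0,0,0], [-2,1,0,0,0,0]]
/-- `W⁻¹` -/
def W' : Matrix (Fin T.l) (Fin T.l) ℤ := ofL [[0,0,0,0,1,-2], [0,0,0,0,2,-3], [1,0,0,0,2,-4], [0,1,0,0,4,-6], [0,0,1,0,4,-5], [0,0,0,1,4,-4]]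
/-- The invariant factors. -/
def s : Fin T.l → ℕ := fun i => [1, 1, 1, 1, 1, 3].getD i 0

theorem hM : cartanM T = U * Matrix.diagonal (fun k => (s k : ℤ)) * W := by decide +kernel
theorem hU : U * U' = 1 := by decide +kernel
theorem hU' : U' * U = 1 := by decide +kernel
theorem hW : W * W' = 1 := by decide +kernel

end Cfsg.Agent.Lib.ChevSmE6
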