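import Cfsg.Agent.Lib.ChevOrd2
import Cfsg.Agent.Lib.ChevSmE6

/-! The orders of `H` and of the group for type E6. -/

set_option autoImplicit false

namespace Cfsg.Agent.Lib.ChevOFE6

open Cfsg.Lie Cfsg.Agent.Lib.ChevTab Cfsg.Agent.Lib.ChevHOrd Cfsg.Agent.Lib.ChevOrd2

variable {F : Type*} [Field F] [Fintype F]

theorem card_H : (Nat.gcd 3 (Fintype.card F - 1)) * Nat.card (chevE6.diagonalSubgroup F) = (Fintype.card F - 1) ^ 6 := by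
  have h := card_H_smith Cfsg.Agent.Lib.ChevValidE6.valid Cfsg.Agent.Lib.ChevV2E6.valid2 Cfsg.Agent.Lib.ChevV3E6.valid3 (F := F)
    Cfsg.Agent.Lib.ChevSmE6.s Cfsg.Agent.Lib.ChevSmE6.hM Cfsg.Agent.Lib.ChevSmE6.hU Cfsg.Agent.Lib.ChevSmE6.hU' Cfsg.Agent.Lib.ChevSmE6.hW
  have e : (∏ k : Fin Cfsg.Agent.Lib.ChevTbE6.T.l, (Fintype.card F - 1).gcd (Cfsg.Agent.Lib.ChevSmE6.s k)) = Nat.gcd 3 (Fintype.card F - 1) := by
    show (∏ k : Fin 6, (Fintype.card F - 1).gcd (Cfsg.Agent.Lib.ChevSmE6.s k)) = Nat.gcd 3 (Fintype.card F - 1)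
    simp [Fin.prod_univ_succ, Cfsg.Agent.Lib.ChevSmE6.s, Nat.gcd_comm, pow_two]
  rw [e] at h
  exact h

theorem card_G : (Nat.gcd 3 (Fintype.card F - 1)) * Nat.card (chevE6.group F) =
    Fintype.card F ^ (chevE6.nroots / 2) * ([2, 5, 6, 8, 9, 12].map fun e => Fintype.card F ^ e - 1).prod :=
  order_formula Cfsg.Agent.Lib.ChevValidE6.valid Cfsg.Agent.Lib.ChevV2E6.valid2 Cfsg.Agent.Lib.ChevV3E6.valid3 Cfsg.Agent.Lib.ChevV4E6.valid4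
    Cfsg.Agent.Lib.ChevV6E6.steps Cfsg.Agent.Lib.ChevV6E6.ds Cfsg.Agent.Lib.ChevV6E6.chk_chain Cfsg.Agent.Lib.ChevV6E6.chk_cov
    Cfsg.Agent.Lib.ChevV6E6.chk_poly card_H

end Cfsg.Agent.Lib.ChevOFE6
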