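import Cfsg.Agent.Lib.ChevOrd2
import Cfsg.Agent.Lib.ChevSmE8

/-! The orders of `H` and of the group for type E8. -/

set_option autoImplicit false

namespace Cfsg.Agent.Lib.ChevOFE8

open Cfsg.Lie Cfsg.Agent.Lib.ChevTab Cfsg.Agent.Lib.ChevHOrd Cfsg.Agent.Lib.ChevOrd2

variable {F : Type*} [Field F] [Fintype F]

theorem card_H : (1) * Nat.card (chevE8.diagonalSubgroup F) = (Fintype.card F - 1) ^ 8 := by
  have h := card_H_smith Cfsg.Agent.Lib.ChevValidE8.valid Cfsg.Agent.Lib.ChevV2E8.valid2 Cfsg.Agent.Lib.ChevV3E8.valid3 (F := F)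
    Cfsg.Agent.Lib.ChevSmE8.s Cfsg.Agent.Lib.ChevSmE8.hM Cfsg.Agent.Lib.ChevSmE8.hU Cfsg.Agent.Lib.ChevSmE8.hU' Cfsg.Agent.Lib.ChevSmE8.hW
  have e : (∏ k : Fin Cfsg.Agent.Lib.ChevTbE8.T.l, (Fintype.card F - 1).gcd (Cfsg.Agent.Lib.ChevSmE8.s k)) = 1 := by
    show (∏ k : Fin 8, (Fintype.card F - 1).gcd (Cfsg.Agent.Lib.ChevSmE8.s k)) = 1
    simp [Fin.prod_univ_succ, Cfsg.Agent.Lib.ChevSmE8.s, Nat.gcd_comm, pow_two]
  rw [e] at h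
  exact h

theorem card_G : (1) * Nat.card (chevE8.group F) =
    Fintype.card F ^ (chevE8.nroots / 2) * ([2, 8, 12, 14, 18, 20, 24, 30].map fun e => Fintype.card F ^ e - 1).prod :=
  order_formula Cfsg.Agent.Lib.ChevValidE8.valid Cfsg.Agent.Lib.ChevV2E8.valid2 Cfsg.Agent.Lib.ChevV3E8.valid3 Cfsg.Agent.Lib.ChevV4E8.valid4
    Cfsg.Agent.Lib.ChevV6E8.steps Cfsg.Agent.Lib.ChevV6E8.ds Cfsg.Agent.Lib.ChevV6E8.chk_chain Cfsg.Agent.Lib.ChevV6E8.chk_cov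
    Cfsg.Agent.Lib.ChevV6E8.chk_poly card_H

end Cfsg.Agent.Lib.ChevOFE8
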