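import Cfsg.Agent.Lib.ChevOrd2
import Cfsg.Agent.Lib.ChevSmG2

/-! The orders of `H` and of the group for type G2. -/

set_option autoImplicit false

namespace Cfsg.Agent.Lib.ChevOFG2

open Cfsg.Lie Cfsg.Agent.Lib.ChevTab Cfsg.Agent.Lib.ChevHOrd Cfsg.Agent.Lib.ChevOrd2

variable {F : Type*} [Field F] [Fintype F]

theorem card_H : (1) * Nat.card (chevG2.diagonalSubgroup F) = (Fintype.card F - 1) ^ 2 := by
  have h := card_H_smith Cfsg.Agent.Lib.ChevValidG2.valid Cfsg.Agent.Lib.ChevV2G2.valid2 Cfsg.Agent.Lib.ChevV3G2.valid3 (F := F)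
    Cfsg.Agent.Lib.ChevSmG2.s Cfsg.Agent.Lib.ChevSmG2.hM Cfsg.Agent.Lib.ChevSmG2.hU Cfsg.Agent.Lib.ChevSmG2.hU' Cfsg.Agent.Lib.ChevSmG2.hW
  have e : (∏ k : Fin Cfsg.Agent.Lib.ChevTbG2.T.l, (Fintype.card F - 1).gcd (Cfsg.Agent.Lib.ChevSmG2.s k)) = 1 := by
    show (∏ k : Fin 2, (Fintype.card F - 1).gcd (Cfsg.Agent.Lib.ChevSmG2.s k)) = 1
    simp [Fin.prod_univ_succ, Cfsg.Agent.Lib.ChevSmG2.s, Nat.gcd_comm, pow_two]
  rw [e] at h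
  exact h

theorem card_G : (1) * Nat.card (chevG2.group F) =
    Fintype.card F ^ (chevG2.nroots / 2) * ([2, 6].map fun e => Fintype.card F ^ e - 1).prod :=
  order_formula Cfsg.Agent.Lib.ChevValidG2.valid Cfsg.Agent.Lib.ChevV2G2.valid2 Cfsg.Agent.Lib.ChevV3G2.valid3 Cfsg.Agent.Lib.ChevV4G2.valid4
    Cfsg.Agent.Lib.ChevV6G2.steps Cfsg.Agent.Lib.ChevV6G2.ds Cfsg.Agent.Lib.ChevV6G2.chk_chain Cfsg.Agent.Lib.ChevV6G2.chk_cov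
    Cfsg.Agent.Lib.ChevV6G2.chk_poly card_H

end Cfsg.Agent.Lib.ChevOFG2
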