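import Cfsg.Agent.Lib.ChevOrd2

/-! `U` is a Sylow subgroup. -/

set_option autoImplicit false

namespace Cfsg.Agent.Lib.ChevSyl

open Cfsg.Lie Cfsg.Agent.Lib.ChevEngine Cfsg.Agent.Lib.ChevTab Cfsg.Agent.Lib.ChevMono
  Cfsg.Agent.Lib.ChevRel Cfsg.Agent.Lib.ChevValid Cfsg.Agent.Lib.ChevGL Cfsg.Agent.Lib.ChevGrad Cfsg.Agent.Lib.ChevL2
  Cfsg.Agent.Lib.ChevU Cfsg.Agent.Lib.ChevU2 Cfsg.Agent.Lib.ChevU3 Cfsg.Agent.Lib.ChevDiag Cfsg.Agent.Lib.ChevV3
  Cfsg.Agent.Lib.ChevH Cfsg.Agent.Lib.ChevN Cfsg.Agent.Lib.ChevN2 Cfsg.Agent.Lib.ChevN3 Cfsg.Agent.Lib.ChevBN Cfsg.Agent.Lib.ChevBN2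
  Cfsg.Agent.Lib.ChevV4 Cfsg.Agent.Lib.ChevPar Cfsg.Agent.Lib.ChevV5 Cfsg.Agent.Lib.ChevPar2
  Cfsg.Agent.Lib.BNPair Cfsg.Agent.Lib.BNCount Cfsg.Agent.Lib.ChevW1 Cfsg.Agent.Lib.ChevW2 Cfsg.Agent.Lib.ChevV6
  Cfsg.Agent.Lib.ChevOrd Cfsg.Agent.Lib.ChevHOrd Cfsg.Agent.Lib.ChevOrd2

variable {D : ChevalleyDatum} {T : Tb} {C : Tc} {X : Tc3} {Y : Tc4} {F : Type*} [Field F] [Fintype F]

section
variable (V : Valid D T) (V2 : Valid2 D T C) (V3 : Valid3 T C X) (V4 : Valid4 D T C Y)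

include V V2 V3 V4 in
theorem sylow_U (p : ℕ) [Fact p.Prime] [CharP F p] :
    ∃ P : Sylow p ↥(D.group F), (P : Subgroup ↥(D.group F)) = (D.posUnipotent F).subgroupOf (D.group F) := by
  classical
  have hp : p.Prime := Fact.out
  obtain ⟨n, hn⟩ : ∃ n : ℕ+, Fintype.card F = p ^ (n : ℕ) := by
    obtain ⟨n, hp', hq⟩ := FiniteField.card F p
    exact ⟨n, hq⟩
  have hpq : p ∣ Fintype.card F := by
    rw [hn]
    exact dvd_pow_self p n.ne_zero
  have hq1 : 1 ≤ Fintype.card F := Fintype.card_pos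
  have hUcard : Nat.card ((D.posUnipotent F).subgroupOf (D.group F)) = Fintype.card F ^ (D.nroots / 2) := by
    rw [← card_U V V2]
    exact Nat.card_congr (Subgroup.subgroupOfEquivOfLe (U_le_G V V2)).toEquiv
  have hpg : IsPGroup p ((D.posUnipotent F).subgroupOf (D.group F)) := by
    apply IsPGroup.of_card (n := n * (D.nroots / 2))
    rw [hUcard, hn, pow_mul]
  have : Fintype (W (bnPair (F := F) V V2 V3)) := Fintype.ofFinite _
  have hq : ∀ x ∈ Sb (bnPair (F := F) V V2 V3), Nat.card (Cw (bnPair (F := F) V V2 V3) x) = Fintype.card F * Nat.card (bnPair (F := F) V V2 V3).B := by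
    intro x hx
    obtain ⟨i, hi, rfl⟩ := mem_Sb V V2 V3 hx
    rw [card_Cw_xi V V2 V3 hi, Nat.card_eq_fintype_card]
  have hG := card_G_eq hq
  rw [card_PB V V2 V3, card_borel V V2 V3, card_U V V2] at hG
  set S := ∑ w : W (bnPair (F := F) V V2 V3), (Fintype.card F) ^ len _ w with hS
  have hS1 : ¬ p ∣ S := by
    have e : S = 1 + ∑ w ∈ Finset.univ.erase (1 : W (bnPair (F := F) V V2 V3)), (Fintype.card F) ^ len _ w := by
      rw [hS, ← Finset.add_sum_erase _ _ (Finset.mem_univ (1 : W (bnPair (F := F) V V2 V3))), len_one, pow_zero]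
    have h2 : p ∣ ∑ w ∈ Finset.univ.erase (1 : W (bnPair (F := F) V V2 V3)), (Fintype.card F) ^ len _ w := by
      apply Finset.dvd_sum
      intro w hw
      have hw1 : w ≠ 1 := (Finset.mem_erase.1 hw).1
      have h3 : len _ w ≠ 0 := by
        intro h4
        exact hw1 (len_eq_zero.1 h4)
      exact dvd_pow hpq h3
    rw [e]
    intro h3
    have h4 := (Nat.dvd_add_left h2).1 h3
    exact hp.one_lt.ne' (Nat.dvd_one.1 h4)
  have hH1 : ¬ p ∣ Nat.card (D.diagonalSubgroup F) := by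
    intro h
    have h2 := card_H_mul V V2 V3 (F := F)
    have h3 : p ∣ (Fintype.card F - 1) ^ T.l := by
      rw [← h2]
      exact Dvd.dvd.mul_left h _
    have h4 := hp.dvd_of_dvd_pow h3
    have h5 : p ∣ 1 := by
      have := Nat.dvd_sub hpq h4
      rwa [Nat.sub_sub_self hq1] at this
    exact hp.one_lt.ne' (Nat.dvd_one.1 h5)
  have hidx : ((D.posUnipotent F).subgroupOf (D.group F)).index = Nat.card (D.diagonalSubgroup F) * S := by
    have h1 := ((D.posUnipotent F).subgroupOf (D.group F)).card_mul_index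
    rw [hUcard, hG, mul_assoc] at h1
    exact Nat.eq_of_mul_eq_mul_left (pow_pos Fintype.card_pos _) h1
  have hidx2 : ¬ p ∣ ((D.posUnipotent F).subgroupOf (D.group F)).index := by
    rw [hidx]
    intro h
    rcases hp.dvd_mul.1 h with h | h
    · exact hH1 h
    · exact hS1 h
  exact ⟨hpg.toSylow hidx2, rfl⟩

end

end Cfsg.Agent.Lib.ChevSyl
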