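import Cfsg.Agent.Lib.ChevTw9D4
import Cfsg.Prelude.Def_LieTwisted
import Cfsg.Prelude.Def_ChevStructure

/-! The twisted group of type D4 as the group generated by fixed points. -/

set_option autoImplicit false
set_option linter.unusedVariables false

namespace Cfsg.Agent.Lib.ChevTw10D4

open Cfsg.Lie Matrix Cfsg.Agent.Lib.ChevEngine Cfsg.Agent.Lib.ChevTab Cfsg.Agent.Lib.ChevMono
  Cfsg.Agent.Lib.ChevRel Cfsg.Agent.Lib.ChevValid Cfsg.Agent.Lib.ChevGL Cfsg.Agent.Lib.ChevGrad Cfsg.Agent.Lib.ChevL2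
  Cfsg.Agent.Lib.ChevU Cfsg.Agent.Lib.ChevU2 Cfsg.Agent.Lib.ChevU3 Cfsg.Agent.Lib.ChevDiag Cfsg.Agent.Lib.ChevV3
  Cfsg.Agent.Lib.ChevH Cfsg.Agent.Lib.ChevN Cfsg.Agent.Lib.ChevN2 Cfsg.Agent.Lib.ChevN3 Cfsg.Agent.Lib.ChevBN Cfsg.Agent.Lib.ChevBN2
  Cfsg.Agent.Lib.ChevV4 Cfsg.Agent.Lib.ChevSimp Cfsg.Agent.Lib.ChevSimp2 Cfsg.Agent.Lib.ChevPar Cfsg.Agent.Lib.ChevV5 Cfsg.Agent.Lib.ChevPar2
  Cfsg.Agent.Lib.ChevPar3 Cfsg.Agent.Lib.BNPair Cfsg.Agent.Lib.BNCount Cfsg.Agent.Lib.ChevW1 Cfsg.Agent.Lib.ChevW2 Cfsg.Agent.Lib.ChevTw1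
  Cfsg.Agent.Lib.ChevTw2 Cfsg.Agent.Lib.ChevTw3 Cfsg.Agent.Lib.ChevAut3 Cfsg.Agent.Lib.ChevTw4 Cfsg.Agent.Lib.ChevTw5 Cfsg.Agent.Lib.ChevW3
  Cfsg.Agent.Lib.ChevTw6 Cfsg.Agent.Lib.ChevTw7 Cfsg.Agent.Lib.ChevTw8 Cfsg.Agent.Lib.ChevTbD4 Cfsg.Agent.Lib.ChevV2D4 Cfsg.Agent.Lib.ChevV3D4 Cfsg.Agent.Lib.ChevV4D4 Cfsg.Agent.Lib.ChevValidD4 Cfsg.Agent.Lib.ChevTw9D4 Cfsg.Agent.Lib.ChevFrob

variable {K : Type*} [Field K] [Fintype K] {q : ℕ} {φ : K ≃+* K}

/-- the fixed point structure -/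
noncomputable def W (φ : K ≃+* K) : ChevTw2.TwFix valid valid2 valid3 K (Fin 2) :=
  orbFix valid valid2 valid3 valid4 graphOk φ Q hε

theorem chain0 : chainL π (Q.i0 0) (Q.k 0) = [0, 2, 3] := by decide +kernel
theorem chain1 : chainL π (Q.i0 1) (Q.k 1) = [1] := by decide +kernel
theorem k0 : Q.k 0 = 3 := by decide +kernel
theorem k1 : Q.k 1 = 1 := by decide +kernel

theorem s0 : T.sim 0 = d4p1 := by decide +kernel
theorem s2 : T.sim 2 = d4p3 := by decide +kernel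
theorem s3 : T.sim 3 = d4p4 := by decide +kernel
theorem s1 : T.sim 1 = d4p2 := by decide +kernel
theorem n0 : T.neg (T.sim 0) = d4m1 := by decide +kernel
theorem n2 : T.neg (T.sim 2) = d4m3 := by decide +kernel
theorem n3 : T.neg (T.sim 3) = d4m4 := by decide +kernel
theorem n1 : T.neg (T.sim 1) = d4m2 := by decide +kernel

theorem gen_mem {w : List (ℕ × K)} (h : w ∈ d4Words K q) : wordU valid w ∈ twistedD4 K q :=
  Subgroup.subset_closure ⟨w, h, wordU_val valid w⟩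

theorem twisted_eq (hφ : ∀ a, φ a = a ^ q) (hK : Fintype.card K = q ^ 3) : twistedD4 K q = (W φ).G1 := by
  have hsq : ∀ a : K, ((a ^ q) ^ q) ^ q = a := by
    intro a
    have e : q * (q * q) = Fintype.card K := by rw [hK]; ring
    rw [← pow_mul, ← pow_mul, e, FiniteField.pow_card]
  have h2 : ∀ a : K, (a ^ q) ^ q = a ^ (q ^ 2) := by
    intro a
    rw [← pow_mul, sq]
  unfold W
  rw [G1_eq]
  apply le_antisymm
  · unfold twistedD4 ChevalleyDatum.genSubgroup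
    rw [Subgroup.closure_le]
    rintro g ⟨w, hw, hg⟩
    have e : g = wordU valid w := Units.ext (hg.trans (wordU_val valid w).symm)
    subst e
    rcases hw with ⟨t, ht, r, hr, rfl⟩ | ⟨t, rs, hrs, rfl⟩
    · have hk1 : φ^[1] t = t := by
        show φ t = t
        rw [hφ, ht]
      simp only [List.mem_cons, List.not_mem_nil, or_false] at hr
      rcases hr with rfl | rfl
      · refine Subgroup.subset_closure ⟨1, t, by rw [k1]; exact hk1, Or.inl ?_⟩
        rw [chain1]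
        simp [eWg, s1]
      · refine Subgroup.subset_closure ⟨1, t, by rw [k1]; exact hk1, Or.inr ?_⟩
        rw [chain1]
        simp [eWg, n1]
    · have hk3 : φ^[3] t = t := by
        show φ (φ (φ t)) = t
        rw [hφ, hφ, hφ, hsq]
      simp only [List.mem_cons, List.not_mem_nil, or_false] at hrs
      rcases hrs with rfl | rfl
      · refine Subgroup.subset_closure ⟨0, t, by rw [k0]; exact hk3, Or.inl ?_⟩
        rw [chain0]
        simp [eWg, s0, s2, s3, hφ, h2]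
      · refine Subgroup.subset_closure ⟨0, t, by rw [k0]; exact hk3, Or.inr ?_⟩
        rw [chain0]
        simp [eWg, n0, n2, n3, hφ, h2]
  · rw [Subgroup.closure_le]
    rintro x ⟨j, a, ha, rfl | rfl⟩
    · fin_cases j
      · show wordU valid (eWg T.sim φ (chainL π (Q.i0 0) (Q.k 0)) a) ∈ _
        rw [chain0]
        have h : wordU valid (eWg T.sim φ [0, 2, 3] a) = wordU valid [(d4p1, a), (d4p3, a ^ q), (d4p4, a ^ (q ^ 2))] := by
          simp [eWg, s0, s2, s3, hφ, h2]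
        rw [h]
        exact gen_mem (Or.inr ⟨a, (d4p1, d4p3, d4p4), by simp, rfl⟩)
      · show wordU valid (eWg T.sim φ (chainL π (Q.i0 1) (Q.k 1)) a) ∈ _
        rw [chain1]
        have h : wordU valid (eWg T.sim φ [1] a) = wordU valid [(d4p2, a)] := by
          simp [eWg, s1]
        rw [h]
        have ha' : φ a = a := ha
        exact gen_mem (Or.inl ⟨a, by rw [← hφ, ha'], d4p2, by simp, rfl⟩)
    · fin_cases j
      · show wordU valid (eWg (fun c => T.neg (T.sim c)) φ (chainL π (Q.i0 0) (Q.k 0)) a) ∈ _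
        rw [chain0]
        have h : wordU valid (eWg (fun c => T.neg (T.sim c)) φ [0, 2, 3] a) = wordU valid [(d4m1, a), (d4m3, a ^ q), (d4m4, a ^ (q ^ 2))] := by
          simp [eWg, n0, n2, n3, hφ, h2]
        rw [h]
        exact gen_mem (Or.inr ⟨a, (d4m1, d4m3, d4m4), by simp, rfl⟩)
      · show wordU valid (eWg (fun c => T.neg (T.sim c)) φ (chainL π (Q.i0 1) (Q.k 1)) a) ∈ _
        rw [chain1]
        have h : wordU valid (eWg (fun c => T.neg (T.sim c)) φ [1] a) = wordU valid [(d4m2, a)] := by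
          simp [eWg, n1]
        rw [h]
        have ha' : φ a = a := ha
        exact gen_mem (Or.inl ⟨a, by rw [← hφ, ha'], d4m2, by simp, rfl⟩)

/-- The weights. -/
theorem card_Y (hq : IsPrimePow q) (hφ : ∀ a, φ a = a ^ q) (hK : Fintype.card K = q ^ 3) (j : Fin 2) :
    Nat.card ↥((W φ).Yp j) = q ^ Q.k j := by
  unfold W
  rw [card_Yp]
  fin_cases j
  · show Nat.card {a : K // φ^[Q.k 0] a = a} = q ^ Q.k 0
    rw [k0]
    exact count_top hφ hK
  · show Nat.card {a : K // φ^[Q.k 1] a = a} = q ^ Q.k 1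
    rw [k1, pow_one]
    exact count_fix_one hφ hq (by norm_num) hK

theorem card_P (φ : K ≃+* K) (j : Fin 2) : (PJs T C ((W φ).A j)).card = 1 * Q.k j := by
  rw [one_mul]
  exact card_PJs valid valid2 valid3 valid4 Q j

/-- The order of the unipotent part. -/
theorem card_U (hq : IsPrimePow q) (hK : Fintype.card K = q ^ 3) : Nat.card ↥(chevD4.posUnipotent K ⊓ twistedD4 K q) = q ^ 12 := by
  obtain ⟨φ, hφ⟩ := exists_frob hq (by norm_num) hK
  rw [twisted_eq hφ hK]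
  exact Cfsg.Agent.Lib.ChevTw3.TwFix.card_U1 (W φ) valid4 (card_Y hq hφ hK) (card_P φ) (by norm_num) (by decide +kernel)

theorem exists_bn (hq : IsPrimePow q) (hK : Fintype.card K = q ^ 3) : ∃ P : Cfsg.BNPair ↥(twistedD4 K q),
    P.B = (chevD4.borelSubgroup K ⊓ twistedD4 K q).subgroupOf (twistedD4 K q) ∧
    P.N = (chevD4.monomialSubgroup K ⊓ twistedD4 K q).subgroupOf (twistedD4 K q) := by
  obtain ⟨φ, hφ⟩ := exists_frob hq (by norm_num) hK
  rw [twisted_eq hφ hK]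
  exact ⟨(W φ).bn valid4, rfl, rfl⟩

end Cfsg.Agent.Lib.ChevTw10D4
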