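import Cfsg.Agent.Lib.ChevTw9E6
import Cfsg.Prelude.Def_LieTwisted
import Cfsg.Prelude.Def_ChevStructure

/-! The twisted group of type E6 as the group generated by fixed points. -/

set_option autoImplicit false
set_option linter.unusedVariables false

namespace Cfsg.Agent.Lib.ChevTw10E6

open Cfsg.Lie Matrix Cfsg.Agent.Lib.ChevEngine Cfsg.Agent.Lib.ChevTab Cfsg.Agent.Lib.ChevMono
  Cfsg.Agent.Lib.ChevRel Cfsg.Agent.Lib.ChevValid Cfsg.Agent.Lib.ChevGL Cfsg.Agent.Lib.ChevGrad Cfsg.Agent.Lib.ChevL2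
  Cfsg.Agent.Lib.ChevU Cfsg.Agent.Lib.ChevU2 Cfsg.Agent.Lib.ChevU3 Cfsg.Agent.Lib.ChevDiag Cfsg.Agent.Lib.ChevV3
  Cfsg.Agent.Lib.ChevH Cfsg.Agent.Lib.ChevN Cfsg.Agent.Lib.ChevN2 Cfsg.Agent.Lib.ChevN3 Cfsg.Agent.Lib.ChevBN Cfsg.Agent.Lib.ChevBN2
  Cfsg.Agent.Lib.ChevV4 Cfsg.Agent.Lib.ChevSimp Cfsg.Agent.Lib.ChevSimp2 Cfsg.Agent.Lib.ChevPar Cfsg.Agent.Lib.ChevV5 Cfsg.Agent.Lib.ChevPar2
  Cfsg.Agent.Lib.ChevPar3 Cfsg.Agent.Lib.BNPair Cfsg.Agent.Lib.BNCount Cfsg.Agent.Lib.ChevW1 Cfsg.Agent.Lib.ChevW2 Cfsg.Agent.Lib.ChevTw1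
  Cfsg.Agent.Lib.ChevTw2 Cfsg.Agent.Lib.ChevTw3 Cfsg.Agent.Lib.ChevAut3 Cfsg.Agent.Lib.ChevTw4 Cfsg.Agent.Lib.ChevTw5 Cfsg.Agent.Lib.ChevW3
  Cfsg.Agent.Lib.ChevTw6 Cfsg.Agent.Lib.ChevTw7 Cfsg.Agent.Lib.ChevTw8 Cfsg.Agent.Lib.ChevTbE6 Cfsg.Agent.Lib.ChevV2E6 Cfsg.Agent.Lib.ChevV3E6 Cfsg.Agent.Lib.ChevV4E6 Cfsg.Agent.Lib.ChevValidE6 Cfsg.Agent.Lib.ChevTw9E6 Cfsg.Agent.Lib.ChevFrob

variable {K : Type*} [Field K] [Fintype K] {q : ℕ} {φ : K ≃+* K}

/-- the fixed point structure -/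
noncomputable def W (φ : K ≃+* K) : ChevTw2.TwFix valid valid2 valid3 K (Fin 4) :=
  orbFix valid valid2 valid3 valid4 graphOk φ Q hε

theorem chain0 : chainL π (Q.i0 0) (Q.k 0) = [0, 5] := by decide +kernel
theorem chain1 : chainL π (Q.i0 1) (Q.k 1) = [2, 4] := by decide +kernel
theorem chain2 : chainL π (Q.i0 2) (Q.k 2) = [3] := by decide +kernel
theorem chain3 : chainL π (Q.i0 3) (Q.k 3) = [1] := by decide +kernel
theorem k0 : Q.k 0 = 2 := by decide +kernel
theorem k1 : Q.k 1 = 2 := by decide +kernel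
theorem k2 : Q.k 2 = 1 := by decide +kernel
theorem k3 : Q.k 3 = 1 := by decide +kernel

theorem s0 : T.sim 0 = e6p1 := by decide +kernel
theorem s5 : T.sim 5 = e6p6 := by decide +kernel
theorem s2 : T.sim 2 = e6p3 := by decide +kernel
theorem s4 : T.sim 4 = e6p5 := by decide +kernel
theorem s3 : T.sim 3 = e6p4 := by decide +kernel
theorem s1 : T.sim 1 = e6p2 := by decide +kernel
theorem n0 : T.neg (T.sim 0) = e6m1 := by decide +kernel
theorem n5 : T.neg (T.sim 5) = e6m6 := by decide +kernel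
theorem n2 : T.neg (T.sim 2) = e6m3 := by decide +kernel
theorem n4 : T.neg (T.sim 4) = e6m5 := by decide +kernel
theorem n3 : T.neg (T.sim 3) = e6m4 := by decide +kernel
theorem n1 : T.neg (T.sim 1) = e6m2 := by decide +kernel

theorem gen_mem {w : List (ℕ × K)} (h : w ∈ e6Words K q) : wordU valid w ∈ twistedE6 K q :=
  Subgroup.subset_closure ⟨w, h, wordU_val valid w⟩

theorem twisted_eq (hφ : ∀ a, φ a = a ^ q) (hK : Fintype.card K = q ^ 2) : twistedE6 K q = (W φ).G1 := by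
  have hsq : ∀ a : K, (a ^ q) ^ q = a := by
    intro a
    rw [← pow_mul, ← sq, ← hK, FiniteField.pow_card]
  unfold W
  rw [G1_eq]
  apply le_antisymm
  · unfold twistedE6 ChevalleyDatum.genSubgroup
    rw [Subgroup.closure_le]
    rintro g ⟨w, hw, hg⟩
    have e : g = wordU valid w := Units.ext (hg.trans (wordU_val valid w).symm)
    subst e
    rcases hw with ⟨t, ht, r, hr, rfl⟩ | ⟨t, rs, hrs, rfl⟩
    · have hk1 : φ^[1] t = t := by
        show φ t = t
        rw [hφ, ht]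
      simp only [List.mem_cons, List.not_mem_nil, or_false] at hr
      rcases hr with rfl | rfl | rfl | rfl
      · refine Subgroup.subset_closure ⟨3, t, by rw [k3]; exact hk1, Or.inl ?_⟩
        rw [chain3]
        simp [eWg, s1]
      · refine Subgroup.subset_closure ⟨3, t, by rw [k3]; exact hk1, Or.inr ?_⟩
        rw [chain3]
        simp [eWg, n1]
      · refine Subgroup.subset_closure ⟨2, t, by rw [k2]; exact hk1, Or.inl ?_⟩
        rw [chain2]
        simp [eWg, s3]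
      · refine Subgroup.subset_closure ⟨2, t, by rw [k2]; exact hk1, Or.inr ?_⟩
        rw [chain2]
        simp [eWg, n3]
    · have hk2 : φ^[2] t = t := by
        show φ (φ t) = t
        rw [hφ, hφ, hsq]
      simp only [List.mem_cons, List.not_mem_nil, or_false] at hrs
      rcases hrs with rfl | rfl | rfl | rfl
      · refine Subgroup.subset_closure ⟨0, t, by rw [k0]; exact hk2, Or.inl ?_⟩
        rw [chain0]
        simp [eWg, s0, s5, hφ]
      · refine Subgroup.subset_closure ⟨0, t, by rw [k0]; exact hk2, Or.inr ?_⟩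
        rw [chain0]
        simp [eWg, n0, n5, hφ]
      · refine Subgroup.subset_closure ⟨1, t, by rw [k1]; exact hk2, Or.inl ?_⟩
        rw [chain1]
        simp [eWg, s2, s4, hφ]
      · refine Subgroup.subset_closure ⟨1, t, by rw [k1]; exact hk2, Or.inr ?_⟩
        rw [chain1]
        simp [eWg, n2, n4, hφ]
  · rw [Subgroup.closure_le]
    rintro x ⟨j, a, ha, rfl | rfl⟩
    · fin_cases j
      · show wordU valid (eWg T.sim φ (chainL π (Q.i0 0) (Q.k 0)) a) ∈ _
        rw [chain0]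
        have h : wordU valid (eWg T.sim φ [0, 5] a) = wordU valid [(e6p1, a), (e6p6, a ^ q)] := by
          simp [eWg, s0, s5, hφ]
        rw [h]
        exact gen_mem (Or.inr ⟨a, (e6p1, e6p6), by simp, rfl⟩)
      · show wordU valid (eWg T.sim φ (chainL π (Q.i0 1) (Q.k 1)) a) ∈ _
        rw [chain1]
        have h : wordU valid (eWg T.sim φ [2, 4] a) = wordU valid [(e6p3, a), (e6p5, a ^ q)] := by
          simp [eWg, s2, s4, hφ]
        rw [h]
        exact gen_mem (Or.inr ⟨a, (e6p3, e6p5), by simp, rfl⟩)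
      · show wordU valid (eWg T.sim φ (chainL π (Q.i0 2) (Q.k 2)) a) ∈ _
        rw [chain2]
        have h : wordU valid (eWg T.sim φ [3] a) = wordU valid [(e6p4, a)] := by
          simp [eWg, s3]
        rw [h]
        have ha' : φ a = a := ha
        exact gen_mem (Or.inl ⟨a, by rw [← hφ, ha'], e6p4, by simp, rfl⟩)
      · show wordU valid (eWg T.sim φ (chainL π (Q.i0 3) (Q.k 3)) a) ∈ _
        rw [chain3]
        have h : wordU valid (eWg T.sim φ [1] a) = wordU valid [(e6p2, a)] := by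
          simp [eWg, s1]
        rw [h]
        have ha' : φ a = a := ha
        exact gen_mem (Or.inl ⟨a, by rw [← hφ, ha'], e6p2, by simp, rfl⟩)
    · fin_cases j
      · show wordU valid (eWg (fun c => T.neg (T.sim c)) φ (chainL π (Q.i0 0) (Q.k 0)) a) ∈ _
        rw [chain0]
        have h : wordU valid (eWg (fun c => T.neg (T.sim c)) φ [0, 5] a) = wordU valid [(e6m1, a), (e6m6, a ^ q)] := by
          simp [eWg, n0, n5, hφ]
        rw [h]
        exact gen_mem (Or.inr ⟨a, (e6m1, e6m6), by simp, rfl⟩)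
      · show wordU valid (eWg (fun c => T.neg (T.sim c)) φ (chainL π (Q.i0 1) (Q.k 1)) a) ∈ _
        rw [chain1]
        have h : wordU valid (eWg (fun c => T.neg (T.sim c)) φ [2, 4] a) = wordU valid [(e6m3, a), (e6m5, a ^ q)] := by
          simp [eWg, n2, n4, hφ]
        rw [h]
        exact gen_mem (Or.inr ⟨a, (e6m3, e6m5), by simp, rfl⟩)
      · show wordU valid (eWg (fun c => T.neg (T.sim c)) φ (chainL π (Q.i0 2) (Q.k 2)) a) ∈ _
        rw [chain2]
        have h : wordU valid (eWg (fun c => T.neg (T.sim c)) φ [3] a) = wordU valid [(e6m4, a)] := by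
          simp [eWg, n3]
        rw [h]
        have ha' : φ a = a := ha
        exact gen_mem (Or.inl ⟨a, by rw [← hφ, ha'], e6m4, by simp, rfl⟩)
      · show wordU valid (eWg (fun c => T.neg (T.sim c)) φ (chainL π (Q.i0 3) (Q.k 3)) a) ∈ _
        rw [chain3]
        have h : wordU valid (eWg (fun c => T.neg (T.sim c)) φ [1] a) = wordU valid [(e6m2, a)] := by
          simp [eWg, n1]
        rw [h]
        have ha' : φ a = a := ha
        exact gen_mem (Or.inl ⟨a, by rw [← hφ, ha'], e6m2, by simp, rfl⟩)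

/-- The weights. -/
theorem card_Y (hq : IsPrimePow q) (hφ : ∀ a, φ a = a ^ q) (hK : Fintype.card K = q ^ 2) (j : Fin 4) :
    Nat.card ↥((W φ).Yp j) = q ^ Q.k j := by
  unfold W
  rw [card_Yp]
  fin_cases j
  · show Nat.card {a : K // φ^[Q.k 0] a = a} = q ^ Q.k 0
    rw [k0]
    exact count_top hφ hK
  · show Nat.card {a : K // φ^[Q.k 1] a = a} = q ^ Q.k 1
    rw [k1]
    exact count_top hφ hK
  · show Nat.card {a : K // φ^[Q.k 2] a = a} = q ^ Q.k 2
    rw [k2, pow_one]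
    exact count_fix_one hφ hq (by norm_num) hK
  · show Nat.card {a : K // φ^[Q.k 3] a = a} = q ^ Q.k 3
    rw [k3, pow_one]
    exact count_fix_one hφ hq (by norm_num) hK

theorem card_P (φ : K ≃+* K) (j : Fin 4) : (PJs T C ((W φ).A j)).card = 1 * Q.k j := by
  rw [one_mul]
  exact card_PJs valid valid2 valid3 valid4 Q j

/-- The order of the unipotent part. -/
theorem card_U (hq : IsPrimePow q) (hK : Fintype.card K = q ^ 2) : Nat.card ↥(chevE6.posUnipotent K ⊓ twistedE6 K q) = q ^ 36 := by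
  obtain ⟨φ, hφ⟩ := exists_frob hq (by norm_num) hK
  rw [twisted_eq hφ hK]
  exact Cfsg.Agent.Lib.ChevTw3.TwFix.card_U1 (W φ) valid4 (card_Y hq hφ hK) (card_P φ) (by norm_num) (by decide +kernel)

theorem exists_bn (hq : IsPrimePow q) (hK : Fintype.card K = q ^ 2) : ∃ P : Cfsg.BNPair ↥(twistedE6 K q),
    P.B = (chevE6.borelSubgroup K ⊓ twistedE6 K q).subgroupOf (twistedE6 K q) ∧
    P.N = (chevE6.monomialSubgroup K ⊓ twistedE6 K q).subgroupOf (twistedE6 K q) := by
  obtain ⟨φ, hφ⟩ := exists_frob hq (by norm_num) hK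
  rw [twisted_eq hφ hK]
  exact ⟨(W φ).bn valid4, rfl, rfl⟩

end Cfsg.Agent.Lib.ChevTw10E6
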