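import Cfsg.Agent.Lib.ChevTw13
import Cfsg.Agent.Lib.ChevTw10D4

/-! The diagonal part of `³D₄(q)`. -/

set_option autoImplicit false
set_option linter.unusedVariables false
set_option linter.unusedSectionVars false
set_option linter.unusedFintypeInType false
set_option linter.unusedDecidableInType false

namespace Cfsg.Agent.Lib.ChevTw14D4

open Cfsg.Lie Matrix Cfsg.Agent.Lib.ChevEngine Cfsg.Agent.Lib.ChevTab Cfsg.Agent.Lib.ChevMono
  Cfsg.Agent.Lib.ChevRel Cfsg.Agent.Lib.ChevValid Cfsg.Agent.Lib.ChevGL Cfsg.Agent.Lib.ChevGrad Cfsg.Agent.Lib.ChevL2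
  Cfsg.Agent.Lib.ChevU Cfsg.Agent.Lib.ChevU2 Cfsg.Agent.Lib.ChevU3 Cfsg.Agent.Lib.ChevDiag Cfsg.Agent.Lib.ChevV3
  Cfsg.Agent.Lib.ChevH Cfsg.Agent.Lib.ChevN Cfsg.Agent.Lib.ChevN2 Cfsg.Agent.Lib.ChevN3 Cfsg.Agent.Lib.ChevBN Cfsg.Agent.Lib.ChevBN2
  Cfsg.Agent.Lib.ChevV4 Cfsg.Agent.Lib.ChevSimp Cfsg.Agent.Lib.ChevSimp2 Cfsg.Agent.Lib.ChevPar Cfsg.Agent.Lib.ChevV5 Cfsg.Agent.Lib.ChevPar2
  Cfsg.Agent.Lib.ChevPar3 Cfsg.Agent.Lib.BNPair Cfsg.Agent.Lib.BNCount Cfsg.Agent.Lib.ChevW1 Cfsg.Agent.Lib.ChevW2 Cfsg.Agent.Lib.ChevTw1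
  Cfsg.Agent.Lib.ChevTw2 Cfsg.Agent.Lib.ChevTw3 Cfsg.Agent.Lib.ChevAut3 Cfsg.Agent.Lib.ChevTw4 Cfsg.Agent.Lib.ChevTw5 Cfsg.Agent.Lib.ChevW3
  Cfsg.Agent.Lib.ChevTw6 Cfsg.Agent.Lib.ChevTw7 Cfsg.Agent.Lib.ChevTw8 Cfsg.Agent.Lib.ChevTw3.TwFix Cfsg.Agent.Lib.ChevHOrd Cfsg.Agent.Lib.ChevTw11 Cfsg.Agent.Lib.ChevTw12 Cfsg.Agent.Lib.ChevTw13 Cfsg.Agent.Lib.ChevTbD4 Cfsg.Agent.Lib.ChevV2D4 Cfsg.Agent.Lib.ChevV3D4 Cfsg.Agent.Lib.ChevV4D4 Cfsg.Agent.Lib.ChevValidD4 Cfsg.Agent.Lib.ChevTw9D4 Cfsg.Agent.Lib.ChevFrob Cfsg.Agent.Lib.ChevTw10D4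

variable {K : Type*} [Field K] [Fintype K] {q : ℕ} {φ : K ≃+* K}

theorem chi_formula (c : Fin T.l → Kˣ) (k : Fin T.l) :
    actM (A := Kˣ) (cartanM T) c k = ∏ i ∈ Finset.range T.l, (cExt c i) ^ T.ca i (T.sim k) := by
  rw [← cc_sim valid valid2 valid3]
  unfold cc
  apply Finset.prod_congr rfl
  intro i hi
  rw [aG_eq valid3 _ (sim_lt' valid valid2 valid3 k.2), aa_sim valid3 (by simpa using hi)]

theorem range_l (x : ℕ → Kˣ) (s : ℕ) : ∏ i ∈ Finset.range T.l, x i ^ T.ca i s =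
    x 0 ^ T.ca 0 s * x 1 ^ T.ca 1 s * x 2 ^ T.ca 2 s * x 3 ^ T.ca 3 s := by
  show ∏ i ∈ Finset.range 4, x i ^ T.ca i s = _
  simp [Finset.prod_range_succ]

theorem chi0 (x : ℕ → Kˣ) : ∏ i ∈ Finset.range T.l, x i ^ T.ca i (T.sim 0) = x 0 ^ 2 * (x 1)⁻¹ := by
  have h0 : T.ca 0 (T.sim 0) = 2 := by decide +kernel
  have h1 : T.ca 1 (T.sim 0) = -1 := by decide +kernel
  have h2 : T.ca 2 (T.sim 0) = 0 := by decide +kernel
  have h3 : T.ca 3 (T.sim 0) = 0 := by decide +kernel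
  rw [range_l, h0, h1, h2, h3]
  simp [zpow_ofNat]

theorem chi1 (x : ℕ → Kˣ) : ∏ i ∈ Finset.range T.l, x i ^ T.ca i (T.sim 1) = (x 0)⁻¹ * x 1 ^ 2 * (x 2)⁻¹ * (x 3)⁻¹ := by
  have h0 : T.ca 0 (T.sim 1) = -1 := by decide +kernel
  have h1 : T.ca 1 (T.sim 1) = 2 := by decide +kernel
  have h2 : T.ca 2 (T.sim 1) = -1 := by decide +kernel
  have h3 : T.ca 3 (T.sim 1) = -1 := by decide +kernel
  rw [range_l, h0, h1, h2, h3]
  simp [zpow_ofNat]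

theorem chi2 (x : ℕ → Kˣ) : ∏ i ∈ Finset.range T.l, x i ^ T.ca i (T.sim 2) = (x 1)⁻¹ * x 2 ^ 2 := by
  have h0 : T.ca 0 (T.sim 2) = 0 := by decide +kernel
  have h1 : T.ca 1 (T.sim 2) = -1 := by decide +kernel
  have h2 : T.ca 2 (T.sim 2) = 2 := by decide +kernel
  have h3 : T.ca 3 (T.sim 2) = 0 := by decide +kernel
  rw [range_l, h0, h1, h2, h3]
  simp [zpow_ofNat]

theorem chi3 (x : ℕ → Kˣ) : ∏ i ∈ Finset.range T.l, x i ^ T.ca i (T.sim 3) = (x 1)⁻¹ * x 3 ^ 2 := by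
  have h0 : T.ca 0 (T.sim 3) = 0 := by decide +kernel
  have h1 : T.ca 1 (T.sim 3) = -1 := by decide +kernel
  have h2 : T.ca 2 (T.sim 3) = 0 := by decide +kernel
  have h3 : T.ca 3 (T.sim 3) = 2 := by decide +kernel
  rw [range_l, h0, h1, h2, h3]
  simp [zpow_ofNat]

/-- The kernel of the Cartan action on stable tuples is trivial. -/
theorem ker_trivial (φ : K ≃+* K) : (Sg T π φ ⊓ (actM (A := Kˣ) (cartanM T)).ker : Subgroup (Fin T.l → Kˣ)) = ⊥ := by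
  rw [Subgroup.eq_bot_iff_forall]
  rintro c ⟨hS0, hc0⟩
  have hc : actM (A := Kˣ) (cartanM T) c = 1 := hc0
  have hS : Stab π φ (cExt c) T.l := hS0
  set x := cExt c with hx
  have e : ∀ k (hk : k < T.l), ∏ i ∈ Finset.range T.l, x i ^ T.ca i (T.sim k) = 1 := by
    intro k hk
    rw [← chi_formula c ⟨k, hk⟩, hc]
    rfl
  have e0 := e 0 (by decide +kernel)
  have e1 := e 1 (by decide +kernel)
  have e2 := e 2 (by decide +kernel)
  have e3 := e 3 (by decide +kernel)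
  rw [chi0] at e0
  rw [chi1] at e1
  rw [chi2] at e2
  rw [chi3] at e3
  have s0 : ((x 2 : Kˣ) : K) = φ (x 0) := hS 0 (by decide +kernel)
  have s2 : ((x 3 : Kˣ) : K) = φ (x 2) := hS 2 (by decide +kernel)
  have s3 : ((x 0 : Kˣ) : K) = φ (x 3) := hS 3 (by decide +kernel)
  -- algebra
  have h0 : x 0 ^ 2 = x 1 := by
    rw [mul_inv_eq_one] at e0
    exact e0
  have h2 : x 2 ^ 2 = x 1 := by
    rw [inv_mul_eq_one] at e2
    exact e2.symm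
  have h3 : x 3 ^ 2 = x 1 := by
    rw [inv_mul_eq_one] at e3
    exact e3.symm
  have h1 : x 1 ^ 2 = x 0 * x 2 * x 3 := by
    have : x 1 ^ 2 * ((x 0 * x 2 * x 3)⁻¹) = 1 := by
      rw [← e1]
      simp only [_root_.mul_inv_rev]
      ac_rfl
    exact mul_inv_eq_one.mp this
  have hx1 : x 1 = 1 := by
    have h4 : x 1 ^ 4 = x 1 ^ 3 := by
      calc x 1 ^ 4 = (x 1 ^ 2) ^ 2 := by rw [← pow_mul]
        _ = (x 0 * x 2 * x 3) ^ 2 := by rw [h1]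
        _ = x 0 ^ 2 * x 2 ^ 2 * x 3 ^ 2 := by rw [mul_pow, mul_pow]
        _ = x 1 ^ 3 := by rw [h0, h2, h3, pow_succ, sq]
    have h5 : x 1 ^ 3 * x 1 = x 1 ^ 3 * 1 := by
      rw [mul_one, ← pow_succ]
      exact h4
    exact mul_left_cancel h5
  have hsq : ((x 0 : Kˣ) : K) ^ 2 = 1 := by
    have := congrArg (fun u : Kˣ => (u : K)) h0
    simpa [hx1] using this
  have hfix : φ ((x 0 : Kˣ) : K) = (x 0 : Kˣ) := by
    have : ((x 0 : Kˣ) : K) = 1 ∨ ((x 0 : Kˣ) : K) = -1 := mul_self_eq_one_iff.mp (by rw [← sq]; exact hsq)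
    rcases this with h | h <;> rw [h] <;> simp
  have hx2 : x 2 = x 0 := Units.ext (by rw [s0, hfix])
  have hx3 : x 3 = x 0 := Units.ext (by rw [s2, hx2, hfix])
  have hx0 : x 0 = 1 := by
    have h6 : x 0 ^ 2 = 1 := by rw [h0, hx1]
    have h7 : x 0 ^ 3 = 1 := by
      have := h1
      rw [hx1, hx2, hx3, one_pow] at this
      rw [pow_succ, sq]
      exact this.symm
    have h8 : x 0 ^ 3 = x 0 ^ 2 * x 0 := pow_succ _ _
    rw [h6, one_mul] at h8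
    rw [← h8, h7]
  funext m
  have hm : m.1 < 4 := m.2
  have hv : ∀ (k : ℕ), k < 4 → x k = 1 := by
    intro k hk
    interval_cases k
    · exact hx0
    · exact hx1
    · rw [hx2, hx0]
    · rw [hx3, hx0]
  have h9 := hv m.1 hm
  simp only [hx, cExt, m.2, dite_true] at h9
  exact h9

/-- The order of the torus. -/
theorem card_H_aux (hq : IsPrimePow q) (hφ : ∀ a, φ a = a ^ q) (hK : Fintype.card K = q ^ 3) :
    Nat.card ↥(chevD4.diagonalSubgroup K ⊓ (W φ).G1) = (q ^ 3 - 1) * (q - 1) := by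
  have hS : Nat.card (Sg T π φ) = (q ^ 3 - 1) * (q - 1) := by
    rw [card_Sg valid valid2 valid3 valid4 graphOk φ Q, Fin.prod_univ_two]
    congr 1
    · have h1 := count_units φ (Q.k 0)
      rw [k0] at h1 ⊢
      rw [count_top hφ hK] at h1
      omega
    · have h1 := count_units φ (Q.k 1)
      rw [k1] at h1 ⊢
      rw [count_fix_one hφ hq (by norm_num) hK] at h1
      omega
  apply le_antisymm
  · rw [← hS]
    exact card_H_le valid valid2 valid3 valid4 graphOk φ Q hε (fun c hc => act_mem_Sg valid valid2 valid3 valid4 graphOk φ Q hε hc)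
  · rw [← hS]
    have := card_Sg_le valid valid2 valid3 valid4 graphOk φ Q hε (g := 1) (by rw [ker_trivial]; simp)
    rw [one_mul] at this
    exact this

end Cfsg.Agent.Lib.ChevTw14D4
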