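import Cfsg.Agent.Lib.ChevTw13
import Cfsg.Agent.Lib.ChevTw10E6

/-! The diagonal part of `²E₆(q)`. -/

set_option autoImplicit false
set_option linter.unusedVariables false
set_option linter.unusedSectionVars false
set_option linter.unusedFintypeInType false
set_option linter.unusedDecidableInType false

namespace Cfsg.Agent.Lib.ChevTw14E6

open Cfsg.Lie Matrix Cfsg.Agent.Lib.ChevEngine Cfsg.Agent.Lib.ChevTab Cfsg.Agent.Lib.ChevMono
  Cfsg.Agent.Lib.ChevRel Cfsg.Agent.Lib.ChevValid Cfsg.Agent.Lib.ChevGL Cfsg.Agent.Lib.ChevGrad Cfsg.Agent.Lib.ChevL2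
  Cfsg.Agent.Lib.ChevU Cfsg.Agent.Lib.ChevU2 Cfsg.Agent.Lib.ChevU3 Cfsg.Agent.Lib.ChevDiag Cfsg.Agent.Lib.ChevV3
  Cfsg.Agent.Lib.ChevH Cfsg.Agent.Lib.ChevN Cfsg.Agent.Lib.ChevN2 Cfsg.Agent.Lib.ChevN3 Cfsg.Agent.Lib.ChevBN Cfsg.Agent.Lib.ChevBN2
  Cfsg.Agent.Lib.ChevV4 Cfsg.Agent.Lib.ChevSimp Cfsg.Agent.Lib.ChevSimp2 Cfsg.Agent.Lib.ChevPar Cfsg.Agent.Lib.ChevV5 Cfsg.Agent.Lib.ChevPar2
  Cfsg.Agent.Lib.ChevPar3 Cfsg.Agent.Lib.BNPair Cfsg.Agent.Lib.BNCount Cfsg.Agent.Lib.ChevW1 Cfsg.Agent.Lib.ChevW2 Cfsg.Agent.Lib.ChevTw1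
  Cfsg.Agent.Lib.ChevTw2 Cfsg.Agent.Lib.ChevTw3 Cfsg.Agent.Lib.ChevAut3 Cfsg.Agent.Lib.ChevTw4 Cfsg.Agent.Lib.ChevTw5 Cfsg.Agent.Lib.ChevW3
  Cfsg.Agent.Lib.ChevTw6 Cfsg.Agent.Lib.ChevTw7 Cfsg.Agent.Lib.ChevTw8 Cfsg.Agent.Lib.ChevTw3.TwFix Cfsg.Agent.Lib.ChevHOrd Cfsg.Agent.Lib.ChevTw11 Cfsg.Agent.Lib.ChevTw12 Cfsg.Agent.Lib.ChevTw13 Cfsg.Agent.Lib.ChevTbE6 Cfsg.Agent.Lib.ChevV2E6 Cfsg.Agent.Lib.ChevV3E6 Cfsg.Agent.Lib.ChevV4E6 Cfsg.Agent.Lib.ChevValidE6 Cfsg.Agent.Lib.ChevTw9E6 Cfsg.Agent.Lib.ChevFrob Cfsg.Agent.Lib.ChevTw10E6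

variable {K : Type*} [Field K] [Fintype K] {q : ℕ} {φ : K ≃+* K}

theorem chi_formula (c : Fin T.l → Kˣ) (k : Fin T.l) :
    actM (A := Kˣ) (cartanM T) c k = ∏ i ∈ Finset.range T.l, (cExt c i) ^ T.ca i (T.sim k) := by
  rw [← cc_sim valid valid2 valid3]
  unfold cc
  apply Finset.prod_congr rfl
  intro i hi
  rw [aG_eq valid3 _ (sim_lt' valid valid2 valid3 k.2), aa_sim valid3 (by simpa using hi)]

theorem range_l (x : ℕ → Kˣ) (s : ℕ) : ∏ i ∈ Finset.range T.l, x i ^ T.ca i s =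
    x 0 ^ T.ca 0 s * x 1 ^ T.ca 1 s * x 2 ^ T.ca 2 s * x 3 ^ T.ca 3 s * x 4 ^ T.ca 4 s * x 5 ^ T.ca 5 s := by
  show ∏ i ∈ Finset.range 6, x i ^ T.ca i s = _
  simp [Finset.prod_range_succ]

theorem chi0 (x : ℕ → Kˣ) : ∏ i ∈ Finset.range T.l, x i ^ T.ca i (T.sim 0) = x 0 ^ 2 * (x 2)⁻¹ := by
  have h0 : T.ca 0 (T.sim 0) = 2 := by decide +kernel
  have h1 : T.ca 1 (T.sim 0) = 0 := by decide +kernel
  have h2 : T.ca 2 (T.sim 0) = (-1) := by decide +kernel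
  have h3 : T.ca 3 (T.sim 0) = 0 := by decide +kernel
  have h4 : T.ca 4 (T.sim 0) = 0 := by decide +kernel
  have h5 : T.ca 5 (T.sim 0) = 0 := by decide +kernel
  rw [range_l, h0, h1, h2, h3, h4, h5]
  simp [zpow_ofNat]

theorem chi1 (x : ℕ → Kˣ) : ∏ i ∈ Finset.range T.l, x i ^ T.ca i (T.sim 1) = x 1 ^ 2 * (x 3)⁻¹ := by
  have h0 : T.ca 0 (T.sim 1) = 0 := by decide +kernel
  have h1 : T.ca 1 (T.sim 1) = 2 := by decide +kernel
  have h2 : T.ca 2 (T.sim 1) = 0 := by decide +kernel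
  have h3 : T.ca 3 (T.sim 1) = (-1) := by decide +kernel
  have h4 : T.ca 4 (T.sim 1) = 0 := by decide +kernel
  have h5 : T.ca 5 (T.sim 1) = 0 := by decide +kernel
  rw [range_l, h0, h1, h2, h3, h4, h5]
  simp [zpow_ofNat]

theorem chi2 (x : ℕ → Kˣ) : ∏ i ∈ Finset.range T.l, x i ^ T.ca i (T.sim 2) = (x 0)⁻¹ * x 2 ^ 2 * (x 3)⁻¹ := by
  have h0 : T.ca 0 (T.sim 2) = (-1) := by decide +kernel
  have h1 : T.ca 1 (T.sim 2) = 0 := by decide +kernel
  have h2 : T.ca 2 (T.sim 2) = 2 := by decide +kernel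
  have h3 : T.ca 3 (T.sim 2) = (-1) := by decide +kernel
  have h4 : T.ca 4 (T.sim 2) = 0 := by decide +kernel
  have h5 : T.ca 5 (T.sim 2) = 0 := by decide +kernel
  rw [range_l, h0, h1, h2, h3, h4, h5]
  simp [zpow_ofNat]

theorem chi3 (x : ℕ → Kˣ) : ∏ i ∈ Finset.range T.l, x i ^ T.ca i (T.sim 3) = (x 1)⁻¹ * (x 2)⁻¹ * x 3 ^ 2 * (x 4)⁻¹ := by
  have h0 : T.ca 0 (T.sim 3) = 0 := by decide +kernel
  have h1 : T.ca 1 (T.sim 3) = (-1) := by decide +kernel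
  have h2 : T.ca 2 (T.sim 3) = (-1) := by decide +kernel
  have h3 : T.ca 3 (T.sim 3) = 2 := by decide +kernel
  have h4 : T.ca 4 (T.sim 3) = (-1) := by decide +kernel
  have h5 : T.ca 5 (T.sim 3) = 0 := by decide +kernel
  rw [range_l, h0, h1, h2, h3, h4, h5]
  simp [zpow_ofNat]

theorem chi4 (x : ℕ → Kˣ) : ∏ i ∈ Finset.range T.l, x i ^ T.ca i (T.sim 4) = (x 3)⁻¹ * x 4 ^ 2 * (x 5)⁻¹ := by
  have h0 : T.ca 0 (T.sim 4) = 0 := by decide +kernel
  have h1 : T.ca 1 (T.sim 4) = 0 := by decide +kernel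
  have h2 : T.ca 2 (T.sim 4) = 0 := by decide +kernel
  have h3 : T.ca 3 (T.sim 4) = (-1) := by decide +kernel
  have h4 : T.ca 4 (T.sim 4) = 2 := by decide +kernel
  have h5 : T.ca 5 (T.sim 4) = (-1) := by decide +kernel
  rw [range_l, h0, h1, h2, h3, h4, h5]
  simp [zpow_ofNat]

theorem chi5 (x : ℕ → Kˣ) : ∏ i ∈ Finset.range T.l, x i ^ T.ca i (T.sim 5) = (x 4)⁻¹ * x 5 ^ 2 := by
  have h0 : T.ca 0 (T.sim 5) = 0 := by decide +kernel
  have h1 : T.ca 1 (T.sim 5) = 0 := by decide +kernel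
  have h2 : T.ca 2 (T.sim 5) = 0 := by decide +kernel
  have h3 : T.ca 3 (T.sim 5) = 0 := by decide +kernel
  have h4 : T.ca 4 (T.sim 5) = (-1) := by decide +kernel
  have h5 : T.ca 5 (T.sim 5) = 2 := by decide +kernel
  rw [range_l, h0, h1, h2, h3, h4, h5]
  simp [zpow_ofNat]


theorem stab_units (hφ : ∀ a, φ a = a ^ q) {x : ℕ → Kˣ} (hS : Stab π φ x T.l) {i : ℕ} (hi : i < T.l) : x (π i) = x i ^ q := by
  apply Units.ext
  have := hS i hi
  rw [hφ] at this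
  rw [this]
  simp

/-- The structure of the kernel on stable tuples. -/
theorem ker_form (hφ : ∀ a, φ a = a ^ q) {x : ℕ → Kˣ} (hS : Stab π φ x T.l)
    (e : ∀ k (hk : k < T.l), ∏ i ∈ Finset.range T.l, x i ^ T.ca i (T.sim k) = 1) :
    x 0 ^ 3 = 1 ∧ x 0 ^ (q + 1) = 1 ∧ x 1 = 1 ∧ x 2 = x 0 ^ 2 ∧ x 3 = 1 ∧ x 4 = (x 0 ^ q) ^ 2 ∧ x 5 = x 0 ^ q := by
  have e0 := e 0 (by decide +kernel)
  have e1 := e 1 (by decide +kernel)
  have e2 := e 2 (by decide +kernel)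
  have e3 := e 3 (by decide +kernel)
  have e5 := e 5 (by decide +kernel)
  rw [chi0] at e0
  rw [chi1] at e1
  rw [chi2] at e2
  rw [chi3] at e3
  rw [chi5] at e5
  have s0 : x 5 = x 0 ^ q := stab_units hφ hS (i := 0) (by decide +kernel)
  have s1 : x 1 = x 1 ^ q := stab_units hφ hS (i := 1) (by decide +kernel)
  have h0 : x 2 = x 0 ^ 2 := (mul_inv_eq_one.mp e0).symm
  have h1 : x 3 = x 1 ^ 2 := (mul_inv_eq_one.mp e1).symm
  have h5 : x 4 = x 5 ^ 2 := by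
    have := inv_mul_eq_one.mp e5
    exact this
  -- the equation at `p₃`
  have h2 : x 0 ^ 3 = x 1 ^ 2 := by
    have h : x 2 ^ 2 = x 0 * x 3 := by
      have : x 2 ^ 2 * (x 0 * x 3)⁻¹ = 1 := by
        rw [← e2]
        simp only [_root_.mul_inv_rev]
        ac_rfl
      exact mul_inv_eq_one.mp this
    rw [h0, h1, ← pow_mul] at h
    have h' : x 0 * x 0 ^ 3 = x 0 * x 1 ^ 2 := by
      rw [← h, ← pow_succ']
    exact mul_left_cancel h'
  -- the equation at `p₄`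
  have h3 : x 1 ^ 3 = (x 0 * x 5) ^ 2 := by
    have h : x 3 ^ 2 = x 1 * x 2 * x 4 := by
      have : x 3 ^ 2 * (x 1 * x 2 * x 4)⁻¹ = 1 := by
        rw [← e3]
        simp only [_root_.mul_inv_rev]
        ac_rfl
      exact mul_inv_eq_one.mp this
    rw [h0, h1, h5, ← pow_mul, mul_assoc, ← mul_pow] at h
    have h' : x 1 * x 1 ^ 3 = x 1 * (x 0 * x 5) ^ 2 := by
      rw [← h, ← pow_succ']
    exact mul_left_cancel h'
  have h4 : x 5 ^ 3 = x 1 ^ 2 := by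
    have this : (x 0 ^ 3) ^ q = (x 1 ^ 2) ^ q := by rw [h2]
    rw [← pow_mul, mul_comm 3 q, pow_mul, ← s0, ← pow_mul, mul_comm 2 q, pow_mul, ← s1] at this
    exact this
  set N := x 0 * x 5 with hN
  have h6 : N ^ 3 = x 1 ^ 4 := by
    rw [hN, mul_pow, h2, h4, ← pow_add]
  have hw : x 1 = 1 := by
    have h7 : x 1 ^ 8 = x 1 ^ 9 := by
      calc x 1 ^ 8 = (x 1 ^ 4) ^ 2 := by rw [← pow_mul]
        _ = (N ^ 3) ^ 2 := by rw [h6]
        _ = (N ^ 2) ^ 3 := by rw [← pow_mul, ← pow_mul]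
        _ = (x 1 ^ 3) ^ 3 := by rw [h3]
        _ = x 1 ^ 9 := by rw [← pow_mul]
    have h8 : x 1 ^ 8 * 1 = x 1 ^ 8 * x 1 := by
      rw [mul_one, ← pow_succ]
      exact h7
    exact (mul_left_cancel h8).symm
  have hN2 : N ^ 2 = 1 := by
    rw [← h3, hw, one_pow]
  have hN3 : N ^ 3 = 1 := by
    rw [h6, hw, one_pow]
  have hN1 : N = 1 := by
    have : N ^ 3 = N ^ 2 * N := pow_succ _ _
    rw [hN2, hN3, one_mul] at this
    exact this.symm
  refine ⟨by rw [h2, hw, one_pow], ?_, hw, h0, by rw [h1, hw, one_pow], by rw [h5, s0], s0⟩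
  rw [pow_succ, ← s0, mul_comm]
  exact hN1

/-- The bound for the kernel. -/
theorem ker_le (hq : IsPrimePow q) (hφ : ∀ a, φ a = a ^ q) (hK : Fintype.card K = q ^ 2) :
    Nat.card (Sg T π φ ⊓ (actM (A := Kˣ) (cartanM T)).ker : Subgroup (Fin T.l → Kˣ)) ≤ Nat.gcd 3 (q + 1) := by
  classical
  set g := Nat.gcd 3 (q + 1) with hg
  have hform : ∀ c : ↥(Sg T π φ ⊓ (actM (A := Kˣ) (cartanM T)).ker : Subgroup (Fin T.l → Kˣ)),
      cExt c.1 0 ^ 3 = 1 ∧ cExt c.1 0 ^ (q + 1) = 1 ∧ cExt c.1 1 = 1 ∧ cExt c.1 2 = cExt c.1 0 ^ 2 ∧ cExt c.1 3 = 1 ∧ cExt c.1 4 = (cExt c.1 0 ^ q) ^ 2 ∧ cExt c.1 5 = cExt c.1 0 ^ q := by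
    rintro ⟨c, hS0, hc0⟩
    have hc : actM (A := Kˣ) (cartanM T) c = 1 := hc0
    apply ker_form hφ hS0
    intro k hk
    rw [← chi_formula c ⟨k, hk⟩, hc]
    rfl
  have hmem : ∀ c : ↥(Sg T π φ ⊓ (actM (A := Kˣ) (cartanM T)).ker : Subgroup (Fin T.l → Kˣ)), cExt c.1 0 ∈ (powMonoidHom (α := Kˣ) g).ker := by
    intro c
    rw [MonoidHom.mem_ker]
    exact pow_gcd_eq_one.mpr ⟨(hform c).1, (hform c).2.1⟩
  have hcard : Nat.card (powMonoidHom (α := Kˣ) g).ker ≤ g := by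
    rw [IsCyclic.card_powMonoidHom_ker]
    exact Nat.gcd_le_right _ (Nat.gcd_pos_of_pos_left _ (by norm_num))
  refine le_trans ?_ hcard
  apply Nat.card_le_card_of_injective (fun c => (⟨cExt c.1 0, hmem c⟩ : ↥(powMonoidHom (α := Kˣ) g).ker))
  intro a b hab
  have h0 : cExt a.1 0 = cExt b.1 0 := congrArg Subtype.val hab
  have hA := hform a
  have hB := hform b
  apply Subtype.ext
  funext m
  have hm : m.1 < 6 := m.2
  have hv : ∀ k, k < 6 → cExt a.1 k = cExt b.1 k := by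
    intro k hk
    interval_cases k
    · exact h0
    · rw [hA.2.2.1, hB.2.2.1]
    · rw [hA.2.2.2.1, hB.2.2.2.1, h0]
    · rw [hA.2.2.2.2.1, hB.2.2.2.2.1]
    · rw [hA.2.2.2.2.2.1, hB.2.2.2.2.2.1, h0]
    · rw [hA.2.2.2.2.2.2, hB.2.2.2.2.2.2, h0]
  have h9 := hv m.1 hm
  simpa only [cExt, m.2, dite_true] using h9

theorem card_units (hK : Fintype.card K = q ^ 2) : Nat.card Kˣ = q ^ 2 - 1 := by
  classical
  rw [Nat.card_eq_fintype_card, Fintype.card_units, hK]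

/-- The invariant for elements of the diagonal part. -/
theorem cube_inv (hφ : ∀ a, φ a = a ^ q) (hK : Fintype.card K = q ^ 2) (h3 : 3 ∣ q + 1) (hq1 : 1 ≤ q) (c : Fin T.l → Kˣ) (hS : actM (A := Kˣ) (cartanM T) c ∈ Sg T π φ) :
    (cExt (actM (A := Kˣ) (cartanM T) c) 2 * (cExt (actM (A := Kˣ) (cartanM T) c) 0)⁻¹) ^ ((q ^ 2 - 1) / 3) = 1 := by
  set χ := cExt (actM (A := Kˣ) (cartanM T) c) with hχ
  set x := cExt c with hx
  have hval : ∀ k (hk : k < T.l), χ k = ∏ i ∈ Finset.range T.l, x i ^ T.ca i (T.sim k) := by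
    intro k hk
    rw [← chi_formula c ⟨k, hk⟩, hχ]
    simp only [cExt, hk, dite_true]
  have c0 := hval 0 (by decide +kernel)
  have c2 := hval 2 (by decide +kernel)
  have c4 := hval 4 (by decide +kernel)
  have c5 := hval 5 (by decide +kernel)
  rw [chi0] at c0
  rw [chi2] at c2
  rw [chi4] at c4
  rw [chi5] at c5
  have s0 : χ 5 = χ 0 ^ q := stab_units hφ hS (i := 0) (by decide +kernel)
  have s2 : χ 4 = χ 2 ^ q := stab_units hφ hS (i := 2) (by decide +kernel)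
  set X := χ 2 * (χ 0)⁻¹ with hX
  set Y := x 0 * x 4 * (x 2)⁻¹ * (x 5)⁻¹ with hY
  have hI : χ 0 * χ 4 * (χ 2)⁻¹ * (χ 5)⁻¹ = Y ^ 3 := by
    rw [c0, c2, c4, c5, hY]
    apply Units.ext
    have n0 := (x 0).ne_zero
    have n2 := (x 2).ne_zero
    have n3 := (x 3).ne_zero
    have n4 := (x 4).ne_zero
    have n5 := (x 5).ne_zero
    simp only [Units.val_mul, Units.val_pow_eq_pow_val, Units.val_inv_eq_inv_val]
    field_simp
  obtain ⟨p, rfl⟩ : ∃ p, q = p + 1 := ⟨q - 1, by omega⟩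
  have hI2 : χ 0 * χ 4 * (χ 2)⁻¹ * (χ 5)⁻¹ = X ^ p := by
    rw [s0, s2, hX, mul_pow, inv_pow, pow_succ, pow_succ]
    apply Units.ext
    have n0 := (χ 0).ne_zero
    have n2 := (χ 2).ne_zero
    have n3 := pow_ne_zero p n0
    simp only [Units.val_mul, Units.val_pow_eq_pow_val, Units.val_inv_eq_inv_val]
    field_simp
  obtain ⟨t, ht⟩ := h3
  obtain ⟨w, hw⟩ : ∃ w, p = 3 * w + 1 := ⟨t - 1, by omega⟩
  have hZ : (Y * (X ^ w)⁻¹) ^ 3 = X := by
    rw [mul_pow, ← hI, hI2, hw, inv_pow, ← pow_mul, pow_succ, mul_comm w 3]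
    apply Units.ext
    have n3 := (X ^ (3 * w)).ne_zero
    simp only [Units.val_mul, Units.val_inv_eq_inv_val]
    field_simp
  have hd : 3 * ((((p + 1) ^ 2 - 1)) / 3) = (p + 1) ^ 2 - 1 := by
    apply Nat.mul_div_cancel'
    have e : (p + 1) ^ 2 - 1 = 3 * (p * t) := by
      apply Nat.sub_eq_of_eq_add
      have e2 : (p + 1) ^ 2 = p * (3 * t) + 1 := by rw [← ht]; ring
      rw [e2]
      ring
    rw [e]
    exact Nat.dvd_mul_right _ _
  rw [← hZ, ← pow_mul, hd, ← card_units hK]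
  exact pow_card_eq_one'

/-- The homomorphism detecting cubes. -/
noncomputable def theta (d : ℕ) : (Fin T.l → Kˣ) →* Kˣ where
  toFun c := (cExt c 2 * (cExt c 0)⁻¹) ^ d
  map_one' := by
    rw [cExt_one]
    simp
  map_mul' a b := by
    rw [cExt_mul, ← mul_pow]
    congr 1
    simp only [Pi.mul_apply, _root_.mul_inv_rev]
    ac_rfl

/-- The upper bound for the order of the diagonal part. -/
theorem upper (hq : IsPrimePow q) (hφ : ∀ a, φ a = a ^ q) (hK : Fintype.card K = q ^ 2) :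
    Nat.gcd 3 (q + 1) * Nat.card ↥(chevE6.diagonalSubgroup K ⊓ (W φ).G1) ≤ Nat.card (Sg T π φ) := by
  classical
  have hq1 := hq.one_lt
  have hg : Nat.gcd 3 (q + 1) = 1 ∨ Nat.gcd 3 (q + 1) = 3 := (Nat.dvd_prime Nat.prime_three).mp (Nat.gcd_dvd_left _ _)
  rcases hg with hg | hg
  · rw [hg, one_mul]
    exact card_H_le valid valid2 valid3 valid4 graphOk φ Q hε (fun c hc => act_mem_Sg valid valid2 valid3 valid4 graphOk φ Q hε hc)
  · have h3 : 3 ∣ q + 1 := by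
      rw [← hg]
      exact Nat.gcd_dvd_right _ _
    rw [hg]
    set d := (q ^ 2 - 1) / 3 with hd
    have h3d : 3 * d = q ^ 2 - 1 := by
      apply Nat.mul_div_cancel'
      obtain ⟨t, ht⟩ := h3
      obtain ⟨p, rfl⟩ : ∃ p, q = p + 1 := ⟨q - 1, by omega⟩
      have e : (p + 1) ^ 2 - 1 = 3 * (p * t) := by
        apply Nat.sub_eq_of_eq_add
        have e2 : (p + 1) ^ 2 = p * (3 * t) + 1 := by rw [← ht]; ring
        rw [e2]
        ring
      rw [e]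
      exact Nat.dvd_mul_right _ _
    have hq2 : 1 ≤ q ^ 2 - 1 := by
      have : 2 ^ 2 ≤ q ^ 2 := Nat.pow_le_pow_left hq1 2
      omega
    have hd0 : 0 < d := by omega
    set θS : ↥(Sg T π φ) →* Kˣ := (theta d).comp (Sg T π φ).subtype with hθ
    set S' : Subgroup (Fin T.l → Kˣ) := θS.ker.map (Sg T π φ).subtype with hS'
    have h1 : Nat.card ↥(chevE6.diagonalSubgroup K ⊓ (W φ).G1) ≤ Nat.card S' := by
      apply card_H_le valid valid2 valid3 valid4 graphOk φ Q hε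
      intro c hc
      have hm := act_mem_Sg valid valid2 valid3 valid4 graphOk φ Q hε hc
      refine ⟨⟨_, hm⟩, ?_, rfl⟩
      have := cube_inv hφ hK h3 (by omega) c hm
      exact this
    have h2 : Nat.card S' = Nat.card θS.ker :=
      Nat.card_congr (Subgroup.equivMapOfInjective _ _ Subtype.val_injective).toEquiv.symm
    have h4 : Nat.card θS.ker * Nat.card θS.range = Nat.card (Sg T π φ) := by
      rw [← Subgroup.index_ker θS]
      exact Subgroup.card_mul_index _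
    have hle : (powMonoidHom (α := Kˣ) d).range ≤ θS.range := by
      rintro _ ⟨u, rfl⟩
      let y : ℕ → Kˣ := fun m => if m = 2 then u else if m = 4 then u ^ q else 1
      let c : Fin T.l → Kˣ := fun m => y m.1
      have hc : ∀ m, m < 6 → cExt c m = y m := by
        intro m hm
        have hm' : m < T.l := hm
        simp only [cExt, hm', dite_true, c]
      have hsq : (u ^ q) ^ q = u := by
        have e1 : q * q = (q ^ 2 - 1) + 1 := by
          have : q * q = q ^ 2 := (sq q).symm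
          omega
        rw [← pow_mul, e1, pow_succ, ← card_units hK, pow_card_eq_one', one_mul]
      refine ⟨⟨c, ?_⟩, ?_⟩
      · intro i hi
        have hi' : i < 6 := hi
        have p0 : π 0 = 5 := by decide +kernel
        have p1 : π 1 = 1 := by decide +kernel
        have p2 : π 2 = 4 := by decide +kernel
        have p3 : π 3 = 3 := by decide +kernel
        have p4 : π 4 = 2 := by decide +kernel
        have p5 : π 5 = 0 := by decide +kernel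
        have hy0 : y 0 = 1 := rfl
        have hy1 : y 1 = 1 := rfl
        have hy2 : y 2 = u := rfl
        have hy3 : y 3 = 1 := rfl
        have hy4 : y 4 = u ^ q := rfl
        have hy5 : y 5 = 1 := rfl
        interval_cases i
        · rw [p0, hc 5 (by norm_num), hc 0 (by norm_num), hy5, hy0]; simp
        · rw [p1, hc 1 (by norm_num), hy1]; simp
        · rw [p2, hc 4 (by norm_num), hc 2 (by norm_num), hy4, hy2, hφ]; simp
        · rw [p3, hc 3 (by norm_num), hy3]; simp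
        · rw [p4, hc 2 (by norm_num), hc 4 (by norm_num), hy4, hy2, hφ]
          have := congrArg (fun v : Kˣ => (v : K)) hsq
          simpa using this.symm
        · rw [p5, hc 0 (by norm_num), hc 5 (by norm_num), hy5, hy0]; simp
      · show (cExt c 2 * (cExt c 0)⁻¹) ^ d = u ^ d
        rw [hc 2 (by norm_num), hc 0 (by norm_num)]
        simp [y]
    have h5 : 3 ≤ Nat.card θS.range := by
      have h6 : Nat.card (powMonoidHom (α := Kˣ) d).range = 3 := by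
        rw [IsCyclic.card_powMonoidHom_range, card_units hK, ← h3d, Nat.gcd_mul_left_left, Nat.mul_div_cancel _ hd0]
      rw [← h6]
      exact Subgroup.card_le_of_le hle
    rw [← h4, mul_comm 3]
    calc Nat.card ↥(chevE6.diagonalSubgroup K ⊓ (W φ).G1) * 3 ≤ Nat.card S' * 3 := Nat.mul_le_mul_right _ h1
      _ ≤ _ := by
        rw [h2]
        exact Nat.mul_le_mul_left _ h5

/-- The order of the torus. -/
theorem card_Sg_eq (hq : IsPrimePow q) (hφ : ∀ a, φ a = a ^ q) (hK : Fintype.card K = q ^ 2) :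
    Nat.card (Sg T π φ) = (q ^ 2 - 1) * (q ^ 2 - 1) * (q - 1) * (q - 1) := by
  rw [card_Sg valid valid2 valid3 valid4 graphOk φ Q, Fin.prod_univ_four]
  have a2 : Nat.card {a : Kˣ // φ^[2] ((a : Kˣ) : K) = a} = q ^ 2 - 1 := by
    have h1 := count_units φ 2
    rw [count_top hφ hK] at h1
    omega
  have a1 : Nat.card {a : Kˣ // φ^[1] ((a : Kˣ) : K) = a} = q - 1 := by
    have h1 := count_units φ 1
    rw [count_fix_one hφ hq (by norm_num) hK] at h1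
    omega
  have e0 : Q.k 0 = 2 := k0
  have e1 : Q.k 1 = 2 := k1
  have e2 : Q.k 2 = 1 := k2
  have e3 : Q.k 3 = 1 := k3
  rw [e0, e1, e2, e3, a2, a1]

theorem card_H_aux (hq : IsPrimePow q) (hφ : ∀ a, φ a = a ^ q) (hK : Fintype.card K = q ^ 2) :
    Nat.gcd 3 (q + 1) * Nat.card ↥(chevE6.diagonalSubgroup K ⊓ (W φ).G1) = (q ^ 2 - 1) * (q ^ 2 - 1) * (q - 1) * (q - 1) := by
  rw [← card_Sg_eq hq hφ hK]
  apply le_antisymm (upper hq hφ hK)
  exact card_Sg_le valid valid2 valid3 valid4 graphOk φ Q hε (ker_le hq hφ hK)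

end Cfsg.Agent.Lib.ChevTw14E6
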