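import Cfsg.Agent.Lib.ChevTw14D4
import Cfsg.Agent.Lib.ChevTw15

/-! The order of `³D₄(q)`. -/

set_option autoImplicit false
set_option linter.unusedVariables false
set_option linter.unusedSectionVars false
set_option linter.unusedFintypeInType false
set_option linter.unusedDecidableInType false

namespace Cfsg.Agent.Lib.ChevTw16D4

open Cfsg.Lie Matrix Cfsg.Agent.Lib.ChevEngine Cfsg.Agent.Lib.ChevTab Cfsg.Agent.Lib.ChevMono
  Cfsg.Agent.Lib.ChevRel Cfsg.Agent.Lib.ChevValid Cfsg.Agent.Lib.ChevGL Cfsg.Agent.Lib.ChevGrad Cfsg.Agent.Lib.ChevL2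
  Cfsg.Agent.Lib.ChevU Cfsg.Agent.Lib.ChevU2 Cfsg.Agent.Lib.ChevU3 Cfsg.Agent.Lib.ChevDiag Cfsg.Agent.Lib.ChevV3
  Cfsg.Agent.Lib.ChevH Cfsg.Agent.Lib.ChevN Cfsg.Agent.Lib.ChevN2 Cfsg.Agent.Lib.ChevN3 Cfsg.Agent.Lib.ChevBN Cfsg.Agent.Lib.ChevBN2
  Cfsg.Agent.Lib.ChevV4 Cfsg.Agent.Lib.ChevSimp Cfsg.Agent.Lib.ChevSimp2 Cfsg.Agent.Lib.ChevPar Cfsg.Agent.Lib.ChevV5 Cfsg.Agent.Lib.ChevPar2
  Cfsg.Agent.Lib.ChevPar3 Cfsg.Agent.Lib.BNPair Cfsg.Agent.Lib.BNCount Cfsg.Agent.Lib.ChevW1 Cfsg.Agent.Lib.ChevW2 Cfsg.Agent.Lib.ChevTw1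
  Cfsg.Agent.Lib.ChevTw2 Cfsg.Agent.Lib.ChevTw3 Cfsg.Agent.Lib.ChevAut3 Cfsg.Agent.Lib.ChevTw4 Cfsg.Agent.Lib.ChevTw5 Cfsg.Agent.Lib.ChevW3
  Cfsg.Agent.Lib.ChevTw6 Cfsg.Agent.Lib.ChevTw7 Cfsg.Agent.Lib.ChevTw8 Cfsg.Agent.Lib.ChevTw3.TwFix Cfsg.Agent.Lib.ChevHOrd Cfsg.Agent.Lib.ChevTw11 Cfsg.Agent.Lib.ChevTw12 Cfsg.Agent.Lib.ChevTw13 Cfsg.Agent.Lib.ChevTbD4 Cfsg.Agent.Lib.ChevV2D4 Cfsg.Agent.Lib.ChevV3D4 Cfsg.Agent.Lib.ChevV4D4 Cfsg.Agent.Lib.ChevValidD4 Cfsg.Agent.Lib.ChevTw9D4 Cfsg.Agent.Lib.ChevFrob Cfsg.Agent.Lib.ChevTw10D4 Cfsg.Agent.Lib.ChevTw14D4 Cfsg.Agent.Lib.ChevTw15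

variable {K : Type*} [Field K] [Fintype K] {q : ℕ} {φ : K ≃+* K}

def tbl : List ℕ := [1218426182456967898401291, 10918240873019660474322188, 309494510255963539445253896, 326462102232401279625203727, 2785402997749907088278422274, 2812018364922130126497387541, 4334051195187986597626184450, 4360666562360209635845149717, 6819607457877715444498368264, 6836575049854153184678318095, 7135151319237097063649249803, 7144851133927659756225170700]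
def gens : List (List ℕ) := [[0, 2, 3], [1]]
def coefs : List ℕ := [1, 1, 0, 1, 2, 1, 0, 1, 2, 1, 0, 1, 1]

theorem t1 : tblOk1 T gens tbl = true := by decide +kernel
theorem t2 : tblOk2 T gens tbl = true := by decide +kernel
theorem tN : allL tbl (fun x => Nat.blt (lenP T (T.n / 2) x) 13) = true := by decide +kernel
theorem tc : ∀ e < 13, (tbl.map (lenP T (T.n / 2))).count e = coefs.getD e 0 := by decide +kernel
theorem hg1 : ∀ j, chainL π (Q.i0 j) (Q.k j) ∈ gens := by decide +kernel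
theorem hg2 : ∀ E ∈ gens, ∃ j, chainL π (Q.i0 j) (Q.k j) = E := by decide +kernel
theorem h256 : T.n ≤ 256 := by decide +kernel

theorem card_H (hq : IsPrimePow q) (hK : Fintype.card K = q ^ 3) : Nat.card ↥(chevD4.diagonalSubgroup K ⊓ twistedD4 K q) = (q - 1) ^ 2 * (q ^ 2 + q + 1) := by
  obtain ⟨φ, hφ⟩ := exists_frob hq (by norm_num) hK
  rw [twisted_eq hφ hK, card_H_aux hq hφ hK]
  obtain ⟨s, rfl⟩ : ∃ s, q = s + 1 := ⟨q - 1, by have := hq.one_lt; omega⟩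
  have e1 : (s + 1) ^ 3 - 1 = s * (s ^ 2 + 3 * s + 3) := by
    apply Nat.sub_eq_of_eq_add
    ring
  rw [e1]
  simp only [Nat.add_sub_cancel]
  ring

theorem card_twisted (hq : IsPrimePow q) (hK : Fintype.card K = q ^ 3) :
    Nat.card ↥(twistedD4 K q) = q ^ 12 * (q ^ 2 - 1) * (q ^ 6 - 1) * (q ^ 8 + q ^ 4 + 1) := by
  obtain ⟨φ, hφ⟩ := exists_frob hq (by norm_num) hK
  have hfin := finite_W' valid valid2 valid3 valid4 graphOk φ Q hε hg1 hg2 h256 t1 t2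
  letI : Fintype (Cfsg.Agent.Lib.BNPair.W ((orbFix valid valid2 valid3 valid4 graphOk φ Q hε).bn valid4)) := Fintype.ofFinite _
  have h := card_orb valid valid2 valid3 valid4 graphOk φ Q hε (q := q) (card_Y hq hφ hK)
  have hU := Cfsg.Agent.Lib.ChevTw3.TwFix.card_U1 (W φ) valid4 (q := q) (e := 12) (card_Y hq hφ hK) (card_P φ) (by norm_num) (by decide +kernel)
  rw [twisted_eq hφ hK]
  show Nat.card ↥(W φ).G1 = _
  change Nat.card ↥(W φ).G1 = Nat.card ↥(chevD4.posUnipotent K ⊓ (W φ).G1) * Nat.card ↥(chevD4.diagonalSubgroup K ⊓ (W φ).G1) * _ at h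
  rw [h, hU, card_H_aux hq hφ hK, sum_poly valid valid2 valid3 valid4 graphOk φ Q hε hg1 hg2 h256 t1 t2 tN tc q]
  simp only [Finset.sum_range_succ, Finset.sum_range_zero, coefs]
  obtain ⟨s, rfl⟩ : ∃ s, q = s + 1 := ⟨q - 1, by have := hq.one_lt; omega⟩
  have e1 : (s + 1) ^ 3 - 1 = s * (s ^ 2 + 3 * s + 3) := by
    apply Nat.sub_eq_of_eq_add
    ring
  have e2 : (s + 1) ^ 2 - 1 = s * (s + 2) := by
    apply Nat.sub_eq_of_eq_add
    ring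
  have e6 : (s + 1) ^ 6 - 1 = s * (s ^ 5 + 6 * s ^ 4 + 15 * s ^ 3 + 20 * s ^ 2 + 15 * s + 6) := by
    apply Nat.sub_eq_of_eq_add
    ring
  rw [e1, e2, e6]
  simp only [Nat.add_sub_cancel, List.getD_cons_zero, List.getD_cons_succ]
  ring

end Cfsg.Agent.Lib.ChevTw16D4
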