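import Cfsg.Agent.Lib.ChevTw17
import Cfsg.Agent.Lib.ChevTw10E6
import Cfsg.Agent.Lib.ChevTw10D4

/-! `N¹/H¹` for `²E₆(q)` and `³D₄(q)`. -/

set_option autoImplicit false

namespace Cfsg.Agent.Lib.ChevTw18

open Cfsg.Lie Cfsg.Agent.Lib.ChevW3 Cfsg.Agent.Lib.ChevTw7 Cfsg.Agent.Lib.ChevTw8 Cfsg.Agent.Lib.ChevTw15 Cfsg.Agent.Lib.ChevTw17 Cfsg.Agent.Lib.ChevFrob

variable {K : Type*} [Field K] [Fintype K] {q : ℕ}

section E6
open Cfsg.Agent.Lib.ChevTbE6 Cfsg.Agent.Lib.ChevV2E6 Cfsg.Agent.Lib.ChevV3E6 Cfsg.Agent.Lib.ChevV4E6 Cfsg.Agent.Lib.ChevValidE6 Cfsg.Agent.Lib.ChevTw9E6 Cfsg.Agent.Lib.ChevTw10E6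

theorem chkE6 : ∀ i j : Fin 4, ordW T (chainL π (Q.i0 (Equiv.refl _ i)) (Q.k (Equiv.refl _ i)) ++ chainL π (Q.i0 (Equiv.refl _ j)) (Q.k (Equiv.refl _ j))) (CoxeterMatrix.F₄ i j) = true := by
  decide +kernel

theorem quotE6 (hq : IsPrimePow q) (hK : Fintype.card K = q ^ 2) :
    ∃ φ : ↥(chevE6.monomialSubgroup K ⊓ twistedE6 K q) →* (CoxeterMatrix.F₄).Group, Function.Surjective φ ∧
      φ.ker = (chevE6.diagonalSubgroup K ⊓ twistedE6 K q).subgroupOf (chevE6.monomialSubgroup K ⊓ twistedE6 K q) := by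
  obtain ⟨φ, hφ⟩ := exists_frob hq (by norm_num) hK
  rw [twisted_eq hφ hK]
  exact N_quotT (W φ) valid4 (Equiv.refl _) CoxeterMatrix.F₄ (gen := fun j => chainL π (Q.i0 j) (Q.k j))
    (fun j r hr => rho1_xj valid valid2 valid3 valid4 graphOk φ Q hε j hr) chkE6
end E6

section D4
open Cfsg.Agent.Lib.ChevTbD4 Cfsg.Agent.Lib.ChevV2D4 Cfsg.Agent.Lib.ChevV3D4 Cfsg.Agent.Lib.ChevV4D4 Cfsg.Agent.Lib.ChevValidD4 Cfsg.Agent.Lib.ChevTw9D4 Cfsg.Agent.Lib.ChevTw10D4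

theorem chkD4 : ∀ i j : Fin 2, ordW T (chainL π (Q.i0 (Equiv.refl _ i)) (Q.k (Equiv.refl _ i)) ++ chainL π (Q.i0 (Equiv.refl _ j)) (Q.k (Equiv.refl _ j))) (CoxeterMatrix.G₂ i j) = true := by
  decide +kernel

theorem quotD4 (hq : IsPrimePow q) (hK : Fintype.card K = q ^ 3) :
    ∃ φ : ↥(chevD4.monomialSubgroup K ⊓ twistedD4 K q) →* (CoxeterMatrix.G₂).Group, Function.Surjective φ ∧
      φ.ker = (chevD4.diagonalSubgroup K ⊓ twistedD4 K q).subgroupOf (chevD4.monomialSubgroup K ⊓ twistedD4 K q) := by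
  obtain ⟨φ, hφ⟩ := exists_frob hq (by norm_num) hK
  rw [twisted_eq hφ hK]
  exact N_quotT (W φ) valid4 (Equiv.refl _) CoxeterMatrix.G₂ (gen := fun j => chainL π (Q.i0 j) (Q.k j))
    (fun j r hr => rho1_xj valid valid2 valid3 valid4 graphOk φ Q hε j hr) chkD4
end D4

end Cfsg.Agent.Lib.ChevTw18
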