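import Cfsg.Agent.Lib.ChevTw19
import Cfsg.Agent.Lib.ChevTw10E6
import Cfsg.Agent.Lib.ChevTw10D4

/-! Trivial core of `B¹` in `²E₆(q)` and `³D₄(q)`. -/

set_option autoImplicit false
set_option linter.unusedVariables false
set_option linter.unusedSectionVars false
set_option linter.unusedFintypeInType false
set_option linter.unusedDecidableInType false

namespace Cfsg.Agent.Lib.ChevTw19b

open Cfsg.Lie Matrix Cfsg.Agent.Lib.ChevEngine Cfsg.Agent.Lib.ChevTab Cfsg.Agent.Lib.ChevMono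
  Cfsg.Agent.Lib.ChevRel Cfsg.Agent.Lib.ChevValid Cfsg.Agent.Lib.ChevGL Cfsg.Agent.Lib.ChevGrad Cfsg.Agent.Lib.ChevL2
  Cfsg.Agent.Lib.ChevU Cfsg.Agent.Lib.ChevU2 Cfsg.Agent.Lib.ChevU3 Cfsg.Agent.Lib.ChevDiag Cfsg.Agent.Lib.ChevV3
  Cfsg.Agent.Lib.ChevH Cfsg.Agent.Lib.ChevN Cfsg.Agent.Lib.ChevN2 Cfsg.Agent.Lib.ChevN3 Cfsg.Agent.Lib.ChevBN Cfsg.Agent.Lib.ChevBN2
  Cfsg.Agent.Lib.ChevV4 Cfsg.Agent.Lib.ChevSimp Cfsg.Agent.Lib.ChevSimp2 Cfsg.Agent.Lib.ChevPar Cfsg.Agent.Lib.ChevV5 Cfsg.Agent.Lib.ChevPar2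
  Cfsg.Agent.Lib.ChevPar3 Cfsg.Agent.Lib.BNPair Cfsg.Agent.Lib.BNCount Cfsg.Agent.Lib.ChevW1 Cfsg.Agent.Lib.ChevW2 Cfsg.Agent.Lib.ChevTw1
  Cfsg.Agent.Lib.ChevTw2 Cfsg.Agent.Lib.ChevTw3 Cfsg.Agent.Lib.ChevAut3 Cfsg.Agent.Lib.ChevTw4 Cfsg.Agent.Lib.ChevTw5 Cfsg.Agent.Lib.ChevW3
  Cfsg.Agent.Lib.ChevTw6 Cfsg.Agent.Lib.ChevTw7 Cfsg.Agent.Lib.ChevTw8 Cfsg.Agent.Lib.ChevTw3.TwFix Cfsg.Agent.Lib.ChevHOrd Cfsg.Agent.Lib.ChevTw11 Cfsg.Agent.Lib.ChevTw12 Cfsg.Agent.Lib.ChevTw13 Cfsg.Agent.Lib.ChevFrob Cfsg.Agent.Lib.ChevTw15 Cfsg.Agent.Lib.ChevTw17 Cfsg.Agent.Lib.ChevTw19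

variable {K : Type*} [Field K] [Fintype K] {q : ℕ}

section E6
open Cfsg.Agent.Lib.ChevTbE6 Cfsg.Agent.Lib.ChevV2E6 Cfsg.Agent.Lib.ChevV3E6 Cfsg.Agent.Lib.ChevV4E6 Cfsg.Agent.Lib.ChevValidE6 Cfsg.Agent.Lib.ChevTw9E6 Cfsg.Agent.Lib.ChevTw10E6

theorem coreE6 (hq : IsPrimePow q) (hK : Fintype.card K = q ^ 2) :
    ((chevE6.borelSubgroup K ⊓ twistedE6 K q).subgroupOf (twistedE6 K q)).normalCore = ⊥ := by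
  obtain ⟨φ, hφ⟩ := exists_frob hq (by norm_num) hK
  rw [twisted_eq hφ hK]
  exact core_bot valid valid2 valid3 valid4 graphOk φ Q hε
end E6

section D4
open Cfsg.Agent.Lib.ChevTbD4 Cfsg.Agent.Lib.ChevV2D4 Cfsg.Agent.Lib.ChevV3D4 Cfsg.Agent.Lib.ChevV4D4 Cfsg.Agent.Lib.ChevValidD4 Cfsg.Agent.Lib.ChevTw9D4 Cfsg.Agent.Lib.ChevTw10D4

theorem coreD4 (hq : IsPrimePow q) (hK : Fintype.card K = q ^ 3) :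
    ((chevD4.borelSubgroup K ⊓ twistedD4 K q).subgroupOf (twistedD4 K q)).normalCore = ⊥ := by
  obtain ⟨φ, hφ⟩ := exists_frob hq (by norm_num) hK
  rw [twisted_eq hφ hK]
  exact core_bot valid valid2 valid3 valid4 graphOk φ Q hε
end D4

end Cfsg.Agent.Lib.ChevTw19b
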