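import Cfsg.Agent.Lib.ChevTw20
import Cfsg.Agent.Lib.ChevTw10E6
import Cfsg.Agent.Lib.ChevTw10D4

/-! Perfectness and simplicity of `²E₆(q)` and `³D₄(q)`. -/

set_option autoImplicit false
set_option linter.unusedVariables false
set_option linter.unusedSectionVars false
set_option linter.unusedFintypeInType false
set_option linter.unusedDecidableInType false

namespace Cfsg.Agent.Lib.ChevTw21

open Cfsg.Lie Matrix Cfsg.Agent.Lib.ChevEngine Cfsg.Agent.Lib.ChevTab Cfsg.Agent.Lib.ChevMono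
  Cfsg.Agent.Lib.ChevRel Cfsg.Agent.Lib.ChevValid Cfsg.Agent.Lib.ChevGL Cfsg.Agent.Lib.ChevGrad Cfsg.Agent.Lib.ChevL2
  Cfsg.Agent.Lib.ChevU Cfsg.Agent.Lib.ChevU2 Cfsg.Agent.Lib.ChevU3 Cfsg.Agent.Lib.ChevDiag Cfsg.Agent.Lib.ChevV3
  Cfsg.Agent.Lib.ChevH Cfsg.Agent.Lib.ChevN Cfsg.Agent.Lib.ChevN2 Cfsg.Agent.Lib.ChevN3 Cfsg.Agent.Lib.ChevBN Cfsg.Agent.Lib.ChevBN2
  Cfsg.Agent.Lib.ChevV4 Cfsg.Agent.Lib.ChevSimp Cfsg.Agent.Lib.ChevSimp2 Cfsg.Agent.Lib.ChevPar Cfsg.Agent.Lib.ChevV5 Cfsg.Agent.Lib.ChevPar2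
  Cfsg.Agent.Lib.ChevPar3 Cfsg.Agent.Lib.BNPair Cfsg.Agent.Lib.BNCount Cfsg.Agent.Lib.ChevW1 Cfsg.Agent.Lib.ChevW2 Cfsg.Agent.Lib.ChevTw1
  Cfsg.Agent.Lib.ChevTw2 Cfsg.Agent.Lib.ChevTw3 Cfsg.Agent.Lib.ChevAut3 Cfsg.Agent.Lib.ChevTw4 Cfsg.Agent.Lib.ChevTw5 Cfsg.Agent.Lib.ChevW3
  Cfsg.Agent.Lib.ChevTw6 Cfsg.Agent.Lib.ChevTw7 Cfsg.Agent.Lib.ChevTw8 Cfsg.Agent.Lib.ChevTw3.TwFix Cfsg.Agent.Lib.ChevHOrd Cfsg.Agent.Lib.ChevTw11 Cfsg.Agent.Lib.ChevTw12 Cfsg.Agent.Lib.ChevTw13 Cfsg.Agent.Lib.ChevFrob Cfsg.Agent.Lib.ChevTw15 Cfsg.Agent.Lib.ChevTw17 Cfsg.Agent.Lib.ChevTw19 Cfsg.Agent.Lib.ChevTw20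

theorem exists_u {K : Type*} [Field K] [Fintype K] (h : 4 ≤ Fintype.card K) : ∃ u : K, u ≠ 0 ∧ u ^ 2 ≠ 1 := by
  classical
  by_contra hc
  push Not at hc
  have h1 : ∀ u : K, u ∈ ({0, 1, -1} : Finset K) := by
    intro u
    by_cases hu : u = 0
    · simp [hu]
    · have := hc u hu
      have h2 : u = 1 ∨ u = -1 := mul_self_eq_one_iff.mp (by rw [← sq]; exact this)
      simp only [Finset.mem_insert, Finset.mem_singleton]
      tauto
  have h3 : Fintype.card K ≤ ({0, 1, -1} : Finset K).card := by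
    rw [← Finset.card_univ]
    exact Finset.card_le_card (fun u _ => h1 u)
  have h4 : ({0, 1, -1} : Finset K).card ≤ 3 := Finset.card_le_three
  omega

section
variable {D : ChevalleyDatum} {T : Tb} {C : Tc} {X : Tc3} {Y : Tc4} {F : Type*} [Field F]
variable (V : Valid D T) (V2 : Valid2 D T C) (V3 : Valid3 T C X) (V4 : Valid4 D T C Y)
variable {ρ ρ' π π' : ℕ → ℕ} {ε : ℕ → ℤ} (G : GraphOk T C ρ ρ' π π' ε) (φ : F ≃+* F)
variable {ι : Type} (Q : OrbData T C π ι) (hε : ∀ a < T.l, ε (T.sim a) = 1)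

/-- The word version of `single_mem_KK`. -/
theorem single_of_words (j : ι) (hk : Q.k j = 1) (Js1 Js2 : List ι) {e : ℕ} {m : ℤ} (hel : e < T.n)
    (hs1 : wact T (Js1.flatMap fun j => chainL π (Q.i0 j) (Q.k j)) (T.sim (Q.i0 j)) ≠ T.sim (Q.i0 j))
    (hs2 : wact T (Js1.flatMap fun j => chainL π (Q.i0 j) (Q.k j)) (T.sim (Q.i0 j)) ≠ T.neg (T.sim (Q.i0 j)))
    (ht : commTermsF T.ch (T.sim (Q.i0 j)) (wact T (Js1.flatMap fun j => chainL π (Q.i0 j) (Q.k j)) (T.sim (Q.i0 j))) = [(e, m, 1, 1)])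
    (hm : m = 1 ∨ m = -1) (he : wact T (Js2.flatMap fun j => chainL π (Q.i0 j) (Q.k j)) e = T.sim (Q.i0 j))
    {a : F} (ha : φ^[Q.k j] a = a) : wd V φ Q j a ∈ KK (orbFix V V2 V3 V4 G φ Q hε).G1 := by
  have hE : ∀ Js : List ι, ∀ i ∈ (Js.flatMap fun j => chainL π (Q.i0 j) (Q.k j)), i < T.l := by
    intro Js i hi
    obtain ⟨j', _, h⟩ := List.mem_flatMap.mp hi
    exact (Q.O j').hlt i h
  have hil : Q.i0 j < T.l := (Q.O j).hlt _ (by rw [hk]; simp [chainL])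
  have hrn : T.sim (Q.i0 j) < T.n := sim_lt' V V2 V3 hil
  have e1 := rho0_nW V V2 V3 V4 (F := F) (hE Js1) hrn
  have e2 := rho0_nW V V2 V3 V4 (F := F) (hE Js2) hel
  refine single_mem_KK V V2 V3 V4 G φ Q hε j hk _ _ (nW_flat_mem V V2 V3 V4 G φ Q hε Js1) (nW_flat_mem V V2 V3 V4 G φ Q hε Js2) hel ?_ ?_ ?_ hm ?_ ha
  · rw [e1]; exact hs1
  · rw [e1]; exact hs2
  · rw [e1]; exact ht
  · rw [e2]; exact he

/-- Assembly of the simplicity theorem. -/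
theorem simple_of [Finite F] (j0 : ι) (hirr : ((orbFix V V2 V3 V4 G φ Q hε).bn V4).Irreducible)
    (hperf : commutator ↥(orbFix V V2 V3 V4 G φ Q hε).G1 = ⊤) :
    IsSimpleGroup ↥(orbFix V V2 V3 V4 G φ Q hε).G1 ∧ ¬ IsMulCommutative ↥(orbFix V V2 V3 V4 G φ Q hε).G1 := by
  set W' := orbFix V V2 V3 V4 G φ Q hε with hW'
  have hN : Nontrivial ↥W'.G1 := by
    have h1 : wordU V (eWg (fun c => T.neg (T.sim c)) φ (chainL π (Q.i0 j0) (Q.k j0)) (-1 : F)) ∈ W'.G1 :=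
      TwFix.Ym_le _ j0 (word_neg_mem_Ym V V2 V3 V4 G φ Q hε (Function.iterate_fixed (by simp) _))
    refine ⟨⟨⟨_, h1⟩, 1, ?_⟩⟩
    intro h
    exact word_neg_ne V V2 V3 V4 φ (Q.O j0) (congrArg Subtype.val h)
  constructor
  · refine Cfsg.Agent.Lib.BNPair2.isSimpleGroup_of_irreducible (P := W'.bn V4) hirr ?_ hperf (core_bot V V2 V3 V4 G φ Q hε)
    have h1 := B_solvable (F := F) V V2 V3
    let f : ↥((W'.bn V4).B) →* ↥(D.borelSubgroup F) :=
      { toFun := fun x => ⟨(x.1 : GL D.Idx F), (W'.mem_sof V4).mp x.2⟩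
        map_one' := rfl
        map_mul' := fun _ _ => rfl }
    refine solvable_of_solvable_injective (f := f) ?_
    intro a b hab
    apply Subtype.ext
    apply Subtype.ext
    have h : ((f a : ↥(D.borelSubgroup F)) : GL D.Idx F) = f b := congrArg Subtype.val hab
    exact h
  · intro hc
    have hcomm : ∀ a b : ↥W'.G1, a * b = b * a := fun a b => hc.is_comm.comm a b
    have h2 : commutator ↥W'.G1 = ⊥ := by
      rw [eq_bot_iff, commutator_eq_closure, Subgroup.closure_le]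
      rintro _ ⟨a, b, rfl⟩
      simp [commutatorElement_def, hcomm a b]
    rw [h2] at hperf
    exact bot_ne_top hperf
end

variable {K : Type*} [Field K] [Fintype K] {q : ℕ}

section E6
open Cfsg.Agent.Lib.ChevTbE6 Cfsg.Agent.Lib.ChevV2E6 Cfsg.Agent.Lib.ChevV3E6 Cfsg.Agent.Lib.ChevV4E6 Cfsg.Agent.Lib.ChevValidE6 Cfsg.Agent.Lib.ChevTw9E6 Cfsg.Agent.Lib.ChevTw10E6

theorem orthoE6_0 : Ortho T (chainL π (Q.i0 0) (Q.k 0)) := by decide +kernel
theorem orthoE6_1 : Ortho T (chainL π (Q.i0 1) (Q.k 1)) := by decide +kernel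

theorem perfect_W_E6 (hq : IsPrimePow q) {φ : K ≃+* K} (hφ : ∀ a, φ a = a ^ q) (hK : Fintype.card K = q ^ 2) :
    commutator ↥(W φ).G1 = ⊤ := by
  have h4 : 4 ≤ Fintype.card K := by
    rw [hK]
    have := hq.two_le
    nlinarith
  obtain ⟨u, hu0, hu2⟩ := exists_u h4
  refine perfect_of valid valid2 valid3 valid4 graphOk φ Q hε ?_
  intro j a ha
  have j0 : ∀ a, φ^[Q.k 0] a = a → wd valid φ Q 0 a ∈ KK (W φ).G1 := fun a ha =>
    wd_mem_KK_torus valid valid2 valid3 valid4 graphOk φ Q hε 0 orthoE6_0 hu0 (iterate_top hφ hK u) hu2 ha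
  have j1 : ∀ a, φ^[Q.k 1] a = a → wd valid φ Q 1 a ∈ KK (W φ).G1 := fun a ha =>
    wd_mem_KK_torus valid valid2 valid3 valid4 graphOk φ Q hε 1 orthoE6_1 hu0 (iterate_top hφ hK u) hu2 ha
  have j2 : ∀ a, φ^[Q.k 2] a = a → wd valid φ Q 2 a ∈ KK (W φ).G1 := fun a ha =>
    single_of_words valid valid2 valid3 valid4 graphOk φ Q hε 2 (by decide +kernel) [2, 3] [3] (e := 47) (m := 1) (by decide +kernel)
      (by decide +kernel) (by decide +kernel) (by decide +kernel) (Or.inl rfl) (by decide +kernel) ha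
  have j3 : ∀ a, φ^[Q.k 3] a = a → wd valid φ Q 3 a ∈ KK (W φ).G1 := fun a ha =>
    single_of_words valid valid2 valid3 valid4 graphOk φ Q hε 3 (by decide +kernel) [3, 2] [2] (e := 47) (m := -1) (by decide +kernel)
      (by decide +kernel) (by decide +kernel) (by decide +kernel) (Or.inr rfl) (by decide +kernel) ha
  fin_cases j
  · exact j0 a ha
  · exact j1 a ha
  · exact j2 a ha
  · exact j3 a ha

theorem perfectE6 (hq : IsPrimePow q) (hK : Fintype.card K = q ^ 2) : commutator ↥(twistedE6 K q) = ⊤ := by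
  obtain ⟨φ, hφ⟩ := exists_frob hq (by norm_num) hK
  rw [twisted_eq hφ hK]
  exact perfect_W_E6 hq hφ hK

theorem simpleE6 (hq : IsPrimePow q) (hK : Fintype.card K = q ^ 2) :
    IsSimpleGroup ↥(twistedE6 K q) ∧ ¬ IsMulCommutative ↥(twistedE6 K q) := by
  obtain ⟨φ, hφ⟩ := exists_frob hq (by norm_num) hK
  rw [twisted_eq hφ hK]
  refine simple_of valid valid2 valid3 valid4 graphOk φ Q hε 0 ?_ (perfect_W_E6 hq hφ hK)
  refine irreducibleT (W φ) valid4 (Equiv.refl (Fin 4)) (gen := fun j => chainL π (Q.i0 j) (Q.k j)) (fun i => ([3, 4, 3] : List ℕ).getD i 0)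
    (fun j r hr => rho1_xj valid valid2 valid3 valid4 graphOk φ Q hε j hr) ?_
  have k0 : ordW T (chainL π (Q.i0 0) (Q.k 0) ++ chainL π (Q.i0 1) (Q.k 1)) 3 = true := by decide +kernel
  have k1 : ordW T (chainL π (Q.i0 1) (Q.k 1) ++ chainL π (Q.i0 2) (Q.k 2)) 4 = true := by decide +kernel
  have k2 : ordW T (chainL π (Q.i0 2) (Q.k 2) ++ chainL π (Q.i0 3) (Q.k 3)) 3 = true := by decide +kernel
  intro i hi
  have hi3 : i < 3 := by omega
  interval_cases i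
  · exact ⟨by decide, k0⟩
  · exact ⟨by decide, k1⟩
  · exact ⟨by decide, k2⟩
end E6

section D4
open Cfsg.Agent.Lib.ChevTbD4 Cfsg.Agent.Lib.ChevV2D4 Cfsg.Agent.Lib.ChevV3D4 Cfsg.Agent.Lib.ChevV4D4 Cfsg.Agent.Lib.ChevValidD4 Cfsg.Agent.Lib.ChevTw9D4 Cfsg.Agent.Lib.ChevTw10D4

theorem orthoD4_0 : Ortho T (chainL π (Q.i0 0) (Q.k 0)) := by decide +kernel

theorem perfect_W_D4 (hq : IsPrimePow q) {φ : K ≃+* K} (hφ : ∀ a, φ a = a ^ q) (hK : Fintype.card K = q ^ 3) :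
    commutator ↥(W φ).G1 = ⊤ := by
  have h4 : 4 ≤ Fintype.card K := by
    rw [hK]
    have := hq.two_le
    nlinarith [sq_nonneg q, pow_succ q 2]
  obtain ⟨u, hu0, hu2⟩ := exists_u h4
  refine perfect_of valid valid2 valid3 valid4 graphOk φ Q hε ?_
  intro j a ha
  have j0 : ∀ a, φ^[Q.k 0] a = a → wd valid φ Q 0 a ∈ KK (W φ).G1 := fun a ha =>
    wd_mem_KK_torus valid valid2 valid3 valid4 graphOk φ Q hε 0 orthoD4_0 hu0 (iterate_top hφ hK u) hu2 ha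
  have j1 : ∀ a, φ^[Q.k 1] a = a → wd valid φ Q 1 a ∈ KK (W φ).G1 := fun a ha =>
    single_of_words valid valid2 valid3 valid4 graphOk φ Q hε 1 (by decide +kernel) [0] [0, 1] (e := 23) (m := 1) (by decide +kernel)
      (by decide +kernel) (by decide +kernel) (by decide +kernel) (Or.inl rfl) (by decide +kernel) ha
  fin_cases j
  · exact j0 a ha
  · exact j1 a ha

theorem perfectD4 (hq : IsPrimePow q) (hK : Fintype.card K = q ^ 3) : commutator ↥(twistedD4 K q) = ⊤ := by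
  obtain ⟨φ, hφ⟩ := exists_frob hq (by norm_num) hK
  rw [twisted_eq hφ hK]
  exact perfect_W_D4 hq hφ hK

theorem simpleD4 (hq : IsPrimePow q) (hK : Fintype.card K = q ^ 3) :
    IsSimpleGroup ↥(twistedD4 K q) ∧ ¬ IsMulCommutative ↥(twistedD4 K q) := by
  obtain ⟨φ, hφ⟩ := exists_frob hq (by norm_num) hK
  rw [twisted_eq hφ hK]
  refine simple_of valid valid2 valid3 valid4 graphOk φ Q hε 0 ?_ (perfect_W_D4 hq hφ hK)
  refine irreducibleT (W φ) valid4 (Equiv.refl (Fin 2)) (gen := fun j => chainL π (Q.i0 j) (Q.k j)) (fun i => ([6] : List ℕ).getD i 0)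
    (fun j r hr => rho1_xj valid valid2 valid3 valid4 graphOk φ Q hε j hr) ?_
  have k0 : ordW T (chainL π (Q.i0 0) (Q.k 0) ++ chainL π (Q.i0 1) (Q.k 1)) 6 = true := by decide +kernel
  intro i hi
  have hi3 : i < 1 := by omega
  interval_cases i
  · exact ⟨by decide, k0⟩
end D4

end Cfsg.Agent.Lib.ChevTw21
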