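import Cfsg.Agent.Lib.ChevAut3
import Cfsg.Agent.Lib.ChevV3D4

/-! Diagram symmetries, type D4. -/

set_option autoImplicit false

namespace Cfsg.Agent.Lib.ChevV10D4

open Cfsg.Lie Cfsg.Agent.Lib.ChevTbD4

theorem chk : ∀ π : Equiv.Perm (Fin 4), (∀ i j : Fin 4, i ≠ j → chevD4.bonds (π i) (π j) = chevD4.bonds i j) →
    (∀ i : Fin 4, ∀ r : Fin 24, chevD4.permRoot π (T.refl i r) = T.refl (π i) (chevD4.permRoot π r)) ∧
    (∀ i : Fin 4, chevD4.permRoot π (T.sim i) = T.sim (π i)) ∧ (∀ r : Fin 24, chevD4.permRoot π r < 24) := by decide +kernel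

theorem graph_root {F : Type*} [Field F] (π : Equiv.Perm (Fin chevD4.rank)) (hπ : chevD4.IsDiagramSymmetry π) (φ : ↥(chevD4.group F) ≃* ↥(chevD4.group F))
    (hφ : ∀ (g : ↥(chevD4.group F)) (i : Fin chevD4.rank) (t : F),
      (((g : GL chevD4.Idx F) : Matrix chevD4.Idx chevD4.Idx F) = chevD4.x F (chevD4.simple i) t →
        ((φ g : GL chevD4.Idx F) : Matrix chevD4.Idx chevD4.Idx F) = chevD4.x F (chevD4.simple (π i)) t) ∧
      (((g : GL chevD4.Idx F) : Matrix chevD4.Idx chevD4.Idx F) = chevD4.x F (chevD4.neg (chevD4.simple i)) t →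
        ((φ g : GL chevD4.Idx F) : Matrix chevD4.Idx chevD4.Idx F) = chevD4.x F (chevD4.neg (chevD4.simple (π i))) t))
    (r : ℕ) (hr : r < chevD4.nroots) :
    ∃ ε : F, (ε = 1 ∨ ε = -1) ∧ ∀ (g : ↥(chevD4.group F)) (t : F),
      ((g : GL chevD4.Idx F) : Matrix chevD4.Idx chevD4.Idx F) = chevD4.x F r t →
        ((φ g : GL chevD4.Idx F) : Matrix chevD4.Idx chevD4.Idx F) = chevD4.x F (chevD4.permRoot π r) (ε * t) := by
  obtain ⟨h1, h2, h3⟩ := chk π hπ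
  exact Cfsg.Agent.Lib.ChevAut3.graph_root' Cfsg.Agent.Lib.ChevValidD4.valid Cfsg.Agent.Lib.ChevV2D4.valid2 Cfsg.Agent.Lib.ChevV3D4.valid3 π φ hφ
    (fun i r hr => h1 i ⟨r, hr⟩) h2 (fun r hr => h3 ⟨r, hr⟩) r hr

end Cfsg.Agent.Lib.ChevV10D4
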