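import Cfsg.Agent.Lib.ChevAut3
import Cfsg.Agent.Lib.ChevV3E6

/-! Diagram symmetries, type E6. -/

set_option autoImplicit false

namespace Cfsg.Agent.Lib.ChevV10E6

open Cfsg.Lie Cfsg.Agent.Lib.ChevTbE6

theorem chk : ∀ π : Equiv.Perm (Fin 6), (∀ i j : Fin 6, i ≠ j → chevE6.bonds (π i) (π j) = chevE6.bonds i j) →
    (∀ i : Fin 6, ∀ r : Fin 72, chevE6.permRoot π (T.refl i r) = T.refl (π i) (chevE6.permRoot π r)) ∧
    (∀ i : Fin 6, chevE6.permRoot π (T.sim i) = T.sim (π i)) ∧ (∀ r : Fin 72, chevE6.permRoot π r < 72) := by decide +kernel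

theorem graph_root {F : Type*} [Field F] (π : Equiv.Perm (Fin chevE6.rank)) (hπ : chevE6.IsDiagramSymmetry π) (φ : ↥(chevE6.group F) ≃* ↥(chevE6.group F))
    (hφ : ∀ (g : ↥(chevE6.group F)) (i : Fin chevE6.rank) (t : F),
      (((g : GL chevE6.Idx F) : Matrix chevE6.Idx chevE6.Idx F) = chevE6.x F (chevE6.simple i) t →
        ((φ g : GL chevE6.Idx F) : Matrix chevE6.Idx chevE6.Idx F) = chevE6.x F (chevE6.simple (π i)) t) ∧
      (((g : GL chevE6.Idx F) : Matrix chevE6.Idx chevE6.Idx F) = chevE6.x F (chevE6.neg (chevE6.simple i)) t →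
        ((φ g : GL chevE6.Idx F) : Matrix chevE6.Idx chevE6.Idx F) = chevE6.x F (chevE6.neg (chevE6.simple (π i))) t))
    (r : ℕ) (hr : r < chevE6.nroots) :
    ∃ ε : F, (ε = 1 ∨ ε = -1) ∧ ∀ (g : ↥(chevE6.group F)) (t : F),
      ((g : GL chevE6.Idx F) : Matrix chevE6.Idx chevE6.Idx F) = chevE6.x F r t →
        ((φ g : GL chevE6.Idx F) : Matrix chevE6.Idx chevE6.Idx F) = chevE6.x F (chevE6.permRoot π r) (ε * t) := by
  obtain ⟨h1, h2, h3⟩ := chk π hπ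
  exact Cfsg.Agent.Lib.ChevAut3.graph_root' Cfsg.Agent.Lib.ChevValidE6.valid Cfsg.Agent.Lib.ChevV2E6.valid2 Cfsg.Agent.Lib.ChevV3E6.valid3 π φ hφ
    (fun i r hr => h1 i ⟨r, hr⟩) h2 (fun r hr => h3 ⟨r, hr⟩) r hr

end Cfsg.Agent.Lib.ChevV10E6
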