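import Cfsg.Agent.Lib.ChevW4
import Cfsg.Agent.Lib.ChevV7B2

/-! The centre of the Coxeter group of type B2. -/

set_option autoImplicit false

namespace Cfsg.Agent.Lib.ChevV8B2

open Cfsg.Lie Cfsg.Agent.Lib.ChevTab Cfsg.Agent.Lib.ChevW3 Cfsg.Agent.Lib.ChevW4 Cfsg.Agent.Lib.ChevTbB2 Cfsg.Agent.Lib.ChevV2B2

theorem chk_nf : chkNF T = true := by decide +kernel

theorem chk_h : T.n - 1 < T.n := by decide +kernel

theorem chk_p : ∀ j < T.l, 0 < C.coef (T.n - 1) j := by decide +kernel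

theorem chk_k : ∀ r < T.n, itW T (List.range 2) 2 r = T.neg r := by decide +kernel

theorem chk_n0 : 0 < T.n := by decide +kernel

theorem center : Nat.card (Subgroup.center (CoxeterMatrix.B 2).Group) = 2 ∧
    Subgroup.center (CoxeterMatrix.B 2).Group ≤ Subgroup.zpowers ((List.finRange 2).map (CoxeterMatrix.B 2).simple).prod :=
  center2 Cfsg.Agent.Lib.ChevValidB2.valid Cfsg.Agent.Lib.ChevV2B2.valid2 Cfsg.Agent.Lib.ChevV3B2.valid3 Cfsg.Agent.Lib.ChevV4B2.valid4 (ZMod 2) rfl _ Cfsg.Agent.Lib.ChevV7B2.chk_cox chk_nf chk_h chk_p chk_k chk_n0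

end Cfsg.Agent.Lib.ChevV8B2
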