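import Cfsg.Agent.Lib.ChevW4
import Cfsg.Agent.Lib.ChevV7E6

/-! The centre of the Coxeter group of type E6. -/

set_option autoImplicit false

namespace Cfsg.Agent.Lib.ChevV8E6

open Cfsg.Lie Cfsg.Agent.Lib.ChevTab Cfsg.Agent.Lib.ChevW3 Cfsg.Agent.Lib.ChevW4 Cfsg.Agent.Lib.ChevTbE6 Cfsg.Agent.Lib.ChevV2E6

theorem chk_nf : chkNF T = true := by decide +kernel

theorem chk_h : T.n - 1 < T.n := by decide +kernel

theorem chk_p : ∀ j < T.l, 0 < C.coef (T.n - 1) j := by decide +kernel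

/-- The longest element. -/
def w0 : List ℕ := [0, 1, 2, 0, 3, 1, 2, 0, 3, 2, 4, 3, 1, 2, 0, 3, 2, 4, 3, 1, 5, 4, 3, 1, 2, 0, 3, 2, 4, 3, 1, 5, 4, 3, 2, 0]

theorem chk_w0 : ∀ i ∈ w0, i < T.l := by decide +kernel

theorem chk_w1 : ∀ i < T.l, T.n / 2 ≤ wact T w0 (T.neg (T.sim i)) := by decide +kernel

theorem chk_w2 : wact T w0 (T.neg (T.sim 0)) ≠ T.sim 0 := by decide +kernel

theorem chk_l : 0 < T.l := by decide +kernel

theorem center : Nat.card (Subgroup.center (CoxeterMatrix.E₆).Group) = 1 ∧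
    Subgroup.center (CoxeterMatrix.E₆).Group ≤ Subgroup.zpowers ((List.finRange 6).map (CoxeterMatrix.E₆).simple).prod :=
  center1 Cfsg.Agent.Lib.ChevValidE6.valid Cfsg.Agent.Lib.ChevV2E6.valid2 Cfsg.Agent.Lib.ChevV3E6.valid3 Cfsg.Agent.Lib.ChevV4E6.valid4 (ZMod 2) rfl _ Cfsg.Agent.Lib.ChevV7E6.chk_cox chk_nf chk_h chk_p chk_w0 chk_w1 chk_l chk_w2

end Cfsg.Agent.Lib.ChevV8E6
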