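import Cfsg.Agent.Lib.ChevW5
import Cfsg.Agent.Lib.ChevV7B2

/-! Generation by the Coxeter element and reflections, type B2. -/

set_option autoImplicit false

namespace Cfsg.Agent.Lib.ChevV9B2

open Cfsg.Lie Cfsg.Agent.Lib.ChevTab Cfsg.Agent.Lib.ChevW3 Cfsg.Agent.Lib.ChevW5 Cfsg.Agent.Lib.ChevTbB2

/-- Words. -/
def ws : List (List ℕ) := [[2], [2, 0]]

def g1 : List ℕ := []

theorem chk_g1 : ∀ i ∈ g1, i < T.l := by decide +kernel

theorem chk_w : ∀ i < T.l, ∀ r < T.n, wact T (expand [List.range 2, (List.range 2).reverse, tw g1 0] (ws.getD i [])) r = T.refl i r := by decide +kernel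

theorem gens : ∃ T' : Finset (CoxeterMatrix.B 2).Group, T'.card = 1 ∧ (∀ t ∈ T', ∃ (x : (CoxeterMatrix.B 2).Group) (i : Fin 2), t = x * (CoxeterMatrix.B 2).simple i * x⁻¹) ∧
      Subgroup.closure (({((List.finRange 2).map (CoxeterMatrix.B 2).simple).prod} : Set (CoxeterMatrix.B 2).Group) ∪ ↑T') = ⊤ :=
  gen1 Cfsg.Agent.Lib.ChevValidB2.valid Cfsg.Agent.Lib.ChevV2B2.valid2 Cfsg.Agent.Lib.ChevV3B2.valid3 Cfsg.Agent.Lib.ChevV4B2.valid4 (ZMod 2) rfl _ Cfsg.Agent.Lib.ChevV7B2.chk_cox chk_g1 (⟨0, by decide⟩ : Fin 2) ws chk_w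

end Cfsg.Agent.Lib.ChevV9B2
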