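import Cfsg.Agent.Lib.ChevW5
import Cfsg.Agent.Lib.ChevV7E6

/-! Generation by the Coxeter element and reflections, type E6. -/

set_option autoImplicit false

namespace Cfsg.Agent.Lib.ChevV9E6

open Cfsg.Lie Cfsg.Agent.Lib.ChevTab Cfsg.Agent.Lib.ChevW3 Cfsg.Agent.Lib.ChevW5 Cfsg.Agent.Lib.ChevTbE6

/-- Words. -/
def ws : List (List ℕ) := [[0, 0, 0, 0, 2, 1, 1, 1, 1, 1, 1, 1, 2, 0, 0, 0, 0, 0, 0, 0, 2, 1, 1, 1, 1], [0, 0, 0, 2, 1, 1, 1, 2, 0, 0, 0, 2, 1, 1, 1, 0, 0, 2, 1, 1, 1, 2, 0, 0, 0, 2, 1, 1, 0, 0, 0, 2, 1, 1, 1, 2, 0, 0, 0, 2, 1, 1, 1], [0, 2, 1, 1, 1, 2, 0, 0, 0, 2, 1, 1, 1, 1, 2, 0, 0, 0, 0, 2, 1, 1, 1, 2, 0, 0, 0, 2, 1], [0, 0, 2, 1, 1, 1, 1, 1, 2, 0, 0, 0, 0, 0, 2, 1, 1], [0, 0, 0, 2, 1, 1, 1, 1, 1, 2, 0, 0, 0, 0, 0, 2, 1, 1, 1], [0, 2, 1, 1, 1, 2, 0, 0, 0,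 2, 1, 0, 0, 0, 2, 1, 1, 1, 0, 2, 1, 1, 1, 2, 0, 0, 0, 2, 1]]

def g1 : List ℕ := [4, 3]

theorem chk_g1 : ∀ i ∈ g1, i < T.l := by decide +kernel

theorem chk_w : ∀ i < T.l, ∀ r < T.n, wact T (expand [List.range 6, (List.range 6).reverse, tw g1 3] (ws.getD i [])) r = T.refl i r := by decide +kernel

theorem gens : ∃ T' : Finset (CoxeterMatrix.E₆).Group, T'.card = 1 ∧ (∀ t ∈ T', ∃ (x : (CoxeterMatrix.E₆).Group) (i : Fin 6), t = x * (CoxeterMatrix.E₆).simple i * x⁻¹) ∧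
      Subgroup.closure (({((List.finRange 6).map (CoxeterMatrix.E₆).simple).prod} : Set (CoxeterMatrix.E₆).Group) ∪ ↑T') = ⊤ :=
  gen1 Cfsg.Agent.Lib.ChevValidE6.valid Cfsg.Agent.Lib.ChevV2E6.valid2 Cfsg.Agent.Lib.ChevV3E6.valid3 Cfsg.Agent.Lib.ChevV4E6.valid4 (ZMod 2) rfl _ Cfsg.Agent.Lib.ChevV7E6.chk_cox chk_g1 (⟨3, by decide⟩ : Fin 6) ws chk_w

end Cfsg.Agent.Lib.ChevV9E6
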