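import Cfsg.Agent.Lib.ChevW5
import Cfsg.Agent.Lib.ChevV7F4

/-! Generation by the Coxeter element and reflections, type F4. -/

set_option autoImplicit false

namespace Cfsg.Agent.Lib.ChevV9F4

open Cfsg.Lie Cfsg.Agent.Lib.ChevTab Cfsg.Agent.Lib.ChevW3 Cfsg.Agent.Lib.ChevW5 Cfsg.Agent.Lib.ChevTbF4

/-- Words. -/
def ws : List (List ℕ) := [[2], [0, 2, 1], [3], [0, 3, 1]]

def g1 : List ℕ := [0]

theorem chk_g1 : ∀ i ∈ g1, i < T.l := by decide +kernel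

def g2 : List ℕ := [2]

theorem chk_g2 : ∀ i ∈ g2, i < T.l := by decide +kernel

theorem chk_w : ∀ i < T.l, ∀ r < T.n, wact T (expand [List.range 4, (List.range 4).reverse, tw g1 0, tw g2 2] (ws.getD i [])) r = T.refl i r := by decide +kernel

theorem chk_ne : ∃ r, r < T.n ∧ wact T (tw g1 0) r ≠ wact T (tw g2 2) r := by decide +kernel

theorem gens : ∃ T' : Finset (CoxeterMatrix.F₄).Group, T'.card = 2 ∧ (∀ t ∈ T', ∃ (x : (CoxeterMatrix.F₄).Group) (i : Fin 4), t = x * (CoxeterMatrix.F₄).simple i * x⁻¹) ∧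
      Subgroup.closure (({((List.finRange 4).map (CoxeterMatrix.F₄).simple).prod} : Set (CoxeterMatrix.F₄).Group) ∪ ↑T') = ⊤ := by
  obtain ⟨r, h1, h2⟩ := chk_ne
  exact gen2 Cfsg.Agent.Lib.ChevValidF4.valid Cfsg.Agent.Lib.ChevV2F4.valid2 Cfsg.Agent.Lib.ChevV3F4.valid3 Cfsg.Agent.Lib.ChevV4F4.valid4 (ZMod 2) rfl _ Cfsg.Agent.Lib.ChevV7F4.chk_cox chk_g1 chk_g2 (⟨0, by decide⟩ : Fin 4) (⟨2, by decide⟩ : Fin 4) ws chk_w h1 h2

end Cfsg.Agent.Lib.ChevV9F4
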