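import Cfsg.Agent.Lib.ChevW5
import Cfsg.Agent.Lib.ChevV7G2

/-! Generation by the Coxeter element and reflections, type G2. -/

set_option autoImplicit false

namespace Cfsg.Agent.Lib.ChevV9G2

open Cfsg.Lie Cfsg.Agent.Lib.ChevTab Cfsg.Agent.Lib.ChevW3 Cfsg.Agent.Lib.ChevW5 Cfsg.Agent.Lib.ChevTbG2

/-- Words. -/
def ws : List (List ℕ) := [[2], [2, 0]]

def g1 : List ℕ := []

theorem chk_g1 : ∀ i ∈ g1, i < T.l := by decide +kernel

theorem chk_w : ∀ i < T.l, ∀ r < T.n, wact T (expand [List.range 2, (List.range 2).reverse, tw g1 0] (ws.getD i [])) r = T.refl i r := by decide +kernel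

theorem gens : ∃ T' : Finset (CoxeterMatrix.G₂).Group, T'.card = 1 ∧ (∀ t ∈ T', ∃ (x : (CoxeterMatrix.G₂).Group) (i : Fin 2), t = x * (CoxeterMatrix.G₂).simple i * x⁻¹) ∧
      Subgroup.closure (({((List.finRange 2).map (CoxeterMatrix.G₂).simple).prod} : Set (CoxeterMatrix.G₂).Group) ∪ ↑T') = ⊤ :=
  gen1 Cfsg.Agent.Lib.ChevValidG2.valid Cfsg.Agent.Lib.ChevV2G2.valid2 Cfsg.Agent.Lib.ChevV3G2.valid3 Cfsg.Agent.Lib.ChevV4G2.valid4 (ZMod 2) rfl _ Cfsg.Agent.Lib.ChevV7G2.chk_cox chk_g1 (⟨0, by decide⟩ : Fin 2) ws chk_w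

end Cfsg.Agent.Lib.ChevV9G2
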