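import Cfsg.Agent.Lib.ChevW3

/-! The centre of the Weyl group. -/

set_option autoImplicit false

namespace Cfsg.Agent.Lib.ChevW4

open Cfsg.Lie Cfsg.Agent.Lib.ChevEngine Cfsg.Agent.Lib.ChevTab Cfsg.Agent.Lib.ChevMono
  Cfsg.Agent.Lib.ChevRel Cfsg.Agent.Lib.ChevValid Cfsg.Agent.Lib.ChevGL Cfsg.Agent.Lib.ChevGrad Cfsg.Agent.Lib.ChevL2
  Cfsg.Agent.Lib.ChevU Cfsg.Agent.Lib.ChevU2 Cfsg.Agent.Lib.ChevU3 Cfsg.Agent.Lib.ChevDiag Cfsg.Agent.Lib.ChevV3
  Cfsg.Agent.Lib.ChevH Cfsg.Agent.Lib.ChevN Cfsg.Agent.Lib.ChevN2 Cfsg.Agent.Lib.ChevN3 Cfsg.Agent.Lib.ChevBN Cfsg.Agent.Lib.ChevBN2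
  Cfsg.Agent.Lib.ChevV4 Cfsg.Agent.Lib.ChevPar Cfsg.Agent.Lib.ChevV5 Cfsg.Agent.Lib.ChevPar2
  Cfsg.Agent.Lib.BNPair Cfsg.Agent.Lib.BNPair2 Cfsg.Agent.Lib.BNCount Cfsg.Agent.Lib.ChevW1 Cfsg.Agent.Lib.ChevW2 Cfsg.Agent.Lib.ChevV6
  Cfsg.Agent.Lib.ChevW3

/-- Vectors negated by a simple reflection. -/
noncomputable def chkNF (T : Tb) : Bool :=
  allBelow T.l fun i => allBelow T.n fun a =>
    bif Nat.beq (T.refl i a) (T.neg a) then (Nat.beq a (T.sim i) || Nat.beq a (T.neg (T.sim i))) else true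

theorem chkNF_spec {T : Tb} (h : chkNF T = true) {i a : ℕ} (hi : i < T.l) (ha : a < T.n) (e : T.refl i a = T.neg a) :
    a = T.sim i ∨ a = T.neg (T.sim i) := by
  have h1 := (allBelow_iff _ _).1 ((allBelow_iff _ _).1 h i hi) a ha
  rw [beq_dec, e] at h1
  simp only [decide_true, cond_true, Bool.or_eq_true] at h1
  rcases h1 with h1 | h1
  · left
    rw [beq_dec] at h1
    simpa using h1
  · right
    rw [beq_dec] at h1
    simpa using h1

variable {D : ChevalleyDatum} {T : Tb} {C : Tc} {X : Tc3} {Y : Tc4} {F : Type*} [Field F]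

theorem transfer2 {G H : Type*} [Group G] [Group H] (ψ : G ≃* H) (c : G) (k : ℕ) (h0 : c ^ k ∈ Subgroup.center G) (h1 : c ^ k ≠ 1)
    (h2 : ∀ z ∈ Subgroup.center G, z = 1 ∨ z = c ^ k) :
    Nat.card (Subgroup.center H) = 2 ∧ Subgroup.center H ≤ Subgroup.zpowers (ψ c) := by
  constructor
  · rw [← Nat.card_congr (Subgroup.centerCongr ψ).toEquiv, Nat.card_eq_two_iff]
    refine ⟨⟨1, Subgroup.one_mem _⟩, ⟨c ^ k, h0⟩, ?_, ?_⟩
    · intro e
      exact h1 (congrArg Subtype.val e).symm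
    · ext ⟨z, hz⟩
      simp only [Set.mem_insert_iff, Set.mem_singleton_iff, Set.mem_univ, iff_true]
      rcases h2 z hz with h | h
      · left
        exact Subtype.ext h
      · right
        exact Subtype.ext h
  · intro y hy
    have hz : ψ.symm y ∈ Subgroup.center G := by
      rw [Subgroup.mem_center_iff] at hy ⊢
      intro g
      have := hy (ψ g)
      apply ψ.injective
      simpa using this
    rcases h2 _ hz with h | h
    · have : y = 1 := by simpa using congrArg ψ h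
      rw [this]
      exact Subgroup.one_mem _
    · have : y = ψ c ^ k := by simpa using congrArg ψ h
      rw [this]
      exact Subgroup.pow_mem _ (Subgroup.mem_zpowers _) _

theorem transfer1 {G H : Type*} [Group G] [Group H] (ψ : G ≃* H) (c : G)
    (h2 : ∀ z ∈ Subgroup.center G, z = 1) :
    Nat.card (Subgroup.center H) = 1 ∧ Subgroup.center H ≤ Subgroup.zpowers (ψ c) := by
  have hb : ∀ y ∈ Subgroup.center H, y = 1 := by
    intro y hy
    have hz : ψ.symm y ∈ Subgroup.center G := by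
      rw [Subgroup.mem_center_iff] at hy ⊢
      intro g
      have := hy (ψ g)
      apply ψ.injective
      simpa using this
    simpa using congrArg ψ (h2 _ hz)
  constructor
  · rw [Nat.card_eq_one_iff_unique]
    refine ⟨⟨?_⟩, ⟨⟨1, Subgroup.one_mem _⟩⟩⟩
    rintro ⟨a, ha⟩ ⟨b, hb'⟩
    exact Subtype.ext ((hb a ha).trans (hb b hb').symm)
  · intro y hy
    rw [hb y hy]
    exact Subgroup.one_mem _

section
variable (V : Valid D T) (V2 : Valid2 D T C) (V3 : Valid3 T C X) (V4 : Valid4 D T C Y)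

theorem rho_center_sim (hN : chkNF T = true) {z : W (bnPair (F := F) V V2 V3)} (hz : z ∈ Subgroup.center _) {i : ℕ} (hi : i < T.l) :
    rho V V2 V3 z (T.sim i) = T.sim i ∨ rho V V2 V3 z (T.sim i) = T.neg (T.sim i) := by
  have hs := sim_lt' V V2 V3 hi
  have e : z * xi V V2 V3 F i = xi V V2 V3 F i * z := (Subgroup.mem_center_iff.1 hz _).symm
  have h1 := rho_mul_xi V V2 V3 z hi hs
  have h2 := rho_xi_mul V V2 V3 z hi hs
  rw [e, h2, refl_sim V V2 V3 hi, rho_neg V V2 V3 z hs] at h1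
  exact chkNF_spec hN hi (rho_lt V V2 V3 z hs) h1

theorem coef_sgn (hN : chkNF T = true) {z : W (bnPair (F := F) V V2 V3)} (hz : z ∈ Subgroup.center _) {i j : ℕ} (hi : i < T.l) (hj : j < T.l) (hij : j ≠ i) :
    C.coef (rho V V2 V3 z (T.sim i)) j = 0 := by
  have hs := sim_lt' V V2 V3 hi
  rcases rho_center_sim V V2 V3 hN hz hi with h | h
  · rw [h]
    exact sim_coef_ne V V2 V3 hi hj hij
  · rw [h, V2.coef_neg hs hj, sim_coef_ne V V2 V3 hi hj hij]
    rfl

theorem coef_rho_center (hN : chkNF T = true) {z : W (bnPair (F := F) V V2 V3)} (hz : z ∈ Subgroup.center _) {r j : ℕ} (hr : r < T.n) (hj : j < T.l) :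
    C.coef (rho V V2 V3 z r) j = C.coef r j * C.coef (rho V V2 V3 z (T.sim j)) j := by
  have h := linF_rho V V2 V3 z (linF_coef V V2 V3 hj) r hr
  simp only [] at h
  rw [h, Finset.sum_eq_single j]
  · intro i hi hij
    rw [coef_sgn V V2 V3 hN hz (Finset.mem_range.1 hi) hj (Ne.symm hij), mul_zero]
  · intro h
    exact absurd (Finset.mem_range.2 hj) h

theorem center_cases (hN : chkNF T = true) {h : ℕ} (hh : h < T.n) (hp : ∀ j < T.l, 0 < C.coef h j) {z : W (bnPair (F := F) V V2 V3)} (hz : z ∈ Subgroup.center _) :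
    (∀ i < T.l, rho V V2 V3 z (T.sim i) = T.sim i) ∨ (∀ i < T.l, rho V V2 V3 z (T.sim i) = T.neg (T.sim i)) := by
  have hR := rho_lt V V2 V3 z hh
  by_cases hc : T.n / 2 ≤ rho V V2 V3 z h
  · left
    intro i hi
    rcases rho_center_sim V V2 V3 hN hz hi with e | e
    · exact e
    · exfalso
      have h1 := coef_nonneg_of_pos V V2 hc hR hi
      rw [coef_rho_center V V2 V3 hN hz hh hi, e, V2.coef_neg (sim_lt' V V2 V3 hi) hi, sim_coef V2 hi] at h1
      have := hp i hi
      nlinarith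
  · right
    intro i hi
    rcases rho_center_sim V V2 V3 hN hz hi with e | e
    · exfalso
      have h1 := coef_nonpos_of_neg V V2 (by omega : rho V V2 V3 z h < T.n / 2) hi
      rw [coef_rho_center V V2 V3 hN hz hh hi, e, sim_coef V2 hi] at h1
      have := hp i hi
      nlinarith
    · exact e

include V4 in
theorem center_eq (hN : chkNF T = true) {h : ℕ} (hh : h < T.n) (hp : ∀ j < T.l, 0 < C.coef h j) {z : W (bnPair (F := F) V V2 V3)} (hz : z ∈ Subgroup.center _) :
    z = 1 ∨ (∀ i < T.l, rho V V2 V3 z (T.sim i) = T.neg (T.sim i)) := by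
  rcases center_cases V V2 V3 hN hh hp hz with h1 | h1
  · left
    apply eq_one_of_sim_pos V V2 V3 V4
    intro m hm
    rw [h1 m hm]
    exact sim_pos V V2 hm
  · right
    exact h1

include V4 in
theorem center_trivial (hN : chkNF T = true) {h : ℕ} (hh : h < T.n) (hp : ∀ j < T.l, 0 < C.coef h j) {L : List ℕ} (hL : ∀ i ∈ L, i < T.l)
    (h1 : ∀ i < T.l, T.n / 2 ≤ wact T L (T.neg (T.sim i))) {i0 : ℕ} (hi0 : i0 < T.l) (h2 : wact T L (T.neg (T.sim i0)) ≠ T.sim i0)
    {z : W (bnPair (F := F) V V2 V3)} (hz : z ∈ Subgroup.center _) : z = 1 := by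
  rcases center_eq V V2 V3 V4 hN hh hp hz with h3 | h3
  · exact h3
  · exfalso
    have key : ∀ i < T.l, rho V V2 V3 (wordW V V2 V3 F L * z) (T.sim i) = wact T L (T.neg (T.sim i)) := by
      intro i hi
      rw [map_mul, Equiv.Perm.mul_apply, h3 i hi]
      exact (rho_word V V2 V3 hL (V.neg_lt (sim_lt' V V2 V3 hi))).1
    have h4 : wordW V V2 V3 F L * z = 1 := by
      apply eq_one_of_sim_pos V V2 V3 V4
      intro m hm
      rw [key m hm]
      exact h1 m hm
    have h5 := key i0 hi0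
    rw [h4, map_one] at h5
    exact h2 h5.symm

include V4 in
theorem word_ext {u v : W (bnPair (F := F) V V2 V3)} (h : ∀ r < T.n, rho V V2 V3 u r = rho V V2 V3 v r) : u = v := by
  have : v⁻¹ * u = 1 := by
    apply eq_one_of_pos V V2 V3 V4
    intro r h1 h2
    rw [map_mul, Equiv.Perm.mul_apply, h r h2, ← Equiv.Perm.mul_apply, ← map_mul, inv_mul_cancel, map_one]
    exact h1
  exact (inv_mul_eq_one.1 this).symm

include V4 in
/-- The element `-1`. -/
theorem center_neg (hN : chkNF T = true) {h : ℕ} (hh : h < T.n) (hp : ∀ j < T.l, 0 < C.coef h j) {L : List ℕ} (hL : ∀ i ∈ L, i < T.l) {k : ℕ}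
    (hk : ∀ r < T.n, itW T L k r = T.neg r) (hn0 : 0 < T.n) :
    wordW V V2 V3 F L ^ k ∈ Subgroup.center _ ∧ wordW V V2 V3 F L ^ k ≠ 1 ∧
      ∀ z ∈ Subgroup.center (W (bnPair (F := F) V V2 V3)), z = 1 ∨ z = wordW V V2 V3 F L ^ k := by
  have hz0 : ∀ r < T.n, rho V V2 V3 (wordW V V2 V3 F L ^ k) r = T.neg r := by
    intro r hr
    rw [(rho_word_pow V V2 V3 hL k hr).1, hk r hr]
  refine ⟨?_, ?_, ?_⟩
  · rw [Subgroup.mem_center_iff]
    intro w
    apply word_ext V V2 V3 V4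
    intro r hr
    rw [map_mul, map_mul, Equiv.Perm.mul_apply, Equiv.Perm.mul_apply, hz0 r hr, hz0 _ (rho_lt V V2 V3 w hr), rho_neg V V2 V3 w hr]
  · intro e
    have h1 := hz0 0 hn0
    rw [e, map_one] at h1
    have h2 : T.neg 0 = T.n - 1 - 0 := rfl
    have h3 := n_even V2
    have h4 : (0 : ℕ) = T.neg 0 := h1
    have h5 : T.n / 2 ≤ T.n - 1 := by omega
    have h6 := V.hn
    omega
  · intro z hz
    rcases center_eq V V2 V3 V4 hN hh hp hz with h3 | h3
    · left; exact h3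
    · right
      have h4 : (wordW V V2 V3 F L ^ k)⁻¹ * z = 1 := by
        apply eq_one_of_sim_pos V V2 V3 V4
        intro m hm
        have hs := sim_lt' V V2 V3 hm
        have h5 : rho V V2 V3 z (T.sim m) = rho V V2 V3 (wordW V V2 V3 F L ^ k) (T.sim m) := by
          rw [h3 m hm, hz0 _ hs]
        rw [map_mul, Equiv.Perm.mul_apply, h5, ← Equiv.Perm.mul_apply, ← map_mul, inv_mul_cancel, map_one]
        exact sim_pos V V2 hm
      exact inv_mul_eq_one.1 h4 |>.symm

include V V2 V3 V4 in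
theorem center2 (F : Type*) [Field F] {n : ℕ} (hn : n = T.l) (M : CoxeterMatrix (Fin n))
    (hM : ∀ i j : Fin n, ordW T [i.1, j.1] (M i j) = true) (hN : chkNF T = true) {h : ℕ} (hh : h < T.n) (hp : ∀ j < T.l, 0 < C.coef h j) {k : ℕ}
    (hk : ∀ r < T.n, itW T (List.range n) k r = T.neg r) (hn0 : 0 < T.n) :
    Nat.card (Subgroup.center M.Group) = 2 ∧ Subgroup.center M.Group ≤ Subgroup.zpowers ((List.finRange n).map M.simple).prod := by
  obtain ⟨ψ, hψ⟩ := weyl_iso V V2 V3 V4 (F := F) hn M hM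
  have e : ((List.finRange n).map M.simple).prod = ψ (wordW V V2 V3 F (List.range n)) := by
    unfold wordW
    rw [map_list_prod, List.map_map]
    congr 1
    rw [← List.map_coe_finRange_eq_range, List.map_map]
    apply List.map_congr_left
    intro i _
    exact (hψ i).symm
  rw [e]
  have hL : ∀ i ∈ List.range n, i < T.l := by
    intro i hi
    rw [← hn]
    simpa using hi
  obtain ⟨h1, h2, h3⟩ := center_neg V V2 V3 V4 (F := F) hN hh hp hL hk hn0
  exact transfer2 ψ _ k h1 h2 h3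

include V V2 V3 V4 in
theorem center1 (F : Type*) [Field F] {n : ℕ} (hn : n = T.l) (M : CoxeterMatrix (Fin n))
    (hM : ∀ i j : Fin n, ordW T [i.1, j.1] (M i j) = true) (hN : chkNF T = true) {h : ℕ} (hh : h < T.n) (hp : ∀ j < T.l, 0 < C.coef h j) {L : List ℕ} (hL : ∀ i ∈ L, i < T.l)
    (h1 : ∀ i < T.l, T.n / 2 ≤ wact T L (T.neg (T.sim i))) {i0 : ℕ} (hi0 : i0 < T.l) (h2 : wact T L (T.neg (T.sim i0)) ≠ T.sim i0) :
    Nat.card (Subgroup.center M.Group) = 1 ∧ Subgroup.center M.Group ≤ Subgroup.zpowers ((List.finRange n).map M.simple).prod := by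
  obtain ⟨ψ, hψ⟩ := weyl_iso V V2 V3 V4 (F := F) hn M hM
  have e : ((List.finRange n).map M.simple).prod = ψ (wordW V V2 V3 F (List.range n)) := by
    unfold wordW
    rw [map_list_prod, List.map_map]
    congr 1
    rw [← List.map_coe_finRange_eq_range, List.map_map]
    apply List.map_congr_left
    intro i _
    exact (hψ i).symm
  rw [e]
  exact transfer1 ψ _ (fun z hz => center_trivial V V2 V3 V4 (F := F) hN hh hp hL h1 hi0 h2 hz)

end

end Cfsg.Agent.Lib.ChevW4
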