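import Cfsg.Agent.Lib.ChevW4

/-! The Weyl group is generated by the Coxeter element together with few reflections. -/

set_option autoImplicit false

namespace Cfsg.Agent.Lib.ChevW5

open Cfsg.Lie Cfsg.Agent.Lib.ChevEngine Cfsg.Agent.Lib.ChevTab Cfsg.Agent.Lib.ChevMono
  Cfsg.Agent.Lib.ChevRel Cfsg.Agent.Lib.ChevValid Cfsg.Agent.Lib.ChevGL Cfsg.Agent.Lib.ChevGrad Cfsg.Agent.Lib.ChevL2
  Cfsg.Agent.Lib.ChevU Cfsg.Agent.Lib.ChevU2 Cfsg.Agent.Lib.ChevU3 Cfsg.Agent.Lib.ChevDiag Cfsg.Agent.Lib.ChevV3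
  Cfsg.Agent.Lib.ChevH Cfsg.Agent.Lib.ChevN Cfsg.Agent.Lib.ChevN2 Cfsg.Agent.Lib.ChevN3 Cfsg.Agent.Lib.ChevBN Cfsg.Agent.Lib.ChevBN2
  Cfsg.Agent.Lib.ChevV4 Cfsg.Agent.Lib.ChevPar Cfsg.Agent.Lib.ChevV5 Cfsg.Agent.Lib.ChevPar2
  Cfsg.Agent.Lib.BNPair Cfsg.Agent.Lib.BNPair2 Cfsg.Agent.Lib.BNCount Cfsg.Agent.Lib.ChevW1 Cfsg.Agent.Lib.ChevW2 Cfsg.Agent.Lib.ChevV6
  Cfsg.Agent.Lib.ChevW3 Cfsg.Agent.Lib.ChevW4

/-- Expansion of a word in generators. -/
def expand (gs : List (List ℕ)) (w : List ℕ) : List ℕ := (w.map fun a => gs.getD a []).flatten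

/-- The word of a conjugate of a simple reflection. -/
def tw (g : List ℕ) (j : ℕ) : List ℕ := g ++ j :: g.reverse

variable {D : ChevalleyDatum} {T : Tb} {C : Tc} {X : Tc3} {Y : Tc4} {F : Type*} [Field F]

section
variable (V : Valid D T) (V2 : Valid2 D T C) (V3 : Valid3 T C X) (V4 : Valid4 D T C Y)

theorem wordW_append (L L' : List ℕ) : wordW V V2 V3 F (L ++ L') = wordW V V2 V3 F L * wordW V V2 V3 F L' := by
  simp [wordW]

theorem wordW_reverse {L : List ℕ} (hL : ∀ i ∈ L, i < T.l) : wordW V V2 V3 F L.reverse = (wordW V V2 V3 F L)⁻¹ := by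
  induction L with
  | nil => simp [wordW]
  | cons i L ih =>
    have hi := hL i (by simp)
    have e : wordW V V2 V3 F (i :: L) = xi V V2 V3 F i * wordW V V2 V3 F L := by simp [wordW]
    rw [List.reverse_cons, wordW_append, ih (fun j hj => hL j (by simp [hj])), e, _root_.mul_inv_rev, Sb_inv (xi_mem V V2 V3 hi)]
    simp [wordW]

theorem wordW_expand_mem (K : Subgroup (W (bnPair (F := F) V V2 V3))) {gs : List (List ℕ)} (hg : ∀ L ∈ gs, wordW V V2 V3 F L ∈ K) (w : List ℕ) :
    wordW V V2 V3 F (expand gs w) ∈ K := by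
  induction w with
  | nil =>
    simp only [expand, List.map_nil, List.flatten_nil]
    simp [wordW, Subgroup.one_mem]
  | cons a w ih =>
    have e : expand gs (a :: w) = gs.getD a [] ++ expand gs w := by
      simp [expand]
    rw [e, wordW_append]
    apply Subgroup.mul_mem _ _ ih
    by_cases ha : a < gs.length
    · rw [List.getD_eq_getElem _ _ ha]
      exact hg _ (List.getElem_mem _)
    · rw [List.getD_eq_default _ _ (by omega)]
      simp [wordW, Subgroup.one_mem]

include V4 in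
theorem xi_mem_of_words (K : Subgroup (W (bnPair (F := F) V V2 V3))) {gs : List (List ℕ)} (hg : ∀ L ∈ gs, wordW V V2 V3 F L ∈ K) (hgl : ∀ L ∈ gs, ∀ i ∈ L, i < T.l)
    {i : ℕ} (hi : i < T.l) {w : List ℕ} (h : ∀ r < T.n, wact T (expand gs w) r = T.refl i r) : xi V V2 V3 F i ∈ K := by
  have hL : ∀ k ∈ expand gs w, k < T.l := by
    intro k hk
    simp only [expand, List.mem_flatten, List.mem_map] at hk
    obtain ⟨l, ⟨a, _, rfl⟩, hk⟩ := hk
    by_cases ha : a < gs.length
    · rw [List.getD_eq_getElem _ _ ha] at hk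
      exact hgl _ (List.getElem_mem _) k hk
    · rw [List.getD_eq_default _ _ (by omega)] at hk
      simp at hk
  have e : xi V V2 V3 F i = wordW V V2 V3 F (expand gs w) := by
    apply word_ext V V2 V3 V4
    intro r hr
    rw [rho_xi V V2 V3 hi hr, (rho_word V V2 V3 hL hr).1, h r hr]
  rw [e]
  exact wordW_expand_mem V V2 V3 K hg w

/-- The core generation theorem. -/
theorem closure_top {n : ℕ} (hn : n = T.l) (M : CoxeterMatrix (Fin n)) (ψ : W (bnPair (F := F) V V2 V3) ≃* M.Group)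
    (hψ : ∀ i : Fin n, ψ (xi V V2 V3 F i.1) = M.simple i) (V4 : Valid4 D T C Y) (S : Set M.Group) {gs : List (List ℕ)}
    (hS : ∀ L ∈ gs, ψ (wordW V V2 V3 F L) ∈ Subgroup.closure S) (hgl : ∀ L ∈ gs, ∀ i ∈ L, i < T.l) (ws : List (List ℕ))
    (hw : ∀ i < T.l, ∀ r < T.n, wact T (expand gs (ws.getD i [])) r = T.refl i r) : Subgroup.closure S = ⊤ := by
  have h1 : ∀ i : Fin n, M.simple i ∈ Subgroup.closure S := by
    intro i
    rw [← hψ i]
    have hi : i.1 < T.l := hn ▸ i.2
    have := xi_mem_of_words V V2 V3 V4 ((Subgroup.closure S).comap ψ.toMonoidHom) (gs := gs) (fun L hL => hS L hL) hgl hi (hw i.1 hi)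
    exact this
  rw [eq_top_iff, ← M.toCoxeterSystem.subgroup_closure_range_simple, Subgroup.closure_le]
  rintro _ ⟨i, rfl⟩
  exact h1 i

theorem psi_c {n : ℕ} (M : CoxeterMatrix (Fin n)) (ψ : W (bnPair (F := F) V V2 V3) ≃* M.Group)
    (hψ : ∀ i : Fin n, ψ (xi V V2 V3 F i.1) = M.simple i) : ψ (wordW V V2 V3 F (List.range n)) = ((List.finRange n).map M.simple).prod := by
  unfold wordW
  rw [map_list_prod, List.map_map]
  congr 1
  rw [← List.map_coe_finRange_eq_range, List.map_map]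
  apply List.map_congr_left
  intro i _
  exact hψ i

theorem psi_tw {n : ℕ} (M : CoxeterMatrix (Fin n)) (ψ : W (bnPair (F := F) V V2 V3) ≃* M.Group)
    (hψ : ∀ i : Fin n, ψ (xi V V2 V3 F i.1) = M.simple i) {g : List ℕ} (hg : ∀ i ∈ g, i < T.l) (j : Fin n) :
    ψ (wordW V V2 V3 F (tw g j.1)) = ψ (wordW V V2 V3 F g) * M.simple j * (ψ (wordW V V2 V3 F g))⁻¹ := by
  unfold tw
  rw [wordW_append, map_mul]
  have e : wordW V V2 V3 F (j.1 :: g.reverse) = xi V V2 V3 F j.1 * wordW V V2 V3 F g.reverse := by simp [wordW]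
  rw [e, map_mul, hψ, wordW_reverse V V2 V3 hg, map_inv, mul_assoc]

include V V2 V3 V4 in
/-- One reflection. -/
theorem gen1 (F : Type*) [Field F] {n : ℕ} (hn : n = T.l) (M : CoxeterMatrix (Fin n))
    (hM : ∀ i j : Fin n, ordW T [i.1, j.1] (M i j) = true) {g : List ℕ} (hg : ∀ i ∈ g, i < T.l) (j : Fin n) (ws : List (List ℕ))
    (hw : ∀ i < T.l, ∀ r < T.n, wact T (expand [List.range n, (List.range n).reverse, tw g j.1] (ws.getD i [])) r = T.refl i r) :
    ∃ T' : Finset M.Group, T'.card = 1 ∧ (∀ t ∈ T', ∃ (x : M.Group) (i : Fin n), t = x * M.simple i * x⁻¹) ∧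
      Subgroup.closure (({((List.finRange n).map M.simple).prod} : Set M.Group) ∪ ↑T') = ⊤ := by
  classical
  obtain ⟨ψ, hψ⟩ := weyl_iso V V2 V3 V4 (F := F) hn M hM
  refine ⟨{ψ (wordW V V2 V3 F (tw g j.1))}, by simp, ?_, ?_⟩
  · intro t ht
    rw [Finset.mem_singleton] at ht
    exact ⟨_, j, ht.trans (psi_tw V V2 V3 M ψ hψ hg j)⟩
  · have hR : ∀ i ∈ List.range n, i < T.l := by
      intro i hi
      rw [← hn]
      simpa using hi
    apply closure_top V V2 V3 hn M ψ hψ V4 _ (gs := [List.range n, (List.range n).reverse, tw g j.1]) _ _ ws hw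
    · intro L hL
      simp only [List.mem_cons, List.not_mem_nil, or_false] at hL
      rcases hL with rfl | rfl | rfl
      · rw [psi_c V V2 V3 M ψ hψ]
        exact Subgroup.subset_closure (Or.inl rfl)
      · rw [wordW_reverse V V2 V3 hR, map_inv, psi_c V V2 V3 M ψ hψ]
        exact Subgroup.inv_mem _ (Subgroup.subset_closure (Or.inl rfl))
      · exact Subgroup.subset_closure (Or.inr (by simp))
    · intro L hL
      simp only [List.mem_cons, List.not_mem_nil, or_false] at hL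
      rcases hL with rfl | rfl | rfl
      · exact hR
      · intro i hi
        exact hR i (by simpa using hi)
      · intro i hi
        simp only [tw, List.mem_append, List.mem_cons, List.mem_reverse] at hi
        rcases hi with hi | rfl | hi
        · exact hg _ hi
        · rw [← hn]
          exact j.2
        · exact hg _ hi

include V V2 V3 V4 in
/-- Two reflections. -/
theorem gen2 (F : Type*) [Field F] {n : ℕ} (hn : n = T.l) (M : CoxeterMatrix (Fin n))
    (hM : ∀ i j : Fin n, ordW T [i.1, j.1] (M i j) = true) {g g' : List ℕ} (hg : ∀ i ∈ g, i < T.l) (hg' : ∀ i ∈ g', i < T.l) (j j' : Fin n) (ws : List (List ℕ))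
    (hw : ∀ i < T.l, ∀ r < T.n, wact T (expand [List.range n, (List.range n).reverse, tw g j.1, tw g' j'.1] (ws.getD i [])) r = T.refl i r)
    {r0 : ℕ} (hr0 : r0 < T.n) (hne : wact T (tw g j.1) r0 ≠ wact T (tw g' j'.1) r0) :
    ∃ T' : Finset M.Group, T'.card = 2 ∧ (∀ t ∈ T', ∃ (x : M.Group) (i : Fin n), t = x * M.simple i * x⁻¹) ∧
      Subgroup.closure (({((List.finRange n).map M.simple).prod} : Set M.Group) ∪ ↑T') = ⊤ := by
  classical
  obtain ⟨ψ, hψ⟩ := weyl_iso V V2 V3 V4 (F := F) hn M hM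
  have htw : ∀ {g : List ℕ} (_ : ∀ i ∈ g, i < T.l) (j : Fin n), ∀ i ∈ tw g j.1, i < T.l := by
    intro g hg j i hi
    simp only [tw, List.mem_append, List.mem_cons, List.mem_reverse] at hi
    rcases hi with hi | rfl | hi
    · exact hg _ hi
    · rw [← hn]
      exact j.2
    · exact hg _ hi
  refine ⟨{ψ (wordW V V2 V3 F (tw g j.1)), ψ (wordW V V2 V3 F (tw g' j'.1))}, ?_, ?_, ?_⟩
  · apply Finset.card_pair
    intro e
    have e2 := ψ.injective e
    have h1 := (rho_word V V2 V3 (F := F) (htw hg j) hr0).1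
    have h2 := (rho_word V V2 V3 (F := F) (htw hg' j') hr0).1
    rw [e2] at h1
    exact hne (h1.symm.trans h2)
  · intro t ht
    rw [Finset.mem_insert, Finset.mem_singleton] at ht
    rcases ht with ht | ht
    · exact ⟨_, j, ht.trans (psi_tw V V2 V3 M ψ hψ hg j)⟩
    · exact ⟨_, j', ht.trans (psi_tw V V2 V3 M ψ hψ hg' j')⟩
  · have hR : ∀ i ∈ List.range n, i < T.l := by
      intro i hi
      rw [← hn]
      simpa using hi
    apply closure_top V V2 V3 hn M ψ hψ V4 _ (gs := [List.range n, (List.range n).reverse, tw g j.1, tw g' j'.1]) _ _ ws hw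
    · intro L hL
      simp only [List.mem_cons, List.not_mem_nil, or_false] at hL
      rcases hL with rfl | rfl | rfl | rfl
      · rw [psi_c V V2 V3 M ψ hψ]
        exact Subgroup.subset_closure (Or.inl rfl)
      · rw [wordW_reverse V V2 V3 hR, map_inv, psi_c V V2 V3 M ψ hψ]
        exact Subgroup.inv_mem _ (Subgroup.subset_closure (Or.inl rfl))
      · exact Subgroup.subset_closure (Or.inr (by simp))
      · exact Subgroup.subset_closure (Or.inr (by simp))
    · intro L hL
      simp only [List.mem_cons, List.not_mem_nil, or_false] at hL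
      rcases hL with rfl | rfl | rfl | rfl
      · exact hR
      · intro i hi
        exact hR i (by simpa using hi)
      · exact htw hg j
      · exact htw hg' j'

end

end Cfsg.Agent.Lib.ChevW5
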