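import Mathlib

set_option autoImplicit false

namespace Cfsg.Agent.Lib.ClassCount

/-- Counting the classes into which a class splits in a normal subgroup with abelian quotient. -/
theorem card_classes {G H A : Type*} [Group G] [Group H] [CommGroup A] (ι : H →* G) (hι : Function.Injective ι) (δ : G →* A)
    (hδ : Function.Surjective δ) (hker : δ.ker = ι.range) (P : Subgroup A) (u₀ : H) (R : H → Prop)
    (hR : ∀ u, R u ↔ ∃ g : G, ι u = g * ι u₀ * g⁻¹)
    (hP : ∀ a, a ∈ P ↔ ∃ c : G, c * ι u₀ = ι u₀ * c ∧ δ c = a) :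
    Nat.card {C : ConjClasses H // ∃ u, ConjClasses.mk u = C ∧ R u} = Nat.card (A ⧸ P) := by
  classical
  have hδι : ∀ s : H, δ (ι s) = 1 := by
    intro s
    have : ι s ∈ δ.ker := by
      rw [hker]
      exact ⟨s, rfl⟩
    exact this
  have hcg : ∀ g : G, ∃ w : H, ι w = g * ι u₀ * g⁻¹ := by
    intro g
    have : g * ι u₀ * g⁻¹ ∈ ι.range := by
      rw [← hker, MonoidHom.mem_ker, map_mul, map_mul, map_inv, hδι, mul_one, mul_inv_cancel]
    exact this
  choose cg hcgs using hcg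
  let φ : G → {C : ConjClasses H // ∃ u, ConjClasses.mk u = C ∧ R u} := fun g =>
    ⟨ConjClasses.mk (cg g), cg g, rfl, (hR _).2 ⟨g, hcgs g⟩⟩
  let ψ : G → A ⧸ P := fun g => (QuotientGroup.mk (δ g) : A ⧸ P)
  have hφ : Function.Surjective φ := by
    rintro ⟨C, u, rfl, hu⟩
    obtain ⟨g, hg⟩ := (hR u).1 hu
    refine ⟨g, Subtype.ext ?_⟩
    have : cg g = u := hι (by rw [hcgs, hg])
    simp only [φ, this]
  have hψ : Function.Surjective ψ := by
    intro x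
    obtain ⟨a, rfl⟩ := QuotientGroup.mk_surjective x
    obtain ⟨g, rfl⟩ := hδ a
    exact ⟨g, rfl⟩
  have key : ∀ g g', φ g = φ g' ↔ ψ g = ψ g' := by
    intro g g'
    constructor
    · intro h
      have h1 : ConjClasses.mk (cg g) = ConjClasses.mk (cg g') := congrArg Subtype.val h
      rw [ConjClasses.mk_eq_mk_iff_isConj] at h1
      obtain ⟨s, hs⟩ := isConj_iff.1 h1
      have h2 : ι s * (g * ι u₀ * g⁻¹) * (ι s)⁻¹ = g' * ι u₀ * g'⁻¹ := by
        rw [← hcgs, ← hcgs, ← hs]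
        simp
      have hc : (g'⁻¹ * ι s * g) * ι u₀ = ι u₀ * (g'⁻¹ * ι s * g) := by
        have h3 : g'⁻¹ * (ι s * (g * ι u₀ * g⁻¹) * (ι s)⁻¹) * (ι s * g) = g'⁻¹ * (g' * ι u₀ * g'⁻¹) * (ι s * g) := by rw [h2]
        calc (g'⁻¹ * ι s * g) * ι u₀ = g'⁻¹ * (ι s * (g * ι u₀ * g⁻¹) * (ι s)⁻¹) * (ι s * g) := by group
          _ = g'⁻¹ * (g' * ι u₀ * g'⁻¹) * (ι s * g) := h3
          _ = ι u₀ * (g'⁻¹ * ι s * g) := by group
      have hmem : δ (g'⁻¹ * ι s * g) ∈ P := (hP _).2 ⟨_, hc, rfl⟩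
      rw [map_mul, map_mul, map_inv, hδι, mul_one] at hmem
      apply (QuotientGroup.eq).2
      have e : (δ g)⁻¹ * δ g' = ((δ g')⁻¹ * δ g)⁻¹ := by
        simp [mul_comm]
      rw [e]
      exact P.inv_mem hmem
    · intro h
      have h1 : (δ g)⁻¹ * δ g' ∈ P := (QuotientGroup.eq).1 h
      obtain ⟨c, hc, hcd⟩ := (hP _).1 h1
      have ht : g' * c⁻¹ * g⁻¹ ∈ ι.range := by
        rw [← hker, MonoidHom.mem_ker, map_mul, map_mul, map_inv, map_inv, hcd]
        simp [mul_comm]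
      obtain ⟨s, hs⟩ := ht
      apply Subtype.ext
      show ConjClasses.mk (cg g) = ConjClasses.mk (cg g')
      rw [ConjClasses.mk_eq_mk_iff_isConj, isConj_iff]
      refine ⟨s, hι ?_⟩
      rw [map_mul, map_mul, map_inv, hcgs, hcgs, hs]
      have hc' : c⁻¹ * ι u₀ * c = ι u₀ := by
        calc c⁻¹ * ι u₀ * c = c⁻¹ * (ι u₀ * c) := by group
          _ = c⁻¹ * (c * ι u₀) := by rw [hc]
          _ = ι u₀ := by group
      calc g' * c⁻¹ * g⁻¹ * (g * ι u₀ * g⁻¹) * (g' * c⁻¹ * g⁻¹)⁻¹ = g' * (c⁻¹ * ι u₀ * c) * g'⁻¹ := by group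
        _ = g' * ι u₀ * g'⁻¹ := by rw [hc']
  refine Nat.card_congr (Equiv.ofBijective (fun r => ψ (Function.surjInv hφ r)) ⟨?_, ?_⟩)
  · intro r r' hrr
    have := (key _ _).2 hrr
    rwa [Function.surjInv_eq hφ, Function.surjInv_eq hφ] at this
  · intro x
    obtain ⟨g, rfl⟩ := hψ x
    refine ⟨φ g, ?_⟩
    exact (key _ _).1 (Function.surjInv_eq hφ _)

end Cfsg.Agent.Lib.ClassCount
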