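import Cfsg.Agent.Lib.CoCenter
import Cfsg.Agent.Lib.CoT1b
import Cfsg.Agent.Lib.CoT1c

/-! The inner products of the minimal vectors with a fixed one, and the orbits of its stabilizer. -/

set_option autoImplicit false
set_option linter.unusedSimpArgs false
set_option linter.unusedVariables false
set_option linter.style.haveILetI false

namespace Cfsg.Agent.Lib.CoCensus

open Cfsg Cfsg.Agent.LeechBasic Cfsg.Agent.Lib.LeechAut Cfsg.Agent.Lib.GolayBasic Cfsg.Agent.Lib.GolayCode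
open Cfsg.Agent.Lib.CoLetter Cfsg.Agent.Lib.CoCert Cfsg.Agent.Lib.CoTree Cfsg.Agent.Lib.PChain Cfsg.Agent.Lib.CoL
open Cfsg.Agent.Lib.CoChain Cfsg.Agent.Lib.CoCenter

/-- the code of the second orbit representative -/
noncomputable def sb : ℕ := 686050623893461929710380787866028558
/-- the code of the third orbit representative -/
noncomputable def sc : ℕ := 686053159114795289240674611757597324

theorem sb_mem : vc sb ∈ leechLattice := mem_of_inLB (by decide +kernel)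
theorem sc_mem : vc sc ∈ leechLattice := mem_of_inLB (by decide +kernel)
/-- the second orbit representative -/
noncomputable def xb : LL := ⟨vc sb, sb_mem⟩
/-- the third orbit representative -/
noncomputable def xc : LL := ⟨vc sc, sc_mem⟩

theorem let1b : ∀ l, l < CoT1b.D.m → IsLetter H1 (CoT1b.D.dd l) (CoT1b.D.rr l) := by
  intro l hl
  have hl' : l < 2 := hl
  interval_cases l
  · exact letter_top c_m1 m1_mem
  · exact letter_top c_x1 x1_mem

theorem let1c : ∀ l, l < CoT1c.D.m → IsLetter H1 (CoT1c.D.dd l) (CoT1c.D.rr l) := by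
  intro l hl
  have hl' : l < 2 := hl
  interval_cases l
  · exact letter_top c_m1 m1_mem
  · exact letter_top c_x1 x1_mem

theorem reachB : ∀ i, i < 47104 → ∃ g ∈ H1, ((g • xb : LL) : GolayPt → ℤ) = vc (CoT1b.vT i) :=
  reachY (D := CoT1b.D) let1b xb rfl CoT1b.ok

theorem reachC : ∀ i, i < 46575 → ∃ g ∈ H1, ((g • xc : LL) : GolayPt → ℤ) = vc (CoT1c.vT i) ∨
    ((g • xc : LL) : GolayPt → ℤ) = - vc (CoT1c.vT i) :=
  reachF (D := CoT1c.D) let1c xc rfl CoT1c.ok

theorem reachA : ∀ i, i < 4600 → ∃ g ∈ H1, ((g • xw : LL) : GolayPt → ℤ) = vc (CoT1a.vT i) :=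
  reachY (D := CoT1a.D) let1a xw rfl CoT1a.ok

/-- the minimal vectors of given inner product with a vector -/
def Fg (x : LL) (d : ℤ) : Set (GolayPt → ℤ) := {w | w ∈ leechLattice ∧ sqNorm w = 32 ∧ dotInt (x : GolayPt → ℤ) w = d}

/-- the opposite of a vector is its image under `-1` -/
theorem neg_coe (v : LL) : ((-v : LL) : GolayPt → ℤ) = - v.1 := rfl

theorem co_neg (g : Co0) (v : LL) : g • (-v) = - (g • v) := by
  have h0 : -v = negCo • v := Subtype.ext (negCo_apply v).symm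
  have h1 : - (g • v) = negCo • (g • v) := Subtype.ext (negCo_apply _).symm
  rw [h0, h1, ← mul_smul, ← mul_smul, (Subgroup.mem_center_iff.1 negCo_central g)]

theorem dot_neg_right (x y : GolayPt → ℤ) : dotInt x (-y) = - dotInt x y := by
  unfold dotInt
  simp [Finset.sum_neg_distrib]

theorem norm_neg' (y : GolayPt → ℤ) : sqNorm (-y) = sqNorm y := by
  unfold sqNorm
  simp

theorem fg_orb {x z : LL} {H : Subgroup Co0} (hH : H ≤ MulAction.stabilizer Co0 x) (hz : sqNorm (z : GolayPt → ℤ) = 32) {d : ℤ}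
    (hd : dotInt (x : GolayPt → ℤ) (z : GolayPt → ℤ) = d) : Orb H z ⊆ Fg x d := by
  rintro y ⟨g, hg, rfl⟩
  refine ⟨(g • z).2, by rw [norm_smul]; exact hz, ?_⟩
  have h1 := dot_smul g x z
  have h2 : g • x = x := hH hg
  rw [h2] at h1
  rw [h1, hd]

theorem fg_neg {x z : LL} {H : Subgroup Co0} (hH : H ≤ MulAction.stabilizer Co0 x) (hz : sqNorm (z : GolayPt → ℤ) = 32) {d : ℤ}
    (hd : dotInt (x : GolayPt → ℤ) (z : GolayPt → ℤ) = d) {y : GolayPt → ℤ} (hy : y ∈ Orb H z) : -y ∈ Fg x (-d) := by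
  have h := fg_orb hH hz hd hy
  refine ⟨neg_mem h.1, by rw [norm_neg']; exact h.2.1, ?_⟩
  rw [dot_neg_right, h.2.2]

/-! ### The numbers -/

theorem vc_norm_dot (a b : ℕ) : dotInt (vc a) (vc b) = (dotN a b : ℤ) - 16 * sumF a - 16 * sumF b + 6144 := dot_vc a b

theorem norm_eq_dot (y : GolayPt → ℤ) : sqNorm y = dotInt y y := by
  unfold sqNorm dotInt
  exact Finset.sum_congr rfl fun i _ => sq _

theorem xw_norm : sqNorm (xw : GolayPt → ℤ) = 32 := by
  show sqNorm (vc sw) = 32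
  rw [norm_eq_dot, dot_vc]
  decide +kernel

theorem xb_norm : sqNorm (xb : GolayPt → ℤ) = 32 := by
  show sqNorm (vc sb) = 32
  rw [norm_eq_dot, dot_vc]
  decide +kernel

theorem xc_norm : sqNorm (xc : GolayPt → ℤ) = 32 := by
  show sqNorm (vc sc) = 32
  rw [norm_eq_dot, dot_vc]
  decide +kernel

theorem xw_dot : dotInt (x0 : GolayPt → ℤ) (xw : GolayPt → ℤ) = -16 := by
  show dotInt (vc s0) (vc sw) = -16
  rw [dot_vc]
  decide +kernel

theorem xb_dot : dotInt (x0 : GolayPt → ℤ) (xb : GolayPt → ℤ) = -8 := by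
  show dotInt (vc s0) (vc sb) = -8
  rw [dot_vc]
  decide +kernel

theorem xc_dot : dotInt (x0 : GolayPt → ℤ) (xc : GolayPt → ℤ) = 0 := by
  show dotInt (vc s0) (vc sc) = 0
  rw [dot_vc]
  decide +kernel

theorem x0_self : dotInt (x0 : GolayPt → ℤ) (x0 : GolayPt → ℤ) = 32 := by
  rw [← norm_eq_dot]
  exact x0_norm

/-! ### The fibres -/

theorem sum_fibers (D : Finset ℤ) : ∑ d ∈ D, (Fg x0 d).ncard ≤ 196560 := by
  classical
  let M := min_finite.toFinset
  have hM : ∀ w, w ∈ M ↔ w ∈ leechLattice ∧ sqNorm w = 32 := by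
    intro w
    simp only [M, Set.Finite.mem_toFinset]
    rfl
  have hcard : M.card = 196560 := by
    rw [← Set.ncard_eq_toFinset_card _ min_finite]
    exact min_ncard
  let f : (GolayPt → ℤ) → ℤ := fun w => dotInt (x0 : GolayPt → ℤ) w
  have h1 : ∀ d, Fg x0 d = ↑(M.filter (fun w => f w = d)) := by
    intro d
    ext w
    simp only [Fg, Set.mem_ofPred_eq, Finset.coe_filter, hM, f]
    tauto
  have h2 : ∀ d, (Fg x0 d).ncard = (M.filter (fun w => f w = d)).card := by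
    intro d
    rw [h1, Set.ncard_coe_finset]
  simp only [h2]
  have h3 := Finset.card_eq_sum_card_fiberwise (f := f) (s := M.filter (fun w => f w ∈ D)) (t := D) (by
    intro w hw
    have := (Finset.mem_filter.1 (Finset.mem_coe.1 hw)).2
    exact this)
  have h4 : ∀ d ∈ D, ((M.filter (fun w => f w ∈ D)).filter (fun w => f w = d)) = M.filter (fun w => f w = d) := by
    intro d hd
    ext w
    simp only [Finset.mem_filter]
    constructor
    · rintro ⟨⟨h5, -⟩, h6⟩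
      exact ⟨h5, h6⟩
    · rintro ⟨h5, h6⟩
      exact ⟨⟨h5, by rw [h6]; exact hd⟩, h6⟩
  rw [Finset.sum_congr rfl (fun d hd => by rw [h4 d hd])] at h3
  rw [← h3, ← hcard]
  exact Finset.card_filter_le _ _

theorem fg_finite (x : LL) (d : ℤ) : (Fg x d).Finite := by
  apply min_finite.subset
  rintro w ⟨h1, h2, -⟩
  exact ⟨h1, h2⟩

/-- the sets of the census -/
theorem sub_a : tset CoT1a.vT 4600 ⊆ Fg x0 (-16) := by
  rintro y ⟨i, hi, rfl⟩
  obtain ⟨g, hg, e⟩ := reachA i hi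
  exact fg_orb (le_refl _) xw_norm xw_dot ⟨g, hg, e⟩

theorem sub_a' : nset CoT1a.vT 4600 ⊆ Fg x0 16 := by
  rintro y ⟨i, hi, rfl⟩
  obtain ⟨g, hg, e⟩ := reachA i hi
  have := fg_neg (le_refl _) xw_norm xw_dot ⟨g, hg, e⟩
  simpa using this

theorem sub_b : tset CoT1b.vT 47104 ⊆ Fg x0 (-8) := by
  rintro y ⟨i, hi, rfl⟩
  obtain ⟨g, hg, e⟩ := reachB i hi
  exact fg_orb (le_refl _) xb_norm xb_dot ⟨g, hg, e⟩

theorem sub_b' : nset CoT1b.vT 47104 ⊆ Fg x0 8 := by
  rintro y ⟨i, hi, rfl⟩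
  obtain ⟨g, hg, e⟩ := reachB i hi
  have := fg_neg (le_refl _) xb_norm xb_dot ⟨g, hg, e⟩
  simpa using this

theorem sub_c : tset CoT1c.vT 46575 ∪ nset CoT1c.vT 46575 ⊆ Fg x0 0 := by
  rintro y (⟨i, hi, rfl⟩ | ⟨i, hi, rfl⟩)
  · obtain ⟨g, hg, e⟩ := reachC i hi
    rcases e with e | e
    · exact fg_orb (le_refl _) xc_norm xc_dot ⟨g, hg, e⟩
    · have := fg_neg (le_refl _) xc_norm xc_dot (y := - vc (CoT1c.vT i)) ⟨g, hg, e⟩
      simpa using this
  · obtain ⟨g, hg, e⟩ := reachC i hi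
    rcases e with e | e
    · have := fg_neg (le_refl _) xc_norm xc_dot (y := vc (CoT1c.vT i)) ⟨g, hg, e⟩
      simpa using this
    · exact fg_orb (le_refl _) xc_norm xc_dot ⟨g, hg, e⟩

theorem sub_x : ({x0.1} : Set (GolayPt → ℤ)) ⊆ Fg x0 32 := by
  rintro y rfl
  exact ⟨x0.2, x0_norm, x0_self⟩

theorem sub_nx : ({-x0.1} : Set (GolayPt → ℤ)) ⊆ Fg x0 (-32) := by
  rintro y rfl
  exact ⟨neg_mem x0.2, by rw [norm_neg']; exact x0_norm, by rw [dot_neg_right, x0_self]⟩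

theorem card_c : (tset CoT1c.vT 46575 ∪ nset CoT1c.vT 46575).ncard = 93150 := by
  rw [tab_ncard_pm CoT1c.tab (by decide +kernel)]

/-- the sizes of the fibres -/
theorem fibers : (Fg x0 (-16)).ncard = 4600 ∧ (Fg x0 16).ncard = 4600 ∧ (Fg x0 (-8)).ncard = 47104 ∧
    (Fg x0 8).ncard = 47104 ∧ (Fg x0 0).ncard = 93150 ∧ (Fg x0 32).ncard = 1 ∧ (Fg x0 (-32)).ncard = 1 := by
  have h0 := sum_fibers {-16, 16, -8, 8, 0, 32, -32}
  have ne : ∀ a b : ℤ, a ≠ b → a ∉ ({b} : Finset ℤ) := fun a b h => by simpa using h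
  rw [Finset.sum_insert (by decide), Finset.sum_insert (by decide), Finset.sum_insert (by decide),
    Finset.sum_insert (by decide), Finset.sum_insert (by decide), Finset.sum_insert (by decide),
    Finset.sum_singleton] at h0
  have h1 := Set.ncard_le_ncard sub_a (fg_finite x0 _)
  have h2 := Set.ncard_le_ncard sub_a' (fg_finite x0 _)
  have h3 := Set.ncard_le_ncard sub_b (fg_finite x0 _)
  have h4 := Set.ncard_le_ncard sub_b' (fg_finite x0 _)
  have h5 := Set.ncard_le_ncard sub_c (fg_finite x0 _)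
  have h6 := Set.ncard_le_ncard sub_x (fg_finite x0 _)
  have h7 := Set.ncard_le_ncard sub_nx (fg_finite x0 _)
  rw [CoT1a.tab.ncard] at h1
  rw [CoT1a.tab.ncard_neg] at h2
  rw [CoT1b.tab.ncard] at h3
  rw [CoT1b.tab.ncard_neg] at h4
  rw [card_c] at h5
  rw [Set.ncard_singleton] at h6 h7
  omega

theorem eq_a : Fg x0 (-16) = tset CoT1a.vT 4600 := by
  refine (Set.eq_of_subset_of_ncard_le sub_a ?_ (fg_finite x0 _)).symm
  rw [fibers.1, CoT1a.tab.ncard]

theorem eq_b : Fg x0 (-8) = tset CoT1b.vT 47104 := by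
  refine (Set.eq_of_subset_of_ncard_le sub_b ?_ (fg_finite x0 _)).symm
  rw [fibers.2.2.1, CoT1b.tab.ncard]

theorem eq_c : Fg x0 0 = tset CoT1c.vT 46575 ∪ nset CoT1c.vT 46575 := by
  refine (Set.eq_of_subset_of_ncard_le sub_c ?_ (fg_finite x0 _)).symm
  rw [fibers.2.2.2.2.1, card_c]

/-! ### Moving the base vector -/

theorem fg_smul (g : Co0) (x : LL) (d : ℤ) : (Fg (g • x) d).ncard = (Fg x d).ncard := by
  have h1 : Fg x d = Subtype.val '' {w : LL | w.1 ∈ Fg x d} := by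
    ext y
    constructor
    · intro hy
      exact ⟨⟨y, hy.1⟩, hy, rfl⟩
    · rintro ⟨w, hw, rfl⟩
      exact hw
  have h2 : Fg (g • x) d = (fun w : LL => ((g • w : LL) : GolayPt → ℤ)) '' {w : LL | w.1 ∈ Fg x d} := by
    ext y
    constructor
    · rintro ⟨h3, h4, h5⟩
      refine ⟨g⁻¹ • ⟨y, h3⟩, ⟨(g⁻¹ • (⟨y, h3⟩ : LL)).2, ?_, ?_⟩, ?_⟩
      · rw [norm_smul]
        exact h4
      · have h6 := dot_smul g x (g⁻¹ • (⟨y, h3⟩ : LL))
        rw [smul_inv_smul] at h6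
        rw [← h6]
        exact h5
      · show ((g • g⁻¹ • (⟨y, h3⟩ : LL) : LL) : GolayPt → ℤ) = y
        rw [smul_inv_smul]
    · rintro ⟨w, ⟨h3, h4, h5⟩, rfl⟩
      refine ⟨(g • w).2, ?_, ?_⟩
      · rw [norm_smul]
        exact h4
      · rw [dot_smul]
        exact h5
  rw [h2, Set.ncard_image_of_injective]
  · conv_rhs => rw [h1]
    rw [Set.ncard_image_of_injective _ Subtype.val_injective]
  · intro a b e
    exact smul_left_cancel g (Subtype.ext e)

/-- the census -/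
theorem census (v : LL) (hv : sqNorm (v : GolayPt → ℤ) = 32) :
    (Fg v (-16)).ncard = 4600 ∧ (Fg v (-8)).ncard = 47104 ∧ (Fg v 0).ncard = 93150 := by
  obtain ⟨g, rfl⟩ := exists_x0 v hv
  rw [fg_smul, fg_smul, fg_smul]
  exact ⟨fibers.1, fibers.2.2.1, fibers.2.2.2.2.1⟩

theorem mem_fg {x : LL} {w : LL} {d : ℤ} (h1 : sqNorm (w : GolayPt → ℤ) = 32) (h2 : dotInt (x : GolayPt → ℤ) (w : GolayPt → ℤ) = d) :
    w.1 ∈ Fg x d := ⟨w.2, h1, h2⟩

theorem fg_inv {g : Co0} {w : LL} {d : ℤ} (h1 : sqNorm (w : GolayPt → ℤ) = 32)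
    (h2 : dotInt (((g • x0 : LL)) : GolayPt → ℤ) (w : GolayPt → ℤ) = d) : (g⁻¹ • w).1 ∈ Fg x0 d := by
  refine ⟨(g⁻¹ • w).2, by rw [norm_smul]; exact h1, ?_⟩
  have h3 := dot_smul g x0 (g⁻¹ • w)
  rw [smul_inv_smul] at h3
  rw [← h3]
  exact h2

/-- transitivity from a description of a fibre -/
theorem trans_of_sub {d : ℤ} {z : LL} (hF : Fg x0 d ⊆ Orb H1 z) (v w w' : LL) (hv : sqNorm (v : GolayPt → ℤ) = 32)
    (hw : sqNorm (w : GolayPt → ℤ) = 32) (hw' : sqNorm (w' : GolayPt → ℤ) = 32)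
    (hd : dotInt (v : GolayPt → ℤ) (w : GolayPt → ℤ) = d) (hd' : dotInt (v : GolayPt → ℤ) (w' : GolayPt → ℤ) = d) :
    ∃ g : Co0, g • v = v ∧ g • w = w' := by
  obtain ⟨k, rfl⟩ := exists_x0 v hv
  obtain ⟨g1, hg1, e1⟩ := hF (fg_inv hw hd)
  obtain ⟨g2, hg2, e2⟩ := hF (fg_inv hw' hd')
  have e1' : g1 • z = k⁻¹ • w := Subtype.ext e1
  have e2' : g2 • z = k⁻¹ • w' := Subtype.ext e2
  have hg1' : g1 • x0 = x0 := hg1
  have hg2' : g2 • x0 = x0 := hg2
  refine ⟨k * g2 * g1⁻¹ * k⁻¹, ?_, ?_⟩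
  · simp only [mul_smul, inv_smul_smul]
    rw [inv_smul_eq_iff.2 hg1'.symm, hg2']
  · simp only [mul_smul]
    rw [← e1', inv_smul_smul, e2', smul_inv_smul]

theorem sub_orb_a : Fg x0 (-16) ⊆ Orb H1 xw := by
  rw [eq_a]
  rintro y ⟨i, hi, rfl⟩
  obtain ⟨g, hg, e⟩ := reachA i hi
  exact ⟨g, hg, e⟩

theorem sub_orb_b : Fg x0 (-8) ⊆ Orb H1 xb := by
  rw [eq_b]
  rintro y ⟨i, hi, rfl⟩
  obtain ⟨g, hg, e⟩ := reachB i hi
  exact ⟨g, hg, e⟩

/-- the orthogonal vectors up to sign -/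
theorem sub_orb_c {w : LL} (hw : w.1 ∈ Fg x0 0) : ∃ g ∈ H1, g • xc = w ∨ g • xc = - w := by
  rw [eq_c] at hw
  rcases hw with ⟨i, hi, e⟩ | ⟨i, hi, e⟩
  · obtain ⟨g, hg, e'⟩ := reachC i hi
    refine ⟨g, hg, ?_⟩
    rcases e' with e' | e'
    · left
      apply Subtype.ext
      rw [e', e]
    · right
      apply Subtype.ext
      rw [e', neg_coe, e]
  · obtain ⟨g, hg, e'⟩ := reachC i hi
    refine ⟨g, hg, ?_⟩
    rcases e' with e' | e'
    · right
      apply Subtype.ext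
      rw [e', neg_coe, e]
      simp
    · left
      apply Subtype.ext
      rw [e', e]

theorem trans_c (v w w' : LL) (hv : sqNorm (v : GolayPt → ℤ) = 32)
    (hw : sqNorm (w : GolayPt → ℤ) = 32) (hw' : sqNorm (w' : GolayPt → ℤ) = 32)
    (hd : dotInt (v : GolayPt → ℤ) (w : GolayPt → ℤ) = 0) (hd' : dotInt (v : GolayPt → ℤ) (w' : GolayPt → ℤ) = 0) :
    ∃ g : Co0, g • v = v ∧ (g • w = w' ∨ g • w = -w') := by
  obtain ⟨k, rfl⟩ := exists_x0 v hv
  obtain ⟨g1, hg1, e1⟩ := sub_orb_c (fg_inv hw hd)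
  obtain ⟨g2, hg2, e2⟩ := sub_orb_c (fg_inv hw' hd')
  have hg1' : g1 • x0 = x0 := hg1
  have hg2' : g2 • x0 = x0 := hg2
  refine ⟨k * g2 * g1⁻¹ * k⁻¹, ?_, ?_⟩
  · simp only [mul_smul, inv_smul_smul]
    rw [inv_smul_eq_iff.2 hg1'.symm, hg2']
  · simp only [mul_smul]
    have key : g1⁻¹ • k⁻¹ • w = xc ∨ g1⁻¹ • k⁻¹ • w = - xc := by
      rcases e1 with e1 | e1
      · left
        rw [← e1, inv_smul_smul]
      · right
        have : k⁻¹ • w = - (g1 • xc) := by rw [e1, neg_neg]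
        rw [this, co_neg, inv_smul_smul]
    have key2 : g2 • xc = k⁻¹ • w' ∨ g2 • xc = - (k⁻¹ • w') := e2
    have fin : ∀ y : LL, (y = k⁻¹ • w' ∨ y = -(k⁻¹ • w')) → (k • y = w' ∨ k • y = -w') := by
      rintro y (rfl | rfl)
      · left
        rw [smul_inv_smul]
      · right
        rw [co_neg, smul_inv_smul]
    rcases key with h | h
    · rw [h]
      exact fin _ key2
    · rw [h, co_neg]
      apply fin
      rcases key2 with h2 | h2
      · right
        rw [h2]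
      · left
        rw [h2, neg_neg]

end Cfsg.Agent.Lib.CoCensus
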