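import Cfsg.Agent.Lib.CoChain
import Cfsg.Agent.Lib.GolayFacts

/-! The centre of the automorphism group of the lattice. -/

set_option autoImplicit false
set_option linter.unusedSimpArgs false
set_option linter.unusedVariables false
set_option linter.style.haveILetI false

namespace Cfsg.Agent.Lib.CoCenter

open Cfsg Cfsg.Agent.LeechBasic Cfsg.Agent.Lib.LeechAut Cfsg.Agent.Lib.GolayBasic Cfsg.Agent.Lib.GolayCode
open Cfsg.Agent.Lib.CoChain Cfsg.Agent.Lib.CoLetter

/-- code words separate the points -/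
theorem sep_check : ∀ i, i < 24 → ∀ j, j < 24 → i ≠ j → ∃ k, k < 24 ∧ tb (genMask k) i ≠ tb (genMask k) j := by
  decide +kernel

theorem cd_gen {k : ℕ} (hk : k < 24) : Cd (setOf (genMask k)) :=
  (setOf_mem_supports (gen_inCode hk).1).2 (gen_inCode hk)

theorem exists_sep {i j : GolayPt} (h : i ≠ j) : ∃ c : Finset GolayPt, Cd c ∧ j ∈ c ∧ i ∉ c := by
  obtain ⟨k, hk, hne⟩ := sep_check (idx i) (idx_lt i) (idx j) (idx_lt j) (fun e => h (idx_injective e))
  rw [tb_eq, tb_eq] at hne
  by_cases hj : (genMask k).testBit (idx j) = true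
  · refine ⟨setOf (genMask k), cd_gen hk, by simpa using hj, ?_⟩
    simp only [mem_setOf]
    intro hi
    exact hne (hi.trans hj.symm)
  · have hi : (genMask k).testBit (idx i) = true := by
      by_contra hi
      apply hne
      simp only [Bool.not_eq_true] at hi hj
      rw [hi, hj]
    refine ⟨(setOf (genMask k))ᶜ, cd_compl (cd_gen hk), ?_, ?_⟩
    · simpa using hj
    · simpa using hi

theorem exists_perm (p q : GolayPt) : ∃ σ : Equiv.Perm GolayPt, σ ∈ M24 ∧ σ p = q := by
  haveI := Cfsg.Agent.Lib.GolayFacts.fiveTransitive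
  haveI : MulAction.IsMultiplyPretransitive M24 GolayPt 1 :=
    MulAction.isMultiplyPretransitive_of_le (n := 5) (by norm_num) (by
      rw [Nat.card_eq_fintype_card]
      decide)
  haveI : MulAction.IsPretransitive M24 GolayPt := MulAction.is_one_pretransitive_iff.1 this
  obtain ⟨g, hg⟩ := MulAction.exists_smul_eq M24 p q
  exact ⟨g.1, g.2, hg⟩

/-- a sign change -/
noncomputable def tc {c : Finset GolayPt} (hc : Cd c) : Co0 := monoEl (Subgroup.one_mem _) hc

theorem tc_apply {c : Finset GolayPt} (hc : Cd c) (v : LL) (j : GolayPt) :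
    ((tc hc • v : LL) : GolayPt → ℤ) j = if j ∈ c then - v.1 j else v.1 j := rfl

theorem central_single {z : Co0} (hz : z ∈ Subgroup.center Co0) (i : GolayPt) :
    ∃ s : ℤ, (s = 8 ∨ s = -8) ∧ ((z • sv i 8 (Or.inl rfl) : LL) : GolayPt → ℤ) = Pi.single i s := by
  set y : LL := z • sv i 8 (Or.inl rfl) with hy
  have h0 : ∀ j, j ≠ i → y.1 j = 0 := by
    intro j hj
    obtain ⟨c, hc, hjc, hic⟩ := exists_sep (Ne.symm hj)
    have h1 : tc hc • sv i 8 (Or.inl rfl) = sv i 8 (Or.inl rfl) := by
      apply Subtype.ext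
      funext k
      rw [tc_apply]
      by_cases hk : k = i
      · subst hk
        rw [if_neg hic]
      · have : (sv i 8 (Or.inl rfl)).1 k = 0 := Pi.single_eq_of_ne hk _
        rw [this]
        simp
    have h2 : tc hc • y = y := by
      rw [hy, ← mul_smul, (Subgroup.mem_center_iff.1 hz (tc hc)), mul_smul, h1]
    have h3 := congrFun (congrArg Subtype.val h2) j
    rw [tc_apply, if_pos hjc] at h3
    omega
  have h1 : sqNorm y.1 = 64 := by
    rw [hy]
    rw [norm_smul]
    show sqNorm (Pi.single i (8 : ℤ)) = 64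
    rw [sqNorm_single]
    norm_num
  have h2 : (y.1 i) ^ 2 = 64 := by
    rw [← h1]
    unfold sqNorm
    rw [Finset.sum_eq_single i]
    · intro j _ hj
      rw [h0 j hj]
      norm_num
    · simp
  have h3 : y.1 i = 8 ∨ y.1 i = -8 := by
    have h4 : (y.1 i - 8) * (y.1 i + 8) = 0 := by nlinarith
    rcases mul_eq_zero.1 h4 with h5 | h5
    · left; omega
    · right; omega
  refine ⟨y.1 i, h3, ?_⟩
  funext j
  by_cases hj : j = i
  · subst hj
    simp
  · rw [h0 j hj, Pi.single_eq_of_ne hj]

theorem signs_const {z : Co0} (hz : z ∈ Subgroup.center Co0) :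
    ∃ s : ℤ, (s = 8 ∨ s = -8) ∧ ∀ i, ((z • sv i 8 (Or.inl rfl) : LL) : GolayPt → ℤ) = Pi.single i s := by
  obtain ⟨s, hs, h0⟩ := central_single hz a0
  refine ⟨s, hs, fun i => ?_⟩
  obtain ⟨σ, hσ⟩ := exists_perm a0 i
  have h1 : ∀ (t : ℤ) (ht : t = 8 ∨ t = -8), monoEl hσ.1 cd_empty • sv a0 t ht = sv i t ht := by
    intro t ht
    apply Subtype.ext
    show signedPerm σ ∅ (Pi.single a0 t) = Pi.single i t
    rw [signed_single, hσ.2]
    simp
  have h2 : z • sv i 8 (Or.inl rfl) = monoEl hσ.1 cd_empty • z • sv a0 8 (Or.inl rfl) := by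
    rw [← h1 8 (Or.inl rfl), ← mul_smul, ← mul_smul, (Subgroup.mem_center_iff.1 hz _)]
  have h3 : z • sv a0 8 (Or.inl rfl) = sv a0 s hs := Subtype.ext h0
  rw [h3, h1] at h2
  rw [h2]
  rfl

theorem eq_one_of_fix {g : Co0} (h : ∀ i, g • sv i 8 (Or.inl rfl) = sv i 8 (Or.inl rfl)) : g = 1 := by
  let φ : LL →+ LL := AddMonoidHom.mk' (fun v => g • v) (fun a b => co_add g a b)
  have h1 : ∀ v : LL, (8 : ℕ) • v = ∑ i, (v.1 i) • sv i 8 (Or.inl rfl) := by
    intro v
    apply Subtype.ext
    funext j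
    have e1 : (((8 : ℕ) • v : LL) : GolayPt → ℤ) j = 8 * v.1 j := by
      show (8 : ℕ) • (v.1 j) = _
      simp
    have e2 : ((∑ i, (v.1 i) • sv i 8 (Or.inl rfl) : LL) : GolayPt → ℤ) j = ∑ i, (v.1 i) * (Pi.single i (8 : ℤ) : GolayPt → ℤ) j := by
      rw [AddSubgroup.val_finsetSum, Finset.sum_apply]
      exact Finset.sum_congr rfl fun i _ => by simp [sv]
    rw [e1, e2, Finset.sum_eq_single j]
    · simp
      ring
    · intro i _ hi
      rw [Pi.single_eq_of_ne (Ne.symm hi)]
      simp
    · simp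
  have h2 : ∀ v : LL, φ ((8 : ℕ) • v) = (8 : ℕ) • v := by
    intro v
    rw [h1, map_sum]
    refine Finset.sum_congr rfl fun i _ => ?_
    rw [map_zsmul]
    exact congrArg _ (h i)
  apply Subtype.ext
  apply Equiv.ext
  intro v
  have h3 := h2 v
  rw [map_nsmul] at h3
  apply Subtype.ext
  funext j
  have h4 : (8 : ℕ) • ((φ v).1 j) = (8 : ℕ) • (v.1 j) := congrFun (congrArg Subtype.val h3) j
  have h5 : (8 : ℤ) * (φ v).1 j = 8 * v.1 j := by simpa using h4
  exact mul_left_cancel₀ (by norm_num) h5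

theorem negCo_central : negCo ∈ Subgroup.center Co0 := by
  rw [Subgroup.mem_center_iff]
  intro g
  apply Subtype.ext
  apply Equiv.ext
  intro v
  show g • negCo • v = negCo • g • v
  have h1 : g • v + g • (negCo • v) = 0 := by
    have h2 : g • (v + negCo • v) = g • v + g • (negCo • v) := co_add g _ _
    rw [← h2]
    have h3 : v + negCo • v = 0 := by
      apply Subtype.ext
      show v.1 + ((negCo • v : LL) : GolayPt → ℤ) = 0
      rw [negCo_apply]
      simp
    rw [h3]
    have h1 : g • ((0 : LL) + 0) = g • (0 : LL) + g • (0 : LL) := co_add g _ _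
    rw [add_zero] at h1
    exact (left_eq_add.1 h1)
  apply Subtype.ext
  rw [negCo_apply]
  have h2 := congrArg Subtype.val h1
  have h3 : ((g • v : LL) : GolayPt → ℤ) + ((g • (negCo • v) : LL) : GolayPt → ℤ) = 0 := h2
  exact (neg_eq_of_add_eq_zero_right h3).symm

theorem negCo_ne : negCo ≠ 1 := by
  intro h
  have h1 := negCo_apply x0
  rw [h, one_smul] at h1
  have h2 := congrFun h1 a0
  have h3 : x0.1 a0 = (fld s0 0 : ℤ) - 16 := by
    show (fld s0 (idx a0) : ℤ) - 16 = _
    rw [idx_ptOf (by norm_num)]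
  simp only [Pi.neg_apply] at h2
  have h4 : (fld s0 0 : ℤ) - 16 = 4 := by decide +kernel
  omega

theorem center_eq {z : Co0} (hz : z ∈ Subgroup.center Co0) : z = 1 ∨ z = negCo := by
  obtain ⟨s, hs, h⟩ := signs_const hz
  rcases hs with rfl | rfl
  · left
    apply eq_one_of_fix
    intro i
    exact Subtype.ext (h i)
  · right
    have : negCo⁻¹ * z = 1 := by
      apply eq_one_of_fix
      intro i
      apply Subtype.ext
      rw [mul_smul]
      have h1 : z • sv i 8 (Or.inl rfl) = sv i (-8) (Or.inr rfl) := Subtype.ext (h i)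
      rw [h1]
      have h2 : sv i (-8) (Or.inr rfl) = negCo • sv i 8 (Or.inl rfl) := by
        apply Subtype.ext
        rw [negCo_apply]
        funext j
        by_cases hj : j = i
        · subst hj
          simp [sv]
        · simp [sv, Pi.single_eq_of_ne hj]
      rw [h2, inv_smul_smul]
    exact (inv_mul_eq_one.1 this).symm

/-- the order of the centre -/
theorem card_center : Nat.card (Subgroup.center Co0) = 2 := by
  rw [Nat.card_eq_two_iff]
  refine ⟨1, ⟨negCo, negCo_central⟩, ?_, ?_⟩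
  · intro h
    exact negCo_ne (congrArg Subtype.val h).symm
  · ext z
    simp only [Set.mem_insert_iff, Set.mem_singleton_iff, Set.mem_univ, iff_true]
    rcases center_eq z.2 with h | h
    · left
      exact Subtype.ext h
    · right
      exact Subtype.ext h

end Cfsg.Agent.Lib.CoCenter
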