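import Cfsg.Agent.Lib.CoLetter
import Cfsg.Agent.Lib.PChain

/-! Numeric checks for the letters of the lattice: membership, duality and norms. -/

set_option autoImplicit false
set_option linter.unusedSimpArgs false
set_option linter.unusedVariables false
set_option linter.style.haveILetI false

namespace Cfsg.Agent.Lib.CoCert

open Cfsg Cfsg.Agent.LeechBasic Cfsg.Agent.Lib.LeechAut Cfsg.Agent.Lib.GolayBasic Cfsg.Agent.Lib.GolayCode
open Cfsg.Agent.Lib.CoLetter

/-- a kernel friendly sum -/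
noncomputable def sumN (f : ℕ → ℕ) (n : ℕ) : ℕ :=
  Nat.rec (motive := fun _ => ℕ) 0 (fun k ih => Nat.add (f k) ih) n

theorem sumN_zero (f : ℕ → ℕ) : sumN f 0 = 0 := rfl
theorem sumN_succ (f : ℕ → ℕ) (n : ℕ) : sumN f (n + 1) = f n + sumN f n := rfl

theorem sumN_eq (f : ℕ → ℕ) (n : ℕ) : sumN f n = ∑ j ∈ Finset.range n, f j := by
  induction n with
  | zero => rfl
  | succ n ih => rw [sumN_succ, Finset.sum_range_succ, ih, add_comm]

/-- the points as the first integers -/
def idxEquiv : GolayPt ≃ Fin 24 where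
  toFun p := ⟨idx p, idx_lt p⟩
  invFun j := ptOf j
  left_inv p := ptOf_idx p
  right_inv j := Fin.ext (idx_ptOf j.2)

theorem sum_pt (f : ℕ → ℤ) : ∑ p : GolayPt, f (idx p) = ∑ j ∈ Finset.range 24, f j := by
  rw [← Fin.sum_univ_eq_sum_range]
  exact Equiv.sum_comp idxEquiv (fun j : Fin 24 => f j)

/-- the sum of the fields -/
noncomputable def sumF (n : ℕ) : ℕ := sumN (fld n) 24
/-- the product of the fields -/
noncomputable def dotN (a b : ℕ) : ℕ := sumN (fun j => Nat.mul (fld a j) (fld b j)) 24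

theorem sum_vc (n : ℕ) : ∑ p, vc n p = (sumF n : ℤ) - 384 := by
  have h := sum_pt (fun j => (fld n j : ℤ) - 16)
  have h' : ∑ p, vc n p = ∑ p : GolayPt, (fun j => (fld n j : ℤ) - 16) (idx p) := rfl
  rw [h', h, sumF, sumN_eq, Finset.sum_sub_distrib]
  push_cast
  simp

theorem dot_vc (a b : ℕ) : dotInt (vc a) (vc b) = (dotN a b : ℤ) - 16 * sumF a - 16 * sumF b + 6144 := by
  have h := sum_pt (fun j => ((fld a j : ℤ) - 16) * ((fld b j : ℤ) - 16))
  have h' : dotInt (vc a) (vc b) = ∑ p : GolayPt, (fun j => ((fld a j : ℤ) - 16) * ((fld b j : ℤ) - 16)) (idx p) := rfl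
  rw [h', h, dotN, sumN_eq, sumF, sumF, sumN_eq, sumN_eq]
  push_cast
  have h2 : ∀ j, ((fld a j : ℤ) - 16) * ((fld b j : ℤ) - 16) =
      (Nat.mul (fld a j) (fld b j) : ℤ) - 16 * fld a j - 16 * fld b j + 256 := by
    intro j
    push_cast
    show _ = ((fld a j * fld b j : ℕ) : ℤ) - _ - _ + _
    push_cast
    ring
  simp only [h2, Finset.sum_add_distrib, Finset.sum_sub_distrib, Finset.mul_sum]
  simp

/-! ### Membership -/

/-- the candidate word of a code -/
noncomputable def mkA (n m : ℕ) : ℕ :=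
  sumN (fun j => Nat.mul (Nat.div (Nat.mod (Nat.sub (Nat.add (fld n j) 4) m) 4) 2) (Nat.pow 2 j)) 24

/-- the check at a coordinate -/
noncomputable def coordB (n m A j : ℕ) : Bool :=
  Nat.beq (Nat.mod (fld n j) 4) (Nat.mod (Nat.add m (Nat.mul 2 (Nat.land (Nat.shiftRight A j) 1))) 4)

/-- the membership test -/
noncomputable def inLB (n : ℕ) : Bool :=
  and (inCodeB (mkA n (Nat.mod (fld n 0) 2)))
    (and (Nat.beq (Nat.mod (sumF n) 8) (Nat.mod (Nat.mul 4 (Nat.mod (fld n 0) 2)) 8))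
      (allBelow (coordB n (Nat.mod (fld n 0) 2) (mkA n (Nat.mod (fld n 0) 2))) 24))

theorem mem_of_inLB {n : ℕ} (h : inLB n = true) : vc n ∈ leechLattice := by
  simp only [inLB, Bool.and_eq_true] at h
  obtain ⟨h1, h2, h3⟩ := h
  have hA := inCodeB_iff.1 h1
  set m := Nat.mod (fld n 0) 2 with hm
  set A := mkA n m with hAdef
  rw [mem_lattice]
  refine mk (vc n) (m : ℤ) (setOf A) ((setOf_mem_supports hA.1).2 hA) ?_ ?_
  · intro p
    have h4 := allBelow_spec h3 (idx p) (idx_lt p)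
    have h5 : (fld n (idx p)) % 4 = (m + 2 * (Nat.land (Nat.shiftRight A (idx p)) 1)) % 4 := Nat.eq_of_beq_eq_true h4
    have h6 : ind (setOf A) p = ((Nat.land (Nat.shiftRight A (idx p)) 1 : ℕ) : ℤ) := by
      have h7 : Nat.land (Nat.shiftRight A (idx p)) 1 = (A >>> (idx p)) % 2 := by
        show (A >>> (idx p)) &&& 1 = _
        exact Nat.and_one_is_mod _
      have h8 : (p ∈ setOf A) ↔ Nat.land (Nat.shiftRight A (idx p)) 1 = 1 := by
        rw [mem_setOf, ← tb_eq]
        unfold tb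
        simp
      unfold ind
      by_cases h9 : p ∈ setOf A
      · rw [if_pos h9, h8.1 h9]
        rfl
      · rw [if_neg h9]
        have : Nat.land (Nat.shiftRight A (idx p)) 1 = 0 := by
          have h10 := mt h8.2 h9
          omega
        rw [this]
        rfl
    rw [h6]
    show ((fld n (idx p) : ℤ) - 16) ≡ _ [ZMOD 4]
    unfold Int.ModEq
    omega
  · rw [sum_vc]
    have h5 : (sumF n) % 8 = (4 * m) % 8 := Nat.eq_of_beq_eq_true h2
    unfold Int.ModEq
    omega

/-! ### The basis -/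

/-- the duality test at a pair of coordinates -/
noncomputable def dualB (bC cC : ℕ → ℕ) (i j : ℕ) : Bool :=
  Nat.beq
    (Nat.add (sumN (fun k => Nat.mul (fld (bC k) i) (fld (cC k) j)) 24) 6144)
    (Nat.add (Bool.rec (motive := fun _ => ℕ) 0 8 (Nat.beq i j))
      (Nat.add (Nat.mul 16 (sumN (fun k => fld (bC k) i) 24)) (Nat.mul 16 (sumN (fun k => fld (cC k) j) 24))))

/-- the test of a basis -/
noncomputable def basisB (bC cC : ℕ → ℕ) : Bool :=
  and (allBelow (fun k => and (inLB (bC k)) (inLB (cC k))) 24)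
    (allBelow (fun i => allBelow (dualB bC cC i) 24) 24)

theorem basis_of {bC cC : ℕ → ℕ} (h : basisB bC cC = true) : LBasis bC cC := by
  simp only [basisB, Bool.and_eq_true] at h
  obtain ⟨h1, h2⟩ := h
  have h3 := allBelow_spec h1
  simp only [Bool.and_eq_true] at h3
  refine ⟨fun k hk => mem_of_inLB (h3 k hk).1, fun k hk => mem_of_inLB (h3 k hk).2, ?_⟩
  intro p q
  have h4 := allBelow_spec (allBelow_spec h2 (idx p) (idx_lt p)) (idx q) (idx_lt q)
  unfold dualB at h4
  have h5 := Nat.eq_of_beq_eq_true h4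
  have h6 : (∑ k : Fin 24, vc (bC k) p * vc (cC k) q) =
      ∑ k ∈ Finset.range 24, (((fld (bC k) (idx p) : ℤ) - 16) * ((fld (cC k) (idx q) : ℤ) - 16)) := by
    rw [← Fin.sum_univ_eq_sum_range]
    rfl
  rw [h6]
  have h7 : ∀ k, (((fld (bC k) (idx p) : ℤ) - 16) * ((fld (cC k) (idx q) : ℤ) - 16)) =
      ((Nat.mul (fld (bC k) (idx p)) (fld (cC k) (idx q)) : ℕ) : ℤ) - 16 * fld (bC k) (idx p) - 16 * fld (cC k) (idx q) + 256 := by
    intro k
    show _ = ((fld (bC k) (idx p) * fld (cC k) (idx q) : ℕ) : ℤ) - _ - _ + _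
    push_cast
    ring
  simp only [h7, Finset.sum_add_distrib, Finset.sum_sub_distrib]
  simp only [← Finset.mul_sum]
  have h8 : (∑ k ∈ Finset.range 24, ((Nat.mul (fld (bC k) (idx p)) (fld (cC k) (idx q)) : ℕ) : ℤ)) =
      ((sumN (fun k => Nat.mul (fld (bC k) (idx p)) (fld (cC k) (idx q))) 24 : ℕ) : ℤ) := by
    rw [sumN_eq]; push_cast; rfl
  have h9 : (∑ k ∈ Finset.range 24, (fld (bC k) (idx p) : ℤ)) =
      ((sumN (fun k => fld (bC k) (idx p)) 24 : ℕ) : ℤ) := by
    rw [sumN_eq]; push_cast; rfl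
  have h10 : (∑ k ∈ Finset.range 24, (fld (cC k) (idx q) : ℤ)) =
      ((sumN (fun k => fld (cC k) (idx q)) 24 : ℕ) : ℤ) := by
    rw [sumN_eq]; push_cast; rfl
  rw [h8, h9, h10]
  simp only [Finset.sum_const, Finset.card_range, nsmul_eq_mul]
  have h11 : ((sumN (fun k => Nat.mul (fld (bC k) (idx p)) (fld (cC k) (idx q))) 24 + 6144 : ℕ) : ℤ) =
      (((Bool.rec (motive := fun _ => ℕ) 0 8 (Nat.beq (idx p) (idx q)) : ℕ) +
        ((16 * sumN (fun k => fld (bC k) (idx p)) 24 + 16 * sumN (fun k => fld (cC k) (idx q)) 24 : ℕ)) : ℕ) : ℤ) := by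
    exact_mod_cast h5
  push_cast at h11
  by_cases hpq : p = q
  · subst hpq
    have h12 : Nat.beq (idx p) (idx p) = true := Nat.beq_refl _
    rw [h12] at h11
    rw [if_pos rfl]
    simp only at h11
    push_cast at h11 ⊢
    linarith
  · have h12 : Nat.beq (idx p) (idx q) = false := by
      rw [Bool.eq_false_iff]
      intro h
      exact hpq (idx_injective (Nat.eq_of_beq_eq_true h))
    rw [h12] at h11
    rw [if_neg hpq]
    simp only at h11
    push_cast at h11 ⊢
    linarith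

/-! ### Letters -/

/-- the test of a list of rows -/
noncomputable def rowsB (rs : List (List ℕ)) : Bool :=
  and (Nat.beq rs.length 24) (rs.all (fun r => r.all (fun it => Nat.blt (itJ it) 24)))

theorem rows_of {rs : List (List ℕ)} (h : rowsB rs = true) : RowsOK rs := by
  simp only [rowsB, Bool.and_eq_true, List.all_eq_true] at h
  refine ⟨Nat.eq_of_beq_eq_true h.1, fun r hr it hit => ?_⟩
  have := h.2 r hr it hit
  simpa [Nat.blt_eq] using this

/-- the test of a letter -/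
noncomputable def letterB (bC : ℕ → ℕ) (d d' : ℕ) (rs rs' : List (List ℕ)) (yC zC : ℕ → ℕ) : Bool :=
  and (rowsB rs) (and (rowsB rs') (and (Nat.blt 0 d) (and (Nat.blt 0 d')
    (and (allBelow (fun k => and (actY d rs (bC k) (yC k)) (and (actY d' rs' (bC k) (zC k))
      (and (actY d' rs' (yC k) (bC k)) (and (actY d rs (zC k) (bC k))
        (and (inLB (yC k)) (inLB (zC k))))))) 24)
    (allBelow (fun k => allBelow (fun l =>
      Nat.beq (Nat.add (dotN (yC k) (yC l)) (Nat.add (Nat.mul 16 (sumF (bC k))) (Nat.mul 16 (sumF (bC l)))))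
        (Nat.add (dotN (bC k) (bC l)) (Nat.add (Nat.mul 16 (sumF (yC k))) (Nat.mul 16 (sumF (yC l)))))) 24) 24)))))

theorem cert_of {bC cC : ℕ → ℕ} {d d' : ℕ} {rs rs' : List (List ℕ)} {yC zC : ℕ → ℕ}
    (hB : basisB bC cC = true) (h : letterB bC d d' rs rs' yC zC = true) : LCert bC cC d d' rs rs' yC zC := by
  simp only [letterB, Bool.and_eq_true] at h
  obtain ⟨h1, h2, h3, h4, h5, h6⟩ := h
  have h7 := allBelow_spec h5
  simp only [Bool.and_eq_true] at h7
  refine ⟨basis_of hB, rows_of h1, rows_of h2, by simpa [Nat.blt_eq] using h3, by simpa [Nat.blt_eq] using h4,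
    fun k hk => (h7 k hk).1, fun k hk => (h7 k hk).2.1, fun k hk => (h7 k hk).2.2.1,
    fun k hk => (h7 k hk).2.2.2.1, fun k hk => mem_of_inLB (h7 k hk).2.2.2.2.1,
    fun k hk => mem_of_inLB (h7 k hk).2.2.2.2.2, ?_⟩
  intro k l
  have h8 := allBelow_spec (allBelow_spec h6 k k.2) l l.2
  have h9 := Nat.eq_of_beq_eq_true h8
  rw [dot_vc, dot_vc]
  have h10 : ((dotN (yC k) (yC l) + (16 * sumF (bC k) + 16 * sumF (bC l)) : ℕ) : ℤ) =
      ((dotN (bC k) (bC l) + (16 * sumF (yC k) + 16 * sumF (yC l)) : ℕ) : ℤ) := by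
    exact_mod_cast h9
  push_cast at h10
  linarith

end Cfsg.Agent.Lib.CoCert
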