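import Cfsg.Agent.Lib.LeechTots
import Cfsg.Agent.Lib.CoT0
import Cfsg.Agent.Lib.CoT1a
import Cfsg.Agent.Lib.CoT2

/-! The order of the automorphism group of the lattice, from trees of vectors. -/

set_option autoImplicit false
set_option linter.unusedSimpArgs false
set_option linter.unusedVariables false
set_option linter.style.haveILetI false

namespace Cfsg.Agent.Lib.CoChain

open Cfsg Cfsg.Agent.LeechBasic Cfsg.Agent.Lib.LeechAut Cfsg.Agent.Lib.GolayBasic Cfsg.Agent.Lib.GolayCode
open Cfsg.Agent.Lib.CoLetter Cfsg.Agent.Lib.CoCert Cfsg.Agent.Lib.CoTree Cfsg.Agent.Lib.PChain Cfsg.Agent.Lib.CoL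

/-- the code of `(4, 4, 0, …)` -/
noncomputable def s0 : ℕ := 686053159114795289240674611757597332
/-- the code of `(-4, 0, 4, 0, …)` -/
noncomputable def sw : ℕ := 686053159114795289240674611757601292
/-- the code of `(8, 0, …)` -/
noncomputable def s8 : ℕ := 686053159114795289240674611757597208

theorem s0_mem : vc s0 ∈ leechLattice := mem_of_inLB (by decide +kernel)
theorem sw_mem : vc sw ∈ leechLattice := mem_of_inLB (by decide +kernel)
theorem s8_mem : vc s8 ∈ leechLattice := mem_of_inLB (by decide +kernel)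

/-- the first base vector -/
noncomputable def x0 : LL := ⟨vc s0, s0_mem⟩
/-- the second base vector -/
noncomputable def xw : LL := ⟨vc sw, sw_mem⟩
/-- the third base vector -/
noncomputable def xe : LL := ⟨vc s8, s8_mem⟩

/-- the stabilizer of a minimal vector -/
noncomputable abbrev H1 : Subgroup Co0 := MulAction.stabilizer Co0 x0
/-- the stabilizer of two minimal vectors -/
noncomputable abbrev H2 : Subgroup Co0 := H1 ⊓ MulAction.stabilizer Co0 xw
/-- the stabilizer of three vectors -/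
noncomputable abbrev H3 : Subgroup Co0 := H2 ⊓ MulAction.stabilizer Co0 xe

theorem let0 : ∀ l, l < CoT0.D.m → IsLetter ⊤ (CoT0.D.dd l) (CoT0.D.rr l) := by
  intro l hl
  have hl' : l < 3 := hl
  interval_cases l
  · exact letter_top c_a (Subgroup.mem_top _)
  · exact letter_top c_b (Subgroup.mem_top _)
  · exact letter_top c_x (Subgroup.mem_top _)

theorem m1_mem : toCo c_m1 ∈ H1 := fix_stab c_m1 rfl (by decide +kernel)
theorem x1_mem : toCo c_x1 ∈ H1 := fix_stab c_x1 rfl (by decide +kernel)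

theorem let1a : ∀ l, l < CoT1a.D.m → IsLetter H1 (CoT1a.D.dd l) (CoT1a.D.rr l) := by
  intro l hl
  have hl' : l < 2 := hl
  interval_cases l
  · exact letter_top c_m1 m1_mem
  · exact letter_top c_x1 x1_mem

theorem let2 : ∀ l, l < CoT2.D.m → IsLetter H2 (CoT2.D.dd l) (CoT2.D.rr l) := by
  intro l hl
  have hl' : l < 4 := hl
  interval_cases l
  · exact letter_top c_m2 ⟨fix_stab c_m2 rfl (by decide +kernel), fix_stab c_m2 rfl (by decide +kernel)⟩
  · exact letter_top c_x2 ⟨fix_stab c_x2 rfl (by decide +kernel), fix_stab c_x2 rfl (by decide +kernel)⟩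
  · exact letter_top c_x2b ⟨fix_stab c_x2b rfl (by decide +kernel), fix_stab c_x2b rfl (by decide +kernel)⟩
  · exact letter_top c_x2c ⟨fix_stab c_x2c rfl (by decide +kernel), fix_stab c_x2c rfl (by decide +kernel)⟩

/-! ### The element `-1` -/

theorem one_mem_M24 : (1 : Equiv.Perm GolayPt) ∈ M24 := Subgroup.one_mem _

/-- the element `-1` -/
noncomputable def negCo : Co0 := monoEl one_mem_M24 cd_univ

theorem negCo_apply (v : LL) : ((negCo • v : LL) : GolayPt → ℤ) = - v.1 := by
  funext i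
  show signedPerm 1 Finset.univ v.1 i = _
  simp only [signedPerm, Finset.mem_univ, if_true, Pi.neg_apply]
  rfl

/-! ### The vectors of a tree -/

theorem tab_disj {V : ℕ → ℕ} {n : ℕ} (h : Tab V n) (h0 : zeroC < V 0) : Disjoint (tset V n) (nset V n) := by
  rw [Set.disjoint_left]
  rintro y ⟨i, hi, rfl⟩ ⟨j, hj, e⟩
  have hz : ∀ k, k < n → zeroC < V k := by
    intro k hk
    by_cases hk0 : k = 0
    · rw [hk0]
      exact h0
    · exact lt_trans h0 (strict_of_sort h.sorted (by omega) hk)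
  exact vc_ne_neg (h.hi i hi) (h.hi j hj) (hz i hi) (hz j hj) e

theorem tset_finite (V : ℕ → ℕ) (n : ℕ) : (tset V n).Finite := by
  have h1 : tset V n = (fun i => vc (V i)) '' (↑(Finset.range n) : Set ℕ) := by
    ext y
    simp only [tset, Set.mem_ofPred_eq, Set.mem_image, Finset.coe_range, Set.mem_Iio]
    constructor
    · rintro ⟨i, hi, rfl⟩
      exact ⟨i, hi, rfl⟩
    · rintro ⟨i, hi, rfl⟩
      exact ⟨i, hi, rfl⟩
  rw [h1]
  exact (Finset.finite_toSet _).image _

theorem nset_finite (V : ℕ → ℕ) (n : ℕ) : (nset V n).Finite := by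
  have h1 : nset V n = (fun y => -y) '' (tset V n) := by
    ext y
    simp only [tset, nset, Set.mem_ofPred_eq, Set.mem_image]
    constructor
    · rintro ⟨i, hi, rfl⟩
      exact ⟨_, ⟨i, hi, rfl⟩, rfl⟩
    · rintro ⟨_, ⟨i, hi, rfl⟩, rfl⟩
      exact ⟨i, hi, rfl⟩
  rw [h1]
  exact (tset_finite V n).image _

theorem tab_ncard_pm {V : ℕ → ℕ} {n : ℕ} (h : Tab V n) (h0 : zeroC < V 0) :
    (tset V n ∪ nset V n).ncard = 2 * n := by
  rw [Set.ncard_union_eq (tab_disj h h0) (tset_finite V n) (nset_finite V n), h.ncard, h.ncard_neg]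
  ring

/-- the minimal vectors -/
def Min : Set (GolayPt → ℤ) := {x | x ∈ leechLattice ∧ sqNorm x = 32}

theorem min_ncard : Min.ncard = 196560 := by
  have h := Cfsg.Agent.Lib.LeechCount.count_all (N := 32) (by norm_num)
  rw [Cfsg.Agent.Lib.LeechCount.t32] at h
  exact h

theorem min_finite : Min.Finite := by
  apply Set.finite_of_ncard_ne_zero
  rw [min_ncard]
  norm_num

theorem smul_coe (g : Co0) (v : LL) : ((g • v : LL) : GolayPt → ℤ) = (((g : Equiv.Perm LL) v : LL) : GolayPt → ℤ) := rfl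

theorem norm_smul (g : Co0) (v : LL) : sqNorm ((g • v : LL) : GolayPt → ℤ) = sqNorm (v : GolayPt → ℤ) := co_norm g v

theorem dot_smul (g : Co0) (v w : LL) : dotInt ((g • v : LL) : GolayPt → ℤ) ((g • w : LL) : GolayPt → ℤ) = dotInt (v : GolayPt → ℤ) (w : GolayPt → ℤ) :=
  co_dot g v w

theorem x0_norm : sqNorm (x0 : GolayPt → ℤ) = 32 := by
  have h : sqNorm (vc s0) = dotInt (vc s0) (vc s0) := by
    unfold sqNorm dotInt
    exact Finset.sum_congr rfl fun i _ => sq _
  show sqNorm (vc s0) = 32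
  rw [h, dot_vc]
  have : (dotN s0 s0 : ℤ) - 16 * sumF s0 - 16 * sumF s0 + 6144 = 32 := by decide +kernel
  exact this

theorem orb_min (x : LL) (hx : sqNorm (x : GolayPt → ℤ) = 32) (H : Subgroup Co0) : Orb H x ⊆ Min := by
  rintro y ⟨g, hg, rfl⟩
  exact ⟨(g • x).2, by rw [norm_smul]; exact hx⟩

/-- the tree of the minimal vectors -/
theorem T0_sub : tset CoT0.vT 98280 ∪ nset CoT0.vT 98280 ⊆ Orb ⊤ x0 := by
  have key := reachF (D := CoT0.D) let0 x0 rfl CoT0.ok
  have hn : ∀ (g : Co0) (y : GolayPt → ℤ), ((g • x0 : LL) : GolayPt → ℤ) = y →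
      y ∈ Orb ⊤ x0 ∧ - y ∈ Orb ⊤ x0 := by
    intro g y hy
    refine ⟨⟨g, Subgroup.mem_top _, hy⟩, ⟨negCo * g, Subgroup.mem_top _, ?_⟩⟩
    rw [mul_smul, negCo_apply, hy]
  rintro y (⟨i, hi, rfl⟩ | ⟨i, hi, rfl⟩)
  · obtain ⟨g, -, hg⟩ := key i hi
    rcases hg with hg | hg
    · exact (hn g _ hg).1
    · have := (hn g _ hg).2
      rw [neg_neg] at this
      exact this
  · obtain ⟨g, -, hg⟩ := key i hi
    rcases hg with hg | hg
    · exact (hn g _ hg).2
    · exact (hn g _ hg).1

theorem T0_card : (tset CoT0.vT 98280 ∪ nset CoT0.vT 98280).ncard = 196560 := by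
  rw [tab_ncard_pm CoT0.tab (by decide +kernel)]

theorem orb_x0 : Orb ⊤ x0 = Min := by
  refine Set.eq_of_subset_of_ncard_le (orb_min x0 x0_norm ⊤) ?_ min_finite
  rw [min_ncard, ← T0_card]
  exact Set.ncard_le_ncard T0_sub (orb_finite ⊤ x0)

/-- every minimal vector is an image of the base vector -/
theorem exists_x0 (v : LL) (hv : sqNorm (v : GolayPt → ℤ) = 32) : ∃ g : Co0, g • x0 = v := by
  have h : v.1 ∈ Orb ⊤ x0 := by
    rw [orb_x0]
    exact ⟨v.2, hv⟩
  obtain ⟨g, -, hg⟩ := h
  exact ⟨g, Subtype.ext hg⟩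

/-- transitivity on the minimal vectors -/
theorem min_trans (v w : LL) (hv : sqNorm (v : GolayPt → ℤ) = 32) (hw : sqNorm (w : GolayPt → ℤ) = 32) :
    ∃ g : Co0, g • v = w := by
  obtain ⟨g, rfl⟩ := exists_x0 v hv
  obtain ⟨k, rfl⟩ := exists_x0 w hw
  exact ⟨k * g⁻¹, by rw [mul_smul, inv_smul_smul]⟩

/-! ### The monomial subgroup -/

theorem pres_inv {g : Co0} (hg : PresC g) : PresC g⁻¹ := by
  have hpos := orderOf_pos g
  have e : g⁻¹ = g ^ (orderOf g - 1) := by
    apply inv_eq_of_mul_eq_one_right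
    rw [← pow_succ', Nat.sub_add_cancel hpos, pow_orderOf_eq_one]
  rw [e]
  generalize orderOf g - 1 = k
  induction k with
  | zero =>
    intro v hv
    simpa using hv
  | succ k ih =>
    intro v hv
    rw [pow_succ, mul_smul]
    exact ih _ (hg v hv)

/-- the monomial subgroup -/
def PG : Subgroup Co0 where
  carrier := {g | PresC g}
  one_mem' := by
    intro v hv
    simpa using hv
  mul_mem' := by
    intro a b ha hb v hv
    rw [mul_smul]
    exact ha _ (hb v hv)
  inv_mem' := fun {g} hg => pres_inv hg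

theorem card_PG : Nat.card PG = 4096 * 244823040 := card_pres

/-- the points of the cross outside a set of coordinates -/
def crossOff (A : Finset GolayPt) : Set (GolayPt → ℤ) :=
  {y | ∃ i, i ∉ A ∧ ∃ s : ℤ, (s = 8 ∨ s = -8) ∧ y = Pi.single i s}

theorem crossOff_finite_card (A : Finset GolayPt) : (crossOff A).Finite ∧ (crossOff A).ncard ≤ (24 - A.card) * 2 := by
  classical
  have h : crossOff A ⊆ ↑((Aᶜ ×ˢ ({8, -8} : Finset ℤ)).image (fun p : GolayPt × ℤ => (Pi.single p.1 p.2 : GolayPt → ℤ))) := by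
    rintro y ⟨i, hi, s, hs, rfl⟩
    simp only [Finset.coe_image, Set.mem_image, Finset.mem_coe, Finset.mem_product, Finset.mem_compl, Finset.mem_insert,
      Finset.mem_singleton]
    exact ⟨(i, s), ⟨hi, hs⟩, rfl⟩
  have hf := (Finset.finite_toSet _).subset h
  refine ⟨hf, ?_⟩
  have h1 := Set.ncard_le_ncard h (Finset.finite_toSet _)
  rw [Set.ncard_coe_finset] at h1
  refine le_trans h1 (le_trans Finset.card_image_le ?_)
  rw [Finset.card_product, Finset.card_compl]
  have h2 : Fintype.card GolayPt = 24 := rfl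
  rw [h2]
  have h3 : ({8, -8} : Finset ℤ).card = 2 := by decide
  rw [h3]

theorem crossOff_empty : crossOff ∅ = stdCross := by
  ext y
  simp only [crossOff, stdCross, Set.mem_ofPred_eq, Finset.notMem_empty, not_false_eq_true, true_and]

theorem smul_sv {g : Co0} {a : GolayPt} (hg : g • sv a 8 (Or.inl rfl) = sv a 8 (Or.inl rfl)) (v : LL) {s : ℤ} (hs : s = 8 ∨ s = -8)
    (e : ((g • v : LL) : GolayPt → ℤ) = Pi.single a s) : (v : GolayPt → ℤ) = Pi.single a s := by
  rcases hs with rfl | rfl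
  · have : g • v = g • sv a 8 (Or.inl rfl) := by
      rw [hg]
      exact Subtype.ext e
    have := smul_left_cancel g this
    rw [this]
    rfl
  · have e2 : g • (v + sv a 8 (Or.inl rfl)) = 0 := by
      have h1 : g • (v + sv a 8 (Or.inl rfl)) = g • v + g • sv a 8 (Or.inl rfl) := co_add g _ _
      rw [h1, hg]
      apply Subtype.ext
      show ((g • v : LL) : GolayPt → ℤ) + Pi.single a 8 = 0
      rw [e]
      funext i
      by_cases hi : i = a
      · subst hi
        simp
      · simp [Pi.single_eq_of_ne hi]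
    have e3 : (g • (0 : LL)) = 0 := by
      have h1 : g • ((0 : LL) + 0) = g • (0 : LL) + g • (0 : LL) := co_add g _ _
      rw [add_zero] at h1
      exact (left_eq_add.1 h1)
    rw [← e3] at e2
    have e4 := smul_left_cancel g e2
    have e5 : (v : GolayPt → ℤ) + Pi.single a 8 = 0 := congrArg Subtype.val e4
    funext i
    have e6 := congrFun e5 i
    by_cases hi : i = a
    · subst hi
      simp at e6 ⊢
      linarith
    · simp [Pi.single_eq_of_ne hi] at e6 ⊢
      exact e6

theorem orb_crossOff {H : Subgroup Co0} (hP : H ≤ PG) {A : Finset GolayPt}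
    (hA : ∀ g ∈ H, ∀ a ∈ A, g • sv a 8 (Or.inl rfl) = sv a 8 (Or.inl rfl)) {b : GolayPt} (hb : b ∉ A) :
    Orb H (sv b 8 (Or.inl rfl)) ⊆ crossOff A := by
  rintro y ⟨g, hg, rfl⟩
  have h1 : ((g • sv b 8 (Or.inl rfl) : LL) : GolayPt → ℤ) ∈ stdCross := hP hg _ ⟨b, 8, Or.inl rfl, rfl⟩
  obtain ⟨i, s, hs, e⟩ := h1
  refine ⟨i, ?_, s, hs, e⟩
  intro hi
  have h2 := smul_sv (hA g hg i hi) _ hs e
  have h3 := congrFun h2 b
  have hbi : b ≠ i := fun h => hb (h ▸ hi)
  have h4 : (sv b 8 (Or.inl rfl) : LL).1 b = 8 := by simp [sv]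
  rw [h4] at h3
  simp [Pi.single_eq_of_ne hbi] at h3

/-- coordinates `0, 1, 2` -/
noncomputable abbrev a0 : GolayPt := ptOf 0
noncomputable abbrev a1 : GolayPt := ptOf 1
noncomputable abbrev a2 : GolayPt := ptOf 2

theorem a01 : a0 ≠ a1 := by decide +kernel
theorem a02 : a0 ≠ a2 := by decide +kernel
theorem a12 : a1 ≠ a2 := by decide +kernel

/-- the three first coordinate vectors -/
noncomputable abbrev e0 : LL := sv a0 8 (Or.inl rfl)
noncomputable abbrev e1 : LL := sv a1 8 (Or.inl rfl)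
noncomputable abbrev e2 : LL := sv a2 8 (Or.inl rfl)

/-- the first stabilizer of the monomial subgroup -/
noncomputable abbrev P1 : Subgroup Co0 := PG ⊓ MulAction.stabilizer Co0 e0
/-- the second stabilizer of the monomial subgroup -/
noncomputable abbrev P2 : Subgroup Co0 := P1 ⊓ MulAction.stabilizer Co0 e1
/-- the third stabilizer of the monomial subgroup -/
noncomputable abbrev P3 : Subgroup Co0 := P2 ⊓ MulAction.stabilizer Co0 e2

theorem card_P3 : 10321920 ≤ Nat.card P3 := by
  classical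
  have h0 : Nat.card PG ≤ (crossOff ∅).ncard * Nat.card P1 := card_orb_le PG e0 (crossOff_finite_card ∅).1 (orb_crossOff (le_refl _) (by simp) (by simp))
  have h1 : Nat.card P1 ≤ (crossOff {a0}).ncard * Nat.card P2 := card_orb_le P1 e1 (crossOff_finite_card {a0}).1 (orb_crossOff inf_le_left (by
    intro g hg a ha
    rw [Finset.mem_singleton] at ha
    subst ha
    exact hg.2) (by simp [a01.symm]))
  have h2 : Nat.card P2 ≤ (crossOff {a0, a1}).ncard * Nat.card P3 := card_orb_le P2 e2 (crossOff_finite_card {a0, a1}).1 (orb_crossOff (le_trans inf_le_left inf_le_left) (by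
    intro g hg a ha
    rw [Finset.mem_insert, Finset.mem_singleton] at ha
    rcases ha with rfl | rfl
    · exact hg.1.2
    · exact hg.2) (by simp [a02.symm, a12.symm]))
  have c0 := (crossOff_finite_card ∅).2
  have c1 := (crossOff_finite_card {a0}).2
  have c2 := (crossOff_finite_card {a0, a1}).2
  rw [Finset.card_empty] at c0
  rw [Finset.card_singleton] at c1
  rw [Finset.card_pair a01] at c2
  rw [card_PG] at h0
  have h3 := h0.trans (Nat.mul_le_mul_right _ c0)
  have h4 := h1.trans (Nat.mul_le_mul_right _ c1)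
  have h5 := h2.trans (Nat.mul_le_mul_right _ c2)
  omega

theorem smul_of_two {g : Co0} {x y : LL} (h : ((2 : ℕ) • x : LL) = y) (hg : g • y = y) : g • x = x := by
  have h1 : g • y = (2 : ℕ) • (g • x) := by
    rw [← h]
    exact co_nsmul2 g x
  rw [hg, ← h] at h1
  have h2 : ((2 : ℕ) • x : LL).1 = ((2 : ℕ) • (g • x) : LL).1 := congrArg Subtype.val h1
  apply Subtype.ext
  funext i
  have h3 : (2 : ℕ) • ((x : GolayPt → ℤ) i) = (2 : ℕ) • (((g • x : LL) : GolayPt → ℤ) i) := congrFun h2 i
  have h4 : (2 : ℤ) * (x : GolayPt → ℤ) i = 2 * ((g • x : LL) : GolayPt → ℤ) i := by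
    simpa using h3
  have h5 := mul_left_cancel₀ (by norm_num) h4
  exact h5.symm

theorem two_x0 : ((2 : ℕ) • x0 : LL) = e0 + e1 := by
  apply Subtype.ext
  funext p
  have h : ∀ j, j < 24 → 2 * ((fld s0 j : ℤ) - 16) = (if j = 0 then 8 else 0) + (if j = 1 then 8 else 0) := by decide +kernel
  have h1 := h (idx p) (idx_lt p)
  have h2 : (((2 : ℕ) • x0 : LL) : GolayPt → ℤ) p = 2 * ((fld s0 (idx p) : ℤ) - 16) := by
    show (2 : ℕ) • vc s0 p = _
    simp [vc]
  rw [h2, h1]
  show _ = (Pi.single a0 8 : GolayPt → ℤ) p + (Pi.single a1 8 : GolayPt → ℤ) p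
  congr 1
  · by_cases e : idx p = 0
    · have : p = a0 := by rw [← ptOf_idx p, e]
      rw [this]
      simp
      decide +kernel
    · have : p ≠ a0 := by
        intro h
        apply e
        rw [h]
        exact idx_ptOf (by norm_num)
      rw [if_neg e, Pi.single_eq_of_ne this]
  · by_cases e : idx p = 1
    · have : p = a1 := by rw [← ptOf_idx p, e]
      rw [this]
      simp
      decide +kernel
    · have : p ≠ a1 := by
        intro h
        apply e
        rw [h]
        exact idx_ptOf (by norm_num)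
      rw [if_neg e, Pi.single_eq_of_ne this]

theorem two_xw : ((2 : ℕ) • xw : LL) + e0 = e2 := by
  apply Subtype.ext
  funext p
  have h : ∀ j, j < 24 → 2 * ((fld sw j : ℤ) - 16) + (if j = 0 then 8 else 0) = (if j = 2 then 8 else 0) := by decide +kernel
  have h1 := h (idx p) (idx_lt p)
  have h2 : (((2 : ℕ) • xw : LL) + e0 : LL).1 p = 2 * ((fld sw (idx p) : ℤ) - 16) + (Pi.single a0 8 : GolayPt → ℤ) p := by
    show (2 : ℕ) • vc sw p + (Pi.single a0 8 : GolayPt → ℤ) p = _
    simp [vc]
  rw [h2]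
  have h3 : (Pi.single a0 8 : GolayPt → ℤ) p = if idx p = 0 then 8 else 0 := by
    by_cases e : idx p = 0
    · have : p = a0 := by rw [← ptOf_idx p, e]
      rw [this, if_pos (idx_ptOf (by norm_num))]
      simp
    · have : p ≠ a0 := by
        intro h
        apply e
        rw [h]
        exact idx_ptOf (by norm_num)
      rw [if_neg e, Pi.single_eq_of_ne this]
  rw [h3, h1]
  show _ = (Pi.single a2 8 : GolayPt → ℤ) p
  by_cases e : idx p = 2
  · have : p = a2 := by rw [← ptOf_idx p, e]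
    rw [this, if_pos (idx_ptOf (by norm_num))]
    simp
  · have : p ≠ a2 := by
      intro h
      apply e
      rw [h]
      exact idx_ptOf (by norm_num)
    rw [if_neg e, Pi.single_eq_of_ne this]

theorem xe_eq : xe = e0 := by
  apply Subtype.ext
  funext p
  have h : ∀ j, j < 24 → (fld s8 j : ℤ) - 16 = (if j = 0 then 8 else 0) := by decide +kernel
  have h1 := h (idx p) (idx_lt p)
  show (fld s8 (idx p) : ℤ) - 16 = (Pi.single a0 8 : GolayPt → ℤ) p
  rw [h1]
  by_cases e : idx p = 0
  · have : p = a0 := by rw [← ptOf_idx p, e]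
    rw [this, if_pos (idx_ptOf (by norm_num))]
    simp
  · have : p ≠ a0 := by
      intro h
      apply e
      rw [h]
      exact idx_ptOf (by norm_num)
    rw [if_neg e, Pi.single_eq_of_ne this]

theorem P3_le : P3 ≤ H3 := by
  intro g hg
  have h0 : g • e0 = e0 := hg.1.1.2
  have h1 : g • e1 = e1 := hg.1.2
  have h2 : g • e2 = e2 := hg.2
  have hx0 : g • x0 = x0 := by
    apply smul_of_two two_x0
    have : g • (e0 + e1) = g • e0 + g • e1 := co_add g _ _
    rw [this, h0, h1]
  have hxw : g • xw = xw := by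
    have h3 : g • (((2 : ℕ) • xw : LL) + e0) = e2 := by
      rw [two_xw, h2]
    have h4 : g • (((2 : ℕ) • xw : LL) + e0) = g • ((2 : ℕ) • xw : LL) + g • e0 := co_add g _ _
    rw [h4, h0, ← two_xw] at h3
    have h5 : g • ((2 : ℕ) • xw : LL) = (2 : ℕ) • xw := add_right_cancel h3
    exact smul_of_two rfl h5
  refine ⟨⟨hx0, hxw⟩, ?_⟩
  show g • xe = xe
  rw [xe_eq]
  exact h0

/-! ### The order -/

theorem card_Co0_H1 : 196560 * Nat.card H1 ≤ Nat.card Co0 := by
  have h := le_card_orb ⊤ x0 (A := tset CoT0.vT 98280 ∪ nset CoT0.vT 98280) T0_sub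
  rw [T0_card, top_inf_eq] at h
  have h2 : Nat.card (⊤ : Subgroup Co0) = Nat.card Co0 := Nat.card_congr Subgroup.topEquiv.toEquiv
  rwa [h2] at h

theorem T1a_sub : tset CoT1a.vT 4600 ⊆ Orb H1 xw := by
  have key := reachY (D := CoT1a.D) let1a xw rfl CoT1a.ok
  rintro y ⟨i, hi, rfl⟩
  obtain ⟨g, hg, e⟩ := key i hi
  exact ⟨g, hg, e⟩

theorem card_H1_H2 : 4600 * Nat.card H2 ≤ Nat.card H1 := by
  have h := le_card_orb H1 xw T1a_sub
  rwa [CoT1a.tab.ncard] at h

theorem T2_sub : tset CoT2.vT 891 ⊆ Orb H2 xe := by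
  have key := reachY (D := CoT2.D) let2 xe rfl CoT2.ok
  rintro y ⟨i, hi, rfl⟩
  obtain ⟨g, hg, e⟩ := key i hi
  exact ⟨g, hg, e⟩

theorem card_H2_H3 : 891 * Nat.card H3 ≤ Nat.card H2 := by
  have h := le_card_orb H2 xe T2_sub
  rwa [CoT2.tab.ncard] at h

theorem card_H3 : 10321920 ≤ Nat.card H3 := card_P3.trans (Subgroup.card_le_of_le P3_le)

/-- the order of the group -/
theorem co0_card : Nat.card Co0 = 8315553613086720000 := by
  have h1 := card_Co0_H1
  have h2 := card_H1_H2
  have h3 := card_H2_H3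
  have h4 := card_H3
  have h5 := card_le.2
  omega

theorem card_H1 : Nat.card H1 = 42305421312000 := by
  have h1 := card_Co0_H1
  have h2 := card_H1_H2
  have h3 := card_H2_H3
  have h4 := card_H3
  have h5 := co0_card
  omega

theorem card_H2' : Nat.card H2 = 9196830720 := by
  have h1 := card_Co0_H1
  have h2 := card_H1_H2
  have h3 := card_H2_H3
  have h4 := card_H3
  have h5 := co0_card
  omega

theorem card_H3' : Nat.card H3 = 10321920 := by
  have h1 := card_Co0_H1
  have h2 := card_H1_H2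
  have h3 := card_H2_H3
  have h4 := card_H3
  have h5 := co0_card
  omega

end Cfsg.Agent.Lib.CoChain
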