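import Cfsg.Agent.Lib.CoMcL
import Cfsg.Agent.Lib.CoT100
import Cfsg.Agent.Lib.CoT22
import Cfsg.Agent.Lib.CoT77

/-! The configuration of the 100 vectors. -/

set_option autoImplicit false
set_option linter.unusedSimpArgs false
set_option linter.unusedVariables false
set_option linter.style.haveILetI false

namespace Cfsg.Agent.Lib.CoHS

open Cfsg Cfsg.Agent.LeechBasic Cfsg.Agent.Lib.LeechAut Cfsg.Agent.Lib.GolayBasic Cfsg.Agent.Lib.GolayCode
open Cfsg.Agent.Lib.CoLetter Cfsg.Agent.Lib.CoCert Cfsg.Agent.Lib.CoTree Cfsg.Agent.Lib.PChain Cfsg.Agent.Lib.CoL Cfsg.Agent.Lib.CoL2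
open Cfsg.Agent.Lib.CoChain Cfsg.Agent.Lib.CoCenter Cfsg.Agent.Lib.CoCensus Cfsg.Agent.Lib.CoScan Cfsg.Agent.Lib.CoU Cfsg.Agent.Lib.CoMcL

theorem dot_add_left (a b c : GolayPt → ℤ) : dotInt (a + b) c = dotInt a c + dotInt b c := by
  unfold dotInt
  rw [← Finset.sum_add_distrib]
  refine Finset.sum_congr rfl fun i _ => ?_
  simp only [Pi.add_apply]
  ring

/-- the codes of the configuration -/
noncomputable def sz : ℕ := 686053159194660024985940145281188432
noncomputable def sz8 : ℕ := 685969494177600512637565223316243024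
noncomputable def szo : ℕ := 686053159114946404968126440404435600

theorem sz_mem : vc sz ∈ leechLattice := mem_of_inLB (by decide +kernel)
theorem sz8_mem : vc sz8 ∈ leechLattice := mem_of_inLB (by decide +kernel)
theorem szo_mem : vc szo ∈ leechLattice := mem_of_inLB (by decide +kernel)
/-- a vector of the configuration -/
noncomputable def z0 : LL := ⟨vc sz, sz_mem⟩
noncomputable def z8 : LL := ⟨vc sz8, sz8_mem⟩
noncomputable def zo : LL := ⟨vc szo, szo_mem⟩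

/-- the stabilizer of the two vectors -/
noncomputable abbrev S : Subgroup Co0 := A ⊓ MulAction.stabilizer Co0 t0
/-- the stabilizer of three vectors -/
noncomputable abbrev S1 : Subgroup Co0 := S ⊓ MulAction.stabilizer Co0 z0

theorem h1_mem : toCo c_h1 ∈ S := ⟨fix_stab c_h1 rfl (by decide +kernel), fix_stab c_h1 rfl (by decide +kernel)⟩
theorem h2_mem : toCo c_h2 ∈ S := ⟨fix_stab c_h2 rfl (by decide +kernel), fix_stab c_h2 rfl (by decide +kernel)⟩
theorem k1_mem : toCo c_k1 ∈ S1 := ⟨⟨fix_stab c_k1 rfl (by decide +kernel), fix_stab c_k1 rfl (by decide +kernel)⟩, fix_stab c_k1 rfl (by decide +kernel)⟩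
theorem k2_mem : toCo c_k2 ∈ S1 := ⟨⟨fix_stab c_k2 rfl (by decide +kernel), fix_stab c_k2 rfl (by decide +kernel)⟩, fix_stab c_k2 rfl (by decide +kernel)⟩

theorem let100 : ∀ l, l < CoT100.D.m → IsLetter S (CoT100.D.dd l) (CoT100.D.rr l) := by
  intro l hl
  have hl' : l < 2 := hl
  interval_cases l
  · exact letter_top c_h1 h1_mem
  · exact letter_top c_h2 h2_mem

theorem let22 : ∀ l, l < CoT22.D.m → IsLetter S1 (CoT22.D.dd l) (CoT22.D.rr l) := by
  intro l hl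
  have hl' : l < 2 := hl
  interval_cases l
  · exact letter_top c_k1 k1_mem
  · exact letter_top c_k2 k2_mem

theorem let77 : ∀ l, l < CoT77.D.m → IsLetter S1 (CoT77.D.dd l) (CoT77.D.rr l) := by
  intro l hl
  have hl' : l < 2 := hl
  interval_cases l
  · exact letter_top c_k1 k1_mem
  · exact letter_top c_k2 k2_mem

theorem reach100 : ∀ i, i < 100 → ∃ g ∈ S, ((g • z0 : LL) : GolayPt → ℤ) = vc (CoT100.vT i) :=
  reachY (D := CoT100.D) let100 z0 rfl CoT100.ok
theorem reach22 : ∀ i, i < 22 → ∃ g ∈ S1, ((g • z8 : LL) : GolayPt → ℤ) = vc (CoT22.vT i) :=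
  reachY (D := CoT22.D) let22 z8 rfl CoT22.ok
theorem reach77 : ∀ i, i < 77 → ∃ g ∈ S1, ((g • zo : LL) : GolayPt → ℤ) = vc (CoT77.vT i) :=
  reachY (D := CoT77.D) let77 zo rfl CoT77.ok

/-- the base description -/
def Q100 (y : LL) : Prop :=
  sqNorm (y : GolayPt → ℤ) = 32 ∧ dotInt (u0 : GolayPt → ℤ) (y : GolayPt → ℤ) = 24 ∧ dotInt (t0 : GolayPt → ℤ) (y : GolayPt → ℤ) = 0

/-- the vectors of the table with inner product zero with the base vector -/
def W100 : Set (GolayPt → ℤ) := {y | y ∈ tset CoT3.vT 552 ∧ dotInt (vc st) y = ((0 : ℕ) : ℤ)}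

theorem W100_ncard : W100.ncard = 100 := by
  have h := ncard_dot CoT3.tab (k := 10) (by norm_num) st 0
  have h2 : cntB (fun i => dotB st 0 (CoT3.vT i)) 552 10 = 100 := by decide +kernel
  rw [h2] at h
  exact h

theorem mem_W100 {y : LL} : y.1 ∈ W100 ↔ Q100 y := by
  constructor
  · rintro ⟨h1, h2⟩
    obtain ⟨h3, h4⟩ := mem_tab3.1 h1
    refine ⟨h3, h4, ?_⟩
    have h5 : dotInt (vc st) (y : GolayPt → ℤ) = 0 := by simpa using h2
    exact h5
  · rintro ⟨h1, h2, h3⟩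
    have h5 : dotInt (vc st) (y : GolayPt → ℤ) = 0 := h3
    exact ⟨mem_tab3.2 ⟨h1, h2⟩, by simpa using h5⟩

theorem W100_le : W100 ⊆ leechLattice := by
  rintro y ⟨h1, -⟩
  rw [tab3_eq] at h1
  exact h1.1

theorem z0_Q : Q100 z0 := by
  refine ⟨?_, ?_, ?_⟩
  · show sqNorm (vc sz) = 32
    rw [norm_eq_dot, dot_vc]
    decide +kernel
  · show dotInt (vc su) (vc sz) = 24
    rw [dot_vc]
    decide +kernel
  · show dotInt (vc st) (vc sz) = 0
    rw [dot_vc]
    decide +kernel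

theorem S_pres {g : Co0} (hg : g ∈ S) {z : LL} (hz : z.1 ∈ W100) : (g • z).1 ∈ W100 := by
  obtain ⟨h1, h2, h3⟩ := mem_W100.1 hz
  apply mem_W100.2
  refine ⟨by rw [norm_smul]; exact h1, ?_, ?_⟩
  · have := dot_smul g u0 z
    rw [show g • u0 = u0 from hg.1] at this
    rw [this]
    exact h2
  · have := dot_smul g t0 z
    rw [show g • t0 = t0 from hg.2] at this
    rw [this]
    exact h3

theorem T100_eq : tset CoT100.vT 100 = W100 := by
  refine tree_fills CoT100.tab ((tset_finite _ _).subset (fun y hy => hy.1)) W100_ncard.le ?_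
  rintro y ⟨i, hi, rfl⟩
  obtain ⟨g, hg, e⟩ := reach100 i hi
  rw [← e]
  exact S_pres hg (mem_W100.2 z0_Q)

theorem W100_sub : W100 ⊆ Orb S z0 := by
  rw [← T100_eq]
  rintro y ⟨i, hi, rfl⟩
  obtain ⟨g, hg, e⟩ := reach100 i hi
  exact ⟨g, hg, e⟩

/-- pairs of vectors of norm 48 -/
theorem exists_hs (v w : LL) (hv : sqNorm (v : GolayPt → ℤ) = 48) (hw : sqNorm (w : GolayPt → ℤ) = 48)
    (hvw : dotInt (v : GolayPt → ℤ) (w : GolayPt → ℤ) = -32) : ∃ k : Co0, k • u0 = v ∧ k • t0 = v + w := by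
  obtain ⟨k, rfl⟩ := exists_u0 v hv
  have h1 : sqNorm ((k • u0 + w : LL) : GolayPt → ℤ) = 32 := by
    show sqNorm (((k • u0 : LL) : GolayPt → ℤ) + (w : GolayPt → ℤ)) = 32
    rw [norm_add, hv, hw, hvw]
    norm_num
  have h2 : dotInt ((k • u0 : LL) : GolayPt → ℤ) ((k • u0 + w : LL) : GolayPt → ℤ) = 16 := by
    have h3 : dotInt ((k • u0 : LL) : GolayPt → ℤ) (((k • u0 : LL) : GolayPt → ℤ) + (w : GolayPt → ℤ)) = 16 := by
      have e : dotInt ((k • u0 : LL) : GolayPt → ℤ) (((k • u0 : LL) : GolayPt → ℤ) + (w : GolayPt → ℤ)) =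
          dotInt (((k • u0 : LL) : GolayPt → ℤ) + (w : GolayPt → ℤ)) ((k • u0 : LL) : GolayPt → ℤ) := dot_comm _ _
      rw [e, dot_add_left, ← norm_eq_dot, hv, dot_comm (w : GolayPt → ℤ), hvw]
      norm_num
    exact h3
  have h4 : (k⁻¹ • (k • u0 + w)).1 ∈ Fg u0 16 := fg_inv' h1 h2
  rw [← orb4] at h4
  obtain ⟨c, hc, e⟩ := h4
  have e' : c • t0 = k⁻¹ • (k • u0 + w) := Subtype.ext e
  refine ⟨k * c, ?_, ?_⟩
  · rw [mul_smul, show c • u0 = u0 from hc]
  · rw [mul_smul, e', smul_inv_smul]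

/-- the set of the statements -/
def Set100 (v w : LL) : Set LL := {x : LL | sqNorm (x : GolayPt → ℤ) = 32 ∧ dotInt (v : GolayPt → ℤ) (x : GolayPt → ℤ) = 24 ∧ dotInt (w : GolayPt → ℤ) (x : GolayPt → ℤ) = -24}

theorem mem_set100 {v w : LL} {k : Co0} (e1 : k • u0 = v) (e2 : k • t0 = v + w) (x : LL) :
    x ∈ Set100 v w ↔ ((k⁻¹ • x : LL) : GolayPt → ℤ) ∈ W100 := by
  rw [mem_W100]
  unfold Q100 Set100
  simp only [Set.mem_ofPred_eq]
  rw [norm_smul, dot_inv, dot_inv, e1, e2]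
  have h : dotInt ((v + w : LL) : GolayPt → ℤ) (x : GolayPt → ℤ) = dotInt (v : GolayPt → ℤ) (x : GolayPt → ℤ) + dotInt (w : GolayPt → ℤ) (x : GolayPt → ℤ) :=
    dot_add_left _ _ _
  rw [h]
  constructor
  · rintro ⟨h1, h2, h3⟩
    exact ⟨h1, h2, by rw [h2, h3]; norm_num⟩
  · rintro ⟨h1, h2, h3⟩
    exact ⟨h1, h2, by rw [h2] at h3; omega⟩

theorem ncard100 (v w : LL) (hv : sqNorm (v : GolayPt → ℤ) = 48) (hw : sqNorm (w : GolayPt → ℤ) = 48)
    (hvw : dotInt (v : GolayPt → ℤ) (w : GolayPt → ℤ) = -32) : (Set100 v w).ncard = 100 := by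
  obtain ⟨k, e1, e2⟩ := exists_hs v w hv hw hvw
  have h : Set100 v w = {x : LL | ((k⁻¹ • x : LL) : GolayPt → ℤ) ∈ W100} := by
    ext x
    exact mem_set100 e1 e2 x
  rw [h, ncard_pull k W100_le, W100_ncard]

theorem fix_w {g : Co0} {v w : LL} (h1 : g • v = v) (h2 : g • (v + w) = v + w) : g • w = w := by
  have h3 : g • (v + w) = g • v + g • w := co_add g _ _
  rw [h3, h1] at h2
  exact add_left_cancel h2

theorem trans100 (v w : LL) (hv : sqNorm (v : GolayPt → ℤ) = 48) (hw : sqNorm (w : GolayPt → ℤ) = 48)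
    (hvw : dotInt (v : GolayPt → ℤ) (w : GolayPt → ℤ) = -32) :
    ∀ x ∈ Set100 v w, ∀ x' ∈ Set100 v w, ∃ g : Co0, g • v = v ∧ g • w = w ∧ g • x = x' := by
  obtain ⟨k, e1, e2⟩ := exists_hs v w hv hw hvw
  intro x hx x' hx'
  obtain ⟨c, hc, e⟩ := move W100_sub k ((mem_set100 e1 e2 x).1 hx) ((mem_set100 e1 e2 x').1 hx')
  have f1 : (k * c * k⁻¹) • v = v := by
    rw [← e1]
    exact conj_fix hc.1
  have f2 : (k * c * k⁻¹) • (v + w) = v + w := by
    rw [← e2]
    exact conj_fix hc.2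
  exact ⟨k * c * k⁻¹, f1, fix_w f1 f2, e⟩

/-- the exchange of the two vectors -/
theorem swap (v w : LL) (hv : sqNorm (v : GolayPt → ℤ) = 48) (hw : sqNorm (w : GolayPt → ℤ) = 48)
    (hvw : dotInt (v : GolayPt → ℤ) (w : GolayPt → ℤ) = -32) : ∃ g : Co0, g • v = w ∧ g • w = v := by
  obtain ⟨k, e1, e2⟩ := exists_hs v w hv hw hvw
  obtain ⟨k', e1', e2'⟩ := exists_hs w v hw hv (by rw [dot_comm]; exact hvw)
  have f1 : (k' * k⁻¹) • v = w := by
    rw [mul_smul, ← e1, inv_smul_smul, e1']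
  have f2 : (k' * k⁻¹) • (v + w) = v + w := by
    rw [mul_smul, ← e2, inv_smul_smul, e2', add_comm]
    rw [e2]
  refine ⟨k' * k⁻¹, f1, ?_⟩
  have h3 : (k' * k⁻¹) • (v + w) = (k' * k⁻¹) • v + (k' * k⁻¹) • w := co_add _ _ _
  rw [h3, f1, add_comm v w] at f2
  exact add_left_cancel f2

/-! ### The point stabilizer -/

def W22 : Set (GolayPt → ℤ) := {y | y ∈ tset CoT100.vT 100 ∧ dotInt (vc sz) y = ((8 : ℕ) : ℤ)}
def W77 : Set (GolayPt → ℤ) := {y | y ∈ tset CoT100.vT 100 ∧ dotInt (vc sz) y = ((16 : ℕ) : ℤ)}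

theorem W22_ncard : W22.ncard = 22 := by
  have h := ncard_dot CoT100.tab (k := 7) (by norm_num) sz 8
  have h2 : cntB (fun i => dotB sz 8 (CoT100.vT i)) 100 7 = 22 := by decide +kernel
  rw [h2] at h
  exact h

theorem W77_ncard : W77.ncard = 77 := by
  have h := ncard_dot CoT100.tab (k := 7) (by norm_num) sz 16
  have h2 : cntB (fun i => dotB sz 16 (CoT100.vT i)) 100 7 = 77 := by decide +kernel
  rw [h2] at h
  exact h

theorem all100 : ∀ i, i < 100 → CoT100.vT i = sz ∨ dotB sz 8 (CoT100.vT i) = true ∨ dotB sz 16 (CoT100.vT i) = true := by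
  have h : allR (fun i => or (Nat.beq (CoT100.vT i) sz) (or (dotB sz 8 (CoT100.vT i)) (dotB sz 16 (CoT100.vT i)))) 0 100 = true := by
    decide +kernel
  intro i hi
  have h1 := allR_spec h i (Nat.zero_le _) hi
  simp only [Bool.or_eq_true] at h1
  rcases h1 with h1 | h1 | h1
  · exact Or.inl (Nat.eq_of_beq_eq_true h1)
  · exact Or.inr (Or.inl h1)
  · exact Or.inr (Or.inr h1)

theorem dot_S1 {g : Co0} (hg : g ∈ S1) (z : LL) : dotInt (vc sz) ((g • z : LL) : GolayPt → ℤ) = dotInt (vc sz) (z : GolayPt → ℤ) := by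
  have := dot_smul g z0 z
  rw [show g • z0 = z0 from hg.2] at this
  exact this

theorem T22_eq : tset CoT22.vT 22 = W22 := by
  refine tree_fills CoT22.tab ((tset_finite _ _).subset (fun y hy => hy.1)) W22_ncard.le ?_
  rintro y ⟨i, hi, rfl⟩
  obtain ⟨g, hg, e⟩ := reach22 i hi
  rw [← e]
  have hy8 : z8.1 ∈ W22 := by
    refine ⟨?_, ?_⟩
    · rw [T100_eq]
      apply mem_W100.2
      refine ⟨?_, ?_, ?_⟩
      · show sqNorm (vc sz8) = 32
        rw [norm_eq_dot, dot_vc]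
        decide +kernel
      · show dotInt (vc su) (vc sz8) = 24
        rw [dot_vc]
        decide +kernel
      · show dotInt (vc st) (vc sz8) = 0
        rw [dot_vc]
        decide +kernel
    · show dotInt (vc sz) (vc sz8) = _
      rw [dot_vc]
      decide +kernel
  refine ⟨?_, ?_⟩
  · rw [T100_eq]
    apply S_pres hg.1
    rw [← T100_eq]
    exact hy8.1
  · rw [dot_S1 hg]
    exact hy8.2

theorem T77_eq : tset CoT77.vT 77 = W77 := by
  refine tree_fills CoT77.tab ((tset_finite _ _).subset (fun y hy => hy.1)) W77_ncard.le ?_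
  rintro y ⟨i, hi, rfl⟩
  obtain ⟨g, hg, e⟩ := reach77 i hi
  rw [← e]
  have hy8 : zo.1 ∈ W77 := by
    refine ⟨?_, ?_⟩
    · rw [T100_eq]
      apply mem_W100.2
      refine ⟨?_, ?_, ?_⟩
      · show sqNorm (vc szo) = 32
        rw [norm_eq_dot, dot_vc]
        decide +kernel
      · show dotInt (vc su) (vc szo) = 24
        rw [dot_vc]
        decide +kernel
      · show dotInt (vc st) (vc szo) = 0
        rw [dot_vc]
        decide +kernel
    · show dotInt (vc sz) (vc szo) = _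
      rw [dot_vc]
      decide +kernel
  refine ⟨?_, ?_⟩
  · rw [T100_eq]
    apply S_pres hg.1
    rw [← T100_eq]
    exact hy8.1
  · rw [dot_S1 hg]
    exact hy8.2

theorem W22_sub : W22 ⊆ Orb S1 z8 := by
  rw [← T22_eq]
  rintro y ⟨i, hi, rfl⟩
  obtain ⟨g, hg, e⟩ := reach22 i hi
  exact ⟨g, hg, e⟩

theorem W77_sub : W77 ⊆ Orb S1 zo := by
  rw [← T77_eq]
  rintro y ⟨i, hi, rfl⟩
  obtain ⟨g, hg, e⟩ := reach77 i hi
  exact ⟨g, hg, e⟩

theorem exists_triple (v w x : LL) (hv : sqNorm (v : GolayPt → ℤ) = 48) (hw : sqNorm (w : GolayPt → ℤ) = 48)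
    (hvw : dotInt (v : GolayPt → ℤ) (w : GolayPt → ℤ) = -32) (hx : x ∈ Set100 v w) :
    ∃ k : Co0, k • u0 = v ∧ k • t0 = v + w ∧ k • z0 = x := by
  obtain ⟨k, e1, e2⟩ := exists_hs v w hv hw hvw
  obtain ⟨c, hc, e⟩ := W100_sub ((mem_set100 e1 e2 x).1 hx)
  have e' : c • z0 = k⁻¹ • x := Subtype.ext e
  refine ⟨k * c, ?_, ?_, ?_⟩
  · rw [mul_smul, show c • u0 = u0 from hc.1, e1]
  · rw [mul_smul, show c • t0 = t0 from hc.2, e2]
  · rw [mul_smul, e', smul_inv_smul]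

theorem rank3 (v w x : LL) (hv : sqNorm (v : GolayPt → ℤ) = 48) (hw : sqNorm (w : GolayPt → ℤ) = 48)
    (hvw : dotInt (v : GolayPt → ℤ) (w : GolayPt → ℤ) = -32) (hx : x ∈ Set100 v w) :
    {y : LL | y ∈ Set100 v w ∧ dotInt (x : GolayPt → ℤ) (y : GolayPt → ℤ) = 8}.ncard = 22 ∧
    {y : LL | y ∈ Set100 v w ∧ y ≠ x ∧ dotInt (x : GolayPt → ℤ) (y : GolayPt → ℤ) ≠ 8}.ncard = 77 ∧
    ∀ y ∈ Set100 v w, ∀ y' ∈ Set100 v w, y ≠ x → y' ≠ x →
      (dotInt (x : GolayPt → ℤ) (y : GolayPt → ℤ) = 8 ↔ dotInt (x : GolayPt → ℤ) (y' : GolayPt → ℤ) = 8) →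
      ∃ g : Co0, g • v = v ∧ g • w = w ∧ g • x = x ∧ g • y = y' := by
  obtain ⟨k, e1, e2, e3⟩ := exists_triple v w x hv hw hvw hx
  have hW : ∀ y : LL, y ∈ Set100 v w ↔ ((k⁻¹ • y : LL) : GolayPt → ℤ) ∈ tset CoT100.vT 100 := by
    intro y
    rw [mem_set100 e1 e2 y, T100_eq]
  have hd : ∀ y : LL, dotInt (vc sz) ((k⁻¹ • y : LL) : GolayPt → ℤ) = dotInt (x : GolayPt → ℤ) (y : GolayPt → ℤ) := by
    intro y
    rw [← e3]
    exact dot_inv k z0 y
  have hsub : ∀ W : Set (GolayPt → ℤ), W ⊆ tset CoT100.vT 100 → W ⊆ leechLattice := by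
    intro W hW'
    exact hW'.trans (by rw [T100_eq]; exact W100_le)
  have cls : ∀ z : LL, z ∈ Set100 v w → z ≠ x → (dotInt (x : GolayPt → ℤ) (z : GolayPt → ℤ) = 8 ∧ ((k⁻¹ • z : LL) : GolayPt → ℤ) ∈ W22) ∨
      (dotInt (x : GolayPt → ℤ) (z : GolayPt → ℤ) = 16 ∧ ((k⁻¹ • z : LL) : GolayPt → ℤ) ∈ W77) := by
    intro z hz hzx
    have h1 := (hW z).1 hz
    obtain ⟨i, hi, e⟩ := h1
    rcases all100 i hi with h2 | h2 | h2
    · exfalso
      apply hzx
      have h3 : k⁻¹ • z = z0 := by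
        apply Subtype.ext
        rw [e, h2]
        rfl
      rw [← e3, ← h3, smul_inv_smul]
    · left
      have h3 := dotB_iff.1 h2
      rw [← e, hd] at h3
      refine ⟨by rw [h3]; norm_num, ?_⟩
      refine ⟨(hW z).1 hz, ?_⟩
      rw [hd]
      exact h3
    · right
      have h3 := dotB_iff.1 h2
      rw [← e, hd] at h3
      refine ⟨by rw [h3]; norm_num, ?_⟩
      refine ⟨(hW z).1 hz, ?_⟩
      rw [hd]
      exact h3
  have hxself : dotInt (x : GolayPt → ℤ) (x : GolayPt → ℤ) = 32 := by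
    rw [← e3, dot_smul]
    show dotInt (vc sz) (vc sz) = 32
    rw [dot_vc]
    decide +kernel
  refine ⟨?_, ?_, ?_⟩
  · have h : {y : LL | y ∈ Set100 v w ∧ dotInt (x : GolayPt → ℤ) (y : GolayPt → ℤ) = 8} =
        {y : LL | ((k⁻¹ • y : LL) : GolayPt → ℤ) ∈ W22} := by
      ext y
      simp only [Set.mem_ofPred_eq, W22]
      rw [hW, hd]
      norm_num
    rw [h, ncard_pull k (hsub W22 (fun y hy => hy.1)), W22_ncard]
  · have h : {y : LL | y ∈ Set100 v w ∧ y ≠ x ∧ dotInt (x : GolayPt → ℤ) (y : GolayPt → ℤ) ≠ 8} =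
        {y : LL | ((k⁻¹ • y : LL) : GolayPt → ℤ) ∈ W77} := by
      ext y
      simp only [Set.mem_ofPred_eq]
      constructor
      · rintro ⟨h1, h2, h3⟩
        rcases cls y h1 h2 with ⟨a1, -⟩ | ⟨-, a2⟩
        · exact absurd a1 h3
        · exact a2
      · intro h1
        have h2 : y ∈ Set100 v w := (hW y).2 h1.1
        have h3 : dotInt (x : GolayPt → ℤ) (y : GolayPt → ℤ) = 16 := by
          rw [← hd]
          have := h1.2
          rw [this]
          norm_num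
        refine ⟨h2, ?_, by rw [h3]; norm_num⟩
        rintro rfl
        rw [hxself] at h3
        norm_num at h3
    rw [h, ncard_pull k (hsub W77 (fun y hy => hy.1)), W77_ncard]
  · intro y hy y' hy' hyx hyx' hdd
    have fin : ∀ c ∈ S1, (k * c * k⁻¹) • y = y' → ∃ g : Co0, g • v = v ∧ g • w = w ∧ g • x = x ∧ g • y = y' := by
      intro c hc e
      have f1 : (k * c * k⁻¹) • v = v := by
        rw [← e1]
        exact conj_fix hc.1.1
      have f2 : (k * c * k⁻¹) • (v + w) = v + w := by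
        rw [← e2]
        exact conj_fix hc.1.2
      refine ⟨k * c * k⁻¹, f1, fix_w f1 f2, ?_, e⟩
      rw [← e3]
      exact conj_fix hc.2
    rcases cls y hy hyx with ⟨a1, a2⟩ | ⟨a1, a2⟩ <;> rcases cls y' hy' hyx' with ⟨b1, b2⟩ | ⟨b1, b2⟩
    · obtain ⟨c, hc, e⟩ := move W22_sub k a2 b2
      exact fin c hc e
    · have := hdd.1 a1
      rw [b1] at this
      norm_num at this
    · have := hdd.2 b1
      rw [a1] at this
      norm_num at this
    · obtain ⟨c, hc, e⟩ := move W77_sub k a2 b2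
      exact fin c hc e

end Cfsg.Agent.Lib.CoHS
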