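import Cfsg.Agent.Lib.CoK2D
/-! The letters preserve the graph. -/
set_option autoImplicit false
set_option maxRecDepth 1000000
namespace Cfsg.Agent.Lib.CoK2D
open Cfsg.Agent.Lib.PChain Cfsg.Agent.Lib.PermChain Cfsg.Agent.Lib.PermChain2

theorem gP0_12 : allR (presV dD gE 0) 768 832 = true := by decide +kernel
theorem gP0_13 : allR (presV dD gE 0) 832 896 = true := by decide +kernel
theorem gP0_14 : allR (presV dD gE 0) 896 960 = true := by decide +kernel
theorem gP0_15 : allR (presV dD gE 0) 960 1024 = true := by decide +kernel
theorem gP0_16 : allR (presV dD gE 0) 1024 1088 = true := by decide +kernel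
theorem gP0_17 : allR (presV dD gE 0) 1088 1152 = true := by decide +kernel
theorem gP0_18 : allR (presV dD gE 0) 1152 1216 = true := by decide +kernel
theorem gP0_19 : allR (presV dD gE 0) 1216 1280 = true := by decide +kernel
theorem gP0_20 : allR (presV dD gE 0) 1280 1344 = true := by decide +kernel
theorem gP0_21 : allR (presV dD gE 0) 1344 1408 = true := by decide +kernel
theorem gP0_22 : allR (presV dD gE 0) 1408 1472 = true := by decide +kernel
theorem gP0_23 : allR (presV dD gE 0) 1472 1536 = true := by decide +kernel

end Cfsg.Agent.Lib.CoK2D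

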