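import Cfsg.Agent.Lib.CoK2D
/-! The letters preserve the graph. -/
set_option autoImplicit false
set_option maxRecDepth 1000000
namespace Cfsg.Agent.Lib.CoK2D
open Cfsg.Agent.Lib.PChain Cfsg.Agent.Lib.PermChain Cfsg.Agent.Lib.PermChain2

theorem gP1_24 : allR (presV dD gE 1) 1536 1600 = true := by decide +kernel
theorem gP1_25 : allR (presV dD gE 1) 1600 1664 = true := by decide +kernel
theorem gP1_26 : allR (presV dD gE 1) 1664 1728 = true := by decide +kernel
theorem gP1_27 : allR (presV dD gE 1) 1728 1792 = true := by decide +kernel
theorem gP1_28 : allR (presV dD gE 1) 1792 1856 = true := by decide +kernel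
theorem gP1_29 : allR (presV dD gE 1) 1856 1920 = true := by decide +kernel
theorem gP1_30 : allR (presV dD gE 1) 1920 1984 = true := by decide +kernel
theorem gP1_31 : allR (presV dD gE 1) 1984 2048 = true := by decide +kernel
theorem gP1_32 : allR (presV dD gE 1) 2048 2112 = true := by decide +kernel
theorem gP1_33 : allR (presV dD gE 1) 2112 2176 = true := by decide +kernel
theorem gP1_34 : allR (presV dD gE 1) 2176 2240 = true := by decide +kernel
theorem gP1_35 : allR (presV dD gE 1) 2240 2300 = true := by decide +kernel

end Cfsg.Agent.Lib.CoK2D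

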