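import Cfsg.Agent.Lib.CoK2P0x0
import Cfsg.Agent.Lib.CoK2P0x1
import Cfsg.Agent.Lib.CoK2P0x2
import Cfsg.Agent.Lib.CoK2P1x0
import Cfsg.Agent.Lib.CoK2P1x1
import Cfsg.Agent.Lib.CoK2P1x2
/-! Checks of the certificate. -/
set_option autoImplicit false
set_option linter.unusedVariables false
set_option maxRecDepth 1000000
namespace Cfsg.Agent.Lib.CoK2D
open Cfsg.Agent.Lib.PChain Cfsg.Agent.Lib.PermChain Cfsg.Agent.Lib.PermChain2 Cfsg.Agent.Lib.CoLink Cfsg.Agent.Lib.CoLetter Cfsg.Agent.Lib.CoCert Cfsg.Agent.Lib.CoTree Cfsg.Agent.Lib.CoCensus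

theorem cL_0 : allR (letterY dD) 0 1 = true := by decide +kernel
theorem cL_1 : allR (letterY dD) 1 2 = true := by decide +kernel
theorem cL_2 : allR (letterY dD) 2 3 = true := by decide +kernel
theorem cL_3 : allR (letterY dD) 3 4 = true := by decide +kernel
theorem cL_4 : allR (letterY dD) 4 5 = true := by decide +kernel
theorem cL_5 : allR (letterY dD) 5 6 = true := by decide +kernel
theorem cL_6 : allR (letterY dD) 6 7 = true := by decide +kernel
theorem cL_7 : allR (letterY dD) 7 8 = true := by decide +kernel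
theorem cL_8 : allR (letterY dD) 8 9 = true := by decide +kernel
theorem cL_9 : allR (letterY dD) 9 10 = true := by decide +kernel
theorem cL_10 : allR (letterY dD) 10 11 = true := by decide +kernel
theorem cL_11 : allR (letterY dD) 11 12 = true := by decide +kernel
theorem cL_12 : allR (letterY dD) 12 13 = true := by decide +kernel
theorem cL_13 : allR (letterY dD) 13 14 = true := by decide +kernel
theorem cL_14 : allR (letterY dD) 14 15 = true := by decide +kernel
theorem cL_15 : allR (letterY dD) 15 16 = true := by decide +kernel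
theorem cL_16 : allR (letterY dD) 16 17 = true := by decide +kernel
theorem cL_17 : allR (letterY dD) 17 18 = true := by decide +kernel
theorem cL_18 : allR (letterY dD) 18 19 = true := by decide +kernel
theorem cL_19 : allR (letterY dD) 19 20 = true := by decide +kernel
theorem cL_20 : allR (letterY dD) 20 21 = true := by decide +kernel
theorem cL_21 : allR (letterY dD) 21 22 = true := by decide +kernel
theorem cL_22 : allR (letterY dD) 22 23 = true := by decide +kernel
theorem cL_23 : allR (letterY dD) 23 24 = true := by decide +kernel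
theorem cL_24 : allR (letterY dD) 24 25 = true := by decide +kernel
theorem cL_25 : allR (letterY dD) 25 26 = true := by decide +kernel
theorem cL_26 : allR (letterY dD) 26 27 = true := by decide +kernel
theorem cL_27 : allR (letterY dD) 27 28 = true := by decide +kernel
theorem cL_28 : allR (letterY dD) 28 29 = true := by decide +kernel
theorem cL_29 : allR (letterY dD) 29 30 = true := by decide +kernel
theorem cL_30 : allR (letterY dD) 30 31 = true := by decide +kernel
theorem cL_31 : allR (letterY dD) 31 32 = true := by decide +kernel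
theorem cL_32 : allR (letterY dD) 32 33 = true := by decide +kernel
theorem cL_33 : allR (letterY dD) 33 34 = true := by decide +kernel
theorem cL_34 : allR (letterY dD) 34 35 = true := by decide +kernel
theorem cL_35 : allR (letterY dD) 35 36 = true := by decide +kernel
theorem cL_36 : allR (letterY dD) 36 37 = true := by decide +kernel
theorem cL_37 : allR (letterY dD) 37 38 = true := by decide +kernel
theorem cL_38 : allR (letterY dD) 38 39 = true := by decide +kernel
theorem cL_39 : allR (letterY dD) 39 40 = true := by decide +kernel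
theorem cL_40 : allR (letterY dD) 40 41 = true := by decide +kernel
theorem cL_41 : allR (letterY dD) 41 42 = true := by decide +kernel
theorem cL_42 : allR (letterY dD) 42 43 = true := by decide +kernel
theorem cL_43 : allR (letterY dD) 43 44 = true := by decide +kernel
theorem cL_44 : allR (letterY dD) 44 45 = true := by decide +kernel
theorem cL_45 : allR (letterY dD) 45 46 = true := by decide +kernel
theorem cL_46 : allR (letterY dD) 46 47 = true := by decide +kernel
theorem cL_47 : allR (letterY dD) 47 48 = true := by decide +kernel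
theorem cL_48 : allR (letterY dD) 48 49 = true := by decide +kernel
theorem cL_49 : allR (letterY dD) 49 50 = true := by decide +kernel
theorem cL_50 : allR (letterY dD) 50 51 = true := by decide +kernel
theorem cL_51 : allR (letterY dD) 51 52 = true := by decide +kernel
theorem cL_52 : allR (letterY dD) 52 53 = true := by decide +kernel
theorem cL : RangeOK (letterY dD) 0 53 := (((((((((((((((((((((((((((((((((((((((((((((((((((((RangeOK.of_allR cL_0)).trans (RangeOK.of_allR cL_1)).trans (RangeOK.of_allR cL_2)).trans (RangeOK.of_allR cL_3)).trans (RangeOK.of_allR cL_4)).trans (RangeOK.of_allR cL_5)).trans (RangeOK.of_allR cL_6)).trans (RangeOK.of_allR cL_7)).trans (RangeOK.of_allR cL_8)).trans (RangeOK.of_allR cL_9)).trans (RangeOK.of_allR cL_10)).trans (RangeOK.of_allR cL_11)).trans (RangeOK.of_allR cL_12)).trans (RangeOK.of_allR cL_13)).trans (RangeOK.of_allR cL_14)).trans (RangeOK.of_allR cL_15)).trans (RangeOK.of_allR cL_16)).trans (RangeOK.of_allR cL_17)).trans (RangeOK.of_allR cL_18)).trans (RangeOK.of_allR cL_19)).trans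 (RangeOK.of_allR cL_20)).trans (RangeOK.of_allR cL_21)).trans (RangeOK.of_allR cL_22)).trans (RangeOK.of_allR cL_23)).trans (RangeOK.of_allR cL_24)).trans (RangeOK.of_allR cL_25)).trans (RangeOK.of_allR cL_26)).trans (RangeOK.of_allR cL_27)).trans (RangeOK.of_allR cL_28)).trans (RangeOK.of_allR cL_29)).trans (RangeOK.of_allR cL_30)).trans (RangeOK.of_allR cL_31)).trans (RangeOK.of_allR cL_32)).trans (RangeOK.of_allR cL_33)).trans (RangeOK.of_allR cL_34)).trans (RangeOK.of_allR cL_35)).trans (RangeOK.of_allR cL_36)).trans (RangeOK.of_allR cL_37)).trans (RangeOK.of_allR cL_38)).trans (RangeOK.of_allR cL_39)).trans (RangeOK.of_allR cL_40)).trans (RangeOK.of_allR cL_41)).trans (RangeOK.of_allR cL_42)).trans (RangeOK.of_allR cL_43)).trans (RangeOK.of_allR cL_44)).trans (RangeOK.of_allR cL_45)).trans (RangeOK.of_allR cL_46)).trans (RangeOK.of_allR cL_47)).trans (RangeOK.of_allR cL_48)).trans (RangeOK.of_allR cL_49)).trans (RangeOK.of_allR cL_50)).trans (RangeOK.of_allR cL_51)).trans (RangeOK.of_allR cL_52)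
theorem cB : baseOK dD = true := by decide +kernel
theorem cN : numOK dD = true := by decide +kernel
theorem cS : shapeOK (cd dD) = true := by decide +kernel
theorem cH0_0 : allR (hwY dD 0) 2 3 = true := by decide +kernel
theorem cH0_1 : allR (hwY dD 0) 3 4 = true := by decide +kernel
theorem cH0 : RangeOK (hwY dD 0) 2 4 := ((RangeOK.of_allR cH0_0)).trans (RangeOK.of_allR cH0_1)
theorem cH1_0 : allR (hwY dD 1) 4 5 = true := by decide +kernel
theorem cH1_1 : allR (hwY dD 1) 5 6 = true := by decide +kernel
theorem cH1 : RangeOK (hwY dD 1) 4 6 := ((RangeOK.of_allR cH1_0)).trans (RangeOK.of_allR cH1_1)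
theorem cH2_0 : allR (hwY dD 2) 6 7 = true := by decide +kernel
theorem cH2_1 : allR (hwY dD 2) 7 8 = true := by decide +kernel
theorem cH2 : RangeOK (hwY dD 2) 6 8 := ((RangeOK.of_allR cH2_0)).trans (RangeOK.of_allR cH2_1)
theorem cH3_0 : allR (hwY dD 3) 8 9 = true := by decide +kernel
theorem cH3_1 : allR (hwY dD 3) 9 10 = true := by decide +kernel
theorem cH3_2 : allR (hwY dD 3) 10 11 = true := by decide +kernel
theorem cH3 : RangeOK (hwY dD 3) 8 11 := (((RangeOK.of_allR cH3_0)).trans (RangeOK.of_allR cH3_1)).trans (RangeOK.of_allR cH3_2)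
theorem cH4_0 : allR (hwY dD 4) 11 12 = true := by decide +kernel
theorem cH4_1 : allR (hwY dD 4) 12 13 = true := by decide +kernel
theorem cH4_2 : allR (hwY dD 4) 13 14 = true := by decide +kernel
theorem cH4 : RangeOK (hwY dD 4) 11 14 := (((RangeOK.of_allR cH4_0)).trans (RangeOK.of_allR cH4_1)).trans (RangeOK.of_allR cH4_2)
theorem cH5_0 : allR (hwY dD 5) 14 15 = true := by decide +kernel
theorem cH5_1 : allR (hwY dD 5) 15 16 = true := by decide +kernel
theorem cH5_2 : allR (hwY dD 5) 16 17 = true := by decide +kernel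
theorem cH5_3 : allR (hwY dD 5) 17 18 = true := by decide +kernel
theorem cH5_4 : allR (hwY dD 5) 18 19 = true := by decide +kernel
theorem cH5 : RangeOK (hwY dD 5) 14 19 := (((((RangeOK.of_allR cH5_0)).trans (RangeOK.of_allR cH5_1)).trans (RangeOK.of_allR cH5_2)).trans (RangeOK.of_allR cH5_3)).trans (RangeOK.of_allR cH5_4)
theorem cH6_0 : allR (hwY dD 6) 19 20 = true := by decide +kernel
theorem cH6_1 : allR (hwY dD 6) 20 21 = true := by decide +kernel
theorem cH6_2 : allR (hwY dD 6) 21 22 = true := by decide +kernel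
theorem cH6_3 : allR (hwY dD 6) 22 23 = true := by decide +kernel
theorem cH6_4 : allR (hwY dD 6) 23 24 = true := by decide +kernel
theorem cH6_5 : allR (hwY dD 6) 24 25 = true := by decide +kernel
theorem cH6_6 : allR (hwY dD 6) 25 26 = true := by decide +kernel
theorem cH6_7 : allR (hwY dD 6) 26 27 = true := by decide +kernel
theorem cH6 : RangeOK (hwY dD 6) 19 27 := ((((((((RangeOK.of_allR cH6_0)).trans (RangeOK.of_allR cH6_1)).trans (RangeOK.of_allR cH6_2)).trans (RangeOK.of_allR cH6_3)).trans (RangeOK.of_allR cH6_4)).trans (RangeOK.of_allR cH6_5)).trans (RangeOK.of_allR cH6_6)).trans (RangeOK.of_allR cH6_7)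
theorem cH7_0 : allR (hwY dD 7) 27 28 = true := by decide +kernel
theorem cH7_1 : allR (hwY dD 7) 28 29 = true := by decide +kernel
theorem cH7_2 : allR (hwY dD 7) 29 30 = true := by decide +kernel
theorem cH7_3 : allR (hwY dD 7) 30 31 = true := by decide +kernel
theorem cH7 : RangeOK (hwY dD 7) 27 31 := ((((RangeOK.of_allR cH7_0)).trans (RangeOK.of_allR cH7_1)).trans (RangeOK.of_allR cH7_2)).trans (RangeOK.of_allR cH7_3)
theorem cH : hwAll dD := by
  intro j hj
  have hj' : j < 9 := hj
  interval_cases j
  · exact cH0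
  · exact cH1
  · exact cH2
  · exact cH3
  · exact cH4
  · exact cH5
  · exact cH6
  · exact cH7
  · exact RangeOK.nil _ _
theorem cV0_0 : allR (levelP (cd dD) 0) 0 64 = true := by decide +kernel
theorem cV0_1 : allR (levelP (cd dD) 0) 64 128 = true := by decide +kernel
theorem cV0_2 : allR (levelP (cd dD) 0) 128 192 = true := by decide +kernel
theorem cV0_3 : allR (levelP (cd dD) 0) 192 256 = true := by decide +kernel
theorem cV0_4 : allR (levelP (cd dD) 0) 256 320 = true := by decide +kernel
theorem cV0_5 : allR (levelP (cd dD) 0) 320 384 = true := by decide +kernel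
theorem cV0_6 : allR (levelP (cd dD) 0) 384 448 = true := by decide +kernel
theorem cV0_7 : allR (levelP (cd dD) 0) 448 512 = true := by decide +kernel
theorem cV0_8 : allR (levelP (cd dD) 0) 512 576 = true := by decide +kernel
theorem cV0_9 : allR (levelP (cd dD) 0) 576 640 = true := by decide +kernel
theorem cV0_10 : allR (levelP (cd dD) 0) 640 704 = true := by decide +kernel
theorem cV0_11 : allR (levelP (cd dD) 0) 704 768 = true := by decide +kernel
theorem cV0_12 : allR (levelP (cd dD) 0) 768 832 = true := by decide +kernel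
theorem cV0_13 : allR (levelP (cd dD) 0) 832 896 = true := by decide +kernel
theorem cV0_14 : allR (levelP (cd dD) 0) 896 960 = true := by decide +kernel
theorem cV0_15 : allR (levelP (cd dD) 0) 960 1024 = true := by decide +kernel
theorem cV0_16 : allR (levelP (cd dD) 0) 1024 1088 = true := by decide +kernel
theorem cV0_17 : allR (levelP (cd dD) 0) 1088 1152 = true := by decide +kernel
theorem cV0_18 : allR (levelP (cd dD) 0) 1152 1216 = true := by decide +kernel
theorem cV0_19 : allR (levelP (cd dD) 0) 1216 1280 = true := by decide +kernel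
theorem cV0_20 : allR (levelP (cd dD) 0) 1280 1344 = true := by decide +kernel
theorem cV0_21 : allR (levelP (cd dD) 0) 1344 1408 = true := by decide +kernel
theorem cV0_22 : allR (levelP (cd dD) 0) 1408 1472 = true := by decide +kernel
theorem cV0_23 : allR (levelP (cd dD) 0) 1472 1536 = true := by decide +kernel
theorem cV0_24 : allR (levelP (cd dD) 0) 1536 1600 = true := by decide +kernel
theorem cV0_25 : allR (levelP (cd dD) 0) 1600 1664 = true := by decide +kernel
theorem cV0_26 : allR (levelP (cd dD) 0) 1664 1728 = true := by decide +kernel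
theorem cV0_27 : allR (levelP (cd dD) 0) 1728 1792 = true := by decide +kernel
theorem cV0_28 : allR (levelP (cd dD) 0) 1792 1856 = true := by decide +kernel
theorem cV0_29 : allR (levelP (cd dD) 0) 1856 1920 = true := by decide +kernel
theorem cV0_30 : allR (levelP (cd dD) 0) 1920 1984 = true := by decide +kernel
theorem cV0_31 : allR (levelP (cd dD) 0) 1984 2048 = true := by decide +kernel
theorem cV0_32 : allR (levelP (cd dD) 0) 2048 2112 = true := by decide +kernel
theorem cV0_33 : allR (levelP (cd dD) 0) 2112 2176 = true := by decide +kernel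
theorem cV0_34 : allR (levelP (cd dD) 0) 2176 2240 = true := by decide +kernel
theorem cV0_35 : allR (levelP (cd dD) 0) 2240 2300 = true := by decide +kernel
theorem cV0 : RangeOK (levelP (cd dD) 0) 0 2300 := ((((((((((((((((((((((((((((((((((((RangeOK.of_allR cV0_0)).trans (RangeOK.of_allR cV0_1)).trans (RangeOK.of_allR cV0_2)).trans (RangeOK.of_allR cV0_3)).trans (RangeOK.of_allR cV0_4)).trans (RangeOK.of_allR cV0_5)).trans (RangeOK.of_allR cV0_6)).trans (RangeOK.of_allR cV0_7)).trans (RangeOK.of_allR cV0_8)).trans (RangeOK.of_allR cV0_9)).trans (RangeOK.of_allR cV0_10)).trans (RangeOK.of_allR cV0_11)).trans (RangeOK.of_allR cV0_12)).trans (RangeOK.of_allR cV0_13)).trans (RangeOK.of_allR cV0_14)).trans (RangeOK.of_allR cV0_15)).trans (RangeOK.of_allR cV0_16)).trans (RangeOK.of_allR cV0_17)).trans (RangeOK.of_allR cV0_18)).trans (RangeOK.of_allR cV0_19)).trans (RangeOK.of_allR cV0_20)).trans (RangeOK.of_allR cV0_21)).trans (RangeOK.of_allR cV0_22)).trans (RangeOK.of_allR cV0_23)).trans (RangeOK.of_allR cV0_24)).trans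 (RangeOK.of_allR cV0_25)).trans (RangeOK.of_allR cV0_26)).trans (RangeOK.of_allR cV0_27)).trans (RangeOK.of_allR cV0_28)).trans (RangeOK.of_allR cV0_29)).trans (RangeOK.of_allR cV0_30)).trans (RangeOK.of_allR cV0_31)).trans (RangeOK.of_allR cV0_32)).trans (RangeOK.of_allR cV0_33)).trans (RangeOK.of_allR cV0_34)).trans (RangeOK.of_allR cV0_35)
theorem cV1_0 : allR (levelP (cd dD) 1) 2300 2364 = true := by decide +kernel
theorem cV1_1 : allR (levelP (cd dD) 1) 2364 2428 = true := by decide +kernel
theorem cV1_2 : allR (levelP (cd dD) 1) 2428 2492 = true := by decide +kernel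
theorem cV1_3 : allR (levelP (cd dD) 1) 2492 2556 = true := by decide +kernel
theorem cV1_4 : allR (levelP (cd dD) 1) 2556 2620 = true := by decide +kernel
theorem cV1_5 : allR (levelP (cd dD) 1) 2620 2684 = true := by decide +kernel
theorem cV1_6 : allR (levelP (cd dD) 1) 2684 2748 = true := by decide +kernel
theorem cV1_7 : allR (levelP (cd dD) 1) 2748 2812 = true := by decide +kernel
theorem cV1_8 : allR (levelP (cd dD) 1) 2812 2876 = true := by decide +kernel
theorem cV1_9 : allR (levelP (cd dD) 1) 2876 2940 = true := by decide +kernel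
theorem cV1_10 : allR (levelP (cd dD) 1) 2940 3004 = true := by decide +kernel
theorem cV1_11 : allR (levelP (cd dD) 1) 3004 3068 = true := by decide +kernel
theorem cV1_12 : allR (levelP (cd dD) 1) 3068 3132 = true := by decide +kernel
theorem cV1_13 : allR (levelP (cd dD) 1) 3132 3191 = true := by decide +kernel
theorem cV1 : RangeOK (levelP (cd dD) 1) 2300 3191 := ((((((((((((((RangeOK.of_allR cV1_0)).trans (RangeOK.of_allR cV1_1)).trans (RangeOK.of_allR cV1_2)).trans (RangeOK.of_allR cV1_3)).trans (RangeOK.of_allR cV1_4)).trans (RangeOK.of_allR cV1_5)).trans (RangeOK.of_allR cV1_6)).trans (RangeOK.of_allR cV1_7)).trans (RangeOK.of_allR cV1_8)).trans (RangeOK.of_allR cV1_9)).trans (RangeOK.of_allR cV1_10)).trans (RangeOK.of_allR cV1_11)).trans (RangeOK.of_allR cV1_12)).trans (RangeOK.of_allR cV1_13)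
theorem cV2_0 : allR (levelP (cd dD) 2) 3191 3233 = true := by decide +kernel
theorem cV2 : RangeOK (levelP (cd dD) 2) 3191 3233 := (RangeOK.of_allR cV2_0)
theorem cV3_0 : allR (levelP (cd dD) 3) 3233 3273 = true := by decide +kernel
theorem cV3 : RangeOK (levelP (cd dD) 3) 3233 3273 := (RangeOK.of_allR cV3_0)
theorem cV4_0 : allR (levelP (cd dD) 4) 3273 3277 = true := by decide +kernel
theorem cV4 : RangeOK (levelP (cd dD) 4) 3273 3277 := (RangeOK.of_allR cV4_0)
theorem cV5_0 : allR (levelP (cd dD) 5) 3277 3280 = true := by decide +kernel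
theorem cV5 : RangeOK (levelP (cd dD) 5) 3277 3280 := (RangeOK.of_allR cV5_0)
theorem cV6_0 : allR (levelP (cd dD) 6) 3280 3282 = true := by decide +kernel
theorem cV6 : RangeOK (levelP (cd dD) 6) 3280 3282 := (RangeOK.of_allR cV6_0)
theorem cV7_0 : allR (levelP (cd dD) 7) 3282 3314 = true := by decide +kernel
theorem cV7 : RangeOK (levelP (cd dD) 7) 3282 3314 := (RangeOK.of_allR cV7_0)
theorem cV8_0 : allR (levelP (cd dD) 8) 3314 3330 = true := by decide +kernel
theorem cV8 : RangeOK (levelP (cd dD) 8) 3314 3330 := (RangeOK.of_allR cV8_0)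
theorem cV : ∀ j, j < dD.k → RangeOK (levelP (cd dD) j) (dD.off j) (dD.off (j + 1)) := by
  intro j hj
  have hj' : j < 9 := hj
  interval_cases j
  · exact cV0
  · exact cV1
  · exact cV2
  · exact cV3
  · exact cV4
  · exact cV5
  · exact cV6
  · exact cV7
  · exact cV8
theorem gP0 : RangeOK (presV dD gE 0) 0 2300 := ((((((((((((((((((((((((((((((((((((RangeOK.of_allR gP0_0)).trans (RangeOK.of_allR gP0_1)).trans (RangeOK.of_allR gP0_2)).trans (RangeOK.of_allR gP0_3)).trans (RangeOK.of_allR gP0_4)).trans (RangeOK.of_allR gP0_5)).trans (RangeOK.of_allR gP0_6)).trans (RangeOK.of_allR gP0_7)).trans (RangeOK.of_allR gP0_8)).trans (RangeOK.of_allR gP0_9)).trans (RangeOK.of_allR gP0_10)).trans (RangeOK.of_allR gP0_11)).trans (RangeOK.of_allR gP0_12)).trans (RangeOK.of_allR gP0_13)).trans (RangeOK.of_allR gP0_14)).trans (RangeOK.of_allR gP0_15)).trans (RangeOK.of_allR gP0_16)).trans (RangeOK.of_allR gP0_17)).trans (RangeOK.of_allR gP0_18)).trans (RangeOK.of_allR gP0_19)).trans (RangeOK.of_allR gP0_20)).trans (RangeOK.of_allR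 gP0_21)).trans (RangeOK.of_allR gP0_22)).trans (RangeOK.of_allR gP0_23)).trans (RangeOK.of_allR gP0_24)).trans (RangeOK.of_allR gP0_25)).trans (RangeOK.of_allR gP0_26)).trans (RangeOK.of_allR gP0_27)).trans (RangeOK.of_allR gP0_28)).trans (RangeOK.of_allR gP0_29)).trans (RangeOK.of_allR gP0_30)).trans (RangeOK.of_allR gP0_31)).trans (RangeOK.of_allR gP0_32)).trans (RangeOK.of_allR gP0_33)).trans (RangeOK.of_allR gP0_34)).trans (RangeOK.of_allR gP0_35)
theorem gP1 : RangeOK (presV dD gE 1) 0 2300 := ((((((((((((((((((((((((((((((((((((RangeOK.of_allR gP1_0)).trans (RangeOK.of_allR gP1_1)).trans (RangeOK.of_allR gP1_2)).trans (RangeOK.of_allR gP1_3)).trans (RangeOK.of_allR gP1_4)).trans (RangeOK.of_allR gP1_5)).trans (RangeOK.of_allR gP1_6)).trans (RangeOK.of_allR gP1_7)).trans (RangeOK.of_allR gP1_8)).trans (RangeOK.of_allR gP1_9)).trans (RangeOK.of_allR gP1_10)).trans (RangeOK.of_allR gP1_11)).trans (RangeOK.of_allR gP1_12)).trans (RangeOK.of_allR gP1_13)).trans (RangeOK.of_allR gP1_14)).trans (RangeOK.of_allR gP1_15)).trans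 (RangeOK.of_allR gP1_16)).trans (RangeOK.of_allR gP1_17)).trans (RangeOK.of_allR gP1_18)).trans (RangeOK.of_allR gP1_19)).trans (RangeOK.of_allR gP1_20)).trans (RangeOK.of_allR gP1_21)).trans (RangeOK.of_allR gP1_22)).trans (RangeOK.of_allR gP1_23)).trans (RangeOK.of_allR gP1_24)).trans (RangeOK.of_allR gP1_25)).trans (RangeOK.of_allR gP1_26)).trans (RangeOK.of_allR gP1_27)).trans (RangeOK.of_allR gP1_28)).trans (RangeOK.of_allR gP1_29)).trans (RangeOK.of_allR gP1_30)).trans (RangeOK.of_allR gP1_31)).trans (RangeOK.of_allR gP1_32)).trans (RangeOK.of_allR gP1_33)).trans (RangeOK.of_allR gP1_34)).trans (RangeOK.of_allR gP1_35)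
theorem gP : ∀ x, dD.lt 0 ≤ x → x < dD.lt 1 → RangeOK (presV dD gE x) 0 dD.N := by
  intro x h1 h2
  have h1' : 0 ≤ x := h1
  have h2' : x < 2 := h2
  interval_cases x
  · exact gP0
  · exact gP1
theorem gS_0 : allR (setY dD gE) 0 29 = true := by decide +kernel
theorem gS : RangeOK (setY dD gE) 0 29 := (RangeOK.of_allR gS_0)
theorem gD_0 : allR (pointY dD gE) 0 2300 = true := by decide +kernel
theorem gD : RangeOK (pointY dD gE) 0 2300 := (RangeOK.of_allR gD_0)
theorem gG : GCert dD gE where
  pres := gP
  sets := gS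
  points := gD

theorem cert : Cert dD where
  letters := cL
  base := cB
  hw := cH
  num := cN
  shape := cS
  levels := cV
  faith := faith_of_graph cL cB gG

theorem sT : transOK dD = true := by decide +kernel
theorem sF : subOK dD sS = true := by decide +kernel
theorem sR : rootsOK dD sS = true := by decide +kernel
theorem sV : trivOK dD sS = true := by decide +kernel
theorem sD : divOK dD sS = true := by decide +kernel
theorem hk0 : 0 < dD.k := by decide +kernel
theorem hb0 : dD.B.getD 0 0 = 0 := by decide +kernel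
theorem hlen : 0 < dD.B.length := by decide +kernel
theorem hN0 : 0 < dD.N := by decide +kernel
theorem hN1 : 1 < dD.N := by decide +kernel
theorem sP0_0 : allR (powY dD 23 0) 0 2300 = true := by decide +kernel
theorem sP0 : RangeOK (powY dD 23 0) 0 2300 := (RangeOK.of_allR sP0_0)
theorem sP1_0 : allR (powY dD 23 1) 0 2300 = true := by decide +kernel
theorem sP1 : RangeOK (powY dD 23 1) 0 2300 := (RangeOK.of_allR sP1_0)
theorem sP : powOK dD 23 := by
  intro x h1 h2
  have h1' : 0 ≤ x := h1
  have h2' : x < 2 := h2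
  interval_cases x
  · exact sP0
  · exact sP1
theorem card_K0 : Nat.card (KK dD 0) = 42305421312000 := by
  have h := (cert.card (r := 9) (j := 0) (by decide +kernel)).2
  rw [h]
  decide +kernel
theorem card_K1 : Nat.card (KK dD 1) = 18393661440 := by
  have h := (cert.card (r := 8) (j := 1) (by decide +kernel)).2
  rw [h]
  decide +kernel
theorem simple_K0 : IsSimpleGroup (KK dD 0) := by
  refine simple (S := sS) cert hk0 hb0 hlen hN0 sT sF sR sV sD hN1 (p := 23) (e := 1) (by norm_num) ?_ ?_
  · rw [pow_one]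
    exact sP
  · rw [card_K1]
    norm_num
theorem lnTab : Tab lnT 2300 := tab_of (by decide +kernel) (by decide +kernel)
theorem lnZero : zeroC < lnT 0 := by decide +kernel
theorem lnMem : ∀ p, p < dD.N → vc (lnT p) ∈ Cfsg.leechLattice := by
  have h : allR (fun p => inLB (lnT p)) 0 2300 = true := by decide +kernel
  intro p hp
  exact mem_of_inLB (allR_spec h p (Nat.zero_le _) hp)
theorem lettersS : lettersOK dS := by
  intro x h1 h2
  have h : allR (letterY dS) 0 4 = true := by decide +kernel
  exact allR_spec h x h1 h2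
theorem lineC : ∀ x, x < 4 → ∀ p, p < dD.N → lineB lnT (ddT x) (rrT x) (sp x p) p = true := by
  have h : ∀ x, x < 4 → allR (fun p => lineB lnT (ddT x) (rrT x) (sp x p) p) 0 2300 = true := by decide +kernel
  intro x hx p hp
  exact allR_spec (h x hx) p (Nat.zero_le _) hp
theorem wordC : ∀ y, dD.lt 0 ≤ y → y < dD.lt 1 → ∀ p, p < dD.N → dD.σ y p = walk dS p (wdT y) ∧ y < dD.L := by
  have h : ∀ y, y < 2 → allR (fun p => Nat.beq (sg y p) (walk dS p (wdT y))) 0 2300 = true := by decide +kernel
  intro y h1 h2 p hp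
  have h2' : y < 2 := h2
  refine ⟨Nat.eq_of_beq_eq_true (allR_spec (h y h2') p (Nat.zero_le _) hp), lt_of_lt_of_le h2' (by decide +kernel)⟩
theorem wordL : ∀ y, dD.lt 0 ≤ y → y < dD.lt 1 → ∀ z ∈ wdT y, z < 4 := by
  have h : ∀ y, y < 2 → (wdT y).all (fun z => Nat.blt z 4) = true := by decide +kernel
  intro y h1 h2 z hz
  have h2' : y < 2 := h2
  have := (List.all_eq_true.1 (h y h2')) z hz
  simpa [Nat.blt_eq] using this

end Cfsg.Agent.Lib.CoK2D
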