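import Cfsg.Agent.Lib.CoK2D
/-! The letters preserve the graph. -/
set_option autoImplicit false
set_option maxRecDepth 1000000
namespace Cfsg.Agent.Lib.CoK2D
open Cfsg.Agent.Lib.PChain Cfsg.Agent.Lib.PermChain Cfsg.Agent.Lib.PermChain2

theorem gP0_0 : allR (presV dD gE 0) 0 64 = true := by decide +kernel
theorem gP0_1 : allR (presV dD gE 0) 64 128 = true := by decide +kernel
theorem gP0_2 : allR (presV dD gE 0) 128 192 = true := by decide +kernel
theorem gP0_3 : allR (presV dD gE 0) 192 256 = true := by decide +kernel
theorem gP0_4 : allR (presV dD gE 0) 256 320 = true := by decide +kernel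
theorem gP0_5 : allR (presV dD gE 0) 320 384 = true := by decide +kernel
theorem gP0_6 : allR (presV dD gE 0) 384 448 = true := by decide +kernel
theorem gP0_7 : allR (presV dD gE 0) 448 512 = true := by decide +kernel
theorem gP0_8 : allR (presV dD gE 0) 512 576 = true := by decide +kernel
theorem gP0_9 : allR (presV dD gE 0) 576 640 = true := by decide +kernel
theorem gP0_10 : allR (presV dD gE 0) 640 704 = true := by decide +kernel
theorem gP0_11 : allR (presV dD gE 0) 704 768 = true := by decide +kernel

end Cfsg.Agent.Lib.CoK2D

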