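import Cfsg.Agent.Lib.CoK3D
/-! Checks of the certificate. -/
set_option autoImplicit false
set_option linter.unusedVariables false
set_option maxRecDepth 1000000
namespace Cfsg.Agent.Lib.CoK3D
open Cfsg.Agent.Lib.PChain Cfsg.Agent.Lib.PermChain Cfsg.Agent.Lib.PermChain2 Cfsg.Agent.Lib.CoLink Cfsg.Agent.Lib.CoLetter Cfsg.Agent.Lib.CoCert Cfsg.Agent.Lib.CoTree Cfsg.Agent.Lib.CoCensus

theorem cL_0 : allR (letterY dD) 0 1 = true := by decide +kernel
theorem cL_1 : allR (letterY dD) 1 2 = true := by decide +kernel
theorem cL_2 : allR (letterY dD) 2 3 = true := by decide +kernel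
theorem cL_3 : allR (letterY dD) 3 4 = true := by decide +kernel
theorem cL_4 : allR (letterY dD) 4 5 = true := by decide +kernel
theorem cL_5 : allR (letterY dD) 5 6 = true := by decide +kernel
theorem cL_6 : allR (letterY dD) 6 7 = true := by decide +kernel
theorem cL_7 : allR (letterY dD) 7 8 = true := by decide +kernel
theorem cL_8 : allR (letterY dD) 8 9 = true := by decide +kernel
theorem cL_9 : allR (letterY dD) 9 10 = true := by decide +kernel
theorem cL_10 : allR (letterY dD) 10 11 = true := by decide +kernel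
theorem cL_11 : allR (letterY dD) 11 12 = true := by decide +kernel
theorem cL_12 : allR (letterY dD) 12 13 = true := by decide +kernel
theorem cL_13 : allR (letterY dD) 13 14 = true := by decide +kernel
theorem cL_14 : allR (letterY dD) 14 15 = true := by decide +kernel
theorem cL_15 : allR (letterY dD) 15 16 = true := by decide +kernel
theorem cL_16 : allR (letterY dD) 16 17 = true := by decide +kernel
theorem cL_17 : allR (letterY dD) 17 18 = true := by decide +kernel
theorem cL_18 : allR (letterY dD) 18 19 = true := by decide +kernel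
theorem cL_19 : allR (letterY dD) 19 20 = true := by decide +kernel
theorem cL_20 : allR (letterY dD) 20 21 = true := by decide +kernel
theorem cL_21 : allR (letterY dD) 21 22 = true := by decide +kernel
theorem cL_22 : allR (letterY dD) 22 23 = true := by decide +kernel
theorem cL_23 : allR (letterY dD) 23 24 = true := by decide +kernel
theorem cL_24 : allR (letterY dD) 24 25 = true := by decide +kernel
theorem cL_25 : allR (letterY dD) 25 26 = true := by decide +kernel
theorem cL_26 : allR (letterY dD) 26 27 = true := by decide +kernel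
theorem cL_27 : allR (letterY dD) 27 28 = true := by decide +kernel
theorem cL_28 : allR (letterY dD) 28 29 = true := by decide +kernel
theorem cL_29 : allR (letterY dD) 29 30 = true := by decide +kernel
theorem cL_30 : allR (letterY dD) 30 31 = true := by decide +kernel
theorem cL_31 : allR (letterY dD) 31 32 = true := by decide +kernel
theorem cL_32 : allR (letterY dD) 32 33 = true := by decide +kernel
theorem cL_33 : allR (letterY dD) 33 34 = true := by decide +kernel
theorem cL_34 : allR (letterY dD) 34 35 = true := by decide +kernel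
theorem cL_35 : allR (letterY dD) 35 36 = true := by decide +kernel
theorem cL_36 : allR (letterY dD) 36 37 = true := by decide +kernel
theorem cL_37 : allR (letterY dD) 37 38 = true := by decide +kernel
theorem cL : RangeOK (letterY dD) 0 38 := ((((((((((((((((((((((((((((((((((((((RangeOK.of_allR cL_0)).trans (RangeOK.of_allR cL_1)).trans (RangeOK.of_allR cL_2)).trans (RangeOK.of_allR cL_3)).trans (RangeOK.of_allR cL_4)).trans (RangeOK.of_allR cL_5)).trans (RangeOK.of_allR cL_6)).trans (RangeOK.of_allR cL_7)).trans (RangeOK.of_allR cL_8)).trans (RangeOK.of_allR cL_9)).trans (RangeOK.of_allR cL_10)).trans (RangeOK.of_allR cL_11)).trans (RangeOK.of_allR cL_12)).trans (RangeOK.of_allR cL_13)).trans (RangeOK.of_allR cL_14)).trans (RangeOK.of_allR cL_15)).trans (RangeOK.of_allR cL_16)).trans (RangeOK.of_allR cL_17)).trans (RangeOK.of_allR cL_18)).trans (RangeOK.of_allR cL_19)).trans (RangeOK.of_allR cL_20)).trans (RangeOK.of_allR cL_21)).trans (RangeOK.of_allR cL_22)).trans (RangeOK.of_allR cL_23)).trans (RangeOK.of_allR cL_24)).trans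 (RangeOK.of_allR cL_25)).trans (RangeOK.of_allR cL_26)).trans (RangeOK.of_allR cL_27)).trans (RangeOK.of_allR cL_28)).trans (RangeOK.of_allR cL_29)).trans (RangeOK.of_allR cL_30)).trans (RangeOK.of_allR cL_31)).trans (RangeOK.of_allR cL_32)).trans (RangeOK.of_allR cL_33)).trans (RangeOK.of_allR cL_34)).trans (RangeOK.of_allR cL_35)).trans (RangeOK.of_allR cL_36)).trans (RangeOK.of_allR cL_37)
theorem cB : baseOK dD = true := by decide +kernel
theorem cN : numOK dD = true := by decide +kernel
theorem cS : shapeOK (cd dD) = true := by decide +kernel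
theorem cH0_0 : allR (hwY dD 0) 2 3 = true := by decide +kernel
theorem cH0_1 : allR (hwY dD 0) 3 4 = true := by decide +kernel
theorem cH0 : RangeOK (hwY dD 0) 2 4 := ((RangeOK.of_allR cH0_0)).trans (RangeOK.of_allR cH0_1)
theorem cH1_0 : allR (hwY dD 1) 4 5 = true := by decide +kernel
theorem cH1_1 : allR (hwY dD 1) 5 6 = true := by decide +kernel
theorem cH1 : RangeOK (hwY dD 1) 4 6 := ((RangeOK.of_allR cH1_0)).trans (RangeOK.of_allR cH1_1)
theorem cH2_0 : allR (hwY dD 2) 6 7 = true := by decide +kernel
theorem cH2_1 : allR (hwY dD 2) 7 8 = true := by decide +kernel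
theorem cH2 : RangeOK (hwY dD 2) 6 8 := ((RangeOK.of_allR cH2_0)).trans (RangeOK.of_allR cH2_1)
theorem cH3_0 : allR (hwY dD 3) 8 9 = true := by decide +kernel
theorem cH3_1 : allR (hwY dD 3) 9 10 = true := by decide +kernel
theorem cH3 : RangeOK (hwY dD 3) 8 10 := ((RangeOK.of_allR cH3_0)).trans (RangeOK.of_allR cH3_1)
theorem cH4_0 : allR (hwY dD 4) 10 11 = true := by decide +kernel
theorem cH4_1 : allR (hwY dD 4) 11 12 = true := by decide +kernel
theorem cH4_2 : allR (hwY dD 4) 12 13 = true := by decide +kernel
theorem cH4 : RangeOK (hwY dD 4) 10 13 := (((RangeOK.of_allR cH4_0)).trans (RangeOK.of_allR cH4_1)).trans (RangeOK.of_allR cH4_2)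
theorem cH5_0 : allR (hwY dD 5) 13 14 = true := by decide +kernel
theorem cH5_1 : allR (hwY dD 5) 14 15 = true := by decide +kernel
theorem cH5 : RangeOK (hwY dD 5) 13 15 := ((RangeOK.of_allR cH5_0)).trans (RangeOK.of_allR cH5_1)
theorem cH6_0 : allR (hwY dD 6) 15 16 = true := by decide +kernel
theorem cH6_1 : allR (hwY dD 6) 16 17 = true := by decide +kernel
theorem cH6_2 : allR (hwY dD 6) 17 18 = true := by decide +kernel
theorem cH6 : RangeOK (hwY dD 6) 15 18 := (((RangeOK.of_allR cH6_0)).trans (RangeOK.of_allR cH6_1)).trans (RangeOK.of_allR cH6_2)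
theorem cH7_0 : allR (hwY dD 7) 18 19 = true := by decide +kernel
theorem cH7_1 : allR (hwY dD 7) 19 20 = true := by decide +kernel
theorem cH7 : RangeOK (hwY dD 7) 18 20 := ((RangeOK.of_allR cH7_0)).trans (RangeOK.of_allR cH7_1)
theorem cH : hwAll dD := by
  intro j hj
  have hj' : j < 9 := hj
  interval_cases j
  · exact cH0
  · exact cH1
  · exact cH2
  · exact cH3
  · exact cH4
  · exact cH5
  · exact cH6
  · exact cH7
  · exact RangeOK.nil _ _
theorem cV0_0 : allR (levelP (cd dD) 0) 0 64 = true := by decide +kernel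
theorem cV0_1 : allR (levelP (cd dD) 0) 64 128 = true := by decide +kernel
theorem cV0_2 : allR (levelP (cd dD) 0) 128 192 = true := by decide +kernel
theorem cV0_3 : allR (levelP (cd dD) 0) 192 256 = true := by decide +kernel
theorem cV0_4 : allR (levelP (cd dD) 0) 256 276 = true := by decide +kernel
theorem cV0 : RangeOK (levelP (cd dD) 0) 0 276 := (((((RangeOK.of_allR cV0_0)).trans (RangeOK.of_allR cV0_1)).trans (RangeOK.of_allR cV0_2)).trans (RangeOK.of_allR cV0_3)).trans (RangeOK.of_allR cV0_4)
theorem cV1_0 : allR (levelP (cd dD) 1) 276 340 = true := by decide +kernel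
theorem cV1_1 : allR (levelP (cd dD) 1) 340 404 = true := by decide +kernel
theorem cV1_2 : allR (levelP (cd dD) 1) 404 468 = true := by decide +kernel
theorem cV1_3 : allR (levelP (cd dD) 1) 468 532 = true := by decide +kernel
theorem cV1_4 : allR (levelP (cd dD) 1) 532 551 = true := by decide +kernel
theorem cV1 : RangeOK (levelP (cd dD) 1) 276 551 := (((((RangeOK.of_allR cV1_0)).trans (RangeOK.of_allR cV1_1)).trans (RangeOK.of_allR cV1_2)).trans (RangeOK.of_allR cV1_3)).trans (RangeOK.of_allR cV1_4)
theorem cV2_0 : allR (levelP (cd dD) 2) 551 615 = true := by decide +kernel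
theorem cV2_1 : allR (levelP (cd dD) 2) 615 663 = true := by decide +kernel
theorem cV2 : RangeOK (levelP (cd dD) 2) 551 663 := ((RangeOK.of_allR cV2_0)).trans (RangeOK.of_allR cV2_1)
theorem cV3_0 : allR (levelP (cd dD) 3) 663 693 = true := by decide +kernel
theorem cV3 : RangeOK (levelP (cd dD) 3) 663 693 := (RangeOK.of_allR cV3_0)
theorem cV4_0 : allR (levelP (cd dD) 4) 693 695 = true := by decide +kernel
theorem cV4 : RangeOK (levelP (cd dD) 4) 693 695 := (RangeOK.of_allR cV4_0)
theorem cV5_0 : allR (levelP (cd dD) 5) 695 722 = true := by decide +kernel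
theorem cV5 : RangeOK (levelP (cd dD) 5) 695 722 := (RangeOK.of_allR cV5_0)
theorem cV6_0 : allR (levelP (cd dD) 6) 722 724 = true := by decide +kernel
theorem cV6 : RangeOK (levelP (cd dD) 6) 722 724 := (RangeOK.of_allR cV6_0)
theorem cV7_0 : allR (levelP (cd dD) 7) 724 730 = true := by decide +kernel
theorem cV7 : RangeOK (levelP (cd dD) 7) 724 730 := (RangeOK.of_allR cV7_0)
theorem cV8_0 : allR (levelP (cd dD) 8) 730 733 = true := by decide +kernel
theorem cV8 : RangeOK (levelP (cd dD) 8) 730 733 := (RangeOK.of_allR cV8_0)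
theorem cV : ∀ j, j < dD.k → RangeOK (levelP (cd dD) j) (dD.off j) (dD.off (j + 1)) := by
  intro j hj
  have hj' : j < 9 := hj
  interval_cases j
  · exact cV0
  · exact cV1
  · exact cV2
  · exact cV3
  · exact cV4
  · exact cV5
  · exact cV6
  · exact cV7
  · exact cV8
theorem hall : ∀ p, p < dD.N → p ∈ dD.B := by decide +kernel
theorem cert : Cert dD where
  letters := cL
  base := cB
  hw := cH
  num := cN
  shape := cS
  levels := cV
  faith := fun g _ h => faith_of_all hall g h

theorem sT : transOK dD = true := by decide +kernel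
theorem sF : subOK dD sS = true := by decide +kernel
theorem sR : rootsOK dD sS = true := by decide +kernel
theorem sV : trivOK dD sS = true := by decide +kernel
theorem sD : divOK dD sS = true := by decide +kernel
theorem hk0 : 0 < dD.k := by decide +kernel
theorem hb0 : dD.B.getD 0 0 = 0 := by decide +kernel
theorem hlen : 0 < dD.B.length := by decide +kernel
theorem hN0 : 0 < dD.N := by decide +kernel
theorem hN1 : 1 < dD.N := by decide +kernel
theorem sP0_0 : allR (powY dD 23 0) 0 276 = true := by decide +kernel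
theorem sP0 : RangeOK (powY dD 23 0) 0 276 := (RangeOK.of_allR sP0_0)
theorem sP1_0 : allR (powY dD 23 1) 0 276 = true := by decide +kernel
theorem sP1 : RangeOK (powY dD 23 1) 0 276 := (RangeOK.of_allR sP1_0)
theorem sP : powOK dD 23 := by
  intro x h1 h2
  have h1' : 0 ≤ x := h1
  have h2' : x < 2 := h2
  interval_cases x
  · exact sP0
  · exact sP1
theorem card_K0 : Nat.card (KK dD 0) = 495766656000 := by
  have h := (cert.card (r := 9) (j := 0) (by decide +kernel)).2
  rw [h]
  decide +kernel
theorem card_K1 : Nat.card (KK dD 1) = 1796256000 := by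
  have h := (cert.card (r := 8) (j := 1) (by decide +kernel)).2
  rw [h]
  decide +kernel
theorem simple_K0 : IsSimpleGroup (KK dD 0) := by
  refine simple (S := sS) cert hk0 hb0 hlen hN0 sT sF sR sV sD hN1 (p := 23) (e := 1) (by norm_num) ?_ ?_
  · rw [pow_one]
    exact sP
  · rw [card_K1]
    norm_num
theorem lnTab : Tab lnT 276 := tab_of (by decide +kernel) (by decide +kernel)
theorem lnZero : zeroC < lnT 0 := by decide +kernel
theorem lnMem : ∀ p, p < dD.N → vc (lnT p) ∈ Cfsg.leechLattice := by
  have h : allR (fun p => inLB (lnT p)) 0 276 = true := by decide +kernel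
  intro p hp
  exact mem_of_inLB (allR_spec h p (Nat.zero_le _) hp)
theorem lettersS : lettersOK dS := by
  intro x h1 h2
  have h : allR (letterY dS) 0 4 = true := by decide +kernel
  exact allR_spec h x h1 h2
theorem lineC : ∀ x, x < 4 → ∀ p, p < dD.N → lineB lnT (ddT x) (rrT x) (sp x p) p = true := by
  have h : ∀ x, x < 4 → allR (fun p => lineB lnT (ddT x) (rrT x) (sp x p) p) 0 276 = true := by decide +kernel
  intro x hx p hp
  exact allR_spec (h x hx) p (Nat.zero_le _) hp
theorem wordC : ∀ y, dD.lt 0 ≤ y → y < dD.lt 1 → ∀ p, p < dD.N → dD.σ y p = walk dS p (wdT y) ∧ y < dD.L := by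
  have h : ∀ y, y < 2 → allR (fun p => Nat.beq (sg y p) (walk dS p (wdT y))) 0 276 = true := by decide +kernel
  intro y h1 h2 p hp
  have h2' : y < 2 := h2
  refine ⟨Nat.eq_of_beq_eq_true (allR_spec (h y h2') p (Nat.zero_le _) hp), lt_of_lt_of_le h2' (by decide +kernel)⟩
theorem wordL : ∀ y, dD.lt 0 ≤ y → y < dD.lt 1 → ∀ z ∈ wdT y, z < 4 := by
  have h : ∀ y, y < 2 → (wdT y).all (fun z => Nat.blt z 4) = true := by decide +kernel
  intro y h1 h2 z hz
  have h2' : y < 2 := h2
  have := (List.all_eq_true.1 (h y h2')) z hz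
  simpa [Nat.blt_eq] using this

end Cfsg.Agent.Lib.CoK3D
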