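import Cfsg.Agent.Lib.CoScan
import Cfsg.Agent.Lib.CoT3
import Cfsg.Agent.Lib.CoT11178

/-! The vectors of norm 48. -/

set_option autoImplicit false
set_option linter.unusedSimpArgs false
set_option linter.unusedVariables false
set_option linter.style.haveILetI false

namespace Cfsg.Agent.Lib.CoU

open Cfsg Cfsg.Agent.LeechBasic Cfsg.Agent.Lib.LeechAut Cfsg.Agent.Lib.GolayBasic Cfsg.Agent.Lib.GolayCode
open Cfsg.Agent.Lib.CoLetter Cfsg.Agent.Lib.CoCert Cfsg.Agent.Lib.CoTree Cfsg.Agent.Lib.PChain Cfsg.Agent.Lib.CoL Cfsg.Agent.Lib.CoL2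
open Cfsg.Agent.Lib.CoChain Cfsg.Agent.Lib.CoCenter Cfsg.Agent.Lib.CoCensus Cfsg.Agent.Lib.CoScan

/-- the code of a vector of norm 48 -/
noncomputable def su : ℕ := 686050623893461929710380787866028690
/-- the code of a second minimal vector -/
noncomputable def st : ℕ := 686053159114795289240674611757601300

theorem su_mem : vc su ∈ leechLattice := mem_of_inLB (by decide +kernel)
theorem st_mem : vc st ∈ leechLattice := mem_of_inLB (by decide +kernel)
/-- the vector of norm 48 -/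
noncomputable def u0 : LL := ⟨vc su, su_mem⟩
/-- the minimal vector of inner product 16 -/
noncomputable def t0 : LL := ⟨vc st, st_mem⟩

theorem u0_eq : u0 = x0 + xb := by
  apply Subtype.ext
  funext p
  have h : ∀ j, j < 24 → (fld su j : ℤ) - 16 = ((fld s0 j : ℤ) - 16) + ((fld sb j : ℤ) - 16) := by decide +kernel
  exact h (idx p) (idx_lt p)

/-- the stabilizer of the vector of norm 48 -/
noncomputable abbrev A : Subgroup Co0 := MulAction.stabilizer Co0 u0
/-- the stabilizer of two minimal vectors of inner product `-8` -/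
noncomputable abbrev M : Subgroup Co0 := H1 ⊓ MulAction.stabilizer Co0 xb

theorem let3 : ∀ l, l < CoT3.D.m → IsLetter A (CoT3.D.dd l) (CoT3.D.rr l) := by
  intro l hl
  have hl' : l < 2 := hl
  interval_cases l
  · exact letter_top c_y1 (fix_stab c_y1 rfl (by decide +kernel))
  · exact letter_top c_y2 (fix_stab c_y2 rfl (by decide +kernel))

theorem let4 : ∀ l, l < CoT11178.D.m → IsLetter A (CoT11178.D.dd l) (CoT11178.D.rr l) := by
  intro l hl
  have hl' : l < 2 := hl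
  interval_cases l
  · exact letter_top c_y1 (fix_stab c_y1 rfl (by decide +kernel))
  · exact letter_top c_y2 (fix_stab c_y2 rfl (by decide +kernel))

theorem reach3 : ∀ i, i < 552 → ∃ g ∈ A, ((g • x0 : LL) : GolayPt → ℤ) = vc (CoT3.vT i) :=
  reachY (D := CoT3.D) let3 x0 rfl CoT3.ok

theorem reach4 : ∀ i, i < 11178 → ∃ g ∈ A, ((g • t0 : LL) : GolayPt → ℤ) = vc (CoT11178.vT i) :=
  reachY (D := CoT11178.D) let4 t0 rfl CoT11178.ok

/-! ### The counts -/

theorem scan24a : cntB (fun i => dotB su 24 (CoT0.vT i)) 98280 17 = 260 := by decide +kernel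
theorem scan24b : cntB (fun i => dotB' su 24 (CoT0.vT i)) 98280 17 = 292 := by decide +kernel
theorem scan16a : cntB (fun i => dotB su 16 (CoT0.vT i)) 98280 17 = 5468 := by decide +kernel
theorem scan16b : cntB (fun i => dotB' su 16 (CoT0.vT i)) 98280 17 = 5710 := by decide +kernel

theorem fg24 : (Fg u0 24).ncard = 552 := by
  have h := ncard_min_dot su su_mem (d := 24) (by norm_num)
  rw [scan24a, scan24b] at h
  exact h

theorem fg16 : (Fg u0 16).ncard = 11178 := by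
  have h := ncard_min_dot su su_mem (d := 16) (by norm_num)
  rw [scan16a, scan16b] at h
  exact h

theorem u0_norm : sqNorm (u0 : GolayPt → ℤ) = 48 := by
  show sqNorm (vc su) = 48
  rw [norm_eq_dot, dot_vc]
  decide +kernel

theorem t0_norm : sqNorm (t0 : GolayPt → ℤ) = 32 := by
  show sqNorm (vc st) = 32
  rw [norm_eq_dot, dot_vc]
  decide +kernel

theorem u0_x0 : dotInt (u0 : GolayPt → ℤ) (x0 : GolayPt → ℤ) = 24 := by
  show dotInt (vc su) (vc s0) = 24
  rw [dot_vc]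
  decide +kernel

theorem u0_t0 : dotInt (u0 : GolayPt → ℤ) (t0 : GolayPt → ℤ) = 16 := by
  show dotInt (vc su) (vc st) = 16
  rw [dot_vc]
  decide +kernel

theorem T3_sub : tset CoT3.vT 552 ⊆ Orb A x0 := by
  rintro y ⟨i, hi, rfl⟩
  obtain ⟨g, hg, e⟩ := reach3 i hi
  exact ⟨g, hg, e⟩

theorem T4_sub : tset CoT11178.vT 11178 ⊆ Orb A t0 := by
  rintro y ⟨i, hi, rfl⟩
  obtain ⟨g, hg, e⟩ := reach4 i hi
  exact ⟨g, hg, e⟩

theorem orb3 : Orb A x0 = Fg u0 24 := by
  refine Set.eq_of_subset_of_ncard_le (fg_orb (le_refl _) x0_norm u0_x0) ?_ (fg_finite _ _)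
  rw [fg24, ← CoT3.tab.ncard]
  exact Set.ncard_le_ncard T3_sub (orb_finite _ _)

theorem tab3_eq : tset CoT3.vT 552 = Fg u0 24 := by
  refine Set.eq_of_subset_of_ncard_le (orb3 ▸ T3_sub) ?_ (fg_finite _ _)
  rw [fg24, CoT3.tab.ncard]

theorem orb4 : Orb A t0 = Fg u0 16 := by
  refine Set.eq_of_subset_of_ncard_le (fg_orb (le_refl _) t0_norm u0_t0) ?_ (fg_finite _ _)
  rw [fg16, ← CoT11178.tab.ncard]
  exact Set.ncard_le_ncard T4_sub (orb_finite _ _)

/-! ### The orders -/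

theorem orbB : Orb H1 xb = Fg x0 (-8) := by
  refine Set.eq_of_subset_of_ncard_le (fg_orb (le_refl _) xb_norm xb_dot) (Set.ncard_le_ncard sub_orb_b (orb_finite _ _)) (fg_finite _ _)

theorem card_M : Nat.card M = 898128000 := by
  have h : Nat.card H1 = (Orb H1 xb).ncard * Nat.card M := card_orb H1 xb
  rw [orbB, fibers.2.2.1, card_H1] at h
  omega

theorem inf_A : A ⊓ MulAction.stabilizer Co0 x0 = M := by
  ext g
  constructor
  · rintro ⟨h1, h2⟩
    refine ⟨h2, ?_⟩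
    have h3 : g • u0 = u0 := h1
    have h4 : g • x0 = x0 := h2
    rw [u0_eq] at h3
    have h5 : g • (x0 + xb) = g • x0 + g • xb := co_add g _ _
    rw [h5, h4] at h3
    exact add_left_cancel h3
  · rintro ⟨h1, h2⟩
    refine ⟨?_, h1⟩
    have h3 : g • x0 = x0 := h1
    have h4 : g • xb = xb := h2
    show g • u0 = u0
    rw [u0_eq]
    have h5 : g • (x0 + xb) = g • x0 + g • xb := co_add g _ _
    rw [h5, h3, h4]

theorem card_A : Nat.card A = 495766656000 := by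
  have h := card_orb A x0
  rw [orb3, fg24, inf_A, card_M] at h
  exact h

/-- the vectors of norm 48 -/
def U48 : Set (GolayPt → ℤ) := {x | x ∈ leechLattice ∧ sqNorm x = 48}

theorem u48_ncard : U48.ncard = 16773120 := by
  have h := Cfsg.Agent.Lib.LeechCount.count_all (N := 48) (by norm_num)
  rw [Cfsg.Agent.Lib.LeechCount.t48] at h
  exact h

theorem u48_finite : U48.Finite := by
  apply Set.finite_of_ncard_ne_zero
  rw [u48_ncard]
  norm_num

theorem orb_u0 : Orb ⊤ u0 = U48 := by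
  have h1 : Orb ⊤ u0 ⊆ U48 := by
    rintro y ⟨g, -, rfl⟩
    exact ⟨(g • u0).2, by rw [norm_smul]; exact u0_norm⟩
  refine Set.eq_of_subset_of_ncard_le h1 ?_ u48_finite
  have h := card_orb ⊤ u0
  have h2 : Nat.card (⊤ : Subgroup Co0) = Nat.card Co0 := Nat.card_congr Subgroup.topEquiv.toEquiv
  rw [h2, co0_card, top_inf_eq, card_A] at h
  rw [u48_ncard]
  omega

/-- every vector of norm 48 is an image of the base vector -/
theorem exists_u0 (u : LL) (hu : sqNorm (u : GolayPt → ℤ) = 48) : ∃ g : Co0, g • u0 = u := by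
  have h : u.1 ∈ Orb ⊤ u0 := by
    rw [orb_u0]
    exact ⟨u.2, hu⟩
  obtain ⟨g, -, hg⟩ := h
  exact ⟨g, Subtype.ext hg⟩

theorem trans48 (v w : LL) (hv : sqNorm (v : GolayPt → ℤ) = 48) (hw : sqNorm (w : GolayPt → ℤ) = 48) :
    ∃ g : Co0, g • v = w := by
  obtain ⟨g, rfl⟩ := exists_u0 v hv
  obtain ⟨k, rfl⟩ := exists_u0 w hw
  exact ⟨k * g⁻¹, by rw [mul_smul, inv_smul_smul]⟩

/-! ### Sums of two minimal vectors -/

theorem norm_sub' (x y : GolayPt → ℤ) : sqNorm (x - y) = sqNorm x - 2 * dotInt x y + sqNorm y := by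
  have h := norm_add x (-y)
  rw [dot_neg_right, norm_neg'] at h
  rw [sub_eq_add_neg, h]
  ring

theorem sub_iff {u v : GolayPt → ℤ} (hu : sqNorm u = 48) (hv : sqNorm v = 32) : sqNorm (u - v) = 32 ↔ dotInt u v = 24 := by
  rw [norm_sub', hu, hv]
  omega

/-- a set of vectors of the lattice and the corresponding set of integer vectors -/
theorem ncard_val (S : Set LL) : (Subtype.val '' S).ncard = S.ncard :=
  Set.ncard_image_of_injective _ Subtype.val_injective

theorem fg_eq_image (x : LL) (d : ℤ) : Fg x d = Subtype.val '' {w : LL | sqNorm (w : GolayPt → ℤ) = 32 ∧ dotInt (x : GolayPt → ℤ) (w : GolayPt → ℤ) = d} := by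
  ext y
  constructor
  · rintro ⟨h1, h2, h3⟩
    exact ⟨⟨y, h1⟩, ⟨h2, h3⟩, rfl⟩
  · rintro ⟨w, ⟨h1, h2⟩, rfl⟩
    exact ⟨w.2, h1, h2⟩

theorem ncard_sums (u : LL) (hu : sqNorm (u : GolayPt → ℤ) = 48) :
    {v : LL | sqNorm (v : GolayPt → ℤ) = 32 ∧ sqNorm ((u - v : LL) : GolayPt → ℤ) = 32}.ncard = 552 := by
  obtain ⟨g, rfl⟩ := exists_u0 u hu
  have h1 : {v : LL | sqNorm (v : GolayPt → ℤ) = 32 ∧ sqNorm ((g • u0 - v : LL) : GolayPt → ℤ) = 32} =
      {w : LL | sqNorm (w : GolayPt → ℤ) = 32 ∧ dotInt ((g • u0 : LL) : GolayPt → ℤ) (w : GolayPt → ℤ) = 24} := by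
    ext v
    simp only [Set.mem_ofPred_eq]
    constructor
    · rintro ⟨h2, h3⟩
      exact ⟨h2, (sub_iff hu h2).1 h3⟩
    · rintro ⟨h2, h3⟩
      exact ⟨h2, (sub_iff hu h2).2 h3⟩
  rw [h1, ← ncard_val, ← fg_eq_image, fg_smul, fg24]

/-- moving inside an orbit -/
theorem move {K : Subgroup Co0} {z : LL} {S : Set (GolayPt → ℤ)} (hS : S ⊆ Orb K z) (k : Co0) {w w' : LL}
    (h : (k⁻¹ • w).1 ∈ S) (h' : (k⁻¹ • w').1 ∈ S) : ∃ c ∈ K, (k * c * k⁻¹) • w = w' := by
  obtain ⟨g1, hg1, e1⟩ := hS h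
  obtain ⟨g2, hg2, e2⟩ := hS h'
  have e1' : g1 • z = k⁻¹ • w := Subtype.ext e1
  have e2' : g2 • z = k⁻¹ • w' := Subtype.ext e2
  refine ⟨g2 * g1⁻¹, K.mul_mem hg2 (K.inv_mem hg1), ?_⟩
  simp only [mul_smul]
  rw [← e1', inv_smul_smul, e2', smul_inv_smul]

/-- conjugates fix the images -/
theorem conj_fix {c k : Co0} {y : LL} (h : c • y = y) : (k * c * k⁻¹) • (k • y) = k • y := by
  simp only [mul_smul, inv_smul_smul]
  rw [h]

theorem fg_inv' {k : Co0} {y w : LL} {d : ℤ} (h1 : sqNorm (w : GolayPt → ℤ) = 32)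
    (h2 : dotInt ((k • y : LL) : GolayPt → ℤ) (w : GolayPt → ℤ) = d) : (k⁻¹ • w).1 ∈ Fg y d := by
  refine ⟨(k⁻¹ • w).2, by rw [norm_smul]; exact h1, ?_⟩
  have h3 := dot_smul k y (k⁻¹ • w)
  rw [smul_inv_smul] at h3
  rw [← h3]
  exact h2

/-- a pair consisting of a vector of norm 48 and a summand -/
theorem exists_pair (u v : LL) (hu : sqNorm (u : GolayPt → ℤ) = 48) (hv : sqNorm (v : GolayPt → ℤ) = 32)
    (hd : dotInt (u : GolayPt → ℤ) (v : GolayPt → ℤ) = 24) : ∃ k : Co0, k • u0 = u ∧ k • x0 = v := by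
  obtain ⟨k, rfl⟩ := exists_u0 u hu
  have hx : ((k⁻¹ • v : LL)).1 ∈ Fg u0 24 := fg_inv' hv hd
  rw [← orb3] at hx
  obtain ⟨c, hc, e⟩ := hx
  refine ⟨k * c, ?_, ?_⟩
  · rw [mul_smul]
    congr 1
  · rw [mul_smul]
    have : c • x0 = k⁻¹ • v := Subtype.ext e
    rw [this, smul_inv_smul]

theorem trans_sums (u v v' : LL) (hu : sqNorm (u : GolayPt → ℤ) = 48)
    (hv : sqNorm (v : GolayPt → ℤ) = 32 ∧ sqNorm ((u - v : LL) : GolayPt → ℤ) = 32)
    (hv' : sqNorm (v' : GolayPt → ℤ) = 32 ∧ sqNorm ((u - v' : LL) : GolayPt → ℤ) = 32) :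
    ∃ g : Co0, g • u = u ∧ g • v = v' := by
  obtain ⟨k, e1, e2⟩ := exists_pair u v hu hv.1 ((sub_iff hu hv.1).1 hv.2)
  obtain ⟨k', e1', e2'⟩ := exists_pair u v' hu hv'.1 ((sub_iff hu hv'.1).1 hv'.2)
  refine ⟨k' * k⁻¹, ?_, ?_⟩
  · rw [mul_smul, ← e1, inv_smul_smul, e1']
    exact e1.symm
  · rw [mul_smul, ← e2, inv_smul_smul, e2']

end Cfsg.Agent.Lib.CoU
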