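import Cfsg.Agent.Lib.CoKHD
/-! Checks of the certificate. -/
set_option autoImplicit false
set_option linter.unusedVariables false
set_option maxRecDepth 1000000
namespace Cfsg.Agent.Lib.CoKHD
open Cfsg.Agent.Lib.PChain Cfsg.Agent.Lib.PermChain Cfsg.Agent.Lib.PermChain2 Cfsg.Agent.Lib.CoLink Cfsg.Agent.Lib.CoLetter Cfsg.Agent.Lib.CoCert Cfsg.Agent.Lib.CoTree Cfsg.Agent.Lib.CoCensus

theorem cL_0 : allR (letterY dD) 0 1 = true := by decide +kernel
theorem cL_1 : allR (letterY dD) 1 2 = true := by decide +kernel
theorem cL_2 : allR (letterY dD) 2 3 = true := by decide +kernel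
theorem cL_3 : allR (letterY dD) 3 4 = true := by decide +kernel
theorem cL_4 : allR (letterY dD) 4 5 = true := by decide +kernel
theorem cL_5 : allR (letterY dD) 5 6 = true := by decide +kernel
theorem cL_6 : allR (letterY dD) 6 7 = true := by decide +kernel
theorem cL_7 : allR (letterY dD) 7 8 = true := by decide +kernel
theorem cL_8 : allR (letterY dD) 8 9 = true := by decide +kernel
theorem cL_9 : allR (letterY dD) 9 10 = true := by decide +kernel
theorem cL_10 : allR (letterY dD) 10 11 = true := by decide +kernel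
theorem cL_11 : allR (letterY dD) 11 12 = true := by decide +kernel
theorem cL_12 : allR (letterY dD) 12 13 = true := by decide +kernel
theorem cL_13 : allR (letterY dD) 13 14 = true := by decide +kernel
theorem cL_14 : allR (letterY dD) 14 15 = true := by decide +kernel
theorem cL_15 : allR (letterY dD) 15 16 = true := by decide +kernel
theorem cL_16 : allR (letterY dD) 16 17 = true := by decide +kernel
theorem cL_17 : allR (letterY dD) 17 18 = true := by decide +kernel
theorem cL_18 : allR (letterY dD) 18 19 = true := by decide +kernel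
theorem cL_19 : allR (letterY dD) 19 20 = true := by decide +kernel
theorem cL : RangeOK (letterY dD) 0 20 := ((((((((((((((((((((RangeOK.of_allR cL_0)).trans (RangeOK.of_allR cL_1)).trans (RangeOK.of_allR cL_2)).trans (RangeOK.of_allR cL_3)).trans (RangeOK.of_allR cL_4)).trans (RangeOK.of_allR cL_5)).trans (RangeOK.of_allR cL_6)).trans (RangeOK.of_allR cL_7)).trans (RangeOK.of_allR cL_8)).trans (RangeOK.of_allR cL_9)).trans (RangeOK.of_allR cL_10)).trans (RangeOK.of_allR cL_11)).trans (RangeOK.of_allR cL_12)).trans (RangeOK.of_allR cL_13)).trans (RangeOK.of_allR cL_14)).trans (RangeOK.of_allR cL_15)).trans (RangeOK.of_allR cL_16)).trans (RangeOK.of_allR cL_17)).trans (RangeOK.of_allR cL_18)).trans (RangeOK.of_allR cL_19)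
theorem cB : baseOK dD = true := by decide +kernel
theorem cN : numOK dD = true := by decide +kernel
theorem cS : shapeOK (cd dD) = true := by decide +kernel
theorem cH0_0 : allR (hwY dD 0) 2 3 = true := by decide +kernel
theorem cH0_1 : allR (hwY dD 0) 3 4 = true := by decide +kernel
theorem cH0 : RangeOK (hwY dD 0) 2 4 := ((RangeOK.of_allR cH0_0)).trans (RangeOK.of_allR cH0_1)
theorem cH1_0 : allR (hwY dD 1) 4 5 = true := by decide +kernel
theorem cH1_1 : allR (hwY dD 1) 5 6 = true := by decide +kernel
theorem cH1 : RangeOK (hwY dD 1) 4 6 := ((RangeOK.of_allR cH1_0)).trans (RangeOK.of_allR cH1_1)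
theorem cH2_0 : allR (hwY dD 2) 6 7 = true := by decide +kernel
theorem cH2_1 : allR (hwY dD 2) 7 8 = true := by decide +kernel
theorem cH2 : RangeOK (hwY dD 2) 6 8 := ((RangeOK.of_allR cH2_0)).trans (RangeOK.of_allR cH2_1)
theorem cH3_0 : allR (hwY dD 3) 8 9 = true := by decide +kernel
theorem cH3_1 : allR (hwY dD 3) 9 10 = true := by decide +kernel
theorem cH3 : RangeOK (hwY dD 3) 8 10 := ((RangeOK.of_allR cH3_0)).trans (RangeOK.of_allR cH3_1)
theorem cH : hwAll dD := by
  intro j hj
  have hj' : j < 5 := hj
  interval_cases j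
  · exact cH0
  · exact cH1
  · exact cH2
  · exact cH3
  · exact RangeOK.nil _ _
theorem cV0_0 : allR (levelP (cd dD) 0) 0 64 = true := by decide +kernel
theorem cV0_1 : allR (levelP (cd dD) 0) 64 128 = true := by decide +kernel
theorem cV0_2 : allR (levelP (cd dD) 0) 128 176 = true := by decide +kernel
theorem cV0 : RangeOK (levelP (cd dD) 0) 0 176 := (((RangeOK.of_allR cV0_0)).trans (RangeOK.of_allR cV0_1)).trans (RangeOK.of_allR cV0_2)
theorem cV1_0 : allR (levelP (cd dD) 1) 176 240 = true := by decide +kernel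
theorem cV1_1 : allR (levelP (cd dD) 1) 240 304 = true := by decide +kernel
theorem cV1_2 : allR (levelP (cd dD) 1) 304 351 = true := by decide +kernel
theorem cV1 : RangeOK (levelP (cd dD) 1) 176 351 := (((RangeOK.of_allR cV1_0)).trans (RangeOK.of_allR cV1_1)).trans (RangeOK.of_allR cV1_2)
theorem cV2_0 : allR (levelP (cd dD) 2) 351 363 = true := by decide +kernel
theorem cV2 : RangeOK (levelP (cd dD) 2) 351 363 := (RangeOK.of_allR cV2_0)
theorem cV3_0 : allR (levelP (cd dD) 3) 363 368 = true := by decide +kernel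
theorem cV3 : RangeOK (levelP (cd dD) 3) 363 368 := (RangeOK.of_allR cV3_0)
theorem cV4_0 : allR (levelP (cd dD) 4) 368 392 = true := by decide +kernel
theorem cV4 : RangeOK (levelP (cd dD) 4) 368 392 := (RangeOK.of_allR cV4_0)
theorem cV : ∀ j, j < dD.k → RangeOK (levelP (cd dD) j) (dD.off j) (dD.off (j + 1)) := by
  intro j hj
  have hj' : j < 5 := hj
  interval_cases j
  · exact cV0
  · exact cV1
  · exact cV2
  · exact cV3
  · exact cV4
theorem hall : ∀ p, p < dD.N → p ∈ dD.B := by decide +kernel
theorem cert : Cert dD where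
  letters := cL
  base := cB
  hw := cH
  num := cN
  shape := cS
  levels := cV
  faith := fun g _ h => faith_of_all hall g h

theorem sT : transOK dD = true := by decide +kernel
theorem sF : subOK dD sS = true := by decide +kernel
theorem sR : rootsOK dD sS = true := by decide +kernel
theorem sV : trivOK dD sS = true := by decide +kernel
theorem sD : divOK dD sS = true := by decide +kernel
theorem hk0 : 0 < dD.k := by decide +kernel
theorem hb0 : dD.B.getD 0 0 = 0 := by decide +kernel
theorem hlen : 0 < dD.B.length := by decide +kernel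
theorem hN0 : 0 < dD.N := by decide +kernel
theorem hN1 : 1 < dD.N := by decide +kernel
theorem sP0_0 : allR (powY dD 11 0) 0 176 = true := by decide +kernel
theorem sP0 : RangeOK (powY dD 11 0) 0 176 := (RangeOK.of_allR sP0_0)
theorem sP1_0 : allR (powY dD 11 1) 0 176 = true := by decide +kernel
theorem sP1 : RangeOK (powY dD 11 1) 0 176 := (RangeOK.of_allR sP1_0)
theorem sP : powOK dD 11 := by
  intro x h1 h2
  have h1' : 0 ≤ x := h1
  have h2' : x < 2 := h2
  interval_cases x
  · exact sP0
  · exact sP1
theorem card_K0 : Nat.card (KK dD 0) = 44352000 := by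
  have h := (cert.card (r := 5) (j := 0) (by decide +kernel)).2
  rw [h]
  decide +kernel
theorem card_K1 : Nat.card (KK dD 1) = 252000 := by
  have h := (cert.card (r := 4) (j := 1) (by decide +kernel)).2
  rw [h]
  decide +kernel
theorem simple_K0 : IsSimpleGroup (KK dD 0) := by
  refine simple (S := sS) cert hk0 hb0 hlen hN0 sT sF sR sV sD hN1 (p := 11) (e := 1) (by norm_num) ?_ ?_
  · rw [pow_one]
    exact sP
  · rw [card_K1]
    norm_num
theorem lnTab : Tab lnT 176 := tab_of (by decide +kernel) (by decide +kernel)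
theorem lnZero : zeroC < lnT 0 := by decide +kernel
theorem lnMem : ∀ p, p < dD.N → vc (lnT p) ∈ Cfsg.leechLattice := by
  have h : allR (fun p => inLB (lnT p)) 0 176 = true := by decide +kernel
  intro p hp
  exact mem_of_inLB (allR_spec h p (Nat.zero_le _) hp)
theorem lettersS : lettersOK dS := by
  intro x h1 h2
  have h : allR (letterY dS) 0 4 = true := by decide +kernel
  exact allR_spec h x h1 h2
theorem lineC : ∀ x, x < 4 → ∀ p, p < dD.N → lineB lnT (ddT x) (rrT x) (sp x p) p = true := by
  have h : ∀ x, x < 4 → allR (fun p => lineB lnT (ddT x) (rrT x) (sp x p) p) 0 176 = true := by decide +kernel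
  intro x hx p hp
  exact allR_spec (h x hx) p (Nat.zero_le _) hp
theorem wordC : ∀ y, dD.lt 0 ≤ y → y < dD.lt 1 → ∀ p, p < dD.N → dD.σ y p = walk dS p (wdT y) ∧ y < dD.L := by
  have h : ∀ y, y < 2 → allR (fun p => Nat.beq (sg y p) (walk dS p (wdT y))) 0 176 = true := by decide +kernel
  intro y h1 h2 p hp
  have h2' : y < 2 := h2
  refine ⟨Nat.eq_of_beq_eq_true (allR_spec (h y h2') p (Nat.zero_le _) hp), lt_of_lt_of_le h2' (by decide +kernel)⟩
theorem wordL : ∀ y, dD.lt 0 ≤ y → y < dD.lt 1 → ∀ z ∈ wdT y, z < 4 := by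
  have h : ∀ y, y < 2 → (wdT y).all (fun z => Nat.blt z 4) = true := by decide +kernel
  intro y h1 h2 z hz
  have h2' : y < 2 := h2
  have := (List.all_eq_true.1 (h y h2')) z hz
  simpa [Nat.blt_eq] using this

end Cfsg.Agent.Lib.CoKHD
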