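import Cfsg.Agent.Lib.CoKMC
import Cfsg.Agent.Lib.CoU

/-! The link of the certificate on lines with the subgroup of the automorphism group. -/

set_option autoImplicit false
set_option linter.unusedVariables false
set_option linter.unusedSimpArgs false
set_option maxRecDepth 1000000

namespace Cfsg.Agent.Lib.CoKMD

open Cfsg Cfsg.Agent.LeechBasic Cfsg.Agent.Lib.LeechAut Cfsg.Agent.Lib.GolayBasic
open Cfsg.Agent.Lib.CoLetter Cfsg.Agent.Lib.CoCert Cfsg.Agent.Lib.CoTree Cfsg.Agent.Lib.PChain Cfsg.Agent.Lib.CoL Cfsg.Agent.Lib.CoL2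
open Cfsg.Agent.Lib.PermChain Cfsg.Agent.Lib.PermChain2 Cfsg.Agent.Lib.CoLink

theorem a_mem : toCo c_n1 ∈ CoU.M := ⟨fix_stab c_n1 rfl (by decide +kernel), fix_stab c_n1 rfl (by decide +kernel)⟩
theorem b_mem : toCo c_n2 ∈ CoU.M := ⟨fix_stab c_n2 rfl (by decide +kernel), fix_stab c_n2 rfl (by decide +kernel)⟩

theorem link : LinkD dD (nat_lit 4) sp inT lnT ddT rrT wdT CoU.M where
  cert := cert
  letters' := lettersS
  tab := lnTab
  zero := lnZero
  mem := lnMem
  let' := by
    intro x hx
    have hx' : x < 4 := hx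
    interval_cases x
    · exact letter_top c_n1 a_mem
    · exact letter_top c_n2 b_mem
    · exact letter_inv c_n1 a_mem
    · exact letter_inv c_n2 b_mem
  line := lineC
  words := wordC
  words_lt := wordL

theorem simple_H (hc : Nat.card CoU.M = 898128000) : IsSimpleGroup CoU.M := by
  obtain ⟨e⟩ := equiv link (by rw [hc, card_K0])
  haveI := simple_K0
  exact e.isSimpleGroup

end Cfsg.Agent.Lib.CoKMD
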