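import Cfsg.Agent.Lib.LeechAut
import Cfsg.Agent.Lib.GolayCode

/-! Sparse signed matrices acting on coded vectors, as automorphisms of the lattice. -/

set_option autoImplicit false
set_option linter.unusedSimpArgs false
set_option linter.unusedVariables false
set_option linter.style.haveILetI false

namespace Cfsg.Agent.Lib.CoLetter

open Cfsg Cfsg.Agent.LeechBasic Cfsg.Agent.Lib.LeechAut Cfsg.Agent.Lib.GolayBasic

/-! ### Coded vectors -/

/-- a field of a code -/
noncomputable def fld (n j : ℕ) : ℕ := Nat.land (Nat.shiftRight n (Nat.mul 5 j)) 31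

theorem fld_lt (n j : ℕ) : fld n j < 32 := by
  show (n >>> (5 * j)) &&& 31 < 32
  exact lt_of_le_of_lt Nat.and_le_right (by norm_num)

theorem fld_bit (n j r : ℕ) (hr : r < 5) : (fld n j).testBit r = n.testBit (5 * j + r) := by
  show ((n >>> (5 * j)) &&& 31).testBit r = _
  rw [Nat.testBit_and, Nat.testBit_shiftRight]
  have : (31 : ℕ).testBit r = true := by
    interval_cases r <;> decide
  rw [this, Bool.and_true]

/-- the vector of a code -/
noncomputable def vc (n : ℕ) : GolayPt → ℤ := fun p => (fld n (idx p) : ℤ) - 16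

theorem fld_of_vc {n m : ℕ} (h : vc n = vc m) {j : ℕ} (hj : j < 24) : fld n j = fld m j := by
  have h1 := congrFun h (ptOf j)
  simp only [vc, idx_ptOf hj] at h1
  omega

theorem vc_inj {n m : ℕ} (hn : n < 2 ^ 120) (hm : m < 2 ^ 120) (h : vc n = vc m) : n = m := by
  apply Nat.eq_of_testBit_eq
  intro i
  by_cases hi : i < 120
  · have h5 : i = 5 * (i / 5) + i % 5 := (Nat.div_add_mod i 5).symm
    have h6 : i % 5 < 5 := Nat.mod_lt _ (by norm_num)
    have h7 : i / 5 < 24 := by omega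
    rw [h5, ← fld_bit n _ _ h6, ← fld_bit m _ _ h6, fld_of_vc h h7]
  · have h8 : 2 ^ 120 ≤ 2 ^ i := Nat.pow_le_pow_right (by norm_num) (by omega)
    rw [Nat.testBit_lt_two_pow (lt_of_lt_of_le hn h8), Nat.testBit_lt_two_pow (lt_of_lt_of_le hm h8)]

/-! ### Rows -/

/-- the sign of an item -/
def itS (it : ℕ) : ℕ := Nat.land it 1
/-- the column of an item -/
def itJ (it : ℕ) : ℕ := Nat.shiftRight it 1

theorem itS_cases (it : ℕ) : itS it = 0 ∨ itS it = 1 := by
  have : itS it = it % 2 := by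
    show it &&& 1 = _
    exact Nat.and_one_is_mod _
  omega

/-- the left sum -/
noncomputable def lsum (f : ℕ → ℕ) (l : List ℕ) : ℕ :=
  List.rec (motive := fun _ => ℕ) 0
    (fun it _ ih => Nat.add (Nat.add (Nat.mul (itS it) (f (itJ it))) (Nat.mul (Nat.sub 1 (itS it)) 16)) ih) l

/-- the right sum -/
noncomputable def rsum (f : ℕ → ℕ) (l : List ℕ) : ℕ :=
  List.rec (motive := fun _ => ℕ) 0
    (fun it _ ih => Nat.add (Nat.add (Nat.mul (Nat.sub 1 (itS it)) (f (itJ it))) (Nat.mul (itS it) 16)) ih) l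

/-- the linear form of a row -/
def lin (l : List ℕ) (x : ℕ → ℤ) : ℤ :=
  l.foldr (fun it acc => (if itS it = 1 then - x (itJ it) else x (itJ it)) + acc) 0

theorem lin_nil (x : ℕ → ℤ) : lin [] x = 0 := rfl
theorem lin_cons (it : ℕ) (l : List ℕ) (x : ℕ → ℤ) :
    lin (it :: l) x = (if itS it = 1 then - x (itJ it) else x (itJ it)) + lin l x := rfl

theorem lin_add (l : List ℕ) (x y : ℕ → ℤ) : lin l (x + y) = lin l x + lin l y := by
  induction l with
  | nil => simp [lin_nil]
  | cons it l ih =>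
    rw [lin_cons, lin_cons, lin_cons, ih]
    simp only [Pi.add_apply]
    split_ifs <;> ring

theorem lin_smul (l : List ℕ) (a : ℤ) (x : ℕ → ℤ) : lin l (fun j => a * x j) = a * lin l x := by
  induction l with
  | nil => simp [lin_nil]
  | cons it l ih =>
    rw [lin_cons, lin_cons, ih]
    split_ifs <;> ring

theorem lin_zero (l : List ℕ) : lin l (fun _ => 0) = 0 := by
  have := lin_smul l 0 (fun _ => 0)
  simpa using this

theorem lin_sum {ι : Type*} (s : Finset ι) (l : List ℕ) (a : ι → ℤ) (x : ι → ℕ → ℤ) :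
    lin l (fun j => ∑ k ∈ s, a k * x k j) = ∑ k ∈ s, a k * lin l (x k) := by
  classical
  induction s using Finset.induction_on with
  | empty => simpa using lin_zero l
  | insert b s hb ih =>
    simp only [Finset.sum_insert hb]
    have h1 : (fun j => a b * x b j + ∑ k ∈ s, a k * x k j) =
        (fun j => a b * x b j) + (fun j => ∑ k ∈ s, a k * x k j) := rfl
    rw [h1, lin_add, ih, lin_smul]

theorem sums_eq (f : ℕ → ℕ) (l : List ℕ) :
    (lsum f l : ℤ) - rsum f l = - lin l (fun j => (f j : ℤ) - 16) := by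
  induction l with
  | nil =>
    show ((0 : ℕ) : ℤ) - ((0 : ℕ) : ℤ) = - 0
    simp
  | cons it l ih =>
    have h1 : lsum f (it :: l) = (itS it * f (itJ it) + (1 - itS it) * 16) + lsum f l := rfl
    have h2 : rsum f (it :: l) = ((1 - itS it) * f (itJ it) + itS it * 16) + rsum f l := rfl
    rw [h1, h2, lin_cons]
    rcases itS_cases it with h | h <;> rw [h] <;> push_cast <;> simp <;> linarith

/-- the check of a row -/
noncomputable def rowY (den : ℕ) (f : ℕ → ℕ) (g : ℕ) (l : List ℕ) : Bool :=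
  Nat.beq (Nat.add (Nat.mul den g) (lsum f l)) (Nat.add (Nat.mul 16 den) (rsum f l))

theorem rowY_spec {den : ℕ} {f : ℕ → ℕ} {g : ℕ} {l : List ℕ} (h : rowY den f g l = true) :
    (den : ℤ) * ((g : ℤ) - 16) = lin l (fun j => (f j : ℤ) - 16) := by
  have h1 : den * g + lsum f l = 16 * den + rsum f l := Nat.eq_of_beq_eq_true h
  have h2 := sums_eq f l
  have h3 : ((den * g + lsum f l : ℕ) : ℤ) = ((16 * den + rsum f l : ℕ) : ℤ) := by rw [h1]
  push_cast at h3
  linarith

/-- a letter acts: the image has given coded coordinates -/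
noncomputable def actL (den a : ℕ) (g : ℕ → ℕ) : ℕ → List (List ℕ) → Bool
  | _, [] => true
  | i, r :: rs => and (rowY den (fld a) (g i) r) (actL den a g (Nat.succ i) rs)

theorem actL_spec {den a : ℕ} {g : ℕ → ℕ} : ∀ (rs : List (List ℕ)) (i0 : ℕ), actL den a g i0 rs = true →
    ∀ i, i < rs.length → (den : ℤ) * ((g (i0 + i) : ℤ) - 16) = lin (rs.getD i []) (fun j => (fld a j : ℤ) - 16) := by
  intro rs
  induction rs with
  | nil => intro i0 _ i hi; simp at hi
  | cons r rs ih =>
    intro i0 h i hi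
    simp only [actL, Bool.and_eq_true] at h
    cases i with
    | zero => exact rowY_spec h.1
    | succ i =>
      have := ih (Nat.succ i0) h.2 i (by simpa using hi)
      have e : i0 + (i + 1) = Nat.succ i0 + i := by omega
      rw [e]
      exact this

/-- the target coordinates of a code -/
noncomputable def gP (b : ℕ) : ℕ → ℕ := fld b
/-- the target coordinates of the opposite of a code -/
noncomputable def gN (b : ℕ) : ℕ → ℕ := fun i => Nat.sub 32 (fld b i)

/-- `L a = b`, for the letter with rows `rs` -/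
noncomputable def actY (den : ℕ) (rs : List (List ℕ)) (a b : ℕ) : Bool := actL den a (gP b) 0 rs
/-- `L a = - b`, for the letter with rows `rs` -/
noncomputable def actN (den : ℕ) (rs : List (List ℕ)) (a b : ℕ) : Bool := actL den a (gN b) 0 rs

/-! ### The map of a letter -/

/-- the linear map of a letter, on integer vectors -/
def FF (rs : List (List ℕ)) (x : GolayPt → ℤ) : GolayPt → ℤ :=
  fun p => lin (rs.getD (idx p) []) (fun j => x (ptOf j))

theorem vc_ptOf (a j : ℕ) (hj : j < 24) : vc a (ptOf j) = (fld a j : ℤ) - 16 := by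
  simp only [vc, idx_ptOf hj]

/-- all the columns of a row are coordinates -/
def RowsOK (rs : List (List ℕ)) : Prop := rs.length = 24 ∧ ∀ r ∈ rs, ∀ it ∈ r, itJ it < 24

theorem lin_congr {l : List ℕ} {x y : ℕ → ℤ} (h : ∀ it ∈ l, x (itJ it) = y (itJ it)) : lin l x = lin l y := by
  induction l with
  | nil => rfl
  | cons it l ih =>
    rw [lin_cons, lin_cons, ih (fun i hi => h i (by simp [hi])), h it (by simp)]

theorem FF_vc {rs : List (List ℕ)} (hR : RowsOK rs) (a : ℕ) (i : ℕ) (hi : i < 24) :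
    lin (rs.getD i []) (fun j => vc a (ptOf j)) = lin (rs.getD i []) (fun j => (fld a j : ℤ) - 16) := by
  apply lin_congr
  intro it hit
  apply vc_ptOf
  have h1 : rs.getD i [] ∈ rs := by
    rw [List.getD_eq_getElem _ _ (by rw [hR.1]; exact hi)]
    exact List.getElem_mem _
  exact hR.2 _ h1 it hit

theorem actY_spec {den : ℕ} {rs : List (List ℕ)} {a b : ℕ} (hR : RowsOK rs) (h : actY den rs a b = true) :
    FF rs (vc a) = (den : ℤ) • vc b := by
  funext p
  have h1 := actL_spec rs 0 h (idx p) (by rw [hR.1]; exact idx_lt p)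
  simp only [FF, Pi.smul_apply, smul_eq_mul]
  rw [FF_vc hR a _ (idx_lt p), ← h1]
  simp [gP, vc]

theorem actN_spec {den : ℕ} {rs : List (List ℕ)} {a b : ℕ} (hR : RowsOK rs) (h : actN den rs a b = true) :
    FF rs (vc a) = (den : ℤ) • (- vc b) := by
  funext p
  have h1 := actL_spec rs 0 h (idx p) (by rw [hR.1]; exact idx_lt p)
  simp only [FF, Pi.smul_apply, smul_eq_mul, Pi.neg_apply]
  rw [FF_vc hR a _ (idx_lt p), ← h1]
  have h2 : (gN b (0 + idx p) : ℤ) = 32 - (fld b (idx p) : ℤ) := by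
    have h3 := fld_lt b (idx p)
    show ((Nat.sub 32 (fld b (0 + idx p)) : ℕ) : ℤ) = _
    rw [zero_add]
    have : Nat.sub 32 (fld b (idx p)) = 32 - fld b (idx p) := rfl
    rw [this]
    push_cast [Nat.cast_sub (le_of_lt h3)]
    ring
  rw [h2]
  simp only [vc]
  ring

theorem FF_add (rs : List (List ℕ)) (x y : GolayPt → ℤ) : FF rs (x + y) = FF rs x + FF rs y := by
  funext p
  exact lin_add _ _ _

theorem FF_sum {ι : Type*} (s : Finset ι) (rs : List (List ℕ)) (a : ι → ℤ) (x : ι → GolayPt → ℤ) :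
    FF rs (∑ k ∈ s, a k • x k) = ∑ k ∈ s, a k • FF rs (x k) := by
  funext p
  simp only [FF, Finset.sum_apply, Pi.smul_apply, smul_eq_mul]
  exact lin_sum s _ a (fun k j => x k (ptOf j))

/-! ### A basis of the lattice -/

/-- a basis of the lattice with a dual family -/
structure LBasis (bC cC : ℕ → ℕ) : Prop where
  b_mem : ∀ k, k < 24 → vc (bC k) ∈ leechLattice
  c_mem : ∀ k, k < 24 → vc (cC k) ∈ leechLattice
  dual : ∀ i j : GolayPt, ∑ k : Fin 24, vc (bC k) i * vc (cC k) j = if i = j then 8 else 0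

theorem dot8 {x y : GolayPt → ℤ} (hx : x ∈ leechLattice) (hy : y ∈ leechLattice) : (8 : ℤ) ∣ dotInt x y := by
  have h1 := Cfsg.Agent.S0392.result _ (add_mem hx hy)
  have h2 := Cfsg.Agent.S0392.result _ hx
  have h3 := Cfsg.Agent.S0392.result _ hy
  rw [norm_add] at h1
  omega

theorem span_of {bC cC : ℕ → ℕ} (hB : LBasis bC cC) {x : GolayPt → ℤ} (hx : x ∈ leechLattice) :
    ∃ a : Fin 24 → ℤ, x = ∑ k, a k • vc (bC k) := by
  have h8 : ∀ k : Fin 24, ∃ c, dotInt x (vc (cC k)) = 8 * c := fun k => dot8 hx (hB.c_mem k k.2)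
  choose a ha using h8
  refine ⟨a, ?_⟩
  funext i
  have h1 : (8 : ℤ) * x i = 8 * (∑ k, a k • vc (bC k)) i := by
    simp only [Finset.sum_apply, Pi.smul_apply, smul_eq_mul, Finset.mul_sum]
    have h2 : ∀ k : Fin 24, 8 * (a k * vc (bC k) i) = vc (bC k) i * dotInt x (vc (cC k)) := by
      intro k
      rw [ha k]
      ring
    simp only [h2]
    unfold dotInt
    simp only [Finset.mul_sum]
    rw [Finset.sum_comm]
    have h3 : ∀ j : GolayPt, ∑ k : Fin 24, vc (bC k) i * (x j * vc (cC k) j) =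
        x j * (if i = j then 8 else 0) := by
      intro j
      rw [← hB.dual i j, Finset.mul_sum]
      refine Finset.sum_congr rfl fun k _ => ?_
      ring
    simp only [h3]
    simp
    ring
  exact mul_left_cancel₀ (by norm_num) h1

/-! ### The group element of a letter -/

/-- the data needed for a letter to be an automorphism -/
structure LCert (bC cC : ℕ → ℕ) (d d' : ℕ) (rs rs' : List (List ℕ)) (yC zC : ℕ → ℕ) : Prop where
  basis : LBasis bC cC
  rowsOK : RowsOK rs
  rowsOK' : RowsOK rs'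
  dpos : 0 < d
  dpos' : 0 < d'
  y_act : ∀ k, k < 24 → actY d rs (bC k) (yC k) = true
  z_act : ∀ k, k < 24 → actY d' rs' (bC k) (zC k) = true
  y_back : ∀ k, k < 24 → actY d' rs' (yC k) (bC k) = true
  z_back : ∀ k, k < 24 → actY d rs (zC k) (bC k) = true
  y_mem : ∀ k, k < 24 → vc (yC k) ∈ leechLattice
  z_mem : ∀ k, k < 24 → vc (zC k) ∈ leechLattice
  dots : ∀ k l : Fin 24, dotInt (vc (yC k)) (vc (yC l)) = dotInt (vc (bC k)) (vc (bC l))

section
variable {bC cC : ℕ → ℕ} {d d' : ℕ} {rs rs' : List (List ℕ)} {yC zC : ℕ → ℕ}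

/-- the integer vector image of a vector of the lattice -/
noncomputable def gmap (d : ℕ) (rs : List (List ℕ)) (x : GolayPt → ℤ) : GolayPt → ℤ := fun p => FF rs x p / (d : ℤ)

theorem gmap_eq {d : ℕ} {rs : List (List ℕ)} (hd : 0 < d) {x z : GolayPt → ℤ} (h : FF rs x = (d : ℤ) • z) :
    gmap d rs x = z := by
  funext p
  simp only [gmap, h, Pi.smul_apply, smul_eq_mul]
  exact Int.mul_ediv_cancel_left _ (by exact_mod_cast hd.ne')

theorem gmap_sum {d : ℕ} {rs : List (List ℕ)} (hR : RowsOK rs) (hd : 0 < d) {b y : ℕ → ℕ}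
    (hy : ∀ k, k < 24 → actY d rs (b k) (y k) = true) (a : Fin 24 → ℤ) :
    gmap d rs (∑ k, a k • vc (b k)) = ∑ k, a k • vc (y k) := by
  apply gmap_eq hd
  rw [FF_sum]
  have h : ∀ k : Fin 24, FF rs (vc (b k)) = (d : ℤ) • vc (y k) := fun k => actY_spec hR (hy k k.2)
  simp only [h]
  funext p
  simp only [Finset.sum_apply, Pi.smul_apply, smul_eq_mul, Finset.mul_sum]
  refine Finset.sum_congr rfl fun k _ => ?_
  ring

theorem sum_mem_L {y : ℕ → ℕ} (hy : ∀ k, k < 24 → vc (y k) ∈ leechLattice) (a : Fin 24 → ℤ) :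
    ∑ k, a k • vc (y k) ∈ leechLattice :=
  sum_mem fun k _ => by
    exact AddSubgroup.zsmul_mem _ (hy k k.2) _

theorem dot_smul_sum (a : Fin 24 → ℤ) (u : Fin 24 → GolayPt → ℤ) :
    sqNorm (∑ k, a k • u k) = ∑ k, ∑ l, a k * a l * dotInt (u k) (u l) := by
  unfold sqNorm dotInt
  have h1 : ∀ i, (∑ k, a k • u k) i ^ 2 = ∑ k, ∑ l, a k * a l * (u k i * u l i) := by
    intro i
    simp only [Finset.sum_apply, Pi.smul_apply, smul_eq_mul, sq, Finset.sum_mul_sum]
    refine Finset.sum_congr rfl fun k _ => Finset.sum_congr rfl fun l _ => ?_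
    ring
  simp only [h1, Finset.mul_sum]
  rw [Finset.sum_comm]
  refine Finset.sum_congr rfl fun k _ => ?_
  rw [Finset.sum_comm]

variable (h : LCert bC cC d d' rs rs' yC zC)
include h

theorem gmap_mem {x : GolayPt → ℤ} (hx : x ∈ leechLattice) : gmap d rs x ∈ leechLattice := by
  obtain ⟨a, rfl⟩ := span_of h.basis hx
  rw [gmap_sum h.rowsOK h.dpos h.y_act]
  exact sum_mem_L h.y_mem a

theorem gmap_mem' {x : GolayPt → ℤ} (hx : x ∈ leechLattice) : gmap d' rs' x ∈ leechLattice := by
  obtain ⟨a, rfl⟩ := span_of h.basis hx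
  rw [gmap_sum h.rowsOK' h.dpos' h.z_act]
  exact sum_mem_L h.z_mem a

theorem gmap_left {x : GolayPt → ℤ} (hx : x ∈ leechLattice) : gmap d' rs' (gmap d rs x) = x := by
  obtain ⟨a, rfl⟩ := span_of h.basis hx
  rw [gmap_sum h.rowsOK h.dpos h.y_act, gmap_sum h.rowsOK' h.dpos' h.y_back]

theorem gmap_right {x : GolayPt → ℤ} (hx : x ∈ leechLattice) : gmap d rs (gmap d' rs' x) = x := by
  obtain ⟨a, rfl⟩ := span_of h.basis hx
  rw [gmap_sum h.rowsOK' h.dpos' h.z_act, gmap_sum h.rowsOK h.dpos h.z_back]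

theorem gmap_norm {x : GolayPt → ℤ} (hx : x ∈ leechLattice) : sqNorm (gmap d rs x) = sqNorm x := by
  obtain ⟨a, rfl⟩ := span_of h.basis hx
  rw [gmap_sum h.rowsOK h.dpos h.y_act, dot_smul_sum, dot_smul_sum]
  refine Finset.sum_congr rfl fun k _ => Finset.sum_congr rfl fun l _ => ?_
  rw [h.dots]

theorem gmap_add {x y : GolayPt → ℤ} (hx : x ∈ leechLattice) (hy : y ∈ leechLattice) :
    gmap d rs (x + y) = gmap d rs x + gmap d rs y := by
  obtain ⟨a, rfl⟩ := span_of h.basis hx
  obtain ⟨b, rfl⟩ := span_of h.basis hy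
  rw [← Finset.sum_add_distrib]
  simp only [← add_smul]
  rw [gmap_sum h.rowsOK h.dpos h.y_act, gmap_sum h.rowsOK h.dpos h.y_act, gmap_sum h.rowsOK h.dpos h.y_act,
    ← Finset.sum_add_distrib]
  simp only [add_smul]

/-- the automorphism of a letter -/
noncomputable def toCo : Co0 :=
  ⟨{ toFun := fun v => ⟨gmap d rs v.1, gmap_mem h v.2⟩
     invFun := fun v => ⟨gmap d' rs' v.1, gmap_mem' h v.2⟩
     left_inv := fun v => Subtype.ext (gmap_left h v.2)
     right_inv := fun v => Subtype.ext (gmap_right h v.2) },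
    ⟨fun v w => Subtype.ext (gmap_add h v.2 w.2), fun v => gmap_norm h v.2⟩⟩

theorem toCo_apply (v : LL) : ((toCo h • v : LL) : GolayPt → ℤ) = gmap d rs v.1 := rfl

theorem toCo_act {a b : ℕ} (hv : vc a ∈ leechLattice) (hact : actY d rs a b = true) :
    ((toCo h • (⟨vc a, hv⟩ : LL) : LL) : GolayPt → ℤ) = vc b := by
  rw [toCo_apply]
  exact gmap_eq h.dpos (actY_spec h.rowsOK hact)

theorem toCo_actN {a b : ℕ} (hv : vc a ∈ leechLattice) (hact : actN d rs a b = true) :
    ((toCo h • (⟨vc a, hv⟩ : LL) : LL) : GolayPt → ℤ) = - vc b := by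
  rw [toCo_apply]
  exact gmap_eq h.dpos (actN_spec h.rowsOK hact)

end

end Cfsg.Agent.Lib.CoLetter
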