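import Cfsg.Agent.Lib.CoCensus
import Cfsg.Agent.Lib.PermChain2

/-! From a subgroup of the automorphism group of the lattice to a group of permutations of lines. -/

set_option autoImplicit false
set_option linter.unusedSimpArgs false
set_option linter.unusedVariables false
set_option linter.style.haveILetI false

namespace Cfsg.Agent.Lib.CoLink

open Cfsg Cfsg.Agent.LeechBasic Cfsg.Agent.Lib.LeechAut Cfsg.Agent.Lib.GolayBasic
open Cfsg.Agent.Lib.CoLetter Cfsg.Agent.Lib.CoCert Cfsg.Agent.Lib.CoTree Cfsg.Agent.Lib.PChain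
open Cfsg.Agent.Lib.CoChain Cfsg.Agent.Lib.CoCenter Cfsg.Agent.Lib.CoCensus
open Cfsg.Agent.Lib.PermChain Cfsg.Agent.Lib.PermChain2

/-- two groups related by a functional relation, with the same order, are isomorphic -/
theorem equiv_of_rel {G K : Type*} [Group G] [Group K] [Finite G] (R : G → K → Prop)
    (h1 : R 1 1) (hm : ∀ {a b x y}, R a x → R b y → R (a * b) (x * y)) (hi : ∀ {a x}, R a x → R a⁻¹ x⁻¹)
    (hu : ∀ {a x y}, R a x → R a y → x = y) (hd : ∀ x, ∃ a, R a x) (hc : Nat.card G = Nat.card K) :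
    Nonempty (G ≃* K) := by
  classical
  let H' : Subgroup G :=
    { carrier := {a | ∃ x, R a x}
      one_mem' := ⟨1, h1⟩
      mul_mem' := fun ⟨x, hx⟩ ⟨y, hy⟩ => ⟨x * y, hm hx hy⟩
      inv_mem' := fun ⟨x, hx⟩ => ⟨x⁻¹, hi hx⟩ }
  let f : H' →* K := MonoidHom.mk' (fun a => a.2.choose) (by
    intro a b
    exact hu (a * b).2.choose_spec (hm a.2.choose_spec b.2.choose_spec))
  have hf : ∀ a : H', R a.1 (f a) := fun a => a.2.choose_spec
  have hs : Function.Surjective f := by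
    intro x
    obtain ⟨a, ha⟩ := hd x
    exact ⟨⟨a, x, ha⟩, hu (hf _) ha⟩
  haveI : Finite K := Finite.of_surjective f hs
  have hle : Nat.card K ≤ Nat.card H' := Nat.card_le_card_of_surjective f hs
  have hle2 : Nat.card H' ≤ Nat.card G := Subgroup.card_le_card_group H'
  have hcard : Nat.card H' = Nat.card G := by omega
  have htop : H' = ⊤ := Subgroup.eq_top_of_card_eq H' hcard
  have hb : Function.Bijective f := by
    refine (Nat.bijective_iff_surjective_and_card f).2 ⟨hs, by omega⟩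
  let e := MulEquiv.ofBijective f hb
  have e2 : H' ≃* G := by
    rw [htop]
    exact Subgroup.topEquiv
  exact ⟨e2.symm.trans e⟩

/-- the letters replaced -/
abbrev withL (D : PD) (L : ℕ) (σ : ℕ → ℕ → ℕ) (inv0 : ℕ → ℕ) : PD :=
  { D with L := L, σ := σ, inv0 := inv0 }

section link

variable {D : PD} {V : ℕ → ℕ}

/-- the line of an index -/
noncomputable def om (hm : ∀ p, p < D.N → vc (V p) ∈ leechLattice) (p : Fin D.N) : LL := ⟨vc (V p), hm p p.2⟩

/-- an element permutes the lines as a given permutation -/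
def LP (hm : ∀ p, p < D.N → vc (V p) ∈ leechLattice) (g : Co0) (σ : Equiv.Perm (Fin D.N)) : Prop :=
  ∀ p, g • om hm p = om hm (σ p) ∨ g • om hm p = - om hm (σ p)

variable (hm : ∀ p, p < D.N → vc (V p) ∈ leechLattice)
include hm

theorem LP_one : LP hm 1 1 := fun p => Or.inl (one_smul _ _)

theorem LP_mul {g h : Co0} {σ τ : Equiv.Perm (Fin D.N)} (h1 : LP hm g σ) (h2 : LP hm h τ) : LP hm (g * h) (σ * τ) := by
  intro p
  rw [mul_smul]
  rcases h2 p with e | e <;> rw [e] <;> rcases h1 (τ p) with e' | e'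
  · exact Or.inl e'
  · exact Or.inr e'
  · right
    rw [co_neg, e']
    rfl
  · left
    rw [co_neg, e', neg_neg]
    rfl

theorem LP_inv {g : Co0} {σ : Equiv.Perm (Fin D.N)} (h1 : LP hm g σ) : LP hm g⁻¹ σ⁻¹ := by
  intro p
  have h2 := h1 (σ⁻¹ p)
  have e0 : σ (σ⁻¹ p) = p := by simp
  rw [e0] at h2
  rcases h2 with e | e
  · left
    rw [← e, inv_smul_smul]
  · right
    have : om hm p = - (g • om hm (σ⁻¹ p)) := by rw [e, neg_neg]
    rw [this, co_neg, inv_smul_smul]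

theorem LP_unique (hT : Tab V D.N) (h0 : zeroC < V 0) {g : Co0} {σ τ : Equiv.Perm (Fin D.N)} (h1 : LP hm g σ) (h2 : LP hm g τ) :
    σ = τ := by
  have hz : ∀ k, k < D.N → zeroC < V k := by
    intro k hk
    by_cases hk0 : k = 0
    · rw [hk0]
      exact h0
    · exact lt_trans h0 (strict_of_sort hT.sorted (by omega) hk)
  ext p
  have hne : ∀ a b : Fin D.N, om hm a ≠ - om hm b := by
    intro a b e
    exact vc_ne_neg (hT.hi a a.2) (hT.hi b b.2) (hz a a.2) (hz b b.2) (congrArg Subtype.val e)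
  have hinj : ∀ a b : Fin D.N, om hm a = om hm b → (a : ℕ) = b := by
    intro a b e
    exact hT.inj a.2 b.2 (congrArg Subtype.val e)
  rcases h1 p with e | e <;> rcases h2 p with e' | e'
  · rw [e] at e'
    exact hinj _ _ e'
  · rw [e] at e'
    exact absurd e' (hne _ _)
  · rw [e] at e'
    exact absurd (neg_inj.1 (by rw [e', neg_neg] : - om hm (σ p) = - (- om hm (τ p)))) (hne _ _)
  · rw [e] at e'
    exact hinj _ _ (neg_inj.1 e')

end link

/-- the check of the action of a letter on the lines -/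
noncomputable def lineB (V : ℕ → ℕ) (d : ℕ) (rs : List (List ℕ)) (a p : ℕ) : Bool :=
  or (actY d rs (V p) (V a)) (actN d rs (V p) (V a))

section letters

variable {D : PD} {V : ℕ → ℕ} {H : Subgroup Co0}

theorem lp_of_letter (hm : ∀ p, p < D.N → vc (V p) ∈ leechLattice) {d : ℕ} {rs : List (List ℕ)} (hl : IsLetter H d rs)
    {σ : Equiv.Perm (Fin D.N)} (hc : ∀ p : Fin D.N, lineB V d rs (σ p) p = true) : ∃ g ∈ H, LP hm g σ := by
  obtain ⟨g, hg, e⟩ := hl.ex
  refine ⟨g, hg, fun p => ?_⟩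
  have h1 := hc p
  simp only [lineB, Bool.or_eq_true] at h1
  rcases h1 with h1 | h1
  · left
    apply Subtype.ext
    rw [e]
    exact gmap_actY hl.dpos hl.rows h1
  · right
    apply Subtype.ext
    rw [e]
    exact gmap_actN hl.dpos hl.rows h1

end letters

theorem letter_inv {bC cC : ℕ → ℕ} {d d' : ℕ} {rs rs' : List (List ℕ)} {yC zC : ℕ → ℕ}
    (h : LCert bC cC d d' rs rs' yC zC) {K : Subgroup Co0} (hK : toCo h ∈ K) : IsLetter K d' rs' :=
  ⟨h.dpos', h.rowsOK', (toCo h)⁻¹, K.inv_mem hK, fun v => rfl⟩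

/-- the data of the link -/
structure LinkD (D : PD) (L' : ℕ) (σ' : ℕ → ℕ → ℕ) (inv' : ℕ → ℕ) (V : ℕ → ℕ) (dd : ℕ → ℕ) (rr : ℕ → List (List ℕ))
    (wd : ℕ → List ℕ) (H : Subgroup Co0) : Prop where
  cert : Cert D
  letters' : lettersOK (withL D L' σ' inv')
  tab : Tab V D.N
  zero : zeroC < V 0
  mem : ∀ p, p < D.N → vc (V p) ∈ leechLattice
  let' : ∀ x, x < L' → IsLetter H (dd x) (rr x)
  line : ∀ x, x < L' → ∀ p, p < D.N → lineB V (dd x) (rr x) (σ' x p) p = true
  words : ∀ y, D.lt 0 ≤ y → y < D.lt 1 → ∀ p, p < D.N → D.σ y p = walk (withL D L' σ' inv') p (wd y) ∧ y < D.L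
  words_lt : ∀ y, D.lt 0 ≤ y → y < D.lt 1 → ∀ z ∈ wd y, z < L'

section main

variable {D : PD} {L' : ℕ} {σ' : ℕ → ℕ → ℕ} {inv' : ℕ → ℕ} {V : ℕ → ℕ} {dd : ℕ → ℕ} {rr : ℕ → List (List ℕ)}
  {wd : ℕ → List ℕ} {H : Subgroup Co0}

theorem gp'_lp (hL : LinkD D L' σ' inv' V dd rr wd H) {x : ℕ} (hx : x < L') :
    ∃ g ∈ H, LP hL.mem g (gp (withL D L' σ' inv') x : Equiv.Perm (Fin D.N)) := by
  have h1 := lp_of_letter (D := D) (σ := (gp (withL D L' σ' inv') x : Equiv.Perm (Fin D.N))⁻¹) hL.mem (hL.let' x hx) (by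
    intro p
    have h2 := gp_inv_apply hL.letters' x p
    have h3 : (((gp (withL D L' σ' inv') x : Equiv.Perm (Fin D.N))⁻¹ p : Fin D.N) : ℕ) = σ' x p := by
      refine h2.trans ?_
      show Bool.rec (motive := fun _ => ℕ) (p : ℕ) (σ' x p) (Nat.blt x L') = _
      have h4 : Nat.blt x L' = true := by simpa [Nat.blt_eq] using hx
      rw [h4]
    rw [h3]
    exact hL.line x hx p p.2)
  obtain ⟨g, hg, e⟩ := h1
  refine ⟨g⁻¹, H.inv_mem hg, ?_⟩
  have := LP_inv hL.mem e
  simpa using this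

theorem evW_lp (hL : LinkD D L' σ' inv' V dd rr wd H) (w : List ℕ) (hw : ∀ z ∈ w, z < L') :
    ∃ g ∈ H, LP hL.mem g (evW (withL D L' σ' inv') w : Equiv.Perm (Fin D.N)) := by
  induction w with
  | nil => exact ⟨1, H.one_mem, LP_one hL.mem⟩
  | cons x w ih =>
    obtain ⟨g, hg, e⟩ := gp'_lp hL (hw x (by simp))
    obtain ⟨g', hg', e'⟩ := ih (fun z hz => hw z (by simp [hz]))
    exact ⟨g * g', H.mul_mem hg hg', LP_mul hL.mem e e'⟩

theorem gp_word (hL : LinkD D L' σ' inv' V dd rr wd H) {y : ℕ} (h1 : D.lt 0 ≤ y) (h2 : y < D.lt 1) :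
    gp D y = (evW (withL D L' σ' inv') (wd y) : Equiv.Perm (Fin D.N)) := by
  have h3 : (gp D y)⁻¹ = (evW (withL D L' σ' inv') (wd y) : Equiv.Perm (Fin D.N))⁻¹ := by
    ext p
    rw [gp_inv_apply hL.cert.letters]
    have h4 := evW_inv_apply hL.letters' (wd y) p
    refine Eq.trans ?_ h4.symm
    obtain ⟨h5, h6⟩ := hL.words y h1 h2 p p.2
    show Bool.rec (motive := fun _ => ℕ) (p : ℕ) (D.σ y p) (Nat.blt y D.L) = _
    have h7 : Nat.blt y D.L = true := by simpa [Nat.blt_eq] using h6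
    rw [h7]
    exact h5
  exact inv_inj.1 h3

/-- all the elements of the group of the chain come from the subgroup -/
theorem down (hL : LinkD D L' σ' inv' V dd rr wd H) : ∀ σ ∈ KK D 0, ∃ g ∈ H, LP hL.mem g σ := by
  intro σ hσ
  have hcl : KK D 0 ≤ { carrier := {σ | ∃ g ∈ H, LP hL.mem g σ}
                        one_mem' := ⟨1, H.one_mem, LP_one hL.mem⟩
                        mul_mem' := fun ⟨g, hg, e⟩ ⟨g', hg', e'⟩ => ⟨g * g', H.mul_mem hg hg', LP_mul hL.mem e e'⟩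
                        inv_mem' := fun ⟨g, hg, e⟩ => ⟨g⁻¹, H.inv_mem hg, LP_inv hL.mem e⟩ } := by
    refine (Subgroup.closure_le _).2 ?_
    rintro _ ⟨y, ⟨h1, h2⟩, rfl⟩
    show ∃ g ∈ H, LP hL.mem g (gp D y)
    rw [gp_word hL h1 h2]
    exact evW_lp hL _ (hL.words_lt y h1 h2)
  exact hcl hσ

/-- the group of the chain and the subgroup are isomorphic when they have the same order -/
theorem equiv (hL : LinkD D L' σ' inv' V dd rr wd H) (hc : Nat.card H = Nat.card (KK D 0)) : Nonempty (H ≃* KK D 0) := by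
  refine equiv_of_rel (G := H) (K := KK D 0) (fun a x => LP hL.mem a.1 x.1) (LP_one hL.mem)
    (fun h1 h2 => LP_mul hL.mem h1 h2) (fun h1 => LP_inv hL.mem h1) ?_ ?_ hc
  · intro a x y h1 h2
    exact Subtype.ext (LP_unique hL.mem hL.tab hL.zero h1 h2)
  · rintro ⟨σ, hσ⟩
    obtain ⟨g, hg, e⟩ := down hL σ hσ
    exact ⟨⟨g, hg⟩, e⟩

end main

end Cfsg.Agent.Lib.CoLink
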