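import Cfsg.Agent.Lib.CoU
import Cfsg.Agent.Lib.CoT275
import Cfsg.Agent.Lib.CoT112
import Cfsg.Agent.Lib.CoT162

/-! The configuration of the 275 vectors. -/

set_option autoImplicit false
set_option linter.unusedSimpArgs false
set_option linter.unusedVariables false
set_option linter.style.haveILetI false

namespace Cfsg.Agent.Lib.CoMcL

open Cfsg Cfsg.Agent.LeechBasic Cfsg.Agent.Lib.LeechAut Cfsg.Agent.Lib.GolayBasic Cfsg.Agent.Lib.GolayCode
open Cfsg.Agent.Lib.CoLetter Cfsg.Agent.Lib.CoCert Cfsg.Agent.Lib.CoTree Cfsg.Agent.Lib.PChain Cfsg.Agent.Lib.CoL Cfsg.Agent.Lib.CoL2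
open Cfsg.Agent.Lib.CoChain Cfsg.Agent.Lib.CoCenter Cfsg.Agent.Lib.CoCensus Cfsg.Agent.Lib.CoScan Cfsg.Agent.Lib.CoU

/-! ### Moving sets -/

theorem dot_inv (k : Co0) (a b : LL) :
    dotInt (a : GolayPt → ℤ) ((k⁻¹ • b : LL) : GolayPt → ℤ) = dotInt ((k • a : LL) : GolayPt → ℤ) (b : GolayPt → ℤ) := by
  have h := dot_smul k a (k⁻¹ • b)
  rw [smul_inv_smul] at h
  exact h.symm

theorem ncard_pull (k : Co0) {W : Set (GolayPt → ℤ)} (hW : W ⊆ leechLattice) :
    {x : LL | ((k⁻¹ • x : LL) : GolayPt → ℤ) ∈ W}.ncard = W.ncard := by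
  have h1 : {x : LL | ((k⁻¹ • x : LL) : GolayPt → ℤ) ∈ W} = (fun y : LL => k • y) '' (Subtype.val ⁻¹' W) := by
    ext x
    simp only [Set.mem_ofPred_eq, Set.mem_image, Set.mem_preimage]
    constructor
    · intro h
      exact ⟨k⁻¹ • x, h, smul_inv_smul k x⟩
    · rintro ⟨y, hy, rfl⟩
      rw [inv_smul_smul]
      exact hy
  have h2 : W = Subtype.val '' (Subtype.val ⁻¹' W : Set LL) := by
    rw [Set.image_preimage_eq_inter_range, Subtype.range_coe]
    exact (Set.inter_eq_left.2 hW).symm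
  rw [h1, Set.ncard_image_of_injective _ (MulAction.injective k)]
  conv_rhs => rw [h2]
  rw [ncard_val]

/-- a tree which is contained in a small set fills it -/
theorem tree_fills {V : ℕ → ℕ} {n : ℕ} (h : Tab V n) {W : Set (GolayPt → ℤ)} (hW : W.Finite) (hn : W.ncard ≤ n)
    (hs : tset V n ⊆ W) : tset V n = W := by
  refine Set.eq_of_subset_of_ncard_le hs ?_ hW
  rw [h.ncard]
  exact hn

theorem mem_tab3 {y : LL} : y.1 ∈ tset CoT3.vT 552 ↔ sqNorm (y : GolayPt → ℤ) = 32 ∧ dotInt (u0 : GolayPt → ℤ) (y : GolayPt → ℤ) = 24 := by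
  rw [tab3_eq]
  constructor
  · rintro ⟨-, h2, h3⟩
    exact ⟨h2, h3⟩
  · rintro ⟨h2, h3⟩
    exact ⟨y.2, h2, h3⟩

theorem tset_mem {V : ℕ → ℕ} {n : ℕ} {W : Set (GolayPt → ℤ)} (h : tset V n = W) (hW : W ⊆ leechLattice) : tset V n ⊆ leechLattice := by
  rw [h]
  exact hW

/-! ### The 275 vectors -/

/-- the code of a vector of the configuration -/
noncomputable def sy : ℕ := 686053159114946404968126440404435600
noncomputable def sy8 : ℕ := 602976409455611660822764372560923218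
noncomputable def sy16 : ℕ := 728847816542483676914216476691908209

theorem sy_mem : vc sy ∈ leechLattice := mem_of_inLB (by decide +kernel)
theorem sy8_mem : vc sy8 ∈ leechLattice := mem_of_inLB (by decide +kernel)
theorem sy16_mem : vc sy16 ∈ leechLattice := mem_of_inLB (by decide +kernel)
/-- a vector of the configuration -/
noncomputable def y0 : LL := ⟨vc sy, sy_mem⟩
noncomputable def y8 : LL := ⟨vc sy8, sy8_mem⟩
noncomputable def y16 : LL := ⟨vc sy16, sy16_mem⟩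

theorem n1_mem : toCo c_n1 ∈ M := ⟨fix_stab c_n1 rfl (by decide +kernel), fix_stab c_n1 rfl (by decide +kernel)⟩
theorem n2_mem : toCo c_n2 ∈ M := ⟨fix_stab c_n2 rfl (by decide +kernel), fix_stab c_n2 rfl (by decide +kernel)⟩

theorem let275 : ∀ l, l < CoT275.D.m → IsLetter M (CoT275.D.dd l) (CoT275.D.rr l) := by
  intro l hl
  have hl' : l < 2 := hl
  interval_cases l
  · exact letter_top c_n1 n1_mem
  · exact letter_top c_n2 n2_mem

theorem reach275 : ∀ i, i < 275 → ∃ g ∈ M, ((g • y0 : LL) : GolayPt → ℤ) = vc (CoT275.vT i) :=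
  reachY (D := CoT275.D) let275 y0 rfl CoT275.ok

theorem M_u0 {g : Co0} (hg : g ∈ M) : g • u0 = u0 := by
  have h : g ∈ A ⊓ MulAction.stabilizer Co0 x0 := by
    rw [inf_A]
    exact hg
  exact h.1

/-- the base description -/
def Q275 (y : LL) : Prop :=
  sqNorm (y : GolayPt → ℤ) = 32 ∧ dotInt (u0 : GolayPt → ℤ) (y : GolayPt → ℤ) = 24 ∧ dotInt (x0 : GolayPt → ℤ) (y : GolayPt → ℤ) = 16

theorem y0_Q : Q275 y0 := by
  refine ⟨?_, ?_, ?_⟩
  · show sqNorm (vc sy) = 32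
    rw [norm_eq_dot, dot_vc]
    decide +kernel
  · show dotInt (vc su) (vc sy) = 24
    rw [dot_vc]
    decide +kernel
  · show dotInt (vc s0) (vc sy) = 16
    rw [dot_vc]
    decide +kernel

/-- the vectors of the table with inner product 16 with the base vector -/
def W275 : Set (GolayPt → ℤ) := {y | y ∈ tset CoT3.vT 552 ∧ dotInt (vc s0) y = ((16 : ℕ) : ℤ)}

theorem W275_ncard : W275.ncard = 275 := by
  have h := ncard_dot CoT3.tab (k := 10) (by norm_num) s0 16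
  have h2 : cntB (fun i => dotB s0 16 (CoT3.vT i)) 552 10 = 275 := by decide +kernel
  rw [h2] at h
  exact h

theorem W275_finite : W275.Finite := (tset_finite _ _).subset (fun y hy => hy.1)

theorem mem_W275 {y : LL} : y.1 ∈ W275 ↔ Q275 y := by
  constructor
  · rintro ⟨h1, h2⟩
    obtain ⟨h3, h4⟩ := mem_tab3.1 h1
    exact ⟨h3, h4, h2⟩
  · rintro ⟨h1, h2, h3⟩
    exact ⟨mem_tab3.2 ⟨h1, h2⟩, h3⟩

theorem W275_le : W275 ⊆ leechLattice := by
  rintro y ⟨h1, -⟩
  rw [tab3_eq] at h1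
  exact h1.1

theorem T275_eq : tset CoT275.vT 275 = W275 := by
  refine tree_fills CoT275.tab W275_finite W275_ncard.le ?_
  rintro y ⟨i, hi, rfl⟩
  obtain ⟨g, hg, e⟩ := reach275 i hi
  rw [← e]
  apply mem_W275.2
  obtain ⟨h1, h2, h3⟩ := y0_Q
  refine ⟨by rw [norm_smul]; exact h1, ?_, ?_⟩
  · have := dot_smul g u0 y0
    rw [M_u0 hg] at this
    rw [this]
    exact h2
  · have := dot_smul g x0 y0
    rw [show g • x0 = x0 from hg.1] at this
    rw [this]
    exact h3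

/-- the description of the set after a move -/
theorem pull_Q {k : Co0} {u v : LL} (e1 : k • u0 = u) (e2 : k • x0 = v) (x : LL) :
    (sqNorm (x : GolayPt → ℤ) = 32 ∧ dotInt (u : GolayPt → ℤ) (x : GolayPt → ℤ) = 24 ∧ dotInt (v : GolayPt → ℤ) (x : GolayPt → ℤ) = 16) ↔
      ((k⁻¹ • x : LL) : GolayPt → ℤ) ∈ W275 := by
  rw [mem_W275]
  unfold Q275
  rw [norm_smul, dot_inv, dot_inv, e1, e2]

/-- the set of the statements -/
def Set275 (u v : LL) : Set LL := {x : LL | sqNorm (x : GolayPt → ℤ) = 32 ∧ sqNorm ((u - x : LL) : GolayPt → ℤ) = 32 ∧ dotInt (v : GolayPt → ℤ) (x : GolayPt → ℤ) = 16}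

theorem mem_set275 {u v : LL} (hu : sqNorm (u : GolayPt → ℤ) = 48) {k : Co0} (e1 : k • u0 = u) (e2 : k • x0 = v) (x : LL) :
    x ∈ Set275 u v ↔ ((k⁻¹ • x : LL) : GolayPt → ℤ) ∈ W275 := by
  rw [← pull_Q e1 e2]
  unfold Set275
  simp only [Set.mem_ofPred_eq]
  constructor
  · rintro ⟨h1, h2, h3⟩
    exact ⟨h1, (sub_iff hu h1).1 h2, h3⟩
  · rintro ⟨h1, h2, h3⟩
    exact ⟨h1, (sub_iff hu h1).2 h2, h3⟩

theorem exists_pair' (u v : LL) (hu : sqNorm (u : GolayPt → ℤ) = 48)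
    (hv : sqNorm (v : GolayPt → ℤ) = 32 ∧ sqNorm ((u - v : LL) : GolayPt → ℤ) = 32) : ∃ k : Co0, k • u0 = u ∧ k • x0 = v :=
  exists_pair u v hu hv.1 ((sub_iff hu hv.1).1 hv.2)

theorem ncard275 (u v : LL) (hu : sqNorm (u : GolayPt → ℤ) = 48)
    (hv : sqNorm (v : GolayPt → ℤ) = 32 ∧ sqNorm ((u - v : LL) : GolayPt → ℤ) = 32) : (Set275 u v).ncard = 275 := by
  obtain ⟨k, e1, e2⟩ := exists_pair' u v hu hv
  have h : Set275 u v = {x : LL | ((k⁻¹ • x : LL) : GolayPt → ℤ) ∈ W275} := by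
    ext x
    exact mem_set275 hu e1 e2 x
  rw [h, ncard_pull k W275_le, W275_ncard]

theorem T275_sub : W275 ⊆ Orb M y0 := by
  rw [← T275_eq]
  rintro y ⟨i, hi, rfl⟩
  obtain ⟨g, hg, e⟩ := reach275 i hi
  exact ⟨g, hg, e⟩

theorem trans275 (u v : LL) (hu : sqNorm (u : GolayPt → ℤ) = 48)
    (hv : sqNorm (v : GolayPt → ℤ) = 32 ∧ sqNorm ((u - v : LL) : GolayPt → ℤ) = 32) :
    ∀ x ∈ Set275 u v, ∀ x' ∈ Set275 u v, ∃ g : Co0, g • u = u ∧ g • v = v ∧ g • x = x' := by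
  obtain ⟨k, e1, e2⟩ := exists_pair' u v hu hv
  intro x hx x' hx'
  obtain ⟨c, hc, e⟩ := move T275_sub k ((mem_set275 hu e1 e2 x).1 hx) ((mem_set275 hu e1 e2 x').1 hx')
  refine ⟨k * c * k⁻¹, ?_, ?_, e⟩
  · rw [← e1]
    exact conj_fix (M_u0 hc)
  · rw [← e2]
    exact conj_fix hc.1

/-! ### The point stabilizer -/

/-- the stabilizer of three vectors -/
noncomputable abbrev U : Subgroup Co0 := M ⊓ MulAction.stabilizer Co0 y0

theorem u1_mem : toCo c_u1 ∈ U := ⟨⟨fix_stab c_u1 rfl (by decide +kernel), fix_stab c_u1 rfl (by decide +kernel)⟩, fix_stab c_u1 rfl (by decide +kernel)⟩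
theorem u2_mem : toCo c_u2 ∈ U := ⟨⟨fix_stab c_u2 rfl (by decide +kernel), fix_stab c_u2 rfl (by decide +kernel)⟩, fix_stab c_u2 rfl (by decide +kernel)⟩

theorem let112 : ∀ l, l < CoT112.D.m → IsLetter U (CoT112.D.dd l) (CoT112.D.rr l) := by
  intro l hl
  have hl' : l < 2 := hl
  interval_cases l
  · exact letter_top c_u1 u1_mem
  · exact letter_top c_u2 u2_mem

theorem let162 : ∀ l, l < CoT162.D.m → IsLetter U (CoT162.D.dd l) (CoT162.D.rr l) := by
  intro l hl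
  have hl' : l < 2 := hl
  interval_cases l
  · exact letter_top c_u1 u1_mem
  · exact letter_top c_u2 u2_mem

theorem reach112 : ∀ i, i < 112 → ∃ g ∈ U, ((g • y8 : LL) : GolayPt → ℤ) = vc (CoT112.vT i) :=
  reachY (D := CoT112.D) let112 y8 rfl CoT112.ok

theorem reach162 : ∀ i, i < 162 → ∃ g ∈ U, ((g • y16 : LL) : GolayPt → ℤ) = vc (CoT162.vT i) :=
  reachY (D := CoT162.D) let162 y16 rfl CoT162.ok

/-- the vectors of the table with a given inner product with the point -/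
def W8 : Set (GolayPt → ℤ) := {y | y ∈ tset CoT275.vT 275 ∧ dotInt (vc sy) y = ((8 : ℕ) : ℤ)}
def W16 : Set (GolayPt → ℤ) := {y | y ∈ tset CoT275.vT 275 ∧ dotInt (vc sy) y = ((16 : ℕ) : ℤ)}

theorem W8_ncard : W8.ncard = 112 := by
  have h := ncard_dot CoT275.tab (k := 9) (by norm_num) sy 8
  have h2 : cntB (fun i => dotB sy 8 (CoT275.vT i)) 275 9 = 112 := by decide +kernel
  rw [h2] at h
  exact h

theorem W16_ncard : W16.ncard = 162 := by
  have h := ncard_dot CoT275.tab (k := 9) (by norm_num) sy 16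
  have h2 : cntB (fun i => dotB sy 16 (CoT275.vT i)) 275 9 = 162 := by decide +kernel
  rw [h2] at h
  exact h

/-- the inner products of the vectors of the table with the point -/
theorem all275 : ∀ i, i < 275 → CoT275.vT i = sy ∨ dotB sy 8 (CoT275.vT i) = true ∨ dotB sy 16 (CoT275.vT i) = true := by
  have h : allR (fun i => or (Nat.beq (CoT275.vT i) sy) (or (dotB sy 8 (CoT275.vT i)) (dotB sy 16 (CoT275.vT i)))) 0 275 = true := by
    decide +kernel
  intro i hi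
  have h1 := allR_spec h i (Nat.zero_le _) hi
  simp only [Bool.or_eq_true] at h1
  rcases h1 with h1 | h1 | h1
  · exact Or.inl (Nat.eq_of_beq_eq_true h1)
  · exact Or.inr (Or.inl h1)
  · exact Or.inr (Or.inr h1)

theorem U_pres {g : Co0} (hg : g ∈ U) {z : LL} (hz : z.1 ∈ W275) : (g • z).1 ∈ W275 := by
  obtain ⟨h1, h2, h3⟩ := mem_W275.1 hz
  apply mem_W275.2
  refine ⟨by rw [norm_smul]; exact h1, ?_, ?_⟩
  · have := dot_smul g u0 z
    rw [M_u0 hg.1] at this
    rw [this]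
    exact h2
  · have := dot_smul g x0 z
    rw [show g • x0 = x0 from hg.1.1] at this
    rw [this]
    exact h3

theorem dot_U {g : Co0} (hg : g ∈ U) (z : LL) : dotInt (vc sy) ((g • z : LL) : GolayPt → ℤ) = dotInt (vc sy) (z : GolayPt → ℤ) := by
  have := dot_smul g y0 z
  rw [show g • y0 = y0 from hg.2] at this
  exact this

theorem T112_eq : tset CoT112.vT 112 = W8 := by
  refine tree_fills CoT112.tab ((tset_finite _ _).subset (fun y hy => hy.1)) W8_ncard.le ?_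
  rintro y ⟨i, hi, rfl⟩
  obtain ⟨g, hg, e⟩ := reach112 i hi
  rw [← e]
  have hy8 : y8.1 ∈ W8 := by
    refine ⟨?_, ?_⟩
    · rw [T275_eq]
      apply mem_W275.2
      refine ⟨?_, ?_, ?_⟩
      · show sqNorm (vc sy8) = 32
        rw [norm_eq_dot, dot_vc]
        decide +kernel
      · show dotInt (vc su) (vc sy8) = 24
        rw [dot_vc]
        decide +kernel
      · show dotInt (vc s0) (vc sy8) = 16
        rw [dot_vc]
        decide +kernel
    · show dotInt (vc sy) (vc sy8) = _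
      rw [dot_vc]
      decide +kernel
  refine ⟨?_, ?_⟩
  · rw [T275_eq]
    apply U_pres hg
    rw [← T275_eq]
    exact hy8.1
  · rw [dot_U hg]
    exact hy8.2

theorem T162_eq : tset CoT162.vT 162 = W16 := by
  refine tree_fills CoT162.tab ((tset_finite _ _).subset (fun y hy => hy.1)) W16_ncard.le ?_
  rintro y ⟨i, hi, rfl⟩
  obtain ⟨g, hg, e⟩ := reach162 i hi
  rw [← e]
  have hy8 : y16.1 ∈ W16 := by
    refine ⟨?_, ?_⟩
    · rw [T275_eq]
      apply mem_W275.2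
      refine ⟨?_, ?_, ?_⟩
      · show sqNorm (vc sy16) = 32
        rw [norm_eq_dot, dot_vc]
        decide +kernel
      · show dotInt (vc su) (vc sy16) = 24
        rw [dot_vc]
        decide +kernel
      · show dotInt (vc s0) (vc sy16) = 16
        rw [dot_vc]
        decide +kernel
    · show dotInt (vc sy) (vc sy16) = _
      rw [dot_vc]
      decide +kernel
  refine ⟨?_, ?_⟩
  · rw [T275_eq]
    apply U_pres hg
    rw [← T275_eq]
    exact hy8.1
  · rw [dot_U hg]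
    exact hy8.2

theorem W8_sub : W8 ⊆ Orb U y8 := by
  rw [← T112_eq]
  rintro y ⟨i, hi, rfl⟩
  obtain ⟨g, hg, e⟩ := reach112 i hi
  exact ⟨g, hg, e⟩

theorem W16_sub : W16 ⊆ Orb U y16 := by
  rw [← T162_eq]
  rintro y ⟨i, hi, rfl⟩
  obtain ⟨g, hg, e⟩ := reach162 i hi
  exact ⟨g, hg, e⟩

/-- the triple of the statements can be moved to the base triple -/
theorem exists_triple (u v x : LL) (hu : sqNorm (u : GolayPt → ℤ) = 48)
    (hv : sqNorm (v : GolayPt → ℤ) = 32 ∧ sqNorm ((u - v : LL) : GolayPt → ℤ) = 32) (hx : x ∈ Set275 u v) :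
    ∃ k : Co0, k • u0 = u ∧ k • x0 = v ∧ k • y0 = x := by
  obtain ⟨k, e1, e2⟩ := exists_pair' u v hu hv
  obtain ⟨c, hc, e⟩ := T275_sub ((mem_set275 hu e1 e2 x).1 hx)
  have e' : c • y0 = k⁻¹ • x := Subtype.ext e
  refine ⟨k * c, ?_, ?_, ?_⟩
  · rw [mul_smul, M_u0 hc, e1]
  · rw [mul_smul, show c • x0 = x0 from hc.1, e2]
  · rw [mul_smul, e', smul_inv_smul]

theorem y0_self : dotInt (vc sy) (vc sy) = 32 := by
  rw [dot_vc]
  decide +kernel

/-- rank three -/
theorem rank3 (u v x : LL) (hu : sqNorm (u : GolayPt → ℤ) = 48)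
    (hv : sqNorm (v : GolayPt → ℤ) = 32 ∧ sqNorm ((u - v : LL) : GolayPt → ℤ) = 32) (hx : x ∈ Set275 u v) :
    {y : LL | y ∈ Set275 u v ∧ dotInt (x : GolayPt → ℤ) (y : GolayPt → ℤ) = 8}.ncard = 112 ∧
    {y : LL | y ∈ Set275 u v ∧ y ≠ x ∧ dotInt (x : GolayPt → ℤ) (y : GolayPt → ℤ) = 16}.ncard = 162 ∧
    ∀ y ∈ Set275 u v, ∀ y' ∈ Set275 u v, y ≠ x → y' ≠ x → dotInt (x : GolayPt → ℤ) (y : GolayPt → ℤ) = dotInt (x : GolayPt → ℤ) (y' : GolayPt → ℤ) →
      ∃ g : Co0, g • u = u ∧ g • v = v ∧ g • x = x ∧ g • y = y' := by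
  obtain ⟨k, e1, e2, e3⟩ := exists_triple u v x hu hv hx
  have hW : ∀ y : LL, y ∈ Set275 u v ↔ ((k⁻¹ • y : LL) : GolayPt → ℤ) ∈ tset CoT275.vT 275 := by
    intro y
    rw [mem_set275 hu e1 e2 y, T275_eq]
  have hd : ∀ y : LL, dotInt (vc sy) ((k⁻¹ • y : LL) : GolayPt → ℤ) = dotInt (x : GolayPt → ℤ) (y : GolayPt → ℤ) := by
    intro y
    rw [← e3]
    exact dot_inv k y0 y
  have hne : ∀ y : LL, dotInt (x : GolayPt → ℤ) (y : GolayPt → ℤ) = 16 → y ≠ x := by
    rintro y hy rfl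
    rw [← hd, ← e3, inv_smul_smul] at hy
    have h1 : dotInt (vc sy) (vc sy) = 16 := hy
    rw [y0_self] at h1
    norm_num at h1
  have hsub : ∀ W : Set (GolayPt → ℤ), W ⊆ tset CoT275.vT 275 → W ⊆ leechLattice := by
    intro W hW'
    exact hW'.trans (by rw [T275_eq]; exact W275_le)
  refine ⟨?_, ?_, ?_⟩
  · have h : {y : LL | y ∈ Set275 u v ∧ dotInt (x : GolayPt → ℤ) (y : GolayPt → ℤ) = 8} =
        {y : LL | ((k⁻¹ • y : LL) : GolayPt → ℤ) ∈ W8} := by
      ext y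
      simp only [Set.mem_ofPred_eq, W8]
      rw [hW, hd]
      norm_num
    rw [h, ncard_pull k (hsub W8 (fun y hy => hy.1)), W8_ncard]
  · have h : {y : LL | y ∈ Set275 u v ∧ y ≠ x ∧ dotInt (x : GolayPt → ℤ) (y : GolayPt → ℤ) = 16} =
        {y : LL | ((k⁻¹ • y : LL) : GolayPt → ℤ) ∈ W16} := by
      ext y
      simp only [Set.mem_ofPred_eq, W16]
      rw [hW, hd]
      constructor
      · rintro ⟨h1, -, h3⟩
        exact ⟨h1, by rw [h3]; norm_num⟩
      · rintro ⟨h1, h3⟩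
        have h4 : dotInt (x : GolayPt → ℤ) (y : GolayPt → ℤ) = 16 := by rw [h3]; norm_num
        exact ⟨h1, hne y h4, h4⟩
    rw [h, ncard_pull k (hsub W16 (fun y hy => hy.1)), W16_ncard]
  · intro y hy y' hy' hyx hyx' hdd
    have cls : ∀ z : LL, z ∈ Set275 u v → z ≠ x → (dotInt (x : GolayPt → ℤ) (z : GolayPt → ℤ) = 8 ∧ ((k⁻¹ • z : LL) : GolayPt → ℤ) ∈ W8) ∨
        (dotInt (x : GolayPt → ℤ) (z : GolayPt → ℤ) = 16 ∧ ((k⁻¹ • z : LL) : GolayPt → ℤ) ∈ W16) := by
      intro z hz hzx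
      have h1 := (hW z).1 hz
      obtain ⟨i, hi, e⟩ := h1
      rcases all275 i hi with h2 | h2 | h2
      · exfalso
        apply hzx
        have h3 : k⁻¹ • z = y0 := by
          apply Subtype.ext
          rw [e, h2]
          rfl
        rw [← e3, ← h3, smul_inv_smul]
      · left
        have h3 := dotB_iff.1 h2
        rw [← e, hd] at h3
        refine ⟨by rw [h3]; norm_num, ?_⟩
        refine ⟨(hW z).1 hz, ?_⟩
        rw [hd]
        exact h3
      · right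
        have h3 := dotB_iff.1 h2
        rw [← e, hd] at h3
        refine ⟨by rw [h3]; norm_num, ?_⟩
        refine ⟨(hW z).1 hz, ?_⟩
        rw [hd]
        exact h3
    have fin : ∀ c ∈ U, (k * c * k⁻¹) • y = y' → ∃ g : Co0, g • u = u ∧ g • v = v ∧ g • x = x ∧ g • y = y' := by
      intro c hc e
      refine ⟨k * c * k⁻¹, ?_, ?_, ?_, e⟩
      · rw [← e1]
        exact conj_fix (M_u0 hc.1)
      · rw [← e2]
        exact conj_fix hc.1.1
      · rw [← e3]
        exact conj_fix hc.2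
    rcases cls y hy hyx with ⟨a1, a2⟩ | ⟨a1, a2⟩ <;> rcases cls y' hy' hyx' with ⟨b1, b2⟩ | ⟨b1, b2⟩
    · obtain ⟨c, hc, e⟩ := move W8_sub k a2 b2
      exact fin c hc e
    · rw [hdd, b1] at a1
      norm_num at a1
    · rw [hdd, b1] at a1
      norm_num at a1
    · obtain ⟨c, hc, e⟩ := move W16_sub k a2 b2
      exact fin c hc e

end Cfsg.Agent.Lib.CoMcL
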