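import Cfsg.Agent.Lib.CoK2G
import Cfsg.Prelude.Def_Sporadic

/-! The quotient of the automorphism group of the lattice by its centre is simple. -/

set_option autoImplicit false
set_option linter.unusedVariables false
set_option linter.unusedSimpArgs false
set_option linter.style.haveILetI false

namespace Cfsg.Agent.Lib.CoOne

open Cfsg Cfsg.Agent.LeechBasic Cfsg.Agent.Lib.LeechAut Cfsg.Agent.Lib.GolayBasic
open Cfsg.Agent.Lib.CoLetter Cfsg.Agent.Lib.CoCert Cfsg.Agent.Lib.CoTree Cfsg.Agent.Lib.PChain Cfsg.Agent.Lib.CoL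
open Cfsg.Agent.Lib.CoChain Cfsg.Agent.Lib.CoCenter Cfsg.Agent.Lib.CoCensus

theorem simple_H1 : IsSimpleGroup H1 := Cfsg.Agent.Lib.CoK2D.simple_H card_H1

/-- the minimal vectors inside a set of vectors of the lattice -/
theorem neg_smul' (v : LL) : negCo • v = -v := Subtype.ext (negCo_apply v)

theorem x0_fix {h : Co0} (hh : h ∈ H1) : h • x0 = x0 := hh

/-- a vector of the lattice of norm 32 is in one of the fibres -/
theorem dot_cases (y : LL) (hy : sqNorm (y : GolayPt → ℤ) = 32) :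
    dotInt (x0 : GolayPt → ℤ) (y : GolayPt → ℤ) = 32 ∨ dotInt (x0 : GolayPt → ℤ) (y : GolayPt → ℤ) = -32 ∨
    dotInt (x0 : GolayPt → ℤ) (y : GolayPt → ℤ) = 16 ∨ dotInt (x0 : GolayPt → ℤ) (y : GolayPt → ℤ) = -16 ∨
    dotInt (x0 : GolayPt → ℤ) (y : GolayPt → ℤ) = 8 ∨ dotInt (x0 : GolayPt → ℤ) (y : GolayPt → ℤ) = -8 ∨
    dotInt (x0 : GolayPt → ℤ) (y : GolayPt → ℤ) = 0 := by
  by_contra hc
  simp only [not_or] at hc
  set d := dotInt (x0 : GolayPt → ℤ) (y : GolayPt → ℤ) with hd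
  obtain ⟨c1, c2, c3, c4, c5, c6, c7⟩ := hc
  have h0 := sum_fibers {d, -16, 16, -8, 8, 0, 32, -32}
  have hm : d ∉ ({-16, 16, -8, 8, 0, 32, -32} : Finset ℤ) := by
    simp only [Finset.mem_insert, Finset.mem_singleton, not_or]
    exact ⟨c4, c3, c6, c5, c7, c1, c2⟩
  rw [Finset.sum_insert hm, Finset.sum_insert (by decide), Finset.sum_insert (by decide), Finset.sum_insert (by decide),
    Finset.sum_insert (by decide), Finset.sum_insert (by decide), Finset.sum_insert (by decide),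
    Finset.sum_singleton] at h0
  obtain ⟨f1, f2, f3, f4, f5, f6, f7⟩ := fibers
  rw [f1, f2, f3, f4, f5, f6, f7] at h0
  have h1 : (Fg x0 d).Nonempty := ⟨y.1, y.2, hy, hd.symm⟩
  have h2 : 0 < (Fg x0 d).ncard := (Set.ncard_pos (fg_finite x0 d)).2 h1
  omega

theorem eq_of_32 (y : LL) (hy : sqNorm (y : GolayPt → ℤ) = 32) (h : dotInt (x0 : GolayPt → ℤ) (y : GolayPt → ℤ) = 32) : y = x0 := by
  have h1 : y.1 ∈ Fg x0 32 := ⟨y.2, hy, h⟩
  have h2 : x0.1 ∈ Fg x0 32 := sub_x rfl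
  have h3 := (Set.ncard_eq_one.1 fibers.2.2.2.2.2.1)
  obtain ⟨a, ha⟩ := h3
  rw [ha] at h1 h2
  have h4 : y.1 = x0.1 := h1.trans h2.symm
  exact Subtype.ext h4

theorem neg_min (y : LL) : sqNorm ((-y : LL) : GolayPt → ℤ) = sqNorm (y : GolayPt → ℤ) := norm_neg' _

theorem dot_neg (y : LL) : dotInt (x0 : GolayPt → ℤ) ((-y : LL) : GolayPt → ℤ) = - dotInt (x0 : GolayPt → ℤ) (y : GolayPt → ℤ) :=
  dot_neg_right _ _

/-- the three base vectors -/
noncomputable def bs (e : ℕ) : LL := if e = 16 then xw else if e = 8 then xb else xc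

/-- vectors of the same absolute inner product are moved by the stabiliser up to sign -/
theorem to_base (y : LL) (hy : sqNorm (y : GolayPt → ℤ) = 32) (h1 : dotInt (x0 : GolayPt → ℤ) (y : GolayPt → ℤ) ≠ 32)
    (h2 : dotInt (x0 : GolayPt → ℤ) (y : GolayPt → ℤ) ≠ -32) :
    ∃ g ∈ H1, g • bs (dotInt (x0 : GolayPt → ℤ) (y : GolayPt → ℤ)).natAbs = y ∨ g • bs (dotInt (x0 : GolayPt → ℤ) (y : GolayPt → ℤ)).natAbs = -y := by
  rcases dot_cases y hy with e | e | e | e | e | e | e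
  · exact absurd e h1
  · exact absurd e h2
  · rw [e]
    have h3 : (-y).1 ∈ Fg x0 (-16) := ⟨(-y).2, by rw [neg_min]; exact hy, by rw [dot_neg, e]⟩
    obtain ⟨g, hg, e'⟩ := sub_orb_a h3
    exact ⟨g, hg, Or.inr (Subtype.ext e')⟩
  · rw [e]
    have h3 : y.1 ∈ Fg x0 (-16) := ⟨y.2, hy, e⟩
    obtain ⟨g, hg, e'⟩ := sub_orb_a h3
    exact ⟨g, hg, Or.inl (Subtype.ext e')⟩
  · rw [e]
    have h3 : (-y).1 ∈ Fg x0 (-8) := ⟨(-y).2, by rw [neg_min]; exact hy, by rw [dot_neg, e]⟩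
    obtain ⟨g, hg, e'⟩ := sub_orb_b h3
    exact ⟨g, hg, Or.inr (Subtype.ext e')⟩
  · rw [e]
    have h3 : y.1 ∈ Fg x0 (-8) := ⟨y.2, hy, e⟩
    obtain ⟨g, hg, e'⟩ := sub_orb_b h3
    exact ⟨g, hg, Or.inl (Subtype.ext e')⟩
  · rw [e]
    have h3 : y.1 ∈ Fg x0 0 := ⟨y.2, hy, e⟩
    obtain ⟨g, hg, e'⟩ := sub_orb_c h3
    exact ⟨g, hg, e'⟩

theorem move_pair (y y' : LL) (hy : sqNorm (y : GolayPt → ℤ) = 32) (hy' : sqNorm (y' : GolayPt → ℤ) = 32)
    (h1 : dotInt (x0 : GolayPt → ℤ) (y : GolayPt → ℤ) ≠ 32) (h2 : dotInt (x0 : GolayPt → ℤ) (y : GolayPt → ℤ) ≠ -32)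
    (h1' : dotInt (x0 : GolayPt → ℤ) (y' : GolayPt → ℤ) ≠ 32) (h2' : dotInt (x0 : GolayPt → ℤ) (y' : GolayPt → ℤ) ≠ -32)
    (e : (dotInt (x0 : GolayPt → ℤ) (y : GolayPt → ℤ)).natAbs = (dotInt (x0 : GolayPt → ℤ) (y' : GolayPt → ℤ)).natAbs) :
    ∃ h ∈ H1, h • y = y' ∨ h • y = -y' := by
  obtain ⟨g, hg, a⟩ := to_base y hy h1 h2
  obtain ⟨g', hg', a'⟩ := to_base y' hy' h1' h2'
  rw [← e] at a'
  refine ⟨g' * g⁻¹, H1.mul_mem hg' (H1.inv_mem hg), ?_⟩
  generalize bs (dotInt (x0 : GolayPt → ℤ) (y : GolayPt → ℤ)).natAbs = B at a a'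
  have b1 : g⁻¹ • y = B ∨ g⁻¹ • y = -B := by
    rcases a with a | a
    · left
      rw [← a, inv_smul_smul]
    · right
      have h3 : y = -(g • B) := by rw [a, neg_neg]
      rw [h3, co_neg, inv_smul_smul]
  rcases b1 with b1 | b1 <;> rcases a' with a' | a'
  · left
    rw [mul_smul, b1, a']
  · right
    rw [mul_smul, b1, a']
  · right
    rw [mul_smul, b1, co_neg, a']
  · left
    rw [mul_smul, b1, co_neg, a', neg_neg]

/-! ### The normal subgroup -/

section normal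

variable (N : Subgroup Co0) [hN : N.Normal] (hZ : negCo ∈ N)

/-- the set of the images of the base vector under the group generated with its stabiliser -/
noncomputable abbrev KK : Subgroup Co0 := N ⊔ H1

include hZ

theorem neg_orb {y : LL} (hy : y.1 ∈ Orb (KK N) x0) : (-y).1 ∈ Orb (KK N) x0 := by
  obtain ⟨g, hg, e⟩ := hy
  refine ⟨negCo * g, (KK N).mul_mem ((le_sup_left : N ≤ KK N) hZ) hg, ?_⟩
  have e' : g • x0 = y := Subtype.ext e
  rw [mul_smul, e', neg_smul']

omit hZ in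
theorem H1_orb {y : LL} (h : H1) (hy : y.1 ∈ Orb (KK N) x0) : ((h : Co0) • y).1 ∈ Orb (KK N) x0 := by
  obtain ⟨g, hg, e⟩ := hy
  refine ⟨(h : Co0) * g, (KK N).mul_mem ((le_sup_right : H1 ≤ KK N) h.2) hg, ?_⟩
  have e' : g • x0 = y := Subtype.ext e
  rw [mul_smul, e']

/-- the orbit is a union of fibres, closed under the sign -/
theorem orb_fill {y z : LL} (hz : sqNorm (z : GolayPt → ℤ) = 32) (hy : sqNorm (y : GolayPt → ℤ) = 32) (hyo : y.1 ∈ Orb (KK N) x0)
    (h1 : dotInt (x0 : GolayPt → ℤ) (y : GolayPt → ℤ) ≠ 32) (h2 : dotInt (x0 : GolayPt → ℤ) (y : GolayPt → ℤ) ≠ -32)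
    (h1' : dotInt (x0 : GolayPt → ℤ) (z : GolayPt → ℤ) ≠ 32) (h2' : dotInt (x0 : GolayPt → ℤ) (z : GolayPt → ℤ) ≠ -32)
    (e : (dotInt (x0 : GolayPt → ℤ) (y : GolayPt → ℤ)).natAbs = (dotInt (x0 : GolayPt → ℤ) (z : GolayPt → ℤ)).natAbs) :
    z.1 ∈ Orb (KK N) x0 := by
  obtain ⟨h, hh, a⟩ := move_pair y z hy hz h1 h2 h1' h2' e
  have h3 := H1_orb N ⟨h, hh⟩ hyo
  rcases a with a | a
  · have h4 : (h • y).1 = z.1 := by rw [a]
    rw [← h4]
    exact h3
  · have h4 : (h • y) = -z := a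
    have h5 := neg_orb N hZ h3
    have h6 : -(((⟨h, hh⟩ : H1) : Co0) • y) = z := by
      show -(h • y) = z
      rw [h4, neg_neg]
    rw [← h6]
    exact h5

omit hZ in
theorem orb_min {y : GolayPt → ℤ} (hy : y ∈ Orb (KK N) x0) : y ∈ leechLattice ∧ sqNorm y = 32 := by
  obtain ⟨g, hg, rfl⟩ := hy
  exact ⟨(g • x0).2, by rw [CoChain.norm_smul]; exact x0_norm⟩

omit hZ in
theorem ncard_split (S : Set (GolayPt → ℤ)) (hS : ∀ y ∈ S, y ∈ leechLattice ∧ sqNorm y = 32) :
    S.ncard = ∑ d ∈ ({32, -32, 16, -16, 8, -8, 0} : Finset ℤ), (S ∩ Fg x0 d).ncard := by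
  classical
  have hfin : S.Finite := min_finite.subset (fun y hy => hS y hy)
  let T := hfin.toFinset
  have hT : ∀ w, w ∈ T ↔ w ∈ S := fun w => by simp [T]
  let f : (GolayPt → ℤ) → ℤ := fun w => dotInt (x0 : GolayPt → ℤ) w
  have h1 : ∀ d, (S ∩ Fg x0 d).ncard = (T.filter (fun w => f w = d)).card := by
    intro d
    have h2 : S ∩ Fg x0 d = ↑(T.filter (fun w => f w = d)) := by
      ext w
      simp only [Finset.coe_filter, hT, Set.mem_inter_iff, Set.mem_ofPred_eq]
      constructor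
      · rintro ⟨h3, -, -, h4⟩
        exact ⟨h3, h4⟩
      · rintro ⟨h3, h4⟩
        exact ⟨h3, (hS w h3).1, (hS w h3).2, h4⟩
    rw [h2, Set.ncard_coe_finset]
  simp only [h1]
  rw [Set.ncard_eq_toFinset_card S hfin]
  refine Finset.card_eq_sum_card_fiberwise (f := f) (s := T) (t := _) ?_
  intro w hw
  have hw' : w ∈ S := (hT w).1 (Finset.mem_coe.1 hw)
  have h5 := hS w hw'
  have h6 := dot_cases ⟨w, h5.1⟩ h5.2
  show dotInt (x0 : GolayPt → ℤ) w ∈ _
  simp only [Finset.coe_insert, Finset.coe_singleton, Set.mem_insert_iff, Set.mem_singleton_iff]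
  exact h6

end normal

section main

variable (N : Subgroup Co0) [hN : N.Normal] (hZ : negCo ∈ N)

include hZ

theorem card_pair (d : ℤ) (h1 : d ≠ 32) (h2 : d ≠ -32) (h3 : d ≠ -32) :
    ((Orb (KK N) x0 ∩ Fg x0 d).ncard = (Fg x0 d).ncard ∧ (Orb (KK N) x0 ∩ Fg x0 (-d)).ncard = (Fg x0 (-d)).ncard) ∨
    ((Orb (KK N) x0 ∩ Fg x0 d).ncard = 0 ∧ (Orb (KK N) x0 ∩ Fg x0 (-d)).ncard = 0) := by
  by_cases hc : (Orb (KK N) x0 ∩ Fg x0 d).Nonempty ∨ (Orb (KK N) x0 ∩ Fg x0 (-d)).Nonempty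
  · left
    have key : ∀ y : GolayPt → ℤ, y ∈ Orb (KK N) x0 → (dotInt (x0 : GolayPt → ℤ) y = d ∨ dotInt (x0 : GolayPt → ℤ) y = -d) →
        ∀ z, z ∈ Fg x0 d ∪ Fg x0 (-d) → z ∈ Orb (KK N) x0 := by
      intro y hy hd z hz
      have hy2 := orb_min N hy
      have hz2 : z ∈ leechLattice ∧ sqNorm z = 32 ∧ (dotInt (x0 : GolayPt → ℤ) z = d ∨ dotInt (x0 : GolayPt → ℤ) z = -d) := by
        rcases hz with ⟨a, b, c⟩ | ⟨a, b, c⟩
        · exact ⟨a, b, Or.inl c⟩
        · exact ⟨a, b, Or.inr c⟩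
      have := orb_fill N hZ (y := ⟨y, hy2.1⟩) (z := ⟨z, hz2.1⟩) hz2.2.1 hy2.2 hy
        (by show dotInt _ y ≠ 32; rcases hd with e | e <;> rw [e] <;> omega)
        (by show dotInt _ y ≠ -32; rcases hd with e | e <;> rw [e] <;> omega)
        (by show dotInt _ z ≠ 32; rcases hz2.2.2 with e | e <;> rw [e] <;> omega)
        (by show dotInt _ z ≠ -32; rcases hz2.2.2 with e | e <;> rw [e] <;> omega)
        (by
          show (dotInt _ y).natAbs = (dotInt _ z).natAbs
          rcases hd with e | e <;> rcases hz2.2.2 with e' | e' <;> rw [e, e'] <;> simp)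
      exact this
    have hall : ∀ z, z ∈ Fg x0 d ∪ Fg x0 (-d) → z ∈ Orb (KK N) x0 := by
      rcases hc with ⟨y, hy, -, -, e⟩ | ⟨y, hy, -, -, e⟩
      · exact key y hy (Or.inl e)
      · exact key y hy (Or.inr e)
    constructor
    · congr 1
      exact Set.inter_eq_right.2 (fun z hz => hall z (Or.inl hz))
    · congr 1
      exact Set.inter_eq_right.2 (fun z hz => hall z (Or.inr hz))
  · right
    simp only [not_or, Set.not_nonempty_iff_eq_empty] at hc
    rw [hc.1, hc.2]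
    simp

theorem x0_orb : x0.1 ∈ Orb (KK N) x0 := ⟨1, one_mem _, by rw [one_smul]⟩

theorem nx0_orb : (-x0.1) ∈ Orb (KK N) x0 := neg_orb N hZ (y := x0) (x0_orb N hZ)

theorem orb_size : (Orb (KK N) x0).ncard = 2 ∨ (Orb (KK N) x0).ncard = 196560 := by
  have h := ncard_split _ (fun y hy => orb_min N hy)
  rw [Finset.sum_insert (by decide), Finset.sum_insert (by decide), Finset.sum_insert (by decide),
    Finset.sum_insert (by decide), Finset.sum_insert (by decide), Finset.sum_insert (by decide),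
    Finset.sum_singleton] at h
  obtain ⟨f1, f2, f3, f4, f5, f6, f7⟩ := fibers
  have a32 : (Orb (KK N) x0 ∩ Fg x0 32).ncard = 1 := by
    have h1 : Fg x0 32 ⊆ Orb (KK N) x0 := by
      intro y hy
      have h2 : (⟨y, hy.1⟩ : LL) = x0 := eq_of_32 ⟨y, hy.1⟩ hy.2.1 hy.2.2
      have h3 : y = x0.1 := congrArg Subtype.val h2
      rw [h3]
      exact x0_orb N hZ
    rw [Set.inter_eq_right.2 h1, f6]
  have an32 : (Orb (KK N) x0 ∩ Fg x0 (-32)).ncard = 1 := by
    have h1 : Fg x0 (-32) ⊆ Orb (KK N) x0 := by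
      intro y hy
      have h2 : (-(⟨y, hy.1⟩ : LL)) = x0 := eq_of_32 _ (by rw [neg_min]; exact hy.2.1) (by rw [dot_neg]; show - dotInt _ y = _; rw [hy.2.2]; norm_num)
      have h3 : -y = x0.1 := congrArg Subtype.val h2
      have h4 : y = -x0.1 := by rw [← h3, neg_neg]
      rw [h4]
      exact nx0_orb N hZ
    rw [Set.inter_eq_right.2 h1, f7]
  have a16 := card_pair N hZ 16 (by norm_num) (by norm_num) (by norm_num)
  have a8 := card_pair N hZ 8 (by norm_num) (by norm_num) (by norm_num)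
  have a0 := card_pair N hZ 0 (by norm_num) (by norm_num) (by norm_num)
  rw [f2, f1] at a16
  rw [f4, f3] at a8
  rw [f5] at a0
  have hdiv : (Orb (KK N) x0).ncard ∣ 196560 := by
    have h1 : Nat.card (KK N) = (Orb (KK N) x0).ncard * Nat.card ↥((KK N) ⊓ MulAction.stabilizer Co0 x0) := card_orb (KK N) x0
    have h2 : (KK N) ⊓ MulAction.stabilizer Co0 x0 = H1 := inf_eq_right.2 le_sup_right
    rw [h2, card_H1] at h1
    have h3 : Nat.card (KK N) ∣ Nat.card Co0 := Subgroup.card_subgroup_dvd_card _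
    rw [h1, co0_card] at h3
    have h4 : (8315553613086720000 : ℕ) = 196560 * 42305421312000 := by norm_num
    rw [h4] at h3
    exact Nat.dvd_of_mul_dvd_mul_right (by norm_num) h3
  rw [h, a32, an32] at hdiv ⊢
  rcases a16 with ⟨b1, b2⟩ | ⟨b1, b2⟩ <;> rcases a8 with ⟨c1, c2⟩ | ⟨c1, c2⟩ <;> rcases a0 with ⟨d1, d2⟩ | ⟨d1, d2⟩ <;>
    rw [b1, b2, c1, c2, d1] at hdiv ⊢ <;> first
      | (left; norm_num; done)
      | (right; norm_num; done)
      | (exfalso; revert hdiv; norm_num)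

theorem top_of_big (h : (Orb (KK N) x0).ncard = 196560) : KK N = ⊤ := by
  have h1 : Nat.card (KK N) = (Orb (KK N) x0).ncard * Nat.card ↥((KK N) ⊓ MulAction.stabilizer Co0 x0) := card_orb (KK N) x0
  have h2 : (KK N) ⊓ MulAction.stabilizer Co0 x0 = H1 := inf_eq_right.2 le_sup_right
  rw [h2, card_H1, h] at h1
  apply Subgroup.eq_top_of_card_eq
  rw [h1, co0_card]

theorem small_cases (h : (Orb (KK N) x0).ncard = 2) {y : LL} (hy : y.1 ∈ Orb (KK N) x0) : y = x0 ∨ y = -x0 := by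
  by_contra hc
  simp only [not_or] at hc
  have h1 : ({x0.1, -x0.1, y.1} : Set (GolayPt → ℤ)) ⊆ Orb (KK N) x0 := by
    intro z hz
    rcases hz with rfl | rfl | rfl
    · exact x0_orb N hZ
    · exact nx0_orb N hZ
    · exact hy
  have h2 := Set.ncard_le_ncard h1 (min_finite.subset (fun z hz => orb_min N hz))
  rw [h] at h2
  have h3 : ({x0.1, -x0.1, y.1} : Set (GolayPt → ℤ)).ncard = 3 := by
    rw [Set.ncard_eq_toFinset_card']
    classical
    have n1 : x0.1 ≠ -x0.1 := by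
      intro e
      have h4 : dotInt (x0 : GolayPt → ℤ) (x0 : GolayPt → ℤ) = dotInt (x0 : GolayPt → ℤ) (-(x0 : GolayPt → ℤ)) := by rw [← e]
      rw [dot_neg_right, x0_self] at h4
      norm_num at h4
    have n2 : x0.1 ≠ y.1 := fun e => hc.1 (Subtype.ext e.symm)
    have n3 : -x0.1 ≠ y.1 := fun e => hc.2 (Subtype.ext e.symm)
    simp [n1, n2, n3]
  omega

theorem orb_N {y : LL} (hy : y.1 ∈ Orb (KK N) x0) : ∃ n ∈ N, n • x0 = y := by
  obtain ⟨g, hg, e⟩ := hy
  have h1 : g ∈ (↑(N ⊔ H1) : Set Co0) := hg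
  rw [Subgroup.normal_mul] at h1
  obtain ⟨n, hn, h, hh, rfl⟩ := Set.mem_mul.1 h1
  refine ⟨n, hn, ?_⟩
  have e' : (n * h) • x0 = y := Subtype.ext e
  rw [mul_smul, show h • x0 = x0 from hh] at e'
  exact e'

omit hN hZ in
theorem neg_sq : negCo * negCo = 1 := by
  apply Subtype.ext
  apply Equiv.ext
  intro v
  show negCo • negCo • v = v
  rw [neg_smul', neg_smul', neg_neg]

omit hN hZ in
theorem neg_odd (k : ℕ) (hk : k % 2 = 1) : negCo ^ k = negCo := by
  obtain ⟨m, rfl⟩ : ∃ m, k = 2 * m + 1 := ⟨k / 2, by omega⟩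
  rw [pow_succ, pow_mul, pow_two, neg_sq, one_pow, one_mul]

omit hZ in
theorem conj_order (h n : Co0) : orderOf (h * n * h⁻¹) = orderOf n := by
  have := orderOf_injective (MulAut.conj h).toMonoidHom (MulAut.conj h).injective n
  simpa using this

/-- the case of a trivial intersection -/
theorem case_bot (hinj : ∀ a ∈ N, ∀ b ∈ N, a • x0 = b • x0 → a = b) (hne : ∃ n ∈ N, n ≠ 1 ∧ n ≠ negCo) : False := by
  have nx : -x0 = negCo • x0 := (neg_smul' x0).symm
  rcases orb_size N hZ with hs | hs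
  · obtain ⟨n, hn, n1, n2⟩ := hne
    have hy : (n • x0).1 ∈ Orb (KK N) x0 := ⟨n, (le_sup_left : N ≤ KK N) hn, rfl⟩
    rcases small_cases N hZ hs hy with e | e
    · exact n1 (hinj n hn 1 (one_mem _) (by rw [e, one_smul]))
    · exact n2 (hinj n hn negCo hZ (by rw [e, nx]))
  · -- the regular case
    have hfin : Finite Co0 := Nat.finite_of_card_ne_zero (by rw [co0_card]; norm_num)
    have hcard : Nat.card N = 196560 := by
      have h1 : Nat.card N = (Orb N x0).ncard * Nat.card ↥(N ⊓ MulAction.stabilizer Co0 x0) := card_orb N x0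
      have h2 : N ⊓ MulAction.stabilizer Co0 x0 = ⊥ := by
        rw [Subgroup.eq_bot_iff_forall]
        rintro x ⟨h3, h4⟩
        exact hinj x h3 1 (one_mem _) (by rw [one_smul]; exact h4)
      have h3 : Orb N x0 = Orb (KK N) x0 := by
        ext y
        constructor
        · rintro ⟨g, hg, e⟩
          exact ⟨g, (le_sup_left : N ≤ KK N) hg, e⟩
        · intro hy
          have hm := orb_min N hy
          obtain ⟨n, hn, e⟩ := orb_N N hZ (y := ⟨y, hm.1⟩) hy
          exact ⟨n, hn, congrArg Subtype.val e⟩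
      rw [h2, h3, hs, Subgroup.card_bot] at h1
      exact h1
    have prime_el : ∀ q : ℕ, q.Prime → q ∣ 196560 → ∃ n ∈ N, orderOf n = q := by
      intro q hq hd
      haveI : Fact q.Prime := ⟨hq⟩
      obtain ⟨x, hx⟩ := exists_prime_orderOf_dvd_card' (G := N) q (by rw [hcard]; exact hd)
      exact ⟨x.1, x.2, by rw [← Subgroup.orderOf_coe] at hx; exact hx⟩
    have not32 : ∀ n ∈ N, ∀ q : ℕ, orderOf n = q → q ≠ 1 → q % 2 = 1 →
        dotInt (x0 : GolayPt → ℤ) ((n • x0 : LL) : GolayPt → ℤ) ≠ 32 ∧ dotInt (x0 : GolayPt → ℤ) ((n • x0 : LL) : GolayPt → ℤ) ≠ -32 := by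
      intro n hn q ho h1 h2
      constructor
      · intro e
        have h3 := eq_of_32 (n • x0) (by rw [CoChain.norm_smul]; exact x0_norm) e
        have h4 := hinj n hn 1 (one_mem _) (by rw [h3, one_smul])
        rw [h4, orderOf_one] at ho
        exact h1 ho.symm
      · intro e
        have h3 := eq_of_32 (-(n • x0)) (by rw [neg_min, CoChain.norm_smul]; exact x0_norm) (by rw [dot_neg, e]; norm_num)
        have h4 : n • x0 = negCo • x0 := by rw [neg_smul']; exact neg_eq_iff_eq_neg.1 h3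
        have h5 := hinj n hn negCo hZ h4
        have h6 : negCo ^ q = 1 := by rw [← h5, ← ho]; exact pow_orderOf_eq_one n
        rw [neg_odd q h2] at h6
        exact negCo_ne h6
    have pair : ∀ n ∈ N, ∀ n' ∈ N, ∀ q q' : ℕ, orderOf n = q → orderOf n' = q' → q ≠ 1 → q' ≠ 1 → q % 2 = 1 → q' % 2 = 1 → q ≠ q' →
        (dotInt (x0 : GolayPt → ℤ) ((n • x0 : LL) : GolayPt → ℤ)).natAbs ≠ (dotInt (x0 : GolayPt → ℤ) ((n' • x0 : LL) : GolayPt → ℤ)).natAbs := by
      intro n hn n' hn' q q' ho ho' a1 a2 a3 a4 hqq e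
      obtain ⟨b1, b2⟩ := not32 n hn q ho a1 a3
      obtain ⟨c1, c2⟩ := not32 n' hn' q' ho' a2 a4
      obtain ⟨h, hh, a⟩ := move_pair (n • x0) (n' • x0) (by rw [CoChain.norm_smul]; exact x0_norm) (by rw [CoChain.norm_smul]; exact x0_norm) b1 b2 c1 c2 e
      have hm : h * n * h⁻¹ ∈ N := hN.conj_mem n hn h
      have hm0 : (h * n * h⁻¹) • x0 = h • (n • x0) := by
        rw [mul_smul, mul_smul, show h⁻¹ • x0 = x0 from H1.inv_mem hh]
      rcases a with a | a
      · have h1 := hinj _ hm n' hn' (by rw [hm0, a])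
        rw [← h1, conj_order, ho] at ho'
        exact hqq ho'
      · have h1 := hinj _ hm (negCo * n') (N.mul_mem hZ hn') (by rw [hm0, a, mul_smul, neg_smul'])
        have h2 : orderOf (negCo * n') = q := by rw [← h1, conj_order, ho]
        have hc : Commute negCo n' := by
          have := Subgroup.mem_center_iff.1 negCo_central n'
          exact this.symm
        have h3 : (negCo * n') ^ q = 1 := by rw [← h2]; exact pow_orderOf_eq_one _
        rw [hc.mul_pow, neg_odd q a3] at h3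
        have h4 : (negCo * n' ^ q) ^ q' = 1 := by rw [h3, one_pow]
        have hc2 : Commute negCo (n' ^ q) := hc.pow_right q
        rw [hc2.mul_pow, neg_odd q' a4, ← pow_mul, mul_comm q q', pow_mul] at h4
        have h5 : n' ^ q' = 1 := by rw [← ho']; exact pow_orderOf_eq_one _
        rw [h5, one_pow, mul_one] at h4
        exact negCo_ne h4
    have abs3 : ∀ n ∈ N, ∀ q : ℕ, orderOf n = q → q ≠ 1 → q % 2 = 1 →
        (dotInt (x0 : GolayPt → ℤ) ((n • x0 : LL) : GolayPt → ℤ)).natAbs = 16 ∨ (dotInt (x0 : GolayPt → ℤ) ((n • x0 : LL) : GolayPt → ℤ)).natAbs = 8 ∨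
        (dotInt (x0 : GolayPt → ℤ) ((n • x0 : LL) : GolayPt → ℤ)).natAbs = 0 := by
      intro n hn q ho a1 a2
      obtain ⟨b1, b2⟩ := not32 n hn q ho a1 a2
      rcases dot_cases (n • x0) (by rw [CoChain.norm_smul]; exact x0_norm) with e | e | e | e | e | e | e
      · exact absurd e b1
      · exact absurd e b2
      · left; rw [e]; rfl
      · left; rw [e]; rfl
      · right; left; rw [e]; rfl
      · right; left; rw [e]; rfl
      · right; right; rw [e]; rfl
    obtain ⟨n3, h3, o3⟩ := prime_el 3 (by norm_num) (by norm_num)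
    obtain ⟨n5, h5, o5⟩ := prime_el 5 (by norm_num) (by norm_num)
    obtain ⟨n7, h7, o7⟩ := prime_el 7 (by norm_num) (by norm_num)
    obtain ⟨n13, h13, o13⟩ := prime_el 13 (by norm_num) (by norm_num)
    have a3 := abs3 n3 h3 3 o3 (by norm_num) (by norm_num)
    have a5 := abs3 n5 h5 5 o5 (by norm_num) (by norm_num)
    have a7 := abs3 n7 h7 7 o7 (by norm_num) (by norm_num)
    have a13 := abs3 n13 h13 13 o13 (by norm_num) (by norm_num)
    have p35 := pair n3 h3 n5 h5 3 5 o3 o5 (by norm_num) (by norm_num) (by norm_num) (by norm_num) (by norm_num)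
    have p37 := pair n3 h3 n7 h7 3 7 o3 o7 (by norm_num) (by norm_num) (by norm_num) (by norm_num) (by norm_num)
    have p313 := pair n3 h3 n13 h13 3 13 o3 o13 (by norm_num) (by norm_num) (by norm_num) (by norm_num) (by norm_num)
    have p57 := pair n5 h5 n7 h7 5 7 o5 o7 (by norm_num) (by norm_num) (by norm_num) (by norm_num) (by norm_num)
    have p513 := pair n5 h5 n13 h13 5 13 o5 o13 (by norm_num) (by norm_num) (by norm_num) (by norm_num) (by norm_num)
    have p713 := pair n7 h7 n13 h13 7 13 o7 o13 (by norm_num) (by norm_num) (by norm_num) (by norm_num) (by norm_num)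
    generalize (dotInt (x0 : GolayPt → ℤ) ((n3 • x0 : LL) : GolayPt → ℤ)).natAbs = A3 at *
    generalize (dotInt (x0 : GolayPt → ℤ) ((n5 • x0 : LL) : GolayPt → ℤ)).natAbs = A5 at *
    generalize (dotInt (x0 : GolayPt → ℤ) ((n7 • x0 : LL) : GolayPt → ℤ)).natAbs = A7 at *
    generalize (dotInt (x0 : GolayPt → ℤ) ((n13 • x0 : LL) : GolayPt → ℤ)).natAbs = A13 at *
    omega

/-- the case of a subgroup containing the stabiliser -/
theorem case_top (hle : H1 ≤ N) : N = ⊤ := by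
  have hK : KK N = N := sup_eq_left.2 hle
  rcases orb_size N hZ with hs | hs
  · exfalso
    obtain ⟨g, e⟩ := exists_x0 xb xb_norm
    have hf : (Fg x0 (-8)).ncard = 47104 := fibers.2.2.1
    have hsub : Orb H1 xb ⊆ {xb.1, -xb.1} := by
      rintro y ⟨h, hh, rfl⟩
      have hm : g⁻¹ * h * g⁻¹⁻¹ ∈ N := hN.conj_mem h (hle hh) g⁻¹
      rw [inv_inv] at hm
      have hy : ((g⁻¹ * h * g) • x0).1 ∈ Orb (KK N) x0 := ⟨_, (le_sup_left : N ≤ KK N) hm, rfl⟩
      have h1 : g • ((g⁻¹ * h * g) • x0) = h • xb := by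
        rw [← e]
        simp only [mul_smul, smul_inv_smul]
      rcases small_cases N hZ hs hy with a | a
      · rw [a, e] at h1
        left
        rw [← h1]
      · rw [a, co_neg, e] at h1
        right
        rw [← h1]
        rfl
    have h2 := Set.ncard_le_ncard (sub_orb_b.trans hsub) (Set.toFinite _)
    have h3 : ({xb.1, -xb.1} : Set (GolayPt → ℤ)).ncard ≤ 2 := Set.ncard_insert_le _ _ |>.trans (by simp)
    omega
  · rw [← hK]
    exact top_of_big N hZ hs

/-- the main dichotomy -/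
theorem main (hne : ∃ n ∈ N, n ≠ 1 ∧ n ≠ negCo) : N = ⊤ := by
  haveI := simple_H1
  have hL : (N.subgroupOf H1).Normal := inferInstance
  rcases IsSimpleGroup.eq_bot_or_eq_top_of_normal (N.subgroupOf H1) hL with hb | ht
  · exfalso
    refine case_bot N hZ ?_ hne
    intro a ha b hb' e
    have h1 : a⁻¹ * b ∈ H1 := by
      show (a⁻¹ * b) • x0 = x0
      rw [mul_smul, ← e, inv_smul_smul]
    have h2 : (⟨a⁻¹ * b, h1⟩ : H1) ∈ N.subgroupOf H1 := N.mul_mem (N.inv_mem ha) hb'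
    rw [hb, Subgroup.mem_bot] at h2
    have h3 : a⁻¹ * b = 1 := congrArg Subtype.val h2
    exact inv_mul_eq_one.1 h3
  · exact case_top N hZ (Subgroup.subgroupOf_eq_top.1 ht)

end main

/-- the quotient by the centre -/
theorem co1 : IsCo1 (Co0 ⧸ Subgroup.center Co0) := by
  have hcard : Nat.card (Co0 ⧸ Subgroup.center Co0) = 4157776806543360000 := by
    have h := Subgroup.card_eq_card_quotient_mul_card_subgroup (Subgroup.center Co0)
    rw [co0_card, card_center] at h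
    omega
  refine ⟨?_, hcard⟩
  haveI : Nontrivial (Co0 ⧸ Subgroup.center Co0) := by
    haveI : Finite (Co0 ⧸ Subgroup.center Co0) := Nat.finite_of_card_ne_zero (by rw [hcard]; norm_num)
    apply Finite.one_lt_card_iff_nontrivial.1
    rw [hcard]
    norm_num
  refine ⟨?_⟩
  intro Q hQ
  let N : Subgroup Co0 := Q.comap (QuotientGroup.mk' (Subgroup.center Co0))
  haveI hNn : N.Normal := hQ.comap _
  have hZ : negCo ∈ N := by
    have h1 : (QuotientGroup.mk' (Subgroup.center Co0)) negCo = 1 := (QuotientGroup.eq_one_iff negCo).2 negCo_central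
    show (QuotientGroup.mk' (Subgroup.center Co0)) negCo ∈ Q
    rw [h1]
    exact Q.one_mem
  by_cases hne : ∃ n ∈ N, n ≠ 1 ∧ n ≠ negCo
  · right
    have h1 := main N hZ hne
    rw [eq_top_iff]
    intro x _
    obtain ⟨g, rfl⟩ := QuotientGroup.mk_surjective x
    have h2 : g ∈ N := by rw [h1]; trivial
    exact h2
  · left
    rw [Subgroup.eq_bot_iff_forall]
    intro x hx
    obtain ⟨g, rfl⟩ := QuotientGroup.mk_surjective x
    have h2 : g ∈ N := hx
    by_contra hc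
    apply hne
    refine ⟨g, h2, ?_, ?_⟩
    · rintro rfl
      exact hc rfl
    · rintro rfl
      exact hc ((QuotientGroup.eq_one_iff negCo).2 negCo_central)

end Cfsg.Agent.Lib.CoOne
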