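import Cfsg.Agent.Lib.CoMcL

/-! Orbits of conjugate subgroups on the vectors of the lattice. -/

set_option autoImplicit false
set_option linter.unusedSimpArgs false
set_option linter.unusedVariables false
set_option linter.style.haveILetI false

namespace Cfsg.Agent.Lib.CoOrbit

open Cfsg Cfsg.Agent.LeechBasic Cfsg.Agent.Lib.LeechAut Cfsg.Agent.Lib.GolayBasic
open Cfsg.Agent.Lib.CoLetter Cfsg.Agent.Lib.CoCert Cfsg.Agent.Lib.CoTree Cfsg.Agent.Lib.PChain Cfsg.Agent.Lib.CoL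
open Cfsg.Agent.Lib.CoChain Cfsg.Agent.Lib.CoCenter Cfsg.Agent.Lib.CoCensus Cfsg.Agent.Lib.CoScan

/-- the vectors of the lattice in an orbit -/
def OL (S : Subgroup Co0) (z : LL) : Set LL := {y | y.1 ∈ Orb S z}

theorem OL_ncard (S : Subgroup Co0) (z : LL) : (OL S z).ncard = (Orb S z).ncard := by
  have h : Orb S z = Subtype.val '' OL S z := by
    ext y
    constructor
    · rintro ⟨g, hg, rfl⟩
      exact ⟨g • z, ⟨g, hg, rfl⟩, rfl⟩
    · rintro ⟨y', hy', rfl⟩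
      exact hy'
  rw [h, Set.ncard_image_of_injective _ Subtype.val_injective]

theorem orbit_eq {S K : Subgroup Co0} (k : Co0) (hSK : ∀ a, a ∈ S ↔ k * a * k⁻¹ ∈ K) (φ : LL → LL)
    (hc : ∀ (g : Co0) (y : LL), φ (g • y) = (k * g * k⁻¹) • φ y) (z : LL) :
    MulAction.orbit K (φ z) = φ '' OL S z := by
  ext y
  constructor
  · rintro ⟨g', rfl⟩
    have h0 : k * (k⁻¹ * g'.1 * k) * k⁻¹ = g'.1 := by simp [mul_assoc]
    have h1 : (k⁻¹ * g'.1 * k) ∈ S := (hSK _).2 (by rw [h0]; exact g'.2)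
    refine ⟨(k⁻¹ * g'.1 * k) • z, ⟨_, h1, rfl⟩, ?_⟩
    rw [hc, h0]
    rfl
  · rintro ⟨y', ⟨g, hg, e⟩, rfl⟩
    have e' : g • z = y' := Subtype.ext e
    refine ⟨⟨k * g * k⁻¹, (hSK _).1 hg⟩, ?_⟩
    show (k * g * k⁻¹) • φ z = φ y'
    rw [← hc, e']

theorem orbit_ncard {S K : Subgroup Co0} (k : Co0) (hSK : ∀ a, a ∈ S ↔ k * a * k⁻¹ ∈ K) (φ : LL → LL)
    (hi : Function.Injective φ) (hc : ∀ (g : Co0) (y : LL), φ (g • y) = (k * g * k⁻¹) • φ y) (z : LL) :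
    (MulAction.orbit K (φ z)).ncard = (Orb S z).ncard := by
  rw [orbit_eq k hSK φ hc, Set.ncard_image_of_injective _ hi, OL_ncard]

/-- an orbit is a finite invariant set of the right size -/
theorem orb_fill {S : Subgroup Co0} {z : LL} {V : ℕ → ℕ} {n : ℕ} (hT : Tab V n)
    (hr : ∀ i, i < n → ∃ g ∈ S, ((g • z : LL) : GolayPt → ℤ) = vc (V i)) {W : Set (GolayPt → ℤ)} (hWf : W.Finite)
    (hWn : W.ncard = n) (hz : z.1 ∈ W) (hinv : ∀ g ∈ S, ∀ y : LL, y.1 ∈ W → (g • y).1 ∈ W) : Orb S z = W := by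
  have h1 : Orb S z ⊆ W := by
    rintro y ⟨g, hg, rfl⟩
    exact hinv g hg z hz
  refine Set.eq_of_subset_of_ncard_le h1 ?_ hWf
  rw [hWn, ← hT.ncard]
  refine Set.ncard_le_ncard ?_ (hWf.subset h1)
  rintro y ⟨i, hi, rfl⟩
  obtain ⟨g, hg, e⟩ := hr i hi
  exact ⟨g, hg, e⟩

end Cfsg.Agent.Lib.CoOrbit
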