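import Cfsg.Agent.Lib.CoOrbit
import Cfsg.Agent.Lib.CoHS
import Cfsg.Agent.Lib.CoT2025
import Cfsg.Agent.Lib.CoT330
import Cfsg.Agent.Lib.CoT462
import Cfsg.Agent.Lib.CoT1232

/-! The rank four action on the 2025 vectors. -/

set_option autoImplicit false
set_option linter.unusedSimpArgs false
set_option linter.unusedVariables false
set_option linter.style.haveILetI false

namespace Cfsg.Agent.Lib.CoR4

open Cfsg Cfsg.Agent.LeechBasic Cfsg.Agent.Lib.LeechAut Cfsg.Agent.Lib.GolayBasic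
open Cfsg.Agent.Lib.CoLetter Cfsg.Agent.Lib.CoCert Cfsg.Agent.Lib.CoTree Cfsg.Agent.Lib.PChain Cfsg.Agent.Lib.CoL Cfsg.Agent.Lib.CoL2 Cfsg.Agent.Lib.CoL3
open Cfsg.Agent.Lib.CoChain Cfsg.Agent.Lib.CoCenter Cfsg.Agent.Lib.CoCensus Cfsg.Agent.Lib.CoScan Cfsg.Agent.Lib.CoU
open Cfsg.Agent.Lib.CoMcL Cfsg.Agent.Lib.CoHS Cfsg.Agent.Lib.CoOrbit

/-- codes -/
noncomputable def se : ℕ := nat_lit 0x8421084214a4210842108421084210
noncomputable def s330 : ℕ := nat_lit 0x842108421084290842108421085210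
noncomputable def s462 : ℕ := nat_lit 0x8421084210a4210842108421085210
noncomputable def s1232 : ℕ := nat_lit 0x7421094a509425084210842108424e
theorem me : vc se ∈ leechLattice := mem_of_inLB (by decide +kernel)
theorem m330 : vc s330 ∈ leechLattice := mem_of_inLB (by decide +kernel)
theorem m462 : vc s462 ∈ leechLattice := mem_of_inLB (by decide +kernel)
theorem m1232 : vc s1232 ∈ leechLattice := mem_of_inLB (by decide +kernel)
noncomputable def e0 : LL := ⟨vc se, me⟩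
noncomputable def z330 : LL := ⟨vc s330, m330⟩
noncomputable def z462 : LL := ⟨vc s462, m462⟩
noncomputable def z1232 : LL := ⟨vc s1232, m1232⟩

theorem T11178_eq : tset CoT11178.vT 11178 = Fg u0 16 := by
  refine Set.eq_of_subset_of_ncard_le (orb4 ▸ T4_sub) ?_ (fg_finite _ _)
  rw [fg16, CoT11178.tab.ncard]

/-- the base set -/
def G0 : Set (GolayPt → ℤ) := {y | y ∈ Fg u0 16 ∧ dotInt (vc s0) y = ((0 : ℕ) : ℤ)}

theorem G0_card : G0.ncard = 2025 := by
  have h : G0.ncard = cntB (fun i => dotB s0 0 (CoT11178.vT i)) 11178 14 := by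
    unfold G0
    rw [← T11178_eq]
    exact ncard_dot CoT11178.tab (by norm_num) s0 0
  have h2 : cntB (fun i => dotB s0 0 (CoT11178.vT i)) 11178 14 = 2025 := by decide +kernel
  rw [h, h2]

theorem G0_fin : G0.Finite := (fg_finite u0 16).subset (fun y hy => hy.1)
theorem G0_le : G0 ⊆ leechLattice := fun y hy => hy.1.1

theorem n1_mem : toCo c_n1 ∈ M := ⟨fix_stab c_n1 rfl (by decide +kernel), fix_stab c_n1 rfl (by decide +kernel)⟩
theorem n2_mem : toCo c_n2 ∈ M := ⟨fix_stab c_n2 rfl (by decide +kernel), fix_stab c_n2 rfl (by decide +kernel)⟩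

theorem let2025 : ∀ l, l < CoT2025.D.m → IsLetter M (CoT2025.D.dd l) (CoT2025.D.rr l) := by
  intro l hl
  have hl' : l < 2 := hl
  interval_cases l
  · exact letter_top c_n1 n1_mem
  · exact letter_top c_n2 n2_mem

theorem reach2025 : ∀ i, i < 2025 → ∃ g ∈ M, ((g • e0 : LL) : GolayPt → ℤ) = vc (CoT2025.vT i) :=
  reachY (D := CoT2025.D) let2025 e0 rfl CoT2025.ok

theorem M_u {g : Co0} (hg : g ∈ M) : g • u0 = u0 := by
  rw [u0_eq]
  have h5 : g • (x0 + xb) = g • x0 + g • xb := co_add g _ _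
  rw [h5, show g • x0 = x0 from hg.1, show g • xb = xb from hg.2]

theorem M_G0 (g : Co0) (hg : g ∈ M) (y : LL) (hy : y.1 ∈ G0) : (g • y).1 ∈ G0 := by
  refine ⟨⟨(g • y).2, by rw [norm_smul]; exact hy.1.2.1, ?_⟩, ?_⟩
  · have h := dot_smul g u0 y
    rw [M_u hg] at h
    rw [h]
    exact hy.1.2.2
  · have h := dot_smul g x0 y
    rw [show g • x0 = x0 from hg.1] at h
    exact h.trans hy.2

theorem e0_G0 : e0.1 ∈ G0 := by
  refine ⟨⟨me, ?_, ?_⟩, ?_⟩
  · show sqNorm (vc se) = 32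
    rw [norm_eq_dot, dot_vc]
    decide +kernel
  · show dotInt (vc su) (vc se) = 16
    rw [dot_vc]
    decide +kernel
  · show dotInt (vc s0) (vc se) = _
    rw [dot_vc]
    decide +kernel

theorem orbG : Orb M e0 = G0 := orb_fill CoT2025.tab reach2025 G0_fin G0_card e0_G0 M_G0

theorem T2025_eq : tset CoT2025.vT 2025 = G0 := by
  rw [← orbG]
  refine Set.eq_of_subset_of_ncard_le ?_ ?_ (orb_finite _ _)
  · rintro y ⟨i, hi, rfl⟩
    obtain ⟨g, hg, e⟩ := reach2025 i hi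
    exact ⟨g, hg, e⟩
  · rw [orbG, G0_card, CoT2025.tab.ncard]

/-- the stabiliser of a third vector -/
noncomputable abbrev E : Subgroup Co0 := M ⊓ MulAction.stabilizer Co0 e0

theorem e1_mem : toCo c_e1 ∈ E := ⟨⟨fix_stab c_e1 rfl (by decide +kernel), fix_stab c_e1 rfl (by decide +kernel)⟩, fix_stab c_e1 rfl (by decide +kernel)⟩
theorem e2_mem : toCo c_e2 ∈ E := ⟨⟨fix_stab c_e2 rfl (by decide +kernel), fix_stab c_e2 rfl (by decide +kernel)⟩, fix_stab c_e2 rfl (by decide +kernel)⟩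

/-- vectors of given inner product -/
def Wp (d : ℕ) : Set (GolayPt → ℤ) := {y | y ∈ G0 ∧ dotInt (vc se) y = (d : ℤ)}

theorem Wp_card (d : ℕ) : (Wp d).ncard = cntB (fun i => dotB se d (CoT2025.vT i)) 2025 11 := by
  unfold Wp
  rw [← T2025_eq]
  exact ncard_dot CoT2025.tab (by norm_num) se d

theorem c0 : cntB (fun i => dotB se 0 (CoT2025.vT i)) 2025 11 = 330 := by decide +kernel
theorem c16 : cntB (fun i => dotB se 16 (CoT2025.vT i)) 2025 11 = 462 := by decide +kernel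
theorem c8 : cntB (fun i => dotB se 8 (CoT2025.vT i)) 2025 11 = 1232 := by decide +kernel

theorem Wp_fin (d : ℕ) : (Wp d).Finite := G0_fin.subset (fun y hy => hy.1)

theorem E_Wp (d : ℕ) (g : Co0) (hg : g ∈ E) (y : LL) (hy : y.1 ∈ Wp d) : (g • y).1 ∈ Wp d := by
  refine ⟨M_G0 g hg.1 y hy.1, ?_⟩
  have h := dot_smul g e0 y
  rw [show g • e0 = e0 from hg.2] at h
  exact h.trans hy.2

theorem let330 : ∀ l, l < CoT330.D.m → IsLetter E (CoT330.D.dd l) (CoT330.D.rr l) := by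
  intro l hl
  have hl' : l < 2 := hl
  interval_cases l
  · exact letter_top c_e1 e1_mem
  · exact letter_top c_e2 e2_mem

theorem reach330 : ∀ i, i < 330 → ∃ g ∈ E, ((g • z330 : LL) : GolayPt → ℤ) = vc (CoT330.vT i) :=
  reachY (D := CoT330.D) let330 z330 rfl CoT330.ok

theorem z330_in : z330.1 ∈ Wp 0 := by
  refine ⟨⟨⟨m330, ?_, ?_⟩, ?_⟩, ?_⟩
  · show sqNorm (vc s330) = 32
    rw [norm_eq_dot, dot_vc]
    decide +kernel
  · show dotInt (vc su) (vc s330) = 16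
    rw [dot_vc]
    decide +kernel
  · show dotInt (vc s0) (vc s330) = _
    rw [dot_vc]
    decide +kernel
  · show dotInt (vc se) (vc s330) = _
    rw [dot_vc]
    decide +kernel

theorem orb330 : Orb E z330 = Wp 0 :=
  orb_fill CoT330.tab reach330 (Wp_fin _) (by rw [Wp_card, c0]) z330_in (E_Wp _)

theorem let462 : ∀ l, l < CoT462.D.m → IsLetter E (CoT462.D.dd l) (CoT462.D.rr l) := by
  intro l hl
  have hl' : l < 2 := hl
  interval_cases l
  · exact letter_top c_e1 e1_mem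
  · exact letter_top c_e2 e2_mem

theorem reach462 : ∀ i, i < 462 → ∃ g ∈ E, ((g • z462 : LL) : GolayPt → ℤ) = vc (CoT462.vT i) :=
  reachY (D := CoT462.D) let462 z462 rfl CoT462.ok

theorem z462_in : z462.1 ∈ Wp 16 := by
  refine ⟨⟨⟨m462, ?_, ?_⟩, ?_⟩, ?_⟩
  · show sqNorm (vc s462) = 32
    rw [norm_eq_dot, dot_vc]
    decide +kernel
  · show dotInt (vc su) (vc s462) = 16
    rw [dot_vc]
    decide +kernel
  · show dotInt (vc s0) (vc s462) = _
    rw [dot_vc]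
    decide +kernel
  · show dotInt (vc se) (vc s462) = _
    rw [dot_vc]
    decide +kernel

theorem orb462 : Orb E z462 = Wp 16 :=
  orb_fill CoT462.tab reach462 (Wp_fin _) (by rw [Wp_card, c16]) z462_in (E_Wp _)

theorem let1232 : ∀ l, l < CoT1232.D.m → IsLetter E (CoT1232.D.dd l) (CoT1232.D.rr l) := by
  intro l hl
  have hl' : l < 2 := hl
  interval_cases l
  · exact letter_top c_e1 e1_mem
  · exact letter_top c_e2 e2_mem

theorem reach1232 : ∀ i, i < 1232 → ∃ g ∈ E, ((g • z1232 : LL) : GolayPt → ℤ) = vc (CoT1232.vT i) :=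
  reachY (D := CoT1232.D) let1232 z1232 rfl CoT1232.ok

theorem z1232_in : z1232.1 ∈ Wp 8 := by
  refine ⟨⟨⟨m1232, ?_, ?_⟩, ?_⟩, ?_⟩
  · show sqNorm (vc s1232) = 32
    rw [norm_eq_dot, dot_vc]
    decide +kernel
  · show dotInt (vc su) (vc s1232) = 16
    rw [dot_vc]
    decide +kernel
  · show dotInt (vc s0) (vc s1232) = _
    rw [dot_vc]
    decide +kernel
  · show dotInt (vc se) (vc s1232) = _
    rw [dot_vc]
    decide +kernel

theorem orb1232 : Orb E z1232 = Wp 8 :=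
  orb_fill CoT1232.tab reach1232 (Wp_fin _) (by rw [Wp_card, c8]) z1232_in (E_Wp _)


/-- the set of vectors -/
def FF (v w : LL) : Set LL := {x : LL | sqNorm (x : GolayPt → ℤ) = 32 ∧ dotInt (v : GolayPt → ℤ) (x : GolayPt → ℤ) = 0 ∧ dotInt (w : GolayPt → ℤ) (x : GolayPt → ℤ) = 16}

theorem mem_FF {v w : LL} {k : Co0} (e1 : k • x0 = v) (e2 : k • xb = w) (x : LL) :
    x ∈ FF v w ↔ ((k⁻¹ • x : LL) : GolayPt → ℤ) ∈ G0 := by
  have d1 : dotInt (v : GolayPt → ℤ) (x : GolayPt → ℤ) = dotInt (x0 : GolayPt → ℤ) ((k⁻¹ • x : LL) : GolayPt → ℤ) := by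
    rw [dot_inv, e1]
  have d2 : dotInt (w : GolayPt → ℤ) (x : GolayPt → ℤ) = dotInt (xb : GolayPt → ℤ) ((k⁻¹ • x : LL) : GolayPt → ℤ) := by
    rw [dot_inv, e2]
  have d3 : dotInt (u0 : GolayPt → ℤ) ((k⁻¹ • x : LL) : GolayPt → ℤ) = dotInt (x0 : GolayPt → ℤ) ((k⁻¹ • x : LL) : GolayPt → ℤ) + dotInt (xb : GolayPt → ℤ) ((k⁻¹ • x : LL) : GolayPt → ℤ) := by
    rw [u0_eq]
    exact dot_add_left _ _ _
  constructor
  · rintro ⟨h1, h2, h3⟩
    have h4 : dotInt (x0 : GolayPt → ℤ) ((k⁻¹ • x : LL) : GolayPt → ℤ) = 0 := by rw [← d1]; exact h2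
    have h5 : dotInt (xb : GolayPt → ℤ) ((k⁻¹ • x : LL) : GolayPt → ℤ) = 16 := by rw [← d2]; exact h3
    refine ⟨⟨(k⁻¹ • x).2, by rw [CoChain.norm_smul]; exact h1, ?_⟩, ?_⟩
    · rw [d3, h4, h5]
      norm_num
    · have h6 : dotInt (vc s0) ((k⁻¹ • x : LL) : GolayPt → ℤ) = 0 := h4
      simpa using h6
  · rintro ⟨⟨-, h1, h2⟩, h3⟩
    have h3' : dotInt (vc s0) ((k⁻¹ • x : LL) : GolayPt → ℤ) = 0 := by simpa using h3
    have h4 : dotInt (x0 : GolayPt → ℤ) ((k⁻¹ • x : LL) : GolayPt → ℤ) = 0 := h3'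
    refine ⟨by rw [CoChain.norm_smul] at h1; exact h1, by rw [d1]; exact h4, ?_⟩
    rw [d2]
    rw [d3, h4] at h2
    simpa using h2

theorem exists_k (v w : LL) (hv : sqNorm (v : GolayPt → ℤ) = 32) (hw : sqNorm (w : GolayPt → ℤ) = 32)
    (hvw : dotInt (v : GolayPt → ℤ) (w : GolayPt → ℤ) = -8) : ∃ k : Co0, k • x0 = v ∧ k • xb = w := by
  have h1 : sqNorm ((v + w : LL) : GolayPt → ℤ) = 48 := by
    show sqNorm ((v : GolayPt → ℤ) + (w : GolayPt → ℤ)) = 48
    rw [norm_add, hv, hw, hvw]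
    norm_num
  have h2 : dotInt ((v + w : LL) : GolayPt → ℤ) (v : GolayPt → ℤ) = 24 := by
    show dotInt ((v : GolayPt → ℤ) + (w : GolayPt → ℤ)) (v : GolayPt → ℤ) = 24
    rw [dot_add_left, dot_comm (w : GolayPt → ℤ) (v : GolayPt → ℤ), hvw]
    rw [← norm_eq_dot, hv]
    norm_num
  obtain ⟨k, e1, e2⟩ := exists_pair (v + w) v h1 hv h2
  refine ⟨k, e2, ?_⟩
  have h3 : k • (x0 + xb) = k • x0 + k • xb := co_add k _ _
  rw [← u0_eq, e1, e2] at h3
  exact (add_left_cancel h3).symm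

theorem hSK {v w x : LL} {k : Co0} (e1 : k • x0 = v) (e2 : k • xb = w) (e3 : k • e0 = x) (a : Co0) :
    a ∈ E ↔ k * a * k⁻¹ ∈ MulAction.stabilizer Co0 v ⊓ MulAction.stabilizer Co0 w ⊓ MulAction.stabilizer Co0 x := by
  subst e1 e2 e3
  have key : ∀ y : LL, a ∈ MulAction.stabilizer Co0 y ↔ k * a * k⁻¹ ∈ MulAction.stabilizer Co0 (k • y) := by
    intro y
    constructor
    · intro h
      exact conj_fix h
    · intro h
      have h1 : (k * a * k⁻¹) • (k • y) = k • y := h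
      simp only [mul_smul, inv_smul_smul] at h1
      exact MulAction.injective k h1
  constructor
  · rintro ⟨⟨h1, h2⟩, h3⟩
    exact ⟨⟨(key x0).1 h1, (key xb).1 h2⟩, (key e0).1 h3⟩
  · rintro ⟨⟨h1, h2⟩, h3⟩
    exact ⟨⟨(key x0).2 h1, (key xb).2 h2⟩, (key e0).2 h3⟩

/-- the theorem -/
theorem rank4 (v w : LL) (hv : sqNorm (v : GolayPt → ℤ) = 32) (hw : sqNorm (w : GolayPt → ℤ) = 32)
    (hvw : dotInt (v : GolayPt → ℤ) (w : GolayPt → ℤ) = -8) :
    (FF v w).ncard = 2025 ∧ (∀ x ∈ FF v w, ∀ x' ∈ FF v w, ∃ g : Co0, g • v = v ∧ g • w = w ∧ g • x = x') ∧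
    ∀ x ∈ FF v w, ∃ y₁ ∈ FF v w, ∃ y₂ ∈ FF v w, ∃ y₃ ∈ FF v w,
      (MulAction.orbit ↥(MulAction.stabilizer Co0 v ⊓ MulAction.stabilizer Co0 w ⊓ MulAction.stabilizer Co0 x) y₁).ncard = 330 ∧
      (MulAction.orbit ↥(MulAction.stabilizer Co0 v ⊓ MulAction.stabilizer Co0 w ⊓ MulAction.stabilizer Co0 x) y₂).ncard = 462 ∧
      (MulAction.orbit ↥(MulAction.stabilizer Co0 v ⊓ MulAction.stabilizer Co0 w ⊓ MulAction.stabilizer Co0 x) y₃).ncard = 1232 := by
  obtain ⟨k, e1, e2⟩ := exists_k v w hv hw hvw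
  refine ⟨?_, ?_, ?_⟩
  · have h : FF v w = {x : LL | ((k⁻¹ • x : LL) : GolayPt → ℤ) ∈ G0} := by
      ext x
      exact mem_FF e1 e2 x
    rw [h, ncard_pull k G0_le, G0_card]
  · intro x hx x' hx'
    obtain ⟨c, hc, e⟩ := move (K := M) (z := e0) (S := G0) orbG.symm.subset k ((mem_FF e1 e2 x).1 hx) ((mem_FF e1 e2 x').1 hx')
    refine ⟨k * c * k⁻¹, ?_, ?_, e⟩
    · rw [← e1]
      exact conj_fix hc.1
    · rw [← e2]
      exact conj_fix hc.2
  · intro x hx
    have h1 := (mem_FF e1 e2 x).1 hx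
    rw [← orbG] at h1
    obtain ⟨c, hc, e⟩ := h1
    have e' : c • e0 = k⁻¹ • x := Subtype.ext e
    have f1 : (k * c) • x0 = v := by rw [mul_smul, show c • x0 = x0 from hc.1, e1]
    have f2 : (k * c) • xb = w := by rw [mul_smul, show c • xb = xb from hc.2, e2]
    have f3 : (k * c) • e0 = x := by rw [mul_smul, e', smul_inv_smul]
    have hS := hSK f1 f2 f3
    have hc' : ∀ (g : Co0) (y : LL), (k * c) • (g • y) = ((k * c) * g * (k * c)⁻¹) • ((k * c) • y) := by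
      intro g y
      rw [mul_smul ((k * c) * g) (k * c)⁻¹, inv_smul_smul, mul_smul (k * c) g]
    have oc := fun z => orbit_ncard (k * c) hS (fun y => (k * c) • y) (MulAction.injective (k * c)) hc' z
    have hmem : ∀ z : LL, z.1 ∈ G0 → (k * c) • z ∈ FF v w := by
      intro z hz
      apply (mem_FF f1 f2 _).2
      rw [inv_smul_smul]
      exact hz
    refine ⟨(k * c) • z330, hmem _ z330_in.1, (k * c) • z462, hmem _ z462_in.1, (k * c) • z1232, hmem _ z1232_in.1, ?_, ?_, ?_⟩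
    · have := oc z330
      rw [orb330, Wp_card, c0] at this
      exact this
    · have := oc z462
      rw [orb462, Wp_card, c16] at this
      exact this
    · have := oc z1232
      rw [orb1232, Wp_card, c8] at this
      exact this

end Cfsg.Agent.Lib.CoR4
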