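import Cfsg.Agent.Lib.CoOrbit
import Cfsg.Agent.Lib.CoHS
import Cfsg.Agent.Lib.CoT352
import Cfsg.Agent.Lib.CoT1100
import Cfsg.Agent.Lib.CoT4125
import Cfsg.Agent.Lib.CoT5600

/-! The rank five action on the 11178 vectors. -/

set_option autoImplicit false
set_option linter.unusedSimpArgs false
set_option linter.unusedVariables false
set_option linter.style.haveILetI false

namespace Cfsg.Agent.Lib.CoR5

open Cfsg Cfsg.Agent.LeechBasic Cfsg.Agent.Lib.LeechAut Cfsg.Agent.Lib.GolayBasic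
open Cfsg.Agent.Lib.CoLetter Cfsg.Agent.Lib.CoCert Cfsg.Agent.Lib.CoTree Cfsg.Agent.Lib.PChain Cfsg.Agent.Lib.CoL Cfsg.Agent.Lib.CoL2
open Cfsg.Agent.Lib.CoChain Cfsg.Agent.Lib.CoCenter Cfsg.Agent.Lib.CoCensus Cfsg.Agent.Lib.CoScan Cfsg.Agent.Lib.CoU
open Cfsg.Agent.Lib.CoMcL Cfsg.Agent.Lib.CoHS Cfsg.Agent.Lib.CoOrbit

/-- codes -/
noncomputable def s352 : ℕ := nat_lit 0x7421094a509425084210842108424e
noncomputable def s1100 : ℕ := nat_lit 0x842108421084290842108421084214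
noncomputable def s4125 : ℕ := nat_lit 0x8421084210842108421084210a4290
noncomputable def s5600 : ℕ := nat_lit 0x7421094a50941d0842108421084252
theorem m352 : vc s352 ∈ leechLattice := mem_of_inLB (by decide +kernel)
theorem m1100 : vc s1100 ∈ leechLattice := mem_of_inLB (by decide +kernel)
theorem m4125 : vc s4125 ∈ leechLattice := mem_of_inLB (by decide +kernel)
theorem m5600 : vc s5600 ∈ leechLattice := mem_of_inLB (by decide +kernel)
noncomputable def z352 : LL := ⟨vc s352, m352⟩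
noncomputable def z1100 : LL := ⟨vc s1100, m1100⟩
noncomputable def z4125 : LL := ⟨vc s4125, m4125⟩
noncomputable def z5600 : LL := ⟨vc s5600, m5600⟩

theorem T11178_eq : tset CoT11178.vT 11178 = Fg u0 16 := by
  refine Set.eq_of_subset_of_ncard_le (orb4 ▸ T4_sub) ?_ (fg_finite _ _)
  rw [fg16, CoT11178.tab.ncard]

/-- the vectors of given inner product -/
def Wp (d : ℕ) : Set (GolayPt → ℤ) := {y | y ∈ Fg u0 16 ∧ dotInt (vc st) y = (d : ℤ)}
def Wn (d : ℕ) : Set (GolayPt → ℤ) := {y | y ∈ Fg u0 16 ∧ dotInt (vc st) y = - (d : ℤ)}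

theorem Wp_card (d : ℕ) : (Wp d).ncard = cntB (fun i => dotB st d (CoT11178.vT i)) 11178 14 := by
  unfold Wp
  rw [← T11178_eq]
  exact ncard_dot CoT11178.tab (by norm_num) st d

theorem Wn_card (d : ℕ) : (Wn d).ncard = cntB (fun i => dotB' st d (CoT11178.vT i)) 11178 14 := by
  unfold Wn
  rw [← T11178_eq]
  exact ncard_dot' CoT11178.tab (by norm_num) st d

theorem c32 : cntB (fun i => dotB st 32 (CoT11178.vT i)) 11178 14 = 1 := by decide +kernel
theorem c16 : cntB (fun i => dotB st 16 (CoT11178.vT i)) 11178 14 = 1100 := by decide +kernel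
theorem c8 : cntB (fun i => dotB st 8 (CoT11178.vT i)) 11178 14 = 5600 := by decide +kernel
theorem c0 : cntB (fun i => dotB st 0 (CoT11178.vT i)) 11178 14 = 4125 := by decide +kernel
theorem cn8 : cntB (fun i => dotB' st 8 (CoT11178.vT i)) 11178 14 = 352 := by decide +kernel

theorem all5 : allR (fun i => or (dotB st 32 (CoT11178.vT i)) (or (dotB st 16 (CoT11178.vT i)) (or (dotB st 8 (CoT11178.vT i))
    (or (dotB st 0 (CoT11178.vT i)) (dotB' st 8 (CoT11178.vT i)))))) 0 11178 = true := by decide +kernel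

theorem Wp_fin (d : ℕ) : (Wp d).Finite := (fg_finite u0 16).subset (fun y hy => hy.1)
theorem Wn_fin (d : ℕ) : (Wn d).Finite := (fg_finite u0 16).subset (fun y hy => hy.1)

theorem S_fg {g : Co0} (hg : g ∈ S) (y : LL) (hy : y.1 ∈ Fg u0 16) : (g • y).1 ∈ Fg u0 16 := by
  refine ⟨(g • y).2, by rw [norm_smul]; exact hy.2.1, ?_⟩
  have h := dot_smul g u0 y
  rw [show g • u0 = u0 from hg.1] at h
  rw [h]
  exact hy.2.2

theorem S_dot {g : Co0} (hg : g ∈ S) (y : LL) : dotInt (vc st) ((g • y : LL) : GolayPt → ℤ) = dotInt (vc st) (y : GolayPt → ℤ) := by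
  have h := dot_smul g t0 y
  rw [show g • t0 = t0 from hg.2] at h
  exact h

theorem S_Wp (d : ℕ) (g : Co0) (hg : g ∈ S) (y : LL) (hy : y.1 ∈ Wp d) : (g • y).1 ∈ Wp d :=
  ⟨S_fg hg y hy.1, by rw [S_dot hg]; exact hy.2⟩

theorem S_Wn (d : ℕ) (g : Co0) (hg : g ∈ S) (y : LL) (hy : y.1 ∈ Wn d) : (g • y).1 ∈ Wn d :=
  ⟨S_fg hg y hy.1, by rw [S_dot hg]; exact hy.2⟩

theorem zfg {a : ℕ} (ha : vc a ∈ leechLattice) (h1 : sqNorm (vc a) = 32) (h2 : dotInt (vc su) (vc a) = 16) : (vc a) ∈ Fg u0 16 :=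
  ⟨ha, h1, h2⟩

theorem norm_code {a : ℕ} (h : dotN a a + 6144 = 32 + (16 * sumF a + 16 * sumF a)) : sqNorm (vc a) = 32 := by
  rw [norm_eq_dot, dot_vc]
  omega

theorem let352 : ∀ l, l < CoT352.D.m → IsLetter S (CoT352.D.dd l) (CoT352.D.rr l) := by
  intro l hl
  have hl' : l < 2 := hl
  interval_cases l
  · exact letter_top c_h1 h1_mem
  · exact letter_top c_h2 h2_mem

theorem reach352 : ∀ i, i < 352 → ∃ g ∈ S, ((g • z352 : LL) : GolayPt → ℤ) = vc (CoT352.vT i) :=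
  reachY (D := CoT352.D) let352 z352 rfl CoT352.ok

theorem z352_fg : z352.1 ∈ Fg u0 16 := by
  refine ⟨m352, ?_, ?_⟩
  · show sqNorm (vc s352) = 32
    rw [norm_eq_dot, dot_vc]
    decide +kernel
  · show dotInt (vc su) (vc s352) = 16
    rw [dot_vc]
    decide +kernel

theorem orb352 : Orb S z352 = Wn 8 := by
  refine orb_fill CoT352.tab reach352 (Wn_fin _) (by rw [Wn_card, cn8]) ?_ ?_
  · refine ⟨z352_fg, ?_⟩
    show dotInt (vc st) (vc s352) = _
    rw [dot_vc]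
    decide +kernel
  · exact S_Wn _

theorem let1100 : ∀ l, l < CoT1100.D.m → IsLetter S (CoT1100.D.dd l) (CoT1100.D.rr l) := by
  intro l hl
  have hl' : l < 2 := hl
  interval_cases l
  · exact letter_top c_h1 h1_mem
  · exact letter_top c_h2 h2_mem

theorem reach1100 : ∀ i, i < 1100 → ∃ g ∈ S, ((g • z1100 : LL) : GolayPt → ℤ) = vc (CoT1100.vT i) :=
  reachY (D := CoT1100.D) let1100 z1100 rfl CoT1100.ok

theorem z1100_fg : z1100.1 ∈ Fg u0 16 := by
  refine ⟨m1100, ?_, ?_⟩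
  · show sqNorm (vc s1100) = 32
    rw [norm_eq_dot, dot_vc]
    decide +kernel
  · show dotInt (vc su) (vc s1100) = 16
    rw [dot_vc]
    decide +kernel

theorem orb1100 : Orb S z1100 = Wp 16 := by
  refine orb_fill CoT1100.tab reach1100 (Wp_fin _) (by rw [Wp_card, c16]) ?_ ?_
  · refine ⟨z1100_fg, ?_⟩
    show dotInt (vc st) (vc s1100) = _
    rw [dot_vc]
    decide +kernel
  · exact S_Wp _

theorem let4125 : ∀ l, l < CoT4125.D.m → IsLetter S (CoT4125.D.dd l) (CoT4125.D.rr l) := by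
  intro l hl
  have hl' : l < 2 := hl
  interval_cases l
  · exact letter_top c_h1 h1_mem
  · exact letter_top c_h2 h2_mem

theorem reach4125 : ∀ i, i < 4125 → ∃ g ∈ S, ((g • z4125 : LL) : GolayPt → ℤ) = vc (CoT4125.vT i) :=
  reachY (D := CoT4125.D) let4125 z4125 rfl CoT4125.ok

theorem z4125_fg : z4125.1 ∈ Fg u0 16 := by
  refine ⟨m4125, ?_, ?_⟩
  · show sqNorm (vc s4125) = 32
    rw [norm_eq_dot, dot_vc]
    decide +kernel
  · show dotInt (vc su) (vc s4125) = 16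
    rw [dot_vc]
    decide +kernel

theorem orb4125 : Orb S z4125 = Wp 0 := by
  refine orb_fill CoT4125.tab reach4125 (Wp_fin _) (by rw [Wp_card, c0]) ?_ ?_
  · refine ⟨z4125_fg, ?_⟩
    show dotInt (vc st) (vc s4125) = _
    rw [dot_vc]
    decide +kernel
  · exact S_Wp _

theorem let5600 : ∀ l, l < CoT5600.D.m → IsLetter S (CoT5600.D.dd l) (CoT5600.D.rr l) := by
  intro l hl
  have hl' : l < 2 := hl
  interval_cases l
  · exact letter_top c_h1 h1_mem
  · exact letter_top c_h2 h2_mem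

theorem reach5600 : ∀ i, i < 5600 → ∃ g ∈ S, ((g • z5600 : LL) : GolayPt → ℤ) = vc (CoT5600.vT i) :=
  reachY (D := CoT5600.D) let5600 z5600 rfl CoT5600.ok

theorem z5600_fg : z5600.1 ∈ Fg u0 16 := by
  refine ⟨m5600, ?_, ?_⟩
  · show sqNorm (vc s5600) = 32
    rw [norm_eq_dot, dot_vc]
    decide +kernel
  · show dotInt (vc su) (vc s5600) = 16
    rw [dot_vc]
    decide +kernel

theorem orb5600 : Orb S z5600 = Wp 8 := by
  refine orb_fill CoT5600.tab reach5600 (Wp_fin _) (by rw [Wp_card, c8]) ?_ ?_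
  · refine ⟨z5600_fg, ?_⟩
    show dotInt (vc st) (vc s5600) = _
    rw [dot_vc]
    decide +kernel
  · exact S_Wp _


/-- moving the pair -/
theorem exists_k (u x : LL) (hu : sqNorm (u : GolayPt → ℤ) = 48) (hx1 : sqNorm (x : GolayPt → ℤ) = 32)
    (hx2 : dotInt (u : GolayPt → ℤ) (x : GolayPt → ℤ) = -16) : ∃ k : Co0, k • u0 = u ∧ k • t0 = -x := by
  obtain ⟨k, rfl⟩ := exists_u0 u hu
  have hm : (k⁻¹ • (-x) : LL).1 ∈ Fg u0 16 := by
    refine fg_inv' (by show sqNorm (-(x : GolayPt → ℤ)) = 32; rw [norm_neg']; exact hx1) ?_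
    show dotInt _ (-(x : GolayPt → ℤ)) = 16
    rw [dot_neg_right, hx2]
    norm_num
  rw [← orb4] at hm
  obtain ⟨c, hc, e⟩ := hm
  have e' : c • t0 = k⁻¹ • (-x) := Subtype.ext e
  refine ⟨k * c, ?_, ?_⟩
  · rw [mul_smul, show c • u0 = u0 from hc]
  · rw [mul_smul, e', smul_inv_smul]

section transport

variable {u x : LL} {k : Co0} (e1 : k • u0 = u) (e2 : k • t0 = -x)

/-- the map -/
noncomputable def ph (k : Co0) (y : LL) : LL := -(k • y)

theorem ph_inj (k : Co0) : Function.Injective (ph k) := by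
  intro a b h
  exact MulAction.injective k (neg_injective h)

theorem ph_c (k g : Co0) (y : LL) : ph k (g • y) = (k * g * k⁻¹) • ph k y := by
  unfold ph
  rw [co_neg]
  simp only [mul_smul, inv_smul_smul]

include e1 e2

theorem hSK (a : Co0) : a ∈ S ↔ k * a * k⁻¹ ∈ MulAction.stabilizer Co0 u ⊓ MulAction.stabilizer Co0 x := by
  constructor
  · rintro ⟨h1, h2⟩
    refine ⟨?_, ?_⟩
    · show (k * a * k⁻¹) • u = u
      rw [← e1]
      exact conj_fix h1
    · show (k * a * k⁻¹) • x = x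
      have h3 := conj_fix (k := k) h2
      rw [e2, co_neg] at h3
      exact neg_injective h3
  · rintro ⟨h1, h2⟩
    have h3 : (k * a * k⁻¹) • u = u := h1
    have h4 : (k * a * k⁻¹) • x = x := h2
    rw [← e1] at h3
    have h5 : (k * a * k⁻¹) • (k • t0) = k • t0 := by
      rw [e2, co_neg, h4]
    simp only [mul_smul, inv_smul_smul] at h3 h5
    exact ⟨MulAction.injective k h3, MulAction.injective k h5⟩

theorem ph_mem {y : LL} (hy : y.1 ∈ Fg u0 16) : sqNorm ((ph k y : LL) : GolayPt → ℤ) = 32 ∧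
    dotInt (u : GolayPt → ℤ) ((ph k y : LL) : GolayPt → ℤ) = -16 := by
  refine ⟨?_, ?_⟩
  · show sqNorm (-(((k • y : LL)) : GolayPt → ℤ)) = 32
    rw [norm_neg', norm_smul]
    exact hy.2.1
  · show dotInt _ (-(((k • y : LL)) : GolayPt → ℤ)) = -16
    rw [dot_neg_right, ← e1, dot_smul, hy.2.2]

theorem ph_inv {y : LL} (h1 : sqNorm (y : GolayPt → ℤ) = 32) (h2 : dotInt (u : GolayPt → ℤ) (y : GolayPt → ℤ) = -16) :
    (-(k⁻¹ • y) : LL).1 ∈ Fg u0 16 ∧ ph k (-(k⁻¹ • y)) = y := by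
  constructor
  · refine ⟨(-(k⁻¹ • y) : LL).2, ?_, ?_⟩
    · show sqNorm (-(((k⁻¹ • y : LL)) : GolayPt → ℤ)) = 32
      rw [norm_neg', norm_smul]
      exact h1
    · show dotInt _ (-(((k⁻¹ • y : LL)) : GolayPt → ℤ)) = 16
      rw [dot_neg_right, dot_inv, e1, h2]
      norm_num
  · unfold ph
    rw [co_neg, smul_inv_smul, neg_neg]

end transport

theorem t0_in : t0.1 ∈ Wp 32 := by
  refine ⟨?_, ?_⟩
  · exact ⟨t0.2, t0_norm, u0_t0⟩
  · show dotInt (vc st) (vc st) = _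
    rw [dot_vc]
    decide +kernel

theorem eq_t0 {y : LL} (hy : y.1 ∈ Wp 32) : y = t0 := by
  have h1 : (Wp 32).ncard = 1 := by rw [Wp_card, c32]
  obtain ⟨a, ha⟩ := Set.ncard_eq_one.1 h1
  have h2 := t0_in
  rw [ha] at h2 hy
  exact Subtype.ext (hy.trans h2.symm)

/-- the classes of a vector -/
theorem classes {y : LL} (hy : y.1 ∈ Fg u0 16) : y = t0 ∨ y.1 ∈ Orb S z352 ∨ y.1 ∈ Orb S z1100 ∨ y.1 ∈ Orb S z4125 ∨ y.1 ∈ Orb S z5600 := by
  have h0 := hy
  rw [← T11178_eq] at h0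
  obtain ⟨i, hi, e⟩ := h0
  have h := allR_spec all5 i (Nat.zero_le _) hi
  simp only [Bool.or_eq_true] at h
  rw [orb352, orb1100, orb4125, orb5600]
  rcases h with h | h | h | h | h
  · left
    exact eq_t0 ⟨hy, by rw [e]; exact dotB_iff.1 h⟩
  · right; right; left
    exact ⟨hy, by rw [e]; exact dotB_iff.1 h⟩
  · right; right; right; right
    exact ⟨hy, by rw [e]; exact dotB_iff.1 h⟩
  · right; right; right; left
    exact ⟨hy, by rw [e]; exact dotB_iff.1 h⟩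
  · right; left
    exact ⟨hy, by rw [e]; exact dotB'_iff.1 h⟩

theorem orbs_fg {z : LL} (hz : z.1 ∈ Fg u0 16) {y : LL} (hy : y.1 ∈ Orb S z) : y.1 ∈ Fg u0 16 := by
  obtain ⟨g, hg, e⟩ := hy
  rw [← e]
  exact S_fg hg z hz

/-- the theorem -/
theorem rank5 (u x : LL) (hu : sqNorm (u : GolayPt → ℤ) = 48)
    (hx : x ∈ {x : LL | sqNorm (x : GolayPt → ℤ) = 32 ∧ dotInt (u : GolayPt → ℤ) (x : GolayPt → ℤ) = -16}) :
    ∃ y₁ ∈ {x : LL | sqNorm (x : GolayPt → ℤ) = 32 ∧ dotInt (u : GolayPt → ℤ) (x : GolayPt → ℤ) = -16},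
    ∃ y₂ ∈ {x : LL | sqNorm (x : GolayPt → ℤ) = 32 ∧ dotInt (u : GolayPt → ℤ) (x : GolayPt → ℤ) = -16},
    ∃ y₃ ∈ {x : LL | sqNorm (x : GolayPt → ℤ) = 32 ∧ dotInt (u : GolayPt → ℤ) (x : GolayPt → ℤ) = -16},
    ∃ y₄ ∈ {x : LL | sqNorm (x : GolayPt → ℤ) = 32 ∧ dotInt (u : GolayPt → ℤ) (x : GolayPt → ℤ) = -16},
    (MulAction.orbit ↥(MulAction.stabilizer Co0 u ⊓ MulAction.stabilizer Co0 x) y₁).ncard = 352 ∧
    (MulAction.orbit ↥(MulAction.stabilizer Co0 u ⊓ MulAction.stabilizer Co0 x) y₂).ncard = 1100 ∧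
    (MulAction.orbit ↥(MulAction.stabilizer Co0 u ⊓ MulAction.stabilizer Co0 x) y₃).ncard = 4125 ∧
    (MulAction.orbit ↥(MulAction.stabilizer Co0 u ⊓ MulAction.stabilizer Co0 x) y₄).ncard = 5600 ∧
    {x : LL | sqNorm (x : GolayPt → ℤ) = 32 ∧ dotInt (u : GolayPt → ℤ) (x : GolayPt → ℤ) = -16} =
      {x} ∪ MulAction.orbit ↥(MulAction.stabilizer Co0 u ⊓ MulAction.stabilizer Co0 x) y₁ ∪
        MulAction.orbit ↥(MulAction.stabilizer Co0 u ⊓ MulAction.stabilizer Co0 x) y₂ ∪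
        MulAction.orbit ↥(MulAction.stabilizer Co0 u ⊓ MulAction.stabilizer Co0 x) y₃ ∪
        MulAction.orbit ↥(MulAction.stabilizer Co0 u ⊓ MulAction.stabilizer Co0 x) y₄ := by
  obtain ⟨k, e1, e2⟩ := exists_k u x hu hx.1 hx.2
  have hS := hSK e1 e2
  have oc := fun z => orbit_ncard k hS (ph k) (ph_inj k) (ph_c k) z
  have oe := fun z => orbit_eq k hS (ph k) (ph_c k) z
  have hmem : ∀ z : LL, z.1 ∈ Fg u0 16 → ph k z ∈ {x : LL | sqNorm (x : GolayPt → ℤ) = 32 ∧ dotInt (u : GolayPt → ℤ) (x : GolayPt → ℤ) = -16} :=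
    fun z hz => ph_mem e1 e2 hz
  refine ⟨ph k z352, hmem _ z352_fg, ph k z1100, hmem _ z1100_fg, ph k z4125, hmem _ z4125_fg, ph k z5600, hmem _ z5600_fg,
    ?_, ?_, ?_, ?_, ?_⟩
  · rw [oc, orb352, Wn_card, cn8]
  · rw [oc, orb1100, Wp_card, c16]
  · rw [oc, orb4125, Wp_card, c0]
  · rw [oc, orb5600, Wp_card, c8]
  · rw [oe, oe, oe, oe]
    ext y
    constructor
    · intro hy
      obtain ⟨h1, h2⟩ := ph_inv e1 e2 hy.1 hy.2
      have h3 := classes h1
      rcases h3 with h3 | h3 | h3 | h3 | h3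
      · left; left; left; left
        have h4 : ph k t0 = x := by
          unfold ph
          rw [e2, neg_neg]
        rw [h3, h4] at h2
        exact h2.symm
      · left; left; left; right
        exact ⟨_, h3, h2⟩
      · left; left; right
        exact ⟨_, h3, h2⟩
      · left; right
        exact ⟨_, h3, h2⟩
      · right
        exact ⟨_, h3, h2⟩
    · have key : ∀ z : LL, z.1 ∈ Fg u0 16 → ∀ w ∈ OL S z, ph k w ∈ {x : LL | sqNorm (x : GolayPt → ℤ) = 32 ∧ dotInt (u : GolayPt → ℤ) (x : GolayPt → ℤ) = -16} :=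
        fun z hz w hw => hmem w (orbs_fg hz hw)
      rintro (((( h | ⟨w, hw, rfl⟩) | ⟨w, hw, rfl⟩) | ⟨w, hw, rfl⟩) | ⟨w, hw, rfl⟩)
      · rw [Set.mem_singleton_iff.1 h]
        exact hx
      · exact key _ z352_fg w hw
      · exact key _ z1100_fg w hw
      · exact key _ z4125_fg w hw
      · exact key _ z5600_fg w hw

end Cfsg.Agent.Lib.CoR5
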