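import Cfsg.Agent.Lib.CoCensus

/-! Counting the vectors of a table with a given inner product. -/

set_option autoImplicit false
set_option linter.unusedSimpArgs false
set_option linter.unusedVariables false
set_option linter.style.haveILetI false

namespace Cfsg.Agent.Lib.CoScan

open Cfsg Cfsg.Agent.LeechBasic Cfsg.Agent.Lib.LeechAut Cfsg.Agent.Lib.GolayBasic Cfsg.Agent.Lib.GolayCode
open Cfsg.Agent.Lib.CoLetter Cfsg.Agent.Lib.CoCert Cfsg.Agent.Lib.CoTree Cfsg.Agent.Lib.PChain Cfsg.Agent.Lib.CoL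
open Cfsg.Agent.Lib.CoChain Cfsg.Agent.Lib.CoCenter Cfsg.Agent.Lib.CoCensus

/-- a sum by halves -/
noncomputable def sumB (f : ℕ → ℕ) (k : ℕ) : ℕ → ℕ :=
  Nat.rec (motive := fun _ => ℕ → ℕ) f (fun j ih lo => Nat.add (ih lo) (ih (Nat.add lo (Nat.pow 2 j)))) k

theorem sumB_zero (f : ℕ → ℕ) (lo : ℕ) : sumB f 0 lo = f lo := rfl
theorem sumB_succ (f : ℕ → ℕ) (k lo : ℕ) : sumB f (k + 1) lo = sumB f k lo + sumB f k (lo + 2 ^ k) := rfl

theorem sumB_eq (f : ℕ → ℕ) (k lo : ℕ) : sumB f k lo = ∑ i ∈ Finset.range (2 ^ k), f (lo + i) := by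
  induction k generalizing lo with
  | zero => simp [sumB_zero]
  | succ k ih =>
    rw [sumB_succ, ih, ih, pow_succ, mul_two, Finset.sum_range_add]
    congr 1
    refine Finset.sum_congr rfl fun i _ => ?_
    rw [add_assoc]

/-- the number of indices below `n` with a given property -/
noncomputable def cntB (P : ℕ → Bool) (n k : ℕ) : ℕ :=
  sumB (fun i => Bool.rec (motive := fun _ => ℕ) 0 (Bool.rec (motive := fun _ => ℕ) 0 1 (P i)) (Nat.blt i n)) k 0

theorem cntB_eq (P : ℕ → Bool) {n k : ℕ} (h : n ≤ 2 ^ k) :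
    cntB P n k = ((Finset.range n).filter (fun i => P i = true)).card := by
  unfold cntB
  rw [sumB_eq, Finset.card_filter, ← Finset.sum_range_add_sum_Ico _ h]
  have h1 : ∀ i ∈ Finset.Ico n (2 ^ k), (Bool.rec (motive := fun _ => ℕ) 0 (Bool.rec (motive := fun _ => ℕ) 0 1 (P (0 + i))) (Nat.blt (0 + i) n)) = 0 := by
    intro i hi
    have h2 : Nat.blt (0 + i) n = false := by
      rw [Bool.eq_false_iff]
      intro h3
      have h4 : 0 + i < n := by simpa [Nat.blt_eq] using h3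
      have := (Finset.mem_Ico.1 hi).1
      omega
    rw [h2]
  rw [Finset.sum_eq_zero h1, add_zero]
  refine Finset.sum_congr rfl fun i hi => ?_
  have h2 : Nat.blt (0 + i) n = true := by
    have := Finset.mem_range.1 hi
    simpa [Nat.blt_eq] using this
  rw [h2, zero_add]
  cases P i <;> rfl

theorem beq_of_eq {a b : ℕ} (h : a = b) : Nat.beq a b = true := by
  rw [h]
  exact Nat.beq_refl b

/-- the test of a positive inner product -/
noncomputable def dotB (a d v : ℕ) : Bool :=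
  Nat.beq (Nat.add (dotN a v) 6144) (Nat.add d (Nat.add (Nat.mul 16 (sumF a)) (Nat.mul 16 (sumF v))))

/-- the test of a negative inner product -/
noncomputable def dotB' (a d v : ℕ) : Bool :=
  Nat.beq (Nat.add (Nat.add (dotN a v) 6144) d) (Nat.add (Nat.mul 16 (sumF a)) (Nat.mul 16 (sumF v)))

theorem dotB_iff {a d v : ℕ} : dotB a d v = true ↔ dotInt (vc a) (vc v) = (d : ℤ) := by
  rw [dot_vc]
  constructor
  · intro h
    have h1 : dotN a v + 6144 = d + (16 * sumF a + 16 * sumF v) := Nat.eq_of_beq_eq_true h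
    omega
  · intro h
    have h1 : dotN a v + 6144 = d + (16 * sumF a + 16 * sumF v) := by omega
    exact beq_of_eq h1

theorem dotB'_iff {a d v : ℕ} : dotB' a d v = true ↔ dotInt (vc a) (vc v) = - (d : ℤ) := by
  rw [dot_vc]
  constructor
  · intro h
    have h1 : dotN a v + 6144 + d = (16 * sumF a + 16 * sumF v) := Nat.eq_of_beq_eq_true h
    omega
  · intro h
    have h1 : dotN a v + 6144 + d = (16 * sumF a + 16 * sumF v) := by omega
    exact beq_of_eq h1

/-! ### Filtering tables -/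

open scoped Classical in
theorem ncard_filter {V : ℕ → ℕ} {n : ℕ} (h : Tab V n) (P : (GolayPt → ℤ) → Prop) :
    {y | y ∈ tset V n ∧ P y}.ncard = ((Finset.range n).filter (fun i => P (vc (V i)))).card := by
  have h1 : {y | y ∈ tset V n ∧ P y} = (fun i => vc (V i)) '' (↑((Finset.range n).filter (fun i => P (vc (V i)))) : Set ℕ) := by
    ext y
    simp only [tset, Set.mem_ofPred_eq, Set.mem_image, Finset.coe_filter, Finset.mem_range]
    constructor
    · rintro ⟨⟨i, hi, rfl⟩, hP⟩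
      exact ⟨i, ⟨hi, hP⟩, rfl⟩
    · rintro ⟨i, ⟨hi, hP⟩, rfl⟩
      exact ⟨⟨i, hi, rfl⟩, hP⟩
  rw [h1, Set.InjOn.ncard_image, Set.ncard_coe_finset]
  intro i hi j hj e
  simp only [Finset.coe_filter, Finset.mem_range, Set.mem_ofPred_eq] at hi hj
  exact h.inj hi.1 hj.1 e

/-- counting in a table the vectors of given inner product with a code -/
theorem ncard_dot {V : ℕ → ℕ} {n k : ℕ} (h : Tab V n) (hk : n ≤ 2 ^ k) (a d : ℕ) :
    {y | y ∈ tset V n ∧ dotInt (vc a) y = (d : ℤ)}.ncard = cntB (fun i => dotB a d (V i)) n k := by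
  classical
  rw [ncard_filter h (fun y => dotInt (vc a) y = (d : ℤ)), cntB_eq _ hk]
  refine congrArg Finset.card ?_
  ext i
  simp only [Finset.mem_filter, dotB_iff]

theorem ncard_dot' {V : ℕ → ℕ} {n k : ℕ} (h : Tab V n) (hk : n ≤ 2 ^ k) (a d : ℕ) :
    {y | y ∈ tset V n ∧ dotInt (vc a) y = - (d : ℤ)}.ncard = cntB (fun i => dotB' a d (V i)) n k := by
  classical
  rw [ncard_filter h (fun y => dotInt (vc a) y = - (d : ℤ)), cntB_eq _ hk]
  refine congrArg Finset.card ?_
  ext i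
  simp only [Finset.mem_filter, dotB'_iff]

/-! ### The minimal vectors -/

theorem min_eq : tset CoT0.vT 98280 ∪ nset CoT0.vT 98280 = CoChain.Min := by
  have h1 : tset CoT0.vT 98280 ∪ nset CoT0.vT 98280 ⊆ CoChain.Min := by
    rw [← orb_x0]
    exact T0_sub
  refine Set.eq_of_subset_of_ncard_le h1 ?_ min_finite
  rw [min_ncard, T0_card]

theorem dot_neg_right' (x y : GolayPt → ℤ) : dotInt x (-y) = - dotInt x y := dot_neg_right x y

/-- the vectors of positive inner product with a vector given by a code -/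
theorem ncard_min_dot (a : ℕ) (ha : vc a ∈ leechLattice) {d : ℕ} (hd : 0 < d) :
    (Fg ⟨vc a, ha⟩ (d : ℤ)).ncard = cntB (fun i => dotB a d (CoT0.vT i)) 98280 17 +
      cntB (fun i => dotB' a d (CoT0.vT i)) 98280 17 := by
  have hk : 98280 ≤ 2 ^ 17 := by norm_num
  rw [← ncard_dot CoT0.tab hk, ← ncard_dot' CoT0.tab hk]
  have h1 : Fg ⟨vc a, ha⟩ (d : ℤ) = {y | y ∈ tset CoT0.vT 98280 ∧ dotInt (vc a) y = (d : ℤ)} ∪
      (fun y => -y) '' {y | y ∈ tset CoT0.vT 98280 ∧ dotInt (vc a) y = - (d : ℤ)} := by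
    ext y
    constructor
    · rintro ⟨h2, h3, h4⟩
      have h5 : y ∈ tset CoT0.vT 98280 ∪ nset CoT0.vT 98280 := by
        rw [min_eq]
        exact ⟨h2, h3⟩
      rcases h5 with h5 | ⟨i, hi, rfl⟩
      · exact Or.inl ⟨h5, h4⟩
      · refine Or.inr ⟨vc (CoT0.vT i), ⟨⟨i, hi, rfl⟩, ?_⟩, rfl⟩
        have h6 : dotInt (vc a) (- vc (CoT0.vT i)) = (d : ℤ) := h4
        rw [dot_neg_right] at h6
        omega
    · have hmin : ∀ {y}, y ∈ tset CoT0.vT 98280 → y ∈ leechLattice ∧ sqNorm y = 32 := by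
        intro y hy
        have : y ∈ CoChain.Min := by
          rw [← min_eq]
          exact Or.inl hy
        exact this
      rintro (⟨h2, h3⟩ | ⟨z, ⟨h2, h3⟩, rfl⟩)
      · exact ⟨(hmin h2).1, (hmin h2).2, h3⟩
      · refine ⟨neg_mem (hmin h2).1, by rw [norm_neg']; exact (hmin h2).2, ?_⟩
        show dotInt (vc a) (-z) = _
        rw [dot_neg_right, h3, neg_neg]
  have hd : Disjoint {y | y ∈ tset CoT0.vT 98280 ∧ dotInt (vc a) y = (d : ℤ)}
      ((fun y => -y) '' {y | y ∈ tset CoT0.vT 98280 ∧ dotInt (vc a) y = - (d : ℤ)}) := by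
    rw [Set.disjoint_left]
    rintro y ⟨h2, -⟩ ⟨z, ⟨h3, -⟩, rfl⟩
    exact Set.disjoint_left.1 (tab_disj CoT0.tab (by decide +kernel)) h2 (by
      obtain ⟨i, hi, rfl⟩ := h3
      exact ⟨i, hi, rfl⟩)
  rw [h1, Set.ncard_union_eq hd ((tset_finite _ _).subset (fun y hy => hy.1))
    (((tset_finite _ _).subset (fun y hy => hy.1)).image _), Set.ncard_image_of_injective _ neg_injective]

end Cfsg.Agent.Lib.CoScan
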