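import Cfsg.Agent.Lib.CoKMG
import Cfsg.Agent.Lib.CoK3G
import Cfsg.Agent.Lib.CoKHG
import Cfsg.Prelude.Def_Sporadic

/-! The simple stabilizers in the automorphism group of the lattice. -/

set_option autoImplicit false
set_option linter.unusedVariables false
set_option linter.unusedSimpArgs false
set_option linter.style.haveILetI false

namespace Cfsg.Agent.Lib.CoSimple

open Cfsg Cfsg.Agent.LeechBasic Cfsg.Agent.Lib.LeechAut Cfsg.Agent.Lib.GolayBasic
open Cfsg.Agent.Lib.CoLetter Cfsg.Agent.Lib.CoCert Cfsg.Agent.Lib.CoTree Cfsg.Agent.Lib.PChain Cfsg.Agent.Lib.CoL Cfsg.Agent.Lib.CoL2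
open Cfsg.Agent.Lib.CoChain Cfsg.Agent.Lib.CoCenter Cfsg.Agent.Lib.CoCensus Cfsg.Agent.Lib.CoU Cfsg.Agent.Lib.CoHS

/-- conjugate subgroups are isomorphic -/
theorem conj_equiv {G : Type*} [Group G] (A B : Subgroup G) (k : G) (h : ∀ a, a ∈ A ↔ k * a * k⁻¹ ∈ B) :
    Nonempty (A ≃* B) := by
  refine ⟨{ toFun := fun a => ⟨k * a.1 * k⁻¹, (h _).1 a.2⟩
            invFun := fun b => ⟨k⁻¹ * b.1 * k, (h _).2 (by simp [mul_assoc])⟩
            left_inv := ?_, right_inv := ?_, map_mul' := ?_ }⟩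
  · intro a
    apply Subtype.ext
    simp [mul_assoc]
  · intro b
    apply Subtype.ext
    simp [mul_assoc]
  · intro a b
    apply Subtype.ext
    simp [mul_assoc]

theorem of_conj {G : Type*} [Group G] {A B : Subgroup G} (k : G) (h : ∀ a, a ∈ A ↔ k * a * k⁻¹ ∈ B) {n : ℕ}
    (hs : IsSimpleGroup A) (hc : Nat.card A = n) : IsSimpleGroup B ∧ Nat.card B = n := by
  obtain ⟨e⟩ := conj_equiv A B k h
  exact ⟨e.symm.isSimpleGroup, (Nat.card_congr e.toEquiv).symm.trans hc⟩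

theorem stab_conj (k a : Co0) (y : LL) :
    a ∈ MulAction.stabilizer Co0 y ↔ k * a * k⁻¹ ∈ MulAction.stabilizer Co0 (k • y) := by
  constructor
  · intro h
    exact conj_fix h
  · intro h
    have h1 : (k * a * k⁻¹) • (k • y) = k • y := h
    simp only [mul_smul, inv_smul_smul] at h1
    exact MulAction.injective k h1

theorem card_S : Nat.card S = 44352000 := by
  have h : Nat.card A = (Orb A t0).ncard * Nat.card S := card_orb A t0
  rw [orb4, fg16, card_A] at h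
  omega

/-- the third group -/
theorem co3 (v : LL) (hv : sqNorm (v : GolayPt → ℤ) = 48) : IsCo3 (MulAction.stabilizer Co0 v) := by
  obtain ⟨k, rfl⟩ := exists_u0 v hv
  exact of_conj k (fun a => stab_conj k a u0) (Cfsg.Agent.Lib.CoK3D.simple_H card_A) card_A

/-- the McLaughlin group -/
theorem mcl (v w : LL) (hv : sqNorm (v : GolayPt → ℤ) = 32) (hw : sqNorm (w : GolayPt → ℤ) = 32)
    (hvw : dotInt (v : GolayPt → ℤ) (w : GolayPt → ℤ) = -8) :
    IsMcL ↥(MulAction.stabilizer Co0 v ⊓ MulAction.stabilizer Co0 w) := by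
  have h1 : sqNorm ((v + w : LL) : GolayPt → ℤ) = 48 := by
    show sqNorm ((v : GolayPt → ℤ) + (w : GolayPt → ℤ)) = 48
    rw [norm_add, hv, hw, hvw]
    norm_num
  have h2 : dotInt ((v + w : LL) : GolayPt → ℤ) (v : GolayPt → ℤ) = 24 := by
    show dotInt ((v : GolayPt → ℤ) + (w : GolayPt → ℤ)) (v : GolayPt → ℤ) = 24
    rw [dot_add_left, dot_comm (w : GolayPt → ℤ) (v : GolayPt → ℤ), hvw]
    rw [← norm_eq_dot, hv]
    norm_num
  obtain ⟨k, e1, e2⟩ := exists_pair (v + w) v h1 hv h2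
  have e3 : k • xb = w := by
    have h3 : k • (x0 + xb) = k • x0 + k • xb := co_add k _ _
    rw [← u0_eq, e1, e2] at h3
    exact (add_left_cancel h3).symm
  refine of_conj k ?_ (Cfsg.Agent.Lib.CoKMD.simple_H card_M) card_M
  intro a
  rw [← e2, ← e3]
  constructor
  · rintro ⟨h4, h5⟩
    exact ⟨(stab_conj k a x0).1 h4, (stab_conj k a xb).1 h5⟩
  · rintro ⟨h4, h5⟩
    exact ⟨(stab_conj k a x0).2 h4, (stab_conj k a xb).2 h5⟩

/-- the Higman-Sims group -/
theorem hs (v w : LL) (hv : sqNorm (v : GolayPt → ℤ) = 48) (hw : sqNorm (w : GolayPt → ℤ) = 48)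
    (hvw : dotInt (v : GolayPt → ℤ) (w : GolayPt → ℤ) = -32) :
    IsHS ↥(MulAction.stabilizer Co0 v ⊓ MulAction.stabilizer Co0 w) := by
  obtain ⟨k, e1, e2⟩ := exists_hs v w hv hw hvw
  refine of_conj k ?_ (Cfsg.Agent.Lib.CoKHD.simple_H card_S) card_S
  intro a
  constructor
  · rintro ⟨h4, h5⟩
    have h6 := (stab_conj k a u0).1 h4
    have h7 := (stab_conj k a t0).1 h5
    rw [e1] at h6
    rw [e2] at h7
    exact ⟨h6, fix_w (g := k * a * k⁻¹) h6 h7⟩
  · rintro ⟨h4, h5⟩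
    have h6 : (k * a * k⁻¹) • v = v := h4
    have h7 : (k * a * k⁻¹) • w = w := h5
    have h8 : (k * a * k⁻¹) • (v + w) = v + w := by
      have h9 : (k * a * k⁻¹) • (v + w) = (k * a * k⁻¹) • v + (k * a * k⁻¹) • w := co_add _ _ _
      rw [h9, h6, h7]
    refine ⟨(stab_conj k a u0).2 ?_, (stab_conj k a t0).2 ?_⟩
    · rw [e1]
      exact h6
    · rw [e2]
      exact h8

end Cfsg.Agent.Lib.CoSimple
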