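import Cfsg.Agent.Lib.CoCert

/-! Trees of vectors reached by letters, and the orbit counting on the lattice. -/

set_option autoImplicit false
set_option linter.unusedSimpArgs false
set_option linter.unusedVariables false
set_option linter.style.haveILetI false

namespace Cfsg.Agent.Lib.CoTree

open Cfsg Cfsg.Agent.LeechBasic Cfsg.Agent.Lib.LeechAut Cfsg.Agent.Lib.GolayBasic Cfsg.Agent.Lib.GolayCode
open Cfsg.Agent.Lib.CoLetter Cfsg.Agent.Lib.CoCert Cfsg.Agent.Lib.PChain

/-- a letter of a subgroup -/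
structure IsLetter (K : Subgroup Co0) (d : ℕ) (rs : List (List ℕ)) : Prop where
  dpos : 0 < d
  rows : RowsOK rs
  ex : ∃ g ∈ K, ∀ v : LL, ((g • v : LL) : GolayPt → ℤ) = gmap d rs v.1

theorem FF_neg (rs : List (List ℕ)) (x : GolayPt → ℤ) : FF rs (-x) = - FF rs x := by
  funext p
  have := lin_smul (rs.getD (idx p) []) (-1) (fun j => x (ptOf j))
  simp only [FF, Pi.neg_apply]
  simpa using this

theorem gmap_actY {d : ℕ} {rs : List (List ℕ)} {a b : ℕ} (hd : 0 < d) (hR : RowsOK rs) (h : actY d rs a b = true) :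
    gmap d rs (vc a) = vc b := gmap_eq hd (actY_spec hR h)

theorem gmap_actY_neg {d : ℕ} {rs : List (List ℕ)} {a b : ℕ} (hd : 0 < d) (hR : RowsOK rs) (h : actY d rs a b = true) :
    gmap d rs (- vc a) = - vc b := by
  apply gmap_eq hd
  rw [FF_neg, actY_spec hR h, smul_neg]

theorem gmap_actN {d : ℕ} {rs : List (List ℕ)} {a b : ℕ} (hd : 0 < d) (hR : RowsOK rs) (h : actN d rs a b = true) :
    gmap d rs (vc a) = - vc b := gmap_eq hd (actN_spec hR h)

theorem gmap_actN_neg {d : ℕ} {rs : List (List ℕ)} {a b : ℕ} (hd : 0 < d) (hR : RowsOK rs) (h : actN d rs a b = true) :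
    gmap d rs (- vc a) = vc b := by
  apply gmap_eq hd
  rw [FF_neg, actN_spec hR h, smul_neg, neg_neg]

/-! ### Records of a tree -/

/-- the parent of a record -/
noncomputable def tp (r : ℕ) : ℕ := Nat.land r 131071
/-- the sign of a record -/
noncomputable def tf (r : ℕ) : ℕ := Nat.land (Nat.shiftRight r 17) 1
/-- the letter of a record -/
noncomputable def tl (r : ℕ) : ℕ := Nat.land (Nat.shiftRight r 18) 15
/-- the depth of a record -/
noncomputable def td (r : ℕ) : ℕ := Nat.shiftRight r 22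

/-- the data of a tree -/
structure TD where
  n : ℕ
  m : ℕ
  s : ℕ
  V : ℕ → ℕ
  R : ℕ → ℕ
  dd : ℕ → ℕ
  rr : ℕ → List (List ℕ)

/-- the check of a node, with signs -/
noncomputable def nodeF (D : TD) (i : ℕ) : Bool :=
  Bool.rec (motive := fun _ => Bool)
    (and (Nat.blt (td (D.R (tp (D.R i)))) (td (D.R i)))
      (and (Nat.blt (tp (D.R i)) D.n)
        (and (Nat.blt (tl (D.R i)) D.m)
          (Bool.rec (motive := fun _ => Bool)
            (actN (D.dd (tl (D.R i))) (D.rr (tl (D.R i))) (D.V (tp (D.R i))) (D.V i))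
            (actY (D.dd (tl (D.R i))) (D.rr (tl (D.R i))) (D.V (tp (D.R i))) (D.V i))
            (Nat.beq (tf (D.R i)) 0)))))
    (Nat.beq (D.V i) D.s)
    (Nat.beq (td (D.R i)) 0)

/-- the check of a node, without signs -/
noncomputable def nodeY (D : TD) (i : ℕ) : Bool :=
  Bool.rec (motive := fun _ => Bool)
    (and (Nat.blt (td (D.R (tp (D.R i)))) (td (D.R i)))
      (and (Nat.blt (tp (D.R i)) D.n)
        (and (Nat.blt (tl (D.R i)) D.m)
          (actY (D.dd (tl (D.R i))) (D.rr (tl (D.R i))) (D.V (tp (D.R i))) (D.V i)))))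
    (Nat.beq (D.V i) D.s)
    (Nat.beq (td (D.R i)) 0)

section reach
variable {D : TD} {K : Subgroup Co0}

theorem reachF (hL : ∀ l, l < D.m → IsLetter K (D.dd l) (D.rr l)) (x : LL) (hx : x.1 = vc D.s)
    (h : RangeOK (nodeF D) 0 D.n) :
    ∀ i, i < D.n → ∃ g ∈ K, ((g • x : LL) : GolayPt → ℤ) = vc (D.V i) ∨ ((g • x : LL) : GolayPt → ℤ) = - vc (D.V i) := by
  have key : ∀ c i, td (D.R i) = c → i < D.n →
      ∃ g ∈ K, ((g • x : LL) : GolayPt → ℤ) = vc (D.V i) ∨ ((g • x : LL) : GolayPt → ℤ) = - vc (D.V i) := by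
    intro c
    induction c using Nat.strong_induction_on with
    | _ c ih =>
      intro i hc hi
      have h1 := h i (Nat.zero_le _) hi
      unfold nodeF at h1
      by_cases h0 : Nat.beq (td (D.R i)) 0 = true
      · rw [h0] at h1
        have h2 : D.V i = D.s := Nat.eq_of_beq_eq_true h1
        refine ⟨1, K.one_mem, Or.inl ?_⟩
        rw [one_smul, h2, hx]
      · have h0' : Nat.beq (td (D.R i)) 0 = false := Bool.eq_false_iff.2 h0
        rw [h0'] at h1
        simp only [Bool.and_eq_true] at h1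
        obtain ⟨h2, h3, h4, h5⟩ := h1
        have h2' : td (D.R (tp (D.R i))) < td (D.R i) := by simpa [Nat.blt_eq] using h2
        have h3' : tp (D.R i) < D.n := by simpa [Nat.blt_eq] using h3
        have h4' : tl (D.R i) < D.m := by simpa [Nat.blt_eq] using h4
        obtain ⟨g, hg, hgx⟩ := ih _ (hc ▸ h2') _ rfl h3'
        have hl := hL _ h4'
        obtain ⟨k, hk, hkv⟩ := hl.ex
        refine ⟨k * g, K.mul_mem hk hg, ?_⟩
        rw [mul_smul, hkv]
        by_cases hf : Nat.beq (tf (D.R i)) 0 = true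
        · rw [hf] at h5
          rcases hgx with e | e
          · left
            rw [e]
            exact gmap_actY hl.dpos hl.rows h5
          · right
            rw [e]
            exact gmap_actY_neg hl.dpos hl.rows h5
        · have hf' : Nat.beq (tf (D.R i)) 0 = false := Bool.eq_false_iff.2 hf
          rw [hf'] at h5
          rcases hgx with e | e
          · right
            rw [e]
            exact gmap_actN hl.dpos hl.rows h5
          · left
            rw [e]
            exact gmap_actN_neg hl.dpos hl.rows h5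
  intro i hi
  exact key _ i rfl hi

theorem reachY (hL : ∀ l, l < D.m → IsLetter K (D.dd l) (D.rr l)) (x : LL) (hx : x.1 = vc D.s)
    (h : RangeOK (nodeY D) 0 D.n) :
    ∀ i, i < D.n → ∃ g ∈ K, ((g • x : LL) : GolayPt → ℤ) = vc (D.V i) := by
  have key : ∀ c i, td (D.R i) = c → i < D.n →
      ∃ g ∈ K, ((g • x : LL) : GolayPt → ℤ) = vc (D.V i) := by
    intro c
    induction c using Nat.strong_induction_on with
    | _ c ih =>
      intro i hc hi
      have h1 := h i (Nat.zero_le _) hi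
      unfold nodeY at h1
      by_cases h0 : Nat.beq (td (D.R i)) 0 = true
      · rw [h0] at h1
        have h2 : D.V i = D.s := Nat.eq_of_beq_eq_true h1
        refine ⟨1, K.one_mem, ?_⟩
        rw [one_smul, h2, hx]
      · have h0' : Nat.beq (td (D.R i)) 0 = false := Bool.eq_false_iff.2 h0
        rw [h0'] at h1
        simp only [Bool.and_eq_true] at h1
        obtain ⟨h2, h3, h4, h5⟩ := h1
        have h2' : td (D.R (tp (D.R i))) < td (D.R i) := by simpa [Nat.blt_eq] using h2
        have h3' : tp (D.R i) < D.n := by simpa [Nat.blt_eq] using h3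
        have h4' : tl (D.R i) < D.m := by simpa [Nat.blt_eq] using h4
        obtain ⟨g, hg, hgx⟩ := ih _ (hc ▸ h2') _ rfl h3'
        have hl := hL _ h4'
        obtain ⟨k, hk, hkv⟩ := hl.ex
        refine ⟨k * g, K.mul_mem hk hg, ?_⟩
        rw [mul_smul, hkv, hgx]
        exact gmap_actY hl.dpos hl.rows h5
  intro i hi
  exact key _ i rfl hi

end reach

/-! ### Tables of vectors -/

/-- the test of sorted values -/
noncomputable def sortP (V : ℕ → ℕ) (n i : ℕ) : Bool :=
  Bool.rec (motive := fun _ => Bool) true (Nat.blt (V i) (V (Nat.succ i))) (Nat.blt (Nat.succ i) n)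

theorem strict_of_sort {V : ℕ → ℕ} {n : ℕ} (h : RangeOK (sortP V n) 0 n) {i j : ℕ} (hij : i < j) (hj : j < n) :
    V i < V j := by
  induction j with
  | zero => omega
  | succ j ih =>
    have h1 := h j (Nat.zero_le _) (by omega)
    unfold sortP at h1
    have h2 : Nat.blt (Nat.succ j) n = true := by simpa [Nat.blt_eq] using hj
    rw [h2] at h1
    have h3 : V j < V (j + 1) := by simpa [Nat.blt_eq] using h1
    by_cases hi : i = j
    · subst hi
      exact h3
    · exact lt_trans (ih (by omega) (by omega)) h3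

/-- the set of the vectors of a table -/
def tset (V : ℕ → ℕ) (n : ℕ) : Set (GolayPt → ℤ) := {y | ∃ i, i < n ∧ y = vc (V i)}

/-- the opposites of the vectors of a table -/
def nset (V : ℕ → ℕ) (n : ℕ) : Set (GolayPt → ℤ) := {y | ∃ i, i < n ∧ y = - vc (V i)}

/-- a table of codes -/
structure Tab (V : ℕ → ℕ) (n : ℕ) : Prop where
  sorted : RangeOK (sortP V n) 0 n
  hi : ∀ i, i < n → V i < 2 ^ 120

theorem Tab.inj {V : ℕ → ℕ} {n : ℕ} (h : Tab V n) {i j : ℕ} (hi : i < n) (hj : j < n) (e : vc (V i) = vc (V j)) : i = j := by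
  have h1 := vc_inj (h.hi i hi) (h.hi j hj) e
  by_contra hne
  rcases lt_or_gt_of_ne hne with h2 | h2
  · exact absurd h1 (ne_of_lt (strict_of_sort h.sorted h2 hj))
  · exact absurd h1.symm (ne_of_lt (strict_of_sort h.sorted h2 hi))

theorem Tab.ncard {V : ℕ → ℕ} {n : ℕ} (h : Tab V n) : (tset V n).ncard = n := by
  have h1 : tset V n = (fun i => vc (V i)) '' (↑(Finset.range n) : Set ℕ) := by
    ext y
    simp only [tset, Set.mem_ofPred_eq, Set.mem_image, Finset.coe_range, Set.mem_Iio]
    constructor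
    · rintro ⟨i, hi, rfl⟩
      exact ⟨i, hi, rfl⟩
    · rintro ⟨i, hi, rfl⟩
      exact ⟨i, hi, rfl⟩
  rw [h1, Set.ncard_image_of_injOn, Set.ncard_coe_finset, Finset.card_range]
  intro i hi j hj e
  exact h.inj (by simpa using hi) (by simpa using hj) e

theorem Tab.ncard_neg {V : ℕ → ℕ} {n : ℕ} (h : Tab V n) : (nset V n).ncard = n := by
  have h1 : nset V n = (fun y => -y) '' (tset V n) := by
    ext y
    simp only [tset, nset, Set.mem_ofPred_eq, Set.mem_image]
    constructor
    · rintro ⟨i, hi, rfl⟩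
      exact ⟨_, ⟨i, hi, rfl⟩, rfl⟩
    · rintro ⟨_, ⟨i, hi, rfl⟩, rfl⟩
      exact ⟨i, hi, rfl⟩
  rw [h1, Set.ncard_image_of_injective _ neg_injective, h.ncard]

/-- a table from its sorted values and a bound on the last one -/
theorem tab_of {V : ℕ → ℕ} {n : ℕ} (h : allR (sortP V n) 0 n = true) (hb : 0 < n ∧ V (n - 1) < 2 ^ 120) : Tab V n := by
  have h1 : RangeOK (sortP V n) 0 n := RangeOK.of_allR h
  refine ⟨h1, fun i hi => ?_⟩
  by_cases e : i = n - 1
  · rw [e]
    exact hb.2
  · exact lt_trans (strict_of_sort h1 (by omega) (by omega)) hb.2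

/-! ### Digits and signs -/

theorem mod_digits (a k : ℕ) : a % 32 ^ k = ∑ j ∈ Finset.range k, fld a j * 32 ^ j := by
  induction k with
  | zero => simp [Nat.mod_one]
  | succ k ih =>
    rw [Finset.sum_range_succ, ← ih, pow_succ, Nat.mod_mul]
    have h1 : fld a k = a / 32 ^ k % 32 := by
      show (a >>> (5 * k)) &&& 31 = _
      have h2 : (32 : ℕ) ^ k = 2 ^ (5 * k) := by
        rw [pow_mul]
        norm_num
      rw [h2, Nat.shiftRight_eq_div_pow]
      exact Nat.and_two_pow_sub_one_eq_mod _ 5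
    rw [h1]
    ring

theorem digits (a : ℕ) (h : a < 2 ^ 120) : a = ∑ j ∈ Finset.range 24, fld a j * 32 ^ j := by
  rw [← mod_digits, Nat.mod_eq_of_lt]
  have : (2 : ℕ) ^ 120 = 32 ^ 24 := by norm_num
  omega

/-- the code of the zero vector -/
def zeroC : ℕ := 16 * ((32 ^ 24 - 1) / 31)

theorem sum_zeroC : ∑ j ∈ Finset.range 24, 32 * (32 : ℕ) ^ j = 2 * zeroC := by
  decide +kernel

theorem vc_ne_neg {a b : ℕ} (ha : a < 2 ^ 120) (hb : b < 2 ^ 120) (ha' : zeroC < a) (hb' : zeroC < b) :
    vc a ≠ - vc b := by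
  intro e
  have h1 : ∀ j ∈ Finset.range 24, fld a j * 32 ^ j + fld b j * 32 ^ j = 32 * 32 ^ j := by
    intro j hj
    have h2 := congrFun e (ptOf j)
    simp only [Pi.neg_apply, vc, idx_ptOf (Finset.mem_range.1 hj)] at h2
    have h3 : fld a j + fld b j = 32 := by omega
    rw [← add_mul, h3]
  have h2 := Finset.sum_congr rfl h1
  rw [Finset.sum_add_distrib, ← digits a ha, ← digits b hb, sum_zeroC] at h2
  omega

/-! ### Orbits -/

/-- the orbit of a vector under a subgroup, as a set of vectors -/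
def Orb (H : Subgroup Co0) (x : LL) : Set (GolayPt → ℤ) := {y | ∃ g ∈ H, ((g • x : LL) : GolayPt → ℤ) = y}

instance finiteCo : Finite Co0 := card_le.1

theorem card_orb (H : Subgroup Co0) (x : LL) :
    Nat.card H = (Orb H x).ncard * Nat.card ↥(H ⊓ MulAction.stabilizer Co0 x) := by
  classical
  have h1 := Subgroup.card_mul_index (MulAction.stabilizer ↥H x)
  rw [MulAction.index_stabilizer] at h1
  have h2 : Orb H x = Subtype.val '' (MulAction.orbit ↥H x) := by
    ext y
    simp only [Orb, Set.mem_ofPred_eq, Set.mem_image, MulAction.mem_orbit_iff]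
    constructor
    · rintro ⟨g, hg, rfl⟩
      exact ⟨g • x, ⟨⟨g, hg⟩, rfl⟩, rfl⟩
    · rintro ⟨_, ⟨g, rfl⟩, rfl⟩
      exact ⟨g.1, g.2, rfl⟩
  have h3 : Nat.card (MulAction.stabilizer ↥H x) = Nat.card ↥(H ⊓ MulAction.stabilizer Co0 x) := by
    refine Nat.card_congr ⟨fun g => ⟨g.1.1, g.1.2, g.2⟩, fun g => ⟨⟨g.1, g.2.1⟩, g.2.2⟩, ?_, ?_⟩
    · intro g
      rfl
    · intro g
      rfl
  rw [h2, Set.ncard_image_of_injective _ Subtype.val_injective, ← h1, h3, mul_comm]

theorem orb_finite (H : Subgroup Co0) (x : LL) : (Orb H x).Finite := by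
  have h : Orb H x = (fun g : H => ((g.1 • x : LL) : GolayPt → ℤ)) '' Set.univ := by
    ext y
    simp only [Orb, Set.mem_ofPred_eq, Set.mem_image, Set.mem_univ, true_and]
    constructor
    · rintro ⟨g, hg, rfl⟩
      exact ⟨⟨g, hg⟩, rfl⟩
    · rintro ⟨g, rfl⟩
      exact ⟨g.1, g.2, rfl⟩
  rw [h]
  exact (Set.toFinite _).image _

theorem le_card_orb (H : Subgroup Co0) (x : LL) {A : Set (GolayPt → ℤ)} (h : A ⊆ Orb H x) :
    A.ncard * Nat.card ↥(H ⊓ MulAction.stabilizer Co0 x) ≤ Nat.card H := by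
  rw [card_orb H x]
  exact Nat.mul_le_mul_right _ (Set.ncard_le_ncard h (orb_finite H x))

theorem card_orb_le (H : Subgroup Co0) (x : LL) {A : Set (GolayPt → ℤ)} (hA : A.Finite) (h : Orb H x ⊆ A) :
    Nat.card H ≤ A.ncard * Nat.card ↥(H ⊓ MulAction.stabilizer Co0 x) := by
  rw [card_orb H x]
  exact Nat.mul_le_mul_right _ (Set.ncard_le_ncard h hA)

/-! ### Letters of stabilizers -/

theorem letter_top {bC cC : ℕ → ℕ} {d d' : ℕ} {rs rs' : List (List ℕ)} {yC zC : ℕ → ℕ}
    (h : LCert bC cC d d' rs rs' yC zC) {K : Subgroup Co0} (hK : toCo h ∈ K) : IsLetter K d rs :=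
  ⟨h.dpos, h.rowsOK, toCo h, hK, fun v => toCo_apply h v⟩

theorem fix_stab {bC cC : ℕ → ℕ} {d d' : ℕ} {rs rs' : List (List ℕ)} {yC zC : ℕ → ℕ}
    (h : LCert bC cC d d' rs rs' yC zC) {x : LL} {a : ℕ} (hx : x.1 = vc a) (ha : actY d rs a a = true) :
    toCo h ∈ MulAction.stabilizer Co0 x := by
  rw [MulAction.mem_stabilizer_iff]
  apply Subtype.ext
  rw [toCo_apply, hx]
  exact gmap_actY h.dpos h.rowsOK ha

end Cfsg.Agent.Lib.CoTree
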