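import Mathlib

set_option autoImplicit false

namespace Cfsg.Agent.Lib.CommUnip

universe u

variable {F : Type*} [Field F] {V : Type u} [AddCommGroup V] [Module F V] [FiniteDimensional F V]

theorem one_add_pow {R : Type*} [Ring R] {M : R} (h3 : M * M * M = 0) (k : ℕ) :
    ∃ c : ℕ, (1 + M) ^ k = 1 + k • M + c • (M * M) := by
  induction k with
  | zero => exact ⟨0, by simp⟩
  | succ k ih =>
    obtain ⟨c, hc⟩ := ih
    refine ⟨c + k, ?_⟩
    rw [pow_succ, hc]
    simp only [add_mul, mul_add, one_mul, mul_one, smul_mul_assoc, add_smul, succ_nsmul, h3, smul_zero, add_zero, one_smul]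
    abel

/-- A commuting element of prime order, coprime to the characteristic, on a space with a square zero map. -/
theorem core {r : ℕ} (hr : (r : F) ≠ 0) (L N : Module.End F V) (hN0 : N ≠ 0) (hN2 : N * N = 0) (hLN : L * N = N * L)
    (hLr : L ^ r = 1)
    (H : ∀ (U : Type u) [AddCommGroup U] [Module F U] [FiniteDimensional F U],
      Module.finrank F U + 2 ≤ Module.finrank F V → ∀ T : Module.End F U, T ^ r = 1 → T = 1)
    (hdim : 4 ≤ Module.finrank F V) : L = 1 := by
  classical
  let W₂ : Submodule F V := LinearMap.range N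
  let W₁ : Submodule F V := LinearMap.ker N
  have hle : W₂ ≤ W₁ := by
    rintro _ ⟨x, rfl⟩
    have : (N * N) x = 0 := by rw [hN2]; rfl
    exact this
  have hrk : Module.finrank F W₂ + Module.finrank F W₁ = Module.finrank F V := LinearMap.finrank_range_add_finrank_ker N
  have hd1 : 1 ≤ Module.finrank F W₂ := by
    rcases Nat.eq_zero_or_pos (Module.finrank F W₂) with h | h
    · exfalso
      apply hN0
      have : W₂ = ⊥ := Submodule.finrank_eq_zero.1 h
      exact LinearMap.range_eq_bot.1 this
    · exact h
  have hd2 : Module.finrank F W₂ ≤ Module.finrank F W₁ := Submodule.finrank_mono hle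
  have hmap2 : ∀ x ∈ W₂, L x ∈ W₂ := by
    rintro _ ⟨x, rfl⟩
    refine ⟨L x, ?_⟩
    have : (N * L) x = (L * N) x := by rw [hLN]
    exact this
  have hmap1 : ∀ x ∈ W₁, L x ∈ W₁ := by
    intro x hx
    have h1 : N x = 0 := hx
    have : (N * L) x = (L * N) x := by rw [hLN]
    show N (L x) = 0
    have e : N (L x) = L (N x) := this
    rw [e, h1, map_zero]
  -- step 1
  have h1 : ∀ x ∈ W₂, L x = x := by
    let T : Module.End F W₂ := L.restrict hmap2
    have hT : T ^ r = 1 := by
      apply LinearMap.ext
      rintro ⟨x, hx⟩
      apply Subtype.ext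
      have e : ∀ k : ℕ, (((T ^ k) ⟨x, hx⟩ : W₂) : V) = (L ^ k) x := by
        intro k
        induction k with
        | zero => rfl
        | succ k ih =>
          rw [pow_succ', pow_succ', Module.End.mul_apply, Module.End.mul_apply]
          show L (((T ^ k) ⟨x, hx⟩ : W₂) : V) = _
          rw [ih]
      rw [e, hLr]
      rfl
    have hT1 := H W₂ (by omega) T hT
    intro x hx
    have := congrArg (fun S : Module.End F W₂ => ((S ⟨x, hx⟩ : W₂) : V)) hT1
    exact this
  -- step 2
  have h2 : ∀ v, L v - v ∈ W₁ := by
    intro v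
    show N (L v - v) = 0
    have : (N * L) v = (L * N) v := by rw [hLN]
    have e : N (L v) = L (N v) := this
    rw [map_sub, e, h1 _ ⟨v, rfl⟩, sub_self]
  -- step 3
  have h3 : ∀ x ∈ W₁, L x - x ∈ W₂ := by
    let P : Submodule F W₁ := W₂.comap W₁.subtype
    let L₁ : Module.End F W₁ := L.restrict hmap1
    have hP : P ≤ P.comap L₁ := by
      rintro ⟨x, hx⟩ hx2
      exact hmap2 x hx2
    let T : Module.End F (W₁ ⧸ P) := P.mapQ P L₁ hP
    have hT : T ^ r = 1 := by
      apply LinearMap.ext
      intro x
      induction x using Submodule.Quotient.induction_on with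
      | H x =>
        have e : ∀ k : ℕ, (T ^ k) (Submodule.Quotient.mk x) = Submodule.Quotient.mk ((L₁ ^ k) x) := by
          intro k
          induction k with
          | zero => rfl
          | succ k ih =>
            rw [pow_succ', pow_succ', Module.End.mul_apply, Module.End.mul_apply, ih]
            rfl
        rw [e]
        have e2 : (L₁ ^ r) x = x := by
          apply Subtype.ext
          have e3 : ∀ k : ℕ, (((L₁ ^ k) x : W₁) : V) = (L ^ k) x := by
            intro k
            induction k with
            | zero => rfl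
            | succ k ih =>
              rw [pow_succ', pow_succ', Module.End.mul_apply, Module.End.mul_apply]
              show L (((L₁ ^ k) x : W₁) : V) = _
              rw [ih]
          rw [e3, hLr]
          rfl
        rw [e2]
        rfl
    have hfr : Module.finrank F (W₁ ⧸ P) + Module.finrank F P = Module.finrank F W₁ := Submodule.finrank_quotient_add_finrank P
    have hfr2 : Module.finrank F P = Module.finrank F W₂ := by
      have : Submodule.map W₁.subtype P = W₂ := by
        rw [Submodule.map_comap_subtype]
        exact inf_eq_right.2 hle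
      rw [← this]
      exact (LinearEquiv.finrank_eq (Submodule.equivMapOfInjective W₁.subtype (Submodule.subtype_injective _) P))
    have hT1 := H (W₁ ⧸ P) (by omega) T hT
    intro x hx
    have h5 : T (Submodule.Quotient.mk ⟨x, hx⟩) = Submodule.Quotient.mk ⟨x, hx⟩ := by
      rw [hT1]
      rfl
    have h6 : (Submodule.Quotient.mk (L₁ ⟨x, hx⟩) : W₁ ⧸ P) = Submodule.Quotient.mk ⟨x, hx⟩ := h5
    rw [Submodule.Quotient.eq] at h6
    exact h6
  -- assemble
  let M : Module.End F V := L - 1
  have hM : ∀ v, M v = L v - v := fun v => rfl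
  have hM1 : M * M * M = 0 := by
    apply LinearMap.ext
    intro v
    rw [Module.End.mul_apply, Module.End.mul_apply]
    have h5 : M v ∈ W₁ := h2 v
    have h6 : M (M v) ∈ W₂ := h3 _ h5
    rw [hM (M (M v)), h1 _ h6, sub_self]
    rfl
  obtain ⟨c, hc⟩ := one_add_pow hM1 r
  have hLe : 1 + M = L := by
    simp only [M]
    abel
  rw [hLe, hLr] at hc
  have h5 : r • M + c • (M * M) = 0 := by
    have : (1 : Module.End F V) + (r • M + c • (M * M)) = 1 + 0 := by
      rw [add_zero, ← add_assoc]
      exact hc.symm
    exact add_left_cancel this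
  have h6 : r • (M * M) = 0 := by
    have := congrArg (fun S => S * M) h5
    simp only [add_mul, smul_mul_assoc, zero_mul, hM1, smul_zero, add_zero] at this
    exact this
  have hrr : ∀ S : Module.End F V, r • S = 0 → S = 0 := by
    intro S hS
    have : (r : F) • S = 0 := by rw [Nat.cast_smul_eq_nsmul]; exact hS
    exact (smul_eq_zero.1 this).resolve_left hr
  have h7 : M * M = 0 := hrr _ h6
  rw [h7, smul_zero, add_zero] at h5
  have h8 : M = 0 := hrr _ h5
  simp only [M] at h8
  exact sub_eq_zero.1 h8

end Cfsg.Agent.Lib.CommUnip
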