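import Cfsg.Agent.Lib.OrthE

set_option autoImplicit false

/-! Overgroups of decomposition stabilisers: the parity of the number of non-zero components is
invariant, and it is a polynomial function of the coordinates for small fields. -/

namespace Cfsg.Agent.Lib.DecompOver

open Matrix Cfsg Cfsg.Geo Cfsg.Agent.Lib.OrthE
open scoped MatrixGroups

variable {ι : Type} [Fintype ι] [DecidableEq ι] {F : Type*} [Field F]

/-- The matrix of `x ↦ x + ℓ x • u`. -/
noncomputable def tvM (ℓ : (ι → F) →ₗ[F] F) (u : ι → F) : Matrix ι ι F :=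
  1 + Matrix.vecMulVec u (fun j => ℓ (Pi.single j 1))

theorem lin_eq (ℓ : (ι → F) →ₗ[F] F) (x : ι → F) : ∑ j, ℓ (Pi.single j 1) * x j = ℓ x := by
  conv_rhs => rw [← Finset.univ_sum_single x]
  rw [map_sum]
  apply Finset.sum_congr rfl
  intro j _
  have : Pi.single j (x j) = x j • (Pi.single j 1 : ι → F) := by
    ext k
    simp [Pi.single_apply]
  rw [this, map_smul, smul_eq_mul, mul_comm]

theorem tvM_mulVec (ℓ : (ι → F) →ₗ[F] F) (u x : ι → F) : tvM ℓ u *ᵥ x = x + ℓ x • u := by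
  rw [tvM, Matrix.add_mulVec, Matrix.one_mulVec]
  congr 1
  ext i
  simp only [Matrix.mulVec, dotProduct, Matrix.vecMulVec_apply, Pi.smul_apply, smul_eq_mul]
  rw [← lin_eq, Finset.sum_mul]
  apply Finset.sum_congr rfl
  intro j _
  ring

theorem tvM_det (ℓ : (ι → F) →ₗ[F] F) (u : ι → F) : (tvM ℓ u).det = 1 + ℓ u := by
  have h : tvM ℓ u = 1 + Matrix.replicateCol Unit u * Matrix.replicateRow Unit (fun j => ℓ (Pi.single j 1)) := by
    rw [tvM]
    congr 1
    ext i j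
    simp [Matrix.mul_apply, Matrix.vecMulVec_apply]
  rw [h, Matrix.det_one_add_replicateCol_mul_replicateRow]
  congr 1
  rw [← lin_eq]
  rfl

/-- The invertible `x ↦ x + ℓ x • u`. -/
noncomputable def tvU (ℓ : (ι → F) →ₗ[F] F) (u : ι → F) (h : 1 + ℓ u ≠ 0) : GL ι F :=
  Matrix.GeneralLinearGroup.mkOfDetNeZero (tvM ℓ u) (by rw [tvM_det]; exact h)

theorem tvU_val (ℓ : (ι → F) →ₗ[F] F) (u : ι → F) (h : 1 + ℓ u ≠ 0) :
    ((tvU ℓ u h : GL ι F) : Matrix ι ι F) = tvM ℓ u := rfl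

theorem tvU_mulVec (ℓ : (ι → F) →ₗ[F] F) (u : ι → F) (h : 1 + ℓ u ≠ 0) (x : ι → F) :
    ((tvU ℓ u h : GL ι F) : Matrix ι ι F) *ᵥ x = x + ℓ x • u := tvM_mulVec ℓ u x

theorem tvU_det (ℓ : (ι → F) →ₗ[F] F) (u : ι → F) (h : 1 + ℓ u ≠ 0) :
    ((tvU ℓ u h : GL ι F) : Matrix ι ι F).det = 1 + ℓ u := tvM_det ℓ u

theorem mem_SL (g : GL ι F) : g ∈ specialLinear ι F ↔ (g : Matrix ι ι F).det = 1 := by
  rw [specialLinear, MonoidHom.mem_ker]
  constructor
  · intro h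
    have := congrArg Units.val h
    simpa using this
  · intro h
    apply Units.ext
    simpa using h

section Basis

variable {t m : ℕ} (b : Module.Basis (Σ _ : Fin t, Fin m) F (ι → F))

theorem coord_self (p q : Σ _ : Fin t, Fin m) : b.coord p (b q) = if q = p then 1 else 0 := by
  classical
  rw [Module.Basis.coord_apply, Module.Basis.repr_self, Finsupp.single_apply]

open scoped Classical in
/-- The indices of the non-zero components of `x`. -/
noncomputable def supp (x : ι → F) : Finset (Fin t) :=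
  Finset.univ.filter (fun i => ∃ j, b.coord ⟨i, j⟩ x ≠ 0)

theorem mem_supp (x : ι → F) (i : Fin t) : i ∈ supp b x ↔ ∃ j, b.coord ⟨i, j⟩ x ≠ 0 := by
  simp [supp]

/-- The parity function. -/
noncomputable def phi (x : ι → F) : F := ((supp b x).card : F)

variable {D : Fin t → Submodule F (ι → F)}
  (hmem : ∀ i j, b ⟨i, j⟩ ∈ D i) (hzero : ∀ k, ∀ w ∈ D k, ∀ l, l ≠ k → ∀ j, b.coord ⟨l, j⟩ w = 0)

include hmem hzero in
theorem coord_stab {g : GL ι F} {σ : Equiv.Perm (Fin t)}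
    (hσ : ∀ i, (D i).map (Matrix.toLin' (g : Matrix ι ι F)) = D (σ i)) (x : ι → F) {k : Fin t} {j' : Fin m}
    (hk : b.coord ⟨k, j'⟩ ((g : Matrix ι ι F) *ᵥ x) ≠ 0) : σ.symm k ∈ supp b x := by
  rw [mem_supp]
  by_contra hc
  push Not at hc
  apply hk
  have h1 : (g : Matrix ι ι F) *ᵥ x = ∑ p, (b.coord p x) • ((g : Matrix ι ι F) *ᵥ (b p)) := by
    conv_lhs => rw [← b.sum_repr x]
    rw [← Matrix.mulVecLin_apply, map_sum]
    apply Finset.sum_congr rfl
    intro p _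
    rw [map_smul, Matrix.mulVecLin_apply, Module.Basis.coord_apply]
  rw [h1, map_sum]
  apply Finset.sum_eq_zero
  rintro ⟨i, j⟩ _
  rw [map_smul, smul_eq_mul]
  by_cases hi : i = σ.symm k
  · subst hi
    rw [hc j, zero_mul]
  · have h2 : (g : Matrix ι ι F) *ᵥ (b ⟨i, j⟩) ∈ D (σ i) := by
      rw [← hσ]
      exact ⟨_, hmem i j, by rw [Matrix.toLin'_apply]⟩
    have h3 : k ≠ σ i := by
      rintro rfl
      simp at hi
    rw [hzero _ _ h2 k h3, mul_zero]

include hmem hzero in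
theorem card_supp_le {g : GL ι F} {σ : Equiv.Perm (Fin t)}
    (hσ : ∀ i, (D i).map (Matrix.toLin' (g : Matrix ι ι F)) = D (σ i)) (x : ι → F) :
    (supp b ((g : Matrix ι ι F) *ᵥ x)).card ≤ (supp b x).card := by
  apply Finset.card_le_card_of_injOn (fun k => σ.symm k)
  · intro k hk
    have hk' : k ∈ supp b ((g : Matrix ι ι F) *ᵥ x) := hk
    rw [mem_supp] at hk'
    obtain ⟨j, hj⟩ := hk'
    exact coord_stab b hmem hzero hσ x hj
  · intro a _ c _ h
    exact σ.symm.injective h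

include hmem hzero in
theorem stab_le : decompositionStabilizer D ≤ isometryGroup F (phi b) := by
  intro g hg
  rw [mem_O_iff]
  intro x
  unfold phi
  congr 1
  apply le_antisymm
  · obtain ⟨σ, hσ⟩ := hg
    exact card_supp_le b hmem hzero hσ x
  · obtain ⟨σ, hσ⟩ := (decompositionStabilizer D).inv_mem hg
    have := card_supp_le b hmem hzero hσ ((g : Matrix ι ι F) *ᵥ x)
    rwa [Matrix.mulVec_mulVec, ← Units.val_mul, inv_mul_cancel, Units.val_one, Matrix.one_mulVec] at this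

include hzero in
theorem not_mem_stab {g : GL ι F} (p : Σ _ : Fin t, Fin m) {i₁ i₂ : Fin t} {j₁ j₂ : Fin m} (hi : i₁ ≠ i₂)
    (hmem : ∀ i j, b ⟨i, j⟩ ∈ D i)
    (h1 : b.coord ⟨i₁, j₁⟩ ((g : Matrix ι ι F) *ᵥ (b p)) ≠ 0)
    (h2 : b.coord ⟨i₂, j₂⟩ ((g : Matrix ι ι F) *ᵥ (b p)) ≠ 0) : g ∉ decompositionStabilizer D := by
  rintro ⟨σ, hσ⟩
  have h3 : (g : Matrix ι ι F) *ᵥ (b p) ∈ D (σ p.1) := by
    rw [← hσ]
    exact ⟨_, hmem p.1 p.2, by rw [Matrix.toLin'_apply]⟩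
  by_cases h4 : i₁ = σ p.1
  · have h5 : i₂ ≠ σ p.1 := fun h => hi (h4.trans h.symm)
    exact h2 (hzero _ _ h3 _ h5 _)
  · exact h1 (hzero _ _ h3 _ h4 _)

/-- A transvection does not preserve `phi`. -/
theorem tv_not_mem {i₀ i₁ : Fin t} (hi : i₀ ≠ i₁) (j j' : Fin m) (h : 1 + b.coord ⟨i₁, j⟩ (b ⟨i₀, j'⟩) ≠ 0) :
    tvU (b.coord ⟨i₁, j⟩) (b ⟨i₀, j'⟩) h ∉ isometryGroup F (phi b) := by
  classical
  rw [mem_O_iff]
  intro hc
  have h1 := hc (b ⟨i₁, j⟩)
  rw [tvU_mulVec, coord_self, if_pos rfl, one_smul] at h1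
  have e1 : supp b (b ⟨i₁, j⟩) = {i₁} := by
    ext k
    rw [mem_supp, Finset.mem_singleton]
    constructor
    · rintro ⟨j₂, hj₂⟩
      rw [coord_self] at hj₂
      by_contra hk
      apply hj₂
      rw [if_neg]
      intro h
      exact hk (congrArg Sigma.fst h).symm
    · rintro rfl
      exact ⟨j, by rw [coord_self, if_pos rfl]; exact one_ne_zero⟩
  have e2 : supp b (b ⟨i₁, j⟩ + b ⟨i₀, j'⟩) = {i₀, i₁} := by
    ext k
    rw [mem_supp, Finset.mem_insert, Finset.mem_singleton]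
    constructor
    · rintro ⟨j₂, hj₂⟩
      rw [map_add, coord_self, coord_self] at hj₂
      by_contra hk
      push Not at hk
      apply hj₂
      rw [if_neg, if_neg, add_zero]
      · intro h
        exact hk.1 (congrArg Sigma.fst h).symm
      · intro h
        exact hk.2 (congrArg Sigma.fst h).symm
    · rintro (rfl | rfl)
      · refine ⟨j', ?_⟩
        rw [map_add, coord_self, coord_self, if_pos rfl, if_neg]
        · simp
        · intro h
          exact hi (congrArg Sigma.fst h).symm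
      · refine ⟨j, ?_⟩
        rw [map_add, coord_self, coord_self, if_pos rfl, if_neg]
        · simp
        · intro h
          exact hi (congrArg Sigma.fst h)
  unfold phi at h1
  rw [e1, e2, Finset.card_singleton, Finset.card_pair hi] at h1
  have h3 : (2 : F) = 1 := by exact_mod_cast h1
  have h4 : (1 : F) = 0 := by linear_combination h3
  exact one_ne_zero h4

include hmem hzero in
/-- The conclusion, given the two witnesses. -/
theorem finish {g h : GL ι F} (hg1 : (g : Matrix ι ι F).det = 1) (hg2 : g ∈ isometryGroup F (phi b))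
    (hg3 : g ∉ decompositionStabilizer D) (hh1 : (h : Matrix ι ι F).det = 1) (hh2 : h ∉ isometryGroup F (phi b)) :
    ∃ K : Subgroup (GL ι F), decompositionStabilizer D ⊓ specialLinear ι F < K ∧ K < specialLinear ι F := by
  refine ⟨isometryGroup F (phi b) ⊓ specialLinear ι F, ?_, ?_⟩
  · refine lt_of_le_of_ne (inf_le_inf_right _ (stab_le b hmem hzero)) ?_
    intro heq
    have : g ∈ decompositionStabilizer D ⊓ specialLinear ι F := by
      rw [heq]
      exact ⟨hg2, (mem_SL g).2 hg1⟩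
    exact hg3 this.1
  · refine lt_of_le_of_ne inf_le_right ?_
    intro heq
    have : h ∈ isometryGroup F (phi b) ⊓ specialLinear ι F := by
      rw [heq]
      exact (mem_SL h).2 hh1
    exact hh2 this.1

/-- If `phi` is computed by a polynomial on blocks, a sum comparison is localized. -/
theorem sum_local {f f' : Fin t → F} (A : Finset (Fin t)) (h1 : ∀ i, i ∉ A → f' i = f i)
    (h2 : ∑ i ∈ A, f' i = ∑ i ∈ A, f i) : ∑ i, f' i = ∑ i, f i := by
  classical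
  rw [← Finset.sum_sdiff (Finset.subset_univ A), ← Finset.sum_sdiff (Finset.subset_univ A) (f := f), h2]
  congr 1
  apply Finset.sum_congr rfl
  intro i hi
  exact h1 i (Finset.mem_sdiff.1 hi).2

end Basis

/-- An adapted basis of a decomposition. -/
theorem exists_basis {t m : ℕ} {D : Fin t → Submodule F (ι → F)} (hD : IsMDecomposition m D) :
    ∃ b : Module.Basis (Σ _ : Fin t, Fin m) F (ι → F), (∀ i j, b ⟨i, j⟩ ∈ D i) ∧
      (∀ k, ∀ w ∈ D k, ∀ l, l ≠ k → ∀ j, b.coord ⟨l, j⟩ w = 0) := by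
  classical
  have hint := DirectSum.isInternal_submodule_of_iSupIndep_of_iSup_eq_top hD.indep hD.iSup_eq_top
  let bb : ∀ i, Module.Basis (Fin m) F (D i) := fun i => Module.finBasisOfFinrankEq F (D i) (hD.finrank_eq i)
  let b := hint.collectedBasis bb
  have hb : ∀ i j, b ⟨i, j⟩ = ((bb i j : D i) : ι → F) := fun i j => by
    simp only [b, DirectSum.IsInternal.collectedBasis_coe]
  refine ⟨b, ?_, ?_⟩
  · intro i j
    rw [hb]
    exact (bb i j).2
  · intro k w hw l hl j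
    have h1 : w = ∑ j', ((bb k).repr ⟨w, hw⟩ j') • b ⟨k, j'⟩ := by
      have := (bb k).sum_repr ⟨w, hw⟩
      have h2 := congrArg (Submodule.subtype (D k)) this
      rw [map_sum] at h2
      simp only [map_smul, Submodule.subtype_apply] at h2
      simp only [hb]
      exact h2.symm
    rw [h1, map_sum]
    apply Finset.sum_eq_zero
    intro j' _
    rw [map_smul, coord_self, if_neg, smul_zero]
    intro h
    exact hl (congrArg Sigma.fst h).symm

section Cases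

variable {t : ℕ}

theorem sum3 {G : Type*} [AddCommMonoid G] (f : Fin t → G) {i₀ i₁ i₂ : Fin t} (h01 : i₀ ≠ i₁) (h02 : i₀ ≠ i₂) (h12 : i₁ ≠ i₂) :
    ∑ i ∈ ({i₀, i₁, i₂} : Finset (Fin t)), f i = f i₀ + f i₁ + f i₂ := by
  rw [Finset.sum_insert (by simp [h01, h02]), Finset.sum_insert (by simp [h12]), Finset.sum_singleton, add_assoc]

theorem sum4 {G : Type*} [AddCommMonoid G] (f : Fin t → G) {i₀ i₁ i₂ i₃ : Fin t} (h01 : i₀ ≠ i₁) (h02 : i₀ ≠ i₂) (h03 : i₀ ≠ i₃)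
    (h12 : i₁ ≠ i₂) (h13 : i₁ ≠ i₃) (h23 : i₂ ≠ i₃) :
    ∑ i ∈ ({i₀, i₁, i₂, i₃} : Finset (Fin t)), f i = f i₀ + f i₁ + f i₂ + f i₃ := by
  rw [Finset.sum_insert (by simp [h01, h02, h03]), sum3 f h12 h13 h23]
  simp only [add_assoc]

theorem phi_one (b : Module.Basis (Σ _ : Fin t, Fin 1) F (ι → F)) {e : ℕ}
    (he0 : (0 : F) ^ e = 0) (he1 : ∀ a : F, a ≠ 0 → a ^ e = 1) (x : ι → F) :
    phi b x = ∑ i, (b.coord ⟨i, 0⟩ x) ^ e := by
  classical
  unfold phi supp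
  rw [Finset.card_filter]
  push_cast
  apply Finset.sum_congr rfl
  intro i _
  by_cases h : b.coord ⟨i, 0⟩ x = 0
  · rw [h, he0, if_neg]
    rintro ⟨j, hj⟩
    apply hj
    have : j = 0 := Subsingleton.elim _ _
    rw [this, h]
  · rw [he1 _ h, if_pos ⟨0, h⟩]

theorem phi_two (b : Module.Basis (Σ _ : Fin t, Fin 2) F (ι → F)) (hF : ∀ a : F, a = 0 ∨ a = 1) (h2 : (2 : F) = 0) (x : ι → F) :
    phi b x = ∑ i, (b.coord ⟨i, 0⟩ x + b.coord ⟨i, 0⟩ x * b.coord ⟨i, 1⟩ x + b.coord ⟨i, 1⟩ x) := by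
  classical
  unfold phi supp
  rw [Finset.card_filter]
  push_cast
  apply Finset.sum_congr rfl
  intro i _
  generalize hp : b.coord ⟨i, 0⟩ x = p
  generalize hq : b.coord ⟨i, 1⟩ x = q
  have hex : (∃ j, b.coord ⟨i, j⟩ x ≠ 0) ↔ (p ≠ 0 ∨ q ≠ 0) := by
    rw [Fin.exists_fin_two, hp, hq]
  by_cases hc : ∃ j, b.coord ⟨i, j⟩ x ≠ 0
  · rw [if_pos hc]
    rcases hex.1 hc with h | h
    · rcases hF p with rfl | rfl
      · exact absurd rfl h
      · rcases hF q with rfl | rfl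
        · simp
        · linear_combination (-1 : F) * h2
    · rcases hF q with rfl | rfl
      · exact absurd rfl h
      · rcases hF p with rfl | rfl
        · simp
        · linear_combination (-1 : F) * h2
  · rw [if_neg hc]
    have h3 : ¬ (p ≠ 0 ∨ q ≠ 0) := fun h => hc (hex.2 h)
    push Not at h3
    rw [h3.1, h3.2]
    simp

/-- Characteristic two, lines. -/
theorem case_char2 (b : Module.Basis (Σ _ : Fin t, Fin 1) F (ι → F)) (h2 : (2 : F) = 0)
    (he0 : (0 : F) ^ 3 = 0) (he1 : ∀ a : F, a ≠ 0 → a ^ 3 = 1) {i₀ i₁ i₂ i₃ : Fin t} (h01 : i₀ ≠ i₁) (h02 : i₀ ≠ i₂) (h03 : i₀ ≠ i₃)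
    (h12 : i₁ ≠ i₂) (h13 : i₁ ≠ i₃) (h23 : i₂ ≠ i₃) :
    ∃ g : GL ι F, (g : Matrix ι ι F).det = 1 ∧ g ∈ isometryGroup F (phi b) ∧
      b.coord ⟨i₁, 0⟩ ((g : Matrix ι ι F) *ᵥ (b ⟨i₀, 0⟩)) ≠ 0 ∧ b.coord ⟨i₂, 0⟩ ((g : Matrix ι ι F) *ᵥ (b ⟨i₀, 0⟩)) ≠ 0 := by
  classical
  let c : Fin t → (ι → F) →ₗ[F] F := fun i => b.coord ⟨i, 0⟩
  let bb : Fin t → ι → F := fun i => b ⟨i, 0⟩
  have hcb : ∀ i k, c i (bb k) = if k = i then 1 else 0 := by
    intro i k
    simp only [c, bb]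
    rw [coord_self]
    simp
  let ℓ : (ι → F) →ₗ[F] F := c i₀ + c i₁ + c i₂ + c i₃
  let u : ι → F := bb i₀ + bb i₁ + bb i₂ + bb i₃
  have hℓ : ∀ x, ℓ x = c i₀ x + c i₁ x + c i₂ x + c i₃ x := fun x => rfl
  have hcu : ∀ i, c i u = (if i₀ = i then 1 else 0) + (if i₁ = i then 1 else 0) + (if i₂ = i then 1 else 0) + (if i₃ = i then 1 else 0) := by
    intro i
    simp only [u, map_add, hcb]
  have hu0 : c i₀ u = 1 := by rw [hcu]; simp [h01.symm, h02.symm, h03.symm]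
  have hu1 : c i₁ u = 1 := by rw [hcu]; simp [h01, h12.symm, h13.symm]
  have hu2 : c i₂ u = 1 := by rw [hcu]; simp [h02, h12, h23.symm]
  have hu3 : c i₃ u = 1 := by rw [hcu]; simp [h03, h13, h23]
  have hℓu : ℓ u = 0 := by
    rw [hℓ, hu0, hu1, hu2, hu3]
    linear_combination (2 : F) * h2
  have hne : 1 + ℓ u ≠ 0 := by rw [hℓu, add_zero]; exact one_ne_zero
  refine ⟨tvU ℓ u hne, ?_, ?_, ?_, ?_⟩
  · rw [tvU_det, hℓu, add_zero]
  · rw [mem_O_iff]
    intro x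
    rw [tvU_mulVec, phi_one b he0 he1, phi_one b he0 he1]
    apply sum_local ({i₀, i₁, i₂, i₃} : Finset (Fin t))
    · intro i hi
      simp only [Finset.mem_insert, Finset.mem_singleton, not_or] at hi
      have : b.coord ⟨i, 0⟩ u = 0 := by
        show c i u = 0
        rw [hcu, if_neg (Ne.symm hi.1), if_neg (Ne.symm hi.2.1), if_neg (Ne.symm hi.2.2.1), if_neg (Ne.symm hi.2.2.2)]
        simp
      rw [map_add, map_smul, this, smul_zero, add_zero]
    · rw [sum4 _ h01 h02 h03 h12 h13 h23, sum4 _ h01 h02 h03 h12 h13 h23]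
      have e : ∀ i, b.coord ⟨i, 0⟩ (x + ℓ x • u) = c i x + ℓ x * c i u := fun i => by
        rw [map_add, map_smul, smul_eq_mul]
      rw [e, e, e, e, hu0, hu1, hu2, hu3, hℓ]
      show (c i₀ x + (c i₀ x + c i₁ x + c i₂ x + c i₃ x) * 1) ^ 3 + _ + _ + _ = (c i₀ x) ^ 3 + (c i₁ x) ^ 3 + (c i₂ x) ^ 3 + (c i₃ x) ^ 3
      generalize c i₀ x = p
      generalize c i₁ x = q
      generalize c i₂ x = r
      generalize c i₃ x = s
      have hh : ∀ z : F, z + z = 0 := fun z => by linear_combination z * h2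
      linear_combination (5 * (p + q + r + s) * (p ^ 2 + q ^ 2 + r ^ 2 + s ^ 2) + 7 * (p + q + r + s) * (p * q + p * r + p * s + q * r + q * s + r * s)) * h2
  · rw [tvU_mulVec]
    have e : b.coord ⟨i₁, 0⟩ (b ⟨i₀, 0⟩ + ℓ (b ⟨i₀, 0⟩) • u) = c i₁ (bb i₀) + ℓ (bb i₀) * c i₁ u := by
      rw [map_add, map_smul, smul_eq_mul]
    rw [e, hu1, hcb, if_neg h01, hℓ, hcb, hcb, hcb, hcb]
    simp [h01, h02, h03]
  · rw [tvU_mulVec]
    have e : b.coord ⟨i₂, 0⟩ (b ⟨i₀, 0⟩ + ℓ (b ⟨i₀, 0⟩) • u) = c i₂ (bb i₀) + ℓ (bb i₀) * c i₂ u := by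
      rw [map_add, map_smul, smul_eq_mul]
    rw [e, hu2, hcb, if_neg h02, hℓ, hcb, hcb, hcb, hcb]
    simp [h01, h02, h03]

/-- Characteristic three, lines. -/
theorem case_three (b : Module.Basis (Σ _ : Fin t, Fin 1) F (ι → F)) (h3 : (3 : F) = 0)
    (he0 : (0 : F) ^ 2 = 0) (he1 : ∀ a : F, a ≠ 0 → a ^ 2 = 1) {i₀ i₁ i₂ i₃ i₄ : Fin t} (h01 : i₀ ≠ i₁) (h02 : i₀ ≠ i₂) (h03 : i₀ ≠ i₃)
    (h04 : i₀ ≠ i₄) (h12 : i₁ ≠ i₂) (h13 : i₁ ≠ i₃) (h14 : i₁ ≠ i₄) (h23 : i₂ ≠ i₃) (h24 : i₂ ≠ i₄) (h34 : i₃ ≠ i₄) :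
    ∃ g : GL ι F, (g : Matrix ι ι F).det = 1 ∧ g ∈ isometryGroup F (phi b) ∧
      b.coord ⟨i₁, 0⟩ ((g : Matrix ι ι F) *ᵥ (b ⟨i₀, 0⟩)) ≠ 0 ∧ b.coord ⟨i₂, 0⟩ ((g : Matrix ι ι F) *ᵥ (b ⟨i₀, 0⟩)) ≠ 0 := by
  classical
  have h2 : (2 : F) ≠ 0 := by
    intro h
    have : (1 : F) = 0 := by linear_combination h3 - h
    exact one_ne_zero this
  let c : Fin t → (ι → F) →ₗ[F] F := fun i => b.coord ⟨i, 0⟩
  let bb : Fin t → ι → F := fun i => b ⟨i, 0⟩
  have hcb : ∀ i k, c i (bb k) = if k = i then 1 else 0 := by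
    intro i k
    simp only [c, bb]
    rw [coord_self]
    simp
  let ℓ : (ι → F) →ₗ[F] F := c i₀ + c i₁ + c i₂ + c i₃
  let u : ι → F := bb i₀ + bb i₁ + bb i₂ + bb i₃
  have hℓ : ∀ x, ℓ x = c i₀ x + c i₁ x + c i₂ x + c i₃ x := fun x => rfl
  have hcu : ∀ i, c i u = (if i₀ = i then 1 else 0) + (if i₁ = i then 1 else 0) + (if i₂ = i then 1 else 0) + (if i₃ = i then 1 else 0) := by
    intro i
    simp only [u, map_add, hcb]
  have hu0 : c i₀ u = 1 := by rw [hcu]; simp [h01.symm, h02.symm, h03.symm]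
  have hu1 : c i₁ u = 1 := by rw [hcu]; simp [h01, h12.symm, h13.symm]
  have hu2 : c i₂ u = 1 := by rw [hcu]; simp [h02, h12, h23.symm]
  have hu3 : c i₃ u = 1 := by rw [hcu]; simp [h03, h13, h23]
  have hℓu : ℓ u = 1 := by
    rw [hℓ, hu0, hu1, hu2, hu3]
    linear_combination h3
  have hne : 1 + ℓ u ≠ 0 := by
    rw [hℓu]
    intro h
    exact h2 (by linear_combination h)
  have hne' : 1 + c i₄ (bb i₄) ≠ 0 := by
    rw [hcb, if_pos rfl]
    intro h
    exact h2 (by linear_combination h)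
  have hu4 : c i₄ u = 0 := by rw [hcu]; simp [h04, h14, h24, h34]
  let R := tvU ℓ u hne
  let W := tvU (c i₄) (bb i₄) hne'
  refine ⟨R * W, ?_, ?_, ?_, ?_⟩
  · rw [Units.val_mul, Matrix.det_mul, tvU_det, tvU_det, hcb, if_pos rfl, hℓu]
    linear_combination h3
  · apply Subgroup.mul_mem
    · rw [mem_O_iff]
      intro x
      rw [tvU_mulVec, phi_one b he0 he1, phi_one b he0 he1]
      apply sum_local ({i₀, i₁, i₂, i₃} : Finset (Fin t))
      · intro i hi
        simp only [Finset.mem_insert, Finset.mem_singleton, not_or] at hi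
        have : b.coord ⟨i, 0⟩ u = 0 := by
          show c i u = 0
          rw [hcu, if_neg (Ne.symm hi.1), if_neg (Ne.symm hi.2.1), if_neg (Ne.symm hi.2.2.1), if_neg (Ne.symm hi.2.2.2)]
          simp
        rw [map_add, map_smul, this, smul_zero, add_zero]
      · rw [sum4 _ h01 h02 h03 h12 h13 h23, sum4 _ h01 h02 h03 h12 h13 h23]
        have e : ∀ i, b.coord ⟨i, 0⟩ (x + ℓ x • u) = c i x + ℓ x * c i u := fun i => by
          rw [map_add, map_smul, smul_eq_mul]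
        rw [e, e, e, e, hu0, hu1, hu2, hu3, hℓ]
        show (c i₀ x + (c i₀ x + c i₁ x + c i₂ x + c i₃ x) * 1) ^ 2 + _ + _ + _ = (c i₀ x) ^ 2 + (c i₁ x) ^ 2 + (c i₂ x) ^ 2 + (c i₃ x) ^ 2
        generalize c i₀ x = p
        generalize c i₁ x = q
        generalize c i₂ x = r
        generalize c i₃ x = s
        linear_combination (2 * (p + q + r + s) ^ 2) * h3
    · rw [mem_O_iff]
      intro x
      rw [tvU_mulVec, phi_one b he0 he1, phi_one b he0 he1]
      apply sum_local ({i₄} : Finset (Fin t))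
      · intro i hi
        simp only [Finset.mem_singleton] at hi
        have : b.coord ⟨i, 0⟩ (bb i₄) = 0 := by
          show c i (bb i₄) = 0
          rw [hcb, if_neg (Ne.symm hi)]
        rw [map_add, map_smul, this, smul_zero, add_zero]
      · rw [Finset.sum_singleton, Finset.sum_singleton]
        have e : b.coord ⟨i₄, 0⟩ (x + c i₄ x • bb i₄) = c i₄ x + c i₄ x * c i₄ (bb i₄) := by
          rw [map_add, map_smul, smul_eq_mul]
        rw [e, hcb, if_pos rfl]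
        show (c i₄ x + c i₄ x * 1) ^ 2 = (c i₄ x) ^ 2
        linear_combination ((c i₄ x) ^ 2) * h3
  · have e0 : ((R * W : GL ι F) : Matrix ι ι F) *ᵥ (b ⟨i₀, 0⟩) = bb i₀ + ℓ (bb i₀) • u := by
      rw [mul_mulVec, tvU_mulVec, tvU_mulVec]
      have : c i₄ (b ⟨i₀, 0⟩) = 0 := by
        show c i₄ (bb i₀) = 0
        rw [hcb, if_neg h04]
      rw [this, zero_smul, add_zero]
    rw [e0, map_add, map_smul, smul_eq_mul]
    show c i₁ (bb i₀) + ℓ (bb i₀) * c i₁ u ≠ 0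
    rw [hu1, hcb, if_neg h01, hℓ, hcb, hcb, hcb, hcb]
    simp [h01, h02, h03]
  · have e0 : ((R * W : GL ι F) : Matrix ι ι F) *ᵥ (b ⟨i₀, 0⟩) = bb i₀ + ℓ (bb i₀) • u := by
      rw [mul_mulVec, tvU_mulVec, tvU_mulVec]
      have : c i₄ (b ⟨i₀, 0⟩) = 0 := by
        show c i₄ (bb i₀) = 0
        rw [hcb, if_neg h04]
      rw [this, zero_smul, add_zero]
    rw [e0, map_add, map_smul, smul_eq_mul]
    show c i₂ (bb i₀) + ℓ (bb i₀) * c i₂ u ≠ 0
    rw [hu2, hcb, if_neg h02, hℓ, hcb, hcb, hcb, hcb]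
    simp [h01, h02, h03]

/-- Two-dimensional blocks over the field of two elements. -/
theorem case_two (b : Module.Basis (Σ _ : Fin t, Fin 2) F (ι → F)) (h2 : (2 : F) = 0) (hF : ∀ a : F, a = 0 ∨ a = 1)
    {i₀ i₁ i₂ : Fin t} (h01 : i₀ ≠ i₁) (h02 : i₀ ≠ i₂) (h12 : i₁ ≠ i₂) :
    ∃ g : GL ι F, (g : Matrix ι ι F).det = 1 ∧ g ∈ isometryGroup F (phi b) ∧
      b.coord ⟨i₁, 0⟩ ((g : Matrix ι ι F) *ᵥ (b ⟨i₀, 1⟩)) ≠ 0 ∧ b.coord ⟨i₂, 0⟩ ((g : Matrix ι ι F) *ᵥ (b ⟨i₀, 1⟩)) ≠ 0 := by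
  classical
  let c : Fin t → (ι → F) →ₗ[F] F := fun i => b.coord ⟨i, 0⟩
  let d : Fin t → (ι → F) →ₗ[F] F := fun i => b.coord ⟨i, 1⟩
  let bb : Fin t → ι → F := fun i => b ⟨i, 0⟩
  let bd : Fin t → ι → F := fun i => b ⟨i, 1⟩
  have hcb : ∀ i k, c i (bb k) = if k = i then 1 else 0 := by
    intro i k
    simp only [c, bb]
    rw [coord_self]
    simp
  have hdb : ∀ i k, d i (bb k) = 0 := by
    intro i k
    simp only [d, bb]
    rw [coord_self]
    simp
  have hcd : ∀ i k, c i (bd k) = 0 := by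
    intro i k
    simp only [c, bd]
    rw [coord_self]
    simp
  have hdd : ∀ i k, d i (bd k) = if k = i then 1 else 0 := by
    intro i k
    simp only [d, bd]
    rw [coord_self]
    simp
  let ℓ : (ι → F) →ₗ[F] F := d i₀ + d i₁ + d i₂
  let u : ι → F := bb i₀ + bb i₁ + bb i₂
  have hℓ : ∀ x, ℓ x = d i₀ x + d i₁ x + d i₂ x := fun x => rfl
  have hcu : ∀ i, c i u = (if i₀ = i then 1 else 0) + (if i₁ = i then 1 else 0) + (if i₂ = i then 1 else 0) := by
    intro i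
    simp only [u, map_add, hcb]
  have hdu : ∀ i, d i u = 0 := by
    intro i
    simp only [u, map_add, hdb, add_zero]
  have hu0 : c i₀ u = 1 := by rw [hcu]; simp [h01.symm, h02.symm]
  have hu1 : c i₁ u = 1 := by rw [hcu]; simp [h01, h12.symm]
  have hu2 : c i₂ u = 1 := by rw [hcu]; simp [h02, h12]
  have hℓu : ℓ u = 0 := by
    rw [hℓ, hdu, hdu, hdu]
    simp
  have hne : 1 + ℓ u ≠ 0 := by rw [hℓu, add_zero]; exact one_ne_zero
  refine ⟨tvU ℓ u hne, ?_, ?_, ?_, ?_⟩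
  · rw [tvU_det, hℓu, add_zero]
  · rw [mem_O_iff]
    intro x
    rw [tvU_mulVec, phi_two b hF h2, phi_two b hF h2]
    have e : ∀ i, b.coord ⟨i, 0⟩ (x + ℓ x • u) = c i x + ℓ x * c i u := fun i => by
      rw [map_add, map_smul, smul_eq_mul]
    have e' : ∀ i, b.coord ⟨i, 1⟩ (x + ℓ x • u) = d i x := fun i => by
      rw [map_add, map_smul, smul_eq_mul]
      show d i x + ℓ x * d i u = d i x
      rw [hdu, mul_zero, add_zero]
    apply sum_local ({i₀, i₁, i₂} : Finset (Fin t))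
    · intro i hi
      simp only [Finset.mem_insert, Finset.mem_singleton, not_or] at hi
      have : c i u = 0 := by
        rw [hcu, if_neg (Ne.symm hi.1), if_neg (Ne.symm hi.2.1), if_neg (Ne.symm hi.2.2)]
        simp
      rw [e, e', this, mul_zero, add_zero]
    · rw [sum3 _ h01 h02 h12, sum3 _ h01 h02 h12]
      simp only [e, e']
      rw [hu0, hu1, hu2]
      show _ = (c i₀ x + c i₀ x * d i₀ x + d i₀ x) + (c i₁ x + c i₁ x * d i₁ x + d i₁ x) + (c i₂ x + c i₂ x * d i₂ x + d i₂ x)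
      have hl2 : ℓ x * ℓ x = ℓ x := by
        rcases hF (ℓ x) with h | h <;> rw [h] <;> simp
      rw [hℓ] at hl2
      rw [hℓ]
      generalize c i₀ x = p at *
      generalize c i₁ x = q at *
      generalize c i₂ x = r at *
      generalize d i₀ x = y₀ at *
      generalize d i₁ x = y₁ at *
      generalize d i₂ x = y₂ at *
      linear_combination hl2 + (2 * (y₀ + y₁ + y₂)) * h2
  · rw [tvU_mulVec]
    have e : b.coord ⟨i₁, 0⟩ (b ⟨i₀, 1⟩ + ℓ (b ⟨i₀, 1⟩) • u) = c i₁ (bd i₀) + ℓ (bd i₀) * c i₁ u := by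
      rw [map_add, map_smul, smul_eq_mul]
    rw [e, hu1, hcd, hℓ, hdd, hdd, hdd]
    simp [h01, h02]
  · rw [tvU_mulVec]
    have e : b.coord ⟨i₂, 0⟩ (b ⟨i₀, 1⟩ + ℓ (b ⟨i₀, 1⟩) • u) = c i₂ (bd i₀) + ℓ (bd i₀) * c i₂ u := by
      rw [map_add, map_smul, smul_eq_mul]
    rw [e, hu2, hcd, hℓ, hdd, hdd, hdd]
    simp [h01, h02]

end Cases

end Cfsg.Agent.Lib.DecompOver
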