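import Cfsg.Agent.Lib.FieldEmbed2
import Cfsg.Agent.Lib.SUBasic

set_option autoImplicit false

namespace Cfsg.Agent.Lib.DihNorm

open Matrix Cfsg Cfsg.Agent.Lib.HermStd Cfsg.Agent.Lib.FieldEmbed Cfsg.Agent.Lib.FieldEmbed2 Cfsg.Agent.Lib.SUBasic

/-- A homomorphism from a dihedral group. -/
def dihHom {M : Type*} [Monoid M] {n : ℕ} (ρ : ZMod n → M) (s : M) (h0 : ρ 0 = 1)
    (hadd : ∀ i j, ρ (i + j) = ρ i * ρ j) (hs : s * s = 1) (hc : ∀ i, ρ i * s = s * ρ (-i)) :
    DihedralGroup n →* M where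
  toFun := fun d => match d with
    | DihedralGroup.r i => ρ i
    | DihedralGroup.sr i => s * ρ i
  map_one' := h0
  map_mul' := by
    rintro (i | i) (j | j)
    · exact hadd i j
    · show s * ρ (j - i) = ρ i * (s * ρ j)
      rw [← mul_assoc, hc, mul_assoc, ← hadd]
      congr 2
      ring
    · show s * ρ (i + j) = s * ρ i * ρ j
      rw [hadd, mul_assoc]
    · show ρ (j - i) = s * ρ i * (s * ρ j)
      rw [mul_assoc, ← mul_assoc (ρ i), hc, mul_assoc, ← hadd, ← mul_assoc, hs, one_mul]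
      congr 1
      ring

variable {F K : Type*} [Field F] [Fintype F] [Field K] [Fintype K] [Algebra F K] {q : ℕ}

/-- The Frobenius of the quadratic extension as a linear map. -/
noncomputable def sL (hF : Fintype.card F = q) (hK : Fintype.card K = q ^ 2) : K →ₗ[F] K where
  toFun x := x ^ q
  map_add' x y := by
    simp only [← sig_apply hK, map_add]
  map_smul' c x := by
    simp only [Algebra.smul_def, RingHom.id_apply, mul_pow, pow_q_alg hF]

omit [Fintype F] [Fintype K] in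
theorem classify_aux {A B : Submodule F K} (h : ∀ x, x ∈ A ∨ x ∈ B) : A = ⊤ ∨ B = ⊤ := by
  by_contra hcon
  push Not at hcon
  obtain ⟨x, hx⟩ : ∃ x, x ∉ A := by
    by_contra h'
    push Not at h'
    exact hcon.1 (Submodule.eq_top_iff'.2 h')
  obtain ⟨y, hy⟩ : ∃ y, y ∉ B := by
    by_contra h'
    push Not at h'
    exact hcon.2 (Submodule.eq_top_iff'.2 h')
  have hxB := (h x).resolve_left hx
  have hyA := (h y).resolve_right hy
  rcases h (x + y) with h1 | h1
  · exact hx ((Submodule.add_mem_iff_left A hyA).1 h1)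
  · exact hy ((Submodule.add_mem_iff_right B hxB).1 h1)

/-- A norm preserving linear map fixing one. -/
theorem classify (hF : Fintype.card F = q) (hK : Fintype.card K = q ^ 2) (T : K →ₗ[F] K)
    (hT : ∀ x, T x * (T x) ^ q = x * x ^ q) (h1 : T 1 = 1) : T = LinearMap.id ∨ T = sL hF hK := by
  have hadd : ∀ x y : K, (x + y) ^ q = x ^ q + y ^ q := fun x y => by
    simp only [← sig_apply hK, map_add]
  have hone : (1 : K) ^ q = 1 := one_pow q
  have key : ∀ x, T x = x ∨ T x = x ^ q := by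
    intro x
    have h2 := hT (x + 1)
    rw [map_add, h1, hadd, hadd, hone] at h2
    have h3 := hT x
    have h4 : (T x - x) * (T x - x ^ q) = 0 := by
      have e : T x + (T x) ^ q = x + x ^ q := by linear_combination h2 - h3
      have e' : (T x) ^ q = x + x ^ q - T x := by linear_combination e
      rw [e'] at h3
      linear_combination -h3
    rcases mul_eq_zero.1 h4 with h5 | h5
    · exact Or.inl (sub_eq_zero.1 h5)
    · exact Or.inr (sub_eq_zero.1 h5)
  let A : Submodule F K := LinearMap.eqLocus T LinearMap.id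
  let B : Submodule F K := LinearMap.eqLocus T (sL hF hK)
  rcases classify_aux (A := A) (B := B) key with h | h
  · left
    ext1 x
    have : x ∈ A := by rw [h]; trivial
    exact this
  · right
    ext1 x
    have : x ∈ B := by rw [h]; trivial
    exact this

/-- A generator of the norm one group. -/
theorem exists_zeta (hK : Fintype.card K = q ^ 2) :
    ∃ ζ : K, ζ ^ (q + 1) = 1 ∧ (∀ n, n < q + 1 → ζ ^ n = 1 → n = 0) ∧ ∀ u : K, u ^ (q + 1) = 1 → ∃ n, n < q + 1 ∧ u = ζ ^ n := by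
  classical
  obtain ⟨g, hg⟩ := IsCyclic.exists_generator (α := NN K q)
  have hord : orderOf g = q + 1 := by
    rw [orderOf_eq_card_of_forall_mem_zpowers hg, card_NN hK]
  obtain ⟨gu, hgu⟩ : ∃ gu : Kˣ, gu = g := ⟨_, rfl⟩
  have hgu1 : (gu : K) ^ (q + 1) = 1 := by
    rw [hgu]
    exact mem_NN.1 g.2
  refine ⟨gu, hgu1, ?_, ?_⟩
  · intro n hn h
    have h1 : g ^ n = 1 := by
      apply Subtype.ext
      apply Units.ext
      show (((g : Kˣ) : K)) ^ n = 1
      rw [← hgu]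
      exact h
    have := orderOf_dvd_of_pow_eq_one h1
    rw [hord] at this
    exact Nat.eq_zero_of_dvd_of_lt this hn
  · intro u hu
    have hu0 : u ≠ 0 := by
      rintro rfl
      simp at hu
    let uu : Kˣ := Units.mk0 u hu0
    have huu : uu ∈ NN K q := mem_NN.2 hu
    obtain ⟨k, hk⟩ := Subgroup.mem_zpowers_iff.1 (hg ⟨uu, huu⟩)
    have hfin : 0 < orderOf g := by rw [hord]; omega
    refine ⟨(k % (orderOf g : ℤ)).toNat, ?_, ?_⟩
    · rw [← hord]
      have h1 := Int.emod_lt_of_pos k (by exact_mod_cast hfin : (0 : ℤ) < orderOf g)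
      have h2 := Int.emod_nonneg k (by exact_mod_cast hfin.ne' : (orderOf g : ℤ) ≠ 0)
      omega
    · have h1 : g ^ (k % (orderOf g : ℤ)).toNat = ⟨uu, huu⟩ := by
        rw [← hk, ← zpow_natCast, Int.toNat_of_nonneg (Int.emod_nonneg k (by exact_mod_cast hfin.ne')), zpow_mod_orderOf]
      have h2 := congrArg (fun z : NN K q => ((z : Kˣ) : K)) h1
      simp only [Subgroup.coe_pow, Units.val_pow_eq_pow_val] at h2
      rw [← hgu] at h2
      exact h2.symm

theorem main (hF : Fintype.card F = q) (hK : Fintype.card K = q ^ 2) (a b : F)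
    (hab : ∀ z₁ z₂ : F, z₁ ^ 2 + a * z₁ * z₂ + b * z₂ ^ 2 = 0 → z₁ = 0 ∧ z₂ = 0) :
    Nonempty (isometryGroup F (quadFormMinus 0 F a b) ≃* DihedralGroup (q + 1)) := by
  classical
  obtain ⟨S, hSi, hS⟩ := exists_norm_block hF hK a b hab
  obtain ⟨ζ, hζ1, hζ2, hζ3⟩ := exists_zeta hK
  haveI : NeZero (q + 1) := ⟨by omega⟩
  have hqq : ∀ x : K, (x ^ q) ^ q = x := fun x => by
    rw [← sig_apply hK, ← sig_apply hK, sig_sig]
  have hz0 : ζ ≠ 0 := by
    rintro rfl
    simp at hζ1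
  have hζq : ∀ n : ℕ, (ζ ^ n) ^ q * ζ ^ n = 1 := by
    intro n
    rw [← pow_mul, ← pow_add, mul_comm n q, ← add_one_mul, pow_mul, hζ1, one_pow]
  -- the representation
  let ρ : ZMod (q + 1) → (K →ₗ[F] K) := fun i => LinearMap.mulLeft F (ζ ^ i.val)
  have hρ : ∀ i x, ρ i x = ζ ^ i.val * x := fun _ _ => rfl
  have hpadd : ∀ i j : ZMod (q + 1), ζ ^ (i + j).val = ζ ^ i.val * ζ ^ j.val := by
    intro i j
    rw [ZMod.val_add, ← pow_eq_pow_mod _ hζ1, pow_add]
  have hρadd : ∀ i j, ρ (i + j) = ρ i * ρ j := by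
    intro i j
    ext1 x
    show ζ ^ (i + j).val * x = ζ ^ i.val * (ζ ^ j.val * x)
    rw [hpadd, mul_assoc]
  have hρ0 : ρ 0 = 1 := by
    ext1 x
    show ζ ^ (0 : ZMod (q + 1)).val * x = x
    rw [ZMod.val_zero, pow_zero, one_mul]
  have hpneg : ∀ i : ZMod (q + 1), ζ ^ (-i).val * ζ ^ i.val = 1 := by
    intro i
    rw [← hpadd, neg_add_cancel, ZMod.val_zero, pow_zero]
  have hpq : ∀ i : ZMod (q + 1), (ζ ^ (-i).val) ^ q = ζ ^ i.val := by
    intro i
    have h1 := hζq (-i).val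
    have h2 := hpneg i
    calc (ζ ^ (-i).val) ^ q = (ζ ^ (-i).val) ^ q * (ζ ^ (-i).val * ζ ^ i.val) := by rw [h2, mul_one]
      _ = ((ζ ^ (-i).val) ^ q * ζ ^ (-i).val) * ζ ^ i.val := by ring
      _ = ζ ^ i.val := by rw [h1, one_mul]
  let s : K →ₗ[F] K := sL hF hK
  have hs : ∀ x, s x = x ^ q := fun _ => rfl
  have hss : s * s = 1 := by
    ext1 x
    show (x ^ q) ^ q = x
    exact hqq x
  have hc : ∀ i, ρ i * s = s * ρ (-i) := by
    intro i
    ext1 x
    show ζ ^ i.val * x ^ q = (ζ ^ (-i).val * x) ^ q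
    rw [mul_pow, hpq]
  let f : DihedralGroup (q + 1) →* (K →ₗ[F] K) := dihHom ρ s hρ0 hρadd hss hc
  have hfr : ∀ i, f (DihedralGroup.r i) = ρ i := fun _ => rfl
  have hfs : ∀ i, f (DihedralGroup.sr i) = s * ρ i := fun _ => rfl
  have hNρ : ∀ i x, (ρ i x) * (ρ i x) ^ q = x * x ^ q := by
    intro i x
    rw [hρ, mul_pow]
    have := hζq i.val
    calc ζ ^ i.val * x * ((ζ ^ i.val) ^ q * x ^ q) = ((ζ ^ i.val) ^ q * ζ ^ i.val) * (x * x ^ q) := by ring
      _ = x * x ^ q := by rw [this, one_mul]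
  have hNs : ∀ x, (s x) * (s x) ^ q = x * x ^ q := by
    intro x
    rw [hs, hqq, mul_comm]
  have hfN : ∀ d x, (f d x) * (f d x) ^ q = x * x ^ q := by
    rintro (i | i) x
    · rw [hfr, hNρ]
    · rw [hfs]
      show (s (ρ i x)) * (s (ρ i x)) ^ q = _
      rw [hNs, hNρ]
  -- injectivity
  have hpinj : ∀ m n : ℕ, m < q + 1 → n < q + 1 → ζ ^ m = ζ ^ n → m = n := by
    have aux : ∀ m n : ℕ, m ≤ n → n < q + 1 → ζ ^ m = ζ ^ n → m = n := by
      intro m n hmn hn h
      obtain ⟨d, rfl⟩ := Nat.exists_eq_add_of_le hmn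
      rw [pow_add] at h
      have h1 : ζ ^ d = 1 := by
        have h2 : ζ ^ m * ζ ^ d = ζ ^ m * 1 := by rw [← h, mul_one]
        exact mul_left_cancel₀ (pow_ne_zero _ hz0) h2
      have := hζ2 d (by omega) h1
      omega
    intro m n hm hn h
    rcases le_total m n with h1 | h1
    · exact aux m n h1 hn h
    · exact (aux n m h1 hm h.symm).symm
  have hρinj : ∀ i j, ρ i = ρ j → i = j := by
    intro i j h
    have h1 := congrArg (fun L : K →ₗ[F] K => L 1) h
    simp only [hρ, mul_one] at h1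
    exact ZMod.val_injective _ (hpinj _ _ (ZMod.val_lt i) (ZMod.val_lt j) h1)
  have hne : ∀ i j, ρ i ≠ s * ρ j := by
    intro i j h
    have h1 : ∀ x, ζ ^ i.val * x = (ζ ^ j.val * x) ^ q := fun x => congrArg (fun L : K →ₗ[F] K => L x) h
    have h2 := h1 1
    simp only [mul_one] at h2
    apply sig_ne hK
    ext x
    have h3 := h1 x
    rw [mul_pow, ← h2] at h3
    exact (mul_left_cancel₀ (pow_ne_zero _ hz0) h3).symm
  have hfinj : Function.Injective f := by
    rintro (i | i) (j | j) h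
    · rw [hfr, hfr] at h
      rw [hρinj i j h]
    · rw [hfr, hfs] at h
      exact absurd h (hne i j)
    · rw [hfs, hfr] at h
      exact absurd h.symm (hne j i)
    · rw [hfs, hfs] at h
      have h1 : s * (s * ρ i) = s * (s * ρ j) := by rw [h]
      rw [← mul_assoc, ← mul_assoc, hss, one_mul, one_mul] at h1
      rw [hρinj i j h1]
  -- coordinates
  let W : ((Fin 0 ⊕ Fin 0) ⊕ Fin 2 → F) →ₗ[F] K :=
    S ∘ₗ (LinearMap.funLeft F F (Sum.inr : Fin 2 → (Fin 0 ⊕ Fin 0) ⊕ Fin 2))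
  have hW : ∀ u, W u = S (fun t => u (Sum.inr t)) := fun _ => rfl
  have hWinj : Function.Injective W := by
    rw [injective_iff_map_eq_zero]
    intro u hu
    rw [hW] at hu
    have h1 : (fun t => u (Sum.inr t)) = 0 := by
      apply hSi
      rw [hu, map_zero]
    ext i
    rcases i with (i | i) | i
    · exact i.elim0
    · exact i.elim0
    · exact congrFun h1 i
  have hdim : Module.finrank F ((Fin 0 ⊕ Fin 0) ⊕ Fin 2 → F) = Module.finrank F K := by
    rw [finrank_two hF hK]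
    simp
  let e₀ := LinearMap.linearEquivOfInjective W hWinj hdim
  let e : K ≃ₗ[F] ((Fin 0 ⊕ Fin 0) ⊕ Fin 2 → F) := e₀.symm
  have he : ∀ x, algebraMap F K (quadFormMinus 0 F a b (e x)) = x * x ^ q := by
    intro x
    obtain ⟨u, rfl⟩ := e₀.surjective x
    have h1 : e (e₀ u) = u := e₀.symm_apply_apply u
    rw [h1]
    have h2 : e₀ u = W u := rfl
    rw [h2, hW, hS]
    congr 1
    simp [quadFormMinus]
  obtain ⟨ψ, hψinj, hψ⟩ := exists_gl e f hfinj
  have hmem : ∀ d, ψ d ∈ isometryGroup F (quadFormMinus 0 F a b) := by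
    intro d y _
    obtain ⟨x, rfl⟩ := e.surjective y
    show quadFormMinus 0 F a b (((ψ d : Matrix.GeneralLinearGroup ((Fin 0 ⊕ Fin 0) ⊕ Fin 2) F) : Matrix ((Fin 0 ⊕ Fin 0) ⊕ Fin 2) ((Fin 0 ⊕ Fin 0) ⊕ Fin 2) F) *ᵥ (e x)) = quadFormMinus 0 F a b (e x)
    rw [hψ]
    apply (algebraMap F K).injective
    rw [he, he, hfN]
  let φ : DihedralGroup (q + 1) →* ↥(isometryGroup F (quadFormMinus 0 F a b)) := ψ.codRestrict _ hmem
  have hφinj : Function.Injective φ := by
    intro c d h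
    apply hψinj
    exact congrArg Subtype.val h
  have hφsurj : Function.Surjective φ := by
    rintro ⟨g, hg⟩
    let T : K →ₗ[F] K := e.symm.toLinearMap ∘ₗ ((Matrix.mulVecLin (g : Matrix ((Fin 0 ⊕ Fin 0) ⊕ Fin 2) ((Fin 0 ⊕ Fin 0) ⊕ Fin 2) F))) ∘ₗ e.toLinearMap
    have hTe : ∀ x, e (T x) = (g : Matrix ((Fin 0 ⊕ Fin 0) ⊕ Fin 2) ((Fin 0 ⊕ Fin 0) ⊕ Fin 2) F) *ᵥ (e x) := by
      intro x
      show e (e.symm _) = _
      rw [LinearEquiv.apply_symm_apply]
      rfl
    have hTN : ∀ x, T x * (T x) ^ q = x * x ^ q := by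
      intro x
      rw [← he, ← he, hTe]
      congr 1
      exact hg (e x) (e x)
    suffices hsuff : ∃ d, T = f d by
      obtain ⟨d, hd⟩ := hsuff
      refine ⟨d, ?_⟩
      apply Subtype.ext
      apply Units.ext
      apply Matrix.mulVec_injective
      funext y
      obtain ⟨x, rfl⟩ := e.surjective y
      show ((ψ d : Matrix.GeneralLinearGroup ((Fin 0 ⊕ Fin 0) ⊕ Fin 2) F) : Matrix ((Fin 0 ⊕ Fin 0) ⊕ Fin 2) ((Fin 0 ⊕ Fin 0) ⊕ Fin 2) F) *ᵥ (e x) = (g : Matrix ((Fin 0 ⊕ Fin 0) ⊕ Fin 2) ((Fin 0 ⊕ Fin 0) ⊕ Fin 2) F) *ᵥ (e x)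
      rw [hψ, ← hd, hTe]
    have h1 : (T 1) ^ (q + 1) = 1 := by
      have := hTN 1
      rw [one_pow, one_mul, ← pow_succ'] at this
      exact this
    obtain ⟨n, hn, hu⟩ := hζ3 _ h1
    let i : ZMod (q + 1) := n
    have hi : i.val = n := ZMod.val_cast_of_lt hn
    have hT1 : T 1 = ζ ^ i.val := by rw [hi, hu]
    have hρρ : ρ i * ρ (-i) = 1 := by
      rw [← hρadd, add_neg_cancel, hρ0]
    let T' : K →ₗ[F] K := ρ (-i) * T
    have hT'1 : T' 1 = 1 := by
      show ζ ^ (-i).val * T 1 = 1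
      rw [hT1, hpneg]
    have hT'N : ∀ x, T' x * (T' x) ^ q = x * x ^ q := by
      intro x
      show (ρ (-i) (T x)) * (ρ (-i) (T x)) ^ q = _
      rw [hNρ, hTN]
    have hTT : T = ρ i * T' := by
      show T = ρ i * (ρ (-i) * T)
      rw [← mul_assoc, hρρ, one_mul]
    rcases classify hF hK T' hT'N hT'1 with h | h
    · refine ⟨DihedralGroup.r i, ?_⟩
      rw [hTT, h, hfr]
      exact mul_one _
    · refine ⟨DihedralGroup.sr (-i), ?_⟩
      rw [hTT, h, hfs]
      exact hc i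
  exact ⟨(MulEquiv.ofBijective φ ⟨hφinj, hφsurj⟩).symm⟩

end Cfsg.Agent.Lib.DihNorm
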