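import Cfsg.Agent.Lib.OrthBasis
import Cfsg.Agent.Lib.OrthWitt
import Cfsg.Agent.Lib.OrthClass
import Cfsg.Agent.S2562

set_option autoImplicit false

namespace Cfsg.Agent.Lib.F2Form

open Cfsg Cfsg.Geo Cfsg.Agent.Lib.OrthE Cfsg.Agent.Lib.OrthOmega Cfsg.Agent.Lib.OrthStd2

variable {m : ℕ}

local notation "VV" => (Fin m ⊕ Fin m → ZMod 2)
local notation "Q0" => Cfsg.quadFormPlus m (ZMod 2)
local notation "ff" => QuadraticMap.polar (Cfsg.quadFormPlus m (ZMod 2))

/-- The relation "polarises to the form of `Q0`". -/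
def Rel (q : (Fin m ⊕ Fin m → ZMod 2) → ZMod 2) : Prop :=
  ∀ u v : (Fin m ⊕ Fin m → ZMod 2), q (u + v) = q u + q v +
    (Cfsg.quadFormPlus m (ZMod 2) (u + v) - Cfsg.quadFormPlus m (ZMod 2) u - Cfsg.quadFormPlus m (ZMod 2) v)

theorem hP : IsNondegenerateQuadraticForm (Cfsg.quadFormPlus m (ZMod 2)) := quadFormPlus_nondeg

theorem rel_iff {q : (Fin m ⊕ Fin m → ZMod 2) → ZMod 2} :
    Rel q ↔ ∀ u v, q (u + v) = q u + q v + ff u v := Iff.rfl

theorem rel_shift {q : (Fin m ⊕ Fin m → ZMod 2) → ZMod 2} (hq : Rel q) (w : VV) :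
    ∀ u v : VV, q (u + v) + ff (u + v) w = (q u + ff u w) + (q v + ff v w) + ff u v := by
  intro u v
  rw [rel_iff.1 hq u v, B_add_left hP]
  ring

/-- The additive character of `ZMod 2`. -/
def psi (a : ZMod 2) : ℤ := if a = 0 then 1 else -1

theorem psi_add : ∀ a b : ZMod 2, psi (a + b) = psi a * psi b := by decide
theorem psi_zero : psi 0 = 1 := rfl
theorem psi_mul_self : ∀ a : ZMod 2, psi a * psi a = 1 := by decide
theorem psi_ne : ∀ a : ZMod 2, a ≠ 0 → psi a = -1 := by decide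

theorem card_VV : Fintype.card VV = 2 ^ (2 * m) := by
  simp only [Fintype.card_fun, Fintype.card_sum, Fintype.card_fin, ZMod.card]
  rw [two_mul]

theorem char_sum (t : VV) : ∑ v : VV, psi (ff v t) = if t = 0 then (2 : ℤ) ^ (2 * m) else 0 := by
  split_ifs with ht
  · subst ht
    simp only [B_zero_right hP, psi_zero, Finset.sum_const, Finset.card_univ, card_VV]
    simp
  · obtain ⟨v₀, hv₀⟩ := (hP.nondegenerate t ht).1
    have h1 : ∑ v : VV, psi (ff (v + v₀) t) = ∑ v : VV, psi (ff v t) :=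
      Equiv.sum_comp (Equiv.addRight v₀) (fun v => psi (ff v t))
    have h2 : ∑ v : VV, psi (ff (v + v₀) t) = - ∑ v : VV, psi (ff v t) := by
      rw [← Finset.sum_neg_distrib]
      refine Finset.sum_congr rfl fun v _ => ?_
      rw [B_add_left hP, psi_add, psi_ne _ hv₀]
      ring
    linarith

variable {q : (Fin m ⊕ Fin m → ZMod 2) → ZMod 2}

theorem q_zero (hq : Rel q) : q 0 = 0 := by
  have h := hq 0 0
  simp only [add_zero] at h
  have h2 : Q0 (0 : VV) - Q0 0 - Q0 0 = 0 := by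
    have : Q0 (0 : VV) = 0 := Q_zero hP
    rw [this]
    ring
  rw [h2, add_zero] at h
  have h3 : q 0 + q 0 = 0 := CharTwo.add_self_eq_zero _
  rw [h3] at h
  exact h

/-- The Gauss sum. -/
def SS (q : (Fin m ⊕ Fin m → ZMod 2) → ZMod 2) : ℤ := ∑ v, psi (q v)

theorem gauss_sq (hq : Rel q) : SS q * SS q = (2 : ℤ) ^ (2 * m) := by
  unfold SS
  rw [Finset.sum_mul_sum]
  have h1 : ∀ v : VV, ∑ u, psi (q v) * psi (q u) = ∑ t, psi (q t) * psi (ff t v) := by
    intro v
    rw [← Equiv.sum_comp (Equiv.addLeft v)]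
    refine Finset.sum_congr rfl fun t _ => ?_
    simp only [Equiv.coe_addLeft]
    rw [rel_iff.1 hq v t, psi_add, psi_add]
    have h3 : ff v t = ff t v := B_comm hP v t
    rw [h3]
    have := psi_mul_self (q v)
    linear_combination (psi (q t) * psi (ff t v)) * this
  simp only [h1]
  rw [Finset.sum_comm]
  have h2 : ∀ t : VV, ∑ v : VV, psi (q t) * psi (ff t v) = psi (q t) * if t = 0 then (2 : ℤ) ^ (2 * m) else 0 := by
    intro t
    rw [← char_sum t, Finset.mul_sum]
    refine Finset.sum_congr rfl fun v _ => ?_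
    rw [B_comm hP]
  simp only [h2]
  rw [Finset.sum_eq_single 0]
  · simp [q_zero hq, psi_zero]
  · intro t _ ht
    simp [ht]
  · simp

theorem gauss_shift (hq : Rel q) (w : VV) : SS q = psi (q w) * SS (fun v => q v + ff v w) := by
  unfold SS
  rw [← Equiv.sum_comp (Equiv.addRight w), Finset.mul_sum]
  refine Finset.sum_congr rfl fun v _ => ?_
  simp only [Equiv.coe_addRight]
  rw [rel_iff.1 hq v w, psi_add, psi_add, psi_add]
  ring

theorem SS_ne (hq : Rel q) : SS q ≠ 0 := by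
  intro h
  have := gauss_sq hq
  rw [h, mul_zero] at this
  exact absurd this.symm (by positivity)

/-- The transvection. -/
noncomputable def tv (w : VV) : VV ≃ₗ[ZMod 2] VV :=
  LinearEquiv.ofInvolutive
    { toFun := fun v => v + ff v w • w
      map_add' := by
        intro x y
        rw [B_add_left hP, add_smul]
        abel
      map_smul' := by
        intro c x
        rw [B_smul_left hP, RingHom.id_apply, smul_add, smul_smul] } (by
    intro v
    show (v + ff v w • w) + ff (v + ff v w • w) w • w = v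
    rw [B_add_left hP, B_smul_left hP, B_self hP]
    have h2 : (2 : ZMod 2) = 0 := rfl
    rw [h2, zero_mul, mul_zero, add_zero, add_assoc, ← add_smul, CharTwo.add_self_eq_zero, zero_smul, add_zero])

theorem tv_apply (w v : VV) : tv w v = v + ff v w • w := rfl

/-- The criterion of type preservation. -/
theorem iso_iff (hq : Rel q) (w : VV) :
    (∃ g : VV ≃ₗ[ZMod 2] VV, ∀ v, q v + ff v w = q (g v)) ↔ q w = 0 := by
  constructor
  · rintro ⟨g, hg⟩
    have h1 : SS (fun v => q v + ff v w) = SS q := by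
      unfold SS
      simp only [hg]
      exact Equiv.sum_comp g.toEquiv (fun v => psi (q v))
    have h2 := gauss_shift hq w
    rw [h1] at h2
    by_contra hne
    rw [psi_ne _ hne] at h2
    have := SS_ne hq
    omega
  · intro hw
    refine ⟨tv w, fun v => ?_⟩
    rw [tv_apply]
    rcases (show ∀ c : ZMod 2, c = 0 ∨ c = 1 by decide) (ff v w) with h | h
    · rw [h, zero_smul, add_zero, add_zero]
    · rw [h, one_smul, rel_iff.1 hq v w, hw, h]
      ring

/-- The shifted function. -/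
def sh (w : VV) : (Fin m ⊕ Fin m → ZMod 2) → ZMod 2 := fun v => Q0 v + ff v w

theorem sh_rel (w : VV) : Rel (sh w) := by
  intro u v
  have h0 : Rel (Q0 : (Fin m ⊕ Fin m → ZMod 2) → ZMod 2) := by
    intro u v
    show Q0 (u + v) = Q0 u + Q0 v + (Q0 (u + v) - Q0 u - Q0 v)
    ring
  exact rel_shift h0 w u v

/-- Every function polarising to `Q0` is a shift of `Q0`. -/
theorem exists_sh (hq : Rel q) : ∃ w : VV, q = sh w := by
  classical
  let φ : Module.Dual (ZMod 2) VV :=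
    { toFun := fun v => q v - Q0 v
      map_add' := by
        intro x y
        show q (x + y) - Q0 (x + y) = (q x - Q0 x) + (q y - Q0 y)
        rw [rel_iff.1 hq x y]
        have e : ff x y = Q0 (x + y) - Q0 x - Q0 y := rfl
        rw [e]
        ring
      map_smul' := by
        intro c x
        rcases (show ∀ c : ZMod 2, c = 0 ∨ c = 1 by decide) c with rfl | rfl
        · simp only [zero_smul, RingHom.id_apply]
          have h1 : Q0 (0 : VV) = 0 := Q_zero hP
          rw [q_zero hq, h1]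
          ring
        · simp }
  have hnd := polB_nondeg (hP (m := m))
  let w := (LinearMap.BilinForm.toDual (polB (hP (m := m))) hnd).symm φ
  refine ⟨w, ?_⟩
  ext v
  have h1 : polB (hP (m := m)) w v = φ v := by
    have := LinearMap.BilinForm.apply_toDual_symm_apply (B := polB (hP (m := m))) (hB := hnd) φ v
    exact this
  have h2 : polB (hP (m := m)) w v = ff v w := by
    show ff w v = ff v w
    exact B_comm hP w v
  have h3 : φ v = q v - Q0 v := rfl
  show q v = Q0 v + ff v w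
  rw [← h2, h1, h3]
  ring

theorem sh_inj : Function.Injective (sh : VV → _) := by
  intro w w' h
  have h1 : ∀ v, ff v w = ff v w' := by
    intro v
    have := congrFun h v
    simp only [sh] at this
    exact add_left_cancel this
  have h2 : w - w' = 0 := by
    apply B_nondeg hP
    intro y
    rw [B_sub_right hP, h1 y, sub_self]
  exact sub_eq_zero.1 h2

/-- The set of functions polarising to `Q0` is in bijection with the space. -/
noncomputable def relEquiv : {q : (Fin m ⊕ Fin m → ZMod 2) → ZMod 2 // Rel q} ≃ VV :=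
  (Equiv.ofBijective (fun w : VV => (⟨sh w, sh_rel w⟩ : {q : (Fin m ⊕ Fin m → ZMod 2) → ZMod 2 // Rel q}))
    ⟨fun _ _ h => sh_inj (congrArg Subtype.val h), fun ⟨_, hq⟩ => by
      obtain ⟨w, rfl⟩ := exists_sh hq
      exact ⟨w, rfl⟩⟩).symm

theorem Q0_rel : Rel (Q0 : (Fin m ⊕ Fin m → ZMod 2) → ZMod 2) := by
  intro u v
  show Q0 (u + v) = Q0 u + Q0 v + (Q0 (u + v) - Q0 u - Q0 v)
  ring

theorem rel_nondeg (hq : Rel q) : IsNondegenerateQuadraticForm q := by
  have hpol : QuadraticMap.polar q = ff := by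
    funext u v
    show q (u + v) - q u - q v = ff u v
    rw [rel_iff.1 hq u v]
    ring
  refine ⟨?_, ?_, ?_⟩
  · intro c v
    rcases (show ∀ c : ZMod 2, c = 0 ∨ c = 1 by decide) c with rfl | rfl
    · rw [zero_smul, q_zero hq]
      ring
    · rw [one_smul]
      ring
  · rw [hpol]
    exact hP.polar_bilinear
  · rw [hpol]
    exact hP.nondegenerate

/-- Every function polarising to the plus form is of plus or minus type. -/
theorem classify (hm : 1 ≤ m) (hq : Rel q) :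
    (∃ g : VV ≃ₗ[ZMod 2] VV, ∀ v, q v = Q0 (g v)) ∨
    (∃ g : VV ≃ₗ[ZMod 2] ((Fin (m - 1) ⊕ Fin (m - 1)) ⊕ Fin 2 → ZMod 2),
      ∀ v, q v = Cfsg.quadFormMinus (m - 1) (ZMod 2) 1 1 (g v)) := by
  have hN := rel_nondeg hq
  obtain ⟨Q', rfl, -⟩ := Cfsg.Agent.Lib.OrthSpin2.exists_form hN
  rcases Cfsg.Agent.Lib.OrthBasis.even_basis hN hm (by simp; ring) with
    ⟨b, h1, h2, h3⟩ | ⟨b, ζ, h0, h1, h2, h3, h4, h5, h6, h7⟩
  · left
    obtain ⟨g, hg⟩ := Cfsg.Agent.Lib.OrthBasis.iso_plus Q' b h1 h2 h3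
    exact ⟨g, fun v => (hg v).symm⟩
  · right
    have hζ : ζ = 1 := by
      have : ∀ ζ : ZMod 2, (∀ t : ZMod 2, t ^ 2 + t + ζ ≠ 0) → ζ = 1 := by decide
      exact this ζ h0
    subst hζ
    have hab : ∀ z₁ z₂ : ZMod 2, z₁ ^ 2 + 1 * z₁ * z₂ + 1 * z₂ ^ 2 = 0 → z₁ = 0 ∧ z₂ = 0 := by decide
    obtain ⟨g, hg⟩ := Cfsg.Agent.Lib.OrthBasis.iso_minus Q' 1 hab b h1 h2 h3 h4 h5 h6 h7
    exact ⟨g, fun v => (hg v).symm⟩

/-- Plus and minus forms are not isometric. -/
theorem not_plus_minus (hm : 1 ≤ m)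
    (h : VV ≃ₗ[ZMod 2] ((Fin (m - 1) ⊕ Fin (m - 1)) ⊕ Fin 2 → ZMod 2))
    (hh : ∀ v, Q0 v = Cfsg.quadFormMinus (m - 1) (ZMod 2) 1 1 (h v)) : False := by
  have h1 := (Cfsg.Agent.S2562.result m hm).2.2.2 ((Cfsg.Agent.Lib.OrthClass.U0 (ZMod 2) m).map h.toLinearMap) (by
    rintro _ ⟨x, hx, rfl⟩
    show Cfsg.quadFormMinus (m - 1) (ZMod 2) 1 1 (h x) = 0
    rw [← hh]
    exact Cfsg.Agent.Lib.OrthClass.ts_U0 x hx)
  rw [LinearEquiv.finrank_map_eq, Cfsg.Agent.Lib.OrthClass.finrank_U0] at h1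
  omega

/-! ### Counting -/

theorem SS_Q0 : SS (Q0 : (Fin m ⊕ Fin m → ZMod 2) → ZMod 2) = (2 : ℤ) ^ m := by
  classical
  unfold SS
  let e := Equiv.sumArrowEquivProdArrow (Fin m) (Fin m) (ZMod 2)
  rw [← Equiv.sum_comp e.symm, Fintype.sum_prod_type]
  have h1 : ∀ x : Fin m → ZMod 2, ∑ y : Fin m → ZMod 2, psi (Q0 (e.symm (x, y))) =
      if x = 0 then (2 : ℤ) ^ m else 0 := by
    intro x
    have hval : ∀ y, Q0 (e.symm (x, y)) = ∑ i, x i * y i := fun y => rfl
    split_ifs with hx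
    · subst hx
      simp only [hval]
      simp [psi_zero, Fintype.card_fun]
    · obtain ⟨i, hi⟩ := Function.ne_iff.1 hx
      have h3 : ∑ y : Fin m → ZMod 2, psi (Q0 (e.symm (x, y + Pi.single i 1))) =
          ∑ y : Fin m → ZMod 2, psi (Q0 (e.symm (x, y))) :=
        Equiv.sum_comp (Equiv.addRight (Pi.single i 1)) (fun y => psi (Q0 (e.symm (x, y))))
      have h4 : ∑ y : Fin m → ZMod 2, psi (Q0 (e.symm (x, y + Pi.single i 1))) =
          - ∑ y : Fin m → ZMod 2, psi (Q0 (e.symm (x, y))) := by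
        rw [← Finset.sum_neg_distrib]
        refine Finset.sum_congr rfl fun y _ => ?_
        rw [hval, hval]
        have h5 : ∑ j, x j * (y + (Pi.single i 1 : Fin m → ZMod 2)) j = ∑ j, x j * y j + x i := by
          simp only [Pi.add_apply, mul_add, Finset.sum_add_distrib]
          congr 1
          simp [Pi.single_apply]
        rw [h5, psi_add, psi_ne _ hi]
        ring
      linarith
  simp only [h1]
  rw [Finset.sum_eq_single 0]
  · simp
  · intro x _ hx
    simp [hx]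
  · simp

/-- The number of singular vectors. -/
theorem card_sing (hm : 1 ≤ m) :
    Nat.card {w : VV // Q0 w = 0} = 2 ^ (2 * m - 1) + 2 ^ (m - 1) := by
  classical
  rw [Nat.card_eq_fintype_card, Fintype.card_subtype]
  set A := Finset.univ.filter (fun w : VV => Q0 w = 0) with hA
  have h1 : (∑ v : VV, psi (Q0 v)) = (A.card : ℤ) - ((2 : ℤ) ^ (2 * m) - A.card) := by
    have hsplit := Finset.sum_filter_add_sum_filter_not (Finset.univ : Finset VV) (fun w => Q0 w = 0) (fun v => psi (Q0 v))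
    rw [← hsplit]
    have h3 : ∑ v ∈ Finset.univ.filter (fun w : VV => Q0 w = 0), psi (Q0 v) = A.card := by
      rw [Finset.sum_congr rfl (g := fun _ => (1 : ℤ))]
      · simp [hA]
      · intro v hv
        rw [(Finset.mem_filter.1 hv).2]
        exact psi_zero
    have h4 : ∑ v ∈ Finset.univ.filter (fun w : VV => ¬ Q0 w = 0), psi (Q0 v) = -(((2 : ℤ) ^ (2 * m)) - A.card) := by
      rw [Finset.sum_congr rfl (g := fun _ => (-1 : ℤ))]
      · have h5 := Finset.card_filter_add_card_filter_not (s := (Finset.univ : Finset VV)) (fun w => Q0 w = 0)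
        rw [Finset.card_univ, card_VV] at h5
        rw [Finset.sum_const]
        simp only [smul_neg, nsmul_eq_mul, mul_one]
        have h6 : ((Finset.univ.filter (fun w : VV => ¬ Q0 w = 0)).card : ℤ) = (2 : ℤ) ^ (2 * m) - A.card := by
          rw [eq_sub_iff_add_eq, add_comm]
          exact_mod_cast h5
        rw [h6]
      · intro v hv
        exact psi_ne _ (Finset.mem_filter.1 hv).2
    rw [h3, h4]
    ring
  have h2 : (∑ v : VV, psi (Q0 v)) = (2 : ℤ) ^ m := SS_Q0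
  rw [h2] at h1
  obtain ⟨k, rfl⟩ : ∃ k, m = k + 1 := ⟨m - 1, by omega⟩
  have e1 : 2 * (k + 1) - 1 = 2 * k + 1 := by omega
  simp only [Nat.add_sub_cancel]
  rw [e1]
  have h3 : (A.card : ℤ) = 2 ^ (2 * k + 1) + 2 ^ k := by
    have e2 : (2 : ℤ) ^ (2 * (k + 1)) = 2 * 2 ^ (2 * k + 1) := by ring
    have e3 : (2 : ℤ) ^ (k + 1) = 2 * 2 ^ k := by ring
    rw [e2, e3] at h1
    linarith
  exact_mod_cast h3

theorem card_nonsing (hm : 1 ≤ m) :
    Nat.card {w : VV // ¬ Q0 w = 0} = 2 ^ (2 * m - 1) - 2 ^ (m - 1) := by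
  classical
  have h1 := card_sing (m := m) hm
  rw [Nat.card_eq_fintype_card] at h1 ⊢
  rw [Fintype.card_subtype_compl, h1, card_VV]
  obtain ⟨k, rfl⟩ : ∃ k, m = k + 1 := ⟨m - 1, by omega⟩
  have e1 : 2 * (k + 1) - 1 = 2 * k + 1 := by omega
  simp only [Nat.add_sub_cancel]
  rw [e1]
  have e2 : 2 ^ (2 * (k + 1)) = 2 * 2 ^ (2 * k + 1) := by ring
  rw [e2]
  omega

/-- Functions of plus type. -/
theorem card_plus (hm : 1 ≤ m) :
    Nat.card {q : (Fin m ⊕ Fin m → ZMod 2) → ZMod 2 // Rel q ∧ ∃ g : VV ≃ₗ[ZMod 2] VV, ∀ v, q v = Q0 (g v)} =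
      2 ^ (2 * m - 1) + 2 ^ (m - 1) := by
  rw [← card_sing hm]
  symm
  refine Nat.card_congr (Equiv.ofBijective (fun w => ⟨sh w.1, sh_rel w.1, (iso_iff Q0_rel w.1).2 w.2⟩) ⟨?_, ?_⟩)
  · intro x y h
    exact Subtype.ext (sh_inj (congrArg Subtype.val h))
  · rintro ⟨q, hq, hg⟩
    obtain ⟨w, rfl⟩ := exists_sh hq
    exact ⟨⟨w, (iso_iff Q0_rel w).1 hg⟩, rfl⟩

/-- Functions of minus type. -/
theorem card_minus (hm : 1 ≤ m) :
    Nat.card {q : (Fin m ⊕ Fin m → ZMod 2) → ZMod 2 // Rel q ∧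
      ∃ g : VV ≃ₗ[ZMod 2] ((Fin (m - 1) ⊕ Fin (m - 1)) ⊕ Fin 2 → ZMod 2),
        ∀ v, q v = Cfsg.quadFormMinus (m - 1) (ZMod 2) 1 1 (g v)} =
      2 ^ (2 * m - 1) - 2 ^ (m - 1) := by
  rw [← card_nonsing hm]
  symm
  have hback : ∀ w : VV, ¬ Q0 w = 0 → ∃ g : VV ≃ₗ[ZMod 2] ((Fin (m - 1) ⊕ Fin (m - 1)) ⊕ Fin 2 → ZMod 2),
        ∀ v, sh w v = Cfsg.quadFormMinus (m - 1) (ZMod 2) 1 1 (g v) := by
    intro w hw
    rcases classify hm (sh_rel w) with h | h
    · exact absurd ((iso_iff Q0_rel w).1 h) hw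
    · exact h
  refine Nat.card_congr (Equiv.ofBijective (fun w => ⟨sh w.1, sh_rel w.1, hback w.1 w.2⟩) ⟨?_, ?_⟩)
  · intro x y h
    exact Subtype.ext (sh_inj (congrArg Subtype.val h))
  · rintro ⟨q, hq, g, hg⟩
    obtain ⟨w, rfl⟩ := exists_sh hq
    refine ⟨⟨w, fun hw => ?_⟩, rfl⟩
    obtain ⟨g₁, hg₁⟩ := (iso_iff Q0_rel w).2 hw
    refine not_plus_minus hm (g₁.symm.trans g) (fun v => ?_)
    have h1 := hg₁ (g₁.symm v)
    rw [LinearEquiv.apply_symm_apply] at h1
    rw [← h1]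
    exact hg _

end Cfsg.Agent.Lib.F2Form
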