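import Mathlib
import Cfsg.Agent.Lib.PGrp2

set_option autoImplicit false

/-! Burnside basis theorem: free action of automorphisms on generating tuples. -/

namespace Cfsg.Agent.Lib.FGSAut

variable {P : Type*} [Group P] [Finite P]

/-- Automorphisms act freely on generating tuples. -/
theorem card_dvd_of_free {r : ℕ} (A : Subgroup (MulAut P)) (Ω : Set (Fin r → P))
    (hΩ : ∀ t ∈ Ω, Subgroup.closure (Set.range t) = ⊤)
    (hinv : ∀ α ∈ A, ∀ t ∈ Ω, (fun i => α (t i)) ∈ Ω) :
    Nat.card A ∣ Nat.card Ω := by
  classical
  letI act : MulAction A Ω :=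
    { smul := fun α t => ⟨fun i => α.1 (t.1 i), hinv α.1 α.2 t.1 t.2⟩
      one_smul := fun t => by
        apply Subtype.ext
        rfl
      mul_smul := fun α β t => by
        apply Subtype.ext
        rfl }
  have hstab : ∀ b : Ω, MulAction.stabilizer A b = ⊥ := by
    intro b
    rw [eq_bot_iff]
    intro α hα
    rw [MulAction.mem_stabilizer_iff] at hα
    have h1 : ∀ i, α.1 (b.1 i) = b.1 i := by
      intro i
      have := congrArg Subtype.val hα
      exact congrFun this i
    have h2 : Subgroup.closure (Set.range b.1) ≤ (α.1.toMonoidHom).eqLocus (MonoidHom.id P) := by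
      rw [Subgroup.closure_le]
      rintro _ ⟨i, rfl⟩
      exact h1 i
    rw [hΩ b.1 b.2, top_le_iff] at h2
    rw [Subgroup.mem_bot]
    apply Subtype.ext
    ext x
    have : x ∈ (α.1.toMonoidHom).eqLocus (MonoidHom.id P) := by rw [h2]; trivial
    exact this
  have hc := Nat.card_congr (MulAction.selfEquivOrbitsQuotientProd hstab)
  rw [Nat.card_prod] at hc
  rw [hc]
  exact dvd_mul_left _ _

variable {p r : ℕ} [Fact p.Prime] {E : Type*} [CommGroup E] [Finite E]
  [Module (ZMod p) (Additive E)]

theorem closure_iff_span (π : P →* E) (hsurj : Function.Surjective π) (hker : π.ker = frattini P)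
    (t : Fin r → P) :
    Subgroup.closure (Set.range t) = ⊤ ↔
      Submodule.span (ZMod p) (Set.range fun i => Additive.ofMul (π (t i))) = ⊤ := by
  constructor
  · intro h
    rw [eq_top_iff]
    intro v _
    obtain ⟨y, hy⟩ := hsurj (Additive.toMul v)
    have hv : v = Additive.ofMul (π y) := by rw [hy]; rfl
    rw [hv]
    have hkey : ∀ y ∈ Subgroup.closure (Set.range t),
        Additive.ofMul (π y) ∈ Submodule.span (ZMod p) (Set.range fun i => Additive.ofMul (π (t i))) := by
      intro y hy'
      induction hy' using Subgroup.closure_induction with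
      | mem x hx =>
        obtain ⟨i, rfl⟩ := hx
        exact Submodule.subset_span ⟨i, rfl⟩
      | one =>
        rw [map_one]
        exact Submodule.zero_mem _
      | mul a b _ _ ha hb =>
        rw [map_mul, ofMul_mul]
        exact Submodule.add_mem _ ha hb
      | inv a _ ha =>
        rw [map_inv, ofMul_inv]
        exact Submodule.neg_mem _ ha
    exact hkey y (by rw [h]; trivial)
  · intro h
    set L := Subgroup.closure (Set.range t) with hL
    have hkey : ∀ v ∈ Submodule.span (ZMod p) (Set.range fun i => Additive.ofMul (π (t i))),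
        ∃ l ∈ L, Additive.ofMul (π l) = v := by
      intro v hv
      induction hv using Submodule.span_induction with
      | mem x hx =>
        obtain ⟨i, rfl⟩ := hx
        exact ⟨t i, Subgroup.subset_closure ⟨i, rfl⟩, rfl⟩
      | zero => exact ⟨1, L.one_mem, by simp⟩
      | add a b _ _ ha hb =>
        obtain ⟨l₁, h₁, rfl⟩ := ha
        obtain ⟨l₂, h₂, rfl⟩ := hb
        exact ⟨l₁ * l₂, L.mul_mem h₁ h₂, by simp⟩
      | smul c a _ ha =>
        obtain ⟨l, hl, rfl⟩ := ha
        refine ⟨l ^ c.val, L.pow_mem hl _, ?_⟩
        rw [map_pow, ofMul_pow]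
        rw [← Nat.cast_smul_eq_nsmul (ZMod p), ZMod.natCast_zmod_val]
    have hsup : L ⊔ frattini P = ⊤ := by
      rw [eq_top_iff]
      intro y _
      obtain ⟨l, hl, hly⟩ := hkey (Additive.ofMul (π y)) (by rw [h]; trivial)
      have h1 : π l = π y := hly
      have h2 : l⁻¹ * y ∈ frattini P := by
        rw [← hker, MonoidHom.mem_ker, map_mul, map_inv, h1]
        simp
      have h3 : y = l * (l⁻¹ * y) := by group
      rw [h3]
      exact Subgroup.mul_mem_sup hl h2
    exact frattini_nongenerating hsup

theorem finrank_eq (hcard : Nat.card E = p ^ r) : Module.finrank (ZMod p) (Additive E) = r := by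
  letI : Fintype (Additive E) := Fintype.ofFinite _
  have h := Module.card_eq_pow_finrank (K := ZMod p) (V := Additive E)
  rw [ZMod.card, ← Nat.card_eq_fintype_card] at h
  have h2 : Nat.card (Additive E) = Nat.card E := rfl
  rw [h2, hcard] at h
  exact (Nat.pow_right_injective (Fact.out : p.Prime).two_le h).symm

theorem closure_iff_li (hcard : Nat.card E = p ^ r) (π : P →* E) (hsurj : Function.Surjective π)
    (hker : π.ker = frattini P) (t : Fin r → P) :
    Subgroup.closure (Set.range t) = ⊤ ↔ LinearIndependent (ZMod p) (fun i => Additive.ofMul (π (t i))) := by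
  rw [closure_iff_span (p := p) π hsurj hker t]
  have hf := finrank_eq (p := p) (E := E) hcard
  haveI : Module.Finite (ZMod p) (Additive E) := Module.Finite.of_finite
  constructor
  · intro h
    apply linearIndependent_of_top_le_span_of_card_eq_finrank h.ge
    simp [hf]
  · intro h
    apply LinearIndependent.span_eq_top_of_card_eq_finrank' h
    simp [hf]

/-- Count of generating `r`-tuples. -/
theorem card_generating (hcard : Nat.card E = p ^ r) (π : P →* E) (hsurj : Function.Surjective π)
    (hker : π.ker = frattini P) :
    Nat.card {t : Fin r → P // Subgroup.closure (Set.range t) = ⊤} =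
      (∏ i : Fin r, (p ^ r - p ^ (i : ℕ))) * Nat.card (frattini P) ^ r := by
  classical
  have hf := finrank_eq (p := p) (E := E) hcard
  have hli := card_linearIndependent (K := ZMod p) (V := Additive E) (k := r) (by rw [hf])
  rw [ZMod.card, hf] at hli
  let σ : Additive E → P := fun v => Function.surjInv hsurj (Additive.toMul v)
  have hσ : ∀ v, π (σ v) = Additive.toMul v := fun v => Function.surjInv_eq hsurj _
  have hker' : ∀ a b : P, π a = π b → a * b⁻¹ ∈ frattini P := by
    intro a b h
    rw [← hker, MonoidHom.mem_ker, map_mul, map_inv, h]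
    simp
  have hfr : ∀ f : frattini P, π (f : P) = 1 := by
    intro f
    have : (f : P) ∈ π.ker := by rw [hker]; exact f.2
    exact this
  let e : {t : Fin r → P // Subgroup.closure (Set.range t) = ⊤} ≃
      ({s : Fin r → Additive E // LinearIndependent (ZMod p) s} × (Fin r → frattini P)) :=
    { toFun := fun t => (⟨fun i => Additive.ofMul (π (t.1 i)),
          (closure_iff_li hcard π hsurj hker t.1).mp t.2⟩,
        fun i => ⟨t.1 i * (σ (Additive.ofMul (π (t.1 i))))⁻¹, hker' _ _ (by rw [hσ]; rfl)⟩)
      invFun := fun q => ⟨fun i => (q.2 i : P) * σ (q.1.1 i), by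
        rw [closure_iff_li hcard π hsurj hker]
        have : (fun i => Additive.ofMul (π ((q.2 i : P) * σ (q.1.1 i)))) = q.1.1 := by
          funext i
          rw [map_mul, hfr, hσ, one_mul]
          rfl
        rw [this]
        exact q.1.2⟩
      left_inv := by
        intro t
        apply Subtype.ext
        funext i
        simp
      right_inv := by
        intro q
        have h1 : ∀ i, π ((q.2 i : P) * σ (q.1.1 i)) = Additive.toMul (q.1.1 i) := by
          intro i
          rw [map_mul, hfr, hσ, one_mul]
        apply Prod.ext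
        · apply Subtype.ext
          funext i
          simp only [h1]
          rfl
        · funext i
          apply Subtype.ext
          simp only [h1]
          have : Additive.ofMul (Additive.toMul (q.1.1 i)) = q.1.1 i := rfl
          rw [this]
          group }
  rw [Nat.card_congr e, Nat.card_prod, hli, Nat.card_fun, Nat.card_fin]

/-- There are generators lifting a basis: count in cosets of the Frattini subgroup. -/
theorem exists_tuple (hcard : Nat.card E = p ^ r) (π : P →* E) (hsurj : Function.Surjective π)
    (hker : π.ker = frattini P) :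
    ∃ x : Fin r → P, Subgroup.closure (Set.range x) = ⊤ := by
  classical
  have hf := finrank_eq (p := p) (E := E) hcard
  haveI : Module.Finite (ZMod p) (Additive E) := Module.Finite.of_finite
  let b := Module.finBasisOfFinrankEq (ZMod p) (Additive E) hf
  let σ : Additive E → P := fun v => Function.surjInv hsurj (Additive.toMul v)
  have hσ : ∀ v, π (σ v) = Additive.toMul v := fun v => Function.surjInv_eq hsurj _
  refine ⟨fun i => σ (b i), ?_⟩
  rw [closure_iff_span (p := p) π hsurj hker]
  have : (fun i => Additive.ofMul (π (σ (b i)))) = b := by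
    funext i
    rw [hσ]
    rfl
  rw [this]
  exact b.span_eq

theorem exists_lift_generators (hcard : Nat.card E = p ^ r) (π : P →* E) (hsurj : Function.Surjective π)
    (hker : π.ker = frattini P) :
    ∃ x : Fin r → P, ∀ t : Fin r → P, (∀ i, π (t i) = π (x i)) → Subgroup.closure (Set.range t) = ⊤ := by
  classical
  have hf := finrank_eq (p := p) (E := E) hcard
  haveI : Module.Finite (ZMod p) (Additive E) := Module.Finite.of_finite
  let b := Module.finBasisOfFinrankEq (ZMod p) (Additive E) hf
  let σ : Additive E → P := fun v => Function.surjInv hsurj (Additive.toMul v)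
  have hσ : ∀ v, π (σ v) = Additive.toMul v := fun v => Function.surjInv_eq hsurj _
  refine ⟨fun i => σ (b i), ?_⟩
  intro t ht
  rw [closure_iff_span (p := p) π hsurj hker]
  have : (fun i => Additive.ofMul (π (t i))) = b := by
    funext i
    rw [ht, hσ]
    rfl
  rw [this]
  exact b.span_eq

theorem le_card_of_closure (hcard : Nat.card E = p ^ r) (π : P →* E) (hsurj : Function.Surjective π)
    (S : Finset P) (hS : Subgroup.closure (S : Set P) = ⊤) : r ≤ S.card := by
  classical
  have hf := finrank_eq (p := p) (E := E) hcard
  let f : P → Additive E := fun x => Additive.ofMul (π x)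
  have hspan : Submodule.span (ZMod p) ((S.image f : Finset _) : Set (Additive E)) = ⊤ := by
    rw [eq_top_iff]
    intro v _
    obtain ⟨y, hy⟩ := hsurj (Additive.toMul v)
    have hv : v = f y := by show v = Additive.ofMul (π y); rw [hy]; rfl
    rw [hv]
    have hkey : ∀ y ∈ Subgroup.closure (S : Set P),
        f y ∈ Submodule.span (ZMod p) ((S.image f : Finset _) : Set (Additive E)) := by
      intro y hy'
      induction hy' using Subgroup.closure_induction with
      | mem x hx =>
        exact Submodule.subset_span (by simpa using ⟨x, hx, rfl⟩)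
      | one =>
        simp only [f, map_one]
        exact Submodule.zero_mem _
      | mul a b _ _ ha hb =>
        simp only [f, map_mul, ofMul_mul] at ha hb ⊢
        exact Submodule.add_mem _ ha hb
      | inv a _ ha =>
        simp only [f, map_inv, ofMul_inv] at ha ⊢
        exact Submodule.neg_mem _ ha
    exact hkey y (by rw [hS]; trivial)
  haveI : Module.Finite (ZMod p) (Additive E) := Module.Finite.of_finite
  have h1 := finrank_span_finset_le_card (R := ZMod p) (S.image f)
  rw [Set.finrank, hspan, finrank_top, hf] at h1
  exact h1.trans Finset.card_image_le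

/-- The quotient by Frattini as a commutative group with a module structure: package. -/
theorem frattini_card {n : ℕ} (hP : Nat.card P = p ^ n) (hr : (frattini P).index = p ^ r) :
    Nat.card (frattini P) = p ^ (n - r) := by
  have h := (frattini P).card_mul_index
  rw [hP, hr] at h
  have hp : 0 < p := (Fact.out : p.Prime).pos
  have hle : r ≤ n := by
    have : p ^ r ∣ p ^ n := ⟨_, by rw [← h, mul_comm]⟩
    exact (Nat.pow_dvd_pow_iff_le_right (Fact.out : p.Prime).one_lt).mp this
  have h2 : p ^ n = p ^ (n - r) * p ^ r := by
    rw [← pow_add, Nat.sub_add_cancel hle]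
  rw [h2] at h
  exact Nat.eq_of_mul_eq_mul_right (pow_pos hp r) h

/-- A `p`-group with Frattini index `p ^ r` needs at least `r` generators. -/
theorem le_rank_of_index {n : ℕ} (hP : Nat.card P = p ^ n) (hr : (frattini P).index = p ^ r)
    (S : Finset P) (hS : Subgroup.closure (S : Set P) = ⊤) : r ≤ S.card := by
  classical
  have hpG : IsPGroup p P := IsPGroup.of_card hP
  have hcomm : ∀ a b : P ⧸ frattini P, a * b = b * a := by
    intro a b
    obtain ⟨x, rfl⟩ := QuotientGroup.mk_surjective a
    obtain ⟨y, rfl⟩ := QuotientGroup.mk_surjective b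
    rw [← QuotientGroup.mk_mul, ← QuotientGroup.mk_mul, QuotientGroup.eq]
    have h1 := Cfsg.Agent.Lib.PGrp.commutator_le_frattini hpG
    have h2 : y⁻¹ * x⁻¹ * y⁻¹⁻¹ * x⁻¹⁻¹ ∈ commutator P := by
      have := Subgroup.commutator_mem_commutator (Subgroup.mem_top y⁻¹) (Subgroup.mem_top x⁻¹)
      simpa [commutatorElement_def, commutator_def] using this
    have h3 := h1 h2
    have h4 : (x * y)⁻¹ * (y * x) = y⁻¹ * x⁻¹ * y⁻¹⁻¹ * x⁻¹⁻¹ := by
      group
    rwa [h4]
  letI iC : CommGroup (P ⧸ frattini P) :=
    { (inferInstance : Group (P ⧸ frattini P)) with mul_comm := hcomm }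
  have hpow : ∀ x : Additive (P ⧸ frattini P), p • x = 0 := by
    intro a
    obtain ⟨x, hx⟩ := QuotientGroup.mk_surjective (Additive.toMul a)
    have h1 := Cfsg.Agent.Lib.PGrp.pow_mem_frattini hpG x
    have h2 : ((x ^ p : P) : P ⧸ frattini P) = 1 := (QuotientGroup.eq_one_iff _).mpr h1
    have h3 : a = Additive.ofMul (x : P ⧸ frattini P) := by rw [hx]; rfl
    rw [h3, ← ofMul_pow]
    rw [QuotientGroup.mk_pow] at h2
    exact congrArg Additive.ofMul h2
  letI iM : Module (ZMod p) (Additive (P ⧸ frattini P)) := AddCommGroup.zmodModule hpow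
  let π : P →* (P ⧸ frattini P) := QuotientGroup.mk' (frattini P)
  have hsurj : Function.Surjective π := QuotientGroup.mk'_surjective _
  have hcard : Nat.card (P ⧸ frattini P) = p ^ r := hr
  exact le_card_of_closure (p := p) hcard π hsurj S hS

end Cfsg.Agent.Lib.FGSAut
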