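import Cfsg.Agent.Lib.FSRoots
import Cfsg.Agent.Lib.H4Cod
import Cfsg.Agent.Lib.InvolSylow

/-! A character of full `2`-defect zero controlling the involutions. -/

set_option autoImplicit false

namespace Cfsg.Agent.Lib.FS4478

open Cfsg Cfsg.Agent.Lib Cfsg.Agent.Lib.BlockOku Cfsg.Agent.Lib.IrrBasic Cfsg.Agent.Lib.FSRoots
open Cfsg.Agent.Lib.CharBasic Cfsg.Agent.Lib.CharOrth Cfsg.Agent.Lib.CharAlg
open scoped ComplexConjugate

universe u

variable {G : Type u} [Group G] [Fintype G]

theorem vanish (χ : IrrCharacter G) {p : ℕ} (hp : p.Prime)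
    (h : p ^ (Nat.card G).factorization p ∣ charDegree χ.1) {g : G} (hg : p ∣ orderOf g) : χ.1 g = 0 := by
  apply H4Cod.val_eq_zero_of_not_dvd hp χ _ hg
  intro hd
  obtain ⟨k, hk⟩ := BlockNorm.charDegree_dvd_card χ
  have hpos : 0 < charDegree χ.1 := Nat.pos_of_ne_zero (charDegree_ne_zero' χ)
  rw [hk, Nat.mul_div_cancel_left _ hpos] at hd
  obtain ⟨k', hk'⟩ := hd
  obtain ⟨w, hw⟩ := h
  apply Nat.pow_succ_factorization_not_dvd (n := Nat.card G) Nat.card_pos.ne' hp
  refine ⟨w * k', ?_⟩
  conv_lhs => rw [hk, hw, hk']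
  ring

theorem card_sq_eq (T : ℕ) (hT : Nat.card {s : G // s * s = 1} = T)
    (t : ℕ) (ht : Nat.card {x : G // orderOf x = 2} = t) : T = 1 + t := by
  classical
  rw [← hT, ← ht, Nat.card_eq_fintype_card, Nat.card_eq_fintype_card, Fintype.card_subtype,
    Fintype.card_subtype]
  have : (Finset.univ.filter fun s : G => s * s = 1) =
      insert 1 (Finset.univ.filter fun s : G => orderOf s = 2) := by
    ext s
    simp only [Finset.mem_filter, Finset.mem_univ, true_and, Finset.mem_insert]
    constructor
    · intro h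
      by_cases h1 : s = 1
      · exact Or.inl h1
      · right
        exact orderOf_eq_prime (by rw [pow_two]; exact h) h1
    · rintro (rfl | h)
      · simp
      · have := pow_orderOf_eq_one s
        rw [h, pow_two] at this
        exact this
  rw [this, Finset.card_insert_of_notMem, add_comm]
  simp

/-- An odd-order centralizer: square roots are unique. -/
theorem card_root_eq_one (g : G) (hg : Odd (orderOf g))
    (hC : Odd (Nat.card (Subgroup.centralizer ({g} : Set G)))) :
    Nat.card {u : G // u * u = g} = 1 := by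
  classical
  obtain ⟨m, hm⟩ := hg
  have hex : (g ^ (m + 1)) * (g ^ (m + 1)) = g := by
    rw [← pow_add]
    have h1 : m + 1 + (m + 1) = orderOf g + 1 := by omega
    rw [h1, pow_succ, pow_orderOf_eq_one, one_mul]
  rw [Nat.card_eq_one_iff_unique]
  refine ⟨⟨?_⟩, ⟨⟨_, hex⟩⟩⟩
  rintro ⟨a, ha⟩ ⟨b, hb⟩
  apply Subtype.ext
  show a = b
  set C := Subgroup.centralizer ({g} : Set G) with hCdef
  have haC : a ∈ C := by
    rw [hCdef, Subgroup.mem_centralizer_singleton_iff, ← ha, mul_assoc]
  have hbC : b ∈ C := by
    rw [hCdef, Subgroup.mem_centralizer_singleton_iff, ← hb, mul_assoc]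
  have hcop : (Nat.card C).Coprime 2 := Nat.coprime_two_right.mpr hC
  let e := powCoprime hcop
  have h2 : e ⟨a, haC⟩ = e ⟨b, hbC⟩ := by
    apply Subtype.ext
    show a ^ 2 = b ^ 2
    rw [sq, sq, ha, hb]
  have h3 := e.injective h2
  exact congrArg Subtype.val h3

/-- The order of a centralizer of an involution divides the degree. -/
theorem card_centralizer_dvd (χ : IrrCharacter G)
    (h2 : 2 ^ (Nat.card G).factorization 2 ∣ charDegree χ.1)
    (hp : ∀ p : ℕ, p.Prime → p ≠ 2 → (∃ g : G, orderOf g = 2 * p) →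
      p ^ (Nat.card G).factorization p ∣ charDegree χ.1) (s : G) (hs : orderOf s = 2) :
    Nat.card (Subgroup.centralizer ({s} : Set G)) ∣ charDegree χ.1 ∧
      ∀ p : ℕ, p.Prime → p ∣ Nat.card (Subgroup.centralizer ({s} : Set G)) →
        p ^ (Nat.card G).factorization p ∣ charDegree χ.1 := by
  classical
  set C := Subgroup.centralizer ({s} : Set G) with hC
  have hall : ∀ p : ℕ, p.Prime → p ∣ Nat.card C →
      p ^ (Nat.card G).factorization p ∣ charDegree χ.1 := by
    intro p hpp hd
    by_cases hp2 : p = 2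
    · subst hp2
      exact h2
    · apply hp p hpp hp2
      haveI : Fact p.Prime := ⟨hpp⟩
      obtain ⟨h, hh⟩ := exists_prime_orderOf_dvd_card' p hd
      refine ⟨s * (h : G), ?_⟩
      have hcomm : Commute s (h : G) := by
        have := Subgroup.mem_centralizer_singleton_iff.mp h.2
        exact this.symm
      have hh' : orderOf (h : G) = p := by rw [Subgroup.orderOf_coe]; exact hh
      rw [hcomm.orderOf_mul_eq_mul_orderOf_of_coprime (by
        rw [hs, hh']
        exact (Nat.coprime_primes Nat.prime_two hpp).mpr (Ne.symm hp2)), hs, hh']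
  refine ⟨?_, hall⟩
  have hposC : Nat.card C ≠ 0 := Nat.card_pos.ne'
  have hposx : charDegree χ.1 ≠ 0 := charDegree_ne_zero' χ
  rw [← Nat.factorization_prime_le_iff_dvd hposC hposx]
  intro p hpp
  by_cases hd : p ∣ Nat.card C
  · have h1 := hall p hpp hd
    have h3 := (hpp.pow_dvd_iff_le_factorization hposx).mp h1
    have h4 : (Nat.card C).factorization p ≤ (Nat.card G).factorization p :=
      (Nat.factorization_le_iff_dvd hposC Nat.card_pos.ne').mpr (Subgroup.card_subgroup_dvd_card C) p
    exact h4.trans h3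
  · rw [Nat.factorization_eq_zero_of_not_dvd hd]
    exact Nat.zero_le _

theorem s4478 (heven : Even (Nat.card G)) (χ : IrrCharacter G)
    (h2 : 2 ^ (Nat.card G).factorization 2 ∣ charDegree χ.1)
    (hp : ∀ p : ℕ, p.Prime → p ≠ 2 → (∃ g : G, orderOf g = 2 * p) →
      p ^ (Nat.card G).factorization p ∣ charDegree χ.1) :
    (∀ s t : G, orderOf s = 2 → orderOf t = 2 → IsConj s t) ∧
    (∀ s : G, orderOf s = 2 → Nat.card (Subgroup.centralizer ({s} : Set G)) = charDegree χ.1 ∧
      (Nat.card (Subgroup.centralizer ({s} : Set G))).Coprime (Subgroup.centralizer ({s} : Set G)).index) ∧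
    (Nat.card G : ℂ)⁻¹ * ∑ g : G, χ.1 (g * g) = 1 := by
  classical
  haveI : Fact (Nat.Prime 2) := ⟨Nat.prime_two⟩
  set x := charDegree χ.1 with hx
  have hx0 : x ≠ 0 := charDegree_ne_zero' χ
  have hval1 : χ.1 1 = (x : ℂ) := val_one_eq_charDegree χ
  have hGpos : 0 < Nat.card G := Nat.card_pos
  have h2dvd : 2 ∣ Nat.card G := heven.two_dvd
  -- `x` is even, so `χ` is not trivial
  have hxeven : 2 ∣ x := by
    have h3 : 1 ≤ (Nat.card G).factorization 2 :=
      (Nat.Prime.dvd_iff_one_le_factorization Nat.prime_two hGpos.ne').mp h2dvd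
    exact (dvd_pow_self 2 (by omega)).trans h2
  -- the values: vanish off a nice set
  have hnice : ∀ g : G, g ≠ 1 → χ.1 g ≠ 0 → Nat.card {u : G // u * u = g} = 1 := by
    intro g hg hne
    have hodd : Odd (orderOf g) := by
      rw [← Nat.not_even_iff_odd, even_iff_two_dvd]
      intro h
      exact hne (vanish χ Nat.prime_two h2 h)
    apply card_root_eq_one g hodd
    rw [← Nat.not_even_iff_odd, even_iff_two_dvd]
    intro hd
    obtain ⟨s, hs⟩ := exists_prime_orderOf_dvd_card' 2 hd
    obtain ⟨q, hq, hqd⟩ := Nat.exists_prime_and_dvd (orderOf_eq_one_iff.not.mpr hg)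
    have hq2 : q ≠ 2 := by
      rintro rfl
      exact (Nat.not_even_iff_odd.mpr hodd) (even_iff_two_dvd.mpr hqd)
    have hord : orderOf (g ^ (orderOf g / q)) = q := orderOf_pow_orderOf_div (orderOf_pos g).ne' hqd
    have hcomm : Commute (s : G) (g ^ (orderOf g / q)) := by
      apply Commute.pow_right
      exact (Subgroup.mem_centralizer_singleton_iff.mp s.2)
    have hs' : orderOf (s : G) = 2 := by rw [Subgroup.orderOf_coe]; exact hs
    have h3 := hp q hq hq2 ⟨(s : G) * g ^ (orderOf g / q), by
      rw [hcomm.orderOf_mul_eq_mul_orderOf_of_coprime (by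
        rw [hs', hord]
        exact (Nat.coprime_primes Nat.prime_two hq).mpr (Ne.symm hq2)), hs', hord]⟩
    exact hne (vanish χ hq h3 hqd)
  -- the sum
  set T := Nat.card {s : G // s * s = 1} with hT
  have hroots : ∀ g : G, (Nat.card {u : G // u * u = g} : ℂ) = ∑ u : G, if u * u = g then (1 : ℂ) else 0 := by
    intro g
    rw [Finset.sum_boole, Nat.card_eq_fintype_card, Fintype.card_subtype]
  have hsum1 : ∑ u : G, χ.1 (u * u) = ∑ g : G, (Nat.card {u : G // u * u = g} : ℂ) * χ.1 g := by
    simp only [hroots, Finset.sum_mul]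
    rw [Finset.sum_comm]
    refine Finset.sum_congr rfl fun u _ => ?_
    rw [Finset.sum_eq_single (u * u)]
    · simp
    · intro b _ hb
      rw [if_neg (Ne.symm hb), zero_mul]
    · intro h'
      exact absurd (Finset.mem_univ _) h'
  have hχne : (BlockMain4.oneIrr G) ≠ χ := by
    intro h
    have h3 : χ.1 1 = 1 := by rw [← h]; rfl
    rw [hval1] at h3
    have h4 : x = 1 := by exact_mod_cast h3
    rw [h4] at hxeven
    omega
  have hsum0 : ∑ g : G, χ.1 g = 0 := by
    have h3 := IrrBasic.classInner_irr χ (BlockMain4.oneIrr G)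
    rw [if_neg (Ne.symm hχne)] at h3
    have hne : (Nat.card G : ℂ) ≠ 0 := by exact_mod_cast hGpos.ne'
    simp only [classInner] at h3
    have h4 : ∀ g, (BlockMain4.oneIrr G).1 g = 1 := fun g => rfl
    simp only [h4, map_one, mul_one] at h3
    exact (mul_eq_zero.mp h3).resolve_left (inv_ne_zero hne)
  have hsum2 : ∑ u : G, χ.1 (u * u) = ((T : ℂ) - 1) * (x : ℂ) := by
    rw [hsum1]
    have h3 : ∑ g : G, (Nat.card {u : G // u * u = g} : ℂ) * χ.1 g =
        ∑ g : G, ((if g = 1 then ((T : ℂ) - 1) * (x : ℂ) else 0) + χ.1 g) := by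
      refine Finset.sum_congr rfl fun g _ => ?_
      by_cases hg : g = 1
      · subst hg
        rw [if_pos rfl, hval1]
        ring
      · rw [if_neg hg, zero_add]
        by_cases h0 : χ.1 g = 0
        · rw [h0, mul_zero]
        · rw [hnice g hg h0]
          simp
    rw [h3, Finset.sum_add_distrib, hsum0, add_zero]
    simp
  -- involutions
  obtain ⟨s₀, hs₀⟩ := exists_prime_orderOf_dvd_card' 2 h2dvd
  set t := Nat.card {s : G // orderOf s = 2} with ht
  have hTt : T = 1 + t := card_sq_eq T rfl t rfl
  haveI : Nonempty {s : G // orderOf s = 2} := ⟨⟨s₀, hs₀⟩⟩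
  have htpos : 0 < t := Nat.card_pos
  -- the indicator
  have hnuval : nu χ * (Nat.card G : ℂ) = ((t * x : ℕ) : ℂ) := by
    have hne : (Nat.card G : ℂ) ≠ 0 := by exact_mod_cast hGpos.ne'
    simp only [nu]
    rw [hsum2, hTt]
    push_cast
    field_simp
    ring
  have hnu1 : nu χ = 1 := by
    rcases (nu_values χ).1 with h | h | h
    · exfalso
      rw [h, zero_mul] at hnuval
      have : t * x = 0 := by exact_mod_cast hnuval.symm
      rcases Nat.mul_eq_zero.mp this with h' | h'
      · omega
      · exact hx0 h'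
    · exact h
    · exfalso
      rw [h] at hnuval
      have h3 := congrArg Complex.re hnuval
      simp only [neg_mul, one_mul, Complex.neg_re, Complex.natCast_re] at h3
      have h4 : (0 : ℝ) < Nat.card G := by exact_mod_cast hGpos
      have h5 : (0 : ℝ) ≤ ((t * x : ℕ) : ℝ) := Nat.cast_nonneg _
      linarith
  have hcardG : t * x = Nat.card G := by
    rw [hnu1, one_mul] at hnuval
    exact_mod_cast hnuval.symm
  -- the class of an involution
  have hcl : ∀ s : G, orderOf s = 2 → Nat.card {y : G // IsConj s y} = t ∧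
      Nat.card (Subgroup.centralizer ({s} : Set G)) = x := by
    intro s hs
    have h3 := InvolSylow.orbit_conj_card s
    have h4 : Nat.card {y : G // IsConj s y} ≤ t := by
      rw [ht]
      apply Nat.card_le_card_of_injective (fun y : {y : G // IsConj s y} =>
        (⟨y.1, by
          obtain ⟨g, hg⟩ := isConj_iff.mp y.2
          rw [← hg]
          have := orderOf_injective (MulAut.conj g).toMonoidHom (MulAut.conj g).injective s
          rw [hs] at this
          simpa using this⟩ : {s : G // orderOf s = 2}))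
      intro a b hab
      apply Subtype.ext
      exact congrArg (fun c : {s : G // orderOf s = 2} => c.1) hab
    have h5 : Nat.card (Subgroup.centralizer ({s} : Set G)) ≤ x :=
      Nat.le_of_dvd (Nat.pos_of_ne_zero hx0) (card_centralizer_dvd χ h2 hp s hs).1
    rw [← hcardG] at h3
    have hCpos : 0 < Nat.card (Subgroup.centralizer ({s} : Set G)) := Nat.card_pos
    have hxpos : 0 < x := Nat.pos_of_ne_zero hx0
    constructor
    · by_contra hne
      have h6 : Nat.card {y : G // IsConj s y} < t := lt_of_le_of_ne h4 hne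
      have h7 : Nat.card {y : G // IsConj s y} * Nat.card (Subgroup.centralizer ({s} : Set G)) < t * x := by
        calc _ ≤ Nat.card {y : G // IsConj s y} * x := Nat.mul_le_mul_left _ h5
          _ < t * x := Nat.mul_lt_mul_of_pos_right h6 hxpos
      omega
    · by_contra hne
      have h6 : Nat.card (Subgroup.centralizer ({s} : Set G)) < x := lt_of_le_of_ne h5 hne
      have hclpos : 0 < Nat.card {y : G // IsConj s y} := by
        haveI : Nonempty {y : G // IsConj s y} := ⟨⟨s, IsConj.refl s⟩⟩
        exact Nat.card_pos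
      have h7 : Nat.card {y : G // IsConj s y} * Nat.card (Subgroup.centralizer ({s} : Set G)) < t * x := by
        calc _ < Nat.card {y : G // IsConj s y} * x := Nat.mul_lt_mul_of_pos_left h6 hclpos
          _ ≤ t * x := Nat.mul_le_mul_right _ h4
      omega
  refine ⟨?_, ?_, hnu1⟩
  · intro s r hs hr
    -- the class of `s` is everything
    let f : {y : G // IsConj s y} → {s : G // orderOf s = 2} := fun y => ⟨y.1, by
      obtain ⟨g, hg⟩ := isConj_iff.mp y.2
      rw [← hg]
      have := orderOf_injective (MulAut.conj g).toMonoidHom (MulAut.conj g).injective s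
      rw [hs] at this
      simpa using this⟩
    have hinj : Function.Injective f := by
      intro a b hab
      apply Subtype.ext
      exact congrArg (fun c : {s : G // orderOf s = 2} => c.1) hab
    have hsurj : Function.Surjective f := by
      apply (Nat.bijective_iff_injective_and_card f).mpr ⟨hinj, ?_⟩ |>.2
      exact (hcl s hs).1
    obtain ⟨y, hy⟩ := hsurj ⟨r, hr⟩
    have : y.1 = r := congrArg (fun c : {s : G // orderOf s = 2} => c.1) hy
    rw [← this]
    exact y.2
  · intro s hs
    have h3 := (hcl s hs).2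
    refine ⟨h3, ?_⟩
    apply Nat.coprime_of_dvd
    intro p hpp hd1 hd2
    have h4 : p ^ (Nat.card G).factorization p ∣ x := (card_centralizer_dvd χ h2 hp s hs).2 p hpp hd1
    rw [← h3] at h4
    have h5 := Subgroup.card_mul_index (Subgroup.centralizer ({s} : Set G))
    apply Nat.pow_succ_factorization_not_dvd (n := Nat.card G) hGpos.ne' hpp
    rw [pow_succ]
    conv_rhs => rw [← h5]
    exact Nat.mul_dvd_mul h4 hd2

end Cfsg.Agent.Lib.FS4478
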