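import Cfsg.Agent.Lib.PermChain4
import Cfsg.Prelude.Def_SporadicB
/-!
Classes of 3-transpositions from stabiliser chains, and central double covers.
-/
set_option autoImplicit false
set_option linter.unusedSimpArgs false
set_option linter.unusedVariables false
set_option linter.style.haveILetI false

namespace Cfsg.Agent.Lib.FischerKit
open Cfsg Cfsg.Agent.Lib.PChain Cfsg.Agent.Lib.PermChain Cfsg.Agent.Lib.PermChain2 Cfsg.Agent.Lib.PermChain3

section abstract_class
variable {G X : Type*} [Group G] [Finite G] [MulAction G X] [MulAction.IsPretransitive G X] [FaithfulSMul G X]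

theorem centralizer_eq_stab (x₀ : X) (hS : IsCoatom (MulAction.stabilizer G x₀)) (t : G) (ht1 : t ≠ 1)
    (htm : t ∈ MulAction.stabilizer G x₀)
    (htS : ∀ s ∈ MulAction.stabilizer G x₀, s * t = t * s) :
    Subgroup.centralizer ({t} : Set G) = MulAction.stabilizer G x₀ := by
  have hle : MulAction.stabilizer G x₀ ≤ Subgroup.centralizer ({t} : Set G) := by
    intro s hs
    rw [Subgroup.mem_centralizer_iff]
    intro y hy
    rw [Set.mem_singleton_iff.mp hy]
    exact (htS s hs).symm
  have hne : Subgroup.centralizer ({t} : Set G) ≠ ⊤ := by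
    intro htop
    apply ht1
    apply FaithfulSMul.eq_of_smul_eq_smul (α := X)
    intro y
    obtain ⟨g, rfl⟩ := MulAction.exists_smul_eq G x₀ y
    rw [one_smul]
    have hg : g ∈ Subgroup.centralizer ({t} : Set G) := by rw [htop]; trivial
    have h1 := Subgroup.mem_centralizer_iff.mp hg t (Set.mem_singleton t)
    have htx : t • x₀ = x₀ := htm
    rw [smul_smul, h1, mul_smul, htx]
  rcases hle.lt_or_eq with h | h
  · exact absurd (hS.2 _ h) hne
  · exact h.symm

/-- the class of an involution of a primitive group which is central in the point stabiliser -/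
theorem class_of_coatom [IsSimpleGroup G] (x₀ : X) (hS : IsCoatom (MulAction.stabilizer G x₀)) (t : G)
    (ht : orderOf t = 2) (htm : t ∈ MulAction.stabilizer G x₀)
    (htS : ∀ s ∈ MulAction.stabilizer G x₀, s * t = t * s)
    (h3 : ∀ g : G, (t * (g * t * g⁻¹)) ^ 2 = 1 ∨ (t * (g * t * g⁻¹)) ^ 3 = 1) :
    IsThreeTranspositionClass (conjugatesOf t) ∧ Nat.card (conjugatesOf t) = Nat.card X := by
  classical
  have ht1 : t ≠ 1 := by
    rintro rfl
    rw [orderOf_one] at ht
    omega
  have hC := centralizer_eq_stab x₀ hS t ht1 htm htS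
  have hmem : ∀ {d : G}, d ∈ conjugatesOf t → ∃ a, a * t * a⁻¹ = d := fun {d} h => isConj_iff.1 h
  refine ⟨⟨⟨?_, ?_⟩, ⟨t, IsConj.refl t, rfl⟩, ?_⟩, ?_⟩
  · intro d hd
    obtain ⟨a, rfl⟩ := hmem hd
    have hs : SemiconjBy a t (a * t * a⁻¹) := by
      show a * t = a * t * a⁻¹ * a
      group
    rw [← hs.orderOf_eq, ht]
  · intro d hd e he
    obtain ⟨a, rfl⟩ := hmem hd
    obtain ⟨b, rfl⟩ := hmem he
    have key : (a * t * a⁻¹) * (b * t * b⁻¹) = a * (t * ((a⁻¹ * b) * t * (a⁻¹ * b)⁻¹)) * a⁻¹ := by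
      group
    rw [key, conj_pow, conj_pow]
    rcases h3 (a⁻¹ * b) with h | h
    · left
      rw [h]
      group
    · right
      rw [h]
      group
  · -- generation
    have h1 : (Subgroup.normalClosure ({t} : Set G)) = Subgroup.closure (conjugatesOf t) := by
      unfold Subgroup.normalClosure
      congr 1
      simp [Group.conjugatesOfSet]
    rw [← h1]
    rcases IsSimpleGroup.eq_bot_or_eq_top_of_normal (Subgroup.normalClosure ({t} : Set G))
      (Subgroup.normalClosure_normal) with h | h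
    · exfalso
      apply ht1
      have h2 : t ∈ Subgroup.normalClosure ({t} : Set G) := Subgroup.subset_normalClosure (Set.mem_singleton t)
      rw [h] at h2
      simpa using h2
    · exact h
  · -- the number of the conjugates
    have hex : ∀ x : X, ∃ g : G, g • x₀ = x := fun x => MulAction.exists_smul_eq G x₀ x
    choose r hr using hex
    let f : X → conjugatesOf t := fun x => ⟨r x * t * (r x)⁻¹, isConj_iff.2 ⟨r x, rfl⟩⟩
    have hcomm : ∀ g h : G, g • x₀ = h • x₀ → g * t * g⁻¹ = h * t * h⁻¹ := by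
      intro g h he
      have hs : h⁻¹ * g ∈ MulAction.stabilizer G x₀ := by
        show (h⁻¹ * g) • x₀ = x₀
        rw [mul_smul, he, inv_smul_smul]
      have h1 := htS _ hs
      calc g * t * g⁻¹ = h * ((h⁻¹ * g) * t) * g⁻¹ := by group
        _ = h * (t * (h⁻¹ * g)) * g⁻¹ := by rw [h1]
        _ = h * t * h⁻¹ := by group
    have hb : Function.Bijective f := by
      constructor
      · intro x y hxy
        have h1 : r x * t * (r x)⁻¹ = r y * t * (r y)⁻¹ := congrArg Subtype.val hxy
        have h2 : (r y)⁻¹ * r x ∈ Subgroup.centralizer ({t} : Set G) := by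
          rw [Subgroup.mem_centralizer_iff]
          intro z hz
          rw [Set.mem_singleton_iff.mp hz]
          calc t * ((r y)⁻¹ * r x) = (r y)⁻¹ * (r y * t * (r y)⁻¹) * r x := by group
            _ = (r y)⁻¹ * (r x * t * (r x)⁻¹) * r x := by rw [h1]
            _ = (r y)⁻¹ * r x * t := by group
        rw [hC] at h2
        have h3 : ((r y)⁻¹ * r x) • x₀ = x₀ := h2
        rw [mul_smul, inv_smul_eq_iff, hr, hr] at h3
        exact h3
      · rintro ⟨d, hd⟩
        obtain ⟨a, rfl⟩ := hmem hd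
        refine ⟨a • x₀, Subtype.ext ?_⟩
        exact hcomm _ _ (hr _)
    exact (Nat.card_congr (Equiv.ofBijective f hb)).symm

/-- the centralisers of the elements of a class are isomorphic -/
noncomputable def centConj {G : Type*} [Group G] (a t : G) :
    Subgroup.centralizer ({a * t * a⁻¹} : Set G) ≃* Subgroup.centralizer ({t} : Set G) where
  toFun x := ⟨a⁻¹ * x.1 * a, by
    rw [Subgroup.mem_centralizer_iff]
    intro y hy
    rw [Set.mem_singleton_iff.mp hy]
    have h1 := Subgroup.mem_centralizer_iff.mp x.2 (a * t * a⁻¹) (Set.mem_singleton _)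
    calc t * (a⁻¹ * x.1 * a) = a⁻¹ * ((a * t * a⁻¹) * x.1) * a := by group
      _ = a⁻¹ * (x.1 * (a * t * a⁻¹)) * a := by rw [h1]
      _ = a⁻¹ * x.1 * a * t := by group⟩
  invFun x := ⟨a * x.1 * a⁻¹, by
    rw [Subgroup.mem_centralizer_iff]
    intro y hy
    rw [Set.mem_singleton_iff.mp hy]
    have h1 := Subgroup.mem_centralizer_iff.mp x.2 t (Set.mem_singleton _)
    calc (a * t * a⁻¹) * (a * x.1 * a⁻¹) = a * (t * x.1) * a⁻¹ := by group
      _ = a * (x.1 * t) * a⁻¹ := by rw [h1]
      _ = (a * x.1 * a⁻¹) * (a * t * a⁻¹) := by group⟩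
  left_inv x := by
    apply Subtype.ext
    show a * (a⁻¹ * x.1 * a) * a⁻¹ = x.1
    group
  right_inv x := by
    apply Subtype.ext
    show a⁻¹ * (a * x.1 * a⁻¹) * a = x.1
    group
  map_mul' x y := by
    apply Subtype.ext
    show a⁻¹ * (x.1 * y.1) * a = (a⁻¹ * x.1 * a) * (a⁻¹ * y.1 * a)
    group

end abstract_class

section double_cover

/-- the properties of a double cover without subgroup of index two -/
structure NS (H K : Type*) [Group H] [Group K] : Prop where
  card : Nat.card (Subgroup.center H) = 2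
  quo : Nonempty (H ⧸ Subgroup.center H ≃* K)
  noidx : ∀ L : Subgroup H, L.index ≠ 2

theorem NS.toIs {H K : Type*} [Group H] [Group K] [Finite H] (h : NS H K) : IsNonsplitDoubleCover H K := by
  refine ⟨h.card, h.quo, fun L hL => ?_⟩
  have h1 : L.index = Nat.card (Subgroup.center H) := hL.index_eq_card
  rw [h.card] at h1
  exact h.noidx L h1

theorem NS.congr {H H' K : Type*} [Group H] [Group H'] [Group K] (e : H ≃* H') (h : NS H K) : NS H' K := by
  refine ⟨?_, ?_, ?_⟩
  · rw [← h.card]
    exact (Nat.card_congr (Subgroup.centerCongr e).toEquiv).symm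
  · obtain ⟨q⟩ := h.quo
    have hmap : (Subgroup.center H').map (e.symm.toMonoidHom) = Subgroup.center H := by
      ext x
      constructor
      · rintro ⟨y, hy, rfl⟩
        have hy' : y ∈ Subgroup.center H' := hy
        rw [Subgroup.mem_center_iff] at hy' ⊢
        intro z
        have := hy' (e z)
        apply e.injective
        simpa using this
      · intro hx
        refine ⟨e x, ?_, by simp⟩
        show e x ∈ Subgroup.center H'
        rw [Subgroup.mem_center_iff] at hx ⊢
        intro z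
        have := hx (e.symm z)
        have h2 := congrArg e this
        simpa using h2
    exact ⟨(QuotientGroup.congr _ _ e.symm hmap).trans q⟩
  · intro L hL
    apply h.noidx (L.comap e.toMonoidHom)
    rw [Subgroup.index_comap_of_surjective _ e.surjective]
    exact hL

/-- a simple group of non prime order has a trivial centre -/
theorem center_simple {W : Type*} [Group W] [Finite W] [IsSimpleGroup W] (hp : ¬ (Nat.card W).Prime) :
    Subgroup.center W = ⊥ := by
  rcases IsSimpleGroup.eq_bot_or_eq_top_of_normal (Subgroup.center W) inferInstance with h | h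
  · exact h
  · exfalso
    apply hp
    have hc : ∀ a b : W, a * b = b * a := by
      intro a b
      have : a ∈ Subgroup.center W := by rw [h]; trivial
      exact (Subgroup.mem_center_iff.mp this b).symm
    letI : CommGroup W := { (inferInstance : Group W) with mul_comm := hc }
    exact IsSimpleGroup.prime_card

/-- a double cover from a surjection with a kernel of order two -/
theorem NS.of_hom {H W K : Type*} [Group H] [Group W] [Group K] [Finite H] (ρ : H →* W) (hρ : Function.Surjective ρ)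
    (hker : Nat.card ρ.ker = 2) (hZ : Subgroup.center W = ⊥) (e : W ≃* K) (hidx : ∀ L : Subgroup H, L.index ≠ 2) :
    NS H K := by
  classical
  have hcen : Subgroup.center H = ρ.ker := by
    apply le_antisymm
    · intro z hz
      rw [MonoidHom.mem_ker]
      have h1 : ρ z ∈ Subgroup.center W := by
        rw [Subgroup.mem_center_iff]
        intro w
        obtain ⟨x, rfl⟩ := hρ w
        rw [← map_mul, ← map_mul, (Subgroup.mem_center_iff.mp hz x)]
      rw [hZ] at h1
      simpa using h1
    · intro k hk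
      rw [Subgroup.mem_center_iff]
      intro x
      by_cases h1 : k = 1
      · subst h1
        simp
      have hn : x * k * x⁻¹ ∈ ρ.ker := (inferInstance : ρ.ker.Normal).conj_mem k hk x
      have hne : x * k * x⁻¹ ≠ 1 := by
        intro h2
        apply h1
        have h3 : x⁻¹ * (x * k * x⁻¹) * x = 1 := by rw [h2]; group
        have h4 : x⁻¹ * (x * k * x⁻¹) * x = k := by group
        rw [← h4, h3]
      obtain ⟨y, -, huniq⟩ := (Nat.card_eq_two_iff' (1 : ρ.ker)).mp hker
      have e1 := huniq ⟨k, hk⟩ (fun h => h1 (congrArg Subtype.val h))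
      have e2 := huniq ⟨_, hn⟩ (fun h => hne (congrArg Subtype.val h))
      have e3 : x * k * x⁻¹ = k := congrArg Subtype.val (e2.trans e1.symm)
      calc x * k = x * k * x⁻¹ * x := by group
        _ = k * x := by rw [e3]
  refine ⟨by rw [hcen]; exact hker, ?_, hidx⟩
  exact ⟨(QuotientGroup.quotientMulEquivOfEq hcen).trans ((QuotientGroup.quotientKerEquivOfSurjective ρ hρ).trans e)⟩

/-- a group generated by elements of order dividing an odd number has no subgroup of index two -/
theorem noidx_of_odd {H : Type*} [Group H] (S : Set H) (hS : Subgroup.closure S = ⊤) (m : ℕ)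
    (hS2 : ∀ s ∈ S, s ^ (2 * m + 1) = 1) (L : Subgroup H) : L.index ≠ 2 := by
  intro hL
  have h1 : Subgroup.closure S ≤ L := by
    rw [Subgroup.closure_le]
    intro s hs
    have h2 : (s ^ 2) ^ (m + 1) ∈ L := pow_mem (Subgroup.sq_mem_of_index_two hL s) _
    have h3 : (s ^ 2) ^ (m + 1) = s := by
      rw [← pow_mul, show 2 * (m + 1) = (2 * m + 1) + 1 by ring, pow_succ, hS2 s hs, one_mul]
    rwa [h3] at h2
  rw [hS, top_le_iff] at h1
  rw [h1, Subgroup.index_top] at hL
  omega

/-- the surjection with a counted kernel -/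
theorem card_ker {H W : Type*} [Group H] [Group W] [Finite H] (ρ : H →* W) (hρ : Function.Surjective ρ) {a b c : ℕ}
    (hH : Nat.card H = c) (hW : Nat.card W = a) (hc : c = a * b) (ha : 0 < a) : Nat.card ρ.ker = b := by
  have h1 := Subgroup.card_eq_card_quotient_mul_card_subgroup ρ.ker
  rw [Nat.card_congr (QuotientGroup.quotientKerEquivOfSurjective ρ hρ).toEquiv, hW, hH, hc] at h1
  exact (Nat.eq_of_mul_eq_mul_left ha h1).symm

/-- an isomorphism of a central quotient with a group of matrices or permutations -/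
theorem quot_of_hom {S P : Type*} [Group S] [Group P] [Finite S] (ψ : S →* P) (W : Subgroup P) (hle : W ≤ ψ.range)
    (hZ : Subgroup.center S ≤ ψ.ker) (hc : Nat.card S = Nat.card (Subgroup.center S) * Nat.card W) :
    Nonempty (S ⧸ Subgroup.center S ≃* W) := by
  classical
  have hS0 : 0 < Nat.card S := Nat.card_pos
  have h1 := Subgroup.card_eq_card_quotient_mul_card_subgroup ψ.ker
  rw [Nat.card_congr (QuotientGroup.quotientKerEquivRange ψ).toEquiv] at h1
  haveI : Finite ψ.range := Finite.of_surjective ψ.rangeRestrict ψ.rangeRestrict_surjective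
  have hZle : Nat.card (Subgroup.center S) ≤ Nat.card ψ.ker := Subgroup.card_le_of_le hZ
  have hWle : Nat.card W ≤ Nat.card ψ.range := Subgroup.card_le_of_le hle
  have hZpos : 0 < Nat.card (Subgroup.center S) := Nat.card_pos
  have hKpos : 0 < Nat.card ψ.ker := Nat.card_pos
  have hRpos : 0 < Nat.card ψ.range := Nat.card_pos
  have hWpos : 0 < Nat.card W := Nat.pos_of_ne_zero (fun h => by rw [hc, h, mul_zero] at hS0; omega)
  have hmul : Nat.card (Subgroup.center S) * Nat.card W = Nat.card ψ.range * Nat.card ψ.ker := by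
    rw [← hc, h1]
  have eZ : Nat.card (Subgroup.center S) = Nat.card ψ.ker := by
    by_contra hne
    have hlt : Nat.card (Subgroup.center S) < Nat.card ψ.ker := lt_of_le_of_ne hZle hne
    have : Nat.card (Subgroup.center S) * Nat.card W < Nat.card ψ.ker * Nat.card ψ.range :=
      Nat.mul_lt_mul_of_lt_of_le hlt hWle hRpos
    rw [hmul, mul_comm] at this
    exact lt_irrefl _ this
  have eW : Nat.card W = Nat.card ψ.range := by
    rw [eZ, mul_comm (Nat.card ψ.range)] at hmul
    exact Nat.eq_of_mul_eq_mul_left hKpos hmul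
  have hZeq : Subgroup.center S = ψ.ker := Subgroup.eq_of_le_of_card_ge hZ eZ.ge
  have hWeq : W = ψ.range := Subgroup.eq_of_le_of_card_ge hle eW.ge
  exact ⟨(QuotientGroup.quotientMulEquivOfEq hZeq).trans ((QuotientGroup.quotientKerEquivRange ψ).trans
    (MulEquiv.subgroupCongr hWeq.symm))⟩

end double_cover

section chain
variable {D : PD}

/-- multiply by a transversal element, on codes -/
noncomputable def wnd (D : PD) (f : ℕ) : ℕ → List ℕ → List ℕ :=
  Nat.rec (motive := fun _ => ℕ → List ℕ → List ℕ) (fun _ t => t)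
    (fun _ ih c t => Bool.rec (motive := fun _ => List ℕ) (stepL D (ih (D.par c) t) (D.lab c)) t (Nat.beq (D.par c) c)) f

theorem wnd_eq (hC : Cert D) (f c : ℕ) (g : Equiv.Perm (Fin D.N)) :
    wnd D f c (enc D g) = enc D (g * rp (cd D) (gp D) f c) := by
  induction f generalizing c with
  | zero =>
    show enc D g = enc D (g * 1)
    rw [mul_one]
  | succ f ih =>
    have h0 : wnd D (f + 1) c (enc D g) = Bool.rec (motive := fun _ => List ℕ) (stepL D (wnd D f (D.par c) (enc D g)) (D.lab c)) (enc D g) (Nat.beq (D.par c) c) := rfl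
    rw [h0]
    by_cases h : D.par c = c
    · have h1 : Nat.beq (D.par c) c = true := by rw [Nat.beq_eq]; exact h
      rw [h1]
      have h2 : rp (cd D) (gp D) (f + 1) c = 1 := by
        show (if D.par c = c then 1 else _) = 1
        rw [if_pos h]
      rw [h2, mul_one]
    · have h1 : Nat.beq (D.par c) c = false := by
        rw [← Bool.not_eq_true, Nat.beq_eq]
        exact h
      rw [h1]
      have h2 : rp (cd D) (gp D) (f + 1) c = rp (cd D) (gp D) f (D.par c) * gp D (D.lab c) := by
        show (if D.par c = c then 1 else _) = _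
        rw [if_neg h]
        rfl
      show stepL D (wnd D f (D.par c) (enc D g)) (D.lab c) = _
      rw [ih, h2, ← mul_assoc]
      exact (hC.sem.enc_step _ _).symm

/-- the code of the product by `t (r⁻¹ t r)` -/
noncomputable def xs (D : PD) (y c : ℕ) (t : List ℕ) : List ℕ :=
  wnd D D.F c (stepL D (unw (cd D) D.F c (stepL D t y)) y)

/-- the order of the product of the involution with a conjugate -/
noncomputable def threeY (D : PD) (y c : ℕ) : Bool :=
  Bool.rec (motive := fun _ => Bool) (leq (xs D y c (xs D y c (xs D y c D.B))) D.B) true (leq (xs D y c (xs D y c D.B)) D.B)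

theorem xs_eq (hC : Cert D) (y c : ℕ) (g : Equiv.Perm (Fin D.N)) :
    xs D y c (enc D g) = enc D (g * (gp D y * ((rep (cd D) (gp D) c)⁻¹ * gp D y * rep (cd D) (gp D) c))) := by
  unfold xs
  have hs := hC.sem
  have e1 : stepL D (enc D g) y = enc D (g * gp D y) := (hs.enc_step _ _).symm
  rw [e1]
  have e2 : unw (cd D) D.F c (enc D (g * gp D y)) = enc D (g * gp D y * (rep (cd D) (gp D) c)⁻¹) :=
    unw_eq hs (cd D).F c _
  rw [e2]
  have e3 : stepL D (enc D (g * gp D y * (rep (cd D) (gp D) c)⁻¹)) y =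
      enc D (g * gp D y * (rep (cd D) (gp D) c)⁻¹ * gp D y) := (hs.enc_step _ _).symm
  rw [e3]
  have e4 : ∀ z, wnd D D.F c (enc D z) = enc D (z * rep (cd D) (gp D) c) := fun z => wnd_eq hC (cd D).F c z
  rw [e4]
  simp only [mul_assoc]

/-- the product of the involution with its conjugates -/
theorem three_of_check (hC : Cert D) (hk : 0 < D.k) {y : ℕ} (hy : gp D y ∈ KK D 1)
    (hcomm : ∀ h ∈ KK D 1, h * gp D y = gp D y * h)
    (h3 : RangeOK (threeY D y) (D.off 0) (D.off 1)) :
    ∀ g ∈ KK D 0, (gp D y * (g * gp D y * g⁻¹)) ^ 2 = 1 ∨ (gp D y * (g * gp D y * g⁻¹)) ^ 3 = 1 := by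
  intro g hg
  haveI : Finite (K (cd D) (gp D) (0 + 1)) := finite_K1 hC hk
  obtain ⟨h, hh, c, hc, e⟩ := cover hC.sem hC.checked hk g⁻¹ (inv_mem hg)
  have hg' : g = (rep (cd D) (gp D) c)⁻¹ * h⁻¹ := by
    have := congrArg (·⁻¹) e
    simpa using this
  have h1 : g * gp D y * g⁻¹ = (rep (cd D) (gp D) c)⁻¹ * gp D y * rep (cd D) (gp D) c := by
    have h2 := hcomm h⁻¹ (inv_mem hh)
    rw [hg']
    calc (rep (cd D) (gp D) c)⁻¹ * h⁻¹ * gp D y * ((rep (cd D) (gp D) c)⁻¹ * h⁻¹)⁻¹
        = (rep (cd D) (gp D) c)⁻¹ * (h⁻¹ * gp D y) * h * rep (cd D) (gp D) c := by group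
      _ = (rep (cd D) (gp D) c)⁻¹ * (gp D y * h⁻¹) * h * rep (cd D) (gp D) c := by rw [h2]
      _ = _ := by group
  rw [h1]
  set x := gp D y * ((rep (cd D) (gp D) c)⁻¹ * gp D y * rep (cd D) (gp D) c) with hx
  have hle := KK_incl hC.letters hC.hw hk
  have hrep : rep (cd D) (gp D) c ∈ KK D 0 := rep_mem hC.sem hC.checked hk c hc
  have hxm : x ∈ KK D 0 := mul_mem (hle hy) (mul_mem (mul_mem (inv_mem hrep) (hle hy)) hrep)
  have hB : D.B = enc D 1 := enc_one'.symm
  have hcode : ∀ g', xs D y c (enc D g') = enc D (g' * x) := fun g' => xs_eq hC y c g'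
  have e2 : xs D y c (xs D y c D.B) = enc D (x ^ 2) := by
    rw [hB, hcode, hcode, pow_two, one_mul]
  have e3 : xs D y c (xs D y c (xs D y c D.B)) = enc D (x ^ 3) := by
    rw [hB, hcode, hcode, hcode, one_mul, pow_succ, pow_two]
  have hc1 := h3 c hc.1 hc.2
  unfold threeY at hc1
  cases h4 : leq (xs D y c (xs D y c D.B)) D.B with
  | true =>
    left
    have h5 := leq_sound _ _ h4
    rw [e2] at h5
    exact hC.faith _ (pow_mem hxm 2) h5
  | false =>
    right
    rw [h4] at hc1
    have h5 := leq_sound _ _ hc1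
    rw [e3] at h5
    exact hC.faith _ (pow_mem hxm 3) h5

end chain

section restriction
variable {D W : PD}

/-- the relation between a permutation and its restriction to a numbered subset -/
def BlockI (inc : ℕ → ℕ) {n a : ℕ} (σ : Equiv.Perm (Fin n)) (τ : Equiv.Perm (Fin a)) : Prop :=
  ∀ p, p < a → pv σ (inc p) = inc (pv τ p)

/-- the group of the pairs -/
def BlockP (inc : ℕ → ℕ) (n a : ℕ) (hinc : ∀ p, p < a → inc p < n) : Subgroup (Equiv.Perm (Fin n) × Equiv.Perm (Fin a)) where
  carrier := {t | BlockI inc t.1 t.2}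
  mul_mem' := by
    rintro ⟨σ, τ⟩ ⟨σ', τ'⟩ h h'
    intro p hp
    show pv (σ * σ') (inc p) = inc (pv (τ * τ') p)
    rw [pv_mul' _ _ (hinc p hp), pv_mul' _ _ hp, h p hp, h' _ (pv_lt τ hp)]
  one_mem' := by
    intro p hp
    show pv 1 (inc p) = inc (pv 1 p)
    rw [pv_one, pv_one]
  inv_mem' := by
    rintro ⟨σ, τ⟩ h
    intro p hp
    show pv σ⁻¹ (inc p) = inc (pv τ⁻¹ p)
    have h3 := h _ (pv_lt τ⁻¹ hp)
    rw [pv_inv' τ hp] at h3
    have h4 := pv_inv σ (b := inc (pv τ⁻¹ p)) (hinc _ (pv_lt τ⁻¹ hp))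
    rw [h3] at h4
    exact h4

theorem pv_gp' (hL : lettersOK D) (x : ℕ) {p : ℕ} (hp : p < D.N) : pv (gp D x) p = letter D x p := by
  simp only [pv, dif_pos hp]
  exact gp_inv_apply hL x ⟨p, hp⟩

/-- the restriction homomorphism from a level to the group of a chain on a subset -/
theorem exists_restriction (hD : lettersOK D) (hW : lettersOK W) (inc : ℕ → ℕ) (hinc : ∀ p, p < W.N → inc p < D.N)
    (hinj : ∀ p q, p < W.N → q < W.N → inc p = inc q → p = q) {j : ℕ} {m : ℕ}
    (h0 : W.lt 0 = 0) (h1 : W.lt 1 = m) (h2 : D.lt (j + 1) = D.lt j + m)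
    (hl : ∀ x, x < m → ∀ p, p < W.N → letter D (D.lt j + x) (inc p) = inc (letter W x p)) :
    ∃ ρ : KK D j →* KK W 0, Function.Surjective ρ := by
  classical
  let pr : ℕ → Equiv.Perm (Fin D.N) × Equiv.Perm (Fin W.N) := fun x => (gp D (D.lt j + x), gp W x)
  let Γ : Subgroup (Equiv.Perm (Fin D.N) × Equiv.Perm (Fin W.N)) := Subgroup.closure (pr '' Set.Ico 0 m)
  have hΓ : Γ ≤ BlockP inc D.N W.N hinc := by
    refine (Subgroup.closure_le _).2 ?_
    rintro _ ⟨x, hx, rfl⟩
    intro p hp
    show pv (gp D (D.lt j + x)) (inc p) = inc (pv (gp W x) p)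
    rw [pv_gp' hD _ (hinc p hp), pv_gp' hW _ hp]
    exact hl x hx.2 p hp
  have map1 : Γ.map (MonoidHom.fst _ _) = KK D j := by
    show Γ.map (MonoidHom.fst _ _) = Subgroup.closure (gp D '' Set.Ico (D.lt j) (D.lt (j + 1)))
    rw [MonoidHom.map_closure, Set.image_image, h2]
    congr 1
    ext g
    constructor
    · rintro ⟨x, hx, rfl⟩
      exact ⟨D.lt j + x, ⟨by omega, by have := hx.2; omega⟩, rfl⟩
    · rintro ⟨y, hy, rfl⟩
      refine ⟨y - D.lt j, ⟨by omega, by have := hy.1; have := hy.2; omega⟩, ?_⟩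
      show gp D (D.lt j + (y - D.lt j)) = gp D y
      congr 1
      have := hy.1
      omega
  have map2 : Γ.map (MonoidHom.snd _ _) = KK W 0 := by
    show Γ.map (MonoidHom.snd _ _) = Subgroup.closure (gp W '' Set.Ico (W.lt 0) (W.lt (0 + 1)))
    rw [MonoidHom.map_closure, Set.image_image, h0, show W.lt (0 + 1) = m from h1]
    rfl
  have hinj1 : ∀ g ∈ Γ, MonoidHom.fst _ _ g = 1 → g = 1 := by
    rintro ⟨σ, τ⟩ hg h
    have h3 : σ = 1 := h
    subst h3
    have hb := hΓ hg
    have h4 : τ = 1 := by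
      apply ext_pv
      intro p hp
      have h5 := hb p hp
      rw [pv_one] at h5 ⊢
      exact (hinj _ _ (pv_lt τ hp) hp h5.symm)
    subst h4
    rfl
  let e1 : Γ ≃* KK D j := equivOfInj _ Γ (KK D j) hinj1 map1
  let snd' : Γ →* KK W 0 := ((MonoidHom.snd _ _).comp Γ.subtype).codRestrict (KK W 0) (fun g => by
    rw [← map2]
    exact ⟨g.1, g.2, rfl⟩)
  have hsnd : Function.Surjective snd' := by
    rintro ⟨τ, hτ⟩
    rw [← map2] at hτ
    obtain ⟨g, hg, rfl⟩ := hτ
    exact ⟨⟨g, hg⟩, rfl⟩
  exact ⟨snd'.comp e1.symm.toMonoidHom, hsnd.comp e1.symm.surjective⟩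

end restriction

section final
variable {D : PD}

/-- the stabiliser of the first point is the next level -/
noncomputable def stabEquiv (hC : Cert D) (hk : 0 < D.k) (hb0 : D.B.getD 0 0 = 0) (hlen : 0 < D.B.length) (hN : 0 < D.N) :
    MulAction.stabilizer (KK D 0) (⟨0, hN⟩ : Fin D.N) ≃* KK D 1 where
  toFun g := ⟨g.1.1, mem_K1 hC hk hb0 hlen hN g.1.2 g.2⟩
  invFun g := ⟨⟨g.1, KK_incl hC.letters hC.hw hk g.2⟩, K1_fix hC hk hb0 hN g.2⟩
  left_inv _ := rfl
  right_inv _ := rfl
  map_mul' _ _ := rfl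

/-- the class of the involution of a chain -/
theorem fischer_chain (hC : Cert D) (hk : 0 < D.k) (hb0 : D.B.getD 0 0 = 0) (hlen : 0 < D.B.length) (hN : 0 < D.N)
    (htr : transOK D = true) (hco : IsCoatom (MulAction.stabilizer (KK D 0) (⟨0, hN⟩ : Fin D.N)))
    [IsSimpleGroup (KK D 0)] {y : ℕ} (hy : gp D y ∈ KK D 1) (hcomm : ∀ h ∈ KK D 1, h * gp D y = gp D y * h)
    (h2 : (gp D y) ^ 2 = 1) (h1 : gp D y ≠ 1) (h3 : RangeOK (threeY D y) (D.off 0) (D.off 1)) :
    ∃ t : KK D 0, IsThreeTranspositionClass (conjugatesOf t) ∧ Nat.card (conjugatesOf t) = D.N ∧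
      ∀ d ∈ conjugatesOf t, Nonempty (Subgroup.centralizer ({d} : Set (KK D 0)) ≃* KK D 1) := by
  classical
  haveI := finite_K0 hC
  haveI := pretrans hC hk hb0 hlen hN htr
  haveI : FaithfulSMul (KK D 0) (Fin D.N) := by
    constructor
    intro a b hab
    apply Subtype.ext
    ext z
    have := hab z
    exact congrArg Fin.val this
  have hle := KK_incl hC.letters hC.hw hk
  let t : KK D 0 := ⟨gp D y, hle hy⟩
  have ht1 : t ≠ 1 := fun h => h1 (congrArg Subtype.val h)
  have ht2 : t ^ 2 = 1 := Subtype.ext h2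
  have hord : orderOf t = 2 := by
    haveI : Fact (Nat.Prime 2) := ⟨Nat.prime_two⟩
    exact orderOf_eq_prime ht2 ht1
  have htm : t ∈ MulAction.stabilizer (KK D 0) (⟨0, hN⟩ : Fin D.N) := K1_fix hC hk hb0 hN hy
  have htS : ∀ s ∈ MulAction.stabilizer (KK D 0) (⟨0, hN⟩ : Fin D.N), s * t = t * s := by
    intro s hs
    apply Subtype.ext
    exact hcomm _ (mem_K1 hC hk hb0 hlen hN s.2 hs)
  have h3' : ∀ g : KK D 0, (t * (g * t * g⁻¹)) ^ 2 = 1 ∨ (t * (g * t * g⁻¹)) ^ 3 = 1 := by
    intro g
    rcases three_of_check hC hk hy hcomm h3 g.1 g.2 with h | h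
    · exact Or.inl (Subtype.ext h)
    · exact Or.inr (Subtype.ext h)
  obtain ⟨h4, h5⟩ := class_of_coatom (⟨0, hN⟩ : Fin D.N) hco t hord htm htS h3'
  refine ⟨t, h4, ?_, ?_⟩
  · rw [h5, Nat.card_eq_fintype_card, Fintype.card_fin]
  · intro d hd
    obtain ⟨a, rfl⟩ := isConj_iff.1 hd
    have hC2 := centralizer_eq_stab (⟨0, hN⟩ : Fin D.N) hco t ht1 htm htS
    exact ⟨(centConj a t).trans ((MulEquiv.subgroupCongr hC2).trans (stabEquiv hC hk hb0 hlen hN))⟩

/-- a level generated by elements of odd order has no subgroup of index two -/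
theorem noidx_level (hC : Cert D) {j m : ℕ} (h : ∀ x, D.lt j ≤ x → x < D.lt (j + 1) → (gp D x) ^ (2 * m + 1) = 1)
    (L : Subgroup (KK D j)) : L.index ≠ 2 := by
  refine noidx_of_odd (((↑) : (KK D j) → Equiv.Perm (Fin D.N)) ⁻¹' (gp D '' Set.Ico (D.lt j) (D.lt (j + 1)))) ?_ m ?_ L
  · exact Subgroup.closure_closure_coe_preimage
  · rintro ⟨g, hg⟩ ⟨x, ⟨hx1, hx2⟩, hx3⟩
    apply Subtype.ext
    show g ^ (2 * m + 1) = 1
    have hx4 : gp D x = g := hx3
    rw [← hx4]
    exact h x hx1 hx2

theorem gp_eq_word (hL : lettersOK D) {y : ℕ} {w : List ℕ}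
    (h : allR (fun p => Nat.beq (letter D y p) (walk D p w)) 0 D.N = true) : gp D y = evW D w := by
  have h2 : (gp D y)⁻¹ = (evW D w)⁻¹ := by
    ext p
    rw [gp_inv_apply hL, evW_inv_apply hL]
    exact Nat.eq_of_beq_eq_true (allR_spec h p (Nat.zero_le _) p.2)
  exact inv_inj.1 h2

theorem comm_level {j : ℕ} {a : Equiv.Perm (Fin D.N)} (h : ∀ x, D.lt j ≤ x → x < D.lt (j + 1) → gp D x * a = a * gp D x) :
    ∀ g ∈ KK D j, g * a = a * g := by
  intro g hg
  have hle : KK D j ≤ Subgroup.centralizer ({a} : Set _) := by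
    refine (Subgroup.closure_le _).2 ?_
    rintro _ ⟨x, ⟨h1, h2⟩, rfl⟩
    show gp D x ∈ Subgroup.centralizer ({a} : Set _)
    rw [Subgroup.mem_centralizer_iff]
    intro z hz
    rw [Set.mem_singleton_iff.mp hz]
    exact (h x h1 h2).symm
  exact (Subgroup.mem_centralizer_iff.mp (hle hg) a (Set.mem_singleton a)).symm

end final

end Cfsg.Agent.Lib.FischerKit
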