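import Cfsg.Agent.Lib.F4Sp
import Cfsg.Agent.Lib.U62Tab
import Cfsg.Agent.Lib.PChain
import Cfsg.Prelude.Def_Classical
/-!
The central quotient of the special unitary group of degree 6 over the field with 4 elements as a permutation group on
the isotropic lines.
-/
set_option autoImplicit false
set_option linter.unusedSimpArgs false
set_option linter.unusedVariables false
set_option linter.style.haveILetI false
set_option maxRecDepth 100000

namespace Cfsg.Agent.Lib.U62Vec
open Cfsg Matrix Cfsg.Agent.Lib.PChain Cfsg.Agent.Lib.PermChain Cfsg.Agent.Lib.F4Sp Cfsg.Agent.Lib.U62Tab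

/-- the vectors -/
abbrev V6 : Type := Fin 6 → F4

/-- the vector of a number -/
def vec6 (p : ℕ) : V6 := fun i => dig p i.val

/-- the number of a vector -/
def idx6 (v : V6) : ℕ :=
  val4 (v 0) + 4 * val4 (v 1) + 16 * val4 (v 2) + 64 * val4 (v 3) + 256 * val4 (v 4) + 1024 * val4 (v 5)

theorem idx6_lt (v : V6) : idx6 v < 4096 := by
  unfold idx6
  have h0 := val4_lt (v 0)
  have h1 := val4_lt (v 1)
  have h2 := val4_lt (v 2)
  have h3 := val4_lt (v 3)
  have h4 := val4_lt (v 4)
  have h5 := val4_lt (v 5)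
  omega

theorem vec6_idx6 (v : V6) : vec6 (idx6 v) = v := by
  have key : ∀ a b c d e f : ℕ, a < 4 → b < 4 → c < 4 → d < 4 → e < 4 → f < 4 →
      let n := a + 4 * b + 16 * c + 64 * d + 256 * e + 1024 * f
      (n >>> (2 * 0)) % 4 = a ∧ (n >>> (2 * 1)) % 4 = b ∧ (n >>> (2 * 2)) % 4 = c ∧ (n >>> (2 * 3)) % 4 = d ∧
        (n >>> (2 * 4)) % 4 = e ∧ (n >>> (2 * 5)) % 4 = f := by
    intro a b c d e f ha hb hc hd he hf n
    simp only [Nat.shiftRight_eq_div_pow]
    norm_num
    omega
  obtain ⟨h0, h1, h2, h3, h4, h5⟩ := key _ _ _ _ _ _ (val4_lt (v 0)) (val4_lt (v 1)) (val4_lt (v 2)) (val4_lt (v 3))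
    (val4_lt (v 4)) (val4_lt (v 5))
  funext i
  apply val4_inj
  fin_cases i
  · exact h0
  · exact h1
  · exact h2
  · exact h3
  · exact h4
  · exact h5

theorem hF4 : Fintype.card F4 = 2 ^ 2 := card_F4

/-- the form -/
abbrev H6 (u v : V6) : F4 := hermForm 6 F4 2 u v

/-- isotropic non-zero vectors -/
def isoP (v : V6) : Prop := H6 v v = 0 ∧ v ≠ 0

instance : DecidablePred isoP := fun v => by unfold isoP; infer_instance

theorem C1 : allR (fun p => decide (isoP (vec6 (RT p)) ∧ LT (RT p) = p)) 0 693 = true := by decide +kernel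

theorem C2 : allR (fun q => decide (isoP (vec6 q) → LT q < 693 ∧ ∃ c : F4, c ≠ 0 ∧ vec6 q = c • vec6 (RT (LT q)))) 0 4096 = true := by
  decide +kernel

theorem C3 : allR (fun q => decide (isoP (vec6 q) → ∀ c : F4, c ≠ 0 → LT (idx6 (c • vec6 q)) = LT q)) 0 4096 = true := by
  decide +kernel

end Cfsg.Agent.Lib.U62Vec
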