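import Cfsg.Agent.Lib.F4Sp
import Cfsg.Agent.Lib.FischerKit
import Cfsg.Agent.S0278
import Cfsg.Agent.S0279
import Cfsg.Agent.Lib.SUCenter
import Cfsg.Agent.Lib.U62PC
import Cfsg.Agent.Lib.U62Tab
import Cfsg.Agent.Lib.U62Vec
/-!
The central quotient of the special unitary group of degree 6 over the field with 4 elements as a permutation group on
the isotropic lines.
-/
set_option autoImplicit false
set_option linter.unusedSimpArgs false
set_option linter.unusedVariables false
set_option linter.style.haveILetI false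
set_option maxRecDepth 100000

namespace Cfsg.Agent.Lib.U62Lines
open Cfsg Matrix Cfsg.Agent.Lib.PChain Cfsg.Agent.Lib.PermChain Cfsg.Agent.Lib.PermChain2 Cfsg.Agent.Lib.F4Sp Cfsg.Agent.Lib.U62Tab
open Cfsg.Agent.Lib.FischerKit Cfsg.Agent.Lib.U62Vec

theorem C1' {p : ℕ} (hp : p < 693) : isoP (vec6 (RT p)) ∧ LT (RT p) = p := by
  simpa using allR_spec C1 p (Nat.zero_le _) hp

theorem C2' {v : V6} (h : isoP v) : LT (idx6 v) < 693 ∧ ∃ c : F4, c ≠ 0 ∧ v = c • vec6 (RT (LT (idx6 v))) := by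
  have h1 := of_decide_eq_true (allR_spec C2 (idx6 v) (Nat.zero_le _) (idx6_lt v))
  rw [vec6_idx6] at h1
  exact h1 h

theorem C3' {v : V6} (h : isoP v) {c : F4} (hc : c ≠ 0) : LT (idx6 (c • v)) = LT (idx6 v) := by
  have h1 := of_decide_eq_true (allR_spec C3 (idx6 v) (Nat.zero_le _) (idx6_lt v))
  rw [vec6_idx6] at h1
  exact h1 h c hc

/-- the special unitary group -/
abbrev SU6 : Type := SU 6 F4 2

/-- the matrix of an element -/
abbrev Mt (g : SU6) : Matrix (Fin 6) (Fin 6) F4 := g.1.1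

theorem Mt_mul (g h : SU6) : Mt (g * h) = Mt g * Mt h := rfl

theorem Mt_one : Mt 1 = 1 := rfl

theorem Mt_form (g : SU6) (u v : V6) : H6 (Mt g *ᵥ u) (Mt g *ᵥ v) = H6 u v := g.2 u v

theorem Mt_inj (g : SU6) {v : V6} (h : Mt g *ᵥ v = 0) : v = 0 := by
  have h1 : Mt g⁻¹ *ᵥ (Mt g *ᵥ v) = v := by
    rw [Matrix.mulVec_mulVec, ← Mt_mul, inv_mul_cancel, Mt_one, Matrix.one_mulVec]
  rw [← h1, h, Matrix.mulVec_zero]

theorem iso_image (g : SU6) {v : V6} (h : isoP v) : isoP (Mt g *ᵥ v) :=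
  ⟨by rw [Mt_form]; exact h.1, fun h0 => h.2 (Mt_inj g h0)⟩

/-- the action on the numbers of the lines -/
noncomputable def actN (g : SU6) (p : ℕ) : ℕ := LT (idx6 (Mt g *ᵥ vec6 (RT p)))

theorem C1b : allR (fun p => Nat.beq (idx6 (vec6 (RT p))) (RT p)) 0 693 = true := by decide +kernel

theorem idx_vec {p : ℕ} (hp : p < 693) : idx6 (vec6 (RT p)) = RT p := by
  have := allR_spec C1b p (Nat.zero_le _) hp
  simpa using this

theorem actN_lt (g : SU6) {p : ℕ} (hp : p < 693) : actN g p < 693 :=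
  (C2' (iso_image g (C1' hp).1)).1

theorem actN_one {p : ℕ} (hp : p < 693) : actN 1 p = p := by
  unfold actN
  rw [Mt_one, Matrix.one_mulVec, idx_vec hp]
  exact (C1' hp).2

theorem act_key (g : SU6) {w : V6} (hw : isoP w) :
    LT (idx6 (Mt g *ᵥ w)) = LT (idx6 (Mt g *ᵥ vec6 (RT (LT (idx6 w))))) := by
  obtain ⟨hlt, c, hc, he⟩ := C2' hw
  have hu := (C1' hlt).1
  have e : Mt g *ᵥ w = c • (Mt g *ᵥ vec6 (RT (LT (idx6 w)))) := by
    conv_lhs => rw [he]
    rw [Matrix.mulVec_smul]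
  rw [e, C3' (iso_image g hu) hc]

theorem actN_mul (g h : SU6) {p : ℕ} (hp : p < 693) : actN (g * h) p = actN g (actN h p) := by
  unfold actN
  rw [Mt_mul, ← Matrix.mulVec_mulVec]
  exact act_key g (iso_image h (C1' hp).1)

/-- the permutation of the lines -/
noncomputable def permOf (g : SU6) : Equiv.Perm (Fin 693) where
  toFun p := ⟨actN g p, actN_lt g p.2⟩
  invFun p := ⟨actN g⁻¹ p, actN_lt _ p.2⟩
  left_inv p := by
    apply Fin.ext
    show actN g⁻¹ (actN g p) = p
    rw [← actN_mul _ _ p.2, inv_mul_cancel, actN_one p.2]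
  right_inv p := by
    apply Fin.ext
    show actN g (actN g⁻¹ p) = p
    rw [← actN_mul _ _ p.2, mul_inv_cancel, actN_one p.2]

/-- the action as a homomorphism -/
noncomputable def ψ : SU6 →* Equiv.Perm (Fin 693) where
  toFun := permOf
  map_one' := by
    ext p
    exact actN_one p.2
  map_mul' g h := by
    ext p
    exact actN_mul g h p.2

theorem ψ_apply (g : SU6) (p : Fin 693) : ((ψ g p : Fin 693) : ℕ) = actN g p := rfl

/-- the Frobenius map on sums -/
theorem sum_sq {ι : Type*} (s : Finset ι) (f : ι → F4) : (∑ i ∈ s, f i) ^ 2 = ∑ i ∈ s, (f i) ^ 2 := by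
  have h := map_sum (Cfsg.Agent.Lib.HermStd.sig hF4) f s
  simp only [Cfsg.Agent.Lib.HermStd.sig_apply] at h
  exact h

/-- a matrix preserving the form on a basis preserves the form -/
theorem isom_of_unit (M : Matrix (Fin 6) (Fin 6) F4)
    (h : ∀ j k, ∑ i, M i j * (M i k) ^ 2 = if j = k then 1 else 0) (u v : V6) :
    H6 (M *ᵥ u) (M *ᵥ v) = H6 u v := by
  unfold H6 hermForm
  have e1 : ∀ i, (M *ᵥ v) i ^ 2 = ∑ k, (M i k) ^ 2 * (v k) ^ 2 := by
    intro i
    simp only [Matrix.mulVec, dotProduct]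
    rw [sum_sq]
    simp only [mul_pow]
  simp only [e1]
  have e2 : ∀ i, (M *ᵥ u) i = ∑ j, M i j * u j := fun i => rfl
  simp only [e2, Finset.sum_mul_sum]
  calc ∑ i, ∑ j, ∑ k, M i j * u j * ((M i k) ^ 2 * (v k) ^ 2)
      = ∑ j, ∑ k, ∑ i, u j * (v k) ^ 2 * (M i j * (M i k) ^ 2) := by
        rw [Finset.sum_comm]
        apply Finset.sum_congr rfl
        intro j _
        rw [Finset.sum_comm]
        apply Finset.sum_congr rfl
        intro k _
        apply Finset.sum_congr rfl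
        intro i _
        ring
    _ = ∑ j, ∑ k, u j * (v k) ^ 2 * (if j = k then 1 else 0) := by
        apply Finset.sum_congr rfl
        intro j _
        apply Finset.sum_congr rfl
        intro k _
        rw [← Finset.mul_sum, h]
    _ = ∑ j, u j * (v j) ^ 2 := by
        apply Finset.sum_congr rfl
        intro j _
        simp

/-- a matrix from a code -/
def matC (c : ℕ) : Matrix (Fin 6) (Fin 6) F4 := fun i j => dig c (6 * i.val + j.val)

theorem det_one_of_pow {M : Matrix (Fin 6) (Fin 6) F4} (h : M ^ 11 = 1) : M.det = 1 := by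
  have h1 : M.det ^ 11 = 1 := by rw [← Matrix.det_pow, h, Matrix.det_one]
  have key : ∀ x : F4, x ^ 11 = 1 → x = 1 := by decide +kernel
  exact key _ h1

/-- an element of the group from a matrix -/
def elt (M : Matrix (Fin 6) (Fin 6) F4) (h1 : M ^ 11 = 1)
    (h2 : ∀ j k, ∑ i, M i j * (M i k) ^ 2 = if j = k then 1 else 0) : SU6 :=
  ⟨⟨M, det_one_of_pow h1⟩, fun u v => isom_of_unit M h2 u v⟩

theorem ma_pow : matC maC ^ 11 = 1 := by decide +kernel
theorem mb_pow : matC mbC ^ 11 = 1 := by decide +kernel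
theorem ma_unit : ∀ j k, ∑ i, matC maC i j * (matC maC i k) ^ 2 = if j = k then 1 else 0 := by decide +kernel
theorem mb_unit : ∀ j k, ∑ i, matC mbC i j * (matC mbC i k) ^ 2 = if j = k then 1 else 0 := by decide +kernel

/-- the generators -/
def ga : SU6 := elt _ ma_pow ma_unit
/-- the generators -/
def gb : SU6 := elt _ mb_pow mb_unit

/-- the chain on the lines -/
noncomputable abbrev dW : PD := Cfsg.Agent.Lib.U62PD.dD

theorem chkA : allR (fun p => Nat.beq (letter dW 0 p) (LT (idx6 (matC maC *ᵥ vec6 (RT p))))) 0 693 = true := by decide +kernel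
theorem chkB : allR (fun p => Nat.beq (letter dW 1 p) (LT (idx6 (matC mbC *ᵥ vec6 (RT p))))) 0 693 = true := by decide +kernel

theorem cW : Cert dW := Cfsg.Agent.Lib.U62PD.cert

/-- the action on the numbering of the chain -/
noncomputable def ψ' : SU6 →* Equiv.Perm (Fin dW.N) := ψ

theorem gp_range {x : ℕ} {g : SU6} (h : ∀ p, p < 693 → letter dW x p = actN g p) : gp dW x ∈ ψ'.range := by
  have h1 : (gp dW x)⁻¹ = ψ' g := by
    ext p
    rw [gp_inv_apply cW.letters]
    exact h p p.2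
  have h3 : gp dW x = ψ' g⁻¹ := by
    rw [map_inv, ← h1, inv_inv]
  rw [h3]
  exact ⟨_, rfl⟩

theorem KW_le : KK dW 0 ≤ ψ'.range := by
  refine (Subgroup.closure_le _).2 ?_
  rintro _ ⟨x, ⟨h1, h2⟩, rfl⟩
  have h2' : x < 2 := by
    have h3 : x < dW.lt 1 := h2
    have h4 : dW.lt 1 = 2 := by decide +kernel
    rw [h4] at h3
    exact h3
  have hx : x = 0 ∨ x = 1 := by omega
  rcases hx with rfl | rfl
  · exact gp_range (g := ga) (fun p hp => Nat.eq_of_beq_eq_true (allR_spec chkA p (Nat.zero_le _) hp))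
  · exact gp_range (g := gb) (fun p hp => Nat.eq_of_beq_eq_true (allR_spec chkB p (Nat.zero_le _) hp))

theorem center_le : Subgroup.center SU6 ≤ ψ'.ker := by
  intro g hg
  obtain ⟨l, hl⟩ := Cfsg.Agent.Lib.SUCenter.center_scalar hF4 (by norm_num) hg
  rw [MonoidHom.mem_ker]
  ext p
  show actN g p = p
  have hp := p.2
  have hp' : (p : ℕ) < 693 := hp
  have hM : ∀ v : V6, Mt g *ᵥ v = l • v := by
    intro v
    show (g.1 : Matrix (Fin 6) (Fin 6) F4) *ᵥ v = _
    rw [hl, Matrix.smul_mulVec, Matrix.one_mulVec]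
  have hiso := C1' hp'
  have hl0 : l ≠ 0 := by
    rintro rfl
    have h1 := iso_image g hiso.1
    rw [hM, zero_smul] at h1
    exact h1.2 rfl
  unfold actN
  rw [hM, C3' hiso.1 hl0, idx_vec hp']
  exact hiso.2

theorem card_W : Nat.card (KK dW 0) = 9196830720 := by
  have h := (cW.card (r := 7) (j := 0) (by decide +kernel)).2
  rw [h]
  decide +kernel

theorem card_SU : Nat.card SU6 = Nat.card (Subgroup.center SU6) * Nat.card (KK dW 0) := by
  have h1 := Cfsg.Agent.S0278.result hF4 6 (by norm_num)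
  have h2 := Cfsg.Agent.S0279.result hF4 6 (by norm_num)
  have h3 : (2 : ℕ) ^ (6 * (6 - 1) / 2) * ∏ i ∈ Finset.range 6, (if Even i then 2 ^ (i + 1) + 1 else 2 ^ (i + 1) - 1) = 82771476480 := by
    decide +kernel
  rw [h3] at h1
  rw [h2, card_W]
  have h4 : Nat.gcd 6 (2 + 1) = 3 := by norm_num
  rw [h4]
  show Nat.card (SU 6 F4 2) = _
  omega

/-- the central quotient is the group on the lines -/
theorem main : Nonempty (PSU 6 F4 2 ≃* KK dW 0) :=
  quot_of_hom ψ' (KK dW 0) KW_le center_le card_SU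

end Cfsg.Agent.Lib.U62Lines
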