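import Cfsg.Agent.Lib.Fi22PC
import Cfsg.Agent.Lib.FischerKit
import Cfsg.Agent.Lib.U62Lines
/-!
The checks on the involution of the chain on 3510 points.
-/
set_option autoImplicit false
set_option linter.unusedVariables false
set_option maxRecDepth 100000

namespace Cfsg.Agent.Lib.Fi22X
open Cfsg Cfsg.Agent.Lib.PChain Cfsg.Agent.Lib.PermChain Cfsg.Agent.Lib.PermChain2 Cfsg.Agent.Lib.PermChain3
open Cfsg.Agent.Lib.FischerKit

/-- the chain -/
noncomputable abbrev dF : PD := Cfsg.Agent.Lib.Fi22PD.dD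
/-- the chain on the lines -/
noncomputable abbrev dW : PD := Cfsg.Agent.Lib.U62PD.dD
/-- the involution -/
noncomputable abbrev yT : ℕ := Cfsg.Agent.Lib.Fi22PD.yT

theorem cF : Cert dF := Cfsg.Agent.Lib.Fi22PD.cert
theorem cW : Cert dW := Cfsg.Agent.Lib.U62PD.cert

theorem card0 : Nat.card (KK dF 0) = 64561751654400 := by
  have h := (cF.card (r := 6) (j := 0) (by decide +kernel)).2
  rw [h]
  decide +kernel

theorem card1 : Nat.card (KK dF 1) = 18393661440 := by
  have h := (cF.card (r := 5) (j := 1) (by decide +kernel)).2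
  rw [h]
  decide +kernel

theorem hN : 0 < dF.N := by decide +kernel
theorem hN1 : 1 < dF.N := by decide +kernel
theorem hk : 0 < dF.k := by decide +kernel
theorem hb0 : dF.B.getD 0 0 = 0 := by decide +kernel
theorem hlen : 0 < dF.B.length := by decide +kernel

theorem simpleG : IsSimpleGroup (KK dF 0) :=
  simple (S := Cfsg.Agent.Lib.Fi22PD.sS) (p := 13) (e := 1) cF hk hb0 hlen hN Cfsg.Agent.Lib.Fi22PD.sT Cfsg.Agent.Lib.Fi22PD.sF
    Cfsg.Agent.Lib.Fi22PD.sR Cfsg.Agent.Lib.Fi22PD.sV Cfsg.Agent.Lib.Fi22PD.sD hN1 (by norm_num)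
    (by simpa using Cfsg.Agent.Lib.Fi22PD.sP) (by rw [card1]; norm_num)

theorem coatomG : IsCoatom (MulAction.stabilizer (KK dF 0) (⟨0, hN⟩ : Fin dF.N)) :=
  coatom (S := Cfsg.Agent.Lib.Fi22PD.sS) cF hk hb0 hlen hN Cfsg.Agent.Lib.Fi22PD.sT Cfsg.Agent.Lib.Fi22PD.sF
    Cfsg.Agent.Lib.Fi22PD.sR Cfsg.Agent.Lib.Fi22PD.sV Cfsg.Agent.Lib.Fi22PD.sD hN1

theorem chkT : allR (fun p => Nat.beq (letter dF yT p) (walk dF p Cfsg.Agent.Lib.Fi22PD.wT)) 0 dF.N = true := by decide +kernel

theorem gpT : gp dF yT = evW dF Cfsg.Agent.Lib.Fi22PD.wT := gp_eq_word cF.letters chkT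

theorem memT : gp dF yT ∈ KK dF 1 := by
  rw [gpT]
  exact evW_mem cF.letters (by decide +kernel)

theorem lt1 : dF.lt 1 = 2 := by decide +kernel
theorem lt2 : dF.lt 2 = 4 := by decide +kernel

theorem comm2 : allR (fun p => Nat.beq (letter dF yT (letter dF 2 p)) (letter dF 2 (letter dF yT p))) 0 dF.N = true := by decide +kernel
theorem comm3 : allR (fun p => Nat.beq (letter dF yT (letter dF 3 p)) (letter dF 3 (letter dF yT p))) 0 dF.N = true := by decide +kernel

theorem gp_comm {x y : ℕ} (h : allR (fun p => Nat.beq (letter dF y (letter dF x p)) (letter dF x (letter dF y p))) 0 dF.N = true) :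
    gp dF x * gp dF y = gp dF y * gp dF x := by
  apply ext_pv
  intro b hb
  rw [pv_mul' _ _ hb, pv_mul' _ _ hb, pv_gp' cF.letters _ hb, pv_gp' cF.letters _ hb,
    pv_gp' cF.letters _ (letter_lt cF.letters _ hb), pv_gp' cF.letters _ (letter_lt cF.letters _ hb)]
  exact Nat.eq_of_beq_eq_true (allR_spec h b (Nat.zero_le _) hb)

theorem commT : ∀ h ∈ KK dF 1, h * gp dF yT = gp dF yT * h := by
  refine comm_level ?_
  intro x h1 h2
  rw [lt1] at h1
  rw [show (1 + 1 : ℕ) = 2 from rfl, lt2] at h2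
  have hx : x = 2 ∨ x = 3 := by omega
  rcases hx with rfl | rfl
  · exact gp_comm comm2
  · exact gp_comm comm3

theorem sqT : (gp dF yT) ^ 2 = 1 := by
  apply pow_one_of_iter cF
  have h : allR (fun p => Nat.beq (iterL dF yT 2 p) p) 0 dF.N = true := by decide +kernel
  intro p hp
  exact Nat.eq_of_beq_eq_true (allR_spec h p (Nat.zero_le _) hp)

theorem neT : gp dF yT ≠ 1 := by
  intro h
  have h1 : pv (gp dF yT) 1 = letter dF yT 1 := pv_gp' cF.letters _ hN1
  rw [h, pv_one] at h1
  have h2 : letter dF yT 1 ≠ 1 := by decide +kernel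
  exact h2 h1.symm

theorem three0 : allR (threeY dF yT) 0 3510 = true := by decide +kernel

theorem three : RangeOK (threeY dF yT) (dF.off 0) (dF.off 1) := by
  have h0 : dF.off 0 = 0 := by decide +kernel
  have h1 : dF.off 1 = 3510 := by decide +kernel
  rw [h0, h1]
  exact RangeOK.of_allR three0

theorem trO : transOK dF = true := Cfsg.Agent.Lib.Fi22PD.sT

theorem class_main : ∃ t : KK dF 0, IsThreeTranspositionClass (conjugatesOf t) ∧ Nat.card (conjugatesOf t) = dF.N ∧
      ∀ d ∈ conjugatesOf t, Nonempty (Subgroup.centralizer ({d} : Set (KK dF 0)) ≃* KK dF 1) := by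
  haveI := simpleG
  exact fischer_chain cF hk hb0 hlen hN trO coatomG memT commT sqT neT three

/-! ### the restriction to the commuting points -/

/-- the numbering of the subset -/
noncomputable abbrev inc : ℕ → ℕ := Cfsg.Agent.Lib.Fi22PD.incT

theorem chkInc : allR (fun p => band(Nat.blt (inc p) dF.N, Nat.beq (Cfsg.Agent.Lib.Fi22PD.posT (inc p)) p)) 0 dW.N = true := by
  decide +kernel

theorem chkR0 : allR (fun p => Nat.beq (letter dF 2 (inc p)) (inc (letter dW 0 p))) 0 dW.N = true := by decide +kernel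
theorem chkR1 : allR (fun p => Nat.beq (letter dF 3 (inc p)) (inc (letter dW 1 p))) 0 dW.N = true := by decide +kernel

theorem rest_main : ∃ ρ : KK dF 1 →* KK dW 0, Function.Surjective ρ := by
  have hinc : ∀ p, p < dW.N → inc p < dF.N := by
    intro p hp
    have h := allR_spec chkInc p (Nat.zero_le _) hp
    simp only [band_eq, Bool.and_eq_true, Nat.blt_eq, Nat.beq_eq] at h
    exact h.1
  have hinj : ∀ p q, p < dW.N → q < dW.N → inc p = inc q → p = q := by
    intro p q hp hq h
    have h1 := allR_spec chkInc p (Nat.zero_le _) hp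
    have h2 := allR_spec chkInc q (Nat.zero_le _) hq
    simp only [band_eq, Bool.and_eq_true, Nat.blt_eq, Nat.beq_eq] at h1 h2
    rw [← h1.2, ← h2.2, h]
  refine exists_restriction cF.letters cW.letters inc hinc hinj (j := 1) (m := 2) (by decide +kernel) (by decide +kernel)
    (by decide +kernel) ?_
  intro x hx p hp
  rw [lt1]
  have hx' : x = 0 ∨ x = 1 := by omega
  rcases hx' with rfl | rfl
  · exact Nat.eq_of_beq_eq_true (allR_spec chkR0 p (Nat.zero_le _) hp)
  · exact Nat.eq_of_beq_eq_true (allR_spec chkR1 p (Nat.zero_le _) hp)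

theorem simpleW : IsSimpleGroup (KK dW 0) :=
  simple (S := Cfsg.Agent.Lib.U62PD.sS) (p := 11) (e := 1) cW (by decide +kernel) (by decide +kernel) (by decide +kernel)
    (by decide +kernel) Cfsg.Agent.Lib.U62PD.sT Cfsg.Agent.Lib.U62PD.sF
    Cfsg.Agent.Lib.U62PD.sR Cfsg.Agent.Lib.U62PD.sV Cfsg.Agent.Lib.U62PD.sD (by decide +kernel) (by norm_num)
    (by simpa using Cfsg.Agent.Lib.U62PD.sP) (by
      have h := (cW.card (r := 6) (j := 1) (by decide +kernel)).2
      rw [h]
      have h2 : ∏ i ∈ Finset.range 6, (dW.off (1 + i + 1) - dW.off (1 + i)) = 13271040 := by decide +kernel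
      rw [h2]
      norm_num)

theorem pow2 : (gp dF 2) ^ 11 = 1 := by
  apply pow_one_of_iter cF
  have h : allR (fun p => Nat.beq (iterL dF 2 11 p) p) 0 dF.N = true := by decide +kernel
  intro p hp
  exact Nat.eq_of_beq_eq_true (allR_spec h p (Nat.zero_le _) hp)

theorem pow3 : (gp dF 3) ^ 11 = 1 := by
  apply pow_one_of_iter cF
  have h : allR (fun p => Nat.beq (iterL dF 3 11 p) p) 0 dF.N = true := by decide +kernel
  intro p hp
  exact Nat.eq_of_beq_eq_true (allR_spec h p (Nat.zero_le _) hp)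

theorem noidx (L : Subgroup (KK dF 1)) : L.index ≠ 2 := by
  refine noidx_level cF (m := 5) ?_ L
  intro x h1 h2
  rw [lt1] at h1
  rw [show (1 + 1 : ℕ) = 2 from rfl, lt2] at h2
  have hx : x = 2 ∨ x = 3 := by omega
  rcases hx with rfl | rfl
  · exact pow2
  · exact pow3

theorem ns_main : NS (KK dF 1) (PSU 6 Cfsg.Agent.Lib.F4Sp.F4 2) := by
  haveI := finite_K1 cF hk
  haveI := finite_K0 cW
  haveI := simpleW
  obtain ⟨ρ, hρ⟩ := rest_main
  obtain ⟨e⟩ := Cfsg.Agent.Lib.U62Lines.main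
  have hcW : Nat.card (KK dW 0) = 9196830720 := Cfsg.Agent.Lib.U62Lines.card_W
  refine NS.of_hom ρ hρ (card_ker ρ hρ card1 hcW (by norm_num) (by norm_num)) (center_simple (by rw [hcW]; norm_num)) e.symm noidx

end Cfsg.Agent.Lib.Fi22X
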