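import Cfsg.Agent.Lib.HermCount

set_option autoImplicit false

namespace Cfsg.Agent.Lib.SubfieldQ

open Cfsg.Agent.Lib.HermStd Cfsg.Agent.Lib.HermCount

variable {F K : Type*} [Field F] [Fintype F] [Field K] [Fintype K] {q : ℕ}

/-- The subfield of order `q` in a field of order `q²`. -/
theorem exists_iota (hF : Fintype.card F = q ^ 2) (hK : Fintype.card K = q) :
    ∃ ι : K →+* F, (∀ x, ι x ^ q = ι x) ∧ ∀ y : F, y ^ q = y → ∃ x, ι x = y := by
  classical
  have hq := one_lt_q hF
  let F₀ : Subfield F := (sig hF).eqLocusField (RingHom.id F)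
  have hmem : ∀ y : F, y ∈ F₀ ↔ y ^ q = y := fun y => Iff.rfl
  have hcard : Fintype.card F₀ = q := by
    rw [Fintype.card_subtype]
    have e : (Finset.univ.filter (fun y : F => y ∈ F₀)) = insert 0 (K' F q) := by
      ext y
      simp only [Finset.mem_filter, Finset.mem_univ, true_and, Finset.mem_insert, hmem, mem_K']
      constructor
      · intro h
        by_cases h0 : y = 0
        · exact Or.inl h0
        · exact Or.inr ⟨h0, h⟩
      · rintro (rfl | h)
        · exact zero_pow (by omega)
        · exact h.2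
    rw [e, Finset.card_insert_of_notMem (by simp [mem_K']), card_K' hF]
  let e : K ≃+* F₀ := FiniteField.ringEquivOfCardEq (by rw [hK, hcard])
  refine ⟨F₀.subtype.comp e.toRingHom, fun x => ?_, fun y hy => ?_⟩
  · exact (e x).2
  · refine ⟨e.symm ⟨y, (hmem y).2 hy⟩, ?_⟩
    simp

end Cfsg.Agent.Lib.SubfieldQ
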