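import Cfsg.Agent.Lib.SpDecomp
import Cfsg.Agent.Lib.SUCenter
import Cfsg.Agent.Lib.SubfieldQ
import Cfsg.Agent.Lib.UnitBasic

set_option autoImplicit false

namespace Cfsg.Agent.Lib.FieldEmbed

open Matrix Cfsg Cfsg.Geo Cfsg.Agent.Lib.SympBasic Cfsg.Agent.Lib.FormVec Cfsg.Agent.Lib.SpGL

section rep

variable {Γ F U : Type*} [Group Γ] [Field F] [AddCommGroup U] [Module F U]

/-- A faithful linear representation in coordinates. -/
theorem exists_gl {κ : Type} [Fintype κ] [DecidableEq κ] (e : U ≃ₗ[F] (κ → F)) (ρ : Γ →* (U →ₗ[F] U)) (hρ : Function.Injective ρ) :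
    ∃ ψ : Γ →* Matrix.GeneralLinearGroup κ F, Function.Injective ψ ∧
      ∀ g u, ((ψ g : Matrix.GeneralLinearGroup κ F) : Matrix κ κ F) *ᵥ (e u) = e (ρ g u) := by
  let M : Γ →* Matrix κ κ F :=
    { toFun := fun g => LinearMap.toMatrix' (e.toLinearMap ∘ₗ ρ g ∘ₗ e.symm.toLinearMap)
      map_one' := by
        apply Matrix.mulVec_injective
        funext y
        rw [LinearMap.toMatrix'_mulVec]
        simp
      map_mul' := fun a b => by
        apply Matrix.mulVec_injective
        funext y
        rw [← Matrix.mulVec_mulVec, LinearMap.toMatrix'_mulVec, LinearMap.toMatrix'_mulVec, LinearMap.toMatrix'_mulVec]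
        simp }
  have hM : ∀ g (y : κ → F), M g *ᵥ y = e (ρ g (e.symm y)) := fun g y => by
    show LinearMap.toMatrix' _ *ᵥ y = _
    rw [LinearMap.toMatrix'_mulVec]
    simp
  refine ⟨M.toHomUnits, ?_, ?_⟩
  · intro a b hab
    apply hρ
    ext u
    have h1 : M a = M b := by
      have := congrArg (fun x : Matrix.GeneralLinearGroup κ F => (x : Matrix κ κ F)) hab
      exact this
    have h3 : M a *ᵥ (e u) = M b *ᵥ (e u) := by rw [h1]
    rw [hM, hM] at h3
    simpa using h3
  · intro g u
    have : ((M.toHomUnits g : Matrix.GeneralLinearGroup κ F) : Matrix κ κ F) = M g := rfl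
    rw [this, hM]
    simp

/-- A faithful linear representation preserving a quadratic function gives an embedding in the isometry group. -/
theorem embed_orth {κ : Type} [Fintype κ] [DecidableEq κ] (Q₁ : U → F) (Q₂ : (κ → F) → F) (e : U ≃ₗ[F] (κ → F))
    (he : ∀ u, Q₂ (e u) = Q₁ u) (ρ : Γ →* (U →ₗ[F] U)) (hρ : Function.Injective ρ) (hQ : ∀ g u, Q₁ (ρ g u) = Q₁ u) :
    ∃ φ : Γ →* ↥(isometryGroup F Q₂), Function.Injective φ := by
  obtain ⟨ψ, hinj, hψ⟩ := exists_gl e ρ hρ
  refine ⟨ψ.codRestrict _ ?_, ?_⟩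
  · intro g y _
    obtain ⟨u, rfl⟩ := e.surjective y
    show Q₂ (((ψ g : Matrix.GeneralLinearGroup κ F) : Matrix κ κ F) *ᵥ (e u)) = Q₂ (e u)
    rw [hψ, he, he, hQ]
  · intro a b hab
    apply hinj
    exact congrArg Subtype.val hab

variable [FiniteDimensional F U]

/-- A faithful linear representation preserving a nondegenerate alternating form gives an embedding in the symplectic group. -/
theorem embed_sp (n : ℕ) (B : LinearMap.BilinForm F U) (hA : B.IsAlt) (hN : B.Nondegenerate) (hdim : Module.finrank F U = 2 * n)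
    (ρ : Γ →* (U →ₗ[F] U)) (hρ : Function.Injective ρ) (hB : ∀ g u v, B (ρ g u) (ρ g v) = B u v) :
    ∃ φ : Γ →* ↥(Matrix.symplecticGroup (Fin n) F), Function.Injective φ := by
  have hd : Module.finrank F U = Module.finrank F (Fin n ⊕ Fin n → F) := by
    rw [hdim]
    simp
    omega
  obtain ⟨e, he⟩ := Cfsg.Agent.Lib.SpDecomp.exists_alt_isom B (toB (symp_bilinear (m := n) (F := F))) hA symp_B_alt hN
    (toB_nondeg symp_bilinear symp_nondeg) hd
  obtain ⟨ψ, hinj, hψ⟩ := exists_gl e ρ hρ
  have hmem : ∀ g, ((ψ g : Matrix.GeneralLinearGroup (Fin n ⊕ Fin n) F) : Matrix (Fin n ⊕ Fin n) (Fin n ⊕ Fin n) F) ∈ Matrix.symplecticGroup (Fin n) F := by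
    intro g
    apply (preserves_iff_mem _).1
    intro x y
    obtain ⟨u, rfl⟩ := e.surjective x
    obtain ⟨v, rfl⟩ := e.surjective y
    rw [hψ, hψ]
    have h1 := he (ρ g u) (ρ g v)
    have h2 := he u v
    simp only [toB_apply] at h1 h2
    rw [h1, h2, hB]
  refine ⟨{ toFun := fun g => ⟨_, hmem g⟩, map_one' := ?_, map_mul' := ?_ }, ?_⟩
  · apply Subtype.ext
    simp
  · intro a b
    apply Subtype.ext
    simp
  · intro a b hab
    apply hinj
    apply Units.ext
    exact congrArg Subtype.val hab

end rep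


section field

open Cfsg.Agent.Lib.HermStd Cfsg.Agent.Lib.HermForm

variable {F K : Type*} [Field F] [Fintype F] [Field K] [Fintype K] [Algebra F K] {q : ℕ}

theorem finrank_two (hF : Fintype.card F = q) (hK : Fintype.card K = q ^ 2) : Module.finrank F K = 2 := by
  have h1 := Module.card_eq_pow_finrank (K := F) (V := K)
  rw [hK, hF] at h1
  have h2 : 2 ≤ q := by
    rw [← hF]
    exact Fintype.one_lt_card
  exact (Nat.pow_right_injective h2 h1).symm

theorem pow_q_alg (hF : Fintype.card F = q) (x : F) : (algebraMap F K x) ^ q = algebraMap F K x := by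
  rw [← map_pow, ← hF, FiniteField.pow_card]

theorem trace_eq (hF : Fintype.card F = q) (hK : Fintype.card K = q ^ 2) (x : K) :
    algebraMap F K (Algebra.trace F K x) = x + x ^ q := by
  rw [FiniteField.algebraMap_trace_eq_sum_pow, finrank_two hF hK]
  simp [Finset.sum_range_succ, hF]

theorem trace_sep (x : K) (h : ∀ c : K, Algebra.trace F K (c * x) = 0) : x = 0 := by
  by_contra hx
  obtain ⟨y, hy⟩ := Algebra.trace_surjective F K 1
  have h1 := h (y / x)
  rw [div_mul_cancel₀ _ hx, hy] at h1
  exact one_ne_zero h1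

/-- The fixed points of the Frobenius are the base field. -/
theorem fix_range (hF : Fintype.card F = q) (hK : Fintype.card K = q ^ 2) (y : K) (hy : y ^ q = y) :
    ∃ x : F, algebraMap F K x = y := by
  obtain ⟨ι, h1, h2⟩ := Cfsg.Agent.Lib.SubfieldQ.exists_iota hK hF
  have h3 : ∀ x : F, ∃ z : F, ι z = algebraMap F K x := fun x => h2 _ (pow_q_alg hF x)
  choose g hg using h3
  have hginj : Function.Injective g := by
    intro a b hab
    apply (algebraMap F K).injective
    rw [← hg, ← hg, hab]
  have hgsurj := Finite.injective_iff_surjective.1 hginj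
  obtain ⟨z, hz⟩ := h2 y hy
  obtain ⟨x, hx⟩ := hgsurj z
  exact ⟨x, by rw [← hg, hx, hz]⟩

/-- The linear representation given by matrices. -/
noncomputable def matRep {Γ : Type*} [Group Γ] {κ : Type} [Fintype κ] [DecidableEq κ] (t : Γ →* Matrix κ κ K) :
    Γ →* ((κ → K) →ₗ[F] (κ → K)) where
  toFun g := (Matrix.mulVecLin (t g)).restrictScalars F
  map_one' := by
    ext u
    simp
  map_mul' a b := by
    ext u
    simp

theorem matRep_apply {Γ : Type*} [Group Γ] {κ : Type} [Fintype κ] [DecidableEq κ] (t : Γ →* Matrix κ κ K) (g : Γ) (u : κ → K) :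
    matRep (F := F) t g u = t g *ᵥ u := rfl

theorem matRep_inj {Γ : Type*} [Group Γ] {κ : Type} [Fintype κ] [DecidableEq κ] (t : Γ →* Matrix κ κ K) (ht : Function.Injective t) :
    Function.Injective (matRep (F := F) t) := by
  intro a b hab
  apply ht
  apply Matrix.mulVec_injective
  funext u
  have := congrArg (fun L : (κ → K) →ₗ[F] (κ → K) => L u) hab
  exact this

theorem finrank_fun (hF : Fintype.card F = q) (hK : Fintype.card K = q ^ 2) (κ : Type) [Fintype κ] :
    Module.finrank F (κ → K) = 2 * Fintype.card κ := by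
  rw [Module.finrank_pi_fintype]
  simp [finrank_two hF hK]
  ring

/-- The unitary group embedded through a form. -/
theorem embed_gu_orth (hF : Fintype.card F = q) (hK : Fintype.card K = q ^ 2) {m : ℕ} {κ : Type} [Fintype κ] [DecidableEq κ]
    (Q₂ : (κ → F) → F) (e : (Fin m → K) ≃ₗ[F] (κ → F)) (he : ∀ v, algebraMap F K (Q₂ (e v)) = hermForm m K q v v) :
    ∃ φ : ↥(GU m K q) →* ↥(isometryGroup F Q₂), Function.Injective φ := by
  let t : ↥(GU m K q) →* Matrix (Fin m) (Fin m) K := (Units.coeHom _).comp (GU m K q).subtype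
  have ht : Function.Injective t := by
    intro a b hab
    apply Subtype.ext
    apply Units.ext
    exact hab
  refine embed_orth (fun u => Q₂ (e u)) Q₂ e (fun _ => rfl) (matRep (F := F) t) (matRep_inj t ht) ?_
  intro g u
  apply (algebraMap F K).injective
  show algebraMap F K (Q₂ (e (t g *ᵥ u))) = _
  rw [he, he]
  exact g.2 u u

theorem embed_gu_sp (hF : Fintype.card F = q) (hK : Fintype.card K = q ^ 2) (m : ℕ) :
    ∃ φ : ↥(GU m K q) →* ↥(Matrix.symplecticGroup (Fin m) F), Function.Injective φ := by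
  let t : ↥(GU m K q) →* Matrix (Fin m) (Fin m) K := (Units.coeHom _).comp (GU m K q).subtype
  have ht : Function.Injective t := by
    intro a b hab
    apply Subtype.ext
    apply Units.ext
    exact hab
  obtain ⟨θ, hθ0, hθ⟩ := Cfsg.Agent.Lib.SUCenter.exists_t hK
  have hpow : ∀ c : F, (algebraMap F K c) ^ q = algebraMap F K c := pow_q_alg hF
  let B : LinearMap.BilinForm F (Fin m → K) := LinearMap.mk₂ F
    (fun u v => Algebra.trace F K (θ * hermForm m K q u v))
    (fun u u' v => by rw [hf_add_left, mul_add, map_add])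
    (fun c u v => by
      rw [← algebraMap_smul K c u, hf_smul_left, mul_left_comm, ← Algebra.smul_def, map_smul])
    (fun u v v' => by rw [hf_add_right hK, mul_add, map_add])
    (fun c u v => by
      rw [← algebraMap_smul K c v, hf_smul_right hK, hpow, mul_left_comm, ← Algebra.smul_def, map_smul])
  have hBapp : ∀ u v, B u v = Algebra.trace F K (θ * hermForm m K q u v) := fun _ _ => rfl
  have hA : B.IsAlt := by
    intro u
    apply (algebraMap F K).injective
    rw [hBapp, trace_eq hF hK, map_zero, mul_pow, hθ, ← hf_conj hK]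
    ring
  have hL : ∀ u, (∀ v, B u v = 0) → u = 0 := by
    intro u hu
    by_contra h0
    obtain ⟨x, hx⟩ := hf_nondeg_right hK h0
    apply hx
    have : θ * hermForm m K q u x = 0 := by
      apply trace_sep (F := F)
      intro c
      have h1 := hu ((c ^ q) • x)
      rw [hBapp, hf_smul_right hK, ← sig_apply hK, ← sig_apply hK, sig_sig] at h1
      rw [← h1]
      congr 1
      ring
    exact (mul_eq_zero.1 this).resolve_left hθ0
  have hN : B.Nondegenerate := by
    refine ⟨hL, fun v hv => hL v fun u => ?_⟩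
    rw [← hA.neg_eq, hv, neg_zero]
  refine embed_sp m B hA hN ?_ (matRep (F := F) t) (matRep_inj t ht) ?_
  · rw [finrank_fun hF hK]
    simp
  · intro g u v
    rw [hBapp, hBapp, matRep_apply, matRep_apply]
    congr 2
    exact g.2 u v

theorem embed_sp_sp (hF : Fintype.card F = q) (hK : Fintype.card K = q ^ 2) (a : ℕ) :
    ∃ φ : ↥(Matrix.symplecticGroup (Fin a) K) →* ↥(Matrix.symplecticGroup (Fin (2 * a)) F), Function.Injective φ := by
  let t : ↥(Matrix.symplecticGroup (Fin a) K) →* Matrix (Fin a ⊕ Fin a) (Fin a ⊕ Fin a) K := (Matrix.symplecticGroup (Fin a) K).subtype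
  have ht : Function.Injective t := Subtype.val_injective
  let B : LinearMap.BilinForm F (Fin a ⊕ Fin a → K) := LinearMap.mk₂ F
    (fun u v => Algebra.trace F K (sympForm a K u v))
    (fun u u' v => by rw [sympForm_add_left, map_add])
    (fun c u v => by
      rw [← algebraMap_smul K c u, sympForm_smul_left, ← Algebra.smul_def, map_smul])
    (fun u v v' => by rw [sympForm_add_right, map_add])
    (fun c u v => by
      rw [← algebraMap_smul K c v, sympForm_smul_right, ← Algebra.smul_def, map_smul])
  have hBapp : ∀ u v, B u v = Algebra.trace F K (sympForm a K u v) := fun _ _ => rfl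
  have hA : B.IsAlt := by
    intro u
    rw [hBapp, sympForm_self, map_zero]
  have hL : ∀ u, (∀ v, B u v = 0) → u = 0 := by
    intro u hu
    by_contra h0
    obtain ⟨x, hx⟩ := (symp_nondeg u h0).2
    apply hx
    apply trace_sep (F := F)
    intro c
    have h1 := hu (c • x)
    rw [hBapp, sympForm_smul_right] at h1
    exact h1
  have hN : B.Nondegenerate := by
    refine ⟨hL, fun v hv => hL v fun u => ?_⟩
    rw [← hA.neg_eq, hv, neg_zero]
  refine embed_sp (2 * a) B hA hN ?_ (matRep (F := F) t) (matRep_inj t ht) ?_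
  · rw [finrank_fun hF hK]
    simp
    ring
  · intro g u v
    rw [hBapp, hBapp, matRep_apply, matRep_apply]
    congr 1
    exact (preserves_iff_mem _).2 g.2 u v

end field

end Cfsg.Agent.Lib.FieldEmbed
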