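import Cfsg.Agent.Lib.FieldEmbed
import Cfsg.Agent.Lib.HermBasic

set_option autoImplicit false

namespace Cfsg.Agent.Lib.FieldEmbed2

open Matrix Cfsg Cfsg.Agent.Lib.HermStd Cfsg.Agent.Lib.HermForm Cfsg.Agent.Lib.FieldEmbed

variable {F K : Type*} [Field F] [Fintype F] [Field K] [Fintype K] [Algebra F K] {q : ℕ}

/-- Two different elements of norm `-1`. -/
theorem exists_two_minus (hK : Fintype.card K = q ^ 2) (hF : Fintype.card F = q) :
    ∃ r r' : K, r * r ^ q = -1 ∧ r' * r' ^ q = -1 ∧ r ≠ r' := by
  have hne := sig_ne hK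
  have hs2 : ∀ a : K, sig hK (sig hK a) = a := sig_sig hK
  have hnm1 : sig hK (-1 : K) = -1 := by simp
  obtain ⟨r, hr0, hr⟩ := Cfsg.Agent.Lib.HermBasic.norm_surj (sig hK) hne hs2 (-1) hnm1 (by simp)
  rw [sig_apply] at hr
  obtain ⟨t, ht⟩ : ∃ t : K, sig hK t ≠ t := by
    by_contra hcon
    push Not at hcon
    exact hne (RingHom.ext hcon)
  have ht0 : t ≠ 0 := by
    rintro rfl
    simp at ht
  have hst0 : t ^ q ≠ 0 := pow_ne_zero _ ht0
  have htt : (t ^ q) ^ q = t := by
    rw [← sig_apply hK, ← sig_apply hK, hs2]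
  rw [sig_apply] at ht
  refine ⟨r, r * (t / t ^ q), hr, ?_, ?_⟩
  · rw [mul_pow, div_pow, htt]
    field_simp
    linear_combination hr
  · intro h
    have h1 : t / t ^ q = 1 := by
      have : r * (t / t ^ q) = r * 1 := by rw [← h, mul_one]
      exact mul_left_cancel₀ hr0 this
    rw [div_eq_one_iff_eq hst0] at h1
    exact ht h1.symm

/-- The hyperbolic block over the subfield. -/
theorem exists_block (hF : Fintype.card F = q) (hK : Fintype.card K = q ^ 2) :
    ∃ T : (Fin 2 ⊕ Fin 2 → F) →ₗ[F] (Fin 2 → K), Function.Injective T ∧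
      ∀ u, T u 0 * (T u 0) ^ q + T u 1 * (T u 1) ^ q =
        algebraMap F K (u (Sum.inl 0) * u (Sum.inr 0) + u (Sum.inl 1) * u (Sum.inr 1)) := by
  classical
  obtain ⟨r, r', hr, hr', hrr⟩ := exists_two_minus hK hF
  have hpow : ∀ c : F, (algebraMap F K c) ^ q = algebraMap F K c := pow_q_alg hF
  have hqq : ∀ x : K, (x ^ q) ^ q = x := fun x => by
    rw [← sig_apply hK, ← sig_apply hK, sig_sig]
  have hinjq : ∀ x y : K, x ^ q = y ^ q → x = y := fun x y h => by
    rw [← hqq x, h, hqq]
  have hadd : ∀ x y : K, (x + y) ^ q = x ^ q + y ^ q := fun x y => by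
    simp only [← sig_apply hK, map_add]
  have hmul : ∀ x y : K, (x * y) ^ q = x ^ q * y ^ q := fun x y => mul_pow x y q
  have hr0 : r ≠ 0 := by
    rintro rfl
    rw [zero_mul] at hr
    have : (1 : K) = 0 := by linear_combination hr
    exact one_ne_zero this
  -- the scaling α
  have hw : 1 + r * r' ^ q ≠ 0 := by
    intro h
    apply hrr
    apply hinjq
    have : r * r' ^ q = r * r ^ q := by linear_combination h - hr
    exact (mul_left_cancel₀ hr0 this).symm
  obtain ⟨α, hα⟩ : ∃ α : K, α ^ q * (1 + r * r' ^ q) = 1 := by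
    refine ⟨((1 + r * r' ^ q)⁻¹) ^ q, ?_⟩
    rw [hqq, inv_mul_cancel₀ hw]
  have hα0 : α ≠ 0 := by
    rintro rfl
    have hq0 : q ≠ 0 := by
      have := one_lt_q hK
      omega
    rw [zero_pow hq0, zero_mul] at hα
    exact zero_ne_one hα
  have hα' : α * (1 + r ^ q * r') = 1 := by
    have := congrArg (fun x => x ^ q) hα
    simp only [hmul, hadd, hqq, one_pow] at this
    exact this
  -- trace dual bases
  let b : Module.Basis (Fin 2) F K := Module.finBasisOfFinrankEq F K (finrank_two hF hK)
  have hT := traceForm_nondegenerate F K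
  let d := (Algebra.traceForm F K).dualBasis hT b
  have hd : ∀ i j, Algebra.trace F K (d i * b j) = if j = i then 1 else 0 := fun i j =>
    LinearMap.BilinForm.apply_dualBasis_left hT b i j
  let A : (Fin 2 ⊕ Fin 2 → F) →ₗ[F] K :=
    { toFun := fun u => u (Sum.inl 0) • b 0 + u (Sum.inl 1) • b 1
      map_add' := fun x y => by
        simp only [Pi.add_apply, add_smul]
        abel
      map_smul' := fun c x => by
        simp only [Pi.smul_apply, smul_eq_mul, mul_smul, RingHom.id_apply, smul_add] }
  let C : (Fin 2 ⊕ Fin 2 → F) →ₗ[F] K :=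
    { toFun := fun u => u (Sum.inr 0) • d 0 + u (Sum.inr 1) • d 1
      map_add' := fun x y => by
        simp only [Pi.add_apply, add_smul]
        abel
      map_smul' := fun c x => by
        simp only [Pi.smul_apply, smul_eq_mul, mul_smul, RingHom.id_apply, smul_add] }
  have hAC : ∀ u, Algebra.trace F K (A u * C u) = u (Sum.inl 0) * u (Sum.inr 0) + u (Sum.inl 1) * u (Sum.inr 1) := by
    intro u
    have h1 : A u * C u = (u (Sum.inl 0) * u (Sum.inr 0)) • (d 0 * b 0) + (u (Sum.inl 0) * u (Sum.inr 1)) • (d 1 * b 0)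
        + (u (Sum.inl 1) * u (Sum.inr 0)) • (d 0 * b 1) + (u (Sum.inl 1) * u (Sum.inr 1)) • (d 1 * b 1) := by
      show (u (Sum.inl 0) • b 0 + u (Sum.inl 1) • b 1) * (u (Sum.inr 0) • d 0 + u (Sum.inr 1) • d 1) = _
      simp only [Algebra.smul_def, map_mul]
      ring
    rw [h1, map_add, map_add, map_add, map_smul, map_smul, map_smul, map_smul, hd, hd, hd, hd]
    simp
  have hCq : ∀ u v (c : F), (C (u + v)) ^ q = (C u) ^ q + (C v) ^ q ∧ (C (c • u)) ^ q = algebraMap F K c * (C u) ^ q := by
    intro u v c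
    constructor
    · rw [map_add, hadd]
    · rw [map_smul, Algebra.smul_def, hmul, hpow]
  let T : (Fin 2 ⊕ Fin 2 → F) →ₗ[F] (Fin 2 → K) :=
    { toFun := fun u => ![A u + (C u) ^ q * α, r * A u + (C u) ^ q * (α * r')]
      map_add' := fun x y => by
        have h1 := (hCq x y 0).1
        ext i
        fin_cases i
        · show A (x + y) + (C (x + y)) ^ q * α = (A x + (C x) ^ q * α) + (A y + (C y) ^ q * α)
          rw [map_add, h1]
          ring
        · show r * A (x + y) + (C (x + y)) ^ q * (α * r') = (r * A x + (C x) ^ q * (α * r')) + (r * A y + (C y) ^ q * (α * r'))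
          rw [map_add, h1]
          ring
      map_smul' := fun c x => by
        have h1 := (hCq x x c).2
        have hAs : A (c • x) = algebraMap F K c * A x := by rw [map_smul, Algebra.smul_def]
        ext i
        fin_cases i
        · show A (c • x) + (C (c • x)) ^ q * α = c • (A x + (C x) ^ q * α)
          rw [hAs, h1, Algebra.smul_def]
          ring
        · show r * A (c • x) + (C (c • x)) ^ q * (α * r') = c • (r * A x + (C x) ^ q * (α * r'))
          rw [hAs, h1, Algebra.smul_def]
          ring }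
  have hT0 : ∀ u, T u 0 = A u + (C u) ^ q * α := fun _ => rfl
  have hT1 : ∀ u, T u 1 = r * A u + (C u) ^ q * (α * r') := fun _ => rfl
  refine ⟨T, ?_, ?_⟩
  · rw [injective_iff_map_eq_zero]
    intro u hu
    have h0 : A u + (C u) ^ q * α = 0 := by
      rw [← hT0, hu]
      rfl
    have h1 : r * A u + (C u) ^ q * (α * r') = 0 := by
      rw [← hT1, hu]
      rfl
    have h2 : (C u) ^ q * (α * (r' - r)) = 0 := by linear_combination h1 - r * h0
    have h3 : (C u) ^ q = 0 := (mul_eq_zero.1 h2).resolve_right (mul_ne_zero hα0 (sub_ne_zero.2 hrr.symm))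
    have h4 : A u = 0 := by rw [h3, zero_mul, add_zero] at h0; exact h0
    have h5 : C u = 0 := by
      have := congrArg (fun x => x ^ q) h3
      simp only [hqq] at this
      rw [this]
      exact zero_pow (by have := one_lt_q hK; omega)
    have hi1 : u (Sum.inl 0) • b 0 + u (Sum.inl 1) • b 1 = 0 := h4
    have hi2 : u (Sum.inr 0) • d 0 + u (Sum.inr 1) • d 1 = 0 := h5
    have hb := Fintype.linearIndependent_iff.1 b.linearIndependent (fun s => u (Sum.inl s)) (by simpa [Fin.sum_univ_two] using hi1)
    have hdd := Fintype.linearIndependent_iff.1 (((Algebra.traceForm F K).dualBasis hT b).linearIndependent) (fun s => u (Sum.inr s)) (by simpa [Fin.sum_univ_two] using hi2)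
    ext i
    rcases i with i | i
    · exact hb i
    · exact hdd i
  · intro u
    rw [hT0, hT1, ← hAC, trace_eq hF hK]
    obtain ⟨X, hX⟩ : ∃ X, X = A u := ⟨_, rfl⟩
    obtain ⟨Y, hY⟩ : ∃ Y, Y = C u := ⟨_, rfl⟩
    rw [← hX, ← hY]
    simp only [hadd, hmul, hqq]
    linear_combination (X * X ^ q) * hr + (X * Y) * hα + (X ^ q * Y ^ q) * hα' + (Y ^ q * Y * α * α ^ q) * hr'

/-- A root of an irreducible quadratic polynomial in the quadratic extension. -/
theorem exists_root (hF : Fintype.card F = q) (hK : Fintype.card K = q ^ 2) (a b : F)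
    (hab : ∀ z₁ z₂ : F, z₁ ^ 2 + a * z₁ * z₂ + b * z₂ ^ 2 = 0 → z₁ = 0 ∧ z₂ = 0) :
    ∃ r : K, r ^ 2 + algebraMap F K a * r + algebraMap F K b = 0 := by
  classical
  open Polynomial in
  let P : F[X] := X ^ 2 + C a * X + C b
  have hPdeg : P.natDegree = 2 := by
    simp only [P]
    compute_degree!
  have hPmon : P.Monic := by
    simp only [P]
    monicity!
  have hroot : ∀ x : F, x ^ 2 + a * x + b ≠ 0 := by
    intro x hx
    have := (hab x 1 (by linear_combination hx)).2
    exact one_ne_zero this
  have hirr : Irreducible P := by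
    apply Polynomial.irreducible_of_degree_le_three_of_not_isRoot
    · rw [hPdeg]
      decide
    · intro x hx
      apply hroot x
      simpa [P, Polynomial.IsRoot] using hx
  haveI : Fact (Irreducible P) := ⟨hirr⟩
  let K' := AdjoinRoot P
  haveI : Module.Finite F K' := (AdjoinRoot.powerBasis hirr.ne_zero).finite
  haveI : Finite K' := Module.finite_of_finite F
  haveI : Fintype K' := Fintype.ofFinite K'
  have hcard : Fintype.card K' = q ^ 2 := by
    have h1 : Module.finrank F K' = 2 := by
      rw [(AdjoinRoot.powerBasis hirr.ne_zero).finrank, AdjoinRoot.powerBasis_dim, hPdeg]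
    rw [Module.card_eq_pow_finrank (K := F) (V := K'), h1, hF]
  open Polynomial in
  let f : F[X] := X ^ (q ^ 2) - X
  haveI h1 : Polynomial.IsSplittingField F K f := by
    have := FiniteField.isSplittingField_sub K F
    rwa [hK] at this
  haveI h2 : Polynomial.IsSplittingField F K' f := by
    have := FiniteField.isSplittingField_sub K' F
    rwa [hcard] at this
  let e : K' ≃ₐ[F] K := (Polynomial.IsSplittingField.algEquiv K' f).trans (Polynomial.IsSplittingField.algEquiv K f).symm
  refine ⟨e (AdjoinRoot.root P), ?_⟩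
  have h3 := AdjoinRoot.eval₂_root P
  simp only [P, Polynomial.eval₂_add, Polynomial.eval₂_mul, Polynomial.eval₂_pow, Polynomial.eval₂_X, Polynomial.eval₂_C] at h3
  have h4 := congrArg e h3
  simp only [map_add, map_mul, map_pow, map_zero] at h4
  have hco : ∀ x : F, e (AdjoinRoot.of P x) = algebraMap F K x := fun x => e.commutes x
  rw [hco, hco] at h4
  exact h4

/-- The norm block over the subfield. -/
theorem exists_norm_block (hF : Fintype.card F = q) (hK : Fintype.card K = q ^ 2) (a b : F)
    (hab : ∀ z₁ z₂ : F, z₁ ^ 2 + a * z₁ * z₂ + b * z₂ ^ 2 = 0 → z₁ = 0 ∧ z₂ = 0) :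
    ∃ S : (Fin 2 → F) →ₗ[F] K, Function.Injective S ∧ ∀ z, S z * (S z) ^ q = algebraMap F K (z 0 ^ 2 + a * z 0 * z 1 + b * z 1 ^ 2) := by
  obtain ⟨r, hr⟩ := exists_root hF hK a b hab
  have hpow : ∀ c : F, (algebraMap F K c) ^ q = algebraMap F K c := pow_q_alg hF
  have hadd : ∀ x y : K, (x + y) ^ q = x ^ q + y ^ q := fun x y => by
    simp only [← sig_apply hK, map_add]
  have hmul : ∀ x y : K, (x * y) ^ q = x ^ q * y ^ q := fun x y => mul_pow x y q
  have hneg : ∀ x : K, (-x) ^ q = -(x ^ q) := fun x => by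
    simp only [← sig_apply hK, map_neg]
  have hq : r ^ q ≠ r := by
    intro h
    obtain ⟨x, rfl⟩ := fix_range hF hK r h
    have h1 : x ^ 2 + a * x + b = 0 := by
      apply (algebraMap F K).injective
      rw [map_zero, ← hr]
      simp
    have := (hab x 1 (by linear_combination h1)).2
    exact one_ne_zero this
  have hrq : (r ^ q) ^ 2 + algebraMap F K a * r ^ q + algebraMap F K b = 0 := by
    have := congrArg (fun x => x ^ q) hr
    simp only [hadd, hmul, hpow] at this
    rw [zero_pow (by have := one_lt_q hK; omega)] at this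
    rw [← this]
    ring
  have hsum : r ^ q + r + algebraMap F K a = 0 := by
    have h1 : (r ^ q - r) * (r ^ q + r + algebraMap F K a) = 0 := by linear_combination hrq - hr
    exact (mul_eq_zero.1 h1).resolve_left (sub_ne_zero.2 hq)
  have hprod : r * r ^ q = algebraMap F K b := by
    have : r ^ q = - algebraMap F K a - r := by linear_combination hsum
    rw [this]
    linear_combination -hr
  let S : (Fin 2 → F) →ₗ[F] K :=
    { toFun := fun z => algebraMap F K (z 0) - r * algebraMap F K (z 1)
      map_add' := fun x y => by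
        simp only [Pi.add_apply, map_add]
        ring
      map_smul' := fun c x => by
        simp only [Pi.smul_apply, smul_eq_mul, map_mul, RingHom.id_apply, Algebra.smul_def]
        ring }
  have hS : ∀ z, S z = algebraMap F K (z 0) - r * algebraMap F K (z 1) := fun _ => rfl
  have hform : ∀ z, S z * (S z) ^ q = algebraMap F K (z 0 ^ 2 + a * z 0 * z 1 + b * z 1 ^ 2) := by
    intro z
    rw [hS, sub_eq_add_neg, hadd, hneg, hmul, hpow, hpow]
    simp only [map_add, map_mul, map_pow]
    linear_combination (- algebraMap F K (z 0) * algebraMap F K (z 1)) * hsum + (algebraMap F K (z 1)) ^ 2 * hprod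
  refine ⟨S, ?_, hform⟩
  rw [injective_iff_map_eq_zero]
  intro z hz
  have h1 := hform z
  rw [hz, zero_mul] at h1
  have h2 : z 0 ^ 2 + a * z 0 * z 1 + b * z 1 ^ 2 = 0 := by
    apply (algebraMap F K).injective
    rw [map_zero, ← h1]
  have h3 := hab _ _ h2
  ext i
  fin_cases i
  · exact h3.1
  · exact h3.2

/-- The block of coordinates. -/
def blk {l : ℕ} (u : Fin (l * 2) ⊕ Fin (l * 2) → F) (j : Fin l) : Fin 2 ⊕ Fin 2 → F :=
  Sum.elim (fun s => u (Sum.inl (finProdFinEquiv (j, s)))) (fun s => u (Sum.inr (finProdFinEquiv (j, s))))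

theorem exists_W (hF : Fintype.card F = q) (hK : Fintype.card K = q ^ 2) (l : ℕ) :
    ∃ W : (Fin (l * 2) ⊕ Fin (l * 2) → F) →ₗ[F] (Fin (l * 2) → K), Function.Injective W ∧
      ∀ u, hermForm (l * 2) K q (W u) (W u) = algebraMap F K (quadFormPlus (l * 2) F u) := by
  classical
  obtain ⟨T, hTi, hT⟩ := exists_block hF hK
  let W : (Fin (l * 2) ⊕ Fin (l * 2) → F) →ₗ[F] (Fin (l * 2) → K) :=
    { toFun := fun u i => T (blk u (finProdFinEquiv.symm i).1) (finProdFinEquiv.symm i).2
      map_add' := fun x y => by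
        ext i
        have : blk (x + y) (finProdFinEquiv.symm i).1 = blk x (finProdFinEquiv.symm i).1 + blk y (finProdFinEquiv.symm i).1 := by
          ext s
          rcases s with s | s <;> rfl
        simp only [this, map_add, Pi.add_apply]
      map_smul' := fun c x => by
        ext i
        have : blk (c • x) (finProdFinEquiv.symm i).1 = c • blk x (finProdFinEquiv.symm i).1 := by
          ext s
          rcases s with s | s <;> rfl
        simp only [this, map_smul, Pi.smul_apply, RingHom.id_apply] }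
  have hW : ∀ u (j : Fin l) (s : Fin 2), W u (finProdFinEquiv (j, s)) = T (blk u j) s := by
    intro u j s
    show T (blk u (finProdFinEquiv.symm (finProdFinEquiv (j, s))).1) (finProdFinEquiv.symm (finProdFinEquiv (j, s))).2 = _
    rw [Equiv.symm_apply_apply]
  refine ⟨W, ?_, ?_⟩
  · rw [injective_iff_map_eq_zero]
    intro u hu
    have h1 : ∀ j, blk u j = 0 := by
      intro j
      apply hTi
      rw [map_zero]
      ext s
      rw [← hW, hu]
      rfl
    ext i
    rcases i with i | i
    · obtain ⟨⟨j, s⟩, rfl⟩ := (finProdFinEquiv : Fin l × Fin 2 ≃ Fin (l * 2)).surjective i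
      exact congrFun (h1 j) (Sum.inl s)
    · obtain ⟨⟨j, s⟩, rfl⟩ := (finProdFinEquiv : Fin l × Fin 2 ≃ Fin (l * 2)).surjective i
      exact congrFun (h1 j) (Sum.inr s)
  · intro u
    have e1 : hermForm (l * 2) K q (W u) (W u) = ∑ j : Fin l, (T (blk u j) 0 * (T (blk u j) 0) ^ q + T (blk u j) 1 * (T (blk u j) 1) ^ q) := by
      unfold hermForm
      rw [← (finProdFinEquiv : Fin l × Fin 2 ≃ Fin (l * 2)).sum_comp, Fintype.sum_prod_type]
      refine Finset.sum_congr rfl fun j _ => ?_
      rw [Fin.sum_univ_two, hW, hW]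
    have e2 : quadFormPlus (l * 2) F u = ∑ j : Fin l, (blk u j (Sum.inl 0) * blk u j (Sum.inr 0) + blk u j (Sum.inl 1) * blk u j (Sum.inr 1)) := by
      unfold quadFormPlus
      rw [← (finProdFinEquiv : Fin l × Fin 2 ≃ Fin (l * 2)).sum_comp, Fintype.sum_prod_type]
      refine Finset.sum_congr rfl fun j _ => ?_
      rw [Fin.sum_univ_two]
      rfl
    rw [e1, e2, map_sum]
    exact Finset.sum_congr rfl fun j _ => hT _

theorem embed_plus (hF : Fintype.card F = q) (hK : Fintype.card K = q ^ 2) (l : ℕ) :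
    ∃ φ : ↥(GU (l * 2) K q) →* ↥(isometryGroup F (quadFormPlus (l * 2) F)), Function.Injective φ := by
  classical
  obtain ⟨W, hWi, hW⟩ := exists_W hF hK l
  have hdim : Module.finrank F (Fin (l * 2) ⊕ Fin (l * 2) → F) = Module.finrank F (Fin (l * 2) → K) := by
    rw [finrank_fun hF hK]
    simp
    ring
  let e := LinearMap.linearEquivOfInjective W hWi hdim
  refine embed_gu_orth hF hK (quadFormPlus (l * 2) F) e.symm ?_
  intro v
  obtain ⟨u, rfl⟩ := e.surjective v
  rw [LinearEquiv.symm_apply_apply]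
  exact (hW u).symm

theorem embed_minus (hF : Fintype.card F = q) (hK : Fintype.card K = q ^ 2) (l : ℕ) (a b : F)
    (hab : ∀ z₁ z₂ : F, z₁ ^ 2 + a * z₁ * z₂ + b * z₂ ^ 2 = 0 → z₁ = 0 ∧ z₂ = 0) :
    ∃ φ : ↥(GU (l * 2 + 1) K q) →* ↥(isometryGroup F (quadFormMinus (l * 2) F a b)), Function.Injective φ := by
  classical
  obtain ⟨W, hWi, hW⟩ := exists_W hF hK l
  obtain ⟨S, hSi, hS⟩ := exists_norm_block hF hK a b hab
  let W' : ((Fin (l * 2) ⊕ Fin (l * 2)) ⊕ Fin 2 → F) →ₗ[F] (Fin (l * 2 + 1) → K) :=
    { toFun := fun u => Fin.snoc (α := fun _ => K) (W (fun x => u (Sum.inl x))) (S (fun x => u (Sum.inr x)))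
      map_add' := fun x y => by
        ext i
        have e1 : (fun z => (x + y) (Sum.inl z)) = (fun z => x (Sum.inl z)) + (fun z => y (Sum.inl z)) := rfl
        have e2 : (fun z => (x + y) (Sum.inr z)) = (fun z => x (Sum.inr z)) + (fun z => y (Sum.inr z)) := rfl
        refine Fin.lastCases ?_ (fun j => ?_) i
        · rw [Pi.add_apply, Fin.snoc_last, Fin.snoc_last, Fin.snoc_last, e2, map_add]
        · rw [Pi.add_apply, Fin.snoc_castSucc, Fin.snoc_castSucc, Fin.snoc_castSucc, e1, map_add]
          rfl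
      map_smul' := fun c x => by
        ext i
        have e1 : (fun z => (c • x) (Sum.inl z)) = c • (fun z => x (Sum.inl z)) := rfl
        have e2 : (fun z => (c • x) (Sum.inr z)) = c • (fun z => x (Sum.inr z)) := rfl
        refine Fin.lastCases ?_ (fun j => ?_) i
        · rw [Pi.smul_apply, Fin.snoc_last, Fin.snoc_last, e2, map_smul]
          rfl
        · rw [Pi.smul_apply, Fin.snoc_castSucc, Fin.snoc_castSucc, e1, map_smul]
          rfl }
  have hlast : ∀ u, W' u (Fin.last _) = S (fun x => u (Sum.inr x)) := fun u => by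
    show (Fin.snoc (α := fun _ => K) _ _ : Fin (l * 2 + 1) → K) (Fin.last _) = _
    simp
  have hcast : ∀ u (i : Fin (l * 2)), W' u i.castSucc = W (fun x => u (Sum.inl x)) i := fun u i => by
    show (Fin.snoc (α := fun _ => K) _ _ : Fin (l * 2 + 1) → K) i.castSucc = _
    simp
  have hinj : Function.Injective W' := by
    rw [injective_iff_map_eq_zero]
    intro u hu
    have h1 : (fun x => u (Sum.inl x)) = 0 := by
      apply hWi
      rw [map_zero]
      ext i
      rw [← hcast, hu]
      rfl
    have h2 : (fun x => u (Sum.inr x)) = 0 := by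
      apply hSi
      rw [map_zero, ← hlast, hu]
      rfl
    ext i
    rcases i with i | i
    · exact congrFun h1 i
    · exact congrFun h2 i
  have hdim : Module.finrank F ((Fin (l * 2) ⊕ Fin (l * 2)) ⊕ Fin 2 → F) = Module.finrank F (Fin (l * 2 + 1) → K) := by
    rw [finrank_fun hF hK]
    simp
    ring
  let e := LinearMap.linearEquivOfInjective W' hinj hdim
  refine embed_gu_orth hF hK (quadFormMinus (l * 2) F a b) e.symm ?_
  intro v
  obtain ⟨u, rfl⟩ := e.surjective v
  rw [LinearEquiv.symm_apply_apply]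
  show _ = hermForm (l * 2 + 1) K q (W' u) (W' u)
  have e1 : hermForm (l * 2 + 1) K q (W' u) (W' u) = hermForm (l * 2) K q (W (fun x => u (Sum.inl x))) (W (fun x => u (Sum.inl x))) + S (fun x => u (Sum.inr x)) * (S (fun x => u (Sum.inr x))) ^ q := by
    unfold hermForm
    rw [Fin.sum_univ_castSucc, hlast]
    congr 1
    exact Finset.sum_congr rfl fun i _ => by rw [hcast]
  rw [e1, hW, hS]
  simp only [← map_add]
  rfl

end Cfsg.Agent.Lib.FieldEmbed2
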