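import Mathlib

set_option autoImplicit false

namespace Cfsg.Agent.Lib.FieldExt2

open Polynomial

variable {F : Type*} [Field F] [Fintype F]

/-- An element `α` of a field extension with `α^q = α` lies in the image of `F`. -/
theorem exists_of_pow_card_eq {K : Type*} [Field K] [Algebra F K] (α : K)
    (h : α ^ Fintype.card F = α) : ∃ a : F, algebraMap F K a = α := by
  classical
  have hq : 1 < Fintype.card F := Fintype.one_lt_card
  have hne : (X ^ Fintype.card F - X : K[X]) ≠ 0 := FiniteField.X_pow_card_sub_X_ne_zero K hq
  have hdeg := FiniteField.X_pow_card_sub_X_natDegree_eq K hq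
  have hsub : Finset.image (algebraMap F K) Finset.univ ⊆ (X ^ Fintype.card F - X : K[X]).roots.toFinset := by
    intro x hx
    rw [Finset.mem_image] at hx
    obtain ⟨a, -, rfl⟩ := hx
    rw [Multiset.mem_toFinset, mem_roots hne]
    simp [IsRoot, ← map_pow, FiniteField.pow_card]
  have hcard : (X ^ Fintype.card F - X : K[X]).roots.toFinset.card ≤ (Finset.image (algebraMap F K) Finset.univ).card := by
    rw [Finset.card_image_of_injective _ (algebraMap F K).injective, Finset.card_univ]
    calc _ ≤ Multiset.card (X ^ Fintype.card F - X : K[X]).roots := Multiset.toFinset_card_le _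
      _ ≤ (X ^ Fintype.card F - X : K[X]).natDegree := card_roots' _
      _ = _ := hdeg
  have heq := Finset.eq_of_subset_of_card_le hsub hcard
  have hα : α ∈ (X ^ Fintype.card F - X : K[X]).roots.toFinset := by
    rw [Multiset.mem_toFinset, mem_roots hne]
    simp [IsRoot, h]
  rw [← heq, Finset.mem_image] at hα
  obtain ⟨a, -, ha⟩ := hα
  exact ⟨a, ha⟩

/-- A monic quadratic `X² - tX + d` with no roots in `F` divides `X^(q+1) - d`. -/
theorem quad_dvd (t d : F) (hroot : ∀ x : F, x ^ 2 - t * x + d ≠ 0) :
    (X ^ 2 - C t * X + C d : F[X]) ∣ X ^ (Fintype.card F + 1) - C d := by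
  classical
  set P : F[X] := X ^ 2 - C t * X + C d with hP
  have hPdeg : P.natDegree = 2 := by
    rw [hP]
    compute_degree!
  have hPmon : P.Monic := by
    rw [hP]
    monicity!
  have hirr : Irreducible P := by
    apply irreducible_of_degree_le_three_of_not_isRoot
    · rw [hPdeg]; decide
    · intro x hx
      apply hroot x
      simpa [hP, IsRoot] using hx
  haveI : Fact (Irreducible P) := ⟨hirr⟩
  let K := AdjoinRoot P
  let α : K := AdjoinRoot.root P
  have hα : α ^ 2 - algebraMap F K t * α + algebraMap F K d = 0 := by
    have := AdjoinRoot.eval₂_root P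
    simp only [hP, eval₂_add, eval₂_sub, eval₂_mul, eval₂_pow, eval₂_X, eval₂_C] at this
    exact this
  have hfrob : (α ^ Fintype.card F) ^ 2 - algebraMap F K t * α ^ Fintype.card F + algebraMap F K d = 0 := by
    have h1 := congrArg (FiniteField.frobeniusAlgHom F K) hα
    simpa [map_add, map_sub, map_mul, map_pow, AlgHom.commutes] using h1
  have hne : α ^ Fintype.card F ≠ α := by
    intro h
    obtain ⟨a, ha⟩ := exists_of_pow_card_eq (F := F) α h
    apply hroot a
    apply (algebraMap F K).injective
    rw [map_zero, map_add, map_sub, map_mul, map_pow, ha]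
    exact hα
  have hsum : α ^ Fintype.card F + α = algebraMap F K t := by
    have : (α ^ Fintype.card F - α) * (α ^ Fintype.card F + α - algebraMap F K t) = 0 := by
      linear_combination hfrob - hα
    rcases mul_eq_zero.mp this with h | h
    · exact absurd (sub_eq_zero.mp h) hne
    · linear_combination h
  have hprod : α ^ (Fintype.card F + 1) = algebraMap F K d := by
    rw [pow_succ]
    linear_combination α * hsum - hα
  -- conclude divisibility
  rw [← AdjoinRoot.mk_eq_zero]
  have : AdjoinRoot.mk P (X ^ (Fintype.card F + 1) - C d) = α ^ (Fintype.card F + 1) - algebraMap F K d := by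
    simp [α, AdjoinRoot.mk_X, AdjoinRoot.mk_C, AdjoinRoot.algebraMap_eq, K]
  rw [this, hprod, sub_self]

end Cfsg.Agent.Lib.FieldExt2
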