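import Mathlib

set_option autoImplicit false

namespace Cfsg.Agent.Lib.FieldTwoPart

theorem val_decomp {n : ℕ} (hn : n ≠ 0) : ∃ n', ¬ 2 ∣ n' ∧ n = 2 ^ padicValNat 2 n * n' := by
  obtain ⟨n', hn'⟩ := pow_padicValNat_dvd (p := 2) (n := n)
  refine ⟨n', ?_, hn'⟩
  rintro ⟨k, rfl⟩
  apply pow_succ_padicValNat_not_dvd (p := 2) hn
  exact ⟨k, by rw [pow_succ]; rw [mul_assoc]; exact hn'⟩

variable {F : Type*} [Field F] [Fintype F]

theorem two_ne_zero_of_odd (h : Odd (Fintype.card F)) : (2 : F) ≠ 0 := by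
  intro h2
  have h3 : ringChar F = 2 := by
    have := CharTwo.of_one_ne_zero_of_two_eq_zero (R := F) one_ne_zero h2
    exact ringChar.eq F 2
  rw [FiniteField.even_card_iff_char_two] at h3
  rw [Nat.odd_iff] at h
  omega

theorem ringChar_ne (h : Odd (Fintype.card F)) : ringChar F ≠ 2 := by
  intro h3
  rw [FiniteField.even_card_iff_char_two] at h3
  rw [Nat.odd_iff] at h
  omega

theorem neg_one_ne_one (h : Odd (Fintype.card F)) : (-1 : F) ≠ 1 := by
  intro h1
  apply two_ne_zero_of_odd h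
  linear_combination -h1

/-- `-1` is an `n`-th power iff `v₂(n) < v₂(q-1)`. -/
theorem exists_pow_neg_one (h : Odd (Fintype.card F)) {n : ℕ} (hn : 1 ≤ n) :
    (∃ c : F, c ≠ 0 ∧ c ^ n = -1) ↔ padicValNat 2 n < padicValNat 2 (Fintype.card F - 1) := by
  have hq : 1 < Fintype.card F := Fintype.one_lt_card
  set N := Fintype.card F - 1 with hN
  have hN0 : N ≠ 0 := by omega
  obtain ⟨b, hb, hNb⟩ := val_decomp hN0
  obtain ⟨n', hn', hnn⟩ := val_decomp (show n ≠ 0 by omega)
  set a := padicValNat 2 N with ha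
  set s := padicValNat 2 n with hs
  have hodd : ¬ 2 ∣ N → False := by
    intro hh
    apply hh
    rw [Nat.odd_iff] at h
    omega
  have hpow : ∀ c : F, c ≠ 0 → c ^ N = 1 := fun c hc => FiniteField.pow_card_sub_one_eq_one c hc
  constructor
  · rintro ⟨c, hc, hcn⟩
    by_contra hlt
    push Not at hlt
    have h1 : c ^ (n * b) = -1 := by
      rw [pow_mul, hcn]
      apply Odd.neg_one_pow
      rw [Nat.odd_iff]; omega
    have h2 : c ^ (n * b) = 1 := by
      have : n * b = N * (2 ^ (s - a) * n') := by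
        conv_lhs => rw [hnn]
        conv_rhs => rw [hNb]
        have e : 2 ^ s = 2 ^ a * 2 ^ (s - a) := by
          rw [← pow_add]; congr 1; omega
        rw [e]; ring
      rw [this, pow_mul, hpow c hc, one_pow]
    rw [h1] at h2
    exact neg_one_ne_one h h2
  · intro hlt
    have ha1 : 1 ≤ a := by omega
    classical
    obtain ⟨ζ, hζ⟩ := IsCyclic.exists_generator (α := Fˣ)
    have hord : orderOf ζ = N := by
      rw [orderOf_eq_card_of_forall_mem_zpowers hζ, Nat.card_eq_fintype_card, Fintype.card_units]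
    have hNN : N = 2 * (2 ^ (a - 1) * b) := by
      conv_lhs => rw [hNb]
      have e : 2 ^ a = 2 * 2 ^ (a - 1) := by
        rw [← pow_succ']; congr 1; omega
      rw [e]; ring
    have hx : (ζ : F) ^ (2 ^ (a - 1) * b) = -1 := by
      have h1 : ((ζ : F) ^ (2 ^ (a - 1) * b)) * ((ζ : F) ^ (2 ^ (a - 1) * b)) = 1 := by
        rw [← pow_add, ← two_mul, ← hNN]
        exact hpow _ ζ.ne_zero
      rcases mul_self_eq_one_iff.1 h1 with h2 | h2
      · exfalso
        have h2' : ζ ^ (2 ^ (a - 1) * b) = 1 := Units.ext (by simpa using h2)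
        have h3 := orderOf_dvd_of_pow_eq_one h2'
        rw [hord] at h3
        have h4 := Nat.le_of_dvd (by
          have : 0 < 2 ^ (a - 1) := by positivity
          have : 0 < b := by
            rcases Nat.eq_zero_or_pos b with hb0 | hb0
            · exact absurd (hb0 ▸ dvd_zero 2) hb
            · exact hb0
          positivity) h3
        have : 0 < 2 ^ (a - 1) * b := by
          rcases Nat.eq_zero_or_pos (2 ^ (a - 1) * b) with hb0 | hb0
          · rw [hb0] at hNN; omega
          · exact hb0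
        omega
      · exact h2
    let x : F := (ζ : F) ^ (b * 2 ^ (a - 1 - s))
    have hxs : x ^ (2 ^ s) = -1 := by
      show ((ζ : F) ^ (b * 2 ^ (a - 1 - s))) ^ (2 ^ s) = -1
      rw [← pow_mul, ← hx]
      congr 1
      have e : 2 ^ (a - 1) = 2 ^ (a - 1 - s) * 2 ^ s := by
        rw [← pow_add]; congr 1; omega
      rw [e]; ring
    refine ⟨x, pow_ne_zero _ ζ.ne_zero, ?_⟩
    rw [hnn, pow_mul, hxs]
    have : Odd n' := by rw [Nat.odd_iff]; omega
    rw [this.neg_one_pow]

/-- Key step for the `blockDiagonal` involution. -/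
theorem pow_half_of_pow (h : Odd (Fintype.card F)) {z : F} (hz : z ≠ 0) {m : ℕ} (hm : 1 ≤ m)
    (hzm : z ^ m = 1)
    (hs : padicValNat 2 m + 1 ≤ padicValNat 2 (Fintype.card F - 1)) :
    IsSquare z := by
  have hq : 1 < Fintype.card F := Fintype.one_lt_card
  set N := Fintype.card F - 1 with hN
  have hN0 : N ≠ 0 := by omega
  obtain ⟨b, hb, hNb⟩ := val_decomp hN0
  obtain ⟨m', hm', hmm⟩ := val_decomp (show m ≠ 0 by omega)
  set a := padicValNat 2 N with ha
  set s := padicValNat 2 m with hss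
  have hNN : N = 2 * (2 ^ (a - 1) * b) := by
    conv_lhs => rw [hNb]
    have e : 2 ^ a = 2 * 2 ^ (a - 1) := by
      rw [← pow_succ']; congr 1; omega
    rw [e]; ring
  have hq2 : Fintype.card F / 2 = 2 ^ (a - 1) * b := by
    have : Fintype.card F = 2 * (2 ^ (a - 1) * b) + 1 := by omega
    omega
  rw [FiniteField.isSquare_iff (ringChar_ne h) hz, hq2]
  set t := z ^ (2 ^ (a - 1) * b) with ht
  have ht2 : t ^ 2 = 1 := by
    rw [ht, ← pow_mul, mul_comm, ← hNN]
    exact FiniteField.pow_card_sub_one_eq_one z hz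
  have htm : t ^ m' = 1 := by
    rw [ht, ← pow_mul]
    have e : 2 ^ (a - 1) * b * m' = m * (2 ^ (a - 1 - s) * b) := by
      conv_rhs => rw [hmm]
      have e : 2 ^ (a - 1) = 2 ^ (a - 1 - s) * 2 ^ s := by
        rw [← pow_add]; congr 1; omega
      rw [e]; ring
    rw [e, pow_mul, hzm, one_pow]
  obtain ⟨k, hk⟩ : ∃ k, m' = 2 * k + 1 := ⟨m' / 2, by omega⟩
  rw [hk, pow_succ, pow_mul, ht2, one_pow, one_mul] at htm
  exact htm

theorem not_isSquare_of_order (h : Odd (Fintype.card F)) {μ : F}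
    (hμ : orderOf μ = 2 ^ padicValNat 2 (Fintype.card F - 1)) : ¬ IsSquare μ := by
  have hμ0 : μ ≠ 0 := by
    rintro rfl
    rw [orderOf_eq_zero (by
      rw [isOfFinOrder_iff_pow_eq_one]
      rintro ⟨n, hn, hn2⟩
      rw [zero_pow hn.ne'] at hn2
      exact zero_ne_one hn2)] at hμ
    have : 0 < 2 ^ padicValNat 2 (Fintype.card F - 1) := by positivity
    omega
  have hq : 1 < Fintype.card F := Fintype.one_lt_card
  set N := Fintype.card F - 1 with hN
  have hN0 : N ≠ 0 := by omega
  obtain ⟨b, hb, hNb⟩ := val_decomp hN0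
  set a := padicValNat 2 N with ha
  have ha1 : 1 ≤ a := by
    by_contra ha0
    have : a = 0 := by omega
    rw [this, pow_zero, one_mul] at hNb
    rw [Nat.odd_iff] at h
    omega
  have hNN : N = 2 * (2 ^ (a - 1) * b) := by
    conv_lhs => rw [hNb]
    have e : 2 ^ a = 2 * 2 ^ (a - 1) := by
      rw [← pow_succ']; congr 1; omega
    rw [e]; ring
  have hq2 : Fintype.card F / 2 = 2 ^ (a - 1) * b := by
    have : Fintype.card F = 2 * (2 ^ (a - 1) * b) + 1 := by omega
    omega
  rw [FiniteField.isSquare_iff (ringChar_ne h) hμ0, hq2]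
  intro h1
  have h2 := orderOf_dvd_of_pow_eq_one h1
  rw [hμ] at h2
  have e : 2 ^ a = 2 ^ (a - 1) * 2 := by
    rw [← pow_succ]; congr 1; omega
  rw [e] at h2
  have h3 := Nat.dvd_of_mul_dvd_mul_left (by positivity) h2
  exact hb h3

end Cfsg.Agent.Lib.FieldTwoPart
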