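import Cfsg.Agent.Lib.DecompOver
import Cfsg.Agent.Lib.OrthChar

set_option autoImplicit false

/-! Overgroups of decomposition stabilisers in `Ω_n(3)` whose blocks have a canonical orthogonal frame. -/

namespace Cfsg.Agent.Lib.Frame3

open Matrix Cfsg Cfsg.Geo Cfsg.Agent.Lib.OrthE Cfsg.Agent.Lib.OrthChar Cfsg.Agent.Lib.OrthSpin Cfsg.Agent.Lib.OrthNeg
open scoped MatrixGroups

variable {ι : Type} [Fintype ι] [DecidableEq ι] {F : Type*} [Field F] [Fintype F] {Q : (ι → F) → F}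

local notation "B" => QuadraticMap.polar Q

theorem three_zero (hF : Fintype.card F = 3) : (3 : F) = 0 := by
  have hcast : ((Fintype.card F : ℕ) : F) = 0 := FiniteField.cast_card_eq_zero F
  rw [hF] at hcast
  exact_mod_cast hcast

theorem two_ne (hF : Fintype.card F = 3) : (2 : F) ≠ 0 := by
  intro h
  have h3 := three_zero hF
  have : (1 : F) = 0 := by linear_combination h3 - h
  exact one_ne_zero this

theorem sq_one (hF : Fintype.card F = 3) {a : F} (ha : a ≠ 0) : a ^ 2 = 1 := by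
  have := FiniteField.pow_card_sub_one_eq_one a ha
  rwa [hF] at this

theorem sq_cases (hF : Fintype.card F = 3) (a : F) : a = 0 ∨ a = 1 ∨ a = -1 := by
  by_cases ha : a = 0
  · exact Or.inl ha
  · right
    have h : (a - 1) * (a + 1) = 0 := by linear_combination sq_one hF ha
    rcases mul_eq_zero.1 h with h | h
    · exact Or.inl (sub_eq_zero.1 h)
    · exact Or.inr (by linear_combination h)

theorem main_frame (hQ : IsNondegenerateQuadraticForm Q) (hF : Fintype.card F = 3) {t k : ℕ}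
    {D : Fin t → Submodule F (ι → F)} (hortho : ∀ i j, i ≠ j → ∀ u ∈ D i, ∀ v ∈ D j, B u v = 0)
    (w : Fin t → Fin k → ι → F) (hw : ∀ i j, w i j ∈ D i) {ε : F} (hε : ε ≠ 0) (hQw : ∀ i j, Q (w i j) = ε)
    (hBw : ∀ i j j', j ≠ j' → B (w i j) (w i j') = 0) (L : Set (ι → F))
    (hLinv : ∀ g : GL ι F, g ∈ decompositionStabilizer D → g ∈ isometryGroup F Q → ∀ v ∈ L, (g : Matrix ι ι F) *ᵥ v ∈ L)
    (hLchar : ∀ v ∈ L, ∃ i j, ∃ c : F, c ≠ 0 ∧ v = c • w i j) (hLmem : ∀ i j, ∀ c : F, c ≠ 0 → c • w i j ∈ L)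
    (hLD : ∀ v ∈ L, ∃ i, v ∈ D i) (ht : 5 ≤ t) (hk : 2 ≤ k) (hn : 2 ≤ Fintype.card ι) :
    ∃ K : Subgroup (GL ι F), decompositionStabilizer D ⊓ omegaGL Q < K ∧ K < omegaGL Q := by
  classical
  have h3 := three_zero hF
  have h2 := two_ne hF
  have h2ε : 2 * ε ≠ 0 := mul_ne_zero h2 hε
  let i₀ : Fin t := ⟨0, by omega⟩
  let i₁ : Fin t := ⟨1, by omega⟩
  let i₂ : Fin t := ⟨2, by omega⟩
  let i₃ : Fin t := ⟨3, by omega⟩
  let i₄ : Fin t := ⟨4, by omega⟩
  let j₀ : Fin k := ⟨0, by omega⟩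
  let j₁ : Fin k := ⟨1, by omega⟩
  have hj : j₀ ≠ j₁ := by simp [j₀, j₁, Fin.ext_iff]
  have hii : ∀ i j, B (w i j) (w i j) = 2 * ε := fun i j => by rw [B_self hQ, hQw]
  have hB : ∀ {i i' : Fin t} (j j' : Fin k), i ≠ i' → B (w i j) (w i' j') = 0 := fun j j' h =>
    hortho _ _ h _ (hw _ j) _ (hw _ j')
  have h01 : i₀ ≠ i₁ := by simp [i₀, i₁, Fin.ext_iff]
  have h02 : i₀ ≠ i₂ := by simp [i₀, i₂, Fin.ext_iff]
  have h03 : i₀ ≠ i₃ := by simp [i₀, i₃, Fin.ext_iff]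
  have h04 : i₀ ≠ i₄ := by simp [i₀, i₄, Fin.ext_iff]
  have h12 : i₁ ≠ i₂ := by simp [i₁, i₂, Fin.ext_iff]
  have h13 : i₁ ≠ i₃ := by simp [i₁, i₃, Fin.ext_iff]
  have h14 : i₁ ≠ i₄ := by simp [i₁, i₄, Fin.ext_iff]
  have h23 : i₂ ≠ i₃ := by simp [i₂, i₃, Fin.ext_iff]
  have h24 : i₂ ≠ i₄ := by simp [i₂, i₄, Fin.ext_iff]
  have h34 : i₃ ≠ i₄ := by simp [i₃, i₄, Fin.ext_iff]
  -- reflections stabilising `L`
  have hstabR : ∀ u (hu : Q u ≠ 0), (∀ v ∈ L, ((R Q u : GL ι F) : Matrix ι ι F) *ᵥ v ∈ L) →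
      R Q u ∈ stabilizing (Units.coeHom (Matrix ι ι F)) L := by
    intro u hu h v
    constructor
    · exact h v
    · intro hv
      have hv' : ((R Q u : GL ι F) : Matrix ι ι F) *ᵥ v ∈ L := hv
      have := h _ hv'
      rwa [← mul_mulVec, R_mul_self hQ hu, one_mulVec'] at this
  -- a swap of two frame vectors
  have hswap : ∀ (i i' : Fin t) (j j' : Fin k), (i ≠ i') → (∀ v ∈ L, ((R Q (w i j - w i' j') : GL ι F) : Matrix ι ι F) *ᵥ v ∈ L) ∧
      Q (w i j - w i' j') = 2 * ε := by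
    intro i i' j j' hne
    have hQu : Q (w i j - w i' j') = 2 * ε := by
      rw [Q_sub hQ, hQw, hQw, hB j j' hne]
      ring
    refine ⟨?_, hQu⟩
    have hu : Q (w i j - w i' j') ≠ 0 := by rw [hQu]; exact h2ε
    intro v hv
    obtain ⟨r, s, c, hc, rfl⟩ := hLchar v hv
    rw [R_mulVec hQ hu, hQu]
    by_cases h1 : r = i ∧ s = j
    · obtain ⟨rfl, rfl⟩ := h1
      have e : B (c • w r s) (w r s - w i' j') = c * (2 * ε) := by
        rw [B_smul_left hQ, B_sub_right hQ, hii, hB s j' hne, sub_zero]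
      rw [e]
      have e2 : c • w r s - ((2 * ε)⁻¹ * (c * (2 * ε))) • (w r s - w i' j') = c • w i' j' := by
        have : (2 * ε)⁻¹ * (c * (2 * ε)) = c := by field_simp
        rw [this, smul_sub, sub_sub_cancel]
      rw [e2]
      exact hLmem _ _ _ hc
    · by_cases h4 : r = i' ∧ s = j'
      · obtain ⟨rfl, rfl⟩ := h4
        have e : B (c • w r s) (w i j - w r s) = - (c * (2 * ε)) := by
          rw [B_smul_left hQ, B_sub_right hQ, hii, hB s j hne.symm]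
          ring
        rw [e]
        have e2 : c • w r s - ((2 * ε)⁻¹ * (- (c * (2 * ε)))) • (w i j - w r s) = c • w i j := by
          have : (2 * ε)⁻¹ * (- (c * (2 * ε))) = -c := by field_simp
          rw [this, neg_smul, smul_sub]
          abel
        rw [e2]
        exact hLmem _ _ _ hc
      · have e1 : B (w r s) (w i j) = 0 := by
          by_cases hr : r = i
          · subst hr
            have : s ≠ j := fun h => h1 ⟨rfl, h⟩
            exact hBw _ _ _ this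
          · exact hB _ _ hr
        have e2 : B (w r s) (w i' j') = 0 := by
          by_cases hr : r = i'
          · subst hr
            have : s ≠ j' := fun h => h4 ⟨rfl, h⟩
            exact hBw _ _ _ this
          · exact hB _ _ hr
        rw [B_smul_left hQ, B_sub_right hQ, e1, e2]
        simp only [sub_self, mul_zero, zero_smul, sub_zero]
        exact hLmem _ _ _ hc
  have hi₃ := hswap i₂ i₃ j₀ j₀ h23
  have hi₁ := hswap i₀ i₁ j₁ j₀ h01
  set u := w i₀ j₁ - w i₁ j₀ with hu_def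
  set u' := w i₂ j₀ - w i₃ j₀ with hu'_def
  have hu : Q u ≠ 0 := by rw [hi₁.2]; exact h2ε
  have hu' : Q u' ≠ 0 := by rw [hi₃.2]; exact h2ε
  let ρ₁ : ↥(isometryGroup F Q) := prodR hQ [u, u']
  have hρ₁ : ρ₁ ∈ Omega F Q := by
    rw [list_mem_omega_iff hQ h2 hn]
    · refine ⟨by simp, ?_⟩
      simp only [List.map_cons, List.map_nil, List.prod_cons, List.prod_nil, mul_one]
      rw [hi₁.2, hi₃.2]
      exact ⟨2 * ε, rfl⟩
    · intro v hv
      simp only [List.mem_cons, List.not_mem_nil, or_false] at hv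
      rcases hv with rfl | rfl
      · exact hu
      · exact hu'
  have hρ₁v : ((ρ₁ : GL ι F)) = R Q u * R Q u' := by
    show ((prodR hQ [u, u'] : ↥(isometryGroup F Q)) : GL ι F) = _
    rw [prodR_cons, prodR_cons, prodR_nil, mul_one, rr_eq hQ hu, rr_eq hQ hu']
    rfl
  -- the second witness
  let x : Fin t → ι → F := fun i => w i j₀
  let s : ι → F := x i₀ + x i₁ + x i₂ + x i₃
  have hxx : ∀ i, B (x i) (x i) = 2 * ε := fun i => hii _ _
  have hxB : ∀ {i i' : Fin t}, i ≠ i' → B (x i) (x i') = 0 := fun h => hB _ _ h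
  have hQs : Q s = ε := by
    simp only [s, Q_add hQ, B_add_left hQ, hxB h01, hxB h02, hxB h03, hxB h12, hxB h13, hxB h23]
    have e : ∀ i, Q (x i) = ε := fun i => hQw _ _
    rw [e, e, e, e]
    linear_combination ε * h3
  have hs : Q s ≠ 0 := by rw [hQs]; exact hε
  have hy : Q (x i₄) ≠ 0 := by rw [show Q (x i₄) = ε from hQw _ _]; exact hε
  let ρ₂ : ↥(isometryGroup F Q) := prodR hQ [s, x i₄]
  have hρ₂ : ρ₂ ∈ Omega F Q := by
    rw [list_mem_omega_iff hQ h2 hn]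
    · refine ⟨by simp, ?_⟩
      simp only [List.map_cons, List.map_nil, List.prod_cons, List.prod_nil, mul_one]
      rw [hQs, show Q (x i₄) = ε from hQw _ _]
      exact ⟨ε, rfl⟩
    · intro v hv
      simp only [List.mem_cons, List.not_mem_nil, or_false] at hv
      rcases hv with rfl | rfl
      · exact hs
      · exact hy
  have hρ₂v : ((ρ₂ : GL ι F)) = R Q s * R Q (x i₄) := by
    show ((prodR hQ [s, x i₄] : ↥(isometryGroup F Q)) : GL ι F) = _
    rw [prodR_cons, prodR_cons, prodR_nil, mul_one, rr_eq hQ hs, rr_eq hQ hy]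
    rfl
  refine ⟨stabilizing (Units.coeHom (Matrix ι ι F)) L ⊓ omegaGL Q, ?_, ?_⟩
  · refine lt_of_le_of_ne ?_ ?_
    · refine le_inf ?_ inf_le_right
      rintro g ⟨hg1, hg2⟩
      have hgO : ∀ g : GL ι F, g ∈ omegaGL Q → g ∈ isometryGroup F Q := by
        rintro _ ⟨h, -, rfl⟩
        exact h.2
      intro v
      constructor
      · exact hLinv g hg1 (hgO g hg2) v
      · intro hv
        have hv' : (g : Matrix ι ι F) *ᵥ v ∈ L := hv
        have := hLinv g⁻¹ ((decompositionStabilizer D).inv_mem hg1) ((isometryGroup F Q).inv_mem (hgO g hg2)) _ hv'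
        rwa [Matrix.mulVec_mulVec, ← Units.val_mul, inv_mul_cancel, Units.val_one, Matrix.one_mulVec] at this
    · intro heq
      have hmem : (ρ₁ : GL ι F) ∈ stabilizing (Units.coeHom (Matrix ι ι F)) L ⊓ omegaGL Q := by
        refine ⟨?_, ⟨ρ₁, hρ₁, rfl⟩⟩
        rw [hρ₁v]
        exact Subgroup.mul_mem _ (hstabR u hu hi₁.1) (hstabR u' hu' hi₃.1)
      rw [← heq] at hmem
      obtain ⟨σ, hσ⟩ := hmem.1
      have hv : ((ρ₁ : GL ι F) : Matrix ι ι F) *ᵥ (w i₀ j₀ + w i₀ j₁) ∈ D (σ i₀) := by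
        rw [← hσ]
        exact ⟨_, (D i₀).add_mem (hw _ _) (hw _ _), by rw [Matrix.toLin'_apply]⟩
      have e : ((ρ₁ : GL ι F) : Matrix ι ι F) *ᵥ (w i₀ j₀ + w i₀ j₁) = w i₀ j₀ + w i₁ j₀ := by
        rw [hρ₁v, mul_mulVec, R_mulVec hQ hu', R_mulVec hQ hu]
        have e1 : B (w i₀ j₀ + w i₀ j₁) u' = 0 := by
          rw [hu'_def, B_add_left hQ, B_sub_right hQ, B_sub_right hQ, hB _ _ h02, hB _ _ h03, hB _ _ h02, hB _ _ h03]
          simp
        rw [e1, mul_zero, zero_smul, sub_zero]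
        have e2 : B (w i₀ j₀ + w i₀ j₁) u = 2 * ε := by
          rw [hu_def, B_add_left hQ, B_sub_right hQ, B_sub_right hQ, hBw _ _ _ hj, hB _ _ h01, hii, hB _ _ h01]
          simp
        rw [e2, hi₁.2, inv_mul_cancel₀ h2ε, one_smul, hu_def]
        abel
      rw [e] at hv
      by_cases hk : σ i₀ = i₀
      · rw [hk] at hv
        have := hortho _ _ h01 _ hv _ (hw i₁ j₀)
        rw [B_add_left hQ, hB _ _ h01, hii, zero_add] at this
        exact h2ε this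
      · have := hortho _ _ hk _ hv _ (hw i₀ j₀)
        rw [B_add_left hQ, hii, hB _ _ h01.symm, add_zero] at this
        exact h2ε this
  · refine lt_of_le_of_ne inf_le_right ?_
    intro heq
    have hmem : (ρ₂ : GL ι F) ∈ stabilizing (Units.coeHom (Matrix ι ι F)) L ⊓ omegaGL Q := by
      rw [heq]
      exact ⟨ρ₂, hρ₂, rfl⟩
    have h1 : x i₀ ∈ L := by
      have := hLmem i₀ j₀ 1 one_ne_zero
      rwa [one_smul] at this
    have h4 : ((ρ₂ : GL ι F) : Matrix ι ι F) *ᵥ (x i₀) ∈ L := (hmem.1 _).1 h1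
    have e : ((ρ₂ : GL ι F) : Matrix ι ι F) *ᵥ (x i₀) = x i₀ - (ε⁻¹ * (2 * ε)) • s := by
      rw [hρ₂v, mul_mulVec, R_mulVec hQ hy, R_mulVec hQ hs, hxB h04]
      simp only [mul_zero, zero_smul, sub_zero]
      have e2 : B (x i₀) s = 2 * ε := by
        simp only [s, B_add_right hQ, hxx, hxB h01, hxB h02, hxB h03, add_zero]
      rw [e2, hQs]
    rw [e] at h4
    have hv2 : ε⁻¹ * (2 * ε) = 2 := by field_simp
    rw [hv2] at h4
    obtain ⟨k, hk⟩ := hLD _ h4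
    have hB1 : B (x i₀ - (2 : F) • s) (x i₁) = 2 * ε := by
      rw [B_sub_left hQ, B_smul_left hQ, hxB h01]
      simp only [s, B_add_left hQ, hxx, hxB h01.symm, hxB h12, hxB h13, hxB h01, hxB h23, hxB h12.symm, hxB h13.symm, hxB h23.symm, zero_add, add_zero]
      linear_combination (-2 * ε) * h3
    have hB2 : B (x i₀ - (2 : F) • s) (x i₂) = 2 * ε := by
      rw [B_sub_left hQ, B_smul_left hQ, hxB h02]
      simp only [s, B_add_left hQ, hxx, hxB h02, hxB h12, hxB h23, hxB h01, hxB h02.symm, hxB h12.symm, hxB h23.symm, zero_add, add_zero]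
      linear_combination (-2 * ε) * h3
    by_cases hk1 : k = i₁
    · subst hk1
      have := hortho _ _ h12 _ hk _ (hw i₂ j₀)
      exact h2ε (hB2 ▸ this)
    · have := hortho _ _ hk1 _ hk _ (hw i₁ j₀)
      exact h2ε (hB1 ▸ this)

/-- The functional `B(·, x)`. -/
noncomputable def bLin (hQ : IsNondegenerateQuadraticForm Q) (x : ι → F) : (ι → F) →ₗ[F] F where
  toFun y := B y x
  map_add' a b := B_add_left hQ a b x
  map_smul' c a := B_smul_left hQ c a x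

theorem bLin_apply (hQ : IsNondegenerateQuadraticForm Q) (x y : ι → F) : bLin hQ x y = B y x := rfl

/-- Splitting off a non-singular vector. -/
theorem step (hQ : IsNondegenerateQuadraticForm Q) (h2 : (2 : F) ≠ 0) (W : Submodule F (ι → F)) (d : ℕ)
    (hd : Module.finrank F W = d + 1) (hnd : IsNondegenerateOn B W) :
    ∃ x ∈ W, Q x ≠ 0 ∧ ∃ W₁ : Submodule F (ι → F), W₁ ≤ W ∧ Module.finrank F W₁ = d ∧ IsNondegenerateOn B W₁ ∧
      (∀ y ∈ W₁, B y x = 0) ∧ ∀ v ∈ W, ∃ a : F, v - a • x ∈ W₁ := by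
  classical
  have hex : ∃ x ∈ W, Q x ≠ 0 := by
    by_contra hc
    push Not at hc
    have hW : W ≠ ⊥ := by
      rintro rfl
      simp at hd
    obtain ⟨w, hw, hw0⟩ := W.ne_bot_iff.1 hW
    obtain ⟨⟨y, hy, hyw⟩, -⟩ := hnd w hw hw0
    apply hyw
    have := hc (y + w) (W.add_mem hy hw)
    rw [Q_add hQ, hc y hy, hc w hw] at this
    simpa using this
  obtain ⟨x, hx, hQx⟩ := hex
  have h2x : 2 * Q x ≠ 0 := mul_ne_zero h2 hQx
  let K : Submodule F (ι → F) := LinearMap.ker (bLin hQ x)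
  have hKmem : ∀ y, y ∈ K ↔ B y x = 0 := fun y => by
    simp only [K, LinearMap.mem_ker, bLin_apply]
  have hproj : ∀ v, v - ((2 * Q x)⁻¹ * B v x) • x ∈ K := by
    intro v
    rw [hKmem, B_sub_left hQ, B_smul_left hQ, B_self hQ]
    field_simp
    ring
  have hsurj : Function.Surjective (bLin hQ x) := by
    intro c
    refine ⟨(c * (2 * Q x)⁻¹) • x, ?_⟩
    rw [map_smul, bLin_apply, B_self hQ, smul_eq_mul]
    field_simp
  have hrk := LinearMap.finrank_range_add_finrank_ker (bLin hQ x)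
  rw [LinearMap.range_eq_top.2 hsurj, finrank_top, Module.finrank_self, Module.finrank_fintype_fun_eq_card] at hrk
  have hsup : W ⊔ K = ⊤ := by
    rw [eq_top_iff]
    intro v _
    have e : v = ((2 * Q x)⁻¹ * B v x) • x + (v - ((2 * Q x)⁻¹ * B v x) • x) := by abel
    rw [e]
    exact Submodule.add_mem_sup (W.smul_mem _ hx) (hproj v)
  have hdim := Submodule.finrank_sup_add_finrank_inf_eq W K
  rw [hsup, finrank_top, Module.finrank_fintype_fun_eq_card, hd] at hdim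
  have hfr : Module.finrank F ↥(W ⊓ K) = d := by
    have h3 : 1 + Module.finrank F ↥K = Fintype.card ι := hrk
    omega
  refine ⟨x, hx, hQx, W ⊓ K, inf_le_left, hfr, ?_, ?_, ?_⟩
  · intro y hy hy0
    obtain ⟨⟨z, hz, hzy⟩, -⟩ := hnd y hy.1 hy0
    have hyx : B y x = 0 := (hKmem y).1 hy.2
    have hxy : B x y = 0 := by rw [B_comm hQ]; exact hyx
    have hz' : z - ((2 * Q x)⁻¹ * B z x) • x ∈ W ⊓ K := ⟨W.sub_mem hz (W.smul_mem _ hx), hproj z⟩
    have e : B (z - ((2 * Q x)⁻¹ * B z x) • x) y = B z y := by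
      rw [B_sub_left hQ, B_smul_left hQ, hxy, mul_zero, sub_zero]
    refine ⟨⟨_, hz', by rw [e]; exact hzy⟩, ⟨_, hz', ?_⟩⟩
    rw [B_comm hQ, e]
    exact hzy
  · intro y hy
    exact (hKmem y).1 hy.2
  · intro v hv
    exact ⟨_, W.sub_mem hv (W.smul_mem _ hx), hproj v⟩

/-- Orthogonal bases of three-dimensional non-degenerate blocks. -/
theorem orth3 (hQ : IsNondegenerateQuadraticForm Q) (h2 : (2 : F) ≠ 0) (W : Submodule F (ι → F))
    (hd : Module.finrank F W = 3) (hnd : IsNondegenerateOn B W) :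
    ∃ v₀ ∈ W, ∃ v₁ ∈ W, ∃ v₂ ∈ W, Q v₀ ≠ 0 ∧ Q v₁ ≠ 0 ∧ Q v₂ ≠ 0 ∧ B v₀ v₁ = 0 ∧ B v₀ v₂ = 0 ∧ B v₁ v₂ = 0 ∧
      ∀ v ∈ W, ∃ a₀ a₁ a₂ : F, v = a₀ • v₀ + a₁ • v₁ + a₂ • v₂ := by
  obtain ⟨v₀, h0, hQ0, W₁, hW₁, hd₁, hn₁, ho₁, hs₁⟩ := step hQ h2 W 2 hd hnd
  obtain ⟨v₁, h1, hQ1, W₂, hW₂, hd₂, hn₂, ho₂, hs₂⟩ := step hQ h2 W₁ 1 hd₁ hn₁
  obtain ⟨v₂, h2', hQ2, W₃, hW₃, hd₃, hn₃, ho₃, hs₃⟩ := step hQ h2 W₂ 0 hd₂ hn₂
  have hbot : W₃ = ⊥ := Submodule.finrank_eq_zero.1 hd₃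
  refine ⟨v₀, h0, v₁, hW₁ h1, v₂, hW₁ (hW₂ h2'), hQ0, hQ1, hQ2, ?_, ?_, ?_, ?_⟩
  · rw [B_comm hQ]
    exact ho₁ _ h1
  · rw [B_comm hQ]
    exact ho₁ _ (hW₂ h2')
  · rw [B_comm hQ]
    exact ho₂ _ h2'
  · intro v hv
    obtain ⟨a₀, ha₀⟩ := hs₁ v hv
    obtain ⟨a₁, ha₁⟩ := hs₂ _ ha₀
    obtain ⟨a₂, ha₂⟩ := hs₃ _ ha₁
    rw [hbot, Submodule.mem_bot, sub_eq_zero, sub_eq_iff_eq_add, sub_eq_iff_eq_add] at ha₂
    refine ⟨a₀, a₁, a₂, ?_⟩
    rw [ha₂]
    abel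

theorem orth2 (hQ : IsNondegenerateQuadraticForm Q) (h2 : (2 : F) ≠ 0) (W : Submodule F (ι → F))
    (hd : Module.finrank F W = 2) (hnd : IsNondegenerateOn B W) :
    ∃ v₀ ∈ W, ∃ v₁ ∈ W, Q v₀ ≠ 0 ∧ Q v₁ ≠ 0 ∧ B v₀ v₁ = 0 ∧
      ∀ v ∈ W, ∃ a₀ a₁ : F, v = a₀ • v₀ + a₁ • v₁ := by
  obtain ⟨v₀, h0, hQ0, W₁, hW₁, hd₁, hn₁, ho₁, hs₁⟩ := step hQ h2 W 1 hd hnd
  obtain ⟨v₁, h1, hQ1, W₂, hW₂, hd₂, hn₂, ho₂, hs₂⟩ := step hQ h2 W₁ 0 hd₁ hn₁
  have hbot : W₂ = ⊥ := Submodule.finrank_eq_zero.1 hd₂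
  refine ⟨v₀, h0, v₁, hW₁ h1, hQ0, hQ1, ?_, ?_⟩
  · rw [B_comm hQ]
    exact ho₁ _ h1
  · intro v hv
    obtain ⟨a₀, ha₀⟩ := hs₁ v hv
    obtain ⟨a₁, ha₁⟩ := hs₂ _ ha₀
    rw [hbot, Submodule.mem_bot, sub_eq_zero, sub_eq_iff_eq_add] at ha₁
    exact ⟨a₀, a₁, by rw [ha₁]; abel⟩

/-- The value of `Q` on a frame combination. -/
theorem Q_comb3 (hQ : IsNondegenerateQuadraticForm Q) {v₀ v₁ v₂ : ι → F} (h01 : B v₀ v₁ = 0) (h02 : B v₀ v₂ = 0) (h12 : B v₁ v₂ = 0) (a₀ a₁ a₂ : F) :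
    Q (a₀ • v₀ + a₁ • v₁ + a₂ • v₂) = a₀ ^ 2 * Q v₀ + a₁ ^ 2 * Q v₁ + a₂ ^ 2 * Q v₂ := by
  rw [Q_add hQ, Q_add hQ, Q_smul hQ, Q_smul hQ, Q_smul hQ, B_add_left hQ]
  simp only [B_smul_left hQ, B_smul_right hQ, h01, h02, h12, mul_zero, add_zero]

/-- A frame of three-dimensional blocks: three orthogonal vectors of the same norm. -/
theorem frame3 (hQ : IsNondegenerateQuadraticForm Q) (hF : Fintype.card F = 3) (W : Submodule F (ι → F))
    (hd : Module.finrank F W = 3) (hnd : IsNondegenerateOn B W) :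
    ∃ ε : F, ε ≠ 0 ∧ ∃ w : Fin 3 → ι → F, (∀ j, w j ∈ W) ∧ (∀ j, Q (w j) = ε) ∧ (∀ j j', j ≠ j' → B (w j) (w j') = 0) ∧
      ∀ v ∈ W, ∃ a : Fin 3 → F, v = a 0 • w 0 + a 1 • w 1 + a 2 • w 2 := by
  have h2 := two_ne hF
  have h3 := three_zero hF
  obtain ⟨v₀, h0, v₁, h1, v₂, h2', hQ0, hQ1, hQ2, h01, h02, h12, hsp⟩ := orth3 hQ h2 W hd hnd
  -- all the same
  have hsame : ∀ (v₀ v₁ v₂ : ι → F), v₀ ∈ W → v₁ ∈ W → v₂ ∈ W → B v₀ v₁ = 0 → B v₀ v₂ = 0 → B v₁ v₂ = 0 →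
      (∀ v ∈ W, ∃ a₀ a₁ a₂ : F, v = a₀ • v₀ + a₁ • v₁ + a₂ • v₂) → ∀ ε : F, ε ≠ 0 → Q v₀ = ε → Q v₁ = ε → Q v₂ = ε →
      ∃ ε : F, ε ≠ 0 ∧ ∃ w : Fin 3 → ι → F, (∀ j, w j ∈ W) ∧ (∀ j, Q (w j) = ε) ∧ (∀ j j', j ≠ j' → B (w j) (w j') = 0) ∧
      ∀ v ∈ W, ∃ a : Fin 3 → F, v = a 0 • w 0 + a 1 • w 1 + a 2 • w 2 := by
    intro v₀ v₁ v₂ h0 h1 h2' h01 h02 h12 hsp ε hε e0 e1 e2
    refine ⟨ε, hε, ![v₀, v₁, v₂], ?_, ?_, ?_, ?_⟩
    · intro j
      fin_cases j
      · exact h0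
      · exact h1
      · exact h2'
    · intro j
      fin_cases j
      · exact e0
      · exact e1
      · exact e2
    · intro j j' hj
      have h10 : B v₁ v₀ = 0 := by rw [B_comm hQ]; exact h01
      have h20 : B v₂ v₀ = 0 := by rw [B_comm hQ]; exact h02
      have h21 : B v₂ v₁ = 0 := by rw [B_comm hQ]; exact h12
      fin_cases j <;> fin_cases j' <;> first | exact absurd rfl hj | assumption
    · intro v hv
      obtain ⟨a₀, a₁, a₂, rfl⟩ := hsp v hv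
      exact ⟨![a₀, a₁, a₂], rfl⟩
  -- the mixed case
  have hmix : ∀ (v₀ v₁ v₂ : ι → F), v₀ ∈ W → v₁ ∈ W → v₂ ∈ W → B v₀ v₁ = 0 → B v₀ v₂ = 0 → B v₁ v₂ = 0 →
      (∀ v ∈ W, ∃ a₀ a₁ a₂ : F, v = a₀ • v₀ + a₁ • v₁ + a₂ • v₂) → ∀ a : F, a ≠ 0 → Q v₀ = a → Q v₁ = a → Q v₂ = -a →
      ∃ ε : F, ε ≠ 0 ∧ ∃ w : Fin 3 → ι → F, (∀ j, w j ∈ W) ∧ (∀ j, Q (w j) = ε) ∧ (∀ j j', j ≠ j' → B (w j) (w j') = 0) ∧
      ∀ v ∈ W, ∃ a : Fin 3 → F, v = a 0 • w 0 + a 1 • w 1 + a 2 • w 2 := by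
    intro v₀ v₁ v₂ h0 h1 h2' h01 h02 h12 hsp a ha e0 e1 e2
    have e00 : B v₀ v₀ = 2 * a := by rw [B_self hQ, e0]
    have e11 : B v₁ v₁ = 2 * a := by rw [B_self hQ, e1]
    have h10 : B v₁ v₀ = 0 := by rw [B_comm hQ]; exact h01
    refine hsame (v₀ + v₁) (v₀ - v₁) v₂ (W.add_mem h0 h1) (W.sub_mem h0 h1) h2' ?_ ?_ ?_ ?_ (-a) (neg_ne_zero.2 ha) ?_ ?_ e2
    · rw [B_add_left hQ, B_sub_right hQ, B_sub_right hQ, e00, e11, h01, h10]
      ring
    · rw [B_add_left hQ, h02, h12, add_zero]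
    · rw [B_sub_left hQ, h02, h12, sub_zero]
    · intro v hv
      obtain ⟨a₀, a₁, a₂, rfl⟩ := hsp v hv
      refine ⟨2⁻¹ * (a₀ + a₁), 2⁻¹ * (a₀ - a₁), a₂, ?_⟩
      congr 1
      have e3 : (2 : F)⁻¹ * (a₀ + a₁) + 2⁻¹ * (a₀ - a₁) = a₀ := by field_simp; ring
      have e4 : (2 : F)⁻¹ * (a₀ + a₁) - 2⁻¹ * (a₀ - a₁) = a₁ := by field_simp; ring
      have e5 : ∀ c d : F, c • (v₀ + v₁) + d • (v₀ - v₁) = (c + d) • v₀ + (c - d) • v₁ := by
        intro c d
        simp only [smul_add, smul_sub, add_smul, sub_smul]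
        abel
      rw [e5, e3, e4]
    · rw [Q_add hQ, e0, e1, h01]
      linear_combination a * h3
    · rw [Q_sub hQ, e0, e1, h01]
      linear_combination a * h3
  -- split according to the norms
  have hc : ∀ x : ι → F, Q x ≠ 0 → Q x = 1 ∨ Q x = -1 := fun x hx => by
    rcases sq_cases hF (Q x) with h | h | h
    · exact absurd h hx
    · exact Or.inl h
    · exact Or.inr h
  rcases hc v₀ hQ0 with e0 | e0 <;> rcases hc v₁ hQ1 with e1 | e1 <;> rcases hc v₂ hQ2 with e2 | e2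
  · exact hsame v₀ v₁ v₂ h0 h1 h2' h01 h02 h12 hsp 1 one_ne_zero e0 e1 e2
  · exact hmix v₀ v₁ v₂ h0 h1 h2' h01 h02 h12 hsp 1 one_ne_zero e0 e1 e2
  · refine hmix v₀ v₂ v₁ h0 h2' h1 h02 h01 ?_ ?_ 1 one_ne_zero e0 e2 e1
    · rw [B_comm hQ]; exact h12
    · intro v hv
      obtain ⟨a₀, a₁, a₂, rfl⟩ := hsp v hv
      exact ⟨a₀, a₂, a₁, by abel⟩
  · refine hmix v₁ v₂ v₀ h1 h2' h0 h12 ?_ ?_ ?_ (-1) (by simpa using one_ne_zero) e1 e2 (by rw [e0]; simp)
    · rw [B_comm hQ]; exact h01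
    · rw [B_comm hQ]; exact h02
    · intro v hv
      obtain ⟨a₀, a₁, a₂, rfl⟩ := hsp v hv
      exact ⟨a₁, a₂, a₀, by abel⟩
  · refine hmix v₁ v₂ v₀ h1 h2' h0 h12 ?_ ?_ ?_ 1 one_ne_zero e1 e2 e0
    · rw [B_comm hQ]; exact h01
    · rw [B_comm hQ]; exact h02
    · intro v hv
      obtain ⟨a₀, a₁, a₂, rfl⟩ := hsp v hv
      exact ⟨a₁, a₂, a₀, by abel⟩
  · refine hmix v₀ v₂ v₁ h0 h2' h1 h02 h01 ?_ ?_ (-1) (by simpa using one_ne_zero) e0 e2 (by rw [e1]; simp)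
    · rw [B_comm hQ]; exact h12
    · intro v hv
      obtain ⟨a₀, a₁, a₂, rfl⟩ := hsp v hv
      exact ⟨a₀, a₂, a₁, by abel⟩
  · exact hmix v₀ v₁ v₂ h0 h1 h2' h01 h02 h12 hsp (-1) (by simpa using one_ne_zero) e0 e1 (by rw [e2]; simp)
  · exact hsame v₀ v₁ v₂ h0 h1 h2' h01 h02 h12 hsp (-1) (by simpa using one_ne_zero) e0 e1 e2

theorem anis (hF : Fintype.card F = 3) {x y : F} (h : x ^ 2 + y ^ 2 = 0) : x = 0 ∧ y = 0 := by
  have h2 := two_ne hF
  by_cases hx : x = 0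
  · subst hx
    refine ⟨rfl, ?_⟩
    have : y ^ 2 = 0 := by simpa using h
    exact pow_eq_zero_iff (two_ne_zero) |>.1 this
  · exfalso
    by_cases hy : y = 0
    · subst hy
      rw [sq_one hF hx] at h
      simp at h
    · rw [sq_one hF hx, sq_one hF hy] at h
      exact h2 (by linear_combination h)

/-- Three-dimensional blocks. -/
theorem main3 (hQ : IsNondegenerateQuadraticForm Q) (hF : Fintype.card F = 3) {t : ℕ} {D : Fin t → Submodule F (ι → F)}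
    (hD : IsOrthogonalMDecomposition Q 3 D) (ht : 5 ≤ t) (hn : 2 ≤ Fintype.card ι) :
    ∃ K : Subgroup (GL ι F), decompositionStabilizer D ⊓ omegaGL Q < K ∧ K < omegaGL Q := by
  classical
  have h2 := two_ne hF
  have h3 := three_zero hF
  choose ε hε w hw hQw hBw hsp using fun i => frame3 hQ hF (D i) (hD.decomp.decomp.finrank_eq i) (hD.decomp.nondegenerate i)
  let P : Fin t → (ι → F) → Prop := fun i v => v ∈ D i ∧ Q v ≠ 0 ∧ ∀ s ∈ D i, B v s = 0 → Q s = 0 → s = 0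
  -- vectors with two non-zero coordinates are excluded
  have hno : ∀ (W : Submodule F (ι → F)) (e : F), e ≠ 0 → ∀ x ∈ W, ∀ y ∈ W, ∀ z ∈ W, Q x = e → Q y = e → Q z = e → B x y = 0 → B x z = 0 → B y z = 0 →
      ∀ α β : F, α ≠ 0 → β ≠ 0 → (∀ s ∈ W, B (α • x + β • y) s = 0 → Q s = 0 → s = 0) → False := by
    intro W e he x hx y hy z hz ex ey ez hxy hxz hyz α β hα hβ h
    have hyx : B y x = 0 := by rw [B_comm hQ]; exact hxy
    have h0 := h (α • x + (-β) • y + (1 : F) • z) (W.add_mem (W.add_mem (W.smul_mem _ hx) (W.smul_mem _ hy)) (W.smul_mem _ hz)) ?_ ?_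
    · have h4 : B (α • x + (-β) • y + (1 : F) • z) z = 2 * e := by
        rw [B_add_left hQ, B_add_left hQ, B_smul_left hQ, B_smul_left hQ, B_smul_left hQ, hxz, hyz, B_self hQ, ez]
        ring
      rw [h0] at h4
      have h5 : B (0 : ι → F) z = 0 := by
        have := B_smul_left hQ 0 (0 : ι → F) z
        simpa using this
      rw [h5] at h4
      exact mul_ne_zero h2 he h4.symm
    · have ha2 : α * α = 1 := by rw [← pow_two]; exact sq_one hF hα
      have hb2 : β * β = 1 := by rw [← pow_two]; exact sq_one hF hβ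
      simp only [B_add_left hQ, B_add_right hQ, B_smul_left hQ, B_smul_right hQ, hxy, hxz, hyz, hyx, B_self hQ, ex, ey]
      linear_combination (2 * e) * ha2 - (2 * e) * hb2
    · rw [Q_comb3 hQ hxy hxz hyz, ex, ey, ez]
      have ha2 := sq_one hF hα
      have hb2 := sq_one hF hβ
      linear_combination e * h3 + e * ha2 + e * hb2
  -- frame vectors are characterised by the property
  have hyes : ∀ (W : Submodule F (ι → F)) (e : F), e ≠ 0 → ∀ x y z : ι → F, Q x = e → Q y = e → Q z = e → B x y = 0 → B x z = 0 → B y z = 0 →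
      (∀ s ∈ W, ∃ b₀ b₁ b₂ : F, s = b₀ • x + b₁ • y + b₂ • z) → ∀ c : F, c ≠ 0 → ∀ s ∈ W, B (c • x) s = 0 → Q s = 0 → s = 0 := by
    intro W e he x y z ex ey ez hxy hxz hyz hexp c hc s hs h1 h4
    obtain ⟨b₀, b₁, b₂, rfl⟩ := hexp s hs
    have hb0 : b₀ = 0 := by
      simp only [B_smul_left hQ, B_add_right hQ, B_smul_right hQ, hxy, hxz, B_self hQ, ex] at h1
      have h5 : c * (b₀ * (2 * e)) = 0 := by linear_combination h1
      rcases mul_eq_zero.1 h5 with h | h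
      · exact absurd h hc
      · rcases mul_eq_zero.1 h with h | h
        · exact h
        · exact absurd h (mul_ne_zero h2 he)
    rw [Q_comb3 hQ hxy hxz hyz, ex, ey, ez, hb0] at h4
    have h5 : b₁ ^ 2 + b₂ ^ 2 = 0 := by
      have : e * (b₁ ^ 2 + b₂ ^ 2) = 0 := by linear_combination h4
      exact (mul_eq_zero.1 this).resolve_left he
    obtain ⟨rfl, rfl⟩ := anis hF h5
    simp [hb0]
  have hchar : ∀ i v, P i v → ∃ j, ∃ c : F, c ≠ 0 ∧ v = c • w i j := by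
    rintro i v ⟨hvD, hv0, hv⟩
    obtain ⟨a, rfl⟩ := hsp i v hvD
    have hB01 := hBw i 0 1 (by decide)
    have hB02 := hBw i 0 2 (by decide)
    have hB12 := hBw i 1 2 (by decide)
    have hB10 : B (w i 1) (w i 0) = 0 := by rw [B_comm hQ]; exact hB01
    have hB20 : B (w i 2) (w i 0) = 0 := by rw [B_comm hQ]; exact hB02
    have hB21 : B (w i 2) (w i 1) = 0 := by rw [B_comm hQ]; exact hB12
    have hQv := Q_comb3 hQ hB01 hB02 hB12 (a 0) (a 1) (a 2)
    rw [hQw, hQw, hQw] at hQv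
    by_cases h0 : a 0 = 0
    · by_cases h1 : a 1 = 0
      · by_cases h4 : a 2 = 0
        · exfalso
          apply hv0
          rw [hQv, h0, h1, h4]
          ring
        · exact ⟨2, a 2, h4, by rw [h0, h1]; simp⟩
      · by_cases h4 : a 2 = 0
        · exact ⟨1, a 1, h1, by rw [h0, h4]; simp⟩
        · exfalso
          refine hno (D i) (ε i) (hε i) _ (hw i 1) _ (hw i 2) _ (hw i 0) (hQw _ _) (hQw _ _) (hQw _ _) hB12 hB10 hB20 (a 1) (a 2) h1 h4 ?_
          intro s hs h5 h6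
          refine hv s hs ?_ h6
          rw [h0, zero_smul, zero_add]
          exact h5
    · by_cases h1 : a 1 = 0
      · by_cases h4 : a 2 = 0
        · exact ⟨0, a 0, h0, by rw [h1, h4]; simp⟩
        · exfalso
          refine hno (D i) (ε i) (hε i) _ (hw i 0) _ (hw i 2) _ (hw i 1) (hQw _ _) (hQw _ _) (hQw _ _) hB02 hB01 hB21 (a 0) (a 2) h0 h4 ?_
          intro s hs h5 h6
          refine hv s hs ?_ h6
          rw [h1, zero_smul, add_zero]
          exact h5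
      · by_cases h4 : a 2 = 0
        · exfalso
          refine hno (D i) (ε i) (hε i) _ (hw i 0) _ (hw i 1) _ (hw i 2) (hQw _ _) (hQw _ _) (hQw _ _) hB01 hB02 hB12 (a 0) (a 1) h0 h1 ?_
          intro s hs h5 h6
          refine hv s hs ?_ h6
          rw [h4, zero_smul, add_zero]
          exact h5
        · exfalso
          apply hv0
          rw [hQv, sq_one hF h0, sq_one hF h1, sq_one hF h4]
          linear_combination (ε i) * h3
  have hpos : ∀ i j (c : F), c ≠ 0 → P i (c • w i j) := by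
    intro i j c hc
    have hB01 := hBw i 0 1 (by decide)
    have hB02 := hBw i 0 2 (by decide)
    have hB12 := hBw i 1 2 (by decide)
    have hB10 : B (w i 1) (w i 0) = 0 := by rw [B_comm hQ]; exact hB01
    have hB20 : B (w i 2) (w i 0) = 0 := by rw [B_comm hQ]; exact hB02
    have hB21 : B (w i 2) (w i 1) = 0 := by rw [B_comm hQ]; exact hB12
    refine ⟨(D i).smul_mem _ (hw i j), ?_, ?_⟩
    · rw [Q_smul hQ, hQw, sq_one hF hc, one_mul]
      exact hε i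
    · have hexp : ∀ s ∈ D i, ∃ b₀ b₁ b₂ : F, s = b₀ • w i 0 + b₁ • w i 1 + b₂ • w i 2 := fun s hs => by
        obtain ⟨a, ha⟩ := hsp i s hs
        exact ⟨a 0, a 1, a 2, ha⟩
      fin_cases j
      · exact hyes (D i) (ε i) (hε i) _ _ _ (hQw _ _) (hQw _ _) (hQw _ _) hB01 hB02 hB12 hexp c hc
      · refine hyes (D i) (ε i) (hε i) (w i 1) (w i 0) (w i 2) (hQw _ _) (hQw _ _) (hQw _ _) hB10 hB12 hB02 ?_ c hc
        intro s hs
        obtain ⟨b₀, b₁, b₂, rfl⟩ := hexp s hs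
        exact ⟨b₁, b₀, b₂, by abel⟩
      · refine hyes (D i) (ε i) (hε i) (w i 2) (w i 0) (w i 1) (hQw _ _) (hQw _ _) (hQw _ _) hB20 hB21 hB01 ?_ c hc
        intro s hs
        obtain ⟨b₀, b₁, b₂, rfl⟩ := hexp s hs
        exact ⟨b₂, b₀, b₁, by abel⟩
  -- the norm does not depend on the block
  have hcommon : ∀ i j, ε i = ε j := by
    intro i j
    obtain ⟨e, he⟩ := hD.isometric i j
    let x : ↥(D i) := ⟨w i 0, hw i 0⟩
    have hpol : ∀ a b : ↥(D i), B ((e a : ↥(D j)) : ι → F) ((e b : ↥(D j)) : ι → F) = B (a : ι → F) (b : ι → F) := by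
      intro a b
      simp only [QuadraticMap.polar]
      have h4 : ((e a : ↥(D j)) : ι → F) + ((e b : ↥(D j)) : ι → F) = ((e (a + b) : ↥(D j)) : ι → F) := by
        rw [map_add]
        rfl
      rw [h4, he, he, he]
      rfl
    have hP : P j ((e x : ↥(D j)) : ι → F) := by
      refine ⟨(e x).2, ?_, ?_⟩
      · rw [he]
        show Q (w i 0) ≠ 0
        rw [hQw]
        exact hε i
      · intro s hs h4 h5
        let s' : ↥(D i) := e.symm ⟨s, hs⟩
        have hes : ((e s' : ↥(D j)) : ι → F) = s := by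
          simp [s']
        have h6 := (hpos i 0 1 one_ne_zero).2.2 (s' : ι → F) s'.2 (by
          rw [one_smul]
          rw [← hes] at h4
          rw [hpol] at h4
          exact h4) (by
          rw [← he s', hes]
          exact h5)
        have h7 : s' = 0 := Subtype.ext h6
        rw [← hes, h7, map_zero]
        rfl
    obtain ⟨l, c, hc, hxc⟩ := hchar j _ hP
    have h8 : Q ((e x : ↥(D j)) : ι → F) = ε i := by
      rw [he]
      exact hQw i 0
    rw [hxc, Q_smul hQ, hQw, sq_one hF hc, one_mul] at h8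
    exact h8.symm
  have ht0 : 0 < t := by omega
  let i₀ : Fin t := ⟨0, ht0⟩
  refine main_frame hQ hF (fun i j hij u hu v hv => hD.decomp.orthogonal i j hij u hu v hv) w hw (hε i₀)
    (fun i j => by rw [hQw, hcommon i i₀]) hBw {v | ∃ i, P i v} ?_ ?_ ?_ ?_ ht (by norm_num) hn
  · rintro g ⟨σ, hσ⟩ hgO v ⟨i, hvD, hv0, hv⟩
    have hgQ := (mem_O_iff g).1 hgO
    refine ⟨σ i, ?_, ?_, ?_⟩
    · rw [← hσ]
      exact ⟨v, hvD, by rw [Matrix.toLin'_apply]⟩
    · rw [hgQ]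
      exact hv0
    · intro s hs h4 h5
      rw [← hσ] at hs
      obtain ⟨s', hs', rfl⟩ := hs
      rw [Matrix.toLin'_apply] at h4 h5 ⊢
      have hpol : B ((g : Matrix ι ι F) *ᵥ v) ((g : Matrix ι ι F) *ᵥ s') = B v s' := by
        simp only [QuadraticMap.polar]
        rw [← Matrix.mulVec_add, hgQ, hgQ, hgQ]
      rw [hpol] at h4
      rw [hgQ] at h5
      rw [hv s' hs' h4 h5, Matrix.mulVec_zero]
  · rintro v ⟨i, hP⟩
    obtain ⟨j, c, hc, h⟩ := hchar i v hP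
    exact ⟨i, j, c, hc, h⟩
  · intro i j c hc
    exact ⟨i, hpos i j c hc⟩
  · rintro v ⟨i, hP⟩
    exact ⟨i, hP.1⟩

/-- A frame of two-dimensional anisotropic blocks. -/
theorem frame2 (hQ : IsNondegenerateQuadraticForm Q) (hF : Fintype.card F = 3) (W : Submodule F (ι → F))
    (hd : Module.finrank F W = 2) (hnd : IsNondegenerateOn B W) (hminus : ¬ IsPlusTypeOn Q W) :
    ∃ w : Fin 2 → ι → F, (∀ j, w j ∈ W) ∧ (∀ j, Q (w j) = 1) ∧ (∀ j j', j ≠ j' → B (w j) (w j') = 0) ∧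
      ∀ v ∈ W, ∃ a : Fin 2 → F, v = a 0 • w 0 + a 1 • w 1 := by
  have h2 := two_ne hF
  have h3 := three_zero hF
  obtain ⟨v₀, h0, v₁, h1, hQ0, hQ1, h01, hsp⟩ := orth2 hQ h2 W hd hnd
  have h10 : B v₁ v₀ = 0 := by rw [B_comm hQ]; exact h01
  have hsame : ∀ x y : ι → F, x ∈ W → y ∈ W → Q x = 1 → Q y = 1 → B x y = 0 → (∀ v ∈ W, ∃ a₀ a₁ : F, v = a₀ • x + a₁ • y) →
      ∃ w : Fin 2 → ι → F, (∀ j, w j ∈ W) ∧ (∀ j, Q (w j) = 1) ∧ (∀ j j', j ≠ j' → B (w j) (w j') = 0) ∧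
      ∀ v ∈ W, ∃ a : Fin 2 → F, v = a 0 • w 0 + a 1 • w 1 := by
    intro x y hx hy ex ey hxy hs
    refine ⟨![x, y], ?_, ?_, ?_, ?_⟩
    · intro j
      fin_cases j
      · exact hx
      · exact hy
    · intro j
      fin_cases j
      · exact ex
      · exact ey
    · intro j j' hj
      have hyx : B y x = 0 := by rw [B_comm hQ]; exact hxy
      fin_cases j <;> fin_cases j' <;> first | exact absurd rfl hj | assumption
    · intro v hv
      obtain ⟨a₀, a₁, rfl⟩ := hs v hv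
      exact ⟨![a₀, a₁], rfl⟩
  have hne : Q v₀ = Q v₁ := by
    by_contra hc
    have h4 : Q (v₀ + v₁) = 0 := by
      rw [Q_add hQ, h01, add_zero]
      rcases sq_cases hF (Q v₀) with h | h | h
      · exact absurd h hQ0
      · rcases sq_cases hF (Q v₁) with h' | h' | h'
        · exact absurd h' hQ1
        · exact absurd (h.trans h'.symm) hc
        · rw [h, h']; ring
      · rcases sq_cases hF (Q v₁) with h' | h' | h'
        · exact absurd h' hQ1
        · rw [h, h']; ring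
        · exact absurd (h.trans h'.symm) hc
    have h5 : v₀ + v₁ ≠ 0 := by
      intro h
      have h6 : B (v₀ + v₁) v₀ = 2 * Q v₀ := by
        rw [B_add_left hQ, h10, add_zero, B_self hQ]
      rw [h] at h6
      have h7 : B (0 : ι → F) v₀ = 0 := by
        have := B_smul_left hQ 0 (0 : ι → F) v₀
        simpa using this
      rw [h7] at h6
      exact mul_ne_zero h2 hQ0 h6.symm
    apply hminus
    refine ⟨Submodule.span F {v₀ + v₁}, ?_, ?_, ?_⟩
    · rw [Submodule.span_singleton_le_iff_mem]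
      exact W.add_mem h0 h1
    · intro u hu
      obtain ⟨c, rfl⟩ := Submodule.mem_span_singleton.1 hu
      rw [Q_smul hQ, h4, mul_zero]
    · rw [finrank_span_singleton h5, hd]
  rcases sq_cases hF (Q v₀) with h | h | h
  · exact absurd h hQ0
  · exact hsame v₀ v₁ h0 h1 h (hne ▸ h) h01 hsp
  · have e1 : Q v₁ = -1 := hne ▸ h
    refine hsame (v₀ + v₁) (v₀ - v₁) (W.add_mem h0 h1) (W.sub_mem h0 h1) ?_ ?_ ?_ ?_
    · rw [Q_add hQ, h, e1, h01]
      linear_combination (-1 : F) * h3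
    · rw [Q_sub hQ, h, e1, h01]
      linear_combination (-1 : F) * h3
    · rw [B_add_left hQ, B_sub_right hQ, B_sub_right hQ, B_self hQ, B_self hQ, h, e1, h01, h10]
      ring
    · intro v hv
      obtain ⟨a₀, a₁, rfl⟩ := hsp v hv
      refine ⟨2⁻¹ * (a₀ + a₁), 2⁻¹ * (a₀ - a₁), ?_⟩
      have e3 : (2 : F)⁻¹ * (a₀ + a₁) + 2⁻¹ * (a₀ - a₁) = a₀ := by field_simp; ring
      have e4 : (2 : F)⁻¹ * (a₀ + a₁) - 2⁻¹ * (a₀ - a₁) = a₁ := by field_simp; ring
      have e5 : ∀ c d : F, c • (v₀ + v₁) + d • (v₀ - v₁) = (c + d) • v₀ + (c - d) • v₁ := by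
        intro c d
        simp only [smul_add, smul_sub, add_smul, sub_smul]
        abel
      rw [e5, e3, e4]

/-- Two-dimensional anisotropic blocks. -/
theorem main2 (hQ : IsNondegenerateQuadraticForm Q) (hF : Fintype.card F = 3) {t : ℕ} {D : Fin t → Submodule F (ι → F)}
    (hD : IsOrthogonalMDecomposition Q 2 D) (hminus : ∀ i, ¬ IsPlusTypeOn Q (D i)) (ht : 5 ≤ t) (hn : 2 ≤ Fintype.card ι) :
    ∃ K : Subgroup (GL ι F), decompositionStabilizer D ⊓ omegaGL Q < K ∧ K < omegaGL Q := by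
  classical
  have h2 := two_ne hF
  have h3 := three_zero hF
  choose w hw hQw hBw hsp using fun i => frame2 hQ hF (D i) (hD.decomp.decomp.finrank_eq i) (hD.decomp.nondegenerate i) (hminus i)
  refine main_frame hQ hF (fun i j hij u hu v hv => hD.decomp.orthogonal i j hij u hu v hv) w hw (one_ne_zero) hQw hBw
    {v | (∃ i, v ∈ D i) ∧ Q v = 1} ?_ ?_ ?_ ?_ ht (by norm_num) hn
  · rintro g ⟨σ, hσ⟩ hgO v ⟨⟨i, hvD⟩, hv⟩
    refine ⟨⟨σ i, ?_⟩, ?_⟩
    · rw [← hσ]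
      exact ⟨v, hvD, by rw [Matrix.toLin'_apply]⟩
    · rw [(mem_O_iff g).1 hgO]
      exact hv
  · rintro v ⟨⟨i, hvD⟩, hv⟩
    obtain ⟨a, rfl⟩ := hsp i v hvD
    refine ⟨i, ?_⟩
    have hB01 := hBw i 0 1 (by decide)
    rw [Q_add hQ, Q_smul hQ, Q_smul hQ, hQw, hQw, B_smul_left hQ, B_smul_right hQ, hB01] at hv
    by_cases h0 : a 0 = 0
    · by_cases h1 : a 1 = 0
      · exfalso
        rw [h0, h1] at hv
        simp at hv
      · exact ⟨1, a 1, h1, by rw [h0]; simp⟩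
    · by_cases h1 : a 1 = 0
      · exact ⟨0, a 0, h0, by rw [h1]; simp⟩
      · exfalso
        rw [sq_one hF h0, sq_one hF h1] at hv
        have : (1 : F) = 0 := by linear_combination hv
        exact one_ne_zero this
  · intro i j c hc
    refine ⟨⟨i, (D i).smul_mem _ (hw i j)⟩, ?_⟩
    rw [Q_smul hQ, hQw, sq_one hF hc, one_mul]
  · rintro v ⟨h, -⟩
    exact h

end Cfsg.Agent.Lib.Frame3
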