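import Cfsg.Agent.Lib.OrthSwap

set_option autoImplicit false

namespace Cfsg.Agent.Lib.OrthPlane

open Matrix Cfsg.Geo Cfsg.Agent.Lib.FormVec Cfsg.Agent.Lib.OrthE Cfsg.Agent.Lib.OrthGen
  Cfsg.Agent.Lib.OrthOmega Cfsg.Agent.Lib.OrthMax Cfsg.Agent.Lib.OrthLocal Cfsg.Agent.Lib.OrthNondeg
  Cfsg.Agent.Lib.OrthSub Cfsg.Agent.Lib.OrthSub2 Cfsg.Agent.Lib.OrthFam Cfsg.Agent.Lib.OrthPair
  Cfsg.Agent.Lib.OrthSwap
open scoped MatrixGroups

variable {ι : Type} [Fintype ι] [DecidableEq ι] {F : Type*} [Field F] [Fintype F]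
variable {Q : (ι → F) → F}

local notation "B" => QuadraticMap.polar Q

theorem sq_eq_one_of_small (hq : Fintype.card F ≤ 3) {a : F} (ha : a ≠ 0) : a * a = 1 := by
  have h1 : 1 < Fintype.card F := Fintype.one_lt_card
  have h2 := FiniteField.pow_card_sub_one_eq_one a ha
  have hc : Fintype.card F = 2 ∨ Fintype.card F = 3 := by omega
  rcases hc with h | h
  · rw [h] at h2
    simp at h2
    rw [h2, one_mul]
  · rw [h] at h2
    rw [← pow_two]
    exact h2

/-- **Plus-type planes over small fields**: their stabilisers lie in the stabiliser of a line. -/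
theorem plane_nonmax (hQ : IsNondegenerateQuadraticForm Q) (hn : 9 ≤ Fintype.card ι)
    (hq : Fintype.card F ≤ 3) (W : Submodule F (ι → F)) (hdim : Module.finrank F W = 2)
    (hW : IsNondegenerateOn (QuadraticMap.polar Q) W) (hWp : IsPlusTypeOn Q W) :
    ∃ K : Subgroup (GL ι F), subspaceStabilizer W ⊓ omegaGL Q < K ∧ K < omegaGL Q := by
  have hn5 : 5 ≤ Fintype.card ι := by omega
  obtain ⟨U, hUW, hUts, hUd⟩ := hWp
  have hU0 : U ≠ ⊥ := by
    intro h
    rw [h, finrank_bot] at hUd
    omega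
  obtain ⟨s, hs, hs0⟩ := Submodule.exists_mem_ne_zero_of_ne_bot hU0
  have hQs : Q s = 0 := hUts s hs
  have hsW : s ∈ W := hUW hs
  obtain ⟨y, hy, hsy⟩ := (hW s hsW hs0).2
  obtain ⟨t, htW, hQt, hst⟩ := exists_hyp hQ hsW hQs hy hsy
  have hss : B s s = 0 := by rw [B_self hQ, hQs, mul_zero]
  have htt : B t t = 0 := by rw [B_self hQ, hQt, mul_zero]
  have hts : B t s = 1 := by rw [B_comm hQ, hst]
  have htn : t ∉ Submodule.span F {s} := by
    intro h
    obtain ⟨a, rfl⟩ := Submodule.mem_span_singleton.mp h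
    rw [B_smul_right hQ, hss, mul_zero] at hst
    exact zero_ne_one hst
  have hspan : (Submodule.span F {s} ⊔ Submodule.span F {t} : Submodule F (ι → F)) = W := by
    refine Submodule.eq_of_le_of_finrank_eq ?_ ?_
    · refine sup_le ?_ ?_
      · rw [Submodule.span_singleton_le_iff_mem]
        exact hsW
      · rw [Submodule.span_singleton_le_iff_mem]
        exact htW
    · rw [finrank_sup_span _ htn, finrank_span_singleton hs0, hdim]
  have hdec : ∀ x ∈ W, ∃ a b : F, x = a • s + b • t := by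
    intro x hx
    rw [← hspan] at hx
    obtain ⟨p, hp, r, hr, rfl⟩ := Submodule.mem_sup.mp hx
    obtain ⟨a, rfl⟩ := Submodule.mem_span_singleton.mp hp
    obtain ⟨b, rfl⟩ := Submodule.mem_span_singleton.mp hr
    exact ⟨a, b, rfl⟩
  have hQdec : ∀ a b : F, Q (a • s + b • t) = a * b := by
    intro a b
    rw [Q_add hQ, Q_smul hQ, Q_smul hQ, hQs, hQt, B_smul_left hQ, B_smul_right hQ, hst]
    ring
  have hQv : Q (s + t) = 1 := by
    have := hQdec 1 1
    simpa using this
  have hQv0 : Q (s + t) ≠ 0 := by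
    rw [hQv]
    exact one_ne_zero
  have hmax := line_maximal hQ hn (s + t) hQv0
  refine ⟨subspaceStabilizer (Submodule.span F {s + t}) ⊓ omegaGL Q, ?_, hmax.1⟩
  -- a singular vector orthogonal to `W`
  have hsum := finrank_perp hQ W
  obtain ⟨a, ha, ha0, hQa⟩ := exists_sing hQ (perp hQ W) (by omega)
  have haW : ∀ x ∈ W, B a x = 0 := by
    intro x hx
    rw [B_comm hQ]
    exact (mem_perp hQ).1 ha x hx
  have hinf := nondeg_inf hQ hW
  refine lt_of_le_of_ne ?_ ?_
  · rintro g ⟨hgW, hg⟩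
    refine ⟨mem_stab_of_le ?_, hg⟩
    have hgv : (g : Matrix ι ι F) *ᵥ (s + t) ∈ Submodule.span F {s + t} := by
      have h1 : (g : Matrix ι ι F) *ᵥ (s + t) ∈ W :=
        ((mem_stab_iff W g).1 hgW _).1 (W.add_mem hsW htW)
      obtain ⟨a', b', hab⟩ := hdec _ h1
      have h2 : Q ((g : Matrix ι ι F) *ᵥ (s + t)) = 1 := by
        rw [(mem_O_iff g).1 (omega_le_O hg), hQv]
      rw [hab, hQdec] at h2
      have ha' : a' ≠ 0 := left_ne_zero_of_mul_eq_one h2
      have hsq := sq_eq_one_of_small hq ha'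
      have hb : b' = a' := by
        calc b' = (a' * a') * b' := by rw [hsq, one_mul]
          _ = a' * (a' * b') := by ring
          _ = a' := by rw [h2, mul_one]
      rw [hab, hb, Submodule.mem_span_singleton]
      exact ⟨a', by rw [smul_add]⟩
    intro v hv
    obtain ⟨c, rfl⟩ := Submodule.mem_span_singleton.mp hv
    rw [Matrix.mulVec_smul]
    exact Submodule.smul_mem _ _ hgv
  · intro heq
    have hd : B a (s - t) = 0 := by
      rw [B_sub_right hQ, haW s hsW, haW t htW, sub_zero]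
    have hvd : B (s + t) (s - t) = 0 := by
      rw [B_add_left hQ, B_sub_right hQ, B_sub_right hQ, hss, hst, hts, htt]
      ring
    have hva : B (s + t) a = 0 := by
      rw [B_comm hQ]
      exact haW _ (W.add_mem hsW htW)
    have hEM : E Q a (s - t) ∈ subspaceStabilizer (Submodule.span F {s + t}) ⊓ omegaGL Q := by
      refine ⟨mem_stab_of_le fun v hv => ?_, E_mem_comm hQ hn5 hQa hd⟩
      obtain ⟨c, rfl⟩ := Submodule.mem_span_singleton.mp hv
      rw [Matrix.mulVec_smul, E_mulVec_of_orth hQ hQa hd hva, hvd]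
      have : s + t - (0 : F) • a = s + t := by module
      rw [this]
      exact Submodule.smul_mem _ _ (Submodule.mem_span_singleton_self _)
    rw [← heq] at hEM
    have h5 := ((mem_stab_iff W _).1 hEM.1 s).1 hsW
    rw [E_mulVec_of_orth hQ hQa hd (by rw [B_comm hQ]; exact haW s hsW), B_sub_right hQ, hss, hst] at h5
    have h6 : a = (s - ((0 : F) - 1) • a) - s := by module
    have h7 : a ∈ W := by
      rw [h6]
      exact W.sub_mem h5 hsW
    have h8 : a ∈ W ⊓ perp hQ W := ⟨h7, ha⟩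
    rw [hinf] at h8
    exact ha0 ((Submodule.mem_bot F).1 h8)

end Cfsg.Agent.Lib.OrthPlane
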