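import Cfsg.Agent.Lib.Frame3
import Cfsg.Agent.Lib.OrthPlane
import Cfsg.Agent.Lib.OrthSub2

set_option autoImplicit false

/-! Overgroups of stabilisers of decompositions into small blocks in orthogonal groups. -/

namespace Cfsg.Agent.Lib.FrameO2

open Matrix Cfsg Cfsg.Geo Cfsg.Agent.Lib.OrthE Cfsg.Agent.Lib.OrthChar Cfsg.Agent.Lib.OrthSpin Cfsg.Agent.Lib.OrthNeg
open scoped MatrixGroups

variable {ι : Type} [Fintype ι] [DecidableEq ι] {F : Type*} [Field F] [Fintype F] {Q : (ι → F) → F}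

local notation "B" => QuadraticMap.polar Q

/-- Frames whose norms depend only on the position inside the block, in odd characteristic. -/
theorem main_frame2 (hQ : IsNondegenerateQuadraticForm Q) (h2 : (2 : F) ≠ 0) {t k : ℕ}
    {D : Fin t → Submodule F (ι → F)} (hortho : ∀ i j, i ≠ j → ∀ u ∈ D i, ∀ v ∈ D j, B u v = 0)
    (w : Fin t → Fin k → ι → F) (hw : ∀ i j, w i j ∈ D i) (ε : Fin k → F) (hε : ∀ j, ε j ≠ 0) (hQw : ∀ i j, Q (w i j) = ε j)
    (hBw : ∀ i j j', j ≠ j' → B (w i j) (w i j') = 0) (L : Set (ι → F))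
    (hLinv : ∀ g : GL ι F, g ∈ decompositionStabilizer D → g ∈ isometryGroup F Q → ∀ v ∈ L, (g : Matrix ι ι F) *ᵥ v ∈ L)
    (hLchar : ∀ v ∈ L, ∃ i j, ∃ c : F, c ≠ 0 ∧ v = c • w i j) (hLmem : ∀ i j, ∀ c : F, c ≠ 0 → c • w i j ∈ L)
    (hLD : ∀ v ∈ L, ∃ i, v ∈ D i) (ht : 5 ≤ t) (hk : 2 ≤ k) (hn : 2 ≤ Fintype.card ι) :
    ∃ K : Subgroup (GL ι F), decompositionStabilizer D ⊓ omegaGL Q < K ∧ K < omegaGL Q := by
  classical
  let i₀ : Fin t := ⟨0, by omega⟩
  let i₁ : Fin t := ⟨1, by omega⟩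
  let i₂ : Fin t := ⟨2, by omega⟩
  let i₃ : Fin t := ⟨3, by omega⟩
  let i₄ : Fin t := ⟨4, by omega⟩
  let j₀ : Fin k := ⟨0, by omega⟩
  let j₁ : Fin k := ⟨1, by omega⟩
  have hj : j₀ ≠ j₁ := by simp [j₀, j₁, Fin.ext_iff]
  have hii : ∀ i j, B (w i j) (w i j) = 2 * ε j := fun i j => by rw [B_self hQ, hQw]
  have hB : ∀ {i i' : Fin t} (j j' : Fin k), i ≠ i' → B (w i j) (w i' j') = 0 := fun j j' h =>
    hortho _ _ h _ (hw _ j) _ (hw _ j')
  have h01 : i₀ ≠ i₁ := by simp [i₀, i₁, Fin.ext_iff]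
  have h02 : i₀ ≠ i₂ := by simp [i₀, i₂, Fin.ext_iff]
  have h03 : i₀ ≠ i₃ := by simp [i₀, i₃, Fin.ext_iff]
  have h04 : i₀ ≠ i₄ := by simp [i₀, i₄, Fin.ext_iff]
  have h12 : i₁ ≠ i₂ := by simp [i₁, i₂, Fin.ext_iff]
  have h13 : i₁ ≠ i₃ := by simp [i₁, i₃, Fin.ext_iff]
  have h23 : i₂ ≠ i₃ := by simp [i₂, i₃, Fin.ext_iff]
  have h2ε : ∀ j, 2 * ε j ≠ 0 := fun j => mul_ne_zero h2 (hε j)
  have hstabR : ∀ u (hu : Q u ≠ 0), (∀ v ∈ L, ((R Q u : GL ι F) : Matrix ι ι F) *ᵥ v ∈ L) →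
      R Q u ∈ stabilizing (Units.coeHom (Matrix ι ι F)) L := by
    intro u hu h v
    constructor
    · exact h v
    · intro hv
      have hv' : ((R Q u : GL ι F) : Matrix ι ι F) *ᵥ v ∈ L := hv
      have := h _ hv'
      rwa [← mul_mulVec, R_mul_self hQ hu, one_mulVec'] at this
  have hswap : ∀ (i i' : Fin t) (j : Fin k), (i ≠ i') → (∀ v ∈ L, ((R Q (w i j - w i' j) : GL ι F) : Matrix ι ι F) *ᵥ v ∈ L) ∧
      Q (w i j - w i' j) = 2 * ε j := by
    intro i i' j hne
    have hQu : Q (w i j - w i' j) = 2 * ε j := by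
      rw [Q_sub hQ, hQw, hQw, hB j j hne]
      ring
    refine ⟨?_, hQu⟩
    have hu : Q (w i j - w i' j) ≠ 0 := by rw [hQu]; exact h2ε j
    intro v hv
    obtain ⟨r, s, c, hc, rfl⟩ := hLchar v hv
    rw [R_mulVec hQ hu, hQu]
    by_cases h1 : r = i ∧ s = j
    · obtain ⟨rfl, rfl⟩ := h1
      have e : B (c • w r s) (w r s - w i' s) = c * (2 * ε s) := by
        rw [B_smul_left hQ, B_sub_right hQ, hii, hB s s hne, sub_zero]
      rw [e]
      have e2 : c • w r s - ((2 * ε s)⁻¹ * (c * (2 * ε s))) • (w r s - w i' s) = c • w i' s := by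
        have h5 := h2ε s
        have : (2 * ε s)⁻¹ * (c * (2 * ε s)) = c := by
          rw [mul_comm c, ← mul_assoc, inv_mul_cancel₀ h5, one_mul]
        rw [this, smul_sub, sub_sub_cancel]
      rw [e2]
      exact hLmem _ _ _ hc
    · by_cases h4 : r = i' ∧ s = j
      · obtain ⟨rfl, rfl⟩ := h4
        have e : B (c • w r s) (w i s - w r s) = - (c * (2 * ε s)) := by
          rw [B_smul_left hQ, B_sub_right hQ, hii, hB s s hne.symm]
          ring
        rw [e]
        have e2 : c • w r s - ((2 * ε s)⁻¹ * (- (c * (2 * ε s)))) • (w i s - w r s) = c • w i s := by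
          have h5 := h2ε s
          have : (2 * ε s)⁻¹ * (- (c * (2 * ε s))) = -c := by
            rw [mul_neg, mul_comm c, ← mul_assoc, inv_mul_cancel₀ h5, one_mul]
          rw [this, neg_smul, smul_sub]
          abel
        rw [e2]
        exact hLmem _ _ _ hc
      · have e1 : B (w r s) (w i j) = 0 := by
          by_cases hr : r = i
          · subst hr
            have : s ≠ j := fun h => h1 ⟨rfl, h⟩
            exact hBw _ _ _ this
          · exact hB _ _ hr
        have e2 : B (w r s) (w i' j) = 0 := by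
          by_cases hr : r = i'
          · subst hr
            have : s ≠ j := fun h => h4 ⟨rfl, h⟩
            exact hBw _ _ _ this
          · exact hB _ _ hr
        rw [B_smul_left hQ, B_sub_right hQ, e1, e2]
        simp only [sub_self, mul_zero, zero_smul, sub_zero]
        exact hLmem _ _ _ hc
  have hi₃ := hswap i₂ i₃ j₀ h23
  have hi₁ := hswap i₀ i₁ j₀ h01
  set u := w i₀ j₀ - w i₁ j₀ with hu_def
  set u' := w i₂ j₀ - w i₃ j₀ with hu'_def
  have hu : Q u ≠ 0 := by rw [hi₁.2]; exact h2ε j₀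
  have hu' : Q u' ≠ 0 := by rw [hi₃.2]; exact h2ε j₀
  let ρ₁ : ↥(isometryGroup F Q) := prodR hQ [u, u']
  have hρ₁ : ρ₁ ∈ Omega F Q := by
    rw [list_mem_omega_iff hQ h2 hn]
    · refine ⟨by simp, ?_⟩
      simp only [List.map_cons, List.map_nil, List.prod_cons, List.prod_nil, mul_one]
      rw [hi₁.2, hi₃.2]
      exact ⟨2 * ε j₀, rfl⟩
    · intro v hv
      simp only [List.mem_cons, List.not_mem_nil, or_false] at hv
      rcases hv with rfl | rfl
      · exact hu
      · exact hu'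
  have hρ₁v : ((ρ₁ : GL ι F)) = R Q u * R Q u' := by
    show ((prodR hQ [u, u'] : ↥(isometryGroup F Q)) : GL ι F) = _
    rw [prodR_cons, prodR_cons, prodR_nil, mul_one, rr_eq hQ hu, rr_eq hQ hu']
    rfl
  -- the second witness
  let x : Fin t → ι → F := fun i => w i j₀
  let s : ι → F := x i₀ + x i₁ + x i₂ + x i₃
  have hxx : ∀ i, B (x i) (x i) = 2 * ε j₀ := fun i => hii _ _
  have hxB : ∀ {i i' : Fin t}, i ≠ i' → B (x i) (x i') = 0 := fun h => hB _ _ h
  have hQs : Q s = 4 * ε j₀ := by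
    simp only [s, Q_add hQ, B_add_left hQ, hxB h01, hxB h02, hxB h03, hxB h12, hxB h13, hxB h23]
    have e : ∀ i, Q (x i) = ε j₀ := fun i => hQw _ _
    rw [e, e, e, e]
    ring
  have h4ε : 4 * ε j₀ ≠ 0 := by
    have : (4 : F) = 2 * 2 := by norm_num
    rw [this]
    exact mul_ne_zero (mul_ne_zero h2 h2) (hε j₀)
  have hs : Q s ≠ 0 := by rw [hQs]; exact h4ε
  have hy : Q (x i₄) ≠ 0 := by rw [show Q (x i₄) = ε j₀ from hQw _ _]; exact hε j₀
  let ρ₂ : ↥(isometryGroup F Q) := prodR hQ [s, x i₄]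
  have hρ₂ : ρ₂ ∈ Omega F Q := by
    rw [list_mem_omega_iff hQ h2 hn]
    · refine ⟨by simp, ?_⟩
      simp only [List.map_cons, List.map_nil, List.prod_cons, List.prod_nil, mul_one]
      rw [hQs, show Q (x i₄) = ε j₀ from hQw _ _]
      exact ⟨2 * ε j₀, by ring⟩
    · intro v hv
      simp only [List.mem_cons, List.not_mem_nil, or_false] at hv
      rcases hv with rfl | rfl
      · exact hs
      · exact hy
  have hρ₂v : ((ρ₂ : GL ι F)) = R Q s * R Q (x i₄) := by
    show ((prodR hQ [s, x i₄] : ↥(isometryGroup F Q)) : GL ι F) = _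
    rw [prodR_cons, prodR_cons, prodR_nil, mul_one, rr_eq hQ hs, rr_eq hQ hy]
    rfl
  refine ⟨stabilizing (Units.coeHom (Matrix ι ι F)) L ⊓ omegaGL Q, ?_, ?_⟩
  · refine lt_of_le_of_ne ?_ ?_
    · refine le_inf ?_ inf_le_right
      rintro g ⟨hg1, hg2⟩
      have hgO : ∀ g : GL ι F, g ∈ omegaGL Q → g ∈ isometryGroup F Q := by
        rintro _ ⟨h, -, rfl⟩
        exact h.2
      intro v
      constructor
      · exact hLinv g hg1 (hgO g hg2) v
      · intro hv
        have hv' : (g : Matrix ι ι F) *ᵥ v ∈ L := hv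
        have := hLinv g⁻¹ ((decompositionStabilizer D).inv_mem hg1) ((isometryGroup F Q).inv_mem (hgO g hg2)) _ hv'
        rwa [Matrix.mulVec_mulVec, ← Units.val_mul, inv_mul_cancel, Units.val_one, Matrix.one_mulVec] at this
    · intro heq
      have hmem : (ρ₁ : GL ι F) ∈ stabilizing (Units.coeHom (Matrix ι ι F)) L ⊓ omegaGL Q := by
        refine ⟨?_, ⟨ρ₁, hρ₁, rfl⟩⟩
        rw [hρ₁v]
        exact Subgroup.mul_mem _ (hstabR u hu hi₁.1) (hstabR u' hu' hi₃.1)
      rw [← heq] at hmem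
      obtain ⟨σ, hσ⟩ := hmem.1
      have hv : ((ρ₁ : GL ι F) : Matrix ι ι F) *ᵥ (w i₀ j₀ + w i₀ j₁) ∈ D (σ i₀) := by
        rw [← hσ]
        exact ⟨_, (D i₀).add_mem (hw _ _) (hw _ _), by rw [Matrix.toLin'_apply]⟩
      have e : ((ρ₁ : GL ι F) : Matrix ι ι F) *ᵥ (w i₀ j₀ + w i₀ j₁) = w i₁ j₀ + w i₀ j₁ := by
        rw [hρ₁v, mul_mulVec, R_mulVec hQ hu', R_mulVec hQ hu]
        have e1 : B (w i₀ j₀ + w i₀ j₁) u' = 0 := by
          rw [hu'_def, B_add_left hQ, B_sub_right hQ, B_sub_right hQ, hB _ _ h02, hB _ _ h03, hB _ _ h02, hB _ _ h03]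
          simp
        rw [e1, mul_zero, zero_smul, sub_zero]
        have e2 : B (w i₀ j₀ + w i₀ j₁) u = 2 * ε j₀ := by
          rw [hu_def, B_add_left hQ, B_sub_right hQ, B_sub_right hQ, hii, hB _ _ h01, hBw _ _ _ hj.symm, hB _ _ h01]
          simp
        rw [e2, hi₁.2, inv_mul_cancel₀ (h2ε j₀), one_smul, hu_def]
        abel
      rw [e] at hv
      by_cases hk : σ i₀ = i₀
      · rw [hk] at hv
        have := hortho _ _ h01 _ hv _ (hw i₁ j₀)
        rw [B_add_left hQ, hii, hB _ _ h01, add_zero] at this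
        exact h2ε j₀ this
      · have := hortho _ _ hk _ hv _ (hw i₀ j₁)
        rw [B_add_left hQ, hii, hB _ _ h01.symm, zero_add] at this
        exact h2ε j₁ this
  · refine lt_of_le_of_ne inf_le_right ?_
    intro heq
    have hmem : (ρ₂ : GL ι F) ∈ stabilizing (Units.coeHom (Matrix ι ι F)) L ⊓ omegaGL Q := by
      rw [heq]
      exact ⟨ρ₂, hρ₂, rfl⟩
    have h1 : x i₀ ∈ L := by
      have := hLmem i₀ j₀ 1 one_ne_zero
      rwa [one_smul] at this
    have h4 : ((ρ₂ : GL ι F) : Matrix ι ι F) *ᵥ (x i₀) ∈ L := (hmem.1 _).1 h1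
    have e : ((ρ₂ : GL ι F) : Matrix ι ι F) *ᵥ (x i₀) = x i₀ - (2⁻¹ : F) • s := by
      rw [hρ₂v, mul_mulVec, R_mulVec hQ hy, R_mulVec hQ hs, hxB h04]
      simp only [mul_zero, zero_smul, sub_zero]
      have e2 : B (x i₀) s = 2 * ε j₀ := by
        simp only [s, B_add_right hQ, hxx, hxB h01, hxB h02, hxB h03, add_zero]
      rw [e2, hQs]
      have : (4 * ε j₀)⁻¹ * (2 * ε j₀) = (2 : F)⁻¹ := by
        have h5 := hε j₀
        have h44 : (4 : F) = 2 * 2 := by norm_num
        rw [h44]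
        field_simp
      rw [this]
    rw [e] at h4
    obtain ⟨k, hk⟩ := hLD _ h4
    have hB1 : B (x i₀ - (2⁻¹ : F) • s) (x i₁) = - ε j₀ := by
      rw [B_sub_left hQ, B_smul_left hQ, hxB h01]
      simp only [s, B_add_left hQ, hxx, hxB h01, hxB h12.symm, hxB h13.symm]
      field_simp
      ring
    have hB2 : B (x i₀ - (2⁻¹ : F) • s) (x i₂) = - ε j₀ := by
      rw [B_sub_left hQ, B_smul_left hQ, hxB h02]
      simp only [s, B_add_left hQ, hxx, hxB h02, hxB h12, hxB h23.symm]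
      field_simp
      ring
    by_cases hk1 : k = i₁
    · subst hk1
      have := hortho _ _ h12 _ hk _ (hw i₂ j₀)
      have h6 : B (x i₀ - (2⁻¹ : F) • s) (x i₂) = 0 := this
      rw [hB2] at h6
      exact (neg_ne_zero.2 (hε j₀)) h6
    · have := hortho _ _ hk1 _ hk _ (hw i₁ j₀)
      have h6 : B (x i₀ - (2⁻¹ : F) • s) (x i₁) = 0 := this
      rw [hB1] at h6
      exact (neg_ne_zero.2 (hε j₀)) h6

/-- Hyperbolic pairs of plus-type planes. -/
theorem plane_hyp (hQ : IsNondegenerateQuadraticForm Q) {W : Submodule F (ι → F)} (hdim : Module.finrank F W = 2)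
    (hW : IsNondegenerateOn B W) (hWp : IsPlusTypeOn Q W) :
    ∃ e ∈ W, ∃ f ∈ W, Q e = 0 ∧ Q f = 0 ∧ B e f = 1 ∧ ∀ v ∈ W, ∃ a b : F, v = a • e + b • f := by
  obtain ⟨U, hUW, hUts, hUd⟩ := hWp
  have hU0 : U ≠ ⊥ := by
    intro h
    rw [h, finrank_bot] at hUd
    omega
  obtain ⟨s, hs, hs0⟩ := Submodule.exists_mem_ne_zero_of_ne_bot hU0
  have hQs : Q s = 0 := hUts s hs
  have hsW : s ∈ W := hUW hs
  obtain ⟨y, hy, hsy⟩ := (hW s hsW hs0).2
  obtain ⟨t, htW, hQt, hst⟩ := Cfsg.Agent.Lib.OrthOmega.exists_hyp hQ hsW hQs hy hsy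
  have hss : B s s = 0 := by rw [B_self hQ, hQs, mul_zero]
  have htt : B t t = 0 := by rw [B_self hQ, hQt, mul_zero]
  have hts : B t s = 1 := by rw [B_comm hQ, hst]
  have hind : LinearIndependent F ![s, t] := by
    rw [LinearIndependent.pair_iff]
    intro a b hab
    have hz : ∀ x : ι → F, B 0 x = 0 := fun x => by
      have := B_smul_left hQ 0 (0 : ι → F) x
      simpa using this
    have e1 := congrArg (fun v => B v s) hab
    have e2 := congrArg (fun v => B v t) hab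
    simp only [B_add_left hQ, B_smul_left hQ, hss, hts, htt, hst, hz, mul_zero, mul_one, zero_add, add_zero] at e1 e2
    exact ⟨e2, e1⟩
  have hspan : Submodule.span F (Set.range ![s, t]) = W := by
    refine Submodule.eq_of_le_of_finrank_eq ?_ ?_
    · rw [Submodule.span_le]
      rintro _ ⟨i, rfl⟩
      fin_cases i
      · exact hsW
      · exact htW
    · rw [finrank_span_eq_card hind, hdim]
      simp
  refine ⟨s, hsW, t, htW, hQs, hQt, hst, ?_⟩
  intro v hv
  rw [← hspan] at hv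
  obtain ⟨c, hc⟩ := (Submodule.mem_span_range_iff_exists_fun F).1 hv
  refine ⟨c 0, c 1, ?_⟩
  rw [← hc, Fin.sum_univ_two]
  rfl

/-- Plus-type planes over fields with `c⁴ = 1` for every non-zero `c`. -/
theorem plane_odd (hQ : IsNondegenerateQuadraticForm Q) (h2 : (2 : F) ≠ 0) (h4 : ∀ c : F, c ≠ 0 → c ^ 4 = 1) {t : ℕ}
    {D : Fin t → Submodule F (ι → F)} (hD : IsOrthogonalMDecomposition Q 2 D) (hplus : ∀ i, IsPlusTypeOn Q (D i))
    (ht : 5 ≤ t) (hn : 2 ≤ Fintype.card ι) :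
    ∃ K : Subgroup (GL ι F), decompositionStabilizer D ⊓ omegaGL Q < K ∧ K < omegaGL Q := by
  classical
  choose e he f hf hQe hQf hef hsp using fun i => plane_hyp hQ (hD.decomp.decomp.finrank_eq i) (hD.decomp.nondegenerate i) (hplus i)
  have hee : ∀ i, B (e i) (e i) = 0 := fun i => by rw [B_self hQ, hQe, mul_zero]
  have hff : ∀ i, B (f i) (f i) = 0 := fun i => by rw [B_self hQ, hQf, mul_zero]
  have hfe : ∀ i, B (f i) (e i) = 1 := fun i => by rw [B_comm hQ, hef]
  let w : Fin t → Fin 2 → ι → F := fun i j => if j = 0 then e i + f i else e i - f i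
  let ε : Fin 2 → F := fun j => if j = 0 then 1 else -1
  have hw0 : ∀ i, w i 0 = e i + f i := fun i => rfl
  have hw1 : ∀ i, w i 1 = e i - f i := fun i => rfl
  refine main_frame2 hQ h2 (fun i j hij u hu v hv => hD.decomp.orthogonal i j hij u hu v hv) w ?_ ε ?_ ?_ ?_
    {v | (∃ i, v ∈ D i) ∧ (Q v) ^ 2 = 1} ?_ ?_ ?_ ?_ ht (by norm_num) hn
  · intro i j
    fin_cases j
    · exact (D i).add_mem (he i) (hf i)
    · exact (D i).sub_mem (he i) (hf i)
  · intro j
    fin_cases j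
    · exact one_ne_zero
    · exact neg_ne_zero.2 one_ne_zero
  · intro i j
    fin_cases j
    · change Q (e i + f i) = 1
      rw [Q_add hQ, hQe, hQf, hef]
      ring
    · change Q (e i - f i) = -1
      rw [Q_sub hQ, hQe, hQf, hef]
      ring
  · intro i j j' hjj
    have h : B (e i + f i) (e i - f i) = 0 := by
      rw [B_add_left hQ, B_sub_right hQ, B_sub_right hQ, hee, hff, hef, hfe]
      ring
    have h' : B (e i - f i) (e i + f i) = 0 := by
      rw [B_comm hQ]; exact h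
    fin_cases j <;> fin_cases j'
    · exact absurd rfl hjj
    · exact h
    · exact h'
    · exact absurd rfl hjj
  · rintro g ⟨σ, hσ⟩ hgO v ⟨⟨i, hvD⟩, hv⟩
    refine ⟨⟨σ i, ?_⟩, ?_⟩
    · rw [← hσ]
      exact ⟨v, hvD, by rw [Matrix.toLin'_apply]⟩
    · rw [(mem_O_iff g).1 hgO]
      exact hv
  · rintro v ⟨⟨i, hvD⟩, hv⟩
    obtain ⟨a, b, rfl⟩ := hsp i v hvD
    refine ⟨i, ?_⟩
    have hQv : Q (a • e i + b • f i) = a * b := by
      rw [Q_add hQ, Q_smul hQ, Q_smul hQ, hQe, hQf, B_smul_left hQ, B_smul_right hQ, hef]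
      ring
    rw [hQv] at hv
    have ha : a ≠ 0 := by
      rintro rfl
      simp at hv
    have hb : b ≠ 0 := by
      rintro rfl
      simp at hv
    -- b = a or b = -a
    have h1 : (a ^ 2) ^ 2 = 1 := by rw [← pow_mul]; exact h4 a ha
    have h3 : (b ^ 2) ^ 2 = 1 := by rw [← pow_mul]; exact h4 b hb
    have h5 : (b - a) * (b + a) = 0 := by
      have e1 : b ^ 2 - a ^ 2 = 0 := by
        -- `a²b² = ±1`, `a⁴ = 1`
        have h6 : (a ^ 2 - 1) * (a ^ 2 + 1) = 0 := by linear_combination h1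
        have h7 : (b ^ 2 - 1) * (b ^ 2 + 1) = 0 := by linear_combination h3
        have h8 : (a * b - 1) * (a * b + 1) = 0 := by linear_combination hv
        have hA : a ^ 2 = 1 ∨ a ^ 2 = -1 := by
          rcases mul_eq_zero.1 h6 with h | h
          · exact Or.inl (sub_eq_zero.1 h)
          · exact Or.inr (eq_neg_of_add_eq_zero_left h)
        have hC : a * b = 1 ∨ a * b = -1 := by
          rcases mul_eq_zero.1 h8 with h | h
          · exact Or.inl (sub_eq_zero.1 h)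
          · exact Or.inr (eq_neg_of_add_eq_zero_left h)
        have hb2 : b ^ 2 = (a * b) ^ 2 * (a ^ 2) := by
          have : a ^ 4 = 1 := h4 a ha
          calc b ^ 2 = a ^ 4 * b ^ 2 := by rw [this, one_mul]
            _ = _ := by ring
        rw [hb2]
        rcases hC with hC | hC <;> rw [hC] <;> ring
      linear_combination e1
    rcases mul_eq_zero.1 h5 with h | h
    · have hba : b = a := sub_eq_zero.1 h
      subst hba
      exact ⟨0, b, hb, by rw [hw0, smul_add]⟩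
    · have hba : b = -a := eq_neg_of_add_eq_zero_left h
      subst hba
      refine ⟨1, a, ha, ?_⟩
      rw [hw1, smul_sub, neg_smul]
      abel
  · intro i j c hc
    refine ⟨⟨i, (D i).smul_mem _ ?_⟩, ?_⟩
    · fin_cases j
      · exact (D i).add_mem (he i) (hf i)
      · exact (D i).sub_mem (he i) (hf i)
    · have hc4 := h4 c hc
      rw [Q_smul hQ]
      have hqw : (Q (w i j)) ^ 2 = 1 := by
        fin_cases j
        · change (Q (e i + f i)) ^ 2 = 1
          rw [Q_add hQ, hQe, hQf, hef]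
          ring
        · change (Q (e i - f i)) ^ 2 = 1
          rw [Q_sub hQ, hQe, hQf, hef]
          ring
      calc (c ^ 2 * Q (w i j)) ^ 2 = c ^ 4 * (Q (w i j)) ^ 2 := by ring
        _ = 1 := by rw [hc4, hqw, one_mul]
  · rintro v ⟨h, -⟩
    exact h

end Cfsg.Agent.Lib.FrameO2
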