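import Cfsg.Agent.Lib.DecompOver
import Cfsg.Agent.Lib.HermForm

set_option autoImplicit false

/-! Unitary transvections over the field with four elements, orthonormal bases of non-degenerate
planes, and the overgroups of the stabilisers of non-degenerate plane decompositions. -/

namespace Cfsg.Agent.Lib.UnitOver

open Matrix Cfsg Cfsg.Geo Cfsg.Agent.Lib.OrthE Cfsg.Agent.Lib.DecompOver Cfsg.Agent.Lib.HermForm
open scoped MatrixGroups

variable {F : Type*} [Field F] [Fintype F]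

theorem two_zero (hF : Fintype.card F = 4) : (2 : F) = 0 := by
  have hcast : ((Fintype.card F : ℕ) : F) = 0 := FiniteField.cast_card_eq_zero F
  rw [hF] at hcast
  have h4 : (2 : F) * 2 = 0 := by
    have : ((4 : ℕ) : F) = 2 * 2 := by norm_num
    rw [← this]
    exact hcast
  exact mul_self_eq_zero.1 h4

theorem cube (hF : Fintype.card F = 4) {a : F} (ha : a ≠ 0) : a ^ 3 = 1 := by
  have := FiniteField.pow_card_sub_one_eq_one a ha
  rwa [hF] at this

theorem exists_omega (hF : Fintype.card F = 4) : ∃ w : F, w ^ 2 + w = 1 := by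
  classical
  have h2 := two_zero hF
  have : ∃ w : F, w ≠ 0 ∧ w ≠ 1 := by
    by_contra hc
    push Not at hc
    have hsub : (Finset.univ : Finset F) ⊆ {0, 1} := by
      intro x _
      by_cases hx : x = 0
      · simp [hx]
      · simp [hc x hx]
    have h1 := Finset.card_le_card hsub
    rw [Finset.card_univ, hF] at h1
    have h3 : ({0, 1} : Finset F).card ≤ 2 := Finset.card_le_two
    omega
  obtain ⟨w, h0, h1⟩ := this
  refine ⟨w, ?_⟩
  have h3 := cube hF h0
  have h4 : (w - 1) * (w ^ 2 + w + 1) = 0 := by linear_combination h3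
  have h5 : w ^ 2 + w + 1 = 0 := by
    rcases mul_eq_zero.1 h4 with h | h
    · exact absurd (sub_eq_zero.1 h) h1
    · exact h
  linear_combination h5 - h2

variable {n : ℕ}

theorem hF2 (hF : Fintype.card F = 4) : Fintype.card F = 2 ^ 2 := by rw [hF]; norm_num

theorem norm_val (hF : Fintype.card F = 4) (v : Fin n → F) :
    hermForm n F 2 v v = 0 ∨ hermForm n F 2 v v = 1 := by
  have h := hf_conj (hF2 hF) v v
  have h3 : hermForm n F 2 v v * (hermForm n F 2 v v - 1) = 0 := by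
    linear_combination (-1 : F) * h
  rcases mul_eq_zero.1 h3 with h4 | h4
  · exact Or.inl h4
  · exact Or.inr (sub_eq_zero.1 h4)

/-- The functional `h(·, u)`. -/
def hLin (u : Fin n → F) : (Fin n → F) →ₗ[F] F where
  toFun x := hermForm n F 2 x u
  map_add' x y := hf_add_left x y u
  map_smul' c x := hf_smul_left c x u

theorem hLin_apply (u x : Fin n → F) : hLin u x = hermForm n F 2 x u := rfl

/-- The unitary transvection with isotropic centre `u`. -/
noncomputable def Tu (u : Fin n → F) (hu : hermForm n F 2 u u = 0) : GL (Fin n) F :=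
  tvU (hLin u) u (by rw [hLin_apply, hu, add_zero]; exact one_ne_zero)

theorem Tu_mulVec (u : Fin n → F) (hu : hermForm n F 2 u u = 0) (x : Fin n → F) :
    ((Tu u hu : GL (Fin n) F) : Matrix (Fin n) (Fin n) F) *ᵥ x = x + hermForm n F 2 x u • u :=
  tvU_mulVec _ _ _ _

theorem Tu_det (u : Fin n → F) (hu : hermForm n F 2 u u = 0) :
    ((Tu u hu : GL (Fin n) F) : Matrix (Fin n) (Fin n) F).det = 1 := by
  rw [Tu, tvU_det, hLin_apply, hu, add_zero]

theorem Tu_mem (hF : Fintype.card F = 4) (u : Fin n → F) (hu : hermForm n F 2 u u = 0) :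
    Tu u hu ∈ GU n F 2 := by
  intro x y
  show hermForm n F 2 (((Tu u hu : GL (Fin n) F) : Matrix (Fin n) (Fin n) F) *ᵥ x) (((Tu u hu : GL (Fin n) F) : Matrix (Fin n) (Fin n) F) *ᵥ y) = _
  rw [Tu_mulVec, Tu_mulVec]
  have hF' := hF2 hF
  have h2 := two_zero hF
  rw [hf_add_left, hf_add_right hF', hf_add_right hF', hf_smul_left, hf_smul_left, hf_smul_right hF', hf_smul_right hF', hu]
  have e1 : hermForm n F 2 u y = (hermForm n F 2 y u) ^ 2 := hf_conj hF' y u
  rw [e1]
  linear_combination (hermForm n F 2 x u * (hermForm n F 2 y u) ^ 2) * h2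

theorem Tu_invol (hF : Fintype.card F = 4) (u : Fin n → F) (hu : hermForm n F 2 u u = 0) (x : Fin n → F) :
    ((Tu u hu : GL (Fin n) F) : Matrix (Fin n) (Fin n) F) *ᵥ (((Tu u hu : GL (Fin n) F) : Matrix (Fin n) (Fin n) F) *ᵥ x) = x := by
  rw [Tu_mulVec, Tu_mulVec, hf_add_left, hf_smul_left, hu, mul_zero, add_zero, add_assoc, ← add_smul]
  have h2 := two_zero hF
  have : hermForm n F 2 x u + hermForm n F 2 x u = 0 := by linear_combination (hermForm n F 2 x u) * h2
  rw [this, zero_smul, add_zero]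

/-- Orthonormal frames of non-degenerate planes. -/
theorem exists_onb (hF : Fintype.card F = 4) (W : Submodule F (Fin n → F)) (hd : Module.finrank F W = 2)
    (hnd : IsNondegenerateOn (hermForm n F 2) W) :
    ∃ w₀ ∈ W, ∃ w₁ ∈ W, hermForm n F 2 w₀ w₀ = 1 ∧ hermForm n F 2 w₁ w₁ = 1 ∧ hermForm n F 2 w₁ w₀ = 0 ∧
      hermForm n F 2 w₀ w₁ = 0 ∧ ∀ v ∈ W, ∃ α β : F, v = α • w₀ + β • w₁ := by
  classical
  have hF' := hF2 hF
  have h2 := two_zero hF
  -- a non-isotropic vector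
  have hex : ∃ w₀ ∈ W, hermForm n F 2 w₀ w₀ = 1 := by
    by_contra hc
    push Not at hc
    have hiso : ∀ w ∈ W, hermForm n F 2 w w = 0 := fun w hw => (norm_val hF w).resolve_right (hc w hw)
    have hW : W ≠ ⊥ := by
      rintro rfl
      simp at hd
    obtain ⟨w, hw, hw0⟩ := W.ne_bot_iff.1 hW
    obtain ⟨⟨x, hx, ha⟩, -⟩ := hnd w hw hw0
    obtain ⟨ω, hω⟩ := exists_omega hF
    set a := hermForm n F 2 x w with ha'
    have h3 := hiso (x + (ω * a) • w) (W.add_mem hx (W.smul_mem _ hw))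
    rw [hf_add_left, hf_add_right hF', hf_add_right hF', hf_smul_left, hf_smul_left, hf_smul_right hF', hf_smul_right hF',
      hiso x hx, hiso w hw, ← ha'] at h3
    have e1 : hermForm n F 2 w x = a ^ 2 := hf_conj hF' x w
    rw [e1] at h3
    have h4 := cube hF ha
    have h5 : (1 : F) = 0 := by
      calc (1 : F) = (ω ^ 2 + ω) * a ^ 3 := by rw [hω, h4, one_mul]
        _ = 0 := by linear_combination h3
    exact one_ne_zero h5
  obtain ⟨w₀, hw₀, hw₀₀⟩ := hex
  let K : Submodule F (Fin n → F) := LinearMap.ker (hLin w₀)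
  have hKmem : ∀ x, x ∈ K ↔ hermForm n F 2 x w₀ = 0 := fun x => by
    simp only [K, LinearMap.mem_ker, hLin_apply]
  have hsurj : Function.Surjective (hLin w₀) := by
    intro c
    refine ⟨c • w₀, ?_⟩
    rw [map_smul, hLin_apply, hw₀₀, smul_eq_mul, mul_one]
  have hrk := LinearMap.finrank_range_add_finrank_ker (hLin w₀)
  rw [LinearMap.range_eq_top.2 hsurj, finrank_top, Module.finrank_self, Module.finrank_fintype_fun_eq_card, Fintype.card_fin] at hrk
  have hsup : W ⊔ K = ⊤ := by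
    rw [eq_top_iff]
    intro x _
    have e : x = hermForm n F 2 x w₀ • w₀ + (x - hermForm n F 2 x w₀ • w₀) := by abel
    rw [e]
    apply Submodule.add_mem_sup (W.smul_mem _ hw₀)
    rw [hKmem, hf_sub_left, hf_smul_left, hw₀₀, mul_one, sub_self]
  have hdim := Submodule.finrank_sup_add_finrank_inf_eq W K
  rw [hsup, finrank_top, Module.finrank_fintype_fun_eq_card, Fintype.card_fin, hd] at hdim
  have hker : Module.finrank F ↥(W ⊓ K) = 1 := by
    have h3 : 1 + Module.finrank F ↥K = n := hrk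
    omega
  obtain ⟨w', hw'0, hw'⟩ := finrank_eq_one_iff'.1 hker
  have hw'ne : ((w' : ↥(W ⊓ K)) : Fin n → F) ≠ 0 := by
    intro h
    apply hw'0
    apply Subtype.ext
    exact h
  have hw'W : ((w' : ↥(W ⊓ K)) : Fin n → F) ∈ W := (w').2.1
  have h10 : hermForm n F 2 ((w' : ↥(W ⊓ K)) : Fin n → F) w₀ = 0 := (hKmem _).1 (w').2.2
  have h01 : hermForm n F 2 w₀ ((w' : ↥(W ⊓ K)) : Fin n → F) = 0 := by
    rw [hf_conj hF', h10]
    simp
  have hdecomp : ∀ v ∈ W, ∃ β : F, v = hermForm n F 2 v w₀ • w₀ + β • ((w' : ↥(W ⊓ K)) : Fin n → F) := by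
    intro v hv
    have hz : v - hermForm n F 2 v w₀ • w₀ ∈ W ⊓ K := by
      refine ⟨W.sub_mem hv (W.smul_mem _ hw₀), (hKmem _).2 ?_⟩
      rw [hf_sub_left, hf_smul_left, hw₀₀, mul_one, sub_self]
    obtain ⟨β, hβ⟩ := hw' ⟨_, hz⟩
    refine ⟨β, ?_⟩
    have h3 := congrArg (fun y : ↥(W ⊓ K) => (y : Fin n → F)) hβ
    simp only [SetLike.val_smul] at h3
    rw [h3]
    abel
  refine ⟨w₀, hw₀, _, hw'W, hw₀₀, ?_, h10, h01, ?_⟩
  · rcases norm_val hF ((w' : ↥(W ⊓ K)) : Fin n → F) with h | h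
    · exfalso
      obtain ⟨⟨x, hx, hx2⟩, -⟩ := hnd _ hw'W hw'ne
      apply hx2
      obtain ⟨β, hβ⟩ := hdecomp x hx
      rw [hβ, hf_add_left, hf_smul_left, hf_smul_left, h01, h]
      simp
    · exact h
  · intro v hv
    obtain ⟨β, hβ⟩ := hdecomp v hv
    exact ⟨_, β, hβ⟩

/-- Overgroup of the stabiliser of a non-degenerate decomposition into planes. -/
theorem plane_main (hF : Fintype.card F = 4) {t : ℕ} {D : Fin t → Submodule F (Fin n → F)}
    (hD : IsNondegenerateMDecomposition (hermForm n F 2) 2 D) :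
    ∃ K : Subgroup (GL (Fin n) F), decompositionStabilizer D ⊓ (GU n F 2 ⊓ specialLinear (Fin n) F) < K ∧
      K < (GU n F 2 ⊓ specialLinear (Fin n) F) := by
  classical
  have hF' := hF2 hF
  have h2 := two_zero hF
  choose w₀ hw₀ w₁ hw₁ h00 h11 h10 h01 hspan using fun i => exists_onb hF (D i) (hD.decomp.finrank_eq i) (hD.nondegenerate i)
  have ht := hD.decomp.two_le
  let i₀ : Fin t := ⟨0, by omega⟩
  let i₁ : Fin t := ⟨1, by omega⟩
  have hi : i₀ ≠ i₁ := by simp [i₀, i₁, Fin.ext_iff]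
  have horth : ∀ {i k : Fin t}, i ≠ k → ∀ {x y : Fin n → F}, x ∈ D i → y ∈ D k → hermForm n F 2 x y = 0 :=
    fun {i k} hik {x y} hx hy => hD.orthogonal i k hik x hx y hy
  -- the set of non-isotropic vectors of the members
  let L : Set (Fin n → F) := {v | (∃ i, v ∈ D i) ∧ hermForm n F 2 v v ≠ 0}
  have hLchar : ∀ v ∈ L, ∃ i, ∃ c : F, c ≠ 0 ∧ (v = c • w₀ i ∨ v = c • w₁ i) := by
    rintro v ⟨⟨i, hvi⟩, hv⟩
    obtain ⟨α, β, rfl⟩ := hspan i v hvi
    refine ⟨i, ?_⟩
    have e : hermForm n F 2 (α • w₀ i + β • w₁ i) (α • w₀ i + β • w₁ i) = α ^ 3 + β ^ 3 := by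
      simp only [hf_add_left, hf_add_right hF', hf_smul_left, hf_smul_right hF', h00, h11, h10, h01]
      ring
    rw [e] at hv
    by_cases hα : α = 0
    · subst hα
      have hβ : β ≠ 0 := by
        rintro rfl
        simp at hv
      exact ⟨β, hβ, Or.inr (by simp)⟩
    · by_cases hβ : β = 0
      · subst hβ
        exact ⟨α, hα, Or.inl (by simp)⟩
      · exfalso
        apply hv
        rw [cube hF hα, cube hF hβ]
        linear_combination h2
  have hLmem0 : ∀ i (c : F), c ≠ 0 → c • w₀ i ∈ L := by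
    intro i c hc
    refine ⟨⟨i, (D i).smul_mem _ (hw₀ i)⟩, ?_⟩
    rw [hf_smul_left, hf_smul_right hF', h00, mul_one]
    exact mul_ne_zero hc (pow_ne_zero _ hc)
  have hLmem1 : ∀ i (c : F), c ≠ 0 → c • w₁ i ∈ L := by
    intro i c hc
    refine ⟨⟨i, (D i).smul_mem _ (hw₁ i)⟩, ?_⟩
    rw [hf_smul_left, hf_smul_right hF', h11, mul_one]
    exact mul_ne_zero hc (pow_ne_zero _ hc)
  -- the two transvections
  let u₁ : Fin n → F := w₁ i₀ + w₀ i₁
  have hu₁ : hermForm n F 2 u₁ u₁ = 0 := by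
    simp only [u₁]
    rw [hf_add_left, hf_add_right hF', hf_add_right hF', h11, h00, horth hi (hw₁ i₀) (hw₀ i₁), horth hi.symm (hw₀ i₁) (hw₁ i₀)]
    linear_combination h2
  let u₂ : Fin n → F := w₀ i₀ + w₁ i₀ + (w₀ i₁ + w₁ i₁)
  have z1 := horth hi (hw₀ i₀) (hw₀ i₁)
  have z2 := horth hi (hw₀ i₀) (hw₁ i₁)
  have z3 := horth hi (hw₁ i₀) (hw₀ i₁)
  have z4 := horth hi (hw₁ i₀) (hw₁ i₁)
  have z5 := horth hi.symm (hw₀ i₁) (hw₀ i₀)
  have z6 := horth hi.symm (hw₀ i₁) (hw₁ i₀)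
  have z7 := horth hi.symm (hw₁ i₁) (hw₀ i₀)
  have z8 := horth hi.symm (hw₁ i₁) (hw₁ i₀)
  have hu₂ : hermForm n F 2 u₂ u₂ = 0 := by
    simp only [u₂, hf_add_left, hf_add_right hF', z1, z2, z3, z4, z5, z6, z7, z8, h00, h11, h01, h10]
    linear_combination (2 : F) * h2
  let T₁ := Tu u₁ hu₁
  let T₂ := Tu u₂ hu₂
  have hT₁v : ∀ x, ((T₁ : GL (Fin n) F) : Matrix (Fin n) (Fin n) F) *ᵥ x = x + hermForm n F 2 x u₁ • u₁ := Tu_mulVec u₁ hu₁
  have hT₂v : ∀ x, ((T₂ : GL (Fin n) F) : Matrix (Fin n) (Fin n) F) *ᵥ x = x + hermForm n F 2 x u₂ • u₂ := Tu_mulVec u₂ hu₂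
  have hself : ∀ z : Fin n → F, z + z = 0 := by
    intro z
    ext i
    simp only [Pi.add_apply, Pi.zero_apply]
    linear_combination (z i) * h2
  -- T₁ permutes the frame
  have hT₁frame : ∀ i (c : F), c ≠ 0 → ∀ z, (z = w₀ i ∨ z = w₁ i) → ((T₁ : GL (Fin n) F) : Matrix (Fin n) (Fin n) F) *ᵥ (c • z) ∈ L := by
    intro i c hc z hz
    rw [Matrix.mulVec_smul, hT₁v]
    have hzi : z ∈ D i := by
      rcases hz with rfl | rfl
      · exact hw₀ i
      · exact hw₁ i
    by_cases hii₀ : i = i₀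
    · subst hii₀
      rcases hz with rfl | rfl
      · have e : hermForm n F 2 (w₀ i₀) u₁ = 0 := by
          simp only [u₁]
          rw [hf_add_right hF', h01, horth hi (hw₀ i₀) (hw₀ i₁), add_zero]
        rw [e, zero_smul, add_zero]
        exact hLmem0 _ _ hc
      · have e : hermForm n F 2 (w₁ i₀) u₁ = 1 := by
          simp only [u₁]
          rw [hf_add_right hF', h11, horth hi (hw₁ i₀) (hw₀ i₁), add_zero]
        rw [e, one_smul]
        have e2 : w₁ i₀ + u₁ = w₀ i₁ := by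
          simp only [u₁]
          rw [← add_assoc, hself, zero_add]
        rw [e2]
        exact hLmem0 _ _ hc
    · by_cases hii₁ : i = i₁
      · subst hii₁
        rcases hz with rfl | rfl
        · have e : hermForm n F 2 (w₀ i₁) u₁ = 1 := by
            simp only [u₁]
            rw [hf_add_right hF', h00, horth hi.symm (hw₀ i₁) (hw₁ i₀), zero_add]
          rw [e, one_smul]
          have e2 : w₀ i₁ + u₁ = w₁ i₀ := by
            simp only [u₁]
            rw [add_comm (w₁ i₀), ← add_assoc, hself, zero_add]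
          rw [e2]
          exact hLmem1 _ _ hc
        · have e : hermForm n F 2 (w₁ i₁) u₁ = 0 := by
            simp only [u₁]
            rw [hf_add_right hF', h10, horth hi.symm (hw₁ i₁) (hw₁ i₀), add_zero]
          rw [e, zero_smul, add_zero]
          exact hLmem1 _ _ hc
      · have e : hermForm n F 2 z u₁ = 0 := by
          simp only [u₁]
          rw [hf_add_right hF', horth hii₀ hzi (hw₁ i₀), horth hii₁ hzi (hw₀ i₁), add_zero]
        rw [e, zero_smul, add_zero]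
        rcases hz with rfl | rfl
        · exact hLmem0 _ _ hc
        · exact hLmem1 _ _ hc
  have hT₁L : T₁ ∈ stabilizing (Units.coeHom (Matrix (Fin n) (Fin n) F)) L := by
    have hfwd : ∀ v ∈ L, ((T₁ : GL (Fin n) F) : Matrix (Fin n) (Fin n) F) *ᵥ v ∈ L := by
      intro v hv
      obtain ⟨i, c, hc, h⟩ := hLchar v hv
      rcases h with rfl | rfl
      · exact hT₁frame i c hc _ (Or.inl rfl)
      · exact hT₁frame i c hc _ (Or.inr rfl)
    intro v
    constructor
    · exact hfwd v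
    · intro hv
      have hv' : ((T₁ : GL (Fin n) F) : Matrix (Fin n) (Fin n) F) *ᵥ v ∈ L := hv
      have := hfwd _ hv'
      have e : ((T₁ : GL (Fin n) F) : Matrix (Fin n) (Fin n) F) *ᵥ (((T₁ : GL (Fin n) F) : Matrix (Fin n) (Fin n) F) *ᵥ v) = v := Tu_invol hF u₁ hu₁ v
      rwa [e] at this
  have hstab1 : ∀ g : GL (Fin n) F, g ∈ decompositionStabilizer D → g ∈ GU n F 2 → ∀ v ∈ L, (g : Matrix (Fin n) (Fin n) F) *ᵥ v ∈ L := by
    rintro g ⟨σ, hσ⟩ hg v ⟨⟨i, hvi⟩, hv⟩
    refine ⟨⟨σ i, ?_⟩, ?_⟩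
    · rw [← hσ]
      exact ⟨v, hvi, by rw [Matrix.toLin'_apply]⟩
    · have := hg v v
      intro h0
      apply hv
      rw [← this]
      exact h0
  refine ⟨stabilizing (Units.coeHom (Matrix (Fin n) (Fin n) F)) L ⊓ (GU n F 2 ⊓ specialLinear (Fin n) F), ?_, ?_⟩
  · refine lt_of_le_of_ne ?_ ?_
    · refine le_inf ?_ inf_le_right
      rintro g ⟨hg1, hg2, hg3⟩
      intro v
      constructor
      · exact hstab1 g hg1 hg2 v
      · intro hv
        have hv' : (g : Matrix (Fin n) (Fin n) F) *ᵥ v ∈ L := hv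
        have := hstab1 g⁻¹ ((decompositionStabilizer D).inv_mem hg1) ((GU n F 2).inv_mem hg2) _ hv'
        rwa [Matrix.mulVec_mulVec, ← Units.val_mul, inv_mul_cancel, Units.val_one, Matrix.one_mulVec] at this
    · intro heq
      have hT₁ : T₁ ∈ stabilizing (Units.coeHom (Matrix (Fin n) (Fin n) F)) L ⊓ (GU n F 2 ⊓ specialLinear (Fin n) F) :=
        ⟨hT₁L, Tu_mem hF u₁ hu₁, (mem_SL _).2 (Tu_det u₁ hu₁)⟩
      rw [← heq] at hT₁
      obtain ⟨σ, hσ⟩ := hT₁.1
      have hv : ((T₁ : GL (Fin n) F) : Matrix (Fin n) (Fin n) F) *ᵥ (w₀ i₀ + w₁ i₀) ∈ D (σ i₀) := by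
        rw [← hσ]
        exact ⟨_, (D i₀).add_mem (hw₀ i₀) (hw₁ i₀), by rw [Matrix.toLin'_apply]⟩
      have e : ((T₁ : GL (Fin n) F) : Matrix (Fin n) (Fin n) F) *ᵥ (w₀ i₀ + w₁ i₀) = w₀ i₀ + w₀ i₁ := by
        rw [hT₁v]
        have e1 : hermForm n F 2 (w₀ i₀ + w₁ i₀) u₁ = 1 := by
          simp only [u₁, hf_add_left, hf_add_right hF', z1, z3, h01, h11]
          ring
        rw [e1, one_smul]
        simp only [u₁]
        rw [add_assoc, ← add_assoc (w₁ i₀), hself, zero_add]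
      rw [e] at hv
      by_cases hk : σ i₀ = i₀
      · rw [hk] at hv
        have := horth hi hv (hw₀ i₁)
        rw [hf_add_left, z1, h00, zero_add] at this
        exact one_ne_zero this
      · have := horth hk hv (hw₀ i₀)
        rw [hf_add_left, z5, h00, add_zero] at this
        exact one_ne_zero this
  · refine lt_of_le_of_ne inf_le_right ?_
    intro heq
    have hT₂ : T₂ ∈ stabilizing (Units.coeHom (Matrix (Fin n) (Fin n) F)) L ⊓ (GU n F 2 ⊓ specialLinear (Fin n) F) := by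
      rw [heq]
      exact ⟨Tu_mem hF u₂ hu₂, (mem_SL _).2 (Tu_det u₂ hu₂)⟩
    have h1 : w₀ i₀ ∈ L := by
      have := hLmem0 i₀ 1 one_ne_zero
      rwa [one_smul] at this
    have h3 : ((T₂ : GL (Fin n) F) : Matrix (Fin n) (Fin n) F) *ᵥ (w₀ i₀) ∈ L := (hT₂.1 _).1 h1
    have e : ((T₂ : GL (Fin n) F) : Matrix (Fin n) (Fin n) F) *ᵥ (w₀ i₀) = w₁ i₀ + (w₀ i₁ + w₁ i₁) := by
      rw [hT₂v]
      have e1 : hermForm n F 2 (w₀ i₀) u₂ = 1 := by
        simp only [u₂, hf_add_right hF', z1, z2, h00, h01]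
        ring
      rw [e1, one_smul]
      simp only [u₂]
      rw [add_assoc (w₀ i₀), ← add_assoc (w₀ i₀), hself, zero_add]
    rw [e] at h3
    obtain ⟨⟨k, hk⟩, -⟩ := h3
    by_cases hk0 : k = i₀
    · rw [hk0] at hk
      have := horth hi hk (hw₀ i₁)
      rw [hf_add_left, hf_add_left, z3, h00, h10] at this
      have h9 : (1 : F) = 0 := by simpa using this
      exact one_ne_zero h9
    · have := horth hk0 hk (hw₁ i₀)
      rw [hf_add_left, hf_add_left, h11, z6, z8] at this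
      have h9 : (1 : F) = 0 := by simpa using this
      exact one_ne_zero h9

end Cfsg.Agent.Lib.UnitOver
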