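import Mathlib
import Cfsg.Prelude.Def_GeometricClasses

set_option autoImplicit false

/-! Coordinates for tensor decompositions: pure tensors, the identification `F^(n₁ × n₂) → F^n`,
the action of Kronecker products on pure tensors and Gram-matrix formulas. -/

namespace Cfsg.Agent.Lib.TensForm

open Matrix Kronecker Cfsg Cfsg.Geo
open scoped MatrixGroups

variable {F : Type*} [Field F]

/-- pure tensors -/
def tens {n₁ n₂ : ℕ} (w : Fin n₁ → F) (y : Fin n₂ → F) : Fin n₁ × Fin n₂ → F := fun a => w a.1 * y a.2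

variable {ι : Type} [Fintype ι] [DecidableEq ι] {n₁ n₂ : ℕ}

theorem tens_add_right (w : Fin n₁ → F) (y y' : Fin n₂ → F) : tens w (y + y') = tens w y + tens w y' := by
  ext a; simp [tens, mul_add]

theorem tens_smul_right (c : F) (w : Fin n₁ → F) (y : Fin n₂ → F) : tens w (c • y) = c • tens w y := by
  ext a; simp only [tens, Pi.smul_apply, smul_eq_mul]; ring

theorem tens_add_left (w w' : Fin n₁ → F) (y : Fin n₂ → F) : tens (w + w') y = tens w y + tens w' y := by
  ext a; simp [tens, add_mul]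

theorem tens_smul_left (c : F) (w : Fin n₁ → F) (y : Fin n₂ → F) : tens (c • w) y = c • tens w y := by
  ext a; simp only [tens, Pi.smul_apply, smul_eq_mul]; ring

theorem tens_smul_swap (c : F) (w : Fin n₁ → F) (y : Fin n₂ → F) : tens (c • w) y = tens w (c • y) := by
  rw [tens_smul_left, tens_smul_right]

/-- the identification `F^(n₁×n₂) → F^n` -/
def iota (e : ι ≃ Fin n₁ × Fin n₂) (P : GL (ι) F) : (Fin n₁ × Fin n₂ → F) →ₗ[F] (ι → F) where
  toFun x := (P : Matrix (ι) (ι) F) *ᵥ (x ∘ e)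
  map_add' x y := by rw [← Matrix.mulVec_add]; rfl
  map_smul' c x := by rw [RingHom.id_apply, ← Matrix.mulVec_smul]; rfl

theorem iota_apply (e : ι ≃ Fin n₁ × Fin n₂) (P : GL (ι) F) (x : Fin n₁ × Fin n₂ → F) :
    iota e P x = (P : Matrix (ι) (ι) F) *ᵥ (x ∘ e) := rfl

theorem iota_inj (e : ι ≃ Fin n₁ × Fin n₂) (P : GL (ι) F) : Function.Injective (iota e P) := by
  intro x y h
  have h1 : (x ∘ e) = (y ∘ e) := by
    have h2 := congrArg (fun v => ((P⁻¹ : GL (ι) F) : Matrix (ι) (ι) F) *ᵥ v) h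
    simp only [iota_apply, mulVec_mulVec] at h2
    have h3 : ((P⁻¹ : GL (ι) F) : Matrix (ι) (ι) F) * (P : Matrix (ι) (ι) F) = 1 := by
      rw [← Units.val_mul, inv_mul_cancel, Units.val_one]
    rwa [h3, one_mulVec, one_mulVec] at h2
  funext a
  have := congrFun h1 (e.symm a)
  simpa using this

/-- `y ↦ P(w ⊗ y)`. -/
def Jl (e : ι ≃ Fin n₁ × Fin n₂) (P : GL (ι) F) (w : Fin n₁ → F) : (Fin n₂ → F) →ₗ[F] (ι → F) where
  toFun y := iota e P (tens w y)
  map_add' y y' := by rw [tens_add_right, map_add]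
  map_smul' c y := by rw [tens_smul_right, map_smul]; rfl

theorem Jl_apply (e : ι ≃ Fin n₁ × Fin n₂) (P : GL (ι) F) (w : Fin n₁ → F) (y : Fin n₂ → F) :
    Jl e P w y = iota e P (tens w y) := rfl

theorem kron_tens (A : Matrix (Fin n₁) (Fin n₁) F) (B : Matrix (Fin n₂) (Fin n₂) F) (w : Fin n₁ → F) (y : Fin n₂ → F) :
    (A ⊗ₖ B) *ᵥ tens w y = tens (A *ᵥ w) (B *ᵥ y) := by
  ext ⟨i, k⟩
  simp only [mulVec, dotProduct, tens, kroneckerMap_apply, Fintype.sum_prod_type]
  rw [Finset.sum_mul_sum]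
  refine Finset.sum_congr rfl fun j _ => Finset.sum_congr rfl fun l _ => ?_
  ring

theorem rho_iota (e : ι ≃ Fin n₁ × Fin n₂) (P : GL ι F) (g₀ : GL (Fin n₁ × Fin n₂) F) (x : Fin n₁ × Fin n₂ → F) :
    (((MulAut.conj P).toMonoidHom ((glReindex e.symm).toMonoidHom g₀) : GL ι F) : Matrix ι ι F) *ᵥ iota e P x =
      iota e P ((g₀ : Matrix (Fin n₁ × Fin n₂) (Fin n₁ × Fin n₂) F) *ᵥ x) := by
  have h1 : (((MulAut.conj P).toMonoidHom ((glReindex e.symm).toMonoidHom g₀) : GL ι F) : Matrix ι ι F)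
      = (P : Matrix ι ι F) * ((g₀ : Matrix _ _ F).submatrix e e) * ((P⁻¹ : GL ι F) : Matrix ι ι F) := by
    rfl
  rw [h1, iota_apply, mulVec_mulVec, mul_assoc, mul_assoc]
  have h3 : ((P⁻¹ : GL ι F) : Matrix ι ι F) * (P : Matrix ι ι F) = 1 := by
    rw [← Units.val_mul, inv_mul_cancel, Units.val_one]
  rw [h3, mul_one, ← mulVec_mulVec, iota_apply]
  congr 1
  rw [Matrix.submatrix_mulVec_equiv]
  have h4 : (x ∘ ⇑e) ∘ ⇑e.symm = x := by
    funext a
    simp
  rw [h4]

theorem iota_surj (e : ι ≃ Fin n₁ × Fin n₂) (P : GL ι F) : Function.Surjective (iota e P) := by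
  intro z
  refine ⟨(((P⁻¹ : GL ι F) : Matrix ι ι F) *ᵥ z) ∘ e.symm, ?_⟩
  rw [iota_apply]
  have h4 : (((((P⁻¹ : GL ι F) : Matrix ι ι F) *ᵥ z) ∘ ⇑e.symm) ∘ ⇑e) = ((P⁻¹ : GL ι F) : Matrix ι ι F) *ᵥ z := by
    funext a
    simp
  rw [h4, mulVec_mulVec, ← Units.val_mul, mul_inv_cancel, Units.val_one, one_mulVec]

/-- Linear functionals agreeing on pure tensors agree. -/
theorem pure_ext (e : ι ≃ Fin n₁ × Fin n₂) (P : GL ι F) {φ ψ : (ι → F) →ₗ[F] F}
    (h : ∀ a r, φ (iota e P (tens a r)) = ψ (iota e P (tens a r))) (v : ι → F) : φ v = ψ v := by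
  obtain ⟨x, rfl⟩ := iota_surj e P v
  have h1 : φ ∘ₗ iota e P = ψ ∘ₗ iota e P := by
    apply LinearMap.pi_ext
    rintro ⟨i, k⟩ c
    have h2 : (Pi.single (i, k) c : Fin n₁ × Fin n₂ → F) = c • tens (Pi.single i 1) (Pi.single k 1) := by
      ext ⟨i', k'⟩
      by_cases hi : i' = i <;> by_cases hk : k' = k <;> simp [tens, hi, hk, Pi.single_apply]
    rw [h2, map_smul, map_smul]
    congr 1
    exact h _ _
  exact LinearMap.congr_fun h1 x

/-- Elements of the tensor-product subgroup act on pure tensors. -/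
theorem tensor_act (e : ι ≃ Fin n₁ × Fin n₂) (P : GL (ι) F) (g : GL (ι) F)
    (hg : g ∈ tensorProductSubgroup n₁ n₂ e P) :
    ∃ (a : GL (Fin n₁) F) (b : GL (Fin n₂) F), ∀ w y,
      (g : Matrix (ι) (ι) F) *ᵥ iota e P (tens w y) =
        iota e P (tens ((a : Matrix (Fin n₁) (Fin n₁) F) *ᵥ w) ((b : Matrix (Fin n₂) (Fin n₂) F) *ᵥ y)) := by
  obtain ⟨g₁, ⟨g₀, ⟨a, b, hab⟩, rfl⟩, rfl⟩ := hg
  refine ⟨a, b, fun w y => ?_⟩
  have h1 : (((MulAut.conj P).toMonoidHom ((glReindex e.symm).toMonoidHom g₀) : GL (ι) F) : Matrix (ι) (ι) F)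
      = (P : Matrix (ι) (ι) F) * ((g₀ : Matrix _ _ F).submatrix e e) * ((P⁻¹ : GL (ι) F) : Matrix (ι) (ι) F) := by
    rfl
  rw [h1, iota_apply, mulVec_mulVec, mul_assoc, mul_assoc]
  have h3 : ((P⁻¹ : GL (ι) F) : Matrix (ι) (ι) F) * (P : Matrix (ι) (ι) F) = 1 := by
    rw [← Units.val_mul, inv_mul_cancel, Units.val_one]
  rw [h3, mul_one, ← mulVec_mulVec, iota_apply, ← kron_tens, hab.symm]
  congr 1
  rw [Matrix.submatrix_mulVec_equiv]
  have h4 : (tens w y ∘ ⇑e) ∘ ⇑e.symm = tens w y := by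
    funext a
    simp
  rw [h4]

theorem form_eq {κ : Type} [Fintype κ] [DecidableEq κ] {σ : F → F} (f : (κ → F) → (κ → F) → F)
    (hadd : ∀ x x' v, f (x + x') v = f x v + f x' v) (hsmul : ∀ (c : F) x v, f (c • x) v = c * f x v)
    (hadd' : ∀ v x x', f v (x + x') = f v x + f v x') (hsmul' : ∀ (c : F) v x, f v (c • x) = σ c * f v x)
    (x y : κ → F) : f x y = formOfGram σ (gramMatrix f) x y := by
  have hsum : ∀ x : κ → F, x = ∑ a, x a • (Pi.single a (1 : F) : κ → F) := by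
    intro x
    ext i
    simp [Finset.sum_apply, Pi.single_apply]
  have hL : ∀ (v x : κ → F), f x v = ∑ a, x a * f (Pi.single a 1) v := by
    intro v x
    let L : (κ → F) →ₗ[F] F :=
      { toFun := fun x => f x v, map_add' := fun x y => hadd x y v, map_smul' := fun c x => hsmul c x v }
    have h1 : f x v = L x := rfl
    rw [h1]
    conv_lhs => rw [hsum x]
    rw [map_sum]
    refine Finset.sum_congr rfl fun a _ => ?_
    rw [map_smul]
    rfl
  have hR : ∀ (u y : κ → F), f u y = ∑ b, σ (y b) * f u (Pi.single b 1) := by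
    intro u y
    let R : (κ → F) →+ F := AddMonoidHom.mk' (fun y => f u y) (hadd' u)
    have h1 : f u y = R y := rfl
    rw [h1]
    conv_lhs => rw [hsum y]
    rw [map_sum]
    refine Finset.sum_congr rfl fun b _ => ?_
    exact hsmul' _ _ _
  rw [hL y x]
  unfold formOfGram gramMatrix
  refine Finset.sum_congr rfl fun a _ => ?_
  rw [hR _ y, Finset.mul_sum]
  refine Finset.sum_congr rfl fun b _ => ?_
  ring

theorem gram_tens {σ : F → F} (hσ : ∀ a b, σ (a * b) = σ a * σ b) (G₁ : Matrix (Fin n₁) (Fin n₁) F)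
    (G₂ : Matrix (Fin n₂) (Fin n₂) F) (w w' : Fin n₁ → F) (y y' : Fin n₂ → F) :
    formOfGram σ (G₁ ⊗ₖ G₂) (tens w y) (tens w' y') = formOfGram σ G₁ w w' * formOfGram σ G₂ y y' := by
  unfold formOfGram
  rw [Finset.sum_mul_sum, Fintype.sum_prod_type]
  refine Finset.sum_congr rfl fun i _ => Finset.sum_congr rfl fun k _ => ?_
  rw [Finset.sum_mul_sum, Fintype.sum_prod_type]
  refine Finset.sum_congr rfl fun j _ => Finset.sum_congr rfl fun l _ => ?_
  simp only [tens, kroneckerMap_apply, hσ]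
  ring

/-- Pure tensors determine their factors up to scalars. -/
theorem tens_prop {w w' : Fin n₁ → F} {y y' : Fin n₂ → F} (h : tens w y = tens w' y') (hw : w ≠ 0) :
    ∃ l : F, y = l • y' := by
  obtain ⟨i, hi⟩ : ∃ i, w i ≠ 0 := by
    by_contra hh
    push Not at hh
    exact hw (funext hh)
  refine ⟨(w i)⁻¹ * w' i, ?_⟩
  ext k
  have := congrFun h (i, k)
  simp only [tens] at this
  simp only [Pi.smul_apply, smul_eq_mul]
  field_simp
  linear_combination this

/-- Pure tensors determine their factors up to scalars (left factor version). -/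
theorem tens_prop' {w w' : Fin n₁ → F} {y y' : Fin n₂ → F} (h : tens w y = tens w' y') (hy : y ≠ 0) :
    ∃ l : F, w = l • w' := by
  obtain ⟨k, hk⟩ : ∃ k, y k ≠ 0 := by
    by_contra hh
    push Not at hh
    exact hy (funext hh)
  refine ⟨(y k)⁻¹ * y' k, ?_⟩
  ext i
  have := congrFun h (i, k)
  simp only [tens] at this
  simp only [Pi.smul_apply, smul_eq_mul]
  field_simp
  linear_combination this

/-- A matrix mapping a subspace into itself maps it onto itself. -/
theorem map_eq_of_le (g : GL ι F) (W : Submodule F (ι → F))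
    (h : ∀ x ∈ W, (g : Matrix ι ι F) *ᵥ x ∈ W) : W.map (Matrix.toLin' (g : Matrix ι ι F)) = W := by
  have hinj : Function.Injective (Matrix.toLin' (g : Matrix ι ι F)) := by
    intro x y hxy
    have h1 := congrArg (fun v => ((g⁻¹ : GL ι F) : Matrix ι ι F) *ᵥ v) hxy
    simp only [Matrix.toLin'_apply, mulVec_mulVec] at h1
    have h3 : ((g⁻¹ : GL ι F) : Matrix ι ι F) * (g : Matrix ι ι F) = 1 := by
      rw [← Units.val_mul, inv_mul_cancel, Units.val_one]
    rwa [h3, one_mulVec, one_mulVec] at h1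
  apply Submodule.eq_of_le_of_finrank_eq
  · rintro _ ⟨x, hx, rfl⟩
    exact h x hx
  · exact (LinearEquiv.finrank_eq (Submodule.equivMapOfInjective _ hinj W)).symm

theorem stab_of_le {t : ℕ} (D : Fin t → Submodule F (ι → F)) (g : GL ι F)
    (h : ∀ j, ∀ x ∈ D j, (g : Matrix ι ι F) *ᵥ x ∈ D j) : g ∈ decompositionStabilizer D :=
  ⟨1, fun j => map_eq_of_le g (D j) (h j)⟩

end Cfsg.Agent.Lib.TensForm
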