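import Cfsg.Agent.Lib.FrameO2
import Cfsg.Agent.S5705
import Cfsg.Agent.Lib.UnitOver

set_option autoImplicit false

/-! Overgroups of stabilisers of decompositions into small blocks in characteristic two. -/

namespace Cfsg.Agent.Lib.FrameO2b

open Matrix Cfsg Cfsg.Geo Cfsg.Agent.Lib.OrthE Cfsg.Agent.Lib.OrthChar Cfsg.Agent.Lib.OrthSpin Cfsg.Agent.Lib.OrthNeg
open scoped MatrixGroups

variable {ι : Type} [Fintype ι] [DecidableEq ι] {F : Type*} [Field F] [Fintype F] {Q : (ι → F) → F}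

local notation "B" => QuadraticMap.polar Q

theorem RR_even (hQ : IsNondegenerateQuadraticForm Q) (h2 : (2 : F) = 0) (hn1 : 1 ≤ Fintype.card ι)
    (hn4 : Fintype.card F ≠ 2 ∨ Fintype.card ι ≠ 4) {x y : ι → F} (hx : Q x ≠ 0) (hy : Q y ≠ 0) :
    R Q x * R Q y ∈ omegaGL Q := by
  haveI : CharP F 2 := CharTwo.of_one_ne_zero_of_two_eq_zero one_ne_zero h2
  have hρ : prodR hQ [x, y] ∈ Omega F Q := by
    rw [list_mem_omega_iff_even hQ hn1 hn4]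
    · simp
    · intro v hv
      simp only [List.mem_cons, List.not_mem_nil, or_false] at hv
      rcases hv with rfl | rfl
      · exact hx
      · exact hy
  have hv : ((prodR hQ [x, y] : ↥(isometryGroup F Q)) : GL ι F) = R Q x * R Q y := by
    rw [prodR_cons, prodR_cons, prodR_nil, mul_one, rr_eq hQ hx, rr_eq hQ hy]
    rfl
  rw [← hv]
  exact ⟨_, hρ, rfl⟩

theorem polar_zero_right (hQ : IsNondegenerateQuadraticForm Q) (x : ι → F) : B x 0 = 0 := by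
  have := B_smul_right hQ 0 x 0
  simpa using this

theorem polar_zero_left (hQ : IsNondegenerateQuadraticForm Q) (x : ι → F) : B 0 x = 0 := by
  have := B_smul_left hQ 0 (0 : ι → F) x
  simpa using this

theorem polar_neg_right' (hQ : IsNondegenerateQuadraticForm Q) (x y : ι → F) : B x (-y) = - B x y := by
  have := B_smul_right hQ (-1) x y
  simpa using this

theorem polar_neg_left' (hQ : IsNondegenerateQuadraticForm Q) (x y : ι → F) : B (-x) y = - B x y := by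
  have := B_smul_left hQ (-1) x y
  simpa using this

theorem omega_isom (g : GL ι F) (hg : g ∈ omegaGL Q) : g ∈ isometryGroup F Q := by
  obtain ⟨h, -, rfl⟩ := hg
  exact h.2

/-- The construction for hyperbolic planes in characteristic two. -/
theorem char2_core (hQ : IsNondegenerateQuadraticForm Q) (h2 : (2 : F) = 0) (hn1 : 1 ≤ Fintype.card ι)
    (hn4 : Fintype.card F ≠ 2 ∨ Fintype.card ι ≠ 4) {t : ℕ} {D : Fin t → Submodule F (ι → F)}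
    (hortho : ∀ i j, i ≠ j → ∀ u ∈ D i, ∀ v ∈ D j, B u v = 0)
    (e f : Fin t → ι → F) (he : ∀ i, e i ∈ D i) (hf : ∀ i, f i ∈ D i) (hQe : ∀ i, Q (e i) = 0) (hQf : ∀ i, Q (f i) = 0)
    (hef : ∀ i, B (e i) (f i) = 1) (ht : 4 ≤ t)
    (C : AddSubgroup F) (hC : ∀ c ∈ C, c = 0 ∨ c = 1)
    (hLC : ∀ x y, (∃ i, x ∈ D i) → Q x = 1 → (∃ j, y ∈ D j) → Q y = 1 → B x y ∈ C)
    (htest : ∀ i₀ i₁ : Fin t, i₀ ≠ i₁ → ∃ (c : F) (z : ι → F), (∃ i, z ∈ D i) ∧ Q z = 1 ∧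
      B (e i₁ + f i₁ - c • (e i₀ + f i₀ + c • e i₁)) z ∉ C) :
    ∃ K : Subgroup (GL ι F), decompositionStabilizer D ⊓ omegaGL Q < K ∧ K < omegaGL Q := by
  classical
  let L : Set (ι → F) := {v | (∃ i, v ∈ D i) ∧ Q v = 1}
  let V₀ : AddSubgroup (ι → F) := AddSubgroup.closure L
  have hLV : ∀ v ∈ L, v ∈ V₀ := fun v hv => AddSubgroup.subset_closure hv
  have hB1 : ∀ x ∈ L, ∀ y ∈ V₀, B x y ∈ C := by
    intro x hx y hy
    induction hy using AddSubgroup.closure_induction with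
    | mem y hy => exact hLC x y hx.1 hx.2 hy.1 hy.2
    | zero => rw [polar_zero_right hQ]; exact C.zero_mem
    | add y y' _ _ h h' => rw [B_add_right hQ]; exact C.add_mem h h'
    | neg y _ h => rw [polar_neg_right' hQ]; exact C.neg_mem h
  have hB2 : ∀ x ∈ V₀, ∀ y ∈ V₀, B x y ∈ C := by
    intro x hx y hy
    induction hx using AddSubgroup.closure_induction with
    | mem x hx => exact hB1 x hx y hy
    | zero => rw [polar_zero_left hQ]; exact C.zero_mem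
    | add x x' _ _ h h' => rw [B_add_left hQ]; exact C.add_mem h h'
    | neg x _ h => rw [polar_neg_left' hQ]; exact C.neg_mem h
  have hRV : ∀ a ∈ V₀, Q a = 1 → ∀ x ∈ V₀, ((R Q a : GL ι F) : Matrix ι ι F) *ᵥ x ∈ V₀ := by
    intro a ha hQa x hx
    have hQa0 : Q a ≠ 0 := by rw [hQa]; exact one_ne_zero
    rw [R_mulVec hQ hQa0, hQa, inv_one, one_mul]
    rcases hC _ (hB2 x hx a ha) with h | h
    · rw [h, zero_smul, sub_zero]; exact hx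
    · rw [h, one_smul]; exact V₀.sub_mem hx ha
  have hstabR : ∀ a ∈ V₀, Q a = 1 → R Q a ∈ stabilizing (Units.coeHom (Matrix ι ι F)) (V₀ : Set (ι → F)) := by
    intro a ha hQa v
    have hQa0 : Q a ≠ 0 := by rw [hQa]; exact one_ne_zero
    constructor
    · exact hRV a ha hQa v
    · intro hv
      have hv' : ((R Q a : GL ι F) : Matrix ι ι F) *ᵥ v ∈ V₀ := hv
      have := hRV a ha hQa _ hv'
      rwa [← mul_mulVec, R_mul_self hQ hQa0, one_mulVec'] at this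
  let i₀ : Fin t := ⟨0, by omega⟩
  let i₁ : Fin t := ⟨1, by omega⟩
  let i₂ : Fin t := ⟨2, by omega⟩
  let i₃ : Fin t := ⟨3, by omega⟩
  have h01 : i₀ ≠ i₁ := by simp [i₀, i₁, Fin.ext_iff]
  have h02 : i₀ ≠ i₂ := by simp [i₀, i₂, Fin.ext_iff]
  have h03 : i₀ ≠ i₃ := by simp [i₀, i₃, Fin.ext_iff]
  have h12 : i₁ ≠ i₂ := by simp [i₁, i₂, Fin.ext_iff]
  have h13 : i₁ ≠ i₃ := by simp [i₁, i₃, Fin.ext_iff]
  have h23 : i₂ ≠ i₃ := by simp [i₂, i₃, Fin.ext_iff]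
  have hO : ∀ {i j : Fin t} {x y : ι → F}, x ∈ D i → y ∈ D j → i ≠ j → B x y = 0 :=
    fun hx hy h => hortho _ _ h _ hx _ hy
  obtain ⟨s, hsdef⟩ : ∃ s : Fin t → ι → F, ∀ i, s i = e i + f i := ⟨_, fun _ => rfl⟩
  have hs : ∀ i, s i ∈ D i := fun i => by rw [hsdef]; exact (D i).add_mem (he i) (hf i)
  have hQs : ∀ i, Q (s i) = 1 := fun i => by rw [hsdef, Q_add hQ, hQe, hQf, hef]; ring
  have hsL : ∀ i, s i ∈ V₀ := fun i => hLV _ ⟨⟨i, hs i⟩, hQs i⟩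
  have hee : ∀ i, B (e i) (e i) = 0 := fun i => by rw [B_self hQ, hQe, mul_zero]
  have hff : ∀ i, B (f i) (f i) = 0 := fun i => by rw [B_self hQ, hQf, mul_zero]
  have hfe : ∀ i, B (f i) (e i) = 1 := fun i => by rw [B_comm hQ, hef]
  have hes : ∀ i, B (e i) (s i) = 1 := fun i => by rw [hsdef, B_add_right hQ, hee, hef, zero_add]
  have hse : ∀ i, B (s i) (e i) = 1 := fun i => by rw [hsdef, B_add_left hQ, hee, hfe, zero_add]
  have hQa : Q (s i₀ + s i₁ + s i₂) = 1 := by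
    rw [Q_add hQ, Q_add hQ, hQs, hQs, hQs, hO (hs i₀) (hs i₁) h01, B_add_left hQ, hO (hs i₀) (hs i₂) h02, hO (hs i₁) (hs i₂) h12]
    linear_combination h2
  have hQa0 : Q (s i₀ + s i₁ + s i₂) ≠ 0 := by rw [hQa]; exact one_ne_zero
  have hQs0 : ∀ i, Q (s i) ≠ 0 := fun i => by rw [hQs]; exact one_ne_zero
  have haV : s i₀ + s i₁ + s i₂ ∈ V₀ := V₀.add_mem (V₀.add_mem (hsL _) (hsL _)) (hsL _)
  refine ⟨stabilizing (Units.coeHom (Matrix ι ι F)) (V₀ : Set (ι → F)) ⊓ omegaGL Q, ?_, ?_⟩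
  · refine lt_of_le_of_ne ?_ ?_
    · refine le_inf ?_ inf_le_right
      have hgV : ∀ g : GL ι F, g ∈ decompositionStabilizer D → g ∈ isometryGroup F Q → ∀ v ∈ V₀, (g : Matrix ι ι F) *ᵥ v ∈ V₀ := by
        rintro g ⟨σ, hσ⟩ hgO v hv
        induction hv using AddSubgroup.closure_induction with
        | mem v hv =>
          obtain ⟨⟨i, hvD⟩, hv1⟩ := hv
          refine hLV _ ⟨⟨σ i, ?_⟩, ?_⟩
          · rw [← hσ]
            exact ⟨v, hvD, by rw [Matrix.toLin'_apply]⟩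
          · rw [(mem_O_iff g).1 hgO]
            exact hv1
        | zero => rw [Matrix.mulVec_zero]; exact V₀.zero_mem
        | add x y _ _ h h' => rw [Matrix.mulVec_add]; exact V₀.add_mem h h'
        | neg x _ h => rw [Matrix.mulVec_neg]; exact V₀.neg_mem h
      rintro g ⟨hg1, hg2⟩
      intro v
      constructor
      · exact hgV g hg1 (omega_isom g hg2) v
      · intro hv
        have hv' : (g : Matrix ι ι F) *ᵥ v ∈ V₀ := hv
        have := hgV g⁻¹ ((decompositionStabilizer D).inv_mem hg1) ((isometryGroup F Q).inv_mem (omega_isom g hg2)) _ hv'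
        rwa [Matrix.mulVec_mulVec, ← Units.val_mul, inv_mul_cancel, Units.val_one, Matrix.one_mulVec] at this
    · intro heq
      have hmem : R Q (s i₀ + s i₁ + s i₂) * R Q (s i₃) ∈ stabilizing (Units.coeHom (Matrix ι ι F)) (V₀ : Set (ι → F)) ⊓ omegaGL Q :=
        ⟨Subgroup.mul_mem _ (hstabR _ haV hQa) (hstabR _ (hsL _) (hQs _)), RR_even hQ h2 hn1 hn4 hQa0 (hQs0 _)⟩
      rw [← heq] at hmem
      obtain ⟨σ, hσ⟩ := hmem.1
      have hv : ((R Q (s i₀ + s i₁ + s i₂) * R Q (s i₃) : GL ι F) : Matrix ι ι F) *ᵥ (e i₀) ∈ D (σ i₀) := by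
        rw [← hσ]
        exact ⟨_, he i₀, by rw [Matrix.toLin'_apply]⟩
      have hval : ((R Q (s i₀ + s i₁ + s i₂) * R Q (s i₃) : GL ι F) : Matrix ι ι F) *ᵥ (e i₀) = e i₀ - (s i₀ + s i₁ + s i₂) := by
        rw [mul_mulVec, R_mulVec hQ (hQs0 _), hO (he i₀) (hs i₃) h03, mul_zero, zero_smul, sub_zero, R_mulVec hQ hQa0, hQa,
          B_add_right hQ, B_add_right hQ, hes, hO (he i₀) (hs i₁) h01, hO (he i₀) (hs i₂) h02]
        simp
      rw [hval] at hv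
      have e1 : B (e i₀ - (s i₀ + s i₁ + s i₂)) (e i₁) = -1 := by
        rw [B_sub_left hQ, B_add_left hQ, B_add_left hQ, hse, hO (he i₀) (he i₁) h01, hO (hs i₀) (he i₁) h01, hO (hs i₂) (he i₁) h12.symm]
        ring
      have e0 : B (e i₀ - (s i₀ + s i₁ + s i₂)) (e i₀) = -1 := by
        rw [B_sub_left hQ, B_add_left hQ, B_add_left hQ, hse, hee, hO (hs i₁) (he i₀) h01.symm, hO (hs i₂) (he i₀) h02.symm]
        ring
      have hm1 : (-1 : F) ≠ 0 := neg_ne_zero.2 one_ne_zero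
      by_cases hk : σ i₀ = i₁
      · rw [hk] at hv
        have := hO hv (he i₀) h01.symm
        rw [e0] at this
        exact hm1 this
      · have := hO hv (he i₁) hk
        rw [e1] at this
        exact hm1 this
  · refine lt_of_le_of_ne inf_le_right ?_
    intro heq
    obtain ⟨c, z, hzD, hQz, hz⟩ := htest i₀ i₁ h01
    have hzV : z ∈ V₀ := hLV _ ⟨hzD, hQz⟩
    have hQa' : Q (s i₀ + c • e i₁) = 1 := by
      rw [Q_add hQ, hQs, Q_smul hQ, hQe, B_smul_right hQ, hO (hs i₀) (he i₁) h01]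
      ring
    have hQa'0 : Q (s i₀ + c • e i₁) ≠ 0 := by rw [hQa']; exact one_ne_zero
    have hmem : R Q (s i₀ + c • e i₁) * R Q (s i₂) ∈ stabilizing (Units.coeHom (Matrix ι ι F)) (V₀ : Set (ι → F)) ⊓ omegaGL Q := by
      rw [heq]
      exact RR_even hQ h2 hn1 hn4 hQa'0 (hQs0 _)
    have h1 : ((R Q (s i₀ + c • e i₁) * R Q (s i₂) : GL ι F) : Matrix ι ι F) *ᵥ (s i₁) ∈ V₀ := (hmem.1 _).1 (hsL i₁)
    have hval : ((R Q (s i₀ + c • e i₁) * R Q (s i₂) : GL ι F) : Matrix ι ι F) *ᵥ (s i₁) = s i₁ - c • (s i₀ + c • e i₁) := by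
      rw [mul_mulVec, R_mulVec hQ (hQs0 _), hO (hs i₁) (hs i₂) h12, mul_zero, zero_smul, sub_zero, R_mulVec hQ hQa'0, hQa',
        B_add_right hQ, B_smul_right hQ, hse, hO (hs i₁) (hs i₀) h01.symm]
      simp
    rw [hval] at h1
    apply hz
    have := hB2 _ h1 _ hzV
    rw [hsdef, hsdef] at this
    exact this

theorem plane_Q (hQ : IsNondegenerateQuadraticForm Q) {e f : ι → F} (hQe : Q e = 0) (hQf : Q f = 0) (hef : B e f = 1) (a b : F) :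
    Q (a • e + b • f) = a * b := by
  rw [Q_add hQ, Q_smul hQ, Q_smul hQ, hQe, hQf, B_smul_left hQ, B_smul_right hQ, hef]
  ring

theorem plane_B (hQ : IsNondegenerateQuadraticForm Q) {e f : ι → F} (hQe : Q e = 0) (hQf : Q f = 0) (hef : B e f = 1) (a b a' b' : F) :
    B (a • e + b • f) (a' • e + b' • f) = a * b' + b * a' := by
  have hee : B e e = 0 := by rw [B_self hQ, hQe, mul_zero]
  have hff : B f f = 0 := by rw [B_self hQ, hQf, mul_zero]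
  have hfe : B f e = 1 := by rw [B_comm hQ, hef]
  simp only [B_add_left hQ, B_add_right hQ, B_smul_left hQ, B_smul_right hQ, hee, hff, hef, hfe]
  ring

/-- Plus-type planes over the field with two elements. -/
theorem char2_plane2 (hF : Fintype.card F = 2) (hQ : IsNondegenerateQuadraticForm Q) (hn1 : 1 ≤ Fintype.card ι)
    (hn4 : Fintype.card F ≠ 2 ∨ Fintype.card ι ≠ 4) {t : ℕ} {D : Fin t → Submodule F (ι → F)}
    (hD : IsOrthogonalMDecomposition Q 2 D) (hplus : ∀ i, IsPlusTypeOn Q (D i)) (ht : 4 ≤ t) :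
    ∃ K : Subgroup (GL ι F), decompositionStabilizer D ⊓ omegaGL Q < K ∧ K < omegaGL Q := by
  classical
  have h2 : (2 : F) = 0 := by rw [← Cfsg.Agent.S5638.f2_two hF]; norm_num
  have hcases := Cfsg.Agent.S5638.f2_cases hF
  choose e he f hf hQe hQf hef hsp using fun i => Cfsg.Agent.Lib.FrameO2.plane_hyp hQ (hD.decomp.decomp.finrank_eq i) (hD.decomp.nondegenerate i) (hplus i)
  have hortho : ∀ i j, i ≠ j → ∀ u ∈ D i, ∀ v ∈ D j, B u v = 0 := fun i j hij u hu v hv => hD.decomp.orthogonal i j hij u hu v hv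
  have hee : ∀ i, B (e i) (e i) = 0 := fun i => by rw [B_self hQ, hQe, mul_zero]
  have hfe : ∀ i, B (f i) (e i) = 1 := fun i => by rw [B_comm hQ, hef]
  have h1 : ∀ a : F, a ≠ 0 → a = 1 := fun a ha => (hcases a).resolve_left ha
  refine char2_core hQ h2 hn1 hn4 hortho e f he hf hQe hQf hef ht ⊥ ?_ ?_ ?_
  · intro c hc
    exact Or.inl hc
  · rintro x y ⟨i, hx⟩ hQx ⟨j, hy⟩ hQy
    by_cases hij : i = j
    · subst hij
      obtain ⟨a, b, rfl⟩ := hsp i x hx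
      obtain ⟨a', b', rfl⟩ := hsp i y hy
      rw [plane_Q hQ (hQe i) (hQf i) (hef i)] at hQx hQy
      rw [plane_B hQ (hQe i) (hQf i) (hef i)]
      have ha : a = 1 := h1 a (by rintro rfl; simp at hQx)
      have hb : b = 1 := h1 b (by rintro rfl; simp at hQx)
      have ha' : a' = 1 := h1 a' (by rintro rfl; simp at hQy)
      have hb' : b' = 1 := h1 b' (by rintro rfl; simp at hQy)
      rw [ha, hb, ha', hb', AddSubgroup.mem_bot]
      linear_combination h2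
    · rw [hortho i j hij x hx y hy]
      exact AddSubgroup.zero_mem _
  · intro i₀ i₁ h
    have hs1 : e i₁ + f i₁ ∈ D i₁ := (D i₁).add_mem (he i₁) (hf i₁)
    have hs0 : e i₀ + f i₀ ∈ D i₀ := (D i₀).add_mem (he i₀) (hf i₀)
    have hQ1 : Q (e i₁ + f i₁) = 1 := by rw [Q_add hQ, hQe, hQf, hef]; ring
    refine ⟨1, e i₁ + f i₁, ⟨i₁, hs1⟩, hQ1, ?_⟩
    have e2 : B (e i₁ + f i₁) (e i₁ + f i₁) = 0 := by rw [B_self hQ, hQ1, h2, zero_mul]
    have e3 : B (e i₀ + f i₀ + e i₁) (e i₁ + f i₁) = 1 := by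
      rw [B_add_left hQ, hortho i₀ i₁ h _ hs0 _ hs1, B_add_right hQ, hee, hef]
      ring
    rw [AddSubgroup.mem_bot, one_smul, one_smul, B_sub_left hQ, e2, e3]
    simp

/-- Plus-type planes over the field with four elements. -/
theorem char2_plane4 (hF : Fintype.card F = 4) (hQ : IsNondegenerateQuadraticForm Q) (hn1 : 1 ≤ Fintype.card ι)
    (hn4 : Fintype.card F ≠ 2 ∨ Fintype.card ι ≠ 4) {t : ℕ} {D : Fin t → Submodule F (ι → F)}
    (hD : IsOrthogonalMDecomposition Q 2 D) (hplus : ∀ i, IsPlusTypeOn Q (D i)) (ht : 4 ≤ t) :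
    ∃ K : Subgroup (GL ι F), decompositionStabilizer D ⊓ omegaGL Q < K ∧ K < omegaGL Q := by
  classical
  have h2 : (2 : F) = 0 := Cfsg.Agent.Lib.UnitOver.two_zero hF
  obtain ⟨ω, hω⟩ := Cfsg.Agent.Lib.UnitOver.exists_omega hF
  choose e he f hf hQe hQf hef hsp using fun i => Cfsg.Agent.Lib.FrameO2.plane_hyp hQ (hD.decomp.decomp.finrank_eq i) (hD.decomp.nondegenerate i) (hplus i)
  have hortho : ∀ i j, i ≠ j → ∀ u ∈ D i, ∀ v ∈ D j, B u v = 0 := fun i j hij u hu v hv => hD.decomp.orthogonal i j hij u hu v hv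
  let C : AddSubgroup F :=
    { carrier := {c | c ^ 2 = c}
      add_mem' := by
        intro a b ha hb
        have ha' : a ^ 2 = a := ha
        have hb' : b ^ 2 = b := hb
        show (a + b) ^ 2 = a + b
        linear_combination ha' + hb' + (a * b) * h2
      zero_mem' := by
        show (0 : F) ^ 2 = 0
        simp
      neg_mem' := by
        intro a ha
        have ha' : a ^ 2 = a := ha
        show (-a) ^ 2 = -a
        linear_combination ha' + a * h2 }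
  have hCm : ∀ c, c ∈ C ↔ c ^ 2 = c := fun c => Iff.rfl
  refine char2_core hQ h2 hn1 hn4 hortho e f he hf hQe hQf hef ht C ?_ ?_ ?_
  · intro c hc
    rw [hCm] at hc
    have : c * (c - 1) = 0 := by linear_combination hc
    rcases mul_eq_zero.1 this with h | h
    · exact Or.inl h
    · exact Or.inr (sub_eq_zero.1 h)
  · rintro x y ⟨i, hx⟩ hQx ⟨j, hy⟩ hQy
    by_cases hij : i = j
    · subst hij
      obtain ⟨a, b, rfl⟩ := hsp i x hx
      obtain ⟨a', b', rfl⟩ := hsp i y hy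
      rw [plane_Q hQ (hQe i) (hQf i) (hef i)] at hQx hQy
      rw [plane_B hQ (hQe i) (hQf i) (hef i), hCm]
      have hrs : (a * b') * (b * a') = 1 := by
        calc (a * b') * (b * a') = (a * b) * (a' * b') := by ring
          _ = 1 := by rw [hQx, hQy, one_mul]
      generalize a * b' = r at hrs ⊢
      generalize b * a' = s at hrs ⊢
      have hr0 : r ≠ 0 := by
        rintro rfl
        simp at hrs
      have hr : r ^ 4 = r := by
        have := FiniteField.pow_card r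
        rwa [hF] at this
      have hr3 : r ^ 3 = 1 := by
        have h0 : r * r ^ 3 = r * 1 := by
          rw [mul_one]
          calc r * r ^ 3 = r ^ 4 := by ring
            _ = r := hr
        exact mul_left_cancel₀ hr0 h0
      have h1 : r ^ 2 = s := by
        calc r ^ 2 = r ^ 2 * (r * s) := by rw [hrs, mul_one]
          _ = r ^ 3 * s := by ring
          _ = s := by rw [hr3, one_mul]
      have h3 : s ^ 2 = r := by
        rw [← h1]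
        calc (r ^ 2) ^ 2 = r ^ 4 := by ring
          _ = r := hr
      linear_combination h1 + h3 + (r * s) * h2
    · rw [hortho i j hij x hx y hy]
      exact C.zero_mem
  · intro i₀ i₁ h
    have hs1 : e i₁ + f i₁ ∈ D i₁ := (D i₁).add_mem (he i₁) (hf i₁)
    have hz : ω • e i₀ + ω ^ 2 • f i₀ ∈ D i₀ := (D i₀).add_mem ((D i₀).smul_mem _ (he i₀)) ((D i₀).smul_mem _ (hf i₀))
    refine ⟨ω, ω • e i₀ + ω ^ 2 • f i₀, ⟨i₀, hz⟩, ?_, ?_⟩
    · rw [plane_Q hQ (hQe i₀) (hQf i₀) (hef i₀)]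
      linear_combination (ω - 1) * hω + (ω - 1) * h2
    · have e1 : B (e i₀ + f i₀) (ω • e i₀ + ω ^ 2 • f i₀) = 1 := by
        have := plane_B hQ (hQe i₀) (hQf i₀) (hef i₀) 1 1 ω (ω ^ 2)
        rw [one_smul, one_smul] at this
        rw [this]
        linear_combination hω
      rw [hCm, B_sub_left hQ, B_smul_left hQ, hortho i₁ i₀ h.symm _ hs1 _ hz, B_add_left hQ, e1, B_smul_left hQ,
        hortho i₁ i₀ h.symm _ (he i₁) _ hz]
      intro hc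
      have h5 : ω ^ 2 = ω := by linear_combination hc - ω * h2
      have h6 : (1 : F) = 0 := by linear_combination -hω + h5 + ω * h2
      exact one_ne_zero h6

/-- A plus-type `4`-space over the field with two elements is the orthogonal sum of two anisotropic planes. -/
theorem four_block (hF : Fintype.card F = 2) (hQ : IsNondegenerateQuadraticForm Q) {W : Submodule F (ι → F)}
    (hdim : Module.finrank F W = 4) (hW : IsNondegenerateOn B W) (hWp : IsPlusTypeOn Q W) :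
    ∃ u₁ ∈ W, ∃ u₂ ∈ W, ∃ v₁ ∈ W, ∃ v₂ ∈ W, Q u₁ = 1 ∧ Q u₂ = 1 ∧ Q v₁ = 1 ∧ Q v₂ = 1 ∧ B u₁ u₂ = 1 ∧ B v₁ v₂ = 1 ∧
      B u₁ v₁ = 0 ∧ B u₁ v₂ = 0 ∧ B u₂ v₁ = 0 ∧ B u₂ v₂ = 0 ∧
      ∀ x ∈ W, ∃ a b c d : F, x = a • u₁ + b • u₂ + c • v₁ + d • v₂ := by
  classical
  have h2 : (2 : F) = 0 := by rw [← Cfsg.Agent.S5638.f2_two hF]; norm_num
  have hcases := Cfsg.Agent.S5638.f2_cases hF
  obtain ⟨U, hUW, hUts, hUd⟩ := hWp
  have hU2 : Module.finrank F U = 2 := by omega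
  have hU0 : U ≠ ⊥ := by
    intro h
    rw [h, finrank_bot] at hU2
    omega
  have hBU : ∀ x ∈ U, ∀ y ∈ U, B x y = 0 := by
    intro x hx y hy
    have := Q_add hQ x y
    rw [hUts _ (U.add_mem hx hy), hUts x hx, hUts y hy] at this
    linear_combination -this
  obtain ⟨e₁, he₁, he₁0⟩ := Submodule.exists_mem_ne_zero_of_ne_bot hU0
  have hQe₁ : Q e₁ = 0 := hUts _ he₁
  obtain ⟨y₁, hy₁, hy₁0⟩ := (hW e₁ (hUW he₁) he₁0).2
  obtain ⟨f₁, hf₁, hQf₁, he₁f₁⟩ := Cfsg.Agent.Lib.OrthOmega.exists_hyp hQ (hUW he₁) hQe₁ hy₁ hy₁0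
  -- a second singular vector orthogonal to `f₁`
  have hker : LinearMap.ker ((Cfsg.Agent.Lib.Frame3.bLin hQ f₁).comp U.subtype) ≠ ⊥ := by
    apply LinearMap.ker_ne_bot_of_finrank_lt
    rw [hU2, Module.finrank_self]
    norm_num
  obtain ⟨⟨e₂, he₂⟩, he₂k, he₂0⟩ := Submodule.exists_mem_ne_zero_of_ne_bot hker
  have he₂0' : e₂ ≠ 0 := fun h => he₂0 (by simp [h])
  have he₂f₁ : B e₂ f₁ = 0 := by
    have := LinearMap.mem_ker.1 he₂k
    simpa [Cfsg.Agent.Lib.Frame3.bLin_apply] using this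
  have hQe₂ : Q e₂ = 0 := hUts _ he₂
  have he₂e₁ : B e₂ e₁ = 0 := hBU _ he₂ _ he₁
  have he₂e₂ : B e₂ e₂ = 0 := hBU _ he₂ _ he₂
  have he₁e₁ : B e₁ e₁ = 0 := hBU _ he₁ _ he₁
  have hf₁f₁ : B f₁ f₁ = 0 := by rw [B_self hQ, hQf₁, mul_zero]
  have hf₁e₁ : B f₁ e₁ = 1 := by rw [B_comm hQ, he₁f₁]
  obtain ⟨x₂, hx₂, hx₂0⟩ := (hW e₂ (hUW he₂) he₂0').2
  have he₂x₂ : B e₂ x₂ = 1 := (hcases _).resolve_left hx₂0
  obtain ⟨x', hx'def⟩ : ∃ x' : ι → F, x' = x₂ + B x₂ f₁ • e₁ + B x₂ e₁ • f₁ := ⟨_, rfl⟩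
  have hx' : x' ∈ W := by
    rw [hx'def]
    exact W.add_mem (W.add_mem hx₂ (W.smul_mem _ (hUW he₁))) (W.smul_mem _ hf₁)
  have hx'e₁ : B x' e₁ = 0 := by
    rw [hx'def, B_add_left hQ, B_add_left hQ, B_smul_left hQ, B_smul_left hQ, he₁e₁, hf₁e₁]
    linear_combination (B x₂ e₁) * h2
  have hx'f₁ : B x' f₁ = 0 := by
    rw [hx'def, B_add_left hQ, B_add_left hQ, B_smul_left hQ, B_smul_left hQ, he₁f₁, hf₁f₁]
    linear_combination (B x₂ f₁) * h2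
  have he₂x' : B e₂ x' = 1 := by
    rw [hx'def, B_add_right hQ, B_add_right hQ, B_smul_right hQ, B_smul_right hQ, he₂e₁, he₂f₁, he₂x₂]
    ring
  have hx'e₂ : B x' e₂ = 1 := by rw [B_comm hQ, he₂x']
  obtain ⟨f₂, hf₂def⟩ : ∃ f₂ : ι → F, f₂ = x' + Q x' • e₂ := ⟨_, rfl⟩
  have hf₂ : f₂ ∈ W := by
    rw [hf₂def]
    exact W.add_mem hx' (W.smul_mem _ (hUW he₂))
  have hQf₂ : Q f₂ = 0 := by
    rw [hf₂def, Q_add hQ, Q_smul hQ, hQe₂, B_smul_right hQ, hx'e₂]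
    linear_combination (Q x') * h2
  have hf₂e₁ : B f₂ e₁ = 0 := by
    rw [hf₂def, B_add_left hQ, B_smul_left hQ, hx'e₁, he₂e₁]
    ring
  have hf₂f₁ : B f₂ f₁ = 0 := by
    rw [hf₂def, B_add_left hQ, B_smul_left hQ, hx'f₁, he₂f₁]
    ring
  have hf₂e₂ : B f₂ e₂ = 1 := by
    rw [hf₂def, B_add_left hQ, B_smul_left hQ, hx'e₂, he₂e₂]
    ring
  have he₂f₂ : B e₂ f₂ = 1 := by rw [B_comm hQ, hf₂e₂]
  have he₁f₂ : B e₁ f₂ = 0 := by rw [B_comm hQ, hf₂e₁]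
  have hf₁f₂ : B f₁ f₂ = 0 := by rw [B_comm hQ, hf₂f₁]
  have he₁e₂ : B e₁ e₂ = 0 := by rw [B_comm hQ, he₂e₁]
  have hf₁e₂ : B f₁ e₂ = 0 := by rw [B_comm hQ, he₂f₁]
  have hf₂f₂ : B f₂ f₂ = 0 := by rw [B_self hQ, hQf₂, mul_zero]
  have heW : e₁ ∈ W := hUW he₁
  have he₂W : e₂ ∈ W := hUW he₂
  obtain ⟨u₁, hu₁⟩ : ∃ u₁ : ι → F, u₁ = e₁ + f₁ := ⟨_, rfl⟩
  obtain ⟨u₂, hu₂⟩ : ∃ u₂ : ι → F, u₂ = e₁ + e₂ + f₂ := ⟨_, rfl⟩
  obtain ⟨v₁, hv₁⟩ : ∃ v₁ : ι → F, v₁ = e₁ + f₁ + e₂ := ⟨_, rfl⟩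
  obtain ⟨v₂, hv₂⟩ : ∃ v₂ : ι → F, v₂ = e₁ + f₁ + f₂ := ⟨_, rfl⟩
  have hu₁W : u₁ ∈ W := by rw [hu₁]; exact W.add_mem heW hf₁
  have hu₂W : u₂ ∈ W := by rw [hu₂]; exact W.add_mem (W.add_mem heW he₂W) hf₂
  have hv₁W : v₁ ∈ W := by rw [hv₁]; exact W.add_mem (W.add_mem heW hf₁) he₂W
  have hv₂W : v₂ ∈ W := by rw [hv₂]; exact W.add_mem (W.add_mem heW hf₁) hf₂
  have hQu₁ : Q u₁ = 1 := by
    rw [hu₁]
    simp only [Q_add hQ, B_add_left hQ, B_add_right hQ, hQe₁, hQf₁, hQe₂, hQf₂, he₁e₁, he₁f₁, he₁e₂, he₁f₂, hf₁e₁, hf₁f₁, hf₁e₂, hf₁f₂,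
      he₂e₁, he₂f₁, he₂e₂, he₂f₂, hf₂e₁, hf₂f₁, hf₂e₂, hf₂f₂]
    first | ring1 | linear_combination h2
  have hQu₂ : Q u₂ = 1 := by
    rw [hu₂]
    simp only [Q_add hQ, B_add_left hQ, B_add_right hQ, hQe₁, hQf₁, hQe₂, hQf₂, he₁e₁, he₁f₁, he₁e₂, he₁f₂, hf₁e₁, hf₁f₁, hf₁e₂, hf₁f₂,
      he₂e₁, he₂f₁, he₂e₂, he₂f₂, hf₂e₁, hf₂f₁, hf₂e₂, hf₂f₂]
    first | ring1 | linear_combination h2
  have hQv₁ : Q v₁ = 1 := by
    rw [hv₁]
    simp only [Q_add hQ, B_add_left hQ, B_add_right hQ, hQe₁, hQf₁, hQe₂, hQf₂, he₁e₁, he₁f₁, he₁e₂, he₁f₂, hf₁e₁, hf₁f₁, hf₁e₂, hf₁f₂,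
      he₂e₁, he₂f₁, he₂e₂, he₂f₂, hf₂e₁, hf₂f₁, hf₂e₂, hf₂f₂]
    first | ring1 | linear_combination h2
  have hQv₂ : Q v₂ = 1 := by
    rw [hv₂]
    simp only [Q_add hQ, B_add_left hQ, B_add_right hQ, hQe₁, hQf₁, hQe₂, hQf₂, he₁e₁, he₁f₁, he₁e₂, he₁f₂, hf₁e₁, hf₁f₁, hf₁e₂, hf₁f₂,
      he₂e₁, he₂f₁, he₂e₂, he₂f₂, hf₂e₁, hf₂f₁, hf₂e₂, hf₂f₂]
    first | ring1 | linear_combination h2
  have hu₁u₂ : B u₁ u₂ = 1 := by
    rw [hu₁, hu₂]
    simp only [B_add_left hQ, B_add_right hQ, he₁e₁, he₁f₁, he₁e₂, he₁f₂, hf₁e₁, hf₁f₁, hf₁e₂, hf₁f₂,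
      he₂e₁, he₂f₁, he₂e₂, he₂f₂, hf₂e₁, hf₂f₁, hf₂e₂, hf₂f₂]
    first | ring1 | linear_combination h2
  have hv₁v₂ : B v₁ v₂ = 1 := by
    rw [hv₁, hv₂]
    simp only [B_add_left hQ, B_add_right hQ, he₁e₁, he₁f₁, he₁e₂, he₁f₂, hf₁e₁, hf₁f₁, hf₁e₂, hf₁f₂,
      he₂e₁, he₂f₁, he₂e₂, he₂f₂, hf₂e₁, hf₂f₁, hf₂e₂, hf₂f₂]
    first | ring1 | linear_combination h2
  have h11 : B u₁ v₁ = 0 := by
    rw [hu₁, hv₁]
    simp only [B_add_left hQ, B_add_right hQ, he₁e₁, he₁f₁, he₁e₂, he₁f₂, hf₁e₁, hf₁f₁, hf₁e₂, hf₁f₂,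
      he₂e₁, he₂f₁, he₂e₂, he₂f₂, hf₂e₁, hf₂f₁, hf₂e₂, hf₂f₂]
    first | ring1 | linear_combination h2
  have h12 : B u₁ v₂ = 0 := by
    rw [hu₁, hv₂]
    simp only [B_add_left hQ, B_add_right hQ, he₁e₁, he₁f₁, he₁e₂, he₁f₂, hf₁e₁, hf₁f₁, hf₁e₂, hf₁f₂,
      he₂e₁, he₂f₁, he₂e₂, he₂f₂, hf₂e₁, hf₂f₁, hf₂e₂, hf₂f₂]
    first | ring1 | linear_combination h2
  have h21 : B u₂ v₁ = 0 := by
    rw [hu₂, hv₁]
    simp only [B_add_left hQ, B_add_right hQ, he₁e₁, he₁f₁, he₁e₂, he₁f₂, hf₁e₁, hf₁f₁, hf₁e₂, hf₁f₂,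
      he₂e₁, he₂f₁, he₂e₂, he₂f₂, hf₂e₁, hf₂f₁, hf₂e₂, hf₂f₂]
    first | ring1 | linear_combination h2
  have h22 : B u₂ v₂ = 0 := by
    rw [hu₂, hv₂]
    simp only [B_add_left hQ, B_add_right hQ, he₁e₁, he₁f₁, he₁e₂, he₁f₂, hf₁e₁, hf₁f₁, hf₁e₂, hf₁f₂,
      he₂e₁, he₂f₁, he₂e₂, he₂f₂, hf₂e₁, hf₂f₁, hf₂e₂, hf₂f₂]
    first | ring1 | linear_combination h2
  have hu₁u₁ : B u₁ u₁ = 0 := by rw [B_self hQ, hQu₁, h2, zero_mul]
  have hu₂u₂ : B u₂ u₂ = 0 := by rw [B_self hQ, hQu₂, h2, zero_mul]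
  have hv₁v₁ : B v₁ v₁ = 0 := by rw [B_self hQ, hQv₁, h2, zero_mul]
  have hv₂v₂ : B v₂ v₂ = 0 := by rw [B_self hQ, hQv₂, h2, zero_mul]
  have hu₂u₁ : B u₂ u₁ = 1 := by rw [B_comm hQ, hu₁u₂]
  have hv₂v₁ : B v₂ v₁ = 1 := by rw [B_comm hQ, hv₁v₂]
  have h11' : B v₁ u₁ = 0 := by rw [B_comm hQ, h11]
  have h12' : B v₂ u₁ = 0 := by rw [B_comm hQ, h12]
  have h21' : B v₁ u₂ = 0 := by rw [B_comm hQ, h21]
  have h22' : B v₂ u₂ = 0 := by rw [B_comm hQ, h22]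
  have hind : LinearIndependent F ![u₁, u₂, v₁, v₂] := by
    rw [Fintype.linearIndependent_iff]
    intro g hg
    simp only [Fin.sum_univ_four, Matrix.cons_val_zero, Matrix.cons_val_one, Matrix.cons_val] at hg
    have hsum : ∀ z : ι → F, B (g 0 • u₁ + g 1 • u₂ + g 2 • v₁ + g 3 • v₂) z = 0 := fun z => by
      rw [hg]; exact polar_zero_left hQ z
    have e0 := hsum u₂
    have e1 := hsum u₁
    have e2 := hsum v₂
    have e3 := hsum v₁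
    simp only [B_add_left hQ, B_smul_left hQ, hu₁u₂, hu₂u₂, h21', h22', hu₁u₁, hu₂u₁, h11', h12', h12, h22, hv₁v₂, hv₂v₂, h11, h21, hv₁v₁, hv₂v₁,
      mul_one, mul_zero, add_zero, zero_add] at e0 e1 e2 e3
    intro i
    fin_cases i
    · exact e0
    · exact e1
    · exact e2
    · exact e3
  have hspan : Submodule.span F (Set.range ![u₁, u₂, v₁, v₂]) = W := by
    refine Submodule.eq_of_le_of_finrank_eq ?_ ?_
    · rw [Submodule.span_le]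
      rintro _ ⟨i, rfl⟩
      fin_cases i
      · exact hu₁W
      · exact hu₂W
      · exact hv₁W
      · exact hv₂W
    · rw [finrank_span_eq_card hind, hdim]
      simp
  refine ⟨u₁, hu₁W, u₂, hu₂W, v₁, hv₁W, v₂, hv₂W, hQu₁, hQu₂, hQv₁, hQv₂, hu₁u₂, hv₁v₂, h11, h12, h21, h22, ?_⟩
  intro x hx
  rw [← hspan] at hx
  obtain ⟨c, hc⟩ := (Submodule.mem_span_range_iff_exists_fun F).1 hx
  refine ⟨c 0, c 1, c 2, c 3, ?_⟩
  rw [← hc, Fin.sum_univ_four]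
  rfl

/-- The construction for plus-type `4`-spaces over the field with two elements. -/
theorem four_core (hF : Fintype.card F = 2) (hQ : IsNondegenerateQuadraticForm Q) (hn1 : 1 ≤ Fintype.card ι)
    (hn4 : Fintype.card F ≠ 2 ∨ Fintype.card ι ≠ 4) {t : ℕ} {D : Fin t → Submodule F (ι → F)}
    (hortho : ∀ i j, i ≠ j → ∀ u ∈ D i, ∀ v ∈ D j, B u v = 0)
    (u₁ u₂ v₁ v₂ : Fin t → ι → F) (hu₁ : ∀ i, u₁ i ∈ D i) (hu₂ : ∀ i, u₂ i ∈ D i) (hv₁ : ∀ i, v₁ i ∈ D i) (hv₂ : ∀ i, v₂ i ∈ D i)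
    (hQu₁ : ∀ i, Q (u₁ i) = 1) (hQu₂ : ∀ i, Q (u₂ i) = 1) (hQv₁ : ∀ i, Q (v₁ i) = 1) (hQv₂ : ∀ i, Q (v₂ i) = 1)
    (hu₁₂ : ∀ i, B (u₁ i) (u₂ i) = 1) (hv₁₂ : ∀ i, B (v₁ i) (v₂ i) = 1)
    (h11 : ∀ i, B (u₁ i) (v₁ i) = 0) (h12 : ∀ i, B (u₁ i) (v₂ i) = 0) (h21 : ∀ i, B (u₂ i) (v₁ i) = 0) (h22 : ∀ i, B (u₂ i) (v₂ i) = 0)
    (hc : ∀ i, ∀ x ∈ D i, ∃ a b c d : F, x = a • u₁ i + b • u₂ i + c • v₁ i + d • v₂ i) (ht : 4 ≤ t) :
    ∃ K : Subgroup (GL ι F), decompositionStabilizer D ⊓ omegaGL Q < K ∧ K < omegaGL Q := by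
  classical
  have h2 : (2 : F) = 0 := by rw [← Cfsg.Agent.S5638.f2_two hF]; norm_num
  have hcases := Cfsg.Agent.S5638.f2_cases hF
  let L : Set (ι → F) := {v | (∃ i, v ∈ D i) ∧ Q v = 1}
  obtain ⟨i₀, i₁, i₂, i₃, h01, h02, h03, h12', h13, h23⟩ : ∃ i₀ i₁ i₂ i₃ : Fin t, i₀ ≠ i₁ ∧ i₀ ≠ i₂ ∧ i₀ ≠ i₃ ∧ i₁ ≠ i₂ ∧ i₁ ≠ i₃ ∧ i₂ ≠ i₃ :=
    ⟨⟨0, by omega⟩, ⟨1, by omega⟩, ⟨2, by omega⟩, ⟨3, by omega⟩, by simp [Fin.ext_iff], by simp [Fin.ext_iff], by simp [Fin.ext_iff],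
      by simp [Fin.ext_iff], by simp [Fin.ext_iff], by simp [Fin.ext_iff]⟩
  have hO : ∀ {i j : Fin t} {x y : ι → F}, x ∈ D i → y ∈ D j → i ≠ j → B x y = 0 :=
    fun hx hy h => hortho _ _ h _ hx _ hy
  have hu₂₁ : ∀ i, B (u₂ i) (u₁ i) = 1 := fun i => by rw [B_comm hQ, hu₁₂]
  have hu₁₁ : ∀ i, B (u₁ i) (u₁ i) = 0 := fun i => by rw [B_self hQ, hQu₁, h2, zero_mul]
  have hu₂₂ : ∀ i, B (u₂ i) (u₂ i) = 0 := fun i => by rw [B_self hQ, hQu₂, h2, zero_mul]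
  have hvu₁₁ : ∀ i, B (v₁ i) (u₁ i) = 0 := fun i => by rw [B_comm hQ, h11]
  have hvu₁₂ : ∀ i, B (v₁ i) (u₂ i) = 0 := fun i => by rw [B_comm hQ, h21]
  have hvu₂₁ : ∀ i, B (v₂ i) (u₁ i) = 0 := fun i => by rw [B_comm hQ, h12]
  have hvu₂₂ : ∀ i, B (v₂ i) (u₂ i) = 0 := fun i => by rw [B_comm hQ, h22]
  have hsplit : ∀ i x, x ∈ D i → Q x = 1 → (∃ a b : F, x = a • u₁ i + b • u₂ i) ∨ (∃ c d : F, x = c • v₁ i + d • v₂ i) := by
    intro i x hx hQx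
    obtain ⟨a, b, c, d, rfl⟩ := hc i x hx
    have hval : Q (a • u₁ i + b • u₂ i + c • v₁ i + d • v₂ i) = a ^ 2 + a * b + b ^ 2 + (c ^ 2 + c * d + d ^ 2) := by
      simp only [Q_add hQ, Q_smul hQ, B_add_left hQ, B_smul_left hQ, B_smul_right hQ, hQu₁, hQu₂, hQv₁, hQv₂, hu₁₂, hv₁₂, h11, h12, h21, h22]
      ring
    rw [hval] at hQx
    have key : ∀ a b : F, (a ≠ 0 ∨ b ≠ 0) → a ^ 2 + a * b + b ^ 2 = 1 := by
      intro a b hab
      rcases hcases a with rfl | rfl <;> rcases hcases b with rfl | rfl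
      · simp at hab
      · simp
      · simp
      · linear_combination h2
    by_cases h1 : c = 0 ∧ d = 0
    · left
      refine ⟨a, b, ?_⟩
      rw [h1.1, h1.2]
      simp
    · by_cases h3 : a = 0 ∧ b = 0
      · right
        refine ⟨c, d, ?_⟩
        rw [h3.1, h3.2]
        simp
      · exfalso
        have e1 := key a b (by tauto)
        have e2 := key c d (by tauto)
        rw [e1, e2] at hQx
        have : (1 : F) = 0 := by linear_combination hQx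
        exact one_ne_zero this
  -- the Siegel transformation interchanging two anisotropic planes
  obtain ⟨p, hp⟩ : ∃ p : ι → F, p = u₁ i₀ + u₁ i₁ := ⟨_, rfl⟩
  obtain ⟨p', hp'⟩ : ∃ p' : ι → F, p' = u₂ i₀ + u₂ i₁ := ⟨_, rfl⟩
  have hBp : ∀ x, B x p = B x (u₁ i₀) + B x (u₁ i₁) := fun x => by rw [hp, B_add_right hQ]
  have hBp' : ∀ x, B x p' = B x (u₂ i₀) + B x (u₂ i₁) := fun x => by rw [hp', B_add_right hQ]
  have hQp : Q p = 0 := by
    rw [hp, Q_add hQ, hQu₁, hQu₁, hO (hu₁ i₀) (hu₁ i₁) h01]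
    linear_combination h2
  have hQp' : Q p' = 0 := by
    rw [hp', Q_add hQ, hQu₂, hQu₂, hO (hu₂ i₀) (hu₂ i₁) h01]
    linear_combination h2
  have hpp' : B p p' = 0 := by
    rw [hBp', hp, B_add_left hQ, B_add_left hQ, hu₁₂, hu₁₂, hO (hu₁ i₁) (hu₂ i₀) h01.symm, hO (hu₁ i₀) (hu₂ i₁) h01]
    linear_combination h2
  have hp'p : B p' p = 0 := by rw [B_comm hQ, hpp']
  have hpp : B p p = 0 := by rw [B_self hQ, hQp, mul_zero]
  have hp'p' : B p' p' = 0 := by rw [B_self hQ, hQp', mul_zero]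
  obtain ⟨T, hTΩ, hT⟩ := Cfsg.Agent.S5705.exists_siegel hF hQ hn1 hn4 (u := p) (v := p') (x₁ := u₂ i₀) (x₂ := u₁ i₀) hQp hQp' hpp'
    (by rw [hBp, hu₂₁, hO (hu₂ i₀) (hu₁ i₁) h01, add_zero])
    (by rw [hBp', hu₂₂, hO (hu₂ i₀) (hu₂ i₁) h01, add_zero])
    (by rw [hBp, hu₁₁, hO (hu₁ i₀) (hu₁ i₁) h01, add_zero])
    (by rw [hBp', hu₁₂, hO (hu₁ i₀) (hu₂ i₁) h01, add_zero])
  have hTO : T ∈ isometryGroup F Q := omega_isom T hTΩ
  have hTT : ∀ x, (T : Matrix ι ι F) *ᵥ ((T : Matrix ι ι F) *ᵥ x) = x := by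
    intro x
    rw [hT ((T : Matrix ι ι F) *ᵥ x), hT x]
    simp only [B_add_left hQ, B_smul_left hQ, hpp, hp'p', hpp', hp'p, mul_zero, add_zero]
    ext j
    simp only [Pi.add_apply, Pi.smul_apply, smul_eq_mul]
    linear_combination (B x p * p' j + B x p' * p j) * h2
  have hTfix : ∀ x, B x p = 0 → B x p' = 0 → (T : Matrix ι ι F) *ᵥ x = x := by
    intro x h h'
    rw [hT, h, h']
    simp
  have hTL : ∀ x ∈ L, (T : Matrix ι ι F) *ᵥ x ∈ L := by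
    rintro x ⟨⟨i, hx⟩, hQx⟩
    have hQT : Q ((T : Matrix ι ι F) *ᵥ x) = 1 := by rw [(mem_O_iff T).1 hTO]; exact hQx
    refine ⟨?_, hQT⟩
    have hother : ∀ k, k ≠ i → ∀ w ∈ D k, B x w = 0 := fun k hk w hw => hO hx hw hk.symm
    rcases hsplit i x hx hQx with ⟨a, b, rfl⟩ | ⟨c, d, rfl⟩
    · by_cases hi0 : i = i₀
      · rw [hi0] at hother hx ⊢
        refine ⟨i₁, ?_⟩
        have e1 : B (a • u₁ i₀ + b • u₂ i₀) p = b := by
          rw [hBp, hother i₁ h01.symm _ (hu₁ i₁), B_add_left hQ, B_smul_left hQ, B_smul_left hQ, hu₁₁, hu₂₁]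
          ring
        have e2 : B (a • u₁ i₀ + b • u₂ i₀) p' = a := by
          rw [hBp', hother i₁ h01.symm _ (hu₂ i₁), B_add_left hQ, B_smul_left hQ, B_smul_left hQ, hu₁₂, hu₂₂]
          ring
        have e3 : (T : Matrix ι ι F) *ᵥ (a • u₁ i₀ + b • u₂ i₀) = a • u₁ i₁ + b • u₂ i₁ := by
          rw [hT, e1, e2, hp, hp']
          ext j
          simp only [Pi.add_apply, Pi.smul_apply, smul_eq_mul]
          linear_combination (a * u₁ i₀ j + b * u₂ i₀ j) * h2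
        rw [e3]
        exact (D i₁).add_mem ((D i₁).smul_mem _ (hu₁ i₁)) ((D i₁).smul_mem _ (hu₂ i₁))
      · by_cases hi1 : i = i₁
        · rw [hi1] at hother hx ⊢
          refine ⟨i₀, ?_⟩
          have e1 : B (a • u₁ i₁ + b • u₂ i₁) p = b := by
            rw [hBp, hother i₀ h01 _ (hu₁ i₀), B_add_left hQ, B_smul_left hQ, B_smul_left hQ, hu₁₁, hu₂₁]
            ring
          have e2 : B (a • u₁ i₁ + b • u₂ i₁) p' = a := by
            rw [hBp', hother i₀ h01 _ (hu₂ i₀), B_add_left hQ, B_smul_left hQ, B_smul_left hQ, hu₁₂, hu₂₂]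
            ring
          have e3 : (T : Matrix ι ι F) *ᵥ (a • u₁ i₁ + b • u₂ i₁) = a • u₁ i₀ + b • u₂ i₀ := by
            rw [hT, e1, e2, hp, hp']
            ext j
            simp only [Pi.add_apply, Pi.smul_apply, smul_eq_mul]
            linear_combination (a * u₁ i₁ j + b * u₂ i₁ j) * h2
          rw [e3]
          exact (D i₀).add_mem ((D i₀).smul_mem _ (hu₁ i₀)) ((D i₀).smul_mem _ (hu₂ i₀))
        · refine ⟨i, ?_⟩
          rw [hTfix]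
          · exact hx
          · rw [hBp, hother i₀ (Ne.symm hi0) _ (hu₁ i₀), hother i₁ (Ne.symm hi1) _ (hu₁ i₁), add_zero]
          · rw [hBp', hother i₀ (Ne.symm hi0) _ (hu₂ i₀), hother i₁ (Ne.symm hi1) _ (hu₂ i₁), add_zero]
    · have hvB : ∀ k, B (c • v₁ i + d • v₂ i) (u₁ k) = 0 ∧ B (c • v₁ i + d • v₂ i) (u₂ k) = 0 := by
        intro k
        by_cases hk : k = i
        · rw [hk, B_add_left hQ, B_add_left hQ, B_smul_left hQ, B_smul_left hQ, B_smul_left hQ, B_smul_left hQ, hvu₁₁, hvu₁₂, hvu₂₁, hvu₂₂]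
          simp
        · exact ⟨hother k hk _ (hu₁ k), hother k hk _ (hu₂ k)⟩
      refine ⟨i, ?_⟩
      rw [hTfix]
      · exact hx
      · rw [hBp, (hvB i₀).1, (hvB i₁).1, add_zero]
      · rw [hBp', (hvB i₀).2, (hvB i₁).2, add_zero]
  have hmemT : T ∈ stabilizing (Units.coeHom (Matrix ι ι F)) L ⊓ omegaGL Q := by
    refine ⟨?_, hTΩ⟩
    intro v
    constructor
    · exact hTL v
    · intro hv
      have hv' : (T : Matrix ι ι F) *ᵥ v ∈ L := hv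
      have := hTL _ hv'
      rwa [hTT] at this
  refine ⟨stabilizing (Units.coeHom (Matrix ι ι F)) L ⊓ omegaGL Q, ?_, ?_⟩
  · refine lt_of_le_of_ne ?_ ?_
    · refine le_inf ?_ inf_le_right
      have hgL : ∀ g : GL ι F, g ∈ decompositionStabilizer D → g ∈ isometryGroup F Q → ∀ v ∈ L, (g : Matrix ι ι F) *ᵥ v ∈ L := by
        rintro g ⟨σ, hσ⟩ hgO v ⟨⟨i, hvD⟩, hv1⟩
        refine ⟨⟨σ i, ?_⟩, ?_⟩
        · rw [← hσ]
          exact ⟨v, hvD, by rw [Matrix.toLin'_apply]⟩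
        · rw [(mem_O_iff g).1 hgO]
          exact hv1
      rintro g ⟨hg1, hg2⟩
      intro v
      constructor
      · exact hgL g hg1 (omega_isom g hg2) v
      · intro hv
        have hv' : (g : Matrix ι ι F) *ᵥ v ∈ L := hv
        have := hgL g⁻¹ ((decompositionStabilizer D).inv_mem hg1) ((isometryGroup F Q).inv_mem (omega_isom g hg2)) _ hv'
        rwa [Matrix.mulVec_mulVec, ← Units.val_mul, inv_mul_cancel, Units.val_one, Matrix.one_mulVec] at this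
    · intro heq
      rw [← heq] at hmemT
      obtain ⟨σ, hσ⟩ := hmemT.1
      have hv : (T : Matrix ι ι F) *ᵥ (u₁ i₀ + v₁ i₀) ∈ D (σ i₀) := by
        rw [← hσ]
        exact ⟨_, (D i₀).add_mem (hu₁ i₀) (hv₁ i₀), by rw [Matrix.toLin'_apply]⟩
      have e1 : B (u₁ i₀ + v₁ i₀) p = 0 := by
        rw [hBp, B_add_left hQ, B_add_left hQ, hu₁₁, hvu₁₁, hO (hu₁ i₀) (hu₁ i₁) h01, hO (hv₁ i₀) (hu₁ i₁) h01]
        ring
      have e2 : B (u₁ i₀ + v₁ i₀) p' = 1 := by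
        rw [hBp', B_add_left hQ, B_add_left hQ, hu₁₂, hvu₁₂, hO (hu₁ i₀) (hu₂ i₁) h01, hO (hv₁ i₀) (hu₂ i₁) h01]
        ring
      rw [hT, e1, e2, zero_smul, one_smul, add_zero] at hv
      have e3 : B (u₁ i₀ + v₁ i₀ + p) (v₂ i₀) = 1 := by
        rw [hp, B_add_left hQ, B_add_left hQ, B_add_left hQ, h12, hv₁₂, hO (hu₁ i₁) (hv₂ i₀) h01.symm]
        ring
      have e4 : B (u₁ i₀ + v₁ i₀ + p) (u₂ i₁) = 1 := by
        rw [hp, B_add_left hQ, B_add_left hQ, B_add_left hQ, hO (hu₁ i₀) (hu₂ i₁) h01, hO (hv₁ i₀) (hu₂ i₁) h01, hu₁₂]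
        ring
      by_cases hk : σ i₀ = i₀
      · rw [hk] at hv
        have := hO hv (hu₂ i₁) h01
        rw [e4] at this
        exact one_ne_zero this
      · have := hO hv (hv₂ i₀) hk
        rw [e3] at this
        exact one_ne_zero this
  · refine lt_of_le_of_ne inf_le_right ?_
    intro heq
    have hQa : Q (u₁ i₀ + u₁ i₁ + u₁ i₂) = 1 := by
      rw [Q_add hQ, Q_add hQ, hQu₁, hQu₁, hQu₁, hO (hu₁ i₀) (hu₁ i₁) h01, B_add_left hQ, hO (hu₁ i₀) (hu₁ i₂) h02, hO (hu₁ i₁) (hu₁ i₂) h12']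
      linear_combination h2
    have hQa0 : Q (u₁ i₀ + u₁ i₁ + u₁ i₂) ≠ 0 := by rw [hQa]; exact one_ne_zero
    have hQy0 : Q (u₁ i₃) ≠ 0 := by rw [hQu₁]; exact one_ne_zero
    have hmem : R Q (u₁ i₀ + u₁ i₁ + u₁ i₂) * R Q (u₁ i₃) ∈ stabilizing (Units.coeHom (Matrix ι ι F)) L ⊓ omegaGL Q := by
      rw [heq]
      exact RR_even hQ h2 hn1 hn4 hQa0 hQy0
    have hxL : u₂ i₀ ∈ L := ⟨⟨i₀, hu₂ i₀⟩, hQu₂ i₀⟩
    have h1 : ((R Q (u₁ i₀ + u₁ i₁ + u₁ i₂) * R Q (u₁ i₃) : GL ι F) : Matrix ι ι F) *ᵥ (u₂ i₀) ∈ L := (hmem.1 _).1 hxL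
    have hval : ((R Q (u₁ i₀ + u₁ i₁ + u₁ i₂) * R Q (u₁ i₃) : GL ι F) : Matrix ι ι F) *ᵥ (u₂ i₀) = u₂ i₀ - (u₁ i₀ + u₁ i₁ + u₁ i₂) := by
      rw [mul_mulVec, R_mulVec hQ hQy0, hO (hu₂ i₀) (hu₁ i₃) h03, mul_zero, zero_smul, sub_zero, R_mulVec hQ hQa0, hQa,
        B_add_right hQ, B_add_right hQ, hu₂₁, hO (hu₂ i₀) (hu₁ i₁) h01, hO (hu₂ i₀) (hu₁ i₂) h02]
      simp
    rw [hval] at h1
    obtain ⟨⟨j, hj⟩, -⟩ := h1
    have e1 : B (u₂ i₀ - (u₁ i₀ + u₁ i₁ + u₁ i₂)) (u₂ i₁) = -1 := by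
      rw [B_sub_left hQ, B_add_left hQ, B_add_left hQ, hu₁₂, hO (hu₂ i₀) (hu₂ i₁) h01, hO (hu₁ i₀) (hu₂ i₁) h01, hO (hu₁ i₂) (hu₂ i₁) h12'.symm]
      ring
    have e2 : B (u₂ i₀ - (u₁ i₀ + u₁ i₁ + u₁ i₂)) (u₁ i₀) = 1 := by
      rw [B_sub_left hQ, B_add_left hQ, B_add_left hQ, hu₂₁, hu₁₁, hO (hu₁ i₁) (hu₁ i₀) h01.symm, hO (hu₁ i₂) (hu₁ i₀) h02.symm]
      ring
    by_cases hk : j = i₁
    · rw [hk] at hj
      have := hO hj (hu₁ i₀) h01.symm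
      rw [e2] at this
      exact one_ne_zero this
    · have := hO hj (hu₂ i₁) hk
      rw [e1] at this
      exact (neg_ne_zero.2 one_ne_zero) this

end Cfsg.Agent.Lib.FrameO2b
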