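import Mathlib
import Cfsg.Agent.Lib.FrobCount

/-!
Frobenius' theorem for roots of a central element and the class version (seat helper2).
-/

namespace Cfsg.Agent.Lib.FrobCount2

open Subgroup
open Cfsg.Agent.Lib.FrobCount

universe u

variable {G : Type u} [Group G]

/-- The induction hypothesis. -/
def IHyp (p : ℕ) (G : Type u) [Group G] : Prop :=
  ∀ (H : Type u) [Group H] [Finite H], Nat.card H < Nat.card G → ∀ (n a : ℕ) (c : H), c ∈ center H →
    n ≠ 0 → p ^ a ∣ n → p ^ a ∣ Nat.card H → p ^ a ∣ Nat.card {g : H // g ^ n = c}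

/-- Number of solutions of `y ^ n = c` commuting with `u`. -/
noncomputable def Fc (n : ℕ) (c u : G) : ℕ := Nat.card {y : G // y ^ n = c ∧ u * y = y * u}

theorem Fc_conj (n : ℕ) {c : G} (hc : c ∈ center G) (r u : G) : Fc n c (r * u * r⁻¹) = Fc n c u := by
  have hcen : ∀ g : G, g * c = c * g := fun g => Subgroup.mem_center_iff.1 hc g
  apply Nat.card_congr
  refine ⟨fun x => ⟨r⁻¹ * x.1 * r, ?_, ?_⟩, fun x => ⟨r * x.1 * r⁻¹, ?_, ?_⟩, ?_, ?_⟩
  · have := x.2.1
    have e := conj_pow (a := r⁻¹) (b := x.1) (i := n)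
    simp only [inv_inv] at e
    rw [e, this, hcen]; simp
  · have := x.2.2
    have e : r * u * r⁻¹ * x.1 = x.1 * (r * u * r⁻¹) := this
    have : u * (r⁻¹ * x.1 * r) = r⁻¹ * (r * u * r⁻¹ * x.1) * r := by group
    rw [this, e]; group
  · have := x.2.1
    rw [conj_pow, this, hcen]; simp
  · have := x.2.2
    show r * u * r⁻¹ * (r * x.1 * r⁻¹) = (r * x.1 * r⁻¹) * (r * u * r⁻¹)
    have e1 : r * u * r⁻¹ * (r * x.1 * r⁻¹) = r * (u * x.1) * r⁻¹ := by group
    have e2 : (r * x.1 * r⁻¹) * (r * u * r⁻¹) = r * (x.1 * u) * r⁻¹ := by group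
    rw [e1, e2, this]
  · intro x; apply Subtype.ext; simp only; group
  · intro x; apply Subtype.ext; simp only; group

theorem card_centralizer_Fc (n : ℕ) {c : G} (hc : c ∈ center G) (u : G) :
    Nat.card {g : centralizer {u} // g ^ n = (⟨c, Subgroup.mem_centralizer_singleton_iff.2
      (Subgroup.mem_center_iff.1 hc u).symm⟩ : centralizer {u})} = Fc n c u := by
  apply Nat.card_congr
  refine ⟨fun x => ⟨x.1.1, ?_, ?_⟩, fun x => ⟨⟨x.1, ?_⟩, ?_⟩, ?_, ?_⟩
  · have := congrArg Subtype.val x.2
    simpa using this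
  · have := Subgroup.mem_centralizer_singleton_iff.1 x.1.2
    exact this.symm
  · exact Subgroup.mem_centralizer_singleton_iff.2 x.2.2.symm
  · apply Subtype.ext
    simpa using x.2.1
  · intro x; rfl
  · intro x; rfl

theorem case_free [Finite G] (p : ℕ) [Fact p.Prime] (IH : IHyp p G)
    (hZ : ¬ p ∣ Nat.card (center G)) (n a : ℕ) (c : G) (hc : c ∈ center G) (hn : n ≠ 0)
    (h1 : p ^ a ∣ n) (h2 : p ^ a ∣ Nat.card G) : p ^ a ∣ Nat.card {g : G // g ^ n = c} := by
  classical
  haveI := Fintype.ofFinite G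
  have hp : p.Prime := Fact.out
  have hcen : ∀ g : G, g * c = c * g := fun g => Subgroup.mem_center_iff.1 hc g
  obtain ⟨P, hP⟩ := Sylow.exists_subgroup_card_pow_prime p h2
  haveI : Fintype P := Fintype.ofFinite _
  let X := {g : G // g ^ n = c}
  haveI : Fintype X := Fintype.ofFinite _
  let act : MulAction P X :=
    { smul := fun q x => ⟨q.1 * x.1 * q.1⁻¹, by
        show (q.1 * x.1 * q.1⁻¹) ^ n = c
        rw [conj_pow, x.2, hcen]; simp⟩
      one_smul := by
        intro x; apply Subtype.ext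
        show (1 : G) * x.1 * (1 : G)⁻¹ = x.1
        simp
      mul_smul := by
        intro a b x; apply Subtype.ext
        show (a.1 * b.1) * x.1 * (a.1 * b.1)⁻¹ = a.1 * (b.1 * x.1 * b.1⁻¹) * a.1⁻¹
        group }
  haveI : ∀ q : P, Fintype (MulAction.fixedBy X q) := fun q => Fintype.ofFinite _
  haveI : Fintype (MulAction.orbitRel.Quotient P X) := Fintype.ofFinite _
  have burn := MulAction.sum_card_fixedBy_eq_card_orbits_mul_card_group P X
  let F : P → ℕ := fun q => Fc n c q.1
  have hFix : ∀ q : P, Fintype.card (MulAction.fixedBy X q) = F q := by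
    intro q
    rw [← Nat.card_eq_fintype_card]
    apply Nat.card_congr
    refine ⟨fun x => ⟨x.1.1, x.1.2, ?_⟩, fun x => ⟨⟨x.1, x.2.1⟩, ?_⟩, ?_, ?_⟩
    · have hx := x.2
      have hx2 : q.1 * x.1.1 * q.1⁻¹ = x.1.1 := congrArg Subtype.val hx
      calc q.1 * x.1.1 = (q.1 * x.1.1 * q.1⁻¹) * q.1 := by group
        _ = x.1.1 * q.1 := by rw [hx2]
    · apply Subtype.ext
      show q.1 * x.1 * q.1⁻¹ = x.1
      rw [x.2.2]; simp
    · intro x; rfl
    · intro x; rfl
  simp only [hFix] at burn
  have hF1 : F 1 = Nat.card {g : G // g ^ n = c} := by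
    apply Nat.card_congr
    exact Equiv.subtypeEquivRight (fun x => by simp)
  have hf : ∀ r q : P, F (r * q * r⁻¹) = F q := fun r q => Fc_conj n hc r.1 q.1
  have hsum : p ^ a ∣ ∑ q ∈ Finset.univ.erase (1 : P), F q := by
    apply dvd_sum_of_class F hf
    intro q hq
    let C : Subgroup G := centralizer {q.1}
    let K : Subgroup P := centralizer {q}
    have hne : C ≠ ⊤ := by
      intro hC
      have hq1 : q.1 ∈ center G := by
        rw [Subgroup.mem_center_iff]
        intro g
        have : g ∈ C := by rw [hC]; trivial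
        exact Subgroup.mem_centralizer_singleton_iff.1 this
      apply hZ
      have h3 : orderOf q ∣ p ^ a := by
        rw [← hP]; exact orderOf_dvd_natCard q
      obtain ⟨b, _, hb⟩ := (Nat.dvd_prime_pow hp).1 h3
      have h4 : orderOf (⟨q.1, hq1⟩ : center G) = orderOf q := by
        rw [Subgroup.orderOf_mk, Subgroup.orderOf_coe]
      have h5 : orderOf q ∣ Nat.card (center G) := by
        rw [← h4]; exact orderOf_dvd_natCard _
      have hb0 : b ≠ 0 := by
        rintro rfl
        apply hq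
        rw [pow_zero] at hb
        exact orderOf_eq_one_iff.1 hb
      exact (dvd_pow_self p hb0).trans (hb ▸ h5)
    have hlt : Nat.card C < Nat.card G := card_lt_of_ne_top hne
    have hK : Nat.card K ∣ p ^ a := by
      rw [← hP]; exact Subgroup.card_subgroup_dvd_card K
    obtain ⟨b, hb, hKb⟩ := (Nat.dvd_prime_pow hp).1 hK
    have hKC : K.map P.subtype ≤ C := by
      rintro _ ⟨y, hy, rfl⟩
      have : y * q = q * y := Subgroup.mem_centralizer_singleton_iff.1 hy
      exact Subgroup.mem_centralizer_singleton_iff.2 (congrArg Subtype.val this)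
    have h3 : p ^ b ∣ Nat.card C := by
      rw [← hKb, ← Subgroup.card_map_of_injective P.subtype_injective]
      exact Subgroup.card_dvd_of_le hKC
    have hcC : (⟨c, Subgroup.mem_centralizer_singleton_iff.2 (hcen q.1).symm⟩ : C) ∈ center C := by
      rw [Subgroup.mem_center_iff]
      intro g
      apply Subtype.ext
      exact hcen g.1
    have h4 := IH C hlt n b ⟨c, Subgroup.mem_centralizer_singleton_iff.2 (hcen q.1).symm⟩ hcC hn
      ((pow_dvd_pow p hb).trans h1) h3
    have e := card_centralizer_Fc n hc q.1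
    rw [e] at h4
    have h5 : Nat.card K * K.index = p ^ a := by
      rw [Subgroup.card_mul_index, hP]
    rw [hKb] at h5
    rw [← h5, mul_comm]
    exact mul_dvd_mul_left _ h4
  have hdvd : p ^ a ∣ ∑ q : P, F q := by
    rw [burn, ← Nat.card_eq_fintype_card (α := P), hP]
    exact dvd_mul_left _ _
  rw [← Finset.add_sum_erase _ _ (Finset.mem_univ (1 : P))] at hdvd
  rw [← hF1]
  exact (Nat.dvd_add_left hsum).1 hdvd

/-- Number of solutions of `x ^ n = y`, a class function. -/
theorem card_root_conj (n : ℕ) (r y : G) :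
    Nat.card {x : G // x ^ n = r * y * r⁻¹} = Nat.card {x : G // x ^ n = y} := by
  apply Nat.card_congr
  refine ⟨fun x => ⟨r⁻¹ * x.1 * r, ?_⟩, fun x => ⟨r * x.1 * r⁻¹, ?_⟩, ?_, ?_⟩
  · have e := conj_pow (a := r⁻¹) (b := x.1) (i := n)
    simp only [inv_inv] at e
    rw [e, x.2]; group
  · rw [conj_pow, x.2]
  · intro x; apply Subtype.ext; simp only; group
  · intro x; apply Subtype.ext; simp only; group

theorem card_root_centralizer (n : ℕ) (y : G) :
    Nat.card {g : centralizer {y} // g ^ n = (⟨y, Subgroup.mem_centralizer_singleton_iff.2 rfl⟩ :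
      centralizer {y})} = Nat.card {x : G // x ^ n = y} := by
  apply Nat.card_congr
  refine ⟨fun x => ⟨x.1.1, ?_⟩, fun x => ⟨⟨x.1, ?_⟩, ?_⟩, ?_, ?_⟩
  · have := congrArg Subtype.val x.2
    simpa using this
  · apply Subgroup.mem_centralizer_singleton_iff.2
    have h3 : x.1 * x.1 ^ n = x.1 ^ n * x.1 := (pow_succ' x.1 n).symm.trans (pow_succ x.1 n)
    rw [x.2] at h3
    exact h3
  · apply Subtype.ext
    simpa using x.2
  · intro x; rfl
  · intro x; rfl

theorem center_centralizer_self (y : G) :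
    (⟨y, Subgroup.mem_centralizer_singleton_iff.2 rfl⟩ : centralizer {y}) ∈ center (centralizer {y}) := by
  rw [Subgroup.mem_center_iff]
  intro g
  apply Subtype.ext
  exact Subgroup.mem_centralizer_singleton_iff.1 g.2

theorem case_central [Finite G] (p : ℕ) [Fact p.Prime] (IH : IHyp p G) (z : G)
    (hz : z ∈ center G) (hzo : orderOf z = p) (n a : ℕ) (c : G) (hc : c ∈ center G) (hn : n ≠ 0)
    (h1 : p ^ a ∣ n) (h2 : p ^ a ∣ Nat.card G) : p ^ a ∣ Nat.card {g : G // g ^ n = c} := by
  classical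
  rcases a with _ | a
  · simp
  have hp : p.Prime := Fact.out
  let N : Subgroup G := zpowers z
  have hNcen : ∀ y ∈ N, ∀ g : G, y * g = g * y := by
    intro y hy g
    obtain ⟨k, rfl⟩ := mem_zpowers_iff.1 hy
    have : z ^ k ∈ center G := (center G).zpow_mem hz k
    exact (Subgroup.mem_center_iff.1 this g).symm
  haveI hN : N.Normal := ⟨by
    intro y hy g
    rw [← hNcen y hy g]
    simpa using hy⟩
  have hzp : ∀ y ∈ N, y ^ p = 1 := by
    intro y hy
    obtain ⟨k, rfl⟩ := mem_zpowers_iff.1 hy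
    rw [← zpow_natCast, zpow_comm, zpow_natCast z p, ← hzo, pow_orderOf_eq_one, one_zpow]
  have hcardN : Nat.card N = p := by rw [Nat.card_zpowers, hzo]
  have hpn : p ∣ n := dvd_trans (dvd_pow_self p (Nat.succ_ne_zero a)) h1
  obtain ⟨n', rfl⟩ := hpn
  have hn' : n' ≠ 0 := fun h => hn (by rw [h]; simp)
  have ha' : p ^ a ∣ n' := by
    rw [pow_succ'] at h1
    exact Nat.dvd_of_mul_dvd_mul_left hp.pos h1
  have hQcard : Nat.card G = p * Nat.card (G ⧸ N) := by
    rw [Subgroup.card_eq_card_quotient_mul_card_subgroup N, hcardN, mul_comm]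
  have hQ : p ^ a ∣ Nat.card (G ⧸ N) := by
    rw [hQcard, pow_succ'] at h2
    exact Nat.dvd_of_mul_dvd_mul_left hp.pos h2
  have hGpos : 0 < Nat.card (G ⧸ N) := Nat.card_pos
  have hlt : Nat.card (G ⧸ N) < Nat.card G := by
    rw [hQcard]
    have := hp.two_le
    nlinarith
  let π : G → G ⧸ N := QuotientGroup.mk
  -- the `p`-th power of a lift is well defined
  have hpow : ∀ x y : G, π x = π y → x ^ p = y ^ p := by
    intro x y hxy
    have h3 : x⁻¹ * y ∈ N := QuotientGroup.eq.1 hxy
    have h4 : y = x * (x⁻¹ * y) := by group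
    have hcm : Commute x (x⁻¹ * y) := (hNcen _ h3 x).symm
    rw [h4, hcm.mul_pow, hzp _ h3, mul_one]
  let Xb : Set (G ⧸ N) := π '' {g : G | g ^ (p * n') = c}
  have hX : {g : G | g ^ (p * n') = c} = π ⁻¹' Xb := by
    ext g
    constructor
    · intro h; exact ⟨g, h, rfl⟩
    · rintro ⟨x, hx, hxg⟩
      show g ^ (p * n') = c
      have hx' : x ^ (p * n') = c := hx
      rw [← hx', mul_comm, pow_mul, pow_mul]
      have h5 : π (x ^ n') = π (g ^ n') := by
        show ((x ^ n' : G) : G ⧸ N) = ((g ^ n' : G) : G ⧸ N)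
        rw [QuotientGroup.mk_pow, QuotientGroup.mk_pow]
        exact congrArg (· ^ n') hxg
      exact (hpow _ _ h5).symm
  have hcard : Nat.card {g : G // g ^ (p * n') = c} = p * Nat.card Xb := by
    have e1 : {g : G // g ^ (p * n') = c} ≃ (π ⁻¹' Xb) := Equiv.setCongr hX
    rw [Nat.card_congr e1]
    have e2 := QuotientGroup.preimageMkEquivSubgroupProdSet N Xb
    have e3 : Nat.card (π ⁻¹' Xb) = Nat.card (N × Xb) := Nat.card_congr e2
    rw [e3, Nat.card_prod, hcardN]
  rw [hcard, pow_succ']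
  apply mul_dvd_mul_left
  -- the set of possible `n'`-th powers
  let W : G ⧸ N → Prop := fun y => ∃ g : G, π g = y ∧ g ^ p = c
  haveI : Fintype (G ⧸ N) := Fintype.ofFinite _
  haveI : Fintype {y : G ⧸ N // W y} := Fintype.ofFinite _
  let f : G ⧸ N → ℕ := fun y => Nat.card {x : G ⧸ N // x ^ n' = y}
  have hXb : Nat.card Xb = ∑ y : {y : G ⧸ N // W y}, f y.1 := by
    have e : Xb ≃ Σ y : {y : G ⧸ N // W y}, {x : G ⧸ N // x ^ n' = y.1} :=
      { toFun := fun x => ⟨⟨x.1 ^ n', by
          obtain ⟨g, hg, hgx⟩ := x.2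
          refine ⟨g ^ n', ?_, ?_⟩
          · show ((g ^ n' : G) : G ⧸ N) = _
            rw [QuotientGroup.mk_pow, ← hgx]
          · have hg' : g ^ (p * n') = c := hg
            rw [← pow_mul, mul_comm]; exact hg'⟩, ⟨x.1, rfl⟩⟩
        invFun := fun y => ⟨y.2.1, by
          obtain ⟨g, hg⟩ := QuotientGroup.mk_surjective y.2.1
          obtain ⟨u, hu, huc⟩ := y.1.2
          refine ⟨g, ?_, hg⟩
          have h5 : π (g ^ n') = π u := by
            show ((g ^ n' : G) : G ⧸ N) = _
            rw [QuotientGroup.mk_pow, hg, y.2.2]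
            exact hu.symm
          show g ^ (p * n') = c
          rw [mul_comm, pow_mul, hpow _ _ h5, huc]⟩
        left_inv := fun x => rfl
        right_inv := by
          rintro ⟨⟨y, hy⟩, ⟨x, hx⟩⟩
          have hx' : x ^ _ = y := hx
          subst hx'
          rfl }
    rw [Nat.card_congr e, Nat.card_sigma]
  rw [hXb]
  apply dvd_sum_subtype W
  · rintro r y ⟨g, hg, hgc⟩
    obtain ⟨r', rfl⟩ := QuotientGroup.mk_surjective r
    refine ⟨r' * g * r'⁻¹, ?_, ?_⟩
    · rw [← hg]; rfl
    · rw [conj_pow, hgc]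
      have := Subgroup.mem_center_iff.1 hc r'
      rw [this]; simp
  · intro r y
    exact card_root_conj n' r y
  · intro y _
    set H : Subgroup (G ⧸ N) := centralizer {y} with hH
    have h3 : p ^ a ∣ Nat.card H * H.index := by
      rw [Subgroup.card_mul_index]; exact hQ
    have h4 := Nat.dvd_gcd_mul_iff_dvd_mul.2 h3
    obtain ⟨b, hb, hgcd⟩ := (Nat.dvd_prime_pow hp).1 (Nat.gcd_dvd_left (p ^ a) (Nat.card H))
    have hHlt : Nat.card H < Nat.card G :=
      lt_of_le_of_lt (Subgroup.card_le_card_group H) hlt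
    have h5 := IH H hHlt n' b ⟨y, Subgroup.mem_centralizer_singleton_iff.2 rfl⟩
      (center_centralizer_self y) hn' ((pow_dvd_pow p hb).trans ha')
      (hgcd ▸ Nat.gcd_dvd_right _ _)
    rw [card_root_centralizer n' y] at h5
    rw [hgcd] at h4
    rw [mul_comm]
    exact h4.trans (mul_dvd_mul_right h5 _)

/-- Frobenius' theorem for roots of a central element. -/
theorem frobenius_key (p : ℕ) [Fact p.Prime] : ∀ (N : ℕ) (G : Type u) [Group G] [Finite G],
    Nat.card G = N → ∀ (n a : ℕ) (c : G), c ∈ center G → n ≠ 0 → p ^ a ∣ n → p ^ a ∣ Nat.card G →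
      p ^ a ∣ Nat.card {g : G // g ^ n = c} := by
  intro N
  induction N using Nat.strong_induction_on with
  | _ N ih =>
    intro G _ _ hG n a c hc hn h1 h2
    have IH : IHyp p G := by
      intro H _ _ hlt n a c hc hn h1 h2
      exact ih (Nat.card H) (hG ▸ hlt) H rfl n a c hc hn h1 h2
    by_cases hZ : p ∣ Nat.card (center G)
    · obtain ⟨z, hz⟩ := exists_prime_orderOf_dvd_card' p hZ
      exact case_central p IH z.1 z.2 (by rw [Subgroup.orderOf_coe, hz]) n a c hc hn h1 h2
    · exact case_free p IH hZ n a c hc hn h1 h2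

/-- `gcd (n, |G|)` divides the number of `n`-th roots of a central element. -/
theorem gcd_dvd_card_root [Finite G] {n : ℕ} (hn : n ≠ 0) {c : G} (hc : c ∈ center G) :
    Nat.gcd n (Nat.card G) ∣ Nat.card {g : G // g ^ n = c} := by
  have hg : Nat.gcd n (Nat.card G) ≠ 0 := Nat.gcd_ne_zero_left hn
  by_cases hz : Nat.card {g : G // g ^ n = c} = 0
  · rw [hz]; exact dvd_zero _
  rw [← Nat.factorization_prime_le_iff_dvd hg hz]
  intro p hp
  haveI : Fact p.Prime := ⟨hp⟩
  rw [← hp.pow_dvd_iff_le_factorization hz]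
  have h3 : p ^ (Nat.gcd n (Nat.card G)).factorization p ∣ Nat.gcd n (Nat.card G) :=
    Nat.ordProj_dvd _ _
  exact frobenius_key p _ G rfl n _ c hc hn (h3.trans (Nat.gcd_dvd_left _ _))
    (h3.trans (Nat.gcd_dvd_right _ _))

/-- `gcd (n, |C(y)|)` divides the number of `n`-th roots of any element `y`. -/
theorem gcd_dvd_card_root_centralizer [Finite G] {n : ℕ} (hn : n ≠ 0) (y : G) :
    Nat.gcd n (Nat.card (centralizer {y})) ∣ Nat.card {x : G // x ^ n = y} := by
  rw [← card_root_centralizer n y]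
  exact gcd_dvd_card_root hn (center_centralizer_self y)

/-- The class version of Frobenius' theorem. -/
theorem gcd_class_dvd_card [Finite G] (c : G) (n : ℕ) :
    Nat.gcd (Nat.card {y : G // IsConj c y} * n) (Nat.card G) ∣ Nat.card {x : G // IsConj c (x ^ n)} := by
  classical
  haveI := Fintype.ofFinite G
  rcases Nat.eq_zero_or_pos n with rfl | hn
  · simp only [mul_zero, Nat.gcd_zero_left, pow_zero]
    by_cases hc : c = 1
    · subst hc
      have : Nat.card {x : G // IsConj (1 : G) 1} = Nat.card G :=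
        Nat.card_congr (Equiv.subtypeUnivEquiv (fun _ => IsConj.refl _))
      rw [this]
    · have : IsEmpty {x : G // IsConj c 1} := ⟨fun x => hc (isConj_one_right.1 x.2.symm)⟩
      have h0 : Nat.card {x : G // IsConj c 1} = 0 := Nat.card_of_isEmpty
      rw [h0]
      exact dvd_zero _
  have hn0 : n ≠ 0 := hn.ne'
  set h := Nat.card {y : G // IsConj c y} with hh
  have h1 : h = (centralizer {c}).index := FGSBasic.card_conj_eq_index c
  have h2 : Nat.card G = h * Nat.card (centralizer {c}) := by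
    rw [h1, mul_comm]; exact (Subgroup.card_mul_index _).symm
  have h3 : Nat.card {x : G // IsConj c (x ^ n)} = h * Nat.card {x : G // x ^ n = c} := by
    have e : {x : G // IsConj c (x ^ n)} ≃ Σ y : {y : G // IsConj c y}, {x : G // x ^ n = y.1} :=
      { toFun := fun x => ⟨⟨x.1 ^ n, x.2⟩, ⟨x.1, rfl⟩⟩
        invFun := fun y => ⟨y.2.1, by rw [y.2.2]; exact y.1.2⟩
        left_inv := fun x => rfl
        right_inv := by
          rintro ⟨⟨y, hy⟩, ⟨x, hx⟩⟩
          have hx' : x ^ _ = y := hx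
          subst hx'
          rfl }
    haveI : Fintype {y : G // IsConj c y} := Fintype.ofFinite _
    rw [Nat.card_congr e, Nat.card_sigma]
    have hin : ∀ y : {y : G // IsConj c y}, Nat.card {x : G // x ^ n = y.1}
        = Nat.card {x : G // x ^ n = c} := by
      rintro ⟨y, hy⟩
      obtain ⟨r, rfl⟩ := isConj_iff.1 hy
      exact card_root_conj n r c
    simp only [hin, Finset.sum_const, Finset.card_univ, smul_eq_mul, hh, Nat.card_eq_fintype_card]
  rw [h3, h2, Nat.gcd_mul_left]
  apply mul_dvd_mul_left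
  exact gcd_dvd_card_root_centralizer hn0 c

end Cfsg.Agent.Lib.FrobCount2
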