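import Mathlib
import Cfsg.Agent.Lib.FusConstr
import Cfsg.Agent.Lib.FusNSub

set_option autoImplicit false
set_option linter.unusedSectionVars false
set_option linter.unusedVariables false

/-!
Subnormal subgroups of groups with constrained fusion systems.
-/

namespace Cfsg.Agent.Lib.FusConstr

open Cfsg Cfsg.FusionSystem Cfsg.Agent.Lib.FusBasic Cfsg.Agent.Lib.FusAut Cfsg.Agent.Lib.FusSat Cfsg.Agent.Lib.FusNorm
  Cfsg.Agent.Lib.FusSolv Cfsg.Agent.Lib.H1Core Cfsg.Agent.Lib.FusReal Cfsg.Agent.Lib.FusReal2 Cfsg.Agent.Lib.FusFree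
  Cfsg.Agent.Lib.FusModel2 Cfsg.Agent.Lib.FusNSub Cfsg.Agent.Lib.FusGroup Cfsg.Agent.Lib.SylowTools

universe u v

/-- Constrained systems transport along realizations. -/
theorem constrained_transport {Ω : Type u} [Group Ω] {S : Subgroup Ω} {F : FusionSystem S} {p : ℕ} [Fact p.Prime]
    [Finite S] (hS : IsPGroup p S) (hF : F.IsConstrained p)
    {Ω' : Type v} [Group Ω'] {S' : Subgroup Ω'} {F' : FusionSystem S'} (e : S' ≃* S)
    (hcompat : ∀ (L : Type u) [Group L] (ι : S →* L), F.IsRealizedBy ι → F'.IsRealizedBy (ι.comp e.toMonoidHom)) :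
    F'.IsConstrained p := by
  obtain ⟨hFsat, Q₀, hQ₀, hC₀⟩ := hF
  obtain ⟨L, _, ι, hLM, -, -⟩ := exists_model_core hS hFsat hQ₀ (hC₀.2 Q₀ (isConj_refl F hQ₀.1))
  obtain ⟨hfin, hr, ⟨T₁, hT₁⟩, hC⟩ := hLM
  haveI : Finite S' := Finite.of_equiv S e.symm.toEquiv
  refine constrained_of_model (G := L) (ι := ι.comp e.toMonoidHom) ⟨hfin, hcompat L ι hr, ⟨T₁, ?_⟩, hC⟩
  rw [hT₁, MonoidHom.range_eq_map, MonoidHom.range_eq_map]
  ext y
  constructor
  · rintro ⟨x, -, rfl⟩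
    exact ⟨e.symm x, trivial, by simp⟩
  · rintro ⟨x, -, rfl⟩
    exact ⟨e x, trivial, rfl⟩

variable {G : Type u} [Group G] [Finite G] {p : ℕ} [Fact p.Prime]

theorem realized_incl (H T : Subgroup G) (hTH : T ≤ H) :
    (fusionSystemOfSubgroup H T hTH).IsRealizedBy (Subgroup.inclusion hTH) := by
  refine ⟨Subgroup.inclusion_injective hTH, fun P hP φ hφ => ?_⟩
  constructor
  · rintro ⟨-, -, g, hg, he⟩
    exact ⟨⟨g, hg⟩, fun x => Subtype.ext (he x)⟩
  · rintro ⟨g, he⟩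
    exact ⟨hP, hφ, g, g.2, fun x => congrArg (fun z : H => (z : G)) (he x)⟩

/-- the induction along a subnormal series -/
theorem constrained_subnormal (A : Subgroup G) (hA : IsPGroup p A) (hA₀ : IsSylowSub p (A ⊓ ⊤) ⊤)
    (hF : (fusionSystemOfSubgroup ⊤ (A ⊓ ⊤) inf_le_right).IsConstrained p) {H : Subgroup G} (hH : H.IsSubnormal) :
    (fusionSystemOfSubgroup H (A ⊓ H) inf_le_right).IsConstrained p ∧ IsSylowSub p (A ⊓ H) H := by
  classical
  induction hH with
  | top => exact ⟨hF, hA₀⟩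
  | step H K hle hK hN ih =>
    obtain ⟨hFK, hSK⟩ := ih
    have hAK : IsPGroup p ↥(A ⊓ K) := hA.to_le inf_le_left
    have hAH : IsPGroup p ↥(A ⊓ H) := hA.to_le inf_le_left
    have hHn : ∀ k ∈ K, ∀ x ∈ H, k * x * k⁻¹ ∈ H := by
      intro k hk x hx
      have h1 := hN.conj_mem ⟨x, hle hx⟩ hx ⟨k, hk⟩
      exact h1
    have hSH : IsSylowSub p (A ⊓ H) H := by
      refine isSylowSub_of_card inf_le_right hAH (fun B hB hBp => ?_)
      obtain ⟨n, hn, hle'⟩ := hSK.exists_conj (hB.trans hle) hBp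
      rw [← card_map_conj B n]
      refine Subgroup.card_le_of_le ?_
      rintro _ ⟨b, hb, rfl⟩
      exact ⟨(hle' ⟨b, hb, rfl⟩).1, hHn n hn b (hB hb)⟩
    refine ⟨?_, hSH⟩
    obtain ⟨T₀, hT₀⟩ := hSK
    have hAKK : A ⊓ K ≤ K := inf_le_right
    have hr := realized_incl K (A ⊓ K) hAKK
    have hT₀' : (T₀ : Subgroup K) = (Subgroup.inclusion hAKK).range := by
      rw [hT₀]
      ext ⟨x, hx⟩
      constructor
      · intro h
        exact ⟨⟨x, h⟩, rfl⟩
      · rintro ⟨⟨y, hy⟩, e⟩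
        obtain rfl : y = x := congrArg (fun z : K => (z : G)) e
        exact hy
    have hTm : ∀ x, x ∈ A ⊓ H ↔ ∃ h : x ∈ A ⊓ K, (Subgroup.inclusion hAKK) ⟨x, h⟩ ∈ H.subgroupOf K := by
      intro x
      constructor
      · rintro ⟨h1, h2⟩
        exact ⟨⟨h1, hle h2⟩, h2⟩
      · rintro ⟨h, h1⟩
        exact ⟨h.1, h1⟩
    have hE : IsSubSys (Subgroup.inclusion hAKK) (H.subgroupOf K) (fusionSystemOfSubgroup H (A ⊓ H) inf_le_right) := by
      intro P φ
      constructor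
      · rintro ⟨hP, hv, g, hg, he⟩
        have hP' : P ≤ A ⊓ K := fun x hx => ⟨(hP hx).1, hle (hP hx).2⟩
        have hv' : ∀ x, φ x ∈ A ⊓ K := fun x => ⟨(hv x).1, hle (hv x).2⟩
        exact ⟨hP', hv', hP, hv, ⟨g, hle hg⟩, hg, fun x => Subtype.ext (he x)⟩
      · rintro ⟨hP', hv', hP, hv, g, hg, he⟩
        exact ⟨hP, hv, g, hg, fun x => congrArg (fun z : K => (z : G)) (he x)⟩
    haveI : (H.subgroupOf K).Normal := hN
    have hnorm := subSys_normal hr T₀ hT₀' (H.subgroupOf K) hTm hE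
    exact constrained_of_normal hAK hFK hnorm

/-- `G` as the top of the chain -/
theorem constrained_top {A : Subgroup G} (hF : (groupFusionSystem A).IsConstrained p) (hA : IsPGroup p A) :
    (fusionSystemOfSubgroup ⊤ (A ⊓ ⊤) inf_le_right).IsConstrained p := by
  classical
  have hle : A ⊓ ⊤ ≤ A := inf_le_left
  have hge : A ≤ A ⊓ ⊤ := le_inf le_rfl le_top
  refine constrained_transport hA hF (MulEquiv.subgroupCongr (inf_top_eq A)) (fun L _ ι hr => ?_)
  refine ⟨?_, fun P hP φ hφ => ?_⟩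
  · intro a b e
    have e2 := hr.1 e
    exact (MulEquiv.subgroupCongr (inf_top_eq A)).injective e2
  · have := hr.2 P (hP.trans hle) φ (fun x => hle (hφ x))
    constructor
    · rintro ⟨-, -, g, -, he⟩
      exact this.1 ⟨hP.trans hle, fun x => hle (hφ x), g, he⟩
    · intro h
      obtain ⟨-, -, g, he⟩ := this.2 h
      exact ⟨hP, hφ, g, trivial, he⟩

/-- The last step -/
theorem constrained_final {A H : Subgroup G} (hA : IsPGroup p A)
    (hF : (fusionSystemOfSubgroup H (A ⊓ H) inf_le_right).IsConstrained p) :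
    (groupFusionSystem (A.subgroupOf H)).IsConstrained p := by
  classical
  let e : ↥(A.subgroupOf H) ≃* ↥(A ⊓ H) :=
    { toFun := fun x => ⟨x.1.1, x.2, x.1.2⟩
      invFun := fun x => ⟨⟨x.1, x.2.2⟩, x.2.1⟩
      left_inv := fun x => rfl
      right_inv := fun x => rfl
      map_mul' := fun a b => rfl }
  refine constrained_transport (hA.to_le inf_le_left) hF e (fun L _ ι hr => ?_)
  refine ⟨fun a b h => e.injective (hr.1 h), fun P hP φ hφ => ?_⟩
  -- the map in the ambient group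
  let j : P ≃* ↥(P.map H.subtype) := P.equivMapOfInjective H.subtype H.subtype_injective
  let χ : ↥(P.map H.subtype) →* G := H.subtype.comp (φ.comp j.symm.toMonoidHom)
  have hχe : ∀ x : P, χ (j x) = ((φ x : H) : G) := by
    intro x
    show ((φ (j.symm (j x)) : H) : G) = _
    rw [MulEquiv.symm_apply_apply]
  have hPAH : P.map H.subtype ≤ A ⊓ H := by
    rintro _ ⟨x, hx, rfl⟩
    exact ⟨hP hx, x.2⟩
  have hχv : ∀ x, χ x ∈ A ⊓ H := fun x => ⟨hφ _, (φ _).2⟩
  have key := hr.2 _ hPAH χ hχv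
  constructor
  · rintro ⟨-, -, g, he⟩
    have hχm : χ ∈ (fusionSystemOfSubgroup H (A ⊓ H) inf_le_right).Hom (P.map H.subtype) := by
      refine ⟨hPAH, hχv, g, g.2, fun x => ?_⟩
      obtain ⟨y, rfl⟩ := j.surjective x
      rw [hχe, he]
      rfl
    obtain ⟨l, hl⟩ := key.1 hχm
    refine ⟨l, fun x => ?_⟩
    have h1 := hl (j x)
    have h2 : (⟨χ (j x), hχv _⟩ : ↥(A ⊓ H)) = e ⟨φ x, hφ x⟩ := Subtype.ext (hχe x)
    rw [h2] at h1
    exact h1
  · rintro ⟨l, hl⟩
    have hχm : χ ∈ (fusionSystemOfSubgroup H (A ⊓ H) inf_le_right).Hom (P.map H.subtype) := by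
      refine key.2 ⟨l, fun x => ?_⟩
      obtain ⟨y, rfl⟩ := j.surjective x
      have h1 := hl y
      have h2 : (⟨χ (j y), hχv _⟩ : ↥(A ⊓ H)) = e ⟨φ y, hφ y⟩ := Subtype.ext (hχe y)
      rw [h2]
      exact h1
    obtain ⟨-, -, g, hg, he⟩ := hχm
    refine ⟨hP, hφ, ⟨g, hg⟩, fun x => Subtype.ext ?_⟩
    have h1 := he (j x)
    rw [hχe] at h1
    exact h1

end Cfsg.Agent.Lib.FusConstr
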