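import Mathlib
import Cfsg.Agent.Lib.FusConstr2

set_option autoImplicit false
set_option linter.unusedSectionVars false
set_option linter.unusedVariables false

/-!
The quotient by the centre of a group with constrained fusion system.
-/

namespace Cfsg.Agent.Lib.FusConstr

open Cfsg Cfsg.FusionSystem Cfsg.Agent.Lib.FusBasic Cfsg.Agent.Lib.FusAut Cfsg.Agent.Lib.FusSat Cfsg.Agent.Lib.FusNorm
  Cfsg.Agent.Lib.FusSolv Cfsg.Agent.Lib.H1Core Cfsg.Agent.Lib.FusReal Cfsg.Agent.Lib.FusReal2 Cfsg.Agent.Lib.FusFree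
  Cfsg.Agent.Lib.FusModel2 Cfsg.Agent.Lib.FusNSub Cfsg.Agent.Lib.FusGroup Cfsg.Agent.Lib.SylowTools

universe u

variable {X : Type u} [Group X] [Finite X] {p : ℕ} [Fact p.Prime]

/-- a `p`-element normalizing a Sylow subgroup lies in it -/
theorem mem_sylow_of_normalizer (A : Sylow p X) {y : X} (hy : y ∈ Subgroup.normalizer ((A : Subgroup X) : Set X))
    (hyp : IsPGroup p (Subgroup.zpowers y)) : y ∈ (A : Subgroup X) := by
  have hle : Subgroup.zpowers y ≤ Subgroup.normalizer ((A : Subgroup X) : Set X) := by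
    rw [Subgroup.zpowers_le]
    exact hy
  have h1 : IsPGroup p (Subgroup.zpowers y ⊔ (A : Subgroup X) : Subgroup X) :=
    IsPGroup.to_sup_of_normal_right' hyp A.isPGroup' hle
  have h2 := A.is_maximal' h1 le_sup_right
  have h3 : y ∈ Subgroup.zpowers y ⊔ (A : Subgroup X) := (le_sup_left : Subgroup.zpowers y ≤ _) (Subgroup.mem_zpowers y)
  rw [h2] at h3
  exact h3

theorem constrained_center_quot (A : Sylow p X) (hF : (groupFusionSystem (A : Subgroup X)).IsConstrained p) :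
    (groupFusionSystem ((A : Subgroup X).map (QuotientGroup.mk' (Subgroup.center X)))).IsConstrained p := by
  classical
  have hAp : IsPGroup p (A : Subgroup X) := A.isPGroup'
  obtain ⟨hFsat, Q₀, hQ₀, hC₀⟩ := hF
  obtain ⟨M, _, ι, hLM, -, -⟩ := exists_model_core hAp hFsat hQ₀ (hC₀.2 Q₀ (isConj_refl _ hQ₀.1))
  obtain ⟨hfin, hr, ⟨T₁, hT₁⟩, hC⟩ := id hLM
  have hQ := isNormal_coreOf hr T₁ hT₁
  have hcent := isCentric_coreOf hr T₁ hT₁ hC
  have hQS : coreOf p ι ≤ (A : Subgroup X) := hQ.1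
  have hcQ : centralizerIn (A : Subgroup X) (coreOf p ι) ≤ coreOf p ι := hcent.2 _ (isConj_refl _ hQS)
  have hO := pCore_le_range T₁ hT₁
  haveI : (pCore p M).Normal := H1Core.pCore_normal p M
  have hOp : IsPGroup p (pCore p M) := H1Core.pCore_isPGroup p
  set π := QuotientGroup.mk' (Subgroup.center X) with hπ
  have hπs : Function.Surjective π := QuotientGroup.mk'_surjective _
  have hker : ∀ y, π y = 1 ↔ y ∈ Subgroup.center X := fun y => QuotientGroup.eq_one_iff y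
  have hsat : (groupFusionSystem ((A : Subgroup X).map π)).IsSaturated p :=
    saturated_of_realized (realized_subtype _) (A.mapSurjective hπs) (by
      rw [Sylow.coe_mapSurjective, Subgroup.range_subtype])
  -- elements conjugated into `Ā` lie in `A`
  have hpelt : ∀ y : X, (∃ x ∈ (A : Subgroup X), ∃ g : X, y = g * x * g⁻¹) → IsPGroup p (Subgroup.zpowers y) := by
    rintro y ⟨x, hx, g, rfl⟩
    have h1 : IsPGroup p (((A : Subgroup X).map (MulAut.conj g).toMonoidHom : Subgroup X)) := hAp.map _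
    exact h1.to_le (by
      rw [Subgroup.zpowers_le]
      exact ⟨x, hx, rfl⟩)
  have hlift : ∀ (g x : X), x ∈ (A : Subgroup X) → π (g * x * g⁻¹) ∈ (A : Subgroup X).map π → g * x * g⁻¹ ∈ (A : Subgroup X) := by
    intro g x hx h1
    obtain ⟨a, ha, e⟩ := h1
    have hz : a⁻¹ * (g * x * g⁻¹) ∈ Subgroup.center X := by
      rw [← hker, map_mul, map_inv, ← e]
      group
    have hyn : g * x * g⁻¹ ∈ Subgroup.normalizer ((A : Subgroup X) : Set X) := by
      have e2 : g * x * g⁻¹ = a * (a⁻¹ * (g * x * g⁻¹)) := by group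
      rw [e2]
      refine Subgroup.mul_mem _ (Subgroup.le_normalizer ha) ?_
      rw [Subgroup.mem_normalizer_iff]
      intro t
      have h3 := Subgroup.mem_center_iff.1 hz t
      have h4 : a⁻¹ * (g * x * g⁻¹) * t * (a⁻¹ * (g * x * g⁻¹))⁻¹ = t := by
        rw [← h3]
        group
      rw [h4]
    exact mem_sylow_of_normalizer A hyn (hpelt _ ⟨x, hx, g, rfl⟩)
  -- normality
  have hQbarS : (coreOf p ι).map π ≤ (A : Subgroup X).map π := Subgroup.map_mono hQS
  have hQbar : (groupFusionSystem ((A : Subgroup X).map π)).IsNormal ((coreOf p ι).map π) := by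
    refine ⟨hQbarS, fun Pb φ hφ => ?_⟩
    obtain ⟨hPb, hvb, gb, hgb⟩ := hφ
    obtain ⟨g, rfl⟩ := hπs gb
    let P₁ : Subgroup X := (Pb.comap π) ⊓ (A : Subgroup X)
    have hP₁A : P₁ ≤ (A : Subgroup X) := inf_le_right
    have hP₁c : ∀ x : P₁, (conjHom P₁ g) x ∈ (A : Subgroup X) := by
      intro x
      refine hlift g x (hP₁A x.2) ?_
      have h1 := hvb ⟨π x, x.2.1⟩
      rw [hgb] at h1
      have e : π (g * (x : X) * g⁻¹) = π g * π x * (π g)⁻¹ := by rw [map_mul, map_mul, map_inv]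
      rw [e]
      exact h1
    have hφ₁ : conjHom P₁ g ∈ (groupFusionSystem (A : Subgroup X)).Hom P₁ := ⟨hP₁A, hP₁c, g, fun x => rfl⟩
    obtain ⟨ψ, ⟨hψS, hψv, k, hk⟩, he, hm⟩ := hQ.2 P₁ _ hφ₁
    -- the map on the quotient
    have hPbP₁ : Pb ≤ P₁.map π := by
      intro y hy
      obtain ⟨a, ha, rfl⟩ := hPb hy
      exact ⟨a, ⟨hy, ha⟩, rfl⟩
    have hUle : Pb ⊔ (coreOf p ι).map π ≤ (P₁ ⊔ coreOf p ι).map π :=
      sup_le (hPbP₁.trans (Subgroup.map_mono le_sup_left)) (Subgroup.map_mono le_sup_right)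
    have hUA : Pb ⊔ (coreOf p ι).map π ≤ (A : Subgroup X).map π := sup_le hPb hQbarS
    have hUv : ∀ u : ↥(Pb ⊔ (coreOf p ι).map π), (conjHom (Pb ⊔ (coreOf p ι).map π) (π k)) u ∈ (A : Subgroup X).map π := by
      intro u
      obtain ⟨y, hy, e⟩ := hUle u.2
      refine ⟨k * y * k⁻¹, ?_, ?_⟩
      · have := hψv ⟨y, hy⟩
        rw [hk] at this
        exact this
      · show π (k * y * k⁻¹) = π k * (u : _) * (π k)⁻¹
        rw [map_mul, map_mul, map_inv, e]
    have hψb : conjHom (Pb ⊔ (coreOf p ι).map π) (π k) ∈ (groupFusionSystem ((A : Subgroup X).map π)).Hom (Pb ⊔ (coreOf p ι).map π) :=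
      ⟨hUA, hUv, π k, fun x => rfl⟩
    have hQconj : ∀ q ∈ coreOf p ι, k * q * k⁻¹ ∈ coreOf p ι := by
      intro q hq
      have hqU : q ∈ P₁ ⊔ coreOf p ι := (le_sup_right : coreOf p ι ≤ _) hq
      have h1 : ψ ⟨q, hqU⟩ ∈ coreOf p ι := hm.le ⟨⟨q, hqU⟩, hq, rfl⟩
      rw [hk] at h1
      exact h1
    refine ⟨_, hψb, fun x => ?_, ?_⟩
    · show π k * (x : _) * (π k)⁻¹ = φ x
      rw [hgb x]
      obtain ⟨a, ha, e⟩ := hPb x.2
      have haP : a ∈ P₁ := ⟨by
        show π a ∈ Pb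
        rw [e]
        exact x.2, ha⟩
      have h1 := he ⟨a, haP⟩
      rw [hk] at h1
      have h2 : k * a * k⁻¹ = g * a * g⁻¹ := h1
      have h3 := congrArg π h2
      simp only [map_mul, map_inv] at h3
      rw [e] at h3
      exact h3
    · apply Subgroup.eq_of_le_of_card_ge
      · rintro _ ⟨⟨y, hyU⟩, ⟨q, hq, e⟩, rfl⟩
        refine ⟨k * q * k⁻¹, hQconj q hq, ?_⟩
        show π (k * q * k⁻¹) = π k * y * (π k)⁻¹
        rw [map_mul, map_mul, map_inv]
        congr 2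
      · haveI : Finite ↥((coreOf p ι).map π) := Finite.of_surjective (π.subgroupMap (coreOf p ι)) (MonoidHom.subgroupMap_surjective _ _)
        have hinj := (groupFusionSystem ((A : Subgroup X).map π)).injective_of_mem hψb
        rw [Subgroup.card_map_of_injective hinj]
        exact (Nat.card_congr (Subgroup.subgroupOfEquivOfLe (le_sup_right : (coreOf p ι).map π ≤ Pb ⊔ (coreOf p ι).map π)).toEquiv).ge
  -- the centralizer
  refine ⟨hsat, _, hQbar, hQbarS, fun Q' hQ' => ?_⟩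
  rw [normal_conj_eq hQbar hQ']
  rintro xb ⟨hxb, hxc⟩
  obtain ⟨a, ha, rfl⟩ := hxb
  have hQm : ∀ x : (A : Subgroup X), ι x ∈ pCore p M ↔ (x : X) ∈ coreOf p ι := by
    intro x
    constructor
    · intro h
      exact mem_coreOf.2 ⟨x.2, h⟩
    · intro h
      obtain ⟨h0, h1⟩ := mem_coreOf.1 h
      exact h1
  -- central elements of `X`
  have hZQ : Subgroup.center X ⊓ (A : Subgroup X) ≤ coreOf p ι := by
    intro z hz
    refine hcQ ⟨hz.2, Subgroup.mem_centralizer_iff.2 fun q hq => ?_⟩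
    exact Subgroup.mem_center_iff.1 hz.1 q
  let Rb : Subgroup M := ((Subgroup.center X ⊓ (A : Subgroup X)).subgroupOf (A : Subgroup X)).map ι
  have hRbm : ∀ x : (A : Subgroup X), ι x ∈ Rb ↔ (x : X) ∈ Subgroup.center X ⊓ (A : Subgroup X) := by
    intro x
    constructor
    · rintro ⟨y, hy, e⟩
      rw [← hr.1 e]
      exact hy
    · intro h
      exact ⟨x, h, rfl⟩
  have hRbO : Rb ≤ pCore p M := by
    rintro _ ⟨y, hy, rfl⟩
    exact (hQm y).2 (hZQ hy)
  have hZS : Subgroup.center X ⊓ (A : Subgroup X) ≤ (A : Subgroup X) := inf_le_right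
  have hRbc : ∀ (g : M) (z : ↥(Subgroup.center X ⊓ (A : Subgroup X))), g * ι ⟨z, hZS z.2⟩ * g⁻¹ = ι ⟨z, hZS z.2⟩ := by
    intro g z
    have hv : ∀ x : ↥(Subgroup.center X ⊓ (A : Subgroup X)), g * ι ⟨x, hZS x.2⟩ * g⁻¹ ∈ ι.range := by
      intro x
      exact hO ((inferInstance : (pCore p M).Normal).conj_mem _ ((hQm _).2 (hZQ x.2)) g)
    obtain ⟨ψ, ⟨-, -, k, hk⟩, hψv, hψe⟩ := exists_conj_hom hr g hZS hv
    have h1 := hψe z
    have h2 : ψ z = z := by
      rw [hk]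
      have := Subgroup.mem_center_iff.1 z.2.1 k
      rw [this]
      group
    have h3 : (⟨ψ z, hψv z⟩ : (A : Subgroup X)) = ⟨z, hZS z.2⟩ := Subtype.ext h2
    rw [h3] at h1
    exact h1.symm
  have hRbn : Rb.Normal := by
    refine ⟨?_⟩
    rintro _ ⟨y, hy, rfl⟩ g
    have := hRbc g ⟨y, hy⟩
    have h2 : ι y = ι ⟨((⟨y, hy⟩ : ↥(Subgroup.center X ⊓ (A : Subgroup X))) : X), hZS hy⟩ := rfl
    rw [h2, this]
    exact ⟨y, hy, rfl⟩
  obtain ⟨Ab, hAn, hAp', hAm⟩ := stab_le_core hRbn hRbO inferInstance hOp hC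
  have hAO : Ab ≤ pCore p M := H1Core.le_pCore hAn hAp'
  have hcA : ι ⟨a, ha⟩ ∈ Ab := by
    refine (hAm _).2 ⟨?_, fun q hq => ?_⟩
    · refine Subgroup.mem_centralizer_iff.2 ?_
      rintro _ ⟨r, hr', rfl⟩
      rw [← map_mul, ← map_mul]
      congr 1
      apply Subtype.ext
      exact (Subgroup.mem_center_iff.1 hr'.1 a).symm
    · obtain ⟨s, rfl⟩ := hO hq
      have hsQ : (s : X) ∈ coreOf p ι := (hQm s).1 hq
      rw [← map_inv, ← map_inv, ← map_mul, ← map_mul, ← map_mul]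
      refine (hRbm _).2 ⟨?_, Subtype.property _⟩
      show a * (s : X) * a⁻¹ * (s : X)⁻¹ ∈ Subgroup.center X
      rw [← hker, map_mul, map_mul, map_mul, map_inv, map_inv]
      have h1 := Subgroup.mem_centralizer_iff.1 hxc (π s) ⟨s, hsQ, rfl⟩
      calc π a * π (s : X) * (π a)⁻¹ * (π (s : X))⁻¹ = (π a * π (s : X)) * (π (s : X) * π a)⁻¹ := by group
        _ = (π (s : X) * π a) * (π (s : X) * π a)⁻¹ := by rw [← h1]
        _ = 1 := by group
  exact ⟨a, (hQm _).1 (hAO hcA), rfl⟩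

end Cfsg.Agent.Lib.FusConstr
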