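import Mathlib

set_option autoImplicit false

/-! Subgroups of `GL(2,p)` acting regularly on the non-zero vectors: a checkable certificate. -/

namespace Cfsg.Agent.Lib.GL2Reg

abbrev GL2 (p : ℕ) := Matrix.GeneralLinearGroup (Fin 2) (ZMod p)
abbrev Vec (p : ℕ) := Fin 2 → ZMod p

variable {p : ℕ} [hp : Fact p.Prime]

/-- the action on vectors -/
def act (g : GL2 p) (v : Vec p) : Vec p := Matrix.mulVec (g : Matrix (Fin 2) (Fin 2) (ZMod p)) v

theorem act_mul (g h : GL2 p) (v : Vec p) : act (g * h) v = act g (act h v) := by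
  simp only [act]
  rw [Matrix.mulVec_mulVec]
  rfl

theorem act_one (v : Vec p) : act (1 : GL2 p) v = v := by
  simp [act]

theorem act_inv_act (g : GL2 p) (v : Vec p) : act g⁻¹ (act g v) = v := by
  rw [← act_mul, inv_mul_cancel, act_one]

theorem act_act_inv (g : GL2 p) (v : Vec p) : act g (act g⁻¹ v) = v := by
  rw [← act_mul, mul_inv_cancel, act_one]

theorem act_zero (g : GL2 p) : act g (0 : Vec p) = 0 := by
  simp [act]

theorem act_ne (g : GL2 p) {v : Vec p} (hv : v ≠ 0) : act g v ≠ 0 := by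
  intro e
  apply hv
  rw [← act_inv_act g v, e, act_zero]

/-- the first and second standard basis vectors -/
def e₁ : Vec p := ![1, 0]
def e₂ : Vec p := ![0, 1]

theorem e₁_ne : (e₁ : Vec p) ≠ 0 := by
  intro e
  have h := congrFun e 0
  simp [e₁] at h

theorem ext_basis {M M' : GL2 p} (h1 : act M e₁ = act M' e₁) (h2 : act M e₂ = act M' e₂) : M = M' := by
  apply Units.ext
  ext i j
  fin_cases j
  · have := congrFun h1 i
    simpa [act, e₁, Matrix.mulVec, dotProduct, Fin.sum_univ_two] using this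
  · have := congrFun h2 i
    simpa [act, e₂, Matrix.mulVec, dotProduct, Fin.sum_univ_two] using this

theorem card_nonzero : Nat.card {v : Vec p // v ≠ 0} = p ^ 2 - 1 := by
  classical
  have h1 : Fintype.card {v : Vec p // v ≠ 0} = Fintype.card (Vec p) - 1 := by
    rw [Fintype.card_subtype_compl]
    simp
  have hP : p.Prime := Fact.out
  haveI : NeZero p := ⟨hP.ne_zero⟩
  rw [Nat.card_eq_fintype_card, h1]
  simp [ZMod.card]

/-- The main criterion. -/
theorem main (Sg : Set (GL2 p)) (τ : Vec p → Vec p) (d : Vec p → ℕ)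
    (hone : τ e₁ = e₂) (hstep : ∀ g ∈ Sg, ∀ v : Vec p, v ≠ 0 → τ (act g v) = act g (τ v))
    (hreach : ∀ v : Vec p, v ≠ 0 → v ≠ e₁ → ∃ g ∈ Sg, d (act g v) < d v) :
    Nat.card (Subgroup.closure Sg) = p ^ 2 - 1 ∧
    ∀ v w : Fin 2 → ZMod p, v ≠ 0 → w ≠ 0 → ∃! h : Subgroup.closure Sg, Matrix.mulVec ((h : GL2 p) : Matrix (Fin 2) (Fin 2) (ZMod p)) v = w := by
  classical
  -- the matrices compatible with `τ`
  let X : GL2 p → Prop := fun M => act M e₂ = τ (act M e₁)
  have hXg : ∀ g ∈ Sg, ∀ M, X M → X (g * M) := by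
    intro g hg M hM
    show act (g * M) e₂ = τ (act (g * M) e₁)
    rw [act_mul, act_mul, hM, hstep g hg _ (act_ne M e₁_ne)]
  let K : Subgroup (GL2 p) :=
    { carrier := {x | ∀ M, X M → X (x * M)}
      one_mem' := fun M hM => by rwa [one_mul]
      mul_mem' := by
        intro x y hx hy M hM
        rw [mul_assoc]
        exact hx _ (hy _ hM)
      inv_mem' := by
        intro x hx M hM
        have hpow : ∀ n : ℕ, X (x ^ n * M) := by
          intro n
          induction n with
          | zero => rwa [pow_zero, one_mul]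
          | succ n ih =>
            rw [pow_succ', mul_assoc]
            exact hx _ ih
        have e : x⁻¹ = x ^ (orderOf x - 1) := by
          apply inv_eq_of_mul_eq_one_right
          rw [← pow_succ', Nat.sub_add_cancel (orderOf_pos x), pow_orderOf_eq_one]
        rw [e]
        exact hpow _ }
  have hKle : Subgroup.closure Sg ≤ K := (Subgroup.closure_le K).2 fun g hg => hXg g hg
  have hX1 : X 1 := by
    show act 1 e₂ = τ (act 1 e₁)
    rw [act_one, act_one, hone]
  have hXc : ∀ h ∈ Subgroup.closure Sg, X h := by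
    intro h hh
    have := hKle hh 1 hX1
    rwa [mul_one] at this
  have hinj : ∀ h ∈ Subgroup.closure Sg, ∀ h' ∈ Subgroup.closure Sg, act h e₁ = act h' e₁ → h = h' := by
    intro h hh h' hh' e
    apply ext_basis e
    rw [hXc h hh, hXc h' hh', e]
  -- transitivity
  have htr : ∀ (n : ℕ) (v : Vec p), d v = n → v ≠ 0 → ∃ h ∈ Subgroup.closure Sg, act h e₁ = v := by
    intro n
    induction n using Nat.strong_induction_on with
    | _ n ih =>
      intro v hdv hv
      by_cases hv1 : v = e₁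
      · exact ⟨1, Subgroup.one_mem _, by rw [act_one, hv1]⟩
      · obtain ⟨g, hg, hlt⟩ := hreach v hv hv1
        obtain ⟨h, hh, e⟩ := ih _ (hdv ▸ hlt) (act g v) rfl (act_ne g hv)
        refine ⟨g⁻¹ * h, Subgroup.mul_mem _ (Subgroup.inv_mem _ (Subgroup.subset_closure hg)) hh, ?_⟩
        rw [act_mul, e, act_inv_act]
  have htr' : ∀ v : Vec p, v ≠ 0 → ∃ h ∈ Subgroup.closure Sg, act h e₁ = v := fun v hv => htr _ v rfl hv
  constructor
  · rw [← card_nonzero]
    let f : Subgroup.closure Sg → {v : Vec p // v ≠ 0} := fun h => ⟨act (h : GL2 p) e₁, act_ne _ e₁_ne⟩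
    apply Nat.card_congr (Equiv.ofBijective f ⟨?_, ?_⟩)
    · intro a b e
      exact Subtype.ext (hinj _ a.2 _ b.2 (congrArg Subtype.val e))
    · rintro ⟨v, hv⟩
      obtain ⟨h, hh, e⟩ := htr' v hv
      exact ⟨⟨h, hh⟩, Subtype.ext e⟩
  · intro v w hv hw
    obtain ⟨k, hk, ek⟩ := htr' v hv
    obtain ⟨l, hl, el⟩ := htr' w hw
    refine ⟨⟨l * k⁻¹, Subgroup.mul_mem _ hl (Subgroup.inv_mem _ hk)⟩, ?_, ?_⟩
    · show act (l * k⁻¹) v = w
      rw [act_mul, ← ek, act_inv_act, el]
    · rintro ⟨h', hh'⟩ e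
      have e' : act h' v = w := e
      apply Subtype.ext
      show h' = l * k⁻¹
      have h1 : h' * k = l := by
        apply hinj _ (Subgroup.mul_mem _ hh' hk) _ hl
        rw [act_mul, ek, e', el]
      rw [← h1, mul_inv_cancel_right]

/-! The table-based certificate. -/

/-- a table entry -/
def ent (T B k : ℕ) : ℕ := T / B ^ k % B

/-- the key of a vector -/
def key (v : Vec p) : ℕ := (v 0).val * p + (v 1).val

/-- the table-driven second column -/
def tauT (T : ℕ) (v : Vec p) : Vec p :=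
  ![((ent T (p * p) (key v) / p : ℕ) : ZMod p), ((ent T (p * p) (key v) % p : ℕ) : ZMod p)]

/-- the table-driven depth -/
def dT (D : ℕ) (v : Vec p) : ℕ := ent D 65536 (key v) / 4

/-- a generator given by four numbers -/
structure G4 where
  a : ℕ
  b : ℕ
  c : ℕ
  d : ℕ

/-- the matrix of a generator -/
def G4.mat (p : ℕ) (g : G4) : Matrix (Fin 2) (Fin 2) (ZMod p) :=
  !![(g.a : ZMod p), (g.b : ZMod p); (g.c : ZMod p), (g.d : ZMod p)]

/-- one step of the check of compatibility -/
def step1 (p T : ℕ) (g : G4) (a c : ℕ) : Bool :=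
  let x := ent T (p * p) (a * p + c)
  let b := x / p
  let d := x % p
  let a' := (g.a * a + g.b * c) % p
  let c' := (g.c * a + g.d * c) % p
  let b' := (g.a * b + g.b * d) % p
  let d' := (g.c * b + g.d * d) % p
  (a == 0 && c == 0) || (ent T (p * p) (a' * p + c') == b' * p + d')

/-- selection of a generator -/
def sel (g₀ g₁ g₂ : G4) (i : ℕ) : G4 := if i = 0 then g₀ else if i = 1 then g₁ else g₂

/-- one step of the check of reachability -/
def reach1 (p D : ℕ) (g₀ g₁ g₂ : G4) (a c : ℕ) : Bool :=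
  let x := ent D 65536 (a * p + c)
  let g := sel g₀ g₁ g₂ (x % 4)
  let a' := (g.a * a + g.b * c) % p
  let c' := (g.c * a + g.d * c) % p
  (a == 0 && c == 0) || (a == 1 && c == 0) || decide (ent D 65536 (a' * p + c') / 4 < x / 4)

/-- the whole check -/
def chk (p T D : ℕ) (g₀ g₁ g₂ : G4) : Bool :=
  (ent T (p * p) (1 * p + 0) == 0 * p + 1) &&
  (List.range p).all fun a => (List.range p).all fun c =>
    step1 p T g₀ a c && step1 p T g₁ a c && step1 p T g₂ a c && reach1 p D g₀ g₁ g₂ a c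

theorem val_lt' (x : ZMod p) : x.val < p := ZMod.val_lt x

theorem cast_val' (x : ZMod p) : ((x.val : ℕ) : ZMod p) = x := ZMod.natCast_zmod_val x

theorem act_apply (g : GL2 p) (m : G4) (hg : (g : Matrix (Fin 2) (Fin 2) (ZMod p)) = m.mat p) (v : Vec p) :
    act g v 0 = (((m.a * (v 0).val + m.b * (v 1).val : ℕ)) : ZMod p) ∧ act g v 1 = (((m.c * (v 0).val + m.d * (v 1).val : ℕ)) : ZMod p) := by
  constructor
  · simp [act, hg, G4.mat, Matrix.mulVec, dotProduct, Fin.sum_univ_two]
  · simp [act, hg, G4.mat, Matrix.mulVec, dotProduct, Fin.sum_univ_two]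

theorem key_act (g : GL2 p) (m : G4) (hg : (g : Matrix (Fin 2) (Fin 2) (ZMod p)) = m.mat p) (v : Vec p) :
    key (act g v) = ((m.a * (v 0).val + m.b * (v 1).val) % p) * p + ((m.c * (v 0).val + m.d * (v 1).val) % p) := by
  obtain ⟨h0, h1⟩ := act_apply g m hg v
  rw [key, h0, h1, ZMod.val_natCast, ZMod.val_natCast]

theorem vec_ext {v w : Vec p} (h0 : v 0 = w 0) (h1 : v 1 = w 1) : v = w := by
  ext i
  fin_cases i
  · exact h0
  · exact h1

theorem vec_zero {v : Vec p} (h0 : (v 0).val = 0) (h1 : (v 1).val = 0) : v = 0 := by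
  apply vec_ext
  · exact (ZMod.val_eq_zero _).1 h0
  · exact (ZMod.val_eq_zero _).1 h1

theorem tau_step (T : ℕ) (g : GL2 p) (m : G4) (hg : (g : Matrix (Fin 2) (Fin 2) (ZMod p)) = m.mat p) (v : Vec p) (hv : v ≠ 0)
    (hchk : step1 p T m (v 0).val (v 1).val = true) : tauT T (act g v) = act g (tauT T v) := by
  have hP : p.Prime := Fact.out
  simp only [step1, Bool.or_eq_true, Bool.and_eq_true, beq_iff_eq] at hchk
  rcases hchk with ⟨h0, h1⟩ | hchk
  · exact absurd (vec_zero h0 h1) hv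
  · set x := ent T (p * p) ((v 0).val * p + (v 1).val) with hx
    set b := x / p with hb
    set d := x % p with hd
    set b' := (m.a * b + m.b * d) % p with hb'
    set d' := (m.c * b + m.d * d) % p with hd'
    have hd'lt : d' < p := Nat.mod_lt _ hP.pos
    have hkey := key_act g m hg v
    have hent : ent T (p * p) (key (act g v)) = b' * p + d' := by
      rw [hkey]
      exact hchk
    have e1 : (b' * p + d') / p = b' := by
      rw [mul_comm, Nat.mul_add_div hP.pos, Nat.div_eq_of_lt hd'lt, add_zero]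
    have e2 : (b' * p + d') % p = d' := by
      rw [mul_comm, Nat.mul_add_mod, Nat.mod_eq_of_lt hd'lt]
    have hτv : tauT T v = ![(b : ZMod p), (d : ZMod p)] := rfl
    have hb_val : (tauT T v) 0 = (b : ZMod p) := rfl
    have hd_val : (tauT T v) 1 = (d : ZMod p) := rfl
    apply vec_ext
    · show ((ent T (p * p) (key (act g v)) / p : ℕ) : ZMod p) = act g (tauT T v) 0
      rw [hent, e1, hb', ZMod.natCast_mod]
      simp [act, hg, G4.mat, Matrix.mulVec, dotProduct, Fin.sum_univ_two, hb_val, hd_val]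
    · show ((ent T (p * p) (key (act g v)) % p : ℕ) : ZMod p) = act g (tauT T v) 1
      rw [hent, e2, hd', ZMod.natCast_mod]
      simp [act, hg, G4.mat, Matrix.mulVec, dotProduct, Fin.sum_univ_two, hb_val, hd_val]

/-- the final criterion -/
theorem final (T D : ℕ) (g₀ g₁ g₂ : G4) (hc : chk p T D g₀ g₁ g₂ = true) (Sg : Set (GL2 p)) (A B C : GL2 p) (hAS : A ∈ Sg) (hBS : B ∈ Sg) (hCS : C ∈ Sg)
    (hall : ∀ g ∈ Sg, g = A ∨ g = B ∨ g = C)
    (hA : (A : Matrix (Fin 2) (Fin 2) (ZMod p)) = g₀.mat p) (hB : (B : Matrix (Fin 2) (Fin 2) (ZMod p)) = g₁.mat p) (hC : (C : Matrix (Fin 2) (Fin 2) (ZMod p)) = g₂.mat p) :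
    Nat.card (Subgroup.closure Sg) = p ^ 2 - 1 ∧
    ∀ v w : Fin 2 → ZMod p, v ≠ 0 → w ≠ 0 → ∃! h : Subgroup.closure Sg, Matrix.mulVec ((h : GL2 p) : Matrix (Fin 2) (Fin 2) (ZMod p)) v = w := by
  have hP : p.Prime := Fact.out
  haveI : Fact (1 < p) := ⟨hP.one_lt⟩
  simp only [chk, Bool.and_eq_true, beq_iff_eq, List.all_eq_true, List.mem_range] at hc
  obtain ⟨hc1, hc2⟩ := hc
  have hcv : ∀ v : Vec p, _ := fun v => hc2 (v 0).val (ZMod.val_lt _) (v 1).val (ZMod.val_lt _)
  apply main Sg (tauT T) (dT D)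
  · -- the identity
    have h1 : key (e₁ : Vec p) = 1 * p + 0 := by
      simp [key, e₁, ZMod.val_one]
    apply vec_ext
    · show ((ent T (p * p) (key (e₁ : Vec p)) / p : ℕ) : ZMod p) = _
      rw [h1, hc1]
      simp only [zero_mul, zero_add, e₂]
      rw [Nat.div_eq_of_lt hP.one_lt]
      simp
    · show ((ent T (p * p) (key (e₁ : Vec p)) % p : ℕ) : ZMod p) = _
      rw [h1, hc1]
      simp only [zero_mul, zero_add, e₂]
      rw [Nat.mod_eq_of_lt hP.one_lt]
      simp
  · intro g hg v hv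
    obtain ⟨⟨⟨h1, h2⟩, h3⟩, -⟩ := hcv v
    rcases hall g hg with rfl | rfl | rfl
    · exact tau_step T _ g₀ hA v hv h1
    · exact tau_step T _ g₁ hB v hv h2
    · exact tau_step T _ g₂ hC v hv h3
  · intro v hv hv1
    obtain ⟨-, h4⟩ := hcv v
    simp only [reach1, Bool.or_eq_true, Bool.and_eq_true, beq_iff_eq, decide_eq_true_eq] at h4
    rcases h4 with (⟨h0, h1⟩ | ⟨h0, h1⟩) | h4
    · exact absurd (vec_zero h0 h1) hv
    · exfalso
      apply hv1
      apply vec_ext
      · have : v 0 = ((v 0).val : ZMod p) := (cast_val' _).symm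
        rw [this, h0]
        simp [e₁]
      · exact (ZMod.val_eq_zero _).1 h1
    · set x := ent D 65536 ((v 0).val * p + (v 1).val) with hx
      have hsel : ∃ (g : GL2 p) (m : G4), g ∈ Sg ∧ (g : Matrix (Fin 2) (Fin 2) (ZMod p)) = m.mat p ∧ m = sel g₀ g₁ g₂ (x % 4) := by
        by_cases h0 : x % 4 = 0
        · exact ⟨A, g₀, hAS, hA, by simp [sel, h0]⟩
        · by_cases h1 : x % 4 = 1
          · exact ⟨B, g₁, hBS, hB, by simp [sel, h1]⟩
          · exact ⟨C, g₂, hCS, hC, by simp [sel, h0, h1]⟩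
      obtain ⟨g, m, hgS, hgm, hm⟩ := hsel
      refine ⟨g, hgS, ?_⟩
      show ent D 65536 (key (act g v)) / 4 < ent D 65536 (key v) / 4
      rw [key_act g m hgm v, hm]
      exact h4

end Cfsg.Agent.Lib.GL2Reg
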