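import Mathlib
import Cfsg.Prelude.Def_ClassicalGeometry

set_option autoImplicit false

namespace Cfsg.Agent.Lib.GLBlock

open Matrix

variable {F : Type*} [Field F] {n k m : ℕ}

/-- Splitting the index. -/
def ee (h : k + m = n) : Fin k ⊕ Fin m ≃ Fin n := finSumFinEquiv.trans (finCongr h)

theorem ee_inl (h : k + m = n) (i : Fin k) : ((ee h (Sum.inl i) : Fin n) : ℕ) = i := by
  simp [ee]

theorem ee_inr (h : k + m = n) (i : Fin m) : ((ee h (Sum.inr i) : Fin n) : ℕ) = k + i := by
  simp [ee]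

/-- The coordinate subspace. -/
def SS (n k : ℕ) (F : Type*) [Field F] : Set (Fin n → F) := {v | ∀ i : Fin n, k ≤ (i : ℕ) → v i = 0}

theorem mem_SS_iff (h : k + m = n) (v : Fin n → F) : v ∈ SS n k F ↔ ∀ j : Fin m, v (ee h (Sum.inr j)) = 0 := by
  constructor
  · intro hv j
    apply hv
    rw [ee_inr]
    omega
  · intro hv i hi
    obtain ⟨x, rfl⟩ := (ee h).surjective i
    rcases x with x | x
    · rw [ee_inl] at hi
      omega
    · exact hv x

/-- The block form. -/
def blk (h : k + m = n) (g : Matrix (Fin n) (Fin n) F) : Matrix (Fin k ⊕ Fin m) (Fin k ⊕ Fin m) F := g.submatrix (ee h) (ee h)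

theorem det_blk (h : k + m = n) (g : Matrix (Fin n) (Fin n) F) : (blk h g).det = g.det := Matrix.det_submatrix_equiv_self _ _

theorem mulVec_ee (h : k + m = n) (g : Matrix (Fin n) (Fin n) F) (v : Fin n → F) (j : Fin m) :
    (g *ᵥ v) (ee h (Sum.inr j)) = ∑ x, blk h g (Sum.inr j) x * v (ee h x) := by
  simp only [Matrix.mulVec, dotProduct, blk, Matrix.submatrix_apply]
  exact ((ee h).sum_comp (fun y => g (ee h (Sum.inr j)) y * v y)).symm

/-- Membership in the stabiliser in terms of the lower left block. -/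
theorem blk_zero_of_mem (h : k + m = n) (g : GL (Fin n) F)
    (hg : g ∈ Cfsg.stabilizing (Cfsg.glToMat (Fin n) F) (SS n k F)) (i : Fin m) (j : Fin k) :
    blk h (g : Matrix (Fin n) (Fin n) F) (Sum.inr i) (Sum.inl j) = 0 := by
  classical
  have h1 : (Pi.single (ee h (Sum.inl j)) 1 : Fin n → F) ∈ SS n k F := by
    rw [mem_SS_iff h]
    intro x
    apply Pi.single_eq_of_ne
    intro he
    have := (ee h).injective he
    cases this
  have h2 := ((hg _).1 h1)
  rw [mem_SS_iff h] at h2
  have h3 := h2 i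
  have h4 : ((Cfsg.glToMat (Fin n) F) g) = (g : Matrix (Fin n) (Fin n) F) := rfl
  rw [h4, Matrix.mulVec_single_one] at h3
  exact h3

/-- The lower right block of a stabiliser element is invertible. -/
theorem det_eq (h : k + m = n) (M : Matrix (Fin k ⊕ Fin m) (Fin k ⊕ Fin m) F)
    (h0 : M.toBlocks₂₁ = 0) : M.det = M.toBlocks₁₁.det * M.toBlocks₂₂.det := by
  conv_lhs => rw [← Matrix.fromBlocks_toBlocks M, h0]
  exact Matrix.det_fromBlocks_zero₂₁ _ _ _

/-- The element of `GL_n` from blocks. -/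
noncomputable def ofBlocks (h : k + m = n) (A : GL (Fin k) F) (D : GL (Fin m) F) (B : Matrix (Fin k) (Fin m) F) : GL (Fin n) F :=
  GeneralLinearGroup.mkOfDetNeZero ((fromBlocks (A : Matrix (Fin k) (Fin k) F) B 0 (D : Matrix (Fin m) (Fin m) F)).submatrix (ee h).symm (ee h).symm) (by
    rw [Matrix.det_submatrix_equiv_self, Matrix.det_fromBlocks_zero₂₁]
    exact mul_ne_zero ((Matrix.isUnit_iff_isUnit_det _).1 A.isUnit).ne_zero ((Matrix.isUnit_iff_isUnit_det _).1 D.isUnit).ne_zero)

theorem ofBlocks_val (h : k + m = n) (A : GL (Fin k) F) (D : GL (Fin m) F) (B : Matrix (Fin k) (Fin m) F) :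
    ((ofBlocks h A D B : GL (Fin n) F) : Matrix (Fin n) (Fin n) F) =
      (fromBlocks (A : Matrix (Fin k) (Fin k) F) B 0 (D : Matrix (Fin m) (Fin m) F)).submatrix (ee h).symm (ee h).symm := rfl

theorem blk_ofBlocks (h : k + m = n) (A : GL (Fin k) F) (D : GL (Fin m) F) (B : Matrix (Fin k) (Fin m) F) :
    blk h ((ofBlocks h A D B : GL (Fin n) F) : Matrix (Fin n) (Fin n) F) = fromBlocks (A : Matrix (Fin k) (Fin k) F) B 0 (D : Matrix (Fin m) (Fin m) F) := by
  rw [ofBlocks_val]
  ext x y
  simp [blk]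

theorem ofBlocks_mem (h : k + m = n) (A : GL (Fin k) F) (D : GL (Fin m) F) (B : Matrix (Fin k) (Fin m) F) :
    ofBlocks h A D B ∈ Cfsg.stabilizing (Cfsg.glToMat (Fin n) F) (SS n k F) := by
  intro v
  have h4 : ((Cfsg.glToMat (Fin n) F) (ofBlocks h A D B)) = ((ofBlocks h A D B : GL (Fin n) F) : Matrix (Fin n) (Fin n) F) := rfl
  rw [h4, mem_SS_iff h, mem_SS_iff h]
  have key : ∀ j, (((ofBlocks h A D B : GL (Fin n) F) : Matrix (Fin n) (Fin n) F) *ᵥ v) (ee h (Sum.inr j)) =
      ((D : Matrix (Fin m) (Fin m) F) *ᵥ (fun i => v (ee h (Sum.inr i)))) j := by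
    intro j
    rw [mulVec_ee, blk_ofBlocks, Fintype.sum_sum_type]
    simp [Matrix.mulVec, dotProduct]
  simp only [key]
  constructor
  · intro hv j
    have : (fun i => v (ee h (Sum.inr i))) = 0 := funext hv
    rw [this, Matrix.mulVec_zero]
    rfl
  · intro hv j
    have h5 : (D : Matrix (Fin m) (Fin m) F) *ᵥ (fun i => v (ee h (Sum.inr i))) = 0 := funext hv
    have h6 := congrArg (fun w => ((D⁻¹ : GL (Fin m) F) : Matrix (Fin m) (Fin m) F) *ᵥ w) h5
    simp only [Matrix.mulVec_mulVec, Matrix.mulVec_zero] at h6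
    rw [← Units.val_mul, inv_mul_cancel] at h6
    have h7 := congrFun h6 j
    simpa using h7

/-- The stabiliser as a product of sets. -/
noncomputable def stabEquiv (h : k + m = n) :
    ↥(Cfsg.stabilizing (Cfsg.glToMat (Fin n) F) (SS n k F)) ≃ GL (Fin k) F × GL (Fin m) F × Matrix (Fin k) (Fin m) F where
  toFun g :=
    have h0 : (blk h (g.1 : Matrix (Fin n) (Fin n) F)).toBlocks₂₁ = 0 := by
      ext i j
      exact blk_zero_of_mem h g.1 g.2 i j
    have hd := det_eq h _ h0
    have hne : (blk h (g.1 : Matrix (Fin n) (Fin n) F)).toBlocks₁₁.det * (blk h (g.1 : Matrix (Fin n) (Fin n) F)).toBlocks₂₂.det ≠ 0 := by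
      rw [← hd, det_blk]
      exact ((Matrix.isUnit_iff_isUnit_det _).1 g.1.isUnit).ne_zero
    (GeneralLinearGroup.mkOfDetNeZero _ (left_ne_zero_of_mul hne),
      GeneralLinearGroup.mkOfDetNeZero _ (right_ne_zero_of_mul hne),
      (blk h (g.1 : Matrix (Fin n) (Fin n) F)).toBlocks₁₂)
  invFun x := ⟨ofBlocks h x.1 x.2.1 x.2.2, ofBlocks_mem h _ _ _⟩
  left_inv g := by
    apply Subtype.ext
    apply Units.ext
    rw [ofBlocks_val]
    have h0 : (blk h (g.1 : Matrix (Fin n) (Fin n) F)).toBlocks₂₁ = 0 := by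
      ext i j
      exact blk_zero_of_mem h g.1 g.2 i j
    ext i j
    obtain ⟨x, rfl⟩ := (ee h).surjective i
    obtain ⟨y, rfl⟩ := (ee h).surjective j
    simp only [Matrix.submatrix_apply, Equiv.symm_apply_apply]
    rcases x with x | x <;> rcases y with y | y
    · rfl
    · rfl
    · exact (congrFun (congrFun h0 x) y).symm
    · rfl
  right_inv x := by
    obtain ⟨A, D, B⟩ := x
    ext i j
    · show (blk h ((ofBlocks h A D B : GL (Fin n) F) : Matrix (Fin n) (Fin n) F)).toBlocks₁₁ i j = _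
      rw [blk_ofBlocks]
      rfl
    · show (blk h ((ofBlocks h A D B : GL (Fin n) F) : Matrix (Fin n) (Fin n) F)).toBlocks₂₂ i j = _
      rw [blk_ofBlocks]
      rfl
    · show (blk h ((ofBlocks h A D B : GL (Fin n) F) : Matrix (Fin n) (Fin n) F)).toBlocks₁₂ i j = _
      rw [blk_ofBlocks]
      rfl

theorem mem_stab_iff (h : k + m = n) (g : GL (Fin n) F) :
    g ∈ Cfsg.stabilizing (Cfsg.glToMat (Fin n) F) (SS n k F) ↔
      ∀ i j : Fin n, k ≤ (i : ℕ) → (j : ℕ) < k → (g : Matrix (Fin n) (Fin n) F) i j = 0 := by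
  constructor
  · intro hg i j hi hj
    obtain ⟨x, rfl⟩ := (ee h).surjective i
    obtain ⟨y, rfl⟩ := (ee h).surjective j
    rcases x with x | x
    · rw [ee_inl] at hi
      omega
    rcases y with y | y
    · exact blk_zero_of_mem h g hg x y
    · rw [ee_inr] at hj
      omega
  · intro h0
    have h1 : (blk h (g : Matrix (Fin n) (Fin n) F)).toBlocks₂₁ = 0 := by
      ext i j
      apply h0
      · rw [ee_inr]
        omega
      · rw [ee_inl]
        exact j.2
    have hd := det_eq h _ h1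
    have hne : (blk h (g : Matrix (Fin n) (Fin n) F)).toBlocks₁₁.det * (blk h (g : Matrix (Fin n) (Fin n) F)).toBlocks₂₂.det ≠ 0 := by
      rw [← hd, det_blk]
      exact ((Matrix.isUnit_iff_isUnit_det _).1 g.isUnit).ne_zero
    have e : g = ofBlocks h (GeneralLinearGroup.mkOfDetNeZero _ (left_ne_zero_of_mul hne))
        (GeneralLinearGroup.mkOfDetNeZero _ (right_ne_zero_of_mul hne)) (blk h (g : Matrix (Fin n) (Fin n) F)).toBlocks₁₂ := by
      apply Units.ext
      rw [ofBlocks_val]
      ext i j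
      obtain ⟨x, rfl⟩ := (ee h).surjective i
      obtain ⟨y, rfl⟩ := (ee h).surjective j
      simp only [Matrix.submatrix_apply, Equiv.symm_apply_apply]
      rcases x with x | x <;> rcases y with y | y
      · rfl
      · rfl
      · exact congrFun (congrFun h1 x) y
      · rfl
    rw [e]
    exact ofBlocks_mem h _ _ _

/-- The inverse transpose followed by the reversal. -/
def revT (n : ℕ) (F : Type*) [Field F] : GL (Fin n) F ≃* GL (Fin n) F where
  toFun g := ⟨(((g⁻¹ : GL (Fin n) F) : Matrix (Fin n) (Fin n) F)ᵀ).submatrix Fin.revPerm Fin.revPerm,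
    ((g : Matrix (Fin n) (Fin n) F)ᵀ).submatrix Fin.revPerm Fin.revPerm, by
      rw [Matrix.submatrix_mul_equiv, ← Matrix.transpose_mul, ← Units.val_mul, mul_inv_cancel]
      simp, by
      rw [Matrix.submatrix_mul_equiv, ← Matrix.transpose_mul, ← Units.val_mul, inv_mul_cancel]
      simp⟩
  invFun g := ⟨(((g⁻¹ : GL (Fin n) F) : Matrix (Fin n) (Fin n) F)ᵀ).submatrix Fin.revPerm Fin.revPerm,
    ((g : Matrix (Fin n) (Fin n) F)ᵀ).submatrix Fin.revPerm Fin.revPerm, by
      rw [Matrix.submatrix_mul_equiv, ← Matrix.transpose_mul, ← Units.val_mul, mul_inv_cancel]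
      simp, by
      rw [Matrix.submatrix_mul_equiv, ← Matrix.transpose_mul, ← Units.val_mul, inv_mul_cancel]
      simp⟩
  left_inv g := by
    apply Units.ext
    ext i j
    simp [Fin.revPerm]
  right_inv g := by
    apply Units.ext
    ext i j
    simp [Fin.revPerm]
  map_mul' g g' := by
    apply Units.ext
    show (((g * g')⁻¹ : GL (Fin n) F).1ᵀ).submatrix Fin.revPerm Fin.revPerm = ((g⁻¹ : GL (Fin n) F).1ᵀ).submatrix Fin.revPerm Fin.revPerm * ((g'⁻¹ : GL (Fin n) F).1ᵀ).submatrix Fin.revPerm Fin.revPerm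
    rw [Matrix.submatrix_mul_equiv, ← Matrix.transpose_mul, ← Units.val_mul, _root_.mul_inv_rev]

theorem revT_apply (g : GL (Fin n) F) (i j : Fin n) :
    ((revT n F g : GL (Fin n) F) : Matrix (Fin n) (Fin n) F) i j = ((g⁻¹ : GL (Fin n) F) : Matrix (Fin n) (Fin n) F) (Fin.rev j) (Fin.rev i) := rfl

theorem revT_revT (g : GL (Fin n) F) : revT n F (revT n F g) = g := (revT n F).left_inv g

theorem revT_mem (hk : k ≤ n) {g : GL (Fin n) F}
    (hg : g ∈ Cfsg.stabilizing (Cfsg.glToMat (Fin n) F) (SS n k F)) :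
    revT n F g ∈ Cfsg.stabilizing (Cfsg.glToMat (Fin n) F) (SS n (n - k) F) := by
  have h1 : k + (n - k) = n := by omega
  have h2 : (n - k) + k = n := by omega
  rw [mem_stab_iff h2]
  intro i j hi hj
  rw [revT_apply]
  have h3 := (Subgroup.inv_mem _ hg)
  rw [mem_stab_iff h1] at h3
  apply h3
  · rw [Fin.val_rev]
    omega
  · rw [Fin.val_rev]
    have := i.2
    omega

/-- Part one of the statement. -/
noncomputable def stabMulEquiv (hk : k ≤ n) : ↥(Cfsg.stabilizing (Cfsg.glToMat (Fin n) F) (SS n k F)) ≃*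
    ↥(Cfsg.stabilizing (Cfsg.glToMat (Fin n) F) (SS n (n - k) F)) where
  toFun g := ⟨revT n F g.1, revT_mem hk g.2⟩
  invFun g := ⟨revT n F g.1, by
    have := revT_mem (k := n - k) (Nat.sub_le n k) g.2
    rwa [Nat.sub_sub_self hk] at this⟩
  left_inv g := Subtype.ext (revT_revT g.1)
  right_inv g := Subtype.ext (revT_revT g.1)
  map_mul' g g' := Subtype.ext (map_mul (revT n F) g.1 g'.1)

/-- The coordinate subspace as a submodule. -/
def WW (n k : ℕ) (F : Type*) [Field F] : Submodule F (Fin n → F) where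
  carrier := SS n k F
  add_mem' {a b} ha hb i hi := by
    rw [Pi.add_apply, ha i hi, hb i hi, add_zero]
  zero_mem' i _ := rfl
  smul_mem' c a ha i hi := by
    rw [Pi.smul_apply, ha i hi, smul_zero]

theorem finrank_WW (h : k + m = n) : Module.finrank F (WW n k F) = k := by
  classical
  let L : (Fin n → F) →ₗ[F] (Fin m → F) := LinearMap.funLeft F F (fun j => ee h (Sum.inr j))
  have hinj : Function.Injective (fun j : Fin m => ee h (Sum.inr j)) := by
    intro a b hab
    have := (ee h).injective hab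
    exact Sum.inr_injective this
  have hL : Function.Surjective L := LinearMap.funLeft_surjective_of_injective F F _ hinj
  have hker : LinearMap.ker L = WW n k F := by
    ext v
    rw [LinearMap.mem_ker]
    show _ ↔ v ∈ SS n k F
    rw [mem_SS_iff h]
    constructor
    · intro h1 j
      exact congrFun h1 j
    · intro h1
      funext j
      exact h1 j
  have hr := LinearMap.finrank_range_add_finrank_ker L
  rw [LinearMap.range_eq_top.2 hL, finrank_top, hker] at hr
  simp only [Module.finrank_fintype_fun_eq_card, Fintype.card_fin] at hr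
  omega

end Cfsg.Agent.Lib.GLBlock
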