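import Cfsg.Agent.Lib.GolayM12
/-!
Counting octads and dodecads, transport along the group.
-/
set_option autoImplicit false
set_option linter.unusedSimpArgs false
set_option linter.unusedVariables false
set_option linter.style.haveILetI false
set_option maxRecDepth 100000
open Cfsg
open scoped Pointwise

namespace Cfsg.Agent.Lib.GolayCount
open Cfsg.Agent.Lib
open Cfsg.Agent.Lib.GolayBasic Cfsg.Agent.Lib.GolayCode Cfsg.Agent.Lib.GolayPerm Cfsg.Agent.Lib.GolayOrder
open Cfsg.Agent.Lib.GolayFacts Cfsg.Agent.Lib.GolayTools Cfsg.Agent.Lib.GolayChain Cfsg.Agent.Lib.GolayM12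

/-- number of `i < n` with `f i` -/
def countBelow (f : ℕ → Bool) : ℕ → ℕ
  | 0 => 0
  | n + 1 => Nat.add (countBelow f n) (cond (f n) 1 0)

theorem countBelow_eq (f : ℕ → Bool) (n : ℕ) : countBelow f n = ((Finset.range n).filter (fun i => f i = true)).card := by
  induction n with
  | zero => simp [countBelow]
  | succ n ih =>
    rw [Finset.range_add_one, Finset.filter_insert]
    show countBelow f n + _ = _
    cases h : f n with
    | true =>
      simp only [cond_true, if_true]
      rw [Finset.card_insert_of_notMem (by simp), ih]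
    | false =>
      simp only [cond_false, Bool.false_eq_true, if_false]
      rw [ih, add_zero]

/-- counting members of an enumerated family -/
theorem ncard_sep_enum {α : Type*} {F : Set α} (e : ℕ → α) {n : ℕ}
    (hF : ∀ x, x ∈ F ↔ ∃ i, i < n ∧ x = e i) (hinj : ∀ i < n, ∀ j < n, e i = e j → i = j)
    (Q : α → Prop) (f : ℕ → Bool) (hf : ∀ i < n, Q (e i) ↔ f i = true) :
    {x | x ∈ F ∧ Q x}.ncard = countBelow f n := by
  classical
  have : {x | x ∈ F ∧ Q x} = (e '' (((Finset.range n).filter (fun i => f i = true) : Finset ℕ) : Set ℕ)) := by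
    ext x
    simp only [Set.mem_image, Finset.coe_filter, Finset.mem_range, Set.mem_ofPred_eq]
    constructor
    · rintro ⟨h1, h2⟩
      obtain ⟨i, hi, rfl⟩ := (hF x).1 h1
      exact ⟨i, ⟨hi, (hf i hi).1 h2⟩, rfl⟩
    · rintro ⟨i, ⟨hi, h2⟩, rfl⟩
      exact ⟨(hF _).2 ⟨i, hi, rfl⟩, (hf i hi).2 h2⟩
  rw [this, Set.InjOn.ncard_image, Set.ncard_coe_finset, countBelow_eq]
  intro i hi j hj he
  simp only [Finset.coe_filter, Finset.mem_range, Set.mem_ofPred_eq] at hi hj
  exact hinj i hi.1 j hj.1 he

theorem ncard_octads_sep (Q : Finset GolayPt → Prop) (f : ℕ → Bool)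
    (hf : ∀ i < 759, Q (GolayBasic.setOf (octAt i)) ↔ f i = true) :
    {o | o ∈ octads ∧ Q o}.ncard = countBelow f 759 :=
  ncard_sep_enum (fun i => GolayBasic.setOf (octAt i)) (fun x => mem_octads_iff)
    (fun i hi j hj h => setOf_octAt_inj hi hj h) Q f hf

theorem ncard_dodecads_sep (Q : Finset GolayPt → Prop) (f : ℕ → Bool)
    (hf : ∀ i < 2576, Q (GolayBasic.setOf (dodAt i)) ↔ f i = true) :
    {o | o ∈ dodecads ∧ Q o}.ncard = countBelow f 2576 :=
  ncard_sep_enum (fun i => GolayBasic.setOf (dodAt i)) (fun x => mem_dodecads_iff)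
    (fun i hi j hj h => setOf_dodAt_inj hi hj h) Q f hf

/-- transport of separated sets along an element -/
theorem ncard_sep_smul {α : Type*} {F : Set α} {G : Type*} [Group G] [MulAction G α] (w : G)
    (hF : ∀ x ∈ F, w • x ∈ F) (hF' : ∀ x ∈ F, w⁻¹ • x ∈ F) (Q Q' : α → Prop) (h : ∀ x, Q' (w • x) ↔ Q x) :
    {x | x ∈ F ∧ Q' x}.ncard = {x | x ∈ F ∧ Q x}.ncard := by
  have : {x | x ∈ F ∧ Q' x} = (fun x => w • x) '' {x | x ∈ F ∧ Q x} := by
    ext y
    simp only [Set.mem_image, Set.mem_ofPred_eq]
    constructor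
    · rintro ⟨h1, h2⟩
      refine ⟨w⁻¹ • y, ⟨hF' y h1, ?_⟩, by simp⟩
      rw [← h]
      simpa using h2
    · rintro ⟨x, ⟨h1, h2⟩, rfl⟩
      exact ⟨hF x h1, (h x).2 h2⟩
  rw [this, Set.ncard_image_of_injective _ (MulAction.injective w)]

/-- `smul` and intersections -/
theorem card_smul_inter (w : Equiv.Perm GolayPt) (a c : Finset GolayPt) :
    ((w • a) ∩ (w • c)).card = (a ∩ c).card := by
  rw [← Finset.smul_finset_inter, Finset.card_smul_finset]

theorem card_setOf_inter (a c : ℕ) : (GolayBasic.setOf a ∩ GolayBasic.setOf c).card = pc (a &&& c) := by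
  rw [← setOf_land, card_setOf]

theorem octads_smul {w : Equiv.Perm GolayPt} (hw : w ∈ M24) :
    ∀ x ∈ octads, w • x ∈ octads := fun _ hx => M24_smul_octad hw hx

theorem octads_smul' {w : Equiv.Perm GolayPt} (hw : w ∈ M24) :
    ∀ x ∈ octads, w⁻¹ • x ∈ octads := fun _ hx => M24_smul_octad (M24.inv_mem hw) hx

theorem dodecads_smul {w : Equiv.Perm GolayPt} (hw : w ∈ M24) :
    ∀ x ∈ dodecads, w • x ∈ dodecads := fun _ hx => M24_smul_dodecad hw hx

theorem dodecads_smul' {w : Equiv.Perm GolayPt} (hw : w ∈ M24) :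
    ∀ x ∈ dodecads, w⁻¹ • x ∈ dodecads := fun _ hx => M24_smul_dodecad (M24.inv_mem hw) hx

/-- octads and a dodecad -/
theorem octad_dodecad_inter {o d : Finset GolayPt} (ho : o ∈ octads) (hd : d ∈ dodecads) :
    (o ∩ d).card = 2 ∨ (o ∩ d).card = 4 ∨ (o ∩ d).card = 6 := by
  obtain ⟨i, hi, rfl⟩ := mem_octads_iff.1 ho
  obtain ⟨j, hj, rfl⟩ := mem_dodecads_iff.1 hd
  rw [card_setOf_inter]
  have h := pc_xor_add (octAt i) (dodAt j)
  rw [octAt_pc hi, dodAt_pc hj] at h
  have hw := weights ((octAt_inCode hi).xor (dodAt_inCode hj))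
  have hle : pc (octAt i &&& dodAt j) ≤ 8 := by
    rw [← octAt_pc hi, ← card_setOf, ← card_setOf, setOf_land]
    exact Finset.card_le_card Finset.inter_subset_left
  omega

theorem dodecad_dodecad_inter {d d' : Finset GolayPt} (hd : d ∈ dodecads) (hd' : d' ∈ dodecads) (hne : d' ≠ d) :
    (d ∩ d').card = 0 ∨ (d ∩ d').card = 4 ∨ (d ∩ d').card = 6 ∨ (d ∩ d').card = 8 := by
  obtain ⟨i, hi, rfl⟩ := mem_dodecads_iff.1 hd
  obtain ⟨j, hj, rfl⟩ := mem_dodecads_iff.1 hd'
  rw [card_setOf_inter]
  have h := pc_xor_add (dodAt i) (dodAt j)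
  rw [dodAt_pc hi, dodAt_pc hj] at h
  have hw := weights ((dodAt_inCode hi).xor (dodAt_inCode hj))
  have hne' : pc (dodAt i ^^^ dodAt j) ≠ 0 := by
    intro h0
    apply hne
    have h1 : (GolayBasic.setOf (dodAt i ^^^ dodAt j)) = ∅ := by
      rw [← Finset.card_eq_zero, card_setOf, h0]
    rw [setOf_xor, Finset.symmDiff_eq_empty] at h1
    exact h1.symm
  omega

theorem octad_octad_inter {o o' : Finset GolayPt} (ho : o ∈ octads) (ho' : o' ∈ octads) :
    (o ∩ o').card = 0 ∨ (o ∩ o').card = 2 ∨ (o ∩ o').card = 4 ∨ (o ∩ o').card = 8 := by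
  obtain ⟨i, hi, rfl⟩ := mem_octads_iff.1 ho
  obtain ⟨j, hj, rfl⟩ := mem_octads_iff.1 ho'
  rw [card_setOf_inter]
  have := inter_of_inCode (octAt_inCode hi) (octAt_inCode hj) (octAt_pc hi) (octAt_pc hj)
  tauto

/-! ### Moving flags -/

/-- Any tuple of at most five points of an octad is the image of base points, the octad being the image of the base octad. -/
theorem exists_octad_flag {o : Finset GolayPt} (ho : o ∈ octads) (y : ℕ → GolayPt) {k : ℕ} (hk : k ≤ 5)
    (hym : ∀ i < k, y i ∈ o) (hy : ∀ i < k, ∀ j < i, y i ≠ y j) :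
    ∃ w ∈ M24, w • GolayBasic.setOf O0 = o ∧ ∀ i < k, w (ptOf (b i)) = y i := by
  classical
  -- extend the tuple to a tuple of five points of the octad
  have hcard : o.card = 8 := steiner.1 o ho
  have hext : ∃ z : ℕ → GolayPt, (∀ i < 5, z i ∈ o) ∧ (∀ i < 5, ∀ j < i, z i ≠ z j) ∧ ∀ i < k, z i = y i := by
    clear hcard
    have key : ∀ m, k ≤ m → m ≤ 5 → ∃ z : ℕ → GolayPt, (∀ i < m, z i ∈ o) ∧ (∀ i < m, ∀ j < i, z i ≠ z j) ∧ ∀ i < k, z i = y i := by
      intro m hm hm5
      induction m, hm using Nat.le_induction with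
      | base => exact ⟨y, hym, hy, fun _ _ => rfl⟩
      | succ m hm ih =>
        obtain ⟨z, h1, h2, h3⟩ := ih (by omega)
        -- choose a new point
        have hcard : o.card = 8 := steiner.1 o ho
        have hlt : ((Finset.range m).image z).card < o.card := by
          rw [hcard]
          have := Finset.card_image_le (s := Finset.range m) (f := z)
          rw [Finset.card_range] at this
          omega
        obtain ⟨p, hp, hp2⟩ := Finset.exists_mem_notMem_of_card_lt_card hlt
        refine ⟨fun i => if i = m then p else z i, ?_, ?_, ?_⟩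
        · intro i hi
          by_cases h : i = m
          · simp only [h, if_true]; exact hp
          · simp only [h, if_false]; exact h1 i (by omega)
        · intro i hi j hj he
          beta_reduce at he
          by_cases h : i = m
          · subst h
            rw [if_pos rfl, if_neg (by omega : ¬ j = i)] at he
            apply hp2
            rw [he]
            exact Finset.mem_image_of_mem _ (Finset.mem_range.2 hj)
          · rw [if_neg h, if_neg (by omega : ¬ j = m)] at he
            exact h2 i (by omega) j hj he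
        · intro i hi
          beta_reduce
          rw [if_neg (by omega : ¬ i = m)]
          exact h3 i hi
    exact key 5 hk (le_refl _)
  obtain ⟨z, h1, h2, h3⟩ := hext
  obtain ⟨w, hw, hwz⟩ := exists_base_tuple z 5 (le_refl _) h2
  refine ⟨w, hw, ?_, fun i hi => ?_⟩
  · apply octad_eq_of_inter (M24_smul_octad hw setOf_O0_mem) ho
    have hsub : (Finset.range 5).image z ⊆ (w • GolayBasic.setOf O0) ∩ o := by
      intro p hp
      obtain ⟨i, hi, rfl⟩ := Finset.mem_image.1 hp
      rw [Finset.mem_range] at hi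
      refine Finset.mem_inter.2 ⟨?_, h1 i hi⟩
      rw [← hwz i hi]
      exact Finset.smul_mem_smul_finset (ptOf_b_mem_O0 hi)
    have hc : ((Finset.range 5).image z).card = 5 := by
      rw [Finset.card_image_of_injOn, Finset.card_range]
      intro a ha c hc he
      simp only [Finset.coe_range, Set.mem_Iio] at ha hc
      by_contra hne
      rcases Nat.lt_or_gt_of_ne hne with h | h
      · exact h2 c hc a h he.symm
      · exact h2 a ha c h he
    rw [← hc]
    exact Finset.card_le_card hsub
  · rw [hwz i (by omega), h3 i hi]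

end Cfsg.Agent.Lib.GolayCount
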