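import Cfsg.Agent.Lib.GolayCoset
import Cfsg.Agent.Lib.BlockCrit
/-!
Families of tuples of subsets of the 24 points: orbits under the stabiliser of a member.
-/
set_option autoImplicit false
set_option linter.unusedSimpArgs false
set_option linter.unusedVariables false
set_option linter.style.haveILetI false
set_option maxRecDepth 100000
open Cfsg
open scoped Pointwise

namespace Cfsg.Agent.Lib.GolayFam
open Cfsg.Agent.Lib
open Cfsg.Agent.Lib.GolayBasic Cfsg.Agent.Lib.GolayCode Cfsg.Agent.Lib.GolayPerm Cfsg.Agent.Lib.GolayOrder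
open Cfsg.Agent.Lib.GolayFacts Cfsg.Agent.Lib.GolayTools Cfsg.Agent.Lib.GolayChain Cfsg.Agent.Lib.GolayCount Cfsg.Agent.Lib.GolayForest
open Cfsg.Agent.Lib.GolayKit Cfsg.Agent.Lib.GolayM12

/-- families of subsets -/
abbrev XX := Finset (Finset GolayPt)

/-! ### The abstract criterion -/

/-- The hypotheses on a family permuted transitively by the group, with an invariant separating the orbits of the
stabiliser of a member. -/
structure FamOK (F : Set XX) (obj : ℕ → XX) (n i0 : ℕ) (inv : XX → XX → ℕ) (key : ℕ → ℕ) : Prop where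
  hi0 : i0 < n
  hF : ∀ a, a ∈ F ↔ ∃ i, i < n ∧ a = obj i
  hinj : ∀ i < n, ∀ j < n, obj i = obj j → i = j
  hM : ∀ g ∈ M24, ∀ a ∈ F, g • a ∈ F
  htr : ∀ a ∈ F, ∃ g ∈ M24, g • obj i0 = a
  hinv : ∀ (g : Equiv.Perm GolayPt) (S a : XX), inv (g • S) (g • a) = inv S a
  hkey : ∀ i < n, inv (obj i0) (obj i) = key i
  horb : ∀ i < n, ∀ j < n, key i = key j → ∃ g ∈ M24, g • obj i0 = obj i0 ∧ g • obj i = obj j

variable {F : Set XX} {obj : ℕ → XX} {n i0 : ℕ} {inv : XX → XX → ℕ} {key : ℕ → ℕ}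

theorem FamOK.inv_mem (h : FamOK F obj n i0 inv key) {g : Equiv.Perm GolayPt} (hg : g ∈ M24) {a : XX} (ha : a ∈ F) :
    g⁻¹ • a ∈ F := h.hM _ (M24.inv_mem hg) a ha

theorem FamOK.obj_mem (h : FamOK F obj n i0 inv key) {i : ℕ} (hi : i < n) : obj i ∈ F := (h.hF _).2 ⟨i, hi, rfl⟩

/-- The invariant gives the orbits of the stabiliser. -/
theorem FamOK.exists_of_inv (h : FamOK F obj n i0 inv key) {S a c : XX} (hS : S ∈ F) (ha : a ∈ F) (hc : c ∈ F)
    (he : inv S a = inv S c) : ∃ g ∈ M24, g • S = S ∧ g • a = c := by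
  obtain ⟨w, hw, rfl⟩ := h.htr S hS
  obtain ⟨i, hi, hie⟩ := (h.hF _).1 (h.inv_mem hw ha)
  obtain ⟨j, hj, hje⟩ := (h.hF _).1 (h.inv_mem hw hc)
  have h1 : key i = key j := by
    rw [← h.hkey i hi, ← h.hkey j hj, ← hie, ← hje, ← h.hinv w (obj i0) (w⁻¹ • a), ← h.hinv w (obj i0) (w⁻¹ • c),
      smul_inv_smul, smul_inv_smul]
    exact he
  obtain ⟨g, hg, h2, h3⟩ := h.horb i hi j hj h1
  refine ⟨w * g * w⁻¹, M24.mul_mem (M24.mul_mem hw hg) (M24.inv_mem hw), ?_, ?_⟩
  · rw [mul_smul, mul_smul, inv_smul_smul, h2]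
  · rw [mul_smul, mul_smul, hie, h3, ← hje, smul_inv_smul]

/-- The orbits. -/
theorem FamOK.orbit_eq (h : FamOK F obj n i0 inv key) {S a : XX} (hS : S ∈ F) (ha : a ∈ F) :
    MulAction.orbit (MulAction.stabilizer M24 S) a = {c | c ∈ F ∧ inv S c = inv S a} := by
  ext c
  simp only [MulAction.mem_orbit_iff, Set.mem_ofPred_eq]
  constructor
  · rintro ⟨g, rfl⟩
    have hg1 : ((g : MulAction.stabilizer M24 S) : M24).1 ∈ M24 := (g : MulAction.stabilizer M24 S).1.2
    have hg2 : ((g : MulAction.stabilizer M24 S) : M24).1 • S = S := MulAction.mem_stabilizer_iff.1 g.2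
    refine ⟨h.hM _ hg1 a ha, ?_⟩
    have := h.hinv ((g : MulAction.stabilizer M24 S) : M24).1 S a
    rw [hg2] at this
    exact this
  · rintro ⟨hc, he⟩
    obtain ⟨g, hg, h1, h2⟩ := h.exists_of_inv hS ha hc he.symm
    exact ⟨⟨⟨g, hg⟩, MulAction.mem_stabilizer_iff.2 h1⟩, h2⟩

/-- Every member has a key. -/
theorem FamOK.exists_key (h : FamOK F obj n i0 inv key) {S x : XX} (hS : S ∈ F) (hx : x ∈ F) :
    ∃ i, i < n ∧ inv S x = key i := by
  obtain ⟨w, hw, rfl⟩ := h.htr S hS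
  obtain ⟨i, hi, hie⟩ := (h.hF _).1 (h.inv_mem hw hx)
  refine ⟨i, hi, ?_⟩
  rw [← h.hkey i hi, ← hie, ← h.hinv w (obj i0) (w⁻¹ • x), smul_inv_smul]

/-- The sizes of the classes. -/
theorem FamOK.class_ncard (h : FamOK F obj n i0 inv key) {S : XX} (hS : S ∈ F) (t : ℕ) :
    {c | c ∈ F ∧ inv S c = t}.ncard = countBelow (fun i => Nat.beq (key i) t) n := by
  obtain ⟨w, hw, rfl⟩ := h.htr S hS
  have h1 : {c | c ∈ F ∧ inv (w • obj i0) c = t}.ncard = {c | c ∈ F ∧ inv (obj i0) c = t}.ncard := by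
    apply ncard_sep_smul w (fun x hx => h.hM _ hw x hx) (fun x hx => h.inv_mem hw hx)
    intro x
    rw [h.hinv]
  rw [h1]
  apply ncard_sep_enum obj h.hF h.hinj
  intro i hi
  rw [h.hkey i hi]
  exact ⟨fun e => by rw [e]; exact Nat.beq_refl _, fun e => Nat.eq_of_beq_eq_true e⟩

/-- Representatives of the classes. -/
theorem FamOK.exists_rep (h : FamOK F obj n i0 inv key) {S : XX} (hS : S ∈ F) {i : ℕ} (hi : i < n) :
    ∃ a ∈ F, inv S a = key i := by
  obtain ⟨w, hw, rfl⟩ := h.htr S hS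
  refine ⟨w • obj i, h.hM _ hw _ (h.obj_mem hi), ?_⟩
  rw [h.hinv, h.hkey i hi]

theorem FamOK.self_inv (h : FamOK F obj n i0 inv key) {S : XX} (hS : S ∈ F) : inv S S = key i0 := by
  obtain ⟨w, hw, rfl⟩ := h.htr S hS
  rw [h.hinv, h.hkey i0 h.hi0]

/-- The orbit through a class, with the size of the class. -/
theorem FamOK.orbit_ncard (h : FamOK F obj n i0 inv key) {S a : XX} (hS : S ∈ F) (ha : a ∈ F) {t : ℕ} (ht : inv S a = t) :
    (MulAction.orbit (MulAction.stabilizer M24 S) a).ncard = countBelow (fun i => Nat.beq (key i) t) n := by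
  rw [h.orbit_eq hS ha, ht]
  exact h.class_ncard hS t

/-- The member is alone in its class. -/
theorem FamOK.eq_of_key (h : FamOK F obj n i0 inv key) (hself : ∀ i < n, key i = key i0 → i = i0) {S a : XX} (hS : S ∈ F)
    (ha : a ∈ F) (he : inv S a = key i0) : a = S := by
  obtain ⟨w, hw, rfl⟩ := h.htr S hS
  obtain ⟨i, hi, hie⟩ := (h.hF _).1 (h.inv_mem hw ha)
  have h1 : key i = key i0 := by
    rw [← h.hkey i hi, ← hie, ← h.hinv w (obj i0) (w⁻¹ • a), smul_inv_smul]
    exact he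
  have h2 := hself i hi h1
  rw [h2] at hie
  rw [← hie, smul_inv_smul]

/-- Maximality of the stabiliser. -/
theorem FamOK.coatom (h : FamOK F obj n i0 inv key) (hself : ∀ i < n, key i = key i0 → i = i0) {S : XX} (hS : S ∈ F)
    (T : Finset ℕ) (hT : ∀ i < n, key i ∈ T) (hTs : ∀ t ∈ T, ∃ i < n, key i = t)
    (hdiv : ∀ U ⊆ T, key i0 ∈ U → (∑ t ∈ U, countBelow (fun i => Nat.beq (key i) t) n) ∣ n → U = {key i0} ∨ U = T)
    (hnt : ∃ i < n, i ≠ i0) : IsCoatom (MulAction.stabilizer M24 S) := by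
  classical
  have hcardF : ((Finset.range n).image obj).card = n := by
    rw [Finset.card_image_of_injOn, Finset.card_range]
    intro i hi j hj he
    exact h.hinj i (Finset.mem_range.1 hi) j (Finset.mem_range.1 hj) he
  have hmemF : ∀ a, a ∈ (Finset.range n).image obj ↔ a ∈ F := by
    intro a
    rw [h.hF, Finset.mem_image]
    constructor
    · rintro ⟨i, hi, rfl⟩
      exact ⟨i, Finset.mem_range.1 hi, rfl⟩
    · rintro ⟨i, hi, rfl⟩
      exact ⟨i, Finset.mem_range.2 hi, rfl⟩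
  have hself' : inv S S = key i0 := h.self_inv hS
  refine BlockCrit.isCoatom_stabilizer (G := M24) S ((Finset.range n).image obj) ((hmemF S).2 hS) ?_ ?_ (inv S) T ?_ ?_ ?_ ?_
    (fun t => countBelow (fun i => Nat.beq (key i) t) n) ?_ ?_ ?_
  · intro g a ha
    rw [hmemF] at ha ⊢
    exact h.hM _ g.2 a ha
  · intro a ha
    rw [hmemF] at ha
    obtain ⟨w, hw, rfl⟩ := h.htr S hS
    obtain ⟨w', hw', rfl⟩ := h.htr a ha
    refine ⟨⟨w' * w⁻¹, M24.mul_mem hw' (M24.inv_mem hw)⟩, ?_⟩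
    show (w' * w⁻¹) • w • obj i0 = _
    rw [mul_smul, inv_smul_smul]
  · intro a ha
    rw [hmemF] at ha
    obtain ⟨w, hw, rfl⟩ := h.htr S hS
    obtain ⟨i, hi, hie⟩ := (h.hF _).1 (h.inv_mem hw ha)
    have h1 : inv (w • obj i0) a = key i := by
      rw [← h.hkey i hi, ← hie, ← h.hinv w (obj i0) (w⁻¹ • a), smul_inv_smul]
    rw [h1]
    exact hT i hi
  · intro a ha c hc he
    rw [hmemF] at ha hc
    obtain ⟨g, hg, h1, h2⟩ := h.exists_of_inv hS ha hc he
    exact ⟨⟨g, hg⟩, MulAction.mem_stabilizer_iff.2 h1, h2⟩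
  · intro t ht
    obtain ⟨i, hi, rfl⟩ := hTs t ht
    obtain ⟨a, ha, h1⟩ := h.exists_rep hS hi
    exact ⟨a, (hmemF a).2 ha, h1⟩
  · intro a ha he
    rw [hmemF] at ha
    rw [hself'] at he
    exact h.eq_of_key hself hS ha he
  · intro t ht
    have h1 := h.class_ncard hS t
    rw [← h1, ← Set.ncard_coe_finset]
    congr 1
    ext a
    simp only [Finset.coe_filter, Set.mem_ofPred_eq, hmemF]
  · rw [hself', hcardF]
    exact hdiv
  · obtain ⟨i, hi, hne⟩ := hnt
    by_cases hSi : S = obj i0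
    · exact ⟨obj i, (hmemF _).2 (h.obj_mem hi), fun he => hne (h.hinj i hi i0 h.hi0 (by rw [he, hSi]))⟩
    · exact ⟨obj i0, (hmemF _).2 (h.obj_mem h.hi0), fun he => hSi he.symm⟩

/-! ### Families of tuples of masks -/

/-- a tuple of subsets given by masks -/
noncomputable def tup (k : ℕ) (x : ℕ → ℕ) : XX := (Finset.range k).image (fun j => GolayBasic.setOf (x j))

theorem mem_tup {k : ℕ} {x : ℕ → ℕ} {t : Finset GolayPt} : t ∈ tup k x ↔ ∃ j, j < k ∧ t = GolayBasic.setOf (x j) := by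
  simp only [tup, Finset.mem_image, Finset.mem_range]
  constructor
  · rintro ⟨j, hj, rfl⟩
    exact ⟨j, hj, rfl⟩
  · rintro ⟨j, hj, rfl⟩
    exact ⟨j, hj, rfl⟩

/-- a tuple of masks without repetition -/
def InjT (k : ℕ) (x : ℕ → ℕ) : Prop := (∀ j < k, x j < 2 ^ 24) ∧ ∀ i < k, ∀ j < k, x i = x j → i = j

theorem card_tup {k : ℕ} {x : ℕ → ℕ} (h : InjT k x) : (tup k x).card = k := by
  unfold tup
  rw [Finset.card_image_of_injOn, Finset.card_range]
  intro i hi j hj he
  have hi' := Finset.mem_range.1 hi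
  have hj' := Finset.mem_range.1 hj
  exact h.2 i hi' j hj' (setOf_injOn (h.1 i hi') (h.1 j hj') he)

/-- the images of the entries of `x` are entries of `y` -/
def tupStep (k : ℕ) (x y : ℕ → ℕ) (pp : ℕ) : Bool :=
  allBelow (fun j => anyBelow (fun l => Nat.beq (img pp (x j)) (y l)) k) k

theorem smul_tup {k : ℕ} {x y : ℕ → ℕ} {pp : ℕ} {g : Equiv.Perm GolayPt} (r : Rep g pp) (hx : InjT k x) (hy : InjT k y)
    (h : tupStep k x y pp = true) : g • tup k x = tup k y := by
  apply Finset.eq_of_subset_of_card_le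
  · intro t ht
    obtain ⟨a, ha, rfl⟩ := Finset.mem_smul_finset.1 ht
    obtain ⟨j, hj, rfl⟩ := mem_tup.1 ha
    obtain ⟨l, hl, hl2⟩ := anyBelow_spec (allBelow_spec h j hj)
    refine mem_tup.2 ⟨l, hl, ?_⟩
    show g • GolayBasic.setOf (x j) = _
    rw [smul_setOf r, Nat.eq_of_beq_eq_true hl2]
  · rw [card_tup hy, Finset.card_smul_finset, card_tup hx]

/-- the mask of a subset -/
noncomputable def maskOf (t : Finset GolayPt) : ℕ := (exists_mask t).choose

theorem maskOf_lt (t : Finset GolayPt) : maskOf t < 2 ^ 24 := (exists_mask t).choose_spec.1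
theorem setOf_maskOf (t : Finset GolayPt) : GolayBasic.setOf (maskOf t) = t := (exists_mask t).choose_spec.2.symm
theorem maskOf_setOf {m : ℕ} (hm : m < 2 ^ 24) : maskOf (GolayBasic.setOf m) = m :=
  setOf_injOn (maskOf_lt _) hm (setOf_maskOf _)

/-- a sum over an initial segment -/
def sumB (f : ℕ → ℕ) : ℕ → ℕ
  | 0 => 0
  | n + 1 => Nat.add (sumB f n) (f n)

theorem sum_range_eq (f : ℕ → ℕ) (n : ℕ) : ∑ i ∈ Finset.range n, f i = sumB f n := by
  induction n with
  | zero => rfl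
  | succ n ih =>
    rw [Finset.sum_range_succ, ih]
    rfl

theorem sum_tup {k : ℕ} {x : ℕ → ℕ} (h : InjT k x) (φ : Finset GolayPt → ℕ) :
    ∑ t ∈ tup k x, φ t = sumB (fun j => φ (GolayBasic.setOf (x j))) k := by
  unfold tup
  rw [Finset.sum_image, sum_range_eq]
  intro i hi j hj he
  have hi' := Finset.mem_range.1 hi
  have hj' := Finset.mem_range.1 hj
  exact h.2 i hi' j hj' (setOf_injOn (h.1 i hi') (h.1 j hj') he)

theorem sumB_congr {f f' : ℕ → ℕ} {k : ℕ} (h : ∀ j < k, f j = f' j) : sumB f k = sumB f' k := by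
  induction k with
  | zero => rfl
  | succ k ih =>
    show Nat.add (sumB f k) (f k) = Nat.add (sumB f' k) (f' k)
    rw [ih (fun j hj => h j (by omega)), h k (by omega)]

/-- the signature of a tuple -/
def sigT (k : ℕ) (x : ℕ → ℕ) : ℕ := sumB (fun j => Nat.mul (x j) (x j)) k

theorem sigT_eq {k : ℕ} {x : ℕ → ℕ} (h : InjT k x) : sigT k x = ∑ t ∈ tup k x, maskOf t * maskOf t := by
  rw [sum_tup h]
  unfold sigT
  apply sumB_congr
  intro j hj
  rw [maskOf_setOf (h.1 j hj)]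
  rfl

theorem inj_of_mono {f : ℕ → ℕ} {n : ℕ} (h : allBelow (fun i => Nat.blt (f i) (f (i + 1))) (n - 1) = true) :
    ∀ i < n, ∀ j < n, f i = f j → i = j := by
  have mono : ∀ i j, i < j → j < n → f i < f j := by
    intro i j hij hj
    induction j with
    | zero => omega
    | succ j ih =>
      have h1 := allBelow_spec h j (by omega)
      have h2 : Nat.ble (f j + 1) (f (j + 1)) = true := h1
      have h3 := Nat.le_of_ble_eq_true h2
      rcases Nat.lt_succ_iff_lt_or_eq.1 hij with h4 | rfl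
      · have := ih h4 (by omega)
        omega
      · omega
  intro i hi j hj he
  by_contra hne
  rcases Nat.lt_or_gt_of_ne hne with h1 | h1
  · exact absurd he (ne_of_lt (mono i j h1 hj))
  · exact absurd he (ne_of_gt (mono j i h1 hi))

/-- checks that a tuple table is without repetition -/
def tableOK (k n : ℕ) (E : ℕ → ℕ → ℕ) : Bool :=
  allBelow (fun i => allBelow (fun j => Nat.blt (E i j) 16777216) k &&
    allBelow (fun j => Nat.blt (E i j) (E i (j + 1))) (k - 1)) n &&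
  allBelow (fun i => Nat.blt (sigT k (E i)) (sigT k (E (i + 1)))) (n - 1)

theorem tableOK_injT {k n : ℕ} {E : ℕ → ℕ → ℕ} (h : tableOK k n E = true) {i : ℕ} (hi : i < n) : InjT k (E i) := by
  simp only [tableOK, Bool.and_eq_true] at h
  have h1 := allBelow_spec h.1 i hi
  simp only [Bool.and_eq_true] at h1
  refine ⟨fun j hj => ?_, inj_of_mono h1.2⟩
  have h2 := allBelow_spec h1.1 j hj
  have h3 : Nat.ble (E i j + 1) 16777216 = true := h2
  have := Nat.le_of_ble_eq_true h3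
  norm_num
  omega

theorem tableOK_inj {k n : ℕ} {E : ℕ → ℕ → ℕ} (h : tableOK k n E = true) :
    ∀ i < n, ∀ j < n, tup k (E i) = tup k (E j) → i = j := by
  intro i hi j hj he
  have h1 : sigT k (E i) = sigT k (E j) := by
    rw [sigT_eq (tableOK_injT h hi), sigT_eq (tableOK_injT h hj), he]
  simp only [tableOK, Bool.and_eq_true] at h
  exact inj_of_mono (f := fun i => sigT k (E i)) h.2 i hi j hj h1

/-- an edge of a forest on tuples -/
def tstep (k n m : ℕ) (gens : ℕ → ℕ) (E : ℕ → ℕ → ℕ) (gi : ℕ → ℕ) (p i : ℕ) : Bool :=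
  Nat.blt p n && Nat.blt i n && Nat.blt (gi i) m && tupStep k (E p) (E i) (gens (gi i))

theorem tup_forest {H : Subgroup (Equiv.Perm GolayPt)} {k n m : ℕ} {gens : ℕ → ℕ} {E : ℕ → ℕ → ℕ} {gi rt par dep : ℕ → ℕ}
    (hgens : ∀ j < m, ∃ g ∈ H, Rep g (gens j)) (hE : ∀ i < n, InjT k (E i))
    (h : forestOK n rt par dep (tstep k n m gens E gi) = true) :
    ∀ i < n, ∃ g ∈ H, g • tup k (E (rt i)) = tup k (E i) := by
  refine forest_spec (fun a c => ∃ g ∈ H, g • tup k (E a) = tup k (E c)) (fun i => ⟨1, H.one_mem, one_smul _ _⟩) ?_ ?_ h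
  · rintro a c d ⟨g, hg, h1⟩ ⟨g', hg', h2⟩
    exact ⟨g' * g, H.mul_mem hg' hg, by rw [mul_smul, h1, h2]⟩
  · intro p i hs
    simp only [tstep, Bool.and_eq_true] at hs
    obtain ⟨⟨⟨h1, h2⟩, h3⟩, h4⟩ := hs
    have h1' : p < n := by simpa [Nat.blt] using h1
    have h2' : i < n := by simpa [Nat.blt] using h2
    have h3' : gi i < m := by simpa [Nat.blt] using h3
    obtain ⟨g, hg, r⟩ := hgens _ h3'
    exact ⟨g, hg, smul_tup r (hE p h1') (hE i h2') h4⟩

/-- The stabiliser of a tuple as a subgroup of the permutations. -/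
abbrev StabT (a : XX) : Subgroup (Equiv.Perm GolayPt) := M24 ⊓ MulAction.stabilizer (Equiv.Perm GolayPt) a

theorem horb_of_forest {k n m i0 : ℕ} {gens : ℕ → ℕ} {E : ℕ → ℕ → ℕ} {gi rt par dep key : ℕ → ℕ}
    (hE : ∀ i < n, InjT k (E i)) (hi0 : i0 < n)
    (hgens : allBelow (fun j => validB (gens j) && inM24B (gens j) && tupStep k (E i0) (E i0) (gens j)) m = true)
    (h : forestOK n rt par dep (tstep k n m gens E gi) = true)
    (hkey : ∀ i < n, ∀ j < n, key i = key j → rt i = rt j) :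
    ∀ i < n, ∀ j < n, key i = key j → ∃ g ∈ M24, g • tup k (E i0) = tup k (E i0) ∧ g • tup k (E i) = tup k (E j) := by
  have hg : ∀ j < m, ∃ g ∈ StabT (tup k (E i0)), Rep g (gens j) := by
    intro j hj
    have h1 := allBelow_spec hgens j hj
    simp only [Bool.and_eq_true] at h1
    obtain ⟨⟨h2, h3⟩, h4⟩ := h1
    have r := rep_permOf _ h2
    exact ⟨_, ⟨mem_M24_of_check r h3, MulAction.mem_stabilizer_iff.2 (smul_tup r (hE _ hi0) (hE _ hi0) h4)⟩, r⟩
  have hf := tup_forest hg hE h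
  intro i hi j hj he
  obtain ⟨g, hg1, h1⟩ := hf i hi
  obtain ⟨g', hg2, h2⟩ := hf j hj
  rw [hkey i hi j hj he] at h1
  refine ⟨g' * g⁻¹, M24.mul_mem hg2.1 (M24.inv_mem hg1.1), ?_, ?_⟩
  · rw [mul_smul, inv_smul_eq_iff.2 (MulAction.mem_stabilizer_iff.1 hg1.2).symm]
    exact MulAction.mem_stabilizer_iff.1 hg2.2
  · rw [mul_smul, ← h1, inv_smul_smul, h2]

/-- the invariant of two tuples given by intersections -/
noncomputable def interInv (φ : ℕ → ℕ) (S a : XX) : ℕ := ∑ t ∈ a, ∑ u ∈ S, φ (t ∩ u).card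

theorem sum_smul_eq {β : Type*} [AddCommMonoid β] (g : Equiv.Perm GolayPt) (s : XX) (f : Finset GolayPt → β) :
    ∑ t ∈ g • s, f t = ∑ t ∈ s, f (g • t) := by
  rw [← Finset.image_smul, Finset.sum_image]
  intro a _ c _ he
  exact smul_left_cancel g he

theorem interInv_smul (φ : ℕ → ℕ) (g : Equiv.Perm GolayPt) (S a : XX) : interInv φ (g • S) (g • a) = interInv φ S a := by
  unfold interInv
  rw [sum_smul_eq]
  apply Finset.sum_congr rfl
  intro t _
  rw [sum_smul_eq]
  apply Finset.sum_congr rfl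
  intro u _
  rw [card_smul_inter]

/-- the value of the invariant on tables -/
def interKey (φ : ℕ → ℕ) (k k' : ℕ) (x y : ℕ → ℕ) : ℕ :=
  sumB (fun l => sumB (fun j => φ (pc (Nat.land (y l) (x j)))) k) k'

theorem interInv_tup (φ : ℕ → ℕ) {k k' : ℕ} {x y : ℕ → ℕ} (hx : InjT k x) (hy : InjT k' y) :
    interInv φ (tup k x) (tup k' y) = interKey φ k k' x y := by
  unfold interInv interKey
  rw [sum_tup hy]
  apply sumB_congr
  intro l hl
  rw [sum_tup hx]
  apply sumB_congr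
  intro j hj
  rw [card_setOf_inter]
  rfl

/-- the table constructor -/
theorem famOK_of_tables {F : Set XX} {k n i0 m : ℕ} {E : ℕ → ℕ → ℕ} (φ : ℕ → ℕ)
    (ht : tableOK k n E = true) (hi0 : i0 < n)
    (hF : ∀ a, a ∈ F ↔ ∃ i, i < n ∧ a = tup k (E i))
    (hM : ∀ g ∈ M24, ∀ a ∈ F, g • a ∈ F)
    {par0 dep0 gi0 : ℕ → ℕ}
    (hf0 : forestOK n (fun _ => i0) par0 dep0 (tstep k n 3 (fun j => rom gensR 120 j) E gi0) = true)
    {gens : ℕ → ℕ} {gi rt par dep : ℕ → ℕ}
    (hgens : allBelow (fun j => validB (gens j) && inM24B (gens j) && tupStep k (E i0) (E i0) (gens j)) m = true)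
    (hf : forestOK n rt par dep (tstep k n m gens E gi) = true)
    (hkey : ∀ i < n, ∀ j < n, interKey φ k k (E i0) (E i) = interKey φ k k (E i0) (E j) → rt i = rt j) :
    FamOK F (fun i => tup k (E i)) n i0 (interInv φ) (fun i => interKey φ k k (E i0) (E i)) := by
  have hE : ∀ i < n, InjT k (E i) := fun i hi => tableOK_injT ht hi
  refine ⟨hi0, hF, tableOK_inj ht, hM, ?_, interInv_smul φ, ?_, ?_⟩
  · intro a ha
    obtain ⟨i, hi, rfl⟩ := (hF a).1 ha
    exact tup_forest gensR_rep hE hf0 i hi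
  · intro i hi
    exact interInv_tup φ (hE _ hi0) (hE _ hi)
  · exact horb_of_forest hE hi0 hgens hf hkey

end Cfsg.Agent.Lib.GolayFam
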