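import Cfsg.Agent.Lib.GolayOctad
/-!
Orbits of subgroups on lists of masks: transitivity on classes.
-/
set_option autoImplicit false
set_option linter.unusedSimpArgs false
set_option linter.unusedVariables false
set_option linter.style.haveILetI false
set_option maxRecDepth 100000
open Cfsg
open scoped Pointwise

namespace Cfsg.Agent.Lib.GolayForest
open Cfsg.Agent.Lib
open Cfsg.Agent.Lib.GolayBasic Cfsg.Agent.Lib.GolayCode Cfsg.Agent.Lib.GolayPerm Cfsg.Agent.Lib.GolayOrder
open Cfsg.Agent.Lib.GolayFacts Cfsg.Agent.Lib.GolayTools Cfsg.Agent.Lib.GolayChain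

/-- selected entries have the prescribed root -/
def keyOK (n : ℕ) (rt key : ℕ → ℕ) (sel : ℕ → Bool) : Bool :=
  allBelow (fun i => cond (sel i) (Nat.beq (rt i) (key i)) true) n

theorem forest_key {H : Subgroup (Equiv.Perm GolayPt)} {m n : ℕ} {gens obj gi rt par dep key : ℕ → ℕ} {sel : ℕ → Bool}
    (hgens : ∀ j < m, ∃ g ∈ H, Rep g (gens j))
    (h : forestOK n rt par dep (maskStep m gens obj gi) = true)
    (hk : keyOK n rt key sel = true) {i j : ℕ} (hi : i < n) (hj : j < n) (hsi : sel i = true) (hsj : sel j = true)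
    (hij : key i = key j) : ∃ g ∈ H, g • GolayBasic.setOf (obj i) = GolayBasic.setOf (obj j) := by
  have h1 := mask_forest hgens h i hi
  have h2 := mask_forest hgens h j hj
  have h3 := allBelow_spec hk i hi
  have h4 := allBelow_spec hk j hj
  rw [hsi, cond_true] at h3
  rw [hsj, cond_true] at h4
  rw [Nat.eq_of_beq_eq_true h3] at h1
  rw [Nat.eq_of_beq_eq_true h4, ← hij] at h2
  obtain ⟨g, hg, hg1⟩ := h1
  obtain ⟨g', hg', hg2⟩ := h2
  refine ⟨g' * g⁻¹, H.mul_mem hg' (H.inv_mem hg), ?_⟩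
  rw [mul_smul, ← hg1, inv_smul_smul, hg2]

/-- membership of the generators from a table -/
theorem gens_of_check {H : Subgroup (Equiv.Perm GolayPt)} {inH : ℕ → Bool} (hH : ∀ g pp, Rep g pp → inH pp = true → g ∈ H)
    {m : ℕ} {R : ℕ} (hc : allBelow (fun j => validB (rom R 120 j) && inH (rom R 120 j)) m = true) :
    ∀ j < m, ∃ g ∈ H, Rep g (rom R 120 j) := by
  intro j hj
  have h := allBelow_spec hc j hj
  simp only [Bool.and_eq_true] at h
  exact ⟨permOf _ h.1, hH _ _ (rep_permOf _ _) h.2, rep_permOf _ _⟩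

/-- Boolean: a packed element fixes the given points -/
def fixesB (pp : ℕ) (l : List ℕ) : Bool := l.all (fun x => Nat.beq (ap pp x) x)

/-- stabiliser of finitely many masks and points -/
def StabMP (ms : List ℕ) (ps : List ℕ) : Subgroup (Equiv.Perm GolayPt) where
  carrier := {g | g ∈ M24 ∧ (∀ m ∈ ms, g • GolayBasic.setOf m = GolayBasic.setOf m) ∧ ∀ x ∈ ps, g (ptOf x) = ptOf x}
  one_mem' := ⟨M24.one_mem, fun m _ => one_smul _ _, fun x _ => rfl⟩
  mul_mem' := by
    rintro a c ⟨h1, h2, h3⟩ ⟨h4, h5, h6⟩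
    refine ⟨M24.mul_mem h1 h4, fun m hm => ?_, fun x hx => ?_⟩
    · rw [mul_smul, h5 m hm, h2 m hm]
    · rw [Equiv.Perm.mul_apply, h6 x hx, h3 x hx]
  inv_mem' := by
    rintro a ⟨h1, h2, h3⟩
    refine ⟨M24.inv_mem h1, fun m hm => ?_, fun x hx => ?_⟩
    · rw [inv_smul_eq_iff, h2 m hm]
    · rw [Equiv.Perm.inv_eq_iff_eq, h3 x hx]

/-- Boolean membership -/
def inStabMP (ms ps : List ℕ) (pp : ℕ) : Bool :=
  inM24B pp && ms.all (fun m => Nat.beq (img pp m) m) && ps.all (fun x => Nat.beq (ap pp x) x)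

theorem mem_StabMP_of_check {ms ps : List ℕ} (hps : ∀ x ∈ ps, x < 24) :
    ∀ g pp, Rep g pp → inStabMP ms ps pp = true → g ∈ StabMP ms ps := by
  intro g pp h hc
  simp only [inStabMP, Bool.and_eq_true, List.all_eq_true] at hc
  obtain ⟨⟨h1, h2⟩, h3⟩ := hc
  refine ⟨mem_M24_of_check h h1, fun m hm => ?_, fun x hx => ?_⟩
  · rw [smul_setOf h, Nat.eq_of_beq_eq_true (h2 m hm)]
  · rw [h.apply_ptOf (hps x hx), Nat.eq_of_beq_eq_true (h3 x hx)]

/-! ### Transport -/

theorem mem_setOf_pt {m i : ℕ} (hi : i < 24) : ptOf i ∈ GolayBasic.setOf m ↔ m.testBit i = true := by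
  rw [mem_setOf, idx_ptOf hi]

theorem ncard_oct_transport {w : Equiv.Perm GolayPt} (hw : w ∈ M24) (Q Q' : Finset GolayPt → Prop)
    (h : ∀ a, Q' (w • a) ↔ Q a) (f : ℕ → Bool)
    (hf : ∀ i < 759, Q (GolayBasic.setOf (octAt i)) ↔ f i = true) :
    {a | a ∈ octads ∧ Q' a}.ncard = GolayCount.countBelow f 759 := by
  rw [GolayCount.ncard_sep_smul w (GolayCount.octads_smul hw) (GolayCount.octads_smul' hw) Q Q' h]
  exact GolayCount.ncard_octads_sep Q f hf

theorem ncard_dod_transport {w : Equiv.Perm GolayPt} (hw : w ∈ M24) (Q Q' : Finset GolayPt → Prop)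
    (h : ∀ a, Q' (w • a) ↔ Q a) (f : ℕ → Bool)
    (hf : ∀ i < 2576, Q (GolayBasic.setOf (dodAt i)) ↔ f i = true) :
    {a | a ∈ dodecads ∧ Q' a}.ncard = GolayCount.countBelow f 2576 := by
  rw [GolayCount.ncard_sep_smul w (GolayCount.dodecads_smul hw) (GolayCount.dodecads_smul' hw) Q Q' h]
  exact GolayCount.ncard_dodecads_sep Q f hf

theorem conj_smul (w g : Equiv.Perm GolayPt) (a : Finset GolayPt) : (w * g * w⁻¹) • (w • a) = w • (g • a) := by
  rw [mul_smul, mul_smul, inv_smul_smul]

theorem conj_apply (w g : Equiv.Perm GolayPt) (p : GolayPt) : (w * g * w⁻¹) (w p) = w (g p) := by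
  simp

/-- conjugates of elements of the stabiliser -/
theorem stab_conj {ms ps : List ℕ} {w g : Equiv.Perm GolayPt} (hw : w ∈ M24) (hg : g ∈ StabMP ms ps) :
    w * g * w⁻¹ ∈ M24 ∧ (∀ m ∈ ms, (w * g * w⁻¹) • (w • GolayBasic.setOf m) = w • GolayBasic.setOf m) ∧
      ∀ x ∈ ps, (w * g * w⁻¹) (w (ptOf x)) = w (ptOf x) := by
  refine ⟨M24.mul_mem (M24.mul_mem hw hg.1) (M24.inv_mem hw), fun m hm => ?_, fun x hx => ?_⟩
  · rw [conj_smul, hg.2.1 m hm]
  · rw [conj_apply, hg.2.2 x hx]

theorem smul_inv_oct {w : Equiv.Perm GolayPt} (hw : w ∈ M24) {a : Finset GolayPt} (ha : a ∈ octads) : w⁻¹ • a ∈ octads :=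
  M24_smul_octad (M24.inv_mem hw) ha

theorem smul_inv_dod {w : Equiv.Perm GolayPt} (hw : w ∈ M24) {a : Finset GolayPt} (ha : a ∈ dodecads) : w⁻¹ • a ∈ dodecads :=
  M24_smul_dodecad (M24.inv_mem hw) ha

/-- membership after pulling back -/
theorem mem_inv_smul {w : Equiv.Perm GolayPt} {p : GolayPt} {a : Finset GolayPt} : p ∈ w⁻¹ • a ↔ w p ∈ a := by
  rw [Finset.mem_inv_smul_finset_iff, Equiv.Perm.smul_def]

/-- intersections after pulling back -/
theorem card_inv_smul_inter (w : Equiv.Perm GolayPt) (o a : Finset GolayPt) :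
    (o ∩ w⁻¹ • a).card = (w • o ∩ a).card := by
  have := GolayCount.card_smul_inter w o (w⁻¹ • a)
  rw [smul_inv_smul] at this
  exact this.symm

/-- enumerating all `k`-subsets by a sorted table of masks -/
theorem enum_subsets {k n : ℕ} (hn : n = Nat.choose 24 k) (obj : ℕ → ℕ)
    (hk : allBelow (fun i => Nat.beq (pc (obj i)) k && Nat.blt (obj i) 16777216) n = true)
    (hmono : allBelow (fun i => Nat.blt (obj i) (obj (i + 1))) (n - 1) = true) :
    (∀ i < n, pc (obj i) = k) ∧ (∀ i < n, obj i < 2 ^ 24) ∧ (∀ i < n, ∀ j < n, GolayBasic.setOf (obj i) = GolayBasic.setOf (obj j) → i = j) ∧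
    ∀ U : Finset GolayPt, U.card = k → ∃ i < n, U = GolayBasic.setOf (obj i) := by
  classical
  have h1 : ∀ i < n, pc (obj i) = k := fun i hi => by
    have := allBelow_spec hk i hi
    simp only [Bool.and_eq_true] at this
    exact Nat.eq_of_beq_eq_true this.1
  have h2 : ∀ i < n, obj i < 2 ^ 24 := fun i hi => by
    have := allBelow_spec hk i hi
    simp only [Bool.and_eq_true] at this
    have h3 : Nat.ble (obj i + 1) 16777216 = true := this.2
    have := Nat.le_of_ble_eq_true h3
    norm_num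
    omega
  have hlt : ∀ i, i + 1 < n → obj i < obj (i + 1) := fun i hi => by
    have := allBelow_spec hmono i (by omega)
    have h3 : Nat.ble (obj i + 1) (obj (i + 1)) = true := this
    exact Nat.le_of_ble_eq_true h3
  have hmono' : ∀ i j, i < j → j < n → obj i < obj j := by
    intro i j hij
    induction j, hij using Nat.le_induction with
    | base => intro hj; exact hlt i hj
    | succ j hj ih =>
      intro hj2
      exact (ih (by omega)).trans (hlt j hj2)
  have hinj : ∀ i < n, ∀ j < n, GolayBasic.setOf (obj i) = GolayBasic.setOf (obj j) → i = j := by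
    intro i hi j hj h
    have he := setOf_injOn (h2 i hi) (h2 j hj) h
    by_contra hne
    rcases Nat.lt_or_gt_of_ne hne with h3 | h3
    · exact absurd he (ne_of_lt (hmono' i j h3 hj))
    · exact absurd he (ne_of_gt (hmono' j i h3 hi))
  refine ⟨h1, h2, hinj, ?_⟩
  intro U hU
  have himg : ((Finset.range n).image (fun i => GolayBasic.setOf (obj i))) = Finset.powersetCard k (Finset.univ : Finset GolayPt) := by
    apply Finset.eq_of_subset_of_card_le
    · intro s hs
      obtain ⟨i, hi, rfl⟩ := Finset.mem_image.1 hs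
      rw [Finset.mem_powersetCard]
      exact ⟨Finset.subset_univ _, by rw [card_setOf, h1 i (Finset.mem_range.1 hi)]⟩
    · rw [Finset.card_image_of_injOn, Finset.card_range, Finset.card_powersetCard, Finset.card_univ, hn]
      · have : Fintype.card GolayPt = 24 := by decide
        rw [this]
      · intro i hi j hj h
        exact hinj i (by simpa using hi) j (by simpa using hj) h
  have : U ∈ ((Finset.range n).image (fun i => GolayBasic.setOf (obj i))) := by
    rw [himg, Finset.mem_powersetCard]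
    exact ⟨Finset.subset_univ _, hU⟩
  obtain ⟨i, hi, rfl⟩ := Finset.mem_image.1 this
  exact ⟨i, Finset.mem_range.1 hi, rfl⟩

/-- counting an enumerated family of subsets -/
theorem ncard_enum_sep {k n : ℕ} (obj : ℕ → ℕ)
    (hinj : ∀ i < n, ∀ j < n, GolayBasic.setOf (obj i) = GolayBasic.setOf (obj j) → i = j)
    (hall : ∀ U : Finset GolayPt, U.card = k → ∃ i < n, U = GolayBasic.setOf (obj i))
    (h1 : ∀ i < n, pc (obj i) = k)
    (Q : Finset GolayPt → Prop) (f : ℕ → Bool) (hf : ∀ i < n, Q (GolayBasic.setOf (obj i)) ↔ f i = true) :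
    {U : Finset GolayPt | U.card = k ∧ Q U}.ncard = GolayCount.countBelow f n := by
  apply GolayCount.ncard_sep_enum (fun i => GolayBasic.setOf (obj i)) (F := {U : Finset GolayPt | U.card = k}) _ hinj Q f hf
  intro x
  constructor
  · intro hx
    obtain ⟨i, hi, h⟩ := hall x hx
    exact ⟨i, hi, h⟩
  · rintro ⟨i, hi, rfl⟩
    show (GolayBasic.setOf (obj i)).card = k
    rw [card_setOf, h1 i hi]

end Cfsg.Agent.Lib.GolayForest
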