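import Cfsg.Agent.Lib.GolayM12
/-!
The smallest Mathieu group on the complementary dodecad.
-/
set_option autoImplicit false
set_option linter.unusedSimpArgs false
set_option linter.unusedVariables false
set_option linter.style.haveILetI false
set_option maxRecDepth 100000
open Cfsg
open scoped Pointwise

namespace Cfsg.Agent.Lib.GolayM11C
open Cfsg.Agent.Lib
open Cfsg.Agent.Lib.GolayBasic Cfsg.Agent.Lib.GolayCode Cfsg.Agent.Lib.GolayPerm Cfsg.Agent.Lib.GolayOrder
open Cfsg.Agent.Lib.GolayFacts Cfsg.Agent.Lib.GolayTools Cfsg.Agent.Lib.GolayChain Cfsg.Agent.Lib.GolayM23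
open Cfsg.Agent.Lib.GolayM12

/-- base in the complement -/
def c11bR : ℕ := 10469
/-- allowed sets -/
def c11AR : ℕ := 4626386043367369395360
/-- transversals -/
def c11TR : ℕ := 286039578107049693107557961874271640883588773856796223148658244742236292036501950083927418935520604126039297435823906684315379434592759355158501933627198932735196226471173025617549024093799726653480820250691712899836367123246069167988227313709549350842566417274376535574038717212855173136787219498996554344223043706399299396548742223427687780964955193560834784804035278653492533035029557326488089119365156917629318203957836137591272959672041384040365617687604131075889144869762762186185812606018580543604984549747537336372049166522440951307909690961218013377186945799397434344562486613747743431618843767031830088071388709434741939745172736462432371467541545843869288310903377836704118497163518684616247376424318846373627763652589323356124623973859953671383080822548415126388881366804814775880890967900172701182528812982920351452004670421870094993412303020334950321275918587631898449516109535028526040073609923264922526946563802764241310197992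457667934279855628514463323788675887350116791769230732147365946762660038180872406552787554293536882898191266275721817689774806216042165234492366869747845982729028312875043473476551338299195057431718158025303032049311211836119549259573916724560816457353521656084630543246537956278996017987889223825831020555647507142161179108593243862678932490432660960625187024942182044929456722368849583810756879105245092335509575922500566706103875581660486216288034470885447324994810918903487520142700243445881055310646353975825501518532662459299236513820132412210491712913066328384109146361403139160465799095447248202566921514237395686718149353280258959595746078155610179764404265330731442736815469658031123110343213897262479926316438667273359439459453024922543103028929017870760061274381050978112385031989262062477330617366906972021598139020038796541796621997591520808307885919930376424522047149772730417794934716283098623813521636514529540003099714452695548409510948473991508436683332483392843701161634938451560789118897626715146260562420937987507261381481907932008324338583081768481679968705647373353111294436570539202130000538018204775706350160378568585698224802699135291229848817305750222389781273326797486011980332359868965290372333565469260209717121950404764912060226694006220046026821115104723011337883341436095033832981243793843948539743181346085358077594951811298984825532121631366507017453876469970171999575728242939594769952411462151363878482831321716215604021602612575112012398083737646459809208471352073648075766807337196158029284700670580303702166265641119772735331103794366815230046176672708999656069129268127716371646066560537496548934551391308878694055936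
/-- the chain -/
def ch11 : ChainData := ⟨fun k => rom c11bR 5 k, fun k => rom c11AR 24 k, fun k y => rom c11TR 120 (Nat.add (Nat.mul k 24) y), 3⟩
/-- transversals -/
def c9TR : ℕ := 158459779130599163758546333366320117216897144764559858638897580870548821940306353583055535397661856268931049815882701046990175220613341347224768542775091540634252312512634717619413376949710699136535026836962503226753930617347288937327645270284808417215347105720698148741117150573307048328090403408843572364764243192646167963726793031696022997614069405364123902114572024259469586187740987076875884935895361064736106170454392051146773397162729573803326835148173676558393528044007402726910912405299960945372219762998862789842942318688139781399699472625738694717972011208470695440139642868114736342375474844736533550689793627573230397761200175358407332604098773824527260163725391143320710345693465498436841327661052782997487433104468578078107164926170275489522254734464012742991974082192352893203238717090179851646737490514018664416091259237120895166662689110257957863424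
/-- the chain -/
def ch9 : ChainData := ⟨fun _ => 5, fun _ => 16436384, fun _ y => rom c9TR 120 y, 1⟩
/-- base -/
def cKbR : ℕ := 134209
/-- allowed sets -/
def cKAR : ℕ := 19418447072636803129619294
/-- transversals -/
def cKTR : ℕ := 2340732674843776122889202635774948362841203875610033057251806466030848312300710116499120843345089033812188455031132827249771334509879416837514193361325557657843722485049548462589859157010742125921054644246632196916963191345703178253051998898500125581474218809364248828062509883063001865770606976787178565217281054178433310433400257408171841637666677319499990934180379825215075963112742462007544697616933306710344184867390847062300567219723910473914023194584733125207131066013164366152313604555275132126822769665053727456491370800059073231395413502899403847926135949749216090571555361226476253305618432754964527277348785028475733122755734532553681426033854063153411909371960773228358200856162879177798225902178040342611541782557914940576608856091642621607070699604914738667396123967992968234674883125195789312787847054359689898816501586876227855849894217873926971584977814893009562263619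5717473592751278846231698360396403405795552596614967709058741863333737735544820515861831467973001686146144445177226283065696270955699296828168059648008987607088232509125458775125774875908809797734011678340782637025785692437892615457618953584736608786669305285559778789964393454907919480669467576456292548933701181940693002255745552716428479604149401300368008332445807317252554464653451690118008924725359130373252534018622469731108397160803498255214453082556278254843658713904490996893025115324590154463277811152646369557027228625705251771787318825046850324327395557297759484762417891047157940232161030481718546653528324859412981812344047014677641945465190578326436099360151083274547119895273678294700292259566929279614617625730784855555988826813389005850162190888193163164330991578039511229916347718427574413007880301056980617676775517999972359005288629158010886106455097363426196872594209990127743893962942160959618055800036927402142081833719486743869750871698982137687579155726952327621526953839325482568105900788246283749508918300128334374295895778294023975240839855048871393095856661585214392720377926574163544373054846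176497681010857047309402098115368682208403787320540304310765081679918959737753618067327922304113545086363114522290813706506498418850921506585214627127006795346409509800553951874752033410695490773565908969334402385097608124642052130003131839067711106279735461361392818542151682064144788313314181798130226066604195621955116545910696995402333852991091622587493927816411337752631812168478855901653306076654268478756941116141288590996123119605611345552450418298669419678229974563706357755746713130917243321101211803985780127546330156000175081489052140492306241108896982564813494796046666351779424975027323043259565478859575028019462652767287989434465247003827300302692138252487045471518566023923223284047081452550874524588215687146459609109064454392443240216219405027859372578407524424880809979935483071744949363920602149442223450845105943378147097587781300867405619006610622281881346294218076682973942288186731572278100866366019319752837000074494353161677901624983988267800662834950089137750552354356646557073327855853370905259161270175285419907045498652047932653568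
/-- the chain -/
def chK : ChainData := ⟨fun k => rom cKbR 5 k, fun k => rom cKAR 24 k, fun k y => rom cKTR 120 (Nat.add (Nat.mul k 24) y), 4⟩
/-- witnesses -/
def Ku1 : ℕ := 850466434319547472965384063345264192
/-- witnesses -/
def Kv1 : ℕ := 633117438187967160654745849492284608
/-- witnesses -/
def Ku2 : ℕ := 221310532681198245158630581263021344
/-- witnesses -/
def Kv2 : ℕ := 315864986950003487611231975264858624
/-- witnesses -/
def Kx1 : ℕ := 227959765670456457626016700480914624
/-- witnesses -/
def Kx2 : ℕ := 298216473262339006496619964560591040
/-- witnesses -/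
def Kx1i : ℕ := 636528774988603765358776549888102464
/-- witnesses -/
def Kx2i : ℕ := 885983349901411231557031841916666112
/-- program -/
def KstepR : ℕ := 5430179476163313972291871372834590446012164731822935107941731814535804767602490695315467020576790790298971974020592966822916306040033303273262771784156742732638501540559337474594890603638337807249432933295029877826244970852334197531846084773453338601811363549499044233701019735814930029104564335639330445548365637048679764925781508168988085806389626443989927584476232684851826183751973000875335732433632621468173348221859112598858299651070275713913826298270915468965987360578125670684134619288368743672129919411395797820910696837442201601454083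
/-- program length -/
def Kn : ℕ := 76
/-- initial list -/
def Kinit : List ℕ := [Kx2i, Kx1i, Kx2, Kx1]

/-- membership in the smallest group, from a check -/
def inH11 (pp : ℕ) : Bool := inH12 pp && Nat.beq (ap pp 0) 0

theorem hH11 : ∀ g pp, Rep g pp → inH11 pp = true → g ∈ F1 := by
  intro g pp hr h
  simp only [inH11, Bool.and_eq_true] at h
  refine mem_F1.2 ⟨hH12 _ _ hr h.1, ?_⟩
  rw [hr.apply_ptOf (by norm_num), Nat.eq_of_beq_eq_true h.2]

theorem ch11_ok : ch11.ok inH11 = true := by decide +kernel

theorem A11_check : ∀ k < 3, ∀ y < 24, D0.testBit y = false → (∀ j < k, y ≠ ch11.b j) → (ch11.A k).testBit y = true := by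
  decide +kernel

theorem H12_not_mem {g : Equiv.Perm GolayPt} (hg : g ∈ H12) {x : GolayPt} (hx : x ∉ GolayBasic.setOf D0) :
    g x ∉ GolayBasic.setOf D0 := by
  intro h
  have := H12_mem_D0 (H12.inv_mem hg) h
  rw [show g⁻¹ (g x) = x by simp] at this
  exact hx this

theorem exists_tuple11 (y : ℕ → GolayPt) {k : ℕ} (hk : k ≤ 3) (hmem : ∀ i < k, y i ∉ GolayBasic.setOf D0)
    (hy : ∀ i < k, ∀ j < i, y i ≠ y j) : ∃ g ∈ F1, ∀ i < k, g (ptOf (ch11.b i)) = y i := by
  refine ChainData.exists_tuple hH11 ch11_ok y hk ?_ hy
  intro g hg j hj z hz hyz
  apply A11_check j (by omega) _ (idx_lt z)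
  · have h1 : z ∉ GolayBasic.setOf D0 := by
      intro hzm
      apply hmem j hj
      rw [hyz]
      exact H12_mem_D0 (mem_F1.1 hg).1 hzm
    rw [mem_setOf] at h1
    simpa using h1
  · intro i hi he
    apply hz i hi
    rw [← ptOf_idx z, he]

/-- conjugation into the stabiliser of a flag -/
theorem conj_mem_flag {w h : Equiv.Perm GolayPt} (hw : w ∈ M24) (hh : h ∈ F1) :
    ∃ g ∈ MulAction.stabilizer M24 (w • GolayBasic.setOf D0) ⊓ MulAction.stabilizer M24 (w (ptOf 0)),
      (g : Equiv.Perm GolayPt) = w * h * w⁻¹ := by
  obtain ⟨hH, hfix⟩ := mem_F1.1 hh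
  have hM : w * h * w⁻¹ ∈ M24 := M24.mul_mem (M24.mul_mem hw hH.1) (M24.inv_mem hw)
  refine ⟨⟨w * h * w⁻¹, hM⟩, ⟨?_, ?_⟩, rfl⟩
  · refine MulAction.mem_stabilizer_iff.2 ?_
    show (w * h * w⁻¹) • (w • GolayBasic.setOf D0) = w • GolayBasic.setOf D0
    rw [mul_smul, mul_smul, inv_smul_smul]
    have h2 : h • GolayBasic.setOf D0 = GolayBasic.setOf D0 := hH.2
    rw [h2]
  · refine MulAction.mem_stabilizer_iff.2 ?_
    show (w * h * w⁻¹) (w (ptOf 0)) = w (ptOf 0)
    simp [Equiv.Perm.mul_apply, hfix]

/-- The stabiliser of a dodecad and a point on it is 3-transitive on the complement. -/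
theorem three_trans {d : Finset GolayPt} (hd : d ∈ dodecads) {p : GolayPt} (hp : p ∈ d)
    (x y : Fin 3 ↪ GolayPt) (hx : ∀ i, x i ∉ d) (hy : ∀ i, y i ∉ d) :
    ∃ g ∈ MulAction.stabilizer M24 d ⊓ MulAction.stabilizer M24 p,
      ∀ i, (g : Equiv.Perm GolayPt) (x i) = y i := by
  obtain ⟨w, hw, rfl, rfl⟩ := exists_flag hd hp
  have key : ∀ z : Fin 3 ↪ GolayPt, (∀ i, z i ∉ w • GolayBasic.setOf D0) →
      ∃ g ∈ F1, ∀ i : Fin 3, g (ptOf (ch11.b i)) = w⁻¹ (z i) := by
    intro z hz
    obtain ⟨g, hg, hm⟩ := exists_tuple11 (fun i => w⁻¹ (z (Fin.ofNat 3 i))) (k := 3) le_rfl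
      (by
        intro i hi hmem
        apply hz (Fin.ofNat 3 i)
        rw [Finset.mem_smul_finset]
        exact ⟨_, hmem, by simp⟩)
      (by
        intro i hi j hj he
        have h1 := w⁻¹.injective he
        have h2 := z.injective h1
        have h3 := congrArg Fin.val h2
        simp only [Fin.ofNat] at h3
        rw [Nat.mod_eq_of_lt hi, Nat.mod_eq_of_lt (by omega : j < 3)] at h3
        omega)
    refine ⟨g, hg, fun i => ?_⟩
    have := hm i i.2
    simpa using this
  obtain ⟨g1, hg1, h1⟩ := key x hx
  obtain ⟨g2, hg2, h2⟩ := key y hy
  have hF : g2 * g1⁻¹ ∈ F1 := F1.mul_mem hg2 (F1.inv_mem hg1)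
  obtain ⟨g, hg, hge⟩ := conj_mem_flag hw hF
  refine ⟨g, hg, fun i => ?_⟩
  rw [hge, Equiv.Perm.mul_apply, Equiv.Perm.mul_apply, Equiv.Perm.mul_apply, ← h1 i]
  simp [h2 i]

/-! ### Three points of the dodecad -/

theorem b12_vals : ch12.b 0 = 0 ∧ ch12.b 1 = 1 ∧ ch12.b 2 = 2 ∧ ch12.b 3 = 3 ∧ ch12.b 4 = 4 := by decide +kernel

/-- the stabiliser of three points -/
abbrev F3 : Subgroup (Equiv.Perm GolayPt) := FixC H12 ch12.b 3

theorem mem_F3 {g : Equiv.Perm GolayPt} : g ∈ F3 ↔
    g ∈ H12 ∧ g (ptOf 0) = ptOf 0 ∧ g (ptOf 1) = ptOf 1 ∧ g (ptOf 2) = ptOf 2 := by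
  rw [mem_FixC]
  obtain ⟨e0, e1, e2, -, -⟩ := b12_vals
  constructor
  · rintro ⟨h1, h2⟩
    have a0 := h2 0 (by norm_num)
    have a1 := h2 1 (by norm_num)
    have a2 := h2 2 (by norm_num)
    rw [e0] at a0
    rw [e1] at a1
    rw [e2] at a2
    exact ⟨h1, a0, a1, a2⟩
  · rintro ⟨h1, a0, a1, a2⟩
    refine ⟨h1, fun j hj => ?_⟩
    have : j = 0 ∨ j = 1 ∨ j = 2 := by omega
    rcases this with rfl | rfl | rfl
    · rw [e0]; exact a0
    · rw [e1]; exact a1
    · rw [e2]; exact a2

theorem card_F3 : Nat.card F3 = 72 := by
  have h1 := ChainData.card_succ hH12 ch12_ok (k := 1) (by norm_num [ch12]) (himg12 1 (by norm_num [ch12]))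
  have h2 := ChainData.card_succ hH12 ch12_ok (k := 2) (by norm_num [ch12]) (himg12 2 (by norm_num [ch12]))
  rw [pc12.1.2.1] at h1
  rw [pc12.1.2.2] at h2
  have h0 : Nat.card (FixC H12 ch12.b 1) = 7920 := card_F1
  have h3 : Nat.card (FixC H12 ch12.b 2) = 10 * Nat.card (FixC H12 ch12.b 3) := h2
  have h4 : Nat.card (FixC H12 ch12.b 1) = 11 * Nat.card (FixC H12 ch12.b 2) := h1
  show Nat.card (FixC H12 ch12.b 3) = 72
  omega

/-- check for the stabiliser of three points -/
def inH9 (pp : ℕ) : Bool :=
  inH12 pp && Nat.beq (ap pp 0) 0 && Nat.beq (ap pp 1) 1 && Nat.beq (ap pp 2) 2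

theorem hH9 : ∀ g pp, Rep g pp → inH9 pp = true → g ∈ F3 := by
  intro g pp hr h
  simp only [inH9, Bool.and_eq_true] at h
  obtain ⟨⟨⟨h1, h2⟩, h3⟩, h4⟩ := h
  refine mem_F3.2 ⟨hH12 _ _ hr h1, ?_, ?_, ?_⟩
  · rw [hr.apply_ptOf (by norm_num), Nat.eq_of_beq_eq_true h2]
  · rw [hr.apply_ptOf (by norm_num), Nat.eq_of_beq_eq_true h3]
  · rw [hr.apply_ptOf (by norm_num), Nat.eq_of_beq_eq_true h4]

theorem ch9_ok : ch9.ok inH9 = true := by decide +kernel

theorem A9_check : ∀ y < 24, D0.testBit y = false → (ch9.A 0).testBit y = true := by decide +kernel

/-- transitivity on the complement of the stabiliser of three points -/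
theorem exists_F3 (y : GolayPt) (hy : y ∉ GolayBasic.setOf D0) : ∃ g ∈ F3, g (ptOf (ch9.b 0)) = y := by
  obtain ⟨g, hg, hm⟩ := ChainData.exists_tuple (K := 1) (y := fun _ => y) hH9 ch9_ok (by norm_num [ch9])
    (by
      intro g hg k hk z hz hyz
      have : k = 0 := by omega
      subst this
      apply A9_check _ (idx_lt z)
      have h1 : z ∉ GolayBasic.setOf D0 := by
        intro hzm
        apply hy
        rw [hyz]
        exact H12_mem_D0 (mem_F3.1 hg).1 hzm
      rw [mem_setOf] at h1
      simpa using h1)
    (by intro i hi j hj; omega)
  exact ⟨g, hg, hm 0 (by norm_num)⟩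

/-- a frame on the dodecad -/
theorem exists_frame {d : Finset GolayPt} (hd : d ∈ dodecads) {p q r : GolayPt} (hp : p ∈ d) (hq : q ∈ d) (hr : r ∈ d)
    (hpq : p ≠ q) (hpr : p ≠ r) (hqr : q ≠ r) :
    ∃ w ∈ M24, w • GolayBasic.setOf D0 = d ∧ w (ptOf 0) = p ∧ w (ptOf 1) = q ∧ w (ptOf 2) = r := by
  obtain ⟨w, hw, rfl⟩ := exists_smul_D0 hd
  have hm : ∀ {a : GolayPt}, a ∈ w • GolayBasic.setOf D0 → w⁻¹ a ∈ GolayBasic.setOf D0 := by
    intro a ha
    have := Finset.smul_mem_smul_finset (a := w⁻¹) ha
    rw [inv_smul_smul] at this
    exact this
  obtain ⟨g, hg, hgm⟩ := exists_tuple12 (fun i => if i = 0 then w⁻¹ p else if i = 1 then w⁻¹ q else w⁻¹ r) (k := 3)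
    (by norm_num)
    (by
      intro i hi
      have : i = 0 ∨ i = 1 ∨ i = 2 := by omega
      rcases this with rfl | rfl | rfl
      · simpa using hm hp
      · simpa using hm hq
      · simpa using hm hr)
    (by
      intro i hi j hj
      have : (i = 1 ∧ j = 0) ∨ (i = 2 ∧ j = 0) ∨ (i = 2 ∧ j = 1) := by omega
      rcases this with ⟨rfl, rfl⟩ | ⟨rfl, rfl⟩ | ⟨rfl, rfl⟩
      · simpa using hpq.symm
      · simpa using hpr.symm
      · simpa using hqr.symm)
  obtain ⟨e0, e1, e2, -, -⟩ := b12_vals
  have a0 := hgm 0 (by norm_num)
  have a1 := hgm 1 (by norm_num)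
  have a2 := hgm 2 (by norm_num)
  rw [e0] at a0
  rw [e1] at a1
  rw [e2] at a2
  refine ⟨w * g, M24.mul_mem hw hg.1, ?_, ?_, ?_, ?_⟩
  · have hg2 : g • GolayBasic.setOf D0 = GolayBasic.setOf D0 := hg.2
    rw [mul_smul, hg2]
  · rw [Equiv.Perm.mul_apply, a0]; simp
  · rw [Equiv.Perm.mul_apply, a1]; simp
  · rw [Equiv.Perm.mul_apply, a2]; simp

/-- The statement on three points. -/
theorem three_points (d : Finset GolayPt) (hd : d ∈ dodecads) (p q r : GolayPt) (hp : p ∈ d) (hq : q ∈ d) (hr : r ∈ d)
    (hpq : p ≠ q) (hpr : p ≠ r) (hqr : q ≠ r) :
    Nat.card ↥(MulAction.stabilizer M24 d ⊓ MulAction.stabilizer M24 p ⊓ MulAction.stabilizer M24 q ⊓ MulAction.stabilizer M24 r) = 72 ∧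
    ∀ x ∉ d, ∀ y ∉ d, ∃ g ∈ (MulAction.stabilizer M24 d ⊓ MulAction.stabilizer M24 p ⊓ MulAction.stabilizer M24 q ⊓ MulAction.stabilizer M24 r),
      ((g : ↥M24) : Equiv.Perm GolayPt) x = y := by
  obtain ⟨w, hw, rfl, rfl, rfl, rfl⟩ := exists_frame hd hp hq hr hpq hpr hqr
  have hin : ∀ h ∈ F3, ∃ hM : w * h * w⁻¹ ∈ M24, (⟨w * h * w⁻¹, hM⟩ : ↥M24) ∈ (MulAction.stabilizer M24 (w • GolayBasic.setOf D0) ⊓ MulAction.stabilizer M24 (w (ptOf 0)) ⊓
        MulAction.stabilizer M24 (w (ptOf 1)) ⊓ MulAction.stabilizer M24 (w (ptOf 2))) := by
    intro h hh
    obtain ⟨hH, h0, h1, h2⟩ := mem_F3.1 hh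
    have hM : w * h * w⁻¹ ∈ M24 := M24.mul_mem (M24.mul_mem hw hH.1) (M24.inv_mem hw)
    refine ⟨hM, ⟨⟨⟨?_, ?_⟩, ?_⟩, ?_⟩⟩
    · refine MulAction.mem_stabilizer_iff.2 ?_
      show (w * h * w⁻¹) • (w • GolayBasic.setOf D0) = w • GolayBasic.setOf D0
      rw [mul_smul, mul_smul, inv_smul_smul]
      have h2 : h • GolayBasic.setOf D0 = GolayBasic.setOf D0 := hH.2
      rw [h2]
    · refine MulAction.mem_stabilizer_iff.2 ?_
      show (w * h * w⁻¹) (w (ptOf 0)) = w (ptOf 0)
      simp [Equiv.Perm.mul_apply, h0]
    · refine MulAction.mem_stabilizer_iff.2 ?_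
      show (w * h * w⁻¹) (w (ptOf 1)) = w (ptOf 1)
      simp [Equiv.Perm.mul_apply, h1]
    · refine MulAction.mem_stabilizer_iff.2 ?_
      show (w * h * w⁻¹) (w (ptOf 2)) = w (ptOf 2)
      simp [Equiv.Perm.mul_apply, h2]
  constructor
  · rw [← card_F3]
    symm
    refine Nat.card_congr ⟨fun h => ⟨⟨w * h.1 * w⁻¹, (hin h.1 h.2).choose⟩, (hin h.1 h.2).choose_spec⟩, fun g => ⟨w⁻¹ * (g.1 : Equiv.Perm GolayPt) * w, ?_⟩, ?_, ?_⟩
    · obtain ⟨⟨⟨a0, a1⟩, a2⟩, a3⟩ := g.2
      have a0' : (g.1 : Equiv.Perm GolayPt) • (w • GolayBasic.setOf D0) = w • GolayBasic.setOf D0 := a0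
      have a1' : (g.1 : Equiv.Perm GolayPt) (w (ptOf 0)) = w (ptOf 0) := a1
      have a2' : (g.1 : Equiv.Perm GolayPt) (w (ptOf 1)) = w (ptOf 1) := a2
      have a3' : (g.1 : Equiv.Perm GolayPt) (w (ptOf 2)) = w (ptOf 2) := a3
      refine mem_F3.2 ⟨⟨M24.mul_mem (M24.mul_mem (M24.inv_mem hw) g.1.2) hw, ?_⟩, ?_, ?_, ?_⟩
      · refine MulAction.mem_stabilizer_iff.2 ?_
        rw [mul_smul, mul_smul, a0', inv_smul_smul]
      · simp [Equiv.Perm.mul_apply, a1']
      · simp [Equiv.Perm.mul_apply, a2']
      · simp [Equiv.Perm.mul_apply, a3']
    · intro h
      apply Subtype.ext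
      show w⁻¹ * (w * h.1 * w⁻¹) * w = h.1
      group
    · intro g
      apply Subtype.ext
      apply Subtype.ext
      show w * (w⁻¹ * (g.1 : Equiv.Perm GolayPt) * w) * w⁻¹ = g.1
      group
  · intro x hx y hy
    have hx' : w⁻¹ x ∉ GolayBasic.setOf D0 := fun h => hx (by
      rw [Finset.mem_smul_finset]; exact ⟨_, h, by simp⟩)
    have hy' : w⁻¹ y ∉ GolayBasic.setOf D0 := fun h => hy (by
      rw [Finset.mem_smul_finset]; exact ⟨_, h, by simp⟩)
    obtain ⟨g1, hg1, e1⟩ := exists_F3 _ hx'
    obtain ⟨g2, hg2, e2⟩ := exists_F3 _ hy'
    obtain ⟨hM, hg⟩ := hin (g2 * g1⁻¹) (F3.mul_mem hg2 (F3.inv_mem hg1))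
    refine ⟨_, hg, ?_⟩
    show (w * (g2 * g1⁻¹) * w⁻¹) x = y
    rw [Equiv.Perm.mul_apply, Equiv.Perm.mul_apply, Equiv.Perm.mul_apply, ← e1]
    simp [e2]

end Cfsg.Agent.Lib.GolayM11C
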