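import Cfsg.Agent.Lib.GolayM11S
import Cfsg.Agent.Lib.H1Rigid
/-!
The stabiliser of a point of the complementary dodecad in the smallest Mathieu group.
-/
set_option autoImplicit false
set_option linter.unusedSimpArgs false
set_option linter.unusedVariables false
set_option linter.style.haveILetI false
set_option maxRecDepth 100000
open Cfsg
open scoped Pointwise

namespace Cfsg.Agent.Lib.GolayM11C
open Cfsg.Agent.Lib
open Cfsg.Agent.Lib.GolayBasic Cfsg.Agent.Lib.GolayCode Cfsg.Agent.Lib.GolayPerm Cfsg.Agent.Lib.GolayOrder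
open Cfsg.Agent.Lib.GolayFacts Cfsg.Agent.Lib.GolayTools Cfsg.Agent.Lib.GolayChain Cfsg.Agent.Lib.GolayM23
open Cfsg.Agent.Lib.GolayM12

/-- the group -/
def K0 : Subgroup (Equiv.Perm GolayPt) := F1 ⊓ MulAction.stabilizer (Equiv.Perm GolayPt) (ptOf 14)

theorem mem_K0 {g : Equiv.Perm GolayPt} : g ∈ K0 ↔ g ∈ F1 ∧ g (ptOf 14) = ptOf 14 := Iff.rfl

/-- check -/
def inK (pp : ℕ) : Bool := inH11 pp && Nat.beq (ap pp 14) 14

theorem hK : ∀ g pp, Rep g pp → inK pp = true → g ∈ K0 := by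
  intro g pp hr h
  simp only [inK, Bool.and_eq_true] at h
  refine mem_K0.2 ⟨hH11 _ _ hr h.1, ?_⟩
  rw [hr.apply_ptOf (by norm_num), Nat.eq_of_beq_eq_true h.2]

theorem chK_ok : chK.ok inK = true := by decide +kernel

theorem comp14 : (ptOf 14) ∉ GolayBasic.setOf D0 := by
  rw [mem_setOf, idx_ptOf (by norm_num)]
  decide +kernel

/-- the complement as a set of points -/
theorem card_K0 : Nat.card K0 = 660 := by
  have h := card_eq_mul_of_orbit' (G := Equiv.Perm GolayPt) F1 (ptOf 14) (GolayBasic.setOf D0)ᶜ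
    (fun g hg => by
      rw [Finset.mem_compl]
      exact H12_not_mem (mem_F1.1 hg).1 comp14)
    (fun y hy => by
      rw [Finset.mem_compl] at hy
      obtain ⟨g1, hg1, h1⟩ := exists_tuple11 (fun _ => y) (k := 1) (by norm_num) (fun _ _ => hy) (fun i hi j hj => by omega)
      obtain ⟨g2, hg2, h2⟩ := exists_tuple11 (fun _ => ptOf 14) (k := 1) (by norm_num) (fun _ _ => comp14) (fun i hi j hj => by omega)
      refine ⟨g1 * g2⁻¹, F1.mul_mem hg1 (F1.inv_mem hg2), ?_⟩
      show (g1 * g2⁻¹) (ptOf 14) = y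
      rw [← h2 0 (by norm_num), Equiv.Perm.mul_apply]
      simpa using h1 0 (by norm_num))
  have hc : ((GolayBasic.setOf D0)ᶜ).card = 12 := by
    rw [Finset.card_compl, card_setOf]
    have : pc D0 = 12 := by decide +kernel
    rw [this]
    simp
  rw [hc, card_F1] at h
  show Nat.card (F1 ⊓ MulAction.stabilizer (Equiv.Perm GolayPt) (ptOf 14) : Subgroup _) = 660
  omega

/-! ### The chain of the group -/

theorem chK_vals : chK.b 0 = 1 ∧ chK.b 1 = 2 ∧ chK.b 2 = 3 ∧ chK.b 3 = 4 := by decide +kernel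

/-- check of the allowed sets -/
def Kf (pp : ℕ) : Bool :=
  cond (Nat.beq (ap pp 14) 14 && Nat.beq (ap pp 1) 1 && Nat.beq (ap pp 2) 2)
    (tb (chK.A 2) (ap pp 3) && cond (Nat.beq (ap pp 3) 3) (tb (chK.A 3) (ap pp 4)) true) true

theorem K_check : allF1 Kf = true := by decide +kernel

theorem ap_fix {g : Equiv.Perm GolayPt} {pp i : ℕ} (hr : Rep g pp) (hi : i < 24) (h : g (ptOf i) = ptOf i) :
    Nat.beq (ap pp i) i = true := by
  have h1 := hr (ptOf i)
  rw [h, idx_ptOf hi] at h1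
  rw [← h1]
  simp

theorem K_A0 : ∀ y < 24, D0.testBit y = true → y ≠ 0 → (chK.A 0).testBit y = true := by decide +kernel
theorem K_A1 : ∀ y < 24, D0.testBit y = true → y ≠ 0 → y ≠ 1 → (chK.A 1).testBit y = true := by decide +kernel

theorem ptOf_ne {a b : ℕ} (ha : a < 24) (hb : b < 24) (h : a ≠ b) : ptOf a ≠ ptOf b := by
  intro he
  apply h
  have := congrArg idx he
  rwa [idx_ptOf ha, idx_ptOf hb] at this

theorem pt_mem {k : ℕ} (hk : k < 5) : ptOf k ∈ GolayBasic.setOf D0 := by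
  have := ptOf_b12_mem hk
  obtain ⟨e0, e1, e2, e3, e4⟩ := b12_vals
  have hk' : k = 0 ∨ k = 1 ∨ k = 2 ∨ k = 3 ∨ k = 4 := by omega
  rcases hk' with rfl | rfl | rfl | rfl | rfl
  · rwa [e0] at this
  · rwa [e1] at this
  · rwa [e2] at this
  · rwa [e3] at this
  · rwa [e4] at this

theorem himgK : ∀ k < chK.n, ∀ g ∈ FixC K0 chK.b k, (chK.A k).testBit (idx (g (ptOf (chK.b k)))) = true := by
  intro k hk g hg
  obtain ⟨e0, e1, e2, e3⟩ := chK_vals
  obtain ⟨hgK, hfix⟩ := mem_FixC.1 hg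
  obtain ⟨hF, h14⟩ := mem_K0.1 hgK
  obtain ⟨hH, h0⟩ := mem_F1.1 hF
  have hk' : k = 0 ∨ k = 1 ∨ k = 2 ∨ k = 3 := by
    have : k < 4 := hk
    omega
  have hD : ∀ {a : ℕ}, a < 5 → D0.testBit (idx (g (ptOf a))) = true := by
    intro a ha
    have := H12_mem_D0 hH (pt_mem ha)
    rwa [mem_setOf] at this
  have hne : ∀ {a c : ℕ}, a < 24 → c < 24 → a ≠ c → g (ptOf c) = ptOf c → idx (g (ptOf a)) ≠ c := by
    intro a c ha hc hac hfx he
    apply ptOf_ne ha hc hac
    apply g.injective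
    rw [hfx, ← ptOf_idx (g (ptOf a)), he]
  rcases hk' with rfl | rfl | rfl | rfl
  · rw [e0]
    exact K_A0 _ (idx_lt _) (hD (by norm_num)) (hne (by norm_num) (by norm_num) (by norm_num) h0)
  · rw [e1]
    have f1 : g (ptOf 1) = ptOf 1 := by
      have := hfix 0 (by norm_num)
      rwa [e0] at this
    exact K_A1 _ (idx_lt _) (hD (by norm_num)) (hne (by norm_num) (by norm_num) (by norm_num) h0)
      (hne (by norm_num) (by norm_num) (by norm_num) f1)
  · rw [e2]
    have f1 : g (ptOf 1) = ptOf 1 := by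
      have := hfix 0 (by norm_num)
      rwa [e0] at this
    have f2 : g (ptOf 2) = ptOf 2 := by
      have := hfix 1 (by norm_num)
      rwa [e1] at this
    obtain ⟨pp, hr, hc⟩ := allF1_spec K_check hF
    have hcond : (Nat.beq (ap pp 14) 14 && Nat.beq (ap pp 1) 1 && Nat.beq (ap pp 2) 2) = true := by
      simp only [Bool.and_eq_true]
      exact ⟨⟨ap_fix hr (by norm_num) h14, ap_fix hr (by norm_num) f1⟩, ap_fix hr (by norm_num) f2⟩
    rw [Kf, hcond, cond_true] at hc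
    simp only [Bool.and_eq_true] at hc
    rw [tb_eq] at hc
    rw [hr (ptOf 3), idx_ptOf (by norm_num)]
    exact hc.1
  · rw [e3]
    have f1 : g (ptOf 1) = ptOf 1 := by
      have := hfix 0 (by norm_num)
      rwa [e0] at this
    have f2 : g (ptOf 2) = ptOf 2 := by
      have := hfix 1 (by norm_num)
      rwa [e1] at this
    have f3 : g (ptOf 3) = ptOf 3 := by
      have := hfix 2 (by norm_num)
      rwa [e2] at this
    obtain ⟨pp, hr, hc⟩ := allF1_spec K_check hF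
    have hcond : (Nat.beq (ap pp 14) 14 && Nat.beq (ap pp 1) 1 && Nat.beq (ap pp 2) 2) = true := by
      simp only [Bool.and_eq_true]
      exact ⟨⟨ap_fix hr (by norm_num) h14, ap_fix hr (by norm_num) f1⟩, ap_fix hr (by norm_num) f2⟩
    rw [Kf, hcond, cond_true] at hc
    simp only [Bool.and_eq_true] at hc
    have h3 := hc.2
    rw [ap_fix hr (by norm_num) f3, cond_true, tb_eq] at h3
    rw [hr (ptOf 4), idx_ptOf (by norm_num)]
    exact h3

theorem K_top : FixC K0 chK.b chK.n = ⊥ := by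
  rw [eq_bot_iff]
  intro g hg
  obtain ⟨e0, e1, e2, e3⟩ := chK_vals
  obtain ⟨b0, b1, b2, b3, b4⟩ := b12_vals
  obtain ⟨hgK, hfix⟩ := mem_FixC.1 hg
  obtain ⟨hF, h14⟩ := mem_K0.1 hgK
  obtain ⟨hH, h0⟩ := mem_F1.1 hF
  have f1 : g (ptOf 1) = ptOf 1 := by
    have := hfix 0 (by norm_num [chK])
    rwa [e0] at this
  have f2 : g (ptOf 2) = ptOf 2 := by
    have := hfix 1 (by norm_num [chK])
    rwa [e1] at this
  have f3 : g (ptOf 3) = ptOf 3 := by
    have := hfix 2 (by norm_num [chK])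
    rwa [e2] at this
  have f4 : g (ptOf 4) = ptOf 4 := by
    have := hfix 3 (by norm_num [chK])
    rwa [e3] at this
  have : g ∈ FixC H12 ch12.b 5 := mem_FixC.2 ⟨hH, fun j hj => by
    have hj' : j = 0 ∨ j = 1 ∨ j = 2 ∨ j = 3 ∨ j = 4 := by omega
    rcases hj' with rfl | rfl | rfl | rfl | rfl
    · rw [b0]; exact h0
    · rw [b1]; exact f1
    · rw [b2]; exact f2
    · rw [b3]; exact f3
    · rw [b4]; exact f4⟩
  rwa [F5_bot] at this

theorem Kinit_mem (H : Subgroup (Equiv.Perm GolayPt)) (hx1 : ∃ g ∈ H, Rep g Kx1) (hx2 : ∃ g ∈ H, Rep g Kx2) :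
    ∀ pp ∈ Kinit, ∃ g ∈ H, Rep g pp := by
  obtain ⟨g1, h1, r1⟩ := hx1
  obtain ⟨g2, h2, r2⟩ := hx2
  intro pp hpp
  simp only [Kinit, List.mem_cons, List.not_mem_nil, or_false] at hpp
  rcases hpp with rfl | rfl | rfl | rfl
  · exact ⟨_, H.inv_mem h2, r2.inv (by decide +kernel)⟩
  · exact ⟨_, H.inv_mem h1, r1.inv (by decide +kernel)⟩
  · exact ⟨_, h2, r2⟩
  · exact ⟨_, h1, r1⟩

theorem mem_K_of_check {pp : ℕ} (h : (validB pp && inK pp) = true) : ∃ g ∈ K0, Rep g pp := by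
  simp only [Bool.and_eq_true] at h
  exact ⟨permOf pp h.1, hK _ _ (rep_permOf _ _) h.2, rep_permOf _ _⟩

theorem K_perfect : commutator K0 = ⊤ := by
  apply perfect_of_le_derivedIn
  obtain ⟨u1, hu1, ru1⟩ := mem_K_of_check (pp := Ku1) (by decide +kernel)
  obtain ⟨v1, hv1, rv1⟩ := mem_K_of_check (pp := Kv1) (by decide +kernel)
  obtain ⟨u2, hu2, ru2⟩ := mem_K_of_check (pp := Ku2) (by decide +kernel)
  obtain ⟨v2, hv2, rv2⟩ := mem_K_of_check (pp := Kv2) (by decide +kernel)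
  have hvalid1 : validB Kx1 = true := by decide +kernel
  have hvalid2 : validB Kx2 = true := by decide +kernel
  have h1 : permOf Kx1 hvalid1 ∈ derivedIn K0 :=
    mem_derivedIn_of_witness (rep_permOf _ _) ru1 rv1 hu1 hv1 (by decide +kernel)
  have h2 : permOf Kx2 hvalid2 ∈ derivedIn K0 :=
    mem_derivedIn_of_witness (rep_permOf _ _) ru2 rv2 hu2 hv2 (by decide +kernel)
  exact ChainData.FixC_le_of_slp hK chK_ok (k₀ := 0) (init := Kinit) (stepR := KstepR) (n := Kn)
    (by norm_num [chK]) K_top himgK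
    (Kinit_mem _ ⟨_, h1, rep_permOf _ _⟩ ⟨_, h2, rep_permOf _ _⟩) (by decide +kernel)

/-- Two-transitivity on the eleven points of the dodecad -/
theorem K_two (x y u v : GolayPt) (hx : x ∈ (GolayBasic.setOf D0).erase (ptOf 0)) (hy : y ∈ (GolayBasic.setOf D0).erase (ptOf 0))
    (hu : u ∈ (GolayBasic.setOf D0).erase (ptOf 0)) (hv : v ∈ (GolayBasic.setOf D0).erase (ptOf 0)) (hxy : x ≠ y) (huv : u ≠ v) :
    ∃ g ∈ K0, g x = u ∧ g y = v := by
  -- first move (ptOf 1, ptOf 2)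
  have key : ∀ a ∈ (GolayBasic.setOf D0).erase (ptOf 0), ∀ c ∈ (GolayBasic.setOf D0).erase (ptOf 0), a ≠ c →
      ∃ g ∈ K0, g (ptOf (chK.b 0)) = a ∧ g (ptOf (chK.b 1)) = c := by
    intro a ha c hc hac
    obtain ⟨g, hg, hm⟩ := ChainData.exists_tuple (K := 2) (y := fun i => if i = 0 then a else c) hK chK_ok (by norm_num [chK])
      (by
        intro g hg k hk z hz hyz
        obtain ⟨e0, e1, e2, e3⟩ := chK_vals
        have hH := (mem_F1.1 (mem_K0.1 hg).1).1
        have h0 := (mem_F1.1 (mem_K0.1 hg).1).2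
        have hz0 : ∀ w ∈ (GolayBasic.setOf D0).erase (ptOf 0), w = g z → D0.testBit (idx z) = true ∧ idx z ≠ 0 := by
          intro w hw hwz
          rw [Finset.mem_erase] at hw
          have h1 : z ∈ GolayBasic.setOf D0 := by
            have := H12_mem_D0 (H12.inv_mem hH) hw.2
            rw [hwz] at this
            simpa using this
          refine ⟨by rwa [mem_setOf] at h1, ?_⟩
          intro he
          apply hw.1
          rw [hwz, ← ptOf_idx z, he, h0]
        have hk' : k = 0 ∨ k = 1 := by omega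
        rcases hk' with rfl | rfl
        · obtain ⟨a1, a2⟩ := hz0 a ha (by simpa using hyz)
          exact K_A0 _ (idx_lt _) a1 a2
        · obtain ⟨a1, a2⟩ := hz0 c hc (by simpa using hyz)
          refine K_A1 _ (idx_lt _) a1 a2 ?_
          intro he
          apply hz 0 (by norm_num)
          rw [e0, ← ptOf_idx z, he])
      (by
        intro i hi j hj
        have hi' : i = 1 := by omega
        have hj' : j = 0 := by omega
        subst hi' hj'
        simpa using hac.symm)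
    exact ⟨g, hg, by simpa using hm 0 (by norm_num), by simpa using hm 1 (by norm_num)⟩
  obtain ⟨g1, hg1, a1, a2⟩ := key x hx y hy hxy
  obtain ⟨g2, hg2, c1, c2⟩ := key u hu v hv huv
  refine ⟨g2 * g1⁻¹, K0.mul_mem hg2 (K0.inv_mem hg1), ?_, ?_⟩
  · rw [← a1, Equiv.Perm.mul_apply]; simp [c1]
  · rw [← a2, Equiv.Perm.mul_apply]; simp [c2]

theorem K_faith (g : Equiv.Perm GolayPt) (hg : g ∈ K0) (hfix : ∀ x ∈ (GolayBasic.setOf D0).erase (ptOf 0), g x = x) : g = 1 := by
  obtain ⟨hF, h14⟩ := mem_K0.1 hg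
  obtain ⟨hH, h0⟩ := mem_F1.1 hF
  apply H12_faithful hH
  intro x hx
  by_cases hx0 : x = ptOf 0
  · rw [hx0, h0]
  · exact hfix x (Finset.mem_erase.2 ⟨hx0, hx⟩)

theorem K_inv (g : Equiv.Perm GolayPt) (hg : g ∈ K0) (x : GolayPt) (hx : x ∈ (GolayBasic.setOf D0).erase (ptOf 0)) :
    g x ∈ (GolayBasic.setOf D0).erase (ptOf 0) := by
  obtain ⟨hF, h14⟩ := mem_K0.1 hg
  obtain ⟨hH, h0⟩ := mem_F1.1 hF
  rw [Finset.mem_erase] at hx ⊢
  refine ⟨fun he => hx.1 ?_, H12_mem_D0 hH hx.2⟩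
  rw [← h0] at he
  exact g.injective he

theorem K_simple : IsSimpleGroup K0 := by
  classical
  haveI : Fact (Nat.Prime 11) := ⟨by norm_num⟩
  have hnt : Nontrivial K0 := by
    apply Finite.one_lt_card_iff_nontrivial.1
    rw [card_K0]; norm_num
  refine simple_of_data (K := K0) (p := 11) ?_ dC dC_ok rfl (fun _ => rfl) rfl (by decide +kernel)
    ?_ (by decide +kernel) (i₀ := 1) (by norm_num) (by decide +kernel)
    (by rw [card_K0]; norm_num) K_perfect ?_ hnt
  · intro g hg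
    exact (mem_K0.1 hg).1.1.1
  · intro c hc
    exact hK _ _ hc (by decide +kernel)
  · intro N hN hbot
    let Ω : Finset GolayPt := (GolayBasic.setOf D0).erase (ptOf 0)
    have hΩ : Ω.card = 11 := by
      rw [Finset.card_erase_of_mem pt0_mem, card_setOf]
      decide +kernel
    have hd := normal_card_dvd (K := K0) Ω (by
        rw [← Finset.card_pos, hΩ]; norm_num)
      (fun x hx y hy u hu v hv hxy huv => K_two x y u v hx hy hu hv hxy huv)
      K_faith K_inv hN hbot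
    rwa [hΩ] at hd

set_option maxRecDepth 100000 in
theorem chk11 : Cfsg.Agent.Lib.H1Rigid.Chk 11 4 2 5 0 := by decide +kernel

set_option maxRecDepth 100000 in
theorem cov11 : ∀ x : ZMod 11, x ≠ 0 → (∃ i < 5, (4 : ZMod 11) ^ i * 1 = x) ∨ (∃ i < 5, (4 : ZMod 11) ^ i * 2 = x) := by decide +kernel

theorem four11 : (4 : ZMod 11) ≠ 0 := by decide
theorem two11 : (2 : ZMod 11) ≠ 0 := by decide
theorem pow11 : (4 : ZMod 11) ^ 5 = 1 := by decide

theorem K_psl : Nonempty (K0 ≃* Matrix.ProjectiveSpecialLinearGroup (Fin 2) (ZMod 11)) := by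
  haveI : Fact (Nat.Prime 11) := ⟨by norm_num⟩
  haveI := K_simple
  let r : (ZMod 11)ˣ := Units.mk0 4 four11
  let n : (ZMod 11)ˣ := Units.mk0 2 two11
  exact Cfsg.Agent.Lib.H1Rigid.iso_PSL2 (q := 11) (ZMod.card 11) 60 (by rw [card_K0]) (by norm_num) (by norm_num) (by norm_num) (by decide) (by norm_num)
    (by decide +kernel) r n (by apply Units.ext; exact pow11) cov11 chk11

/-- The statement on the point stabiliser. -/
theorem psl_stab (d : Finset GolayPt) (hd : d ∈ dodecads) (p q : GolayPt) (hp : p ∈ d) (hq : q ∉ d) :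
    Nonempty (↥(MulAction.stabilizer M24 d ⊓ MulAction.stabilizer M24 p ⊓ MulAction.stabilizer M24 q) ≃*
      Matrix.ProjectiveSpecialLinearGroup (Fin 2) (ZMod 11)) := by
  obtain ⟨w, hw, rfl, rfl⟩ := exists_flag hd hp
  have hq' : w⁻¹ q ∉ GolayBasic.setOf D0 := fun h => hq (by
    rw [Finset.mem_smul_finset]; exact ⟨_, h, by simp⟩)
  -- move `ptOf 14` to `w⁻¹ q`
  obtain ⟨g1, hg1, h1⟩ := exists_tuple11 (fun _ => w⁻¹ q) (k := 1) (by norm_num) (fun _ _ => hq') (fun i hi j hj => by omega)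
  obtain ⟨g2, hg2, h2⟩ := exists_tuple11 (fun _ => ptOf 14) (k := 1) (by norm_num) (fun _ _ => comp14) (fun i hi j hj => by omega)
  have h1' := h1 0 (by norm_num)
  have h2' := h2 0 (by norm_num)
  have hh : (g1 * g2⁻¹) ∈ F1 := F1.mul_mem hg1 (F1.inv_mem hg2)
  have hh14 : (g1 * g2⁻¹) (ptOf 14) = w⁻¹ q := by
    rw [Equiv.Perm.mul_apply, ← h2']
    simp [h1']
  obtain ⟨hH, h0⟩ := mem_F1.1 hh
  set z := w * (g1 * g2⁻¹) with hz
  have hzM : z ∈ M24 := M24.mul_mem hw hH.1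
  have e1 : z • GolayBasic.setOf D0 = w • GolayBasic.setOf D0 := by
    have h2 : (g1 * g2⁻¹) • GolayBasic.setOf D0 = GolayBasic.setOf D0 := hH.2
    rw [hz, mul_smul, h2]
  have e2 : z (ptOf 0) = w (ptOf 0) := by
    rw [hz, Equiv.Perm.mul_apply, h0]
  have e3 : z (ptOf 14) = q := by
    rw [hz, Equiv.Perm.mul_apply, hh14]
    simp
  rw [← e1, ← e2, ← e3]
  obtain ⟨e⟩ := K_psl
  refine ⟨MulEquiv.trans ?_ e⟩
  have hin : ∀ h ∈ K0, ∃ hM : z * h * z⁻¹ ∈ M24, (⟨z * h * z⁻¹, hM⟩ : ↥M24) ∈ (MulAction.stabilizer M24 (z • GolayBasic.setOf D0) ⊓ MulAction.stabilizer M24 (z (ptOf 0)) ⊓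
        MulAction.stabilizer M24 (z (ptOf 14))) := by
    intro h hh
    obtain ⟨hF, h14⟩ := mem_K0.1 hh
    obtain ⟨hH', h0'⟩ := mem_F1.1 hF
    have hM : z * h * z⁻¹ ∈ M24 := M24.mul_mem (M24.mul_mem hzM hH'.1) (M24.inv_mem hzM)
    refine ⟨hM, ⟨⟨?_, ?_⟩, ?_⟩⟩
    · refine MulAction.mem_stabilizer_iff.2 ?_
      show (z * h * z⁻¹) • (z • GolayBasic.setOf D0) = z • GolayBasic.setOf D0
      rw [mul_smul, mul_smul, inv_smul_smul]
      have h2 : h • GolayBasic.setOf D0 = GolayBasic.setOf D0 := hH'.2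
      rw [h2]
    · refine MulAction.mem_stabilizer_iff.2 ?_
      show (z * h * z⁻¹) (z (ptOf 0)) = z (ptOf 0)
      simp [Equiv.Perm.mul_apply, h0']
    · refine MulAction.mem_stabilizer_iff.2 ?_
      show (z * h * z⁻¹) (z (ptOf 14)) = z (ptOf 14)
      simp [Equiv.Perm.mul_apply, h14]
  exact
    { toFun := fun g => ⟨z⁻¹ * (g.1 : Equiv.Perm GolayPt) * z, by
        obtain ⟨⟨a0, a1⟩, a2⟩ := g.2
        have a0' : (g.1 : Equiv.Perm GolayPt) • (z • GolayBasic.setOf D0) = z • GolayBasic.setOf D0 := a0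
        have a1' : (g.1 : Equiv.Perm GolayPt) (z (ptOf 0)) = z (ptOf 0) := a1
        have a2' : (g.1 : Equiv.Perm GolayPt) (z (ptOf 14)) = z (ptOf 14) := a2
        refine mem_K0.2 ⟨mem_F1.2 ⟨⟨M24.mul_mem (M24.mul_mem (M24.inv_mem hzM) g.1.2) hzM, ?_⟩, ?_⟩, ?_⟩
        · refine MulAction.mem_stabilizer_iff.2 ?_
          rw [mul_smul, mul_smul, a0', inv_smul_smul]
        · simp [Equiv.Perm.mul_apply, a1']
        · simp [Equiv.Perm.mul_apply, a2']⟩
      invFun := fun h => ⟨⟨z * h.1 * z⁻¹, (hin h.1 h.2).choose⟩, (hin h.1 h.2).choose_spec⟩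
      left_inv := fun g => by
        apply Subtype.ext
        apply Subtype.ext
        show z * (z⁻¹ * (g.1 : Equiv.Perm GolayPt) * z) * z⁻¹ = g.1
        group
      right_inv := fun h => by
        apply Subtype.ext
        show z⁻¹ * (z * h.1 * z⁻¹) * z = h.1
        group
      map_mul' := fun a b => by
        apply Subtype.ext
        show z⁻¹ * ((a.1 : Equiv.Perm GolayPt) * (b.1 : Equiv.Perm GolayPt)) * z = (z⁻¹ * a.1 * z) * (z⁻¹ * b.1 * z)
        group }

end Cfsg.Agent.Lib.GolayM11C
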