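import Cfsg.Agent.Lib.GolayM11C
/-!
The stabiliser of a pair of points of the complementary dodecad in the smallest Mathieu group.
-/
set_option autoImplicit false
set_option linter.unusedSimpArgs false
set_option linter.unusedVariables false
set_option linter.style.haveILetI false
set_option maxRecDepth 100000
open Cfsg
open scoped Pointwise

namespace Cfsg.Agent.Lib.GolayM11C
open Cfsg.Agent.Lib
open Cfsg.Agent.Lib.GolayBasic Cfsg.Agent.Lib.GolayCode Cfsg.Agent.Lib.GolayPerm Cfsg.Agent.Lib.GolayOrder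
open Cfsg.Agent.Lib.GolayFacts Cfsg.Agent.Lib.GolayTools Cfsg.Agent.Lib.GolayChain Cfsg.Agent.Lib.GolayM23
open Cfsg.Agent.Lib.GolayM12

/-- one step of the factorisation along the chain -/
theorem chain_step {k : ℕ} (hk : k < 5) {g : Equiv.Perm GolayPt} (hg : g ∈ FixC H12 ch12.b k) :
    ∃ y < 24, (ch12.A k).testBit y = true ∧ ∃ t g', Rep t (ch12.T k y) ∧ g' ∈ FixC H12 ch12.b (k + 1) ∧ g = t * g' := by
  have h3 := himg12 k hk g hg
  obtain ⟨t, ht, rt, hmap⟩ := ChainData.exists_trans hH12 ch12_ok (k := k) hk (idx_lt _) h3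
  rw [ptOf_idx] at hmap
  have hmem : t⁻¹ * g ∈ FixC H12 ch12.b (k + 1) := by
    refine ⟨(FixC H12 ch12.b k).mul_mem ((FixC H12 ch12.b k).inv_mem ht) hg, ?_⟩
    show t⁻¹ * g ∈ MulAction.stabilizer (Equiv.Perm GolayPt) (ptOf (ch12.b k))
    rw [MulAction.mem_stabilizer_iff, Equiv.Perm.smul_def, Equiv.Perm.mul_apply, ← hmap]
    simp
  exact ⟨_, idx_lt _, h3, t, _, rt, hmem, by group⟩

/-- running over all the elements of the smallest group -/
def allF1 (f : ℕ → Bool) : Bool :=
  allBelow (fun y1 => cond (tb (ch12.A 1) y1)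
    (allBelow (fun y2 => cond (tb (ch12.A 2) y2)
      (allBelow (fun y3 => cond (tb (ch12.A 3) y3)
        (allBelow (fun y4 => cond (tb (ch12.A 4) y4)
          (f (mulP (ch12.T 1 y1) (mulP (ch12.T 2 y2) (mulP (ch12.T 3 y3) (ch12.T 4 y4))))) true) 24)
        true) 24)
      true) 24)
    true) 24

theorem allF1_spec {f : ℕ → Bool} (h : allF1 f = true) {g : Equiv.Perm GolayPt} (hg : g ∈ F1) :
    ∃ pp, Rep g pp ∧ f pp = true := by
  obtain ⟨y1, h1, a1, t1, g1, r1, m1, e1⟩ := chain_step (k := 1) (by norm_num) hg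
  obtain ⟨y2, h2, a2, t2, g2, r2, m2, e2⟩ := chain_step (k := 2) (by norm_num) m1
  obtain ⟨y3, h3, a3, t3, g3, r3, m3, e3⟩ := chain_step (k := 3) (by norm_num) m2
  obtain ⟨y4, h4, a4, t4, g4, r4, m4, e4⟩ := chain_step (k := 4) (by norm_num) m3
  rw [F5_bot, Subgroup.mem_bot] at m4
  have hr : Rep g (mulP (ch12.T 1 y1) (mulP (ch12.T 2 y2) (mulP (ch12.T 3 y3) (ch12.T 4 y4)))) := by
    rw [e1, e2, e3, e4, m4, mul_one]
    exact r1.mul (r2.mul (r3.mul r4))
  refine ⟨_, hr, ?_⟩
  have s1 := allBelow_spec h y1 h1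
  rw [tb_eq, a1, cond_true] at s1
  have s2 := allBelow_spec s1 y2 h2
  rw [tb_eq, a2, cond_true] at s2
  have s3 := allBelow_spec s2 y3 h3
  rw [tb_eq, a3, cond_true] at s3
  have s4 := allBelow_spec s3 y4 h4
  rw [tb_eq, a4, cond_true] at s4
  exact s4

/-- the pair -/
def pair : Finset GolayPt := {ptOf 7, ptOf 10}

/-- mask of five points -/
def OM : ℕ := 2 + 4 + 8 + 16 + 4096

/-- the five points -/
def O5 : Finset GolayPt := GolayBasic.setOf OM

/-- the group -/
def R0 : Subgroup (Equiv.Perm GolayPt) := F1 ⊓ MulAction.stabilizer (Equiv.Perm GolayPt) pair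

theorem mem_R0 {g : Equiv.Perm GolayPt} : g ∈ R0 ↔ g ∈ F1 ∧ g • pair = pair := Iff.rfl

/-- check of invariance -/
def R0f (pp : ℕ) : Bool :=
  cond ((Nat.beq (ap pp 7) 7 || Nat.beq (ap pp 7) 10) && (Nat.beq (ap pp 10) 7 || Nat.beq (ap pp 10) 10))
    (allBelow (fun i => cond (tb OM i) (tb OM (ap pp i)) true) 24) true

theorem R0_check : allF1 R0f = true := by decide +kernel

theorem R0_inv {g : Equiv.Perm GolayPt} (hg : g ∈ R0) {x : GolayPt} (hx : x ∈ O5) : g x ∈ O5 := by
  obtain ⟨hF, hp⟩ := mem_R0.1 hg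
  obtain ⟨pp, hr, hc⟩ := allF1_spec R0_check hF
  have hmem : ∀ a ∈ pair, g a ∈ pair := by
    intro a ha
    have := Finset.smul_mem_smul_finset (a := g) ha
    rwa [hp] at this
  have hval : ∀ a ∈ pair, idx (g a) = 7 ∨ idx (g a) = 10 := by
    intro a ha
    have h1 := hmem a ha
    simp only [pair, Finset.mem_insert, Finset.mem_singleton] at h1
    rcases h1 with h1 | h1
    · left; rw [h1]; exact idx_ptOf (by norm_num)
    · right; rw [h1]; exact idx_ptOf (by norm_num)
  have h7 := hval (ptOf 7) (by simp [pair])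
  have h10 := hval (ptOf 10) (by simp [pair])
  rw [hr (ptOf 7), idx_ptOf (by norm_num)] at h7
  rw [hr (ptOf 10), idx_ptOf (by norm_num)] at h10
  have hcond : ((Nat.beq (ap pp 7) 7 || Nat.beq (ap pp 7) 10) && (Nat.beq (ap pp 10) 7 || Nat.beq (ap pp 10) 10)) = true := by
    simp only [Bool.and_eq_true, Bool.or_eq_true]
    refine ⟨?_, ?_⟩
    · rcases h7 with h | h
      · left; rw [h]; rfl
      · right; rw [h]; rfl
    · rcases h10 with h | h
      · left; rw [h]; rfl
      · right; rw [h]; rfl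
  rw [R0f, hcond, cond_true] at hc
  have h1 := allBelow_spec hc (idx x) (idx_lt x)
  have hx' : x ∈ GolayBasic.setOf OM := hx
  rw [mem_setOf] at hx'
  rw [tb_eq, hx', cond_true, tb_eq] at h1
  show g x ∈ GolayBasic.setOf OM
  rw [mem_setOf, hr x]
  exact h1

/-- moving pairs in the complement -/
theorem move2 {a b c e : GolayPt} (ha : a ∉ GolayBasic.setOf D0) (hb : b ∉ GolayBasic.setOf D0) (hc : c ∉ GolayBasic.setOf D0)
    (he : e ∉ GolayBasic.setOf D0) (hab : a ≠ b) (hce : c ≠ e) : ∃ g ∈ F1, g a = c ∧ g b = e := by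
  have key : ∀ u v : GolayPt, u ∉ GolayBasic.setOf D0 → v ∉ GolayBasic.setOf D0 → u ≠ v →
      ∃ g ∈ F1, g (ptOf (ch11.b 0)) = u ∧ g (ptOf (ch11.b 1)) = v := by
    intro u v hu hv huv
    obtain ⟨g, hg, hm⟩ := exists_tuple11 (fun i => if i = 0 then u else v) (k := 2) (by norm_num)
      (by
        intro i hi
        have : i = 0 ∨ i = 1 := by omega
        rcases this with rfl | rfl
        · simpa using hu
        · simpa using hv)
      (by
        intro i hi j hj
        have hi' : i = 1 := by omega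
        have hj' : j = 0 := by omega
        subst hi' hj'
        simpa using huv.symm)
    exact ⟨g, hg, by simpa using hm 0 (by norm_num), by simpa using hm 1 (by norm_num)⟩
  obtain ⟨g1, hg1, a1, a2⟩ := key a b ha hb hab
  obtain ⟨g2, hg2, c1, c2⟩ := key c e hc he hce
  refine ⟨g2 * g1⁻¹, F1.mul_mem hg2 (F1.inv_mem hg1), ?_, ?_⟩
  · rw [← a1, Equiv.Perm.mul_apply]; simp [c1]
  · rw [← a2, Equiv.Perm.mul_apply]; simp [c2]

theorem comp7 : (ptOf 7) ∉ GolayBasic.setOf D0 := by
  rw [mem_setOf, idx_ptOf (by norm_num)]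
  decide +kernel

theorem comp10 : (ptOf 10) ∉ GolayBasic.setOf D0 := by
  rw [mem_setOf, idx_ptOf (by norm_num)]
  decide +kernel

theorem ne710 : ptOf 7 ≠ ptOf 10 := by
  intro he
  have := congrArg idx he
  rw [idx_ptOf (by norm_num), idx_ptOf (by norm_num)] at this
  omega

theorem card_R0 : Nat.card R0 = 120 := by
  classical
  have h := card_eq_mul_of_orbit' (G := Equiv.Perm GolayPt) F1 pair (Finset.powersetCard 2 (GolayBasic.setOf D0)ᶜ)
    (fun g hg => by
      rw [Finset.mem_powersetCard]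
      constructor
      · intro x hx
        rw [Finset.mem_smul_finset] at hx
        obtain ⟨z, hz, rfl⟩ := hx
        rw [Finset.mem_compl]
        apply H12_not_mem (mem_F1.1 hg).1
        simp only [pair, Finset.mem_insert, Finset.mem_singleton] at hz
        rcases hz with rfl | rfl
        · exact comp7
        · exact comp10
      · rw [Finset.card_smul_finset, pair, Finset.card_pair ne710])
    (fun y hy => by
      rw [Finset.mem_powersetCard] at hy
      obtain ⟨a, b, hab, rfl⟩ := Finset.card_eq_two.1 hy.2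
      have ha : a ∉ GolayBasic.setOf D0 := by
        have := hy.1 (Finset.mem_insert_self a {b})
        rwa [Finset.mem_compl] at this
      have hb : b ∉ GolayBasic.setOf D0 := by
        have := hy.1 (Finset.mem_insert_of_mem (Finset.mem_singleton_self b))
        rwa [Finset.mem_compl] at this
      obtain ⟨g, hg, h1, h2⟩ := move2 comp7 comp10 ha hb ne710 hab
      refine ⟨g, hg, ?_⟩
      rw [pair, Finset.smul_finset_insert, Finset.smul_finset_singleton]
      show {g (ptOf 7), g (ptOf 10)} = _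
      rw [h1, h2])
  have hc : (Finset.powersetCard 2 (GolayBasic.setOf D0)ᶜ).card = 66 := by
    rw [Finset.card_powersetCard, Finset.card_compl, card_setOf]
    have : pc D0 = 12 := by decide +kernel
    rw [this]
    simp
    decide
  rw [hc, card_F1] at h
  show Nat.card (F1 ⊓ MulAction.stabilizer (Equiv.Perm GolayPt) pair : Subgroup _) = 120
  omega

theorem card_O5 : O5.card = 5 := by
  rw [O5, card_setOf]
  decide +kernel

/-- the action on the five points -/
def rho : R0 →* Equiv.Perm ↥O5 where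
  toFun g :=
    { toFun := fun x => ⟨g.1 x.1, R0_inv g.2 x.2⟩
      invFun := fun x => ⟨g.1⁻¹ x.1, R0_inv (R0.inv_mem g.2) x.2⟩
      left_inv := fun x => by
        apply Subtype.ext
        simp
      right_inv := fun x => by
        apply Subtype.ext
        simp }
  map_one' := by
    apply Equiv.ext
    intro x
    rfl
  map_mul' a b := by
    apply Equiv.ext
    intro x
    rfl

theorem rho_inj : Function.Injective rho := by
  rw [injective_iff_map_eq_one]
  intro g hg
  obtain ⟨hF, hp⟩ := mem_R0.1 g.2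
  obtain ⟨hH, h0⟩ := mem_F1.1 hF
  apply Subtype.ext
  show g.1 = 1
  obtain ⟨b0, b1, b2, b3, b4⟩ := b12_vals
  have hfix : ∀ x (hx : x ∈ O5), g.1 x = x := by
    intro x hx
    have := congrArg (fun e : Equiv.Perm ↥O5 => (e ⟨x, hx⟩ : GolayPt)) hg
    exact this
  have pm : ∀ i, i < 24 → OM.testBit i = true → ptOf i ∈ O5 := by
    intro i hi hb
    show ptOf i ∈ GolayBasic.setOf OM
    rw [mem_setOf, idx_ptOf hi]
    exact hb
  have : g.1 ∈ FixC H12 ch12.b 5 := mem_FixC.2 ⟨hH, fun j hj => by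
    have hj' : j = 0 ∨ j = 1 ∨ j = 2 ∨ j = 3 ∨ j = 4 := by omega
    rcases hj' with rfl | rfl | rfl | rfl | rfl
    · rw [b0]; exact h0
    · rw [b1]; exact hfix _ (pm 1 (by norm_num) (by decide +kernel))
    · rw [b2]; exact hfix _ (pm 2 (by norm_num) (by decide +kernel))
    · rw [b3]; exact hfix _ (pm 3 (by norm_num) (by decide +kernel))
    · rw [b4]; exact hfix _ (pm 4 (by norm_num) (by decide +kernel))⟩
  rwa [F5_bot] at this

theorem R0_iso : Nonempty (R0 ≃* Equiv.Perm (Fin 5)) := by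
  classical
  have hcard : Nat.card (Equiv.Perm ↥O5) = 120 := by
    rw [Nat.card_eq_fintype_card, Fintype.card_perm, Fintype.card_coe, card_O5]
    rfl
  have hb : Function.Bijective rho :=
    rho_inj.bijective_of_nat_card_le (by rw [card_R0, hcard])
  have e : ↥O5 ≃ Fin 5 := Fintype.equivFinOfCardEq (by rw [Fintype.card_coe, card_O5])
  exact ⟨(MulEquiv.ofBijective rho hb).trans (Equiv.permCongrHom e)⟩

/-- The statement on pairs. -/
theorem s5_stab (d : Finset GolayPt) (hd : d ∈ dodecads) (p q q' : GolayPt) (hp : p ∈ d) (hq : q ∉ d) (hq' : q' ∉ d) (hqq' : q ≠ q') :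
    Nonempty (↥(MulAction.stabilizer M24 d ⊓ MulAction.stabilizer M24 p ⊓ MulAction.stabilizer M24 ({q, q'} : Finset GolayPt)) ≃*
      Equiv.Perm (Fin 5)) := by
  obtain ⟨w, hw, rfl, rfl⟩ := exists_flag hd hp
  have hq1 : w⁻¹ q ∉ GolayBasic.setOf D0 := fun h => hq (by
    rw [Finset.mem_smul_finset]; exact ⟨_, h, by simp⟩)
  have hq2 : w⁻¹ q' ∉ GolayBasic.setOf D0 := fun h => hq' (by
    rw [Finset.mem_smul_finset]; exact ⟨_, h, by simp⟩)
  obtain ⟨c, hc, c1, c2⟩ := move2 comp7 comp10 hq1 hq2 ne710 (fun he => hqq' (w⁻¹.injective he))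
  obtain ⟨hH, h0⟩ := mem_F1.1 hc
  set z := w * c with hz
  have hzM : z ∈ M24 := M24.mul_mem hw hH.1
  have e1 : z • GolayBasic.setOf D0 = w • GolayBasic.setOf D0 := by
    have h2 : c • GolayBasic.setOf D0 = GolayBasic.setOf D0 := hH.2
    rw [hz, mul_smul, h2]
  have e2 : z (ptOf 0) = w (ptOf 0) := by
    rw [hz, Equiv.Perm.mul_apply, h0]
  have e3 : z • pair = {q, q'} := by
    rw [pair, Finset.smul_finset_insert, Finset.smul_finset_singleton]
    show {z (ptOf 7), z (ptOf 10)} = _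
    rw [hz, Equiv.Perm.mul_apply, Equiv.Perm.mul_apply, c1, c2]
    simp
  rw [← e1, ← e2, ← e3]
  obtain ⟨e⟩ := R0_iso
  refine ⟨MulEquiv.trans ?_ e⟩
  have hin : ∀ h ∈ R0, ∃ hM : z * h * z⁻¹ ∈ M24, (⟨z * h * z⁻¹, hM⟩ : ↥M24) ∈ (MulAction.stabilizer M24 (z • GolayBasic.setOf D0) ⊓ MulAction.stabilizer M24 (z (ptOf 0)) ⊓
        MulAction.stabilizer M24 (z • pair)) := by
    intro h hh
    obtain ⟨hF, h14⟩ := mem_R0.1 hh
    obtain ⟨hH', h0'⟩ := mem_F1.1 hF
    have hM : z * h * z⁻¹ ∈ M24 := M24.mul_mem (M24.mul_mem hzM hH'.1) (M24.inv_mem hzM)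
    refine ⟨hM, ⟨⟨?_, ?_⟩, ?_⟩⟩
    · refine MulAction.mem_stabilizer_iff.2 ?_
      show (z * h * z⁻¹) • (z • GolayBasic.setOf D0) = z • GolayBasic.setOf D0
      rw [mul_smul, mul_smul, inv_smul_smul]
      have h2 : h • GolayBasic.setOf D0 = GolayBasic.setOf D0 := hH'.2
      rw [h2]
    · refine MulAction.mem_stabilizer_iff.2 ?_
      show (z * h * z⁻¹) (z (ptOf 0)) = z (ptOf 0)
      simp [Equiv.Perm.mul_apply, h0']
    · refine MulAction.mem_stabilizer_iff.2 ?_
      show (z * h * z⁻¹) • (z • pair) = z • pair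
      rw [mul_smul, mul_smul, inv_smul_smul, h14]
  exact
    { toFun := fun g => ⟨z⁻¹ * (g.1 : Equiv.Perm GolayPt) * z, by
        obtain ⟨⟨a0, a1⟩, a2⟩ := g.2
        have a0' : (g.1 : Equiv.Perm GolayPt) • (z • GolayBasic.setOf D0) = z • GolayBasic.setOf D0 := a0
        have a1' : (g.1 : Equiv.Perm GolayPt) (z (ptOf 0)) = z (ptOf 0) := a1
        have a2' : (g.1 : Equiv.Perm GolayPt) • (z • pair) = z • pair := a2
        refine mem_R0.2 ⟨mem_F1.2 ⟨⟨M24.mul_mem (M24.mul_mem (M24.inv_mem hzM) g.1.2) hzM, ?_⟩, ?_⟩, ?_⟩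
        · refine MulAction.mem_stabilizer_iff.2 ?_
          rw [mul_smul, mul_smul, a0', inv_smul_smul]
        · simp [Equiv.Perm.mul_apply, a1']
        · rw [mul_smul, mul_smul, a2', inv_smul_smul]⟩
      invFun := fun h => ⟨⟨z * h.1 * z⁻¹, (hin h.1 h.2).choose⟩, (hin h.1 h.2).choose_spec⟩
      left_inv := fun g => by
        apply Subtype.ext
        apply Subtype.ext
        show z * (z⁻¹ * (g.1 : Equiv.Perm GolayPt) * z) * z⁻¹ = g.1
        group
      right_inv := fun h => by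
        apply Subtype.ext
        show z⁻¹ * (z * h.1 * z⁻¹) * z = h.1
        group
      map_mul' := fun a b => by
        apply Subtype.ext
        show z⁻¹ * ((a.1 : Equiv.Perm GolayPt) * (b.1 : Equiv.Perm GolayPt)) * z = (z⁻¹ * a.1 * z) * (z⁻¹ * b.1 * z)
        group }

end Cfsg.Agent.Lib.GolayM11C
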