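import Cfsg.Agent.Lib.GolayCount
import Cfsg.Agent.Lib.BlockCrit
/-!
The stabiliser of an octad.
-/
set_option autoImplicit false
set_option linter.unusedSimpArgs false
set_option linter.unusedVariables false
set_option linter.style.haveILetI false
set_option maxRecDepth 100000
open Cfsg
open scoped Pointwise

namespace Cfsg.Agent.Lib.GolayOctad
open Cfsg.Agent.Lib
open Cfsg.Agent.Lib.GolayBasic Cfsg.Agent.Lib.GolayCode Cfsg.Agent.Lib.GolayPerm Cfsg.Agent.Lib.GolayOrder
open Cfsg.Agent.Lib.GolayFacts Cfsg.Agent.Lib.GolayTools Cfsg.Agent.Lib.GolayChain Cfsg.Agent.Lib.GolayM12 Cfsg.Agent.Lib.GolayCount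

/-- elements of the octad fixer -/
def eR : ℕ := 153331435843498701864833756746590259651084759646119000266725946933949748225228974684786953795594974243526703928648737639738948877350490401017766908784189443742711805295805029547616385760329861696650232270707257880748369455867864485931288957482754379023286740730967103941329981116953585274298359858943713095391550631254355199187339563044964247312220703258562128993436657732995219363306733767499478516935496997455123687069158430187439128376706036376611796024472878381388089793948115944624454194340427572966671386405291886496792267018020889549827559202869748685944185485632672009831271394311133534702940099720436882920862549833888610010520674282819762282727765063940417604676820392816664541360773484218030126414073381563735799163722987633730000800463715906215898369247813808151588472418572631578455162044546115746740742616349700958212523524830242510208151128505034211328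
/-- generators of the octad stabiliser -/
def hR : ℕ := 413782933329846833449756591157332657548387411151823780872405596116194801193765790891706925914351445521567745
/-- octad forest: parent -/
def oparR : ℕ := 161740899486369912575443487454384030856891837018999818122409139597615283718643491333993919142605994756806675470289243426888883341836119382673528450245609500661865496509281882353399333055074305496778101744936928885595536315602259234416519430808736053489591666999467351788471268275928519440182853137684550338447784716270799673647585244780535309759377655314778869353985203915340350080923893744769762426186075453716954408206729747243339811552681103168285749307232222570398259150281142125011149535160688572795682764890613614086541195657286829829092316429399203172855374876092600245487619966570089427291679187545557634283322660550791578777215393347004448008572423888809998530463259683421652107212684145529353056694527482196098720922681111570539933537390407013352606900813795283275780582820121578404425266450120752212762311862265995584994869102983407408070572941976384430161121279902413539719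25629106627402982549480991056921534260665382165365940444098281517653041973852653684443228937902943980125966907901749493159703481403114211067518288240166769269465939682102962764549736160533245154078254147337096416533931905684612413558798761623360332462581887090525374193426084453011667408631389875543325583276761638652952265259916724820549763708723027944151706015039178779512559274401627362490381012312521423548722255258008199943731349806003353099142952407057514040568041312897765191874306722275448342765857925398864599428491764488200338612224694285109858170836796465703172586661600364476685828775641268084031912369481351744138001460091959533758035403005396650298482012442665208974949848545504599302449036063669616850764100645514441016242314935513322676264781908721028691553441109911035586957731279613987200585058890978872045752507176296809781017187085315545865537584160662833611632323546112258764430074409368313322728061917335886745962134181082822962470798637358410654217653218249908371161608350121367003649247506164915200183931678218268711288300642972385124142760063691359217091936436192965248727558922420532410901740146880094984111995048695559819659144192874927363387881683073930392845834078285093655276315996419263591279421979604164708910671459669087010796416769550687335688741510740160557033772074436342268187457763530004314101414722171862799754989855692215112642585653334782836437153767467055104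
/-- octad forest: parent -/
def opar (i : ℕ) : ℕ := rom oparR 10 i
/-- octad forest: generator -/
def ogiR : ℕ := 2346445619345695542202028428841114351029265414354739741673874726827589345642107329523109303837249805169844150447499799871314132699219790798115734487732788040995100564828241484116971540606184930056511991008807772443384169073906312632185326270409731982652565712086965298929371393373796525797585161773516467694852170693891236969869233285914119143972391460937763283696140466842166403104952526185910841788182222220404764121674127672141743666341208435815362333000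
/-- octad forest: generator -/
def ogi (i : ℕ) : ℕ := rom ogiR 2 i
/-- octad forest: depth -/
def odepR : ℕ := 49724447122481348772992668800992089967541690619597299514386681068406322207487550569346522821915475300335995820939838705856797274100315947962655051326163927418381968611844032780550101270164068659302338262330616788066993438298719523185819969887557866761873360221186340161445866274249182100573532753790681608491066264026161812661530887572309176573389667171875093707687771832013998101468699185169681820210080426500154840713713358065385841595578246751249829658950290562326138784491887060953505608818260235768915292156277200506507754121317864145854325402953903361438143953595238926609815614609532498571029608289144367237760364320358360290887801643690386718005373214177193722233014284050436441835225662494016696960420065681965162410113194933024109373249184512913093776986481096131259944075037560665628021053866271506226075754960132306882116723579014267960322498608236152039460687943884458804713987062757591712484839866035014813479140461892886433900307477368209093684483369437054026795999217831376311429477464082655208370422216063469137189602392928487884352239828601472859486481092904152208647793289538492411585666430564587520579609506531662642524675366546398720473515546156070149986220124143782169514031964089561814215523748746334173371310183290325688729386554266427522967895820338622705364553950171386445515870302372528490531398336910270580168020015463503427880556102475858176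
/-- octad forest: depth -/
def odep (i : ℕ) : ℕ := rom odepR 6 i
/-- octad forest: root -/
def ortR : ℕ := 3672133575614434535815557110507945376396685709542962017095021736343095799465310117811681921881193843159348211880947838674251402677630811626315576673618569901491699674287093471900781675618315178786495976614523886066462896412856520047923862126879534323010437199692670987125362612171312326566387851926201319229781520902395371982471539864344248572988240979667242285715142973800387805642734297239192157336247988068118855381006827681313432190594433937459509032481971930314725557070253728578661976727094786326913306910605778905718357954564631207769512765496924261686854860685724897129170681892138988981023311766995137704873271645021563203542350163381502965418321599336057009769160539689037290770820964970712760166624400775036184508654495267852486295093932449296631608165517365902213753343353276631558951692044501520455188987906903467819888035382046750121226110528359286487081323795468458447962630284023142513713421624950690360921757945268691525333427586037157602275532441440512662679592025772415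73339949624275499377929416888356092002128993000956744530696433928159922275701850918527322159165251049714844055065266306786642593436925538910371691670645484346380537659518144354954791853724880305732273062533793722182702348821061375811099131706996664302045543926892189703319758558343111144084947446048359996622489963649368482296722099659075555812922470820091947656575533410152499634031425626418171124751969037318214284342160385959499639130890316420894400993614843865111895937403651711499096728462662939959868230503652203242527476396956916605466224550170793481184854323142649135492739208934762928943012216473514200604459458251632253173176622992098710902692295102107987111242443337130662755922463707693841758067572668711918140729369817728356594434002894896073419831967186652731460255909985381538358917782042462514686177090524173935038430105086891576139325484000512538410616866465088147745076346625182735398690126890058530632554419293865897600842521870178498858279176822017009055279668311660926378448653792392127137665655469891151584329983699987375780313443237579312376169764965838357035277698587732323384087989870311510536602978542939051073962603305503682932793283009669111565320622046946158208644043931095776239714168386267867990480445692525088844755265938728863643274355856360422479031697408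
/-- octad forest: root -/
def ort (i : ℕ) : ℕ := rom ortR 10 i
/-- octad forest: root by intersection size -/
def okeyR : ℕ := 475107847108555862729293849
/-- octad forest: root by intersection size -/
def okey (i : ℕ) : ℕ := rom okeyR 10 i

/-- the stabiliser of the base octad -/
def H8 : Subgroup (Equiv.Perm GolayPt) := M24 ⊓ MulAction.stabilizer (Equiv.Perm GolayPt) (GolayBasic.setOf O0)

theorem mem_H8_of_check {g : Equiv.Perm GolayPt} {pp : ℕ} (h : Rep g pp)
    (hc : (inM24B pp && Nat.beq (img pp O0) O0) = true) : g ∈ H8 := by
  simp only [Bool.and_eq_true] at hc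
  refine ⟨mem_M24_of_check h hc.1, ?_⟩
  show g • GolayBasic.setOf O0 = GolayBasic.setOf O0
  rw [smul_setOf h, Nat.eq_of_beq_eq_true hc.2]

/-- the generators of the stabiliser -/
theorem hR_rep : ∀ j < 3, ∃ g ∈ H8, Rep g (rom hR 120 j) := by
  intro j hj
  have hc : allBelow (fun j => validB (rom hR 120 j) && (inM24B (rom hR 120 j) && Nat.beq (img (rom hR 120 j) O0) O0)) 3 = true := by
    decide +kernel
  have h := allBelow_spec hc j hj
  simp only [Bool.and_eq_true] at h
  exact ⟨permOf _ h.1, mem_H8_of_check (rep_permOf _ _) (by simp only [Bool.and_eq_true]; exact h.2), rep_permOf _ _⟩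

theorem oct_forest : forestOK 759 ort opar odep (maskStep 3 (fun j => rom hR 120 j) octAt ogi) = true := by
  decide +kernel

theorem ort_key : allBelow (fun i => Nat.beq (ort i) (okey (pc (Nat.land (octAt i) O0)))) 759 = true := by
  decide +kernel

/-- Octads meeting the base octad equally are conjugate under its stabiliser. -/
theorem octad_orbit {a c : Finset GolayPt} (ha : a ∈ octads) (hc : c ∈ octads)
    (h : (GolayBasic.setOf O0 ∩ a).card = (GolayBasic.setOf O0 ∩ c).card) : ∃ g ∈ H8, g • a = c := by
  obtain ⟨i, hi, rfl⟩ := mem_octads_iff.1 ha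
  obtain ⟨j, hj, rfl⟩ := mem_octads_iff.1 hc
  rw [card_setOf_inter, card_setOf_inter, Nat.land_comm O0, Nat.land_comm O0] at h
  have h1 := mask_forest hR_rep oct_forest i hi
  have h2 := mask_forest hR_rep oct_forest j hj
  have hrt : ort i = ort j := by
    have h3 := Nat.eq_of_beq_eq_true (allBelow_spec ort_key i hi)
    have h4 := Nat.eq_of_beq_eq_true (allBelow_spec ort_key j hj)
    rw [h3, h4]
    have h5 : pc (Nat.land (octAt i) O0) = pc (Nat.land (octAt j) O0) := h
    rw [h5]
  rw [hrt] at h1
  obtain ⟨g, hg, hg1⟩ := h1
  obtain ⟨g', hg', hg2⟩ := h2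
  refine ⟨g' * g⁻¹, H8.mul_mem hg' (H8.inv_mem hg), ?_⟩
  rw [mul_smul, ← hg1, inv_smul_smul, hg2]

/-- general form -/
theorem octad_orbit' {o a c : Finset GolayPt} (ho : o ∈ octads) (ha : a ∈ octads) (hc : c ∈ octads)
    (h : (o ∩ a).card = (o ∩ c).card) : ∃ g ∈ M24, g • o = o ∧ g • a = c := by
  obtain ⟨w, hw, rfl⟩ := exists_smul_O0 ho
  have ha' := M24_smul_octad (M24.inv_mem hw) ha
  have hc' := M24_smul_octad (M24.inv_mem hw) hc
  have hh : (GolayBasic.setOf O0 ∩ w⁻¹ • a).card = (GolayBasic.setOf O0 ∩ w⁻¹ • c).card := by
    have h1 := card_smul_inter w⁻¹ (w • GolayBasic.setOf O0) a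
    have h2 := card_smul_inter w⁻¹ (w • GolayBasic.setOf O0) c
    rw [inv_smul_smul] at h1 h2
    rw [h1, h2, h]
  obtain ⟨g, hg, hgac⟩ := octad_orbit ha' hc' hh
  have hgO : g • GolayBasic.setOf O0 = GolayBasic.setOf O0 := hg.2
  refine ⟨w * g * w⁻¹, M24.mul_mem (M24.mul_mem hw hg.1) (M24.inv_mem hw), ?_, ?_⟩
  · rw [mul_smul, mul_smul, inv_smul_smul, hgO]
  · rw [mul_smul, mul_smul, hgac, smul_inv_smul]

/-- counts of octads by intersection with a given octad -/
theorem octad_count (o : Finset GolayPt) (ho : o ∈ octads) (k : ℕ) :
    {a : Finset GolayPt | a ∈ octads ∧ (o ∩ a).card = k}.ncard =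
      countBelow (fun i => Nat.beq (pc (Nat.land O0 (octAt i))) k) 759 := by
  obtain ⟨w, hw, rfl⟩ := exists_smul_O0 ho
  rw [ncard_sep_smul w (octads_smul hw) (octads_smul' hw)
      (fun a => (GolayBasic.setOf O0 ∩ a).card = k) (fun a => (w • GolayBasic.setOf O0 ∩ a).card = k)
      (fun a => by rw [card_smul_inter])]
  apply ncard_octads_sep
  intro i hi
  rw [card_setOf_inter]
  exact ⟨fun h => by rw [← h]; exact Nat.beq_refl _, fun h => Nat.eq_of_beq_eq_true h⟩

/-- all octads -/
noncomputable def octF : Finset (Finset GolayPt) := (Finset.range 759).image (fun i => GolayBasic.setOf (octAt i))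

theorem mem_octF {d : Finset GolayPt} : d ∈ octF ↔ d ∈ octads := by
  rw [mem_octads_iff]
  simp only [octF, Finset.mem_image, Finset.mem_range]
  constructor
  · rintro ⟨i, hi, rfl⟩
    exact ⟨i, hi, rfl⟩
  · rintro ⟨i, hi, rfl⟩
    exact ⟨i, hi, rfl⟩

theorem octF_card : octF.card = 759 := by
  rw [octF, Finset.card_image_of_injOn, Finset.card_range]
  intro i hi j hj h
  exact setOf_octAt_inj (by simpa using hi) (by simpa using hj) h

/-- sizes of the suborbits -/
def cOct (t : ℕ) : ℕ := if t = 0 then 30 else if t = 2 then 448 else if t = 4 then 280 else if t = 8 then 1 else 0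

theorem octad_count_values : countBelow (fun i => Nat.beq (pc (Nat.land O0 (octAt i))) 0) 759 = 30 ∧
    countBelow (fun i => Nat.beq (pc (Nat.land O0 (octAt i))) 2) 759 = 448 ∧
    countBelow (fun i => Nat.beq (pc (Nat.land O0 (octAt i))) 4) 759 = 280 ∧
    countBelow (fun i => Nat.beq (pc (Nat.land O0 (octAt i))) 8) 759 = 1 := by decide +kernel

theorem octad_count_t {o : Finset GolayPt} (ho : o ∈ octads) {t : ℕ} (ht : t = 0 ∨ t = 2 ∨ t = 4 ∨ t = 8) :
    {a : Finset GolayPt | a ∈ octads ∧ (o ∩ a).card = t}.ncard = cOct t := by
  rw [octad_count o ho]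
  obtain ⟨h0, h2, h4, h8⟩ := octad_count_values
  rcases ht with rfl | rfl | rfl | rfl
  · exact h0
  · exact h2
  · exact h4
  · exact h8

theorem filter_eq (o : Finset GolayPt) (t : ℕ) :
    ((octF.filter (fun a => (o ∩ a).card = t) : Finset _) : Set (Finset GolayPt)) =
      {a : Finset GolayPt | a ∈ octads ∧ (o ∩ a).card = t} := by
  ext a
  simp only [Finset.coe_filter, Set.mem_ofPred_eq, mem_octF]

theorem hdiv_check : ∀ S ⊆ ({0, 2, 4, 8} : Finset ℕ), 8 ∈ S → (∑ t ∈ S, cOct t) ∣ 759 → S = {8} ∨ S = {0, 2, 4, 8} := by
  decide +revert

/-- The stabiliser of an octad is maximal. -/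
theorem octad_coatom {o : Finset GolayPt} (ho : o ∈ octads) : IsCoatom (MulAction.stabilizer M24 o) := by
  classical
  have h8 : (o ∩ o).card = 8 := by
    rw [Finset.inter_self]; exact steiner.1 o ho
  have hcnt : ∀ t ∈ ({0, 2, 4, 8} : Finset ℕ), (octF.filter (fun a => (o ∩ a).card = t)).card = cOct t := by
    intro t ht
    have ht' : t = 0 ∨ t = 2 ∨ t = 4 ∨ t = 8 := by simpa using ht
    rw [← octad_count_t ho ht', ← filter_eq, Set.ncard_coe_finset]
  refine BlockCrit.isCoatom_stabilizer (G := M24) o octF (mem_octF.2 ho)
    (fun g a ha => mem_octF.2 (M24_smul_octad g.2 (mem_octF.1 ha)))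
    (fun a ha => by
      obtain ⟨g, hg, h⟩ := transitive_octads ho (mem_octF.1 ha)
      exact ⟨⟨g, hg⟩, h⟩)
    (fun a => (o ∩ a).card) {0, 2, 4, 8} ?_ ?_ ?_ ?_ cOct hcnt ?_ ?_
  · intro a ha
    show (o ∩ a).card ∈ ({0, 2, 4, 8} : Finset ℕ)
    rcases octad_octad_inter ho (mem_octF.1 ha) with h | h | h | h <;> rw [h] <;> decide
  · intro a ha c hc h
    obtain ⟨g, hg, h1, h2⟩ := octad_orbit' ho (mem_octF.1 ha) (mem_octF.1 hc) h
    exact ⟨⟨g, hg⟩, h1, h2⟩
  · intro t ht
    have h1 := hcnt t ht
    have ht' : t = 0 ∨ t = 2 ∨ t = 4 ∨ t = 8 := by simpa using ht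
    have h2 : 0 < (octF.filter (fun a => (o ∩ a).card = t)).card := by
      rw [h1]
      rcases ht' with rfl | rfl | rfl | rfl <;> decide
    obtain ⟨a, ha⟩ := Finset.card_pos.1 h2
    exact ⟨a, (Finset.mem_filter.1 ha).1, (Finset.mem_filter.1 ha).2⟩
  · intro a ha h
    have : (o ∩ a).card = 8 := h.trans h8
    exact (octad_eq_of_inter ho (mem_octF.1 ha) (by omega)).symm
  · intro S hS hx hd
    rw [h8] at hx ⊢
    rw [octF_card] at hd
    exact hdiv_check S hS hx hd
  · have h0 := hcnt 0 (by simp)
    have h2 : 0 < (octF.filter (fun a => (o ∩ a).card = 0)).card := by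
      rw [h0]; decide
    obtain ⟨a, ha⟩ := Finset.card_pos.1 h2
    refine ⟨a, (Finset.mem_filter.1 ha).1, ?_⟩
    rintro rfl
    have := (Finset.mem_filter.1 ha).2
    omega

/-! ### The pointwise stabiliser of an octad -/

/-- pointwise stabiliser of an octad in the group -/
def KK (o : Finset GolayPt) : Subgroup (Equiv.Perm GolayPt) :=
  M24 ⊓ fixingSubgroup (Equiv.Perm GolayPt) (o : Set GolayPt)

theorem mem_KK {o : Finset GolayPt} {g : Equiv.Perm GolayPt} : g ∈ KK o ↔ g ∈ M24 ∧ ∀ x ∈ o, g x = x := by
  simp only [KK, Subgroup.mem_inf, mem_fixingSubgroup_iff, Finset.mem_coe, Equiv.Perm.smul_def]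

/-- the element of the fixer with given value at the first outside point -/
def eAt (y : ℕ) : ℕ := rom eR 120 y

theorem eAt_check : allBelow (fun y => cond (tb (A 5) y)
    (validB (eAt y) && inM24B (eAt y) && allBelow (fun i => cond (tb O0 i) (Nat.beq (ap (eAt y) i) i) true) 24 &&
      Nat.beq (ap (eAt y) (b 5)) y && Nat.beq (mulP (eAt y) (eAt y)) idP) true) 24 = true := by decide +kernel

theorem A5_eq : ∀ y < 24, (A 5).testBit y = !(O0.testBit y) := by decide +kernel

theorem b5_out : O0.testBit (b 5) = false := by decide +kernel

theorem b_mem_O0' : ∀ j < 7, j ≠ 5 → O0.testBit (b j) = true := by decide +kernel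

theorem exists_eAt {y : ℕ} (hy : y < 24) (hA : (A 5).testBit y = true) :
    ∃ g ∈ KK (GolayBasic.setOf O0), g (ptOf (b 5)) = ptOf y ∧ g * g = 1 := by
  have h := allBelow_spec eAt_check y hy
  rw [tb_eq, hA, cond_true] at h
  simp only [Bool.and_eq_true] at h
  obtain ⟨⟨⟨⟨h1, h2⟩, h3⟩, h4⟩, h5⟩ := h
  have hr := rep_permOf _ h1
  refine ⟨permOf _ h1, mem_KK.2 ⟨mem_M24_of_check hr h2, ?_⟩, ?_, ?_⟩
  · intro x hx
    rw [mem_setOf] at hx
    apply idx_injective
    rw [hr]
    have h6 := allBelow_spec h3 (idx x) (idx_lt x)
    rw [tb_eq, hx, cond_true] at h6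
    exact Nat.eq_of_beq_eq_true h6
  · rw [hr.apply_ptOf (b_lt (by norm_num)), Nat.eq_of_beq_eq_true h4]
  · have := hr.mul hr
    rw [Nat.eq_of_beq_eq_true h5] at this
    exact eq_one_of_rep_id this

theorem KK_le_Fix5 {g : Equiv.Perm GolayPt} (hg : g ∈ KK (GolayBasic.setOf O0)) : g ∈ GolayOrder.Fix 5 := by
  obtain ⟨h1, h2⟩ := mem_KK.1 hg
  exact mem_Fix.2 ⟨h1, fun j hj => h2 _ (ptOf_b_mem_O0 hj)⟩

/-- A fixer element fixing the first outside point is trivial. -/
theorem KK_free {g : Equiv.Perm GolayPt} (hg : g ∈ KK (GolayBasic.setOf O0)) (h5 : g (ptOf (b 5)) = ptOf (b 5)) : g = 1 := by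
  obtain ⟨h1, h2⟩ := mem_KK.1 hg
  have : g ∈ GolayOrder.Fix 7 := by
    refine mem_Fix.2 ⟨h1, fun j hj => ?_⟩
    by_cases hj5 : j = 5
    · rw [hj5]; exact h5
    · apply h2
      rw [mem_setOf, idx_ptOf (b_lt hj)]
      exact b_mem_O0' j hj hj5
  rw [Fix7_trivial, Subgroup.mem_bot] at this
  exact this

theorem KK_mem_A {g : Equiv.Perm GolayPt} (hg : g ∈ KK (GolayBasic.setOf O0)) :
    (A 5).testBit (idx (g (ptOf (b 5)))) = true := image_mem_A (by norm_num) (KK_le_Fix5 hg)

theorem card_KK0 : Nat.card (KK (GolayBasic.setOf O0)) = 16 := by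
  have := card_eq_mul_of_orbit' (G := Equiv.Perm GolayPt) (KK (GolayBasic.setOf O0)) (ptOf (b 5)) (GolayBasic.setOf (A 5))
    (fun g hg => by rw [mem_setOf]; exact KK_mem_A hg)
    (fun y hy => by
      rw [mem_setOf] at hy
      obtain ⟨g, hg, h, -⟩ := exists_eAt (idx_lt y) hy
      exact ⟨g, hg, by
        show g (ptOf (b 5)) = y
        rw [h, ptOf_idx]⟩)
  have hbot : (KK (GolayBasic.setOf O0) ⊓ MulAction.stabilizer (Equiv.Perm GolayPt) (ptOf (b 5))) = ⊥ := by
    rw [Subgroup.eq_bot_iff_forall]
    rintro g ⟨h1, h2⟩
    exact KK_free h1 h2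
  rw [hbot, card_setOf] at this
  have hpc : pc (A 5) = 16 := by decide +kernel
  rw [hpc] at this
  simpa using this

theorem KK0_invol {g : Equiv.Perm GolayPt} (hg : g ∈ KK (GolayBasic.setOf O0)) : g * g = 1 := by
  have hA := KK_mem_A hg
  obtain ⟨e, he, h1, h2⟩ := exists_eAt (idx_lt _) hA
  rw [ptOf_idx] at h1
  have h3 : e⁻¹ * g = 1 := by
    apply KK_free ((KK _).mul_mem ((KK _).inv_mem he) hg)
    rw [Equiv.Perm.mul_apply, ← h1]
    simp
  have h4 : g = e := by
    have := inv_mul_eq_one.1 h3
    exact this.symm
  rw [h4, h2]

/-- transport of the fixer -/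
theorem mem_KK_conj (o : Finset GolayPt) {w g : Equiv.Perm GolayPt} (hw : w ∈ M24) :
    g ∈ KK o ↔ w * g * w⁻¹ ∈ KK (w • o) := by
  rw [mem_KK, mem_KK, ← mem_M24_conj hw]
  constructor
  · rintro ⟨h1, h2⟩
    refine ⟨h1, fun x hx => ?_⟩
    obtain ⟨y, hy, rfl⟩ := Finset.mem_smul_finset.1 hx
    show w (g (w⁻¹ (w y))) = w y
    simp [h2 y hy]
  · rintro ⟨h1, h2⟩
    refine ⟨h1, fun x hx => ?_⟩
    have := h2 (w x) (Finset.smul_mem_smul_finset hx)
    have h3 : w (g (w⁻¹ (w x))) = w x := this
    simpa using h3

theorem KK_card {o : Finset GolayPt} (ho : o ∈ octads) : Nat.card (KK o) = 16 := by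
  obtain ⟨w, hw, rfl⟩ := exists_smul_O0 ho
  rw [← card_KK0]
  exact Nat.card_congr (GolayM23.conjEquiv w (H := KK (GolayBasic.setOf O0)) (K := KK (w • GolayBasic.setOf O0))
    (fun g => mem_KK_conj _ hw)).symm.toEquiv

theorem KK_invol {o : Finset GolayPt} (ho : o ∈ octads) {g : Equiv.Perm GolayPt} (hg : g ∈ KK o) : g * g = 1 := by
  obtain ⟨w, hw, rfl⟩ := exists_smul_O0 ho
  have h1 : w⁻¹ * g * w ∈ KK (GolayBasic.setOf O0) := by
    rw [mem_KK_conj _ hw]
    simpa [mul_assoc] using hg
  have h2 := KK0_invol h1
  have h3 : w * ((w⁻¹ * g * w) * (w⁻¹ * g * w)) * w⁻¹ = g * g := by group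
  rw [← h3, h2]
  simp

/-- for every point outside an octad, the fixer acts regularly on the outside points -/
theorem KK_transitive {o : Finset GolayPt} (ho : o ∈ octads) {p q : GolayPt} (hp : p ∉ o) (hq : q ∉ o) :
    ∃ g ∈ KK o, g p = q := by
  obtain ⟨w, hw, rfl⟩ := exists_smul_O0 ho
  have hout : ∀ {x : GolayPt}, x ∉ w • GolayBasic.setOf O0 → (A 5).testBit (idx (w⁻¹ x)) = true := by
    intro x hx
    rw [A5_eq _ (idx_lt _)]
    have h1 : w⁻¹ x ∉ GolayBasic.setOf O0 := by
      intro h
      apply hx
      have := Finset.smul_mem_smul_finset (a := w) h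
      have h2 : w • w⁻¹ x = x := by
        show w (w⁻¹ x) = x
        simp
      rwa [h2] at this
    rw [mem_setOf] at h1
    simpa using h1
  obtain ⟨e1, he1, h1, -⟩ := exists_eAt (idx_lt _) (hout hp)
  obtain ⟨e2, he2, h2, -⟩ := exists_eAt (idx_lt _) (hout hq)
  rw [ptOf_idx] at h1 h2
  have hm : e2 * e1⁻¹ ∈ KK (GolayBasic.setOf O0) := (KK _).mul_mem he2 ((KK _).inv_mem he1)
  refine ⟨w * (e2 * e1⁻¹) * w⁻¹, (mem_KK_conj _ hw).1 hm, ?_⟩
  simp only [Equiv.Perm.mul_apply]
  rw [← h1]
  simp [h2]

theorem KK_free' {o : Finset GolayPt} (ho : o ∈ octads) {g : Equiv.Perm GolayPt} (hg : g ∈ KK o) {p : GolayPt} (hp : p ∉ o)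
    (hfix : g p = p) : g = 1 := by
  obtain ⟨w, hw, rfl⟩ := exists_smul_O0 ho
  have h5 : ptOf (b 5) ∉ GolayBasic.setOf O0 := by
    rw [mem_setOf, idx_ptOf (b_lt (by norm_num)), b5_out]
    simp
  have h6 : w (ptOf (b 5)) ∉ w • GolayBasic.setOf O0 := by
    intro h
    obtain ⟨y, hy, hyy⟩ := Finset.mem_smul_finset.1 h
    have : y = ptOf (b 5) := w.injective hyy
    exact h5 (this ▸ hy)
  obtain ⟨k, hk, hkp⟩ := KK_transitive (M24_smul_octad hw setOf_O0_mem) h6 hp
  have h7 : w⁻¹ * (k⁻¹ * g * k) * w ∈ KK (GolayBasic.setOf O0) := by
    rw [mem_KK_conj _ hw]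
    have : k⁻¹ * g * k ∈ KK (w • GolayBasic.setOf O0) := (KK _).mul_mem ((KK _).mul_mem ((KK _).inv_mem hk) hg) hk
    simpa [mul_assoc] using this
  have h8 := KK_free h7 (by
    simp only [Equiv.Perm.mul_apply]
    rw [hkp, hfix, ← hkp]
    simp)
  have h9 : k⁻¹ * g * k = 1 := by
    have : w * (w⁻¹ * (k⁻¹ * g * k) * w) * w⁻¹ = 1 := by rw [h8]; simp
    simpa [mul_assoc] using this
  have h10 : k * (k⁻¹ * g * k) * k⁻¹ = 1 := by rw [h9]; simp
  simpa [mul_assoc] using h10

/-! ### The action on the octad -/

/-- the stabiliser of an octad, as permutations -/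
abbrev HO (o : Finset GolayPt) : Subgroup (Equiv.Perm GolayPt) := M24 ⊓ MulAction.stabilizer (Equiv.Perm GolayPt) o

theorem HO_mem_iff {o : Finset GolayPt} {g : Equiv.Perm GolayPt} (hg : g ∈ HO o) (x : GolayPt) : g x ∈ o ↔ x ∈ o := by
  have h : g • o = o := hg.2
  constructor
  · intro h1
    rw [← h] at h1
    obtain ⟨y, hy, hyy⟩ := Finset.mem_smul_finset.1 h1
    have : y = x := g.injective hyy
    exact this ▸ hy
  · intro h1
    rw [← h]
    exact Finset.smul_mem_smul_finset h1

/-- the induced permutation -/
def indOct (o : Finset GolayPt) : HO o →* Equiv.Perm ↥o where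
  toFun g := (g : Equiv.Perm GolayPt).subtypePerm (HO_mem_iff g.2)
  map_one' := by
    ext x
    rfl
  map_mul' x y := by
    ext a
    rfl

theorem indOct_ker (o : Finset GolayPt) (g : HO o) : g ∈ (indOct o).ker ↔ (g : Equiv.Perm GolayPt) ∈ KK o := by
  rw [MonoidHom.mem_ker, mem_KK]
  constructor
  · intro h
    refine ⟨g.2.1, fun x hx => ?_⟩
    have := congrArg (fun f : Equiv.Perm ↥o => (f ⟨x, hx⟩ : GolayPt)) h
    exact this
  · rintro ⟨-, h⟩
    apply Equiv.ext
    intro x
    apply Subtype.ext
    exact h x.1 x.2

theorem card_HO {o : Finset GolayPt} (ho : o ∈ octads) : Nat.card (HO o) = 322560 := by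
  have := card_eq_mul_of_orbit' (G := Equiv.Perm GolayPt) M24 o octF
    (fun g hg => mem_octF.2 (M24_smul_octad hg ho))
    (fun y hy => transitive_octads ho (mem_octF.1 hy))
  rw [card_M24, octF_card] at this
  have h2 : Nat.card (HO o) = Nat.card ↥(M24 ⊓ MulAction.stabilizer (Equiv.Perm GolayPt) o) := rfl
  omega

theorem KK_le_HO (o : Finset GolayPt) : KK o ≤ HO o := by
  intro g hg
  obtain ⟨h1, h2⟩ := mem_KK.1 hg
  refine ⟨h1, ?_⟩
  show g • o = o
  ext y
  rw [Finset.mem_smul_finset]
  constructor
  · rintro ⟨x, hx, rfl⟩
    have : g • x = x := h2 x hx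
    rwa [this]
  · intro hy
    exact ⟨y, hy, h2 y hy⟩

theorem card_indOct_ker {o : Finset GolayPt} (ho : o ∈ octads) : Nat.card (indOct o).ker = 16 := by
  rw [← KK_card ho]
  refine Nat.card_congr ?_
  exact {
    toFun := fun g => ⟨g.1.1, (indOct_ker o g.1).1 g.2⟩
    invFun := fun g => ⟨⟨g.1, KK_le_HO o g.2⟩, (indOct_ker o _).2 g.2⟩
    left_inv := fun g => rfl
    right_inv := fun g => rfl }

theorem card_perm_oct {o : Finset GolayPt} (ho : o ∈ octads) : Nat.card (Equiv.Perm ↥o) = 40320 := by
  classical
  rw [Nat.card_eq_fintype_card, Fintype.card_perm, Fintype.card_coe, steiner.1 o ho]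
  rfl

theorem indOct_range {o : Finset GolayPt} (ho : o ∈ octads) : (indOct o).range = alternatingGroup ↥o := by
  classical
  apply Equiv.Perm.eq_alternatingGroup_of_index_eq_two
  have h1 := Subgroup.index_ker (indOct o)
  have h2 := Subgroup.card_mul_index (indOct o).ker
  rw [card_HO ho, card_indOct_ker ho] at h2
  have h3 : Nat.card (indOct o).range = 20160 := by omega
  have h4 := Subgroup.card_mul_index (indOct o).range
  rw [h3, card_perm_oct ho] at h4
  omega

/-- The group induces exactly the alternating group on an octad. -/
theorem induced_alternating {o : Finset GolayPt} (ho : o ∈ octads) :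
    {e : Equiv.Perm ↥o | ∃ g : Equiv.Perm GolayPt, g ∈ M24 ∧ ∃ h : (∀ x, g x ∈ o ↔ x ∈ o), g.subtypePerm h = e} =
      (alternatingGroup ↥o : Set (Equiv.Perm ↥o)) := by
  classical
  rw [← indOct_range ho]
  ext e
  constructor
  · rintro ⟨g, hg, h, rfl⟩
    have hs : g • o = o := by
      ext y
      rw [Finset.mem_smul_finset]
      constructor
      · rintro ⟨x, hx, rfl⟩
        exact (h x).2 hx
      · intro hy
        have hy' : g (g⁻¹ y) ∈ o := by simpa using hy
        exact ⟨g⁻¹ y, (h _).1 hy', by
          show g (g⁻¹ y) = y
          simp⟩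
    exact ⟨⟨g, hg, hs⟩, rfl⟩
  · rintro ⟨g, rfl⟩
    exact ⟨g.1, g.2.1, HO_mem_iff g.2, rfl⟩

/-- complement: the stabiliser of an octad and an outside point -/
abbrev HOp (o : Finset GolayPt) (p : GolayPt) : Subgroup (Equiv.Perm GolayPt) :=
  M24 ⊓ MulAction.stabilizer (Equiv.Perm GolayPt) o ⊓ MulAction.stabilizer (Equiv.Perm GolayPt) p

theorem KK_inf_HOp {o : Finset GolayPt} (ho : o ∈ octads) {p : GolayPt} (hp : p ∉ o) : KK o ⊓ HOp o p = ⊥ := by
  rw [Subgroup.eq_bot_iff_forall]
  rintro g ⟨h1, -, h2⟩
  exact KK_free' ho h1 hp h2

theorem KK_sup_HOp {o : Finset GolayPt} (ho : o ∈ octads) {p : GolayPt} (hp : p ∉ o) : KK o ⊔ HOp o p = HO o := by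
  apply le_antisymm
  · exact sup_le (KK_le_HO o) inf_le_left
  · intro g hg
    have hgp : g p ∉ o := fun h => hp ((HO_mem_iff hg p).1 h)
    obtain ⟨k, hk, hkp⟩ := KK_transitive ho hp hgp
    have hkH := KK_le_HO o hk
    have h3 : k⁻¹ * g ∈ HOp o p := by
      refine ⟨(HO o).mul_mem ((HO o).inv_mem hkH) hg, ?_⟩
      show k⁻¹ * g ∈ MulAction.stabilizer (Equiv.Perm GolayPt) p
      rw [MulAction.mem_stabilizer_iff, Equiv.Perm.smul_def, Equiv.Perm.mul_apply, ← hkp]
      simp
    have h6 : k * (k⁻¹ * g) ∈ KK o ⊔ HOp o p :=
      Subgroup.mul_mem _ (Subgroup.mem_sup_left hk) (Subgroup.mem_sup_right h3)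
    have h7 : k * (k⁻¹ * g) = g := by group
    rwa [h7] at h6

/-- isomorphism with the alternating group -/
theorem HOp_equiv {o : Finset GolayPt} (ho : o ∈ octads) {p : GolayPt} (hp : p ∉ o) :
    Nonempty (↥(HOp o p) ≃* alternatingGroup (Fin 8)) := by
  classical
  let f : HOp o p →* Equiv.Perm ↥o := (indOct o).comp (Subgroup.inclusion (inf_le_left))
  have hinj : Function.Injective f := by
    rw [injective_iff_map_eq_one]
    intro g hg
    have h1 : (⟨g.1, g.2.1⟩ : HO o) ∈ (indOct o).ker := hg
    have h2 := (indOct_ker o _).1 h1
    have h3 := KK_free' ho h2 hp g.2.2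
    exact Subtype.ext h3
  have hrange : f.range = alternatingGroup ↥o := by
    rw [← indOct_range ho]
    apply le_antisymm
    · rintro _ ⟨g, rfl⟩
      exact ⟨_, rfl⟩
    · rintro _ ⟨g, rfl⟩
      have hg : (g : Equiv.Perm GolayPt) ∈ KK o ⊔ HOp o p := by
        rw [KK_sup_HOp ho hp]; exact g.2
      -- write as fixer times complement
      have hgp : (g : Equiv.Perm GolayPt) p ∉ o := fun h => hp ((HO_mem_iff g.2 p).1 h)
      obtain ⟨k, hk, hkp⟩ := KK_transitive ho hp hgp
      have hkH := KK_le_HO o hk
      have h3 : k⁻¹ * (g : Equiv.Perm GolayPt) ∈ HOp o p := by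
        refine ⟨(HO o).mul_mem ((HO o).inv_mem hkH) g.2, ?_⟩
        show k⁻¹ * (g : Equiv.Perm GolayPt) ∈ MulAction.stabilizer (Equiv.Perm GolayPt) p
        rw [MulAction.mem_stabilizer_iff, Equiv.Perm.smul_def, Equiv.Perm.mul_apply, ← hkp]
        simp
      refine ⟨⟨_, h3⟩, ?_⟩
      have h4 : (⟨k, hkH⟩ : HO o) ∈ (indOct o).ker := (indOct_ker o _).2 hk
      have h6 : (indOct o) g = (indOct o) ⟨k, hkH⟩ * (indOct o) ⟨k⁻¹ * (g : Equiv.Perm GolayPt), h3.1⟩ := by
        rw [← map_mul]
        congr 1
        apply Subtype.ext
        show (g : Equiv.Perm GolayPt) = k * (k⁻¹ * g)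
        group
      rw [h6, MonoidHom.mem_ker.1 h4, one_mul]
      rfl
  have e1 : ↥(HOp o p) ≃* f.range := MonoidHom.ofInjective hinj
  have e2 : f.range ≃* alternatingGroup ↥o := MulEquiv.subgroupCongr hrange
  have hcard : Fintype.card ↥o = 8 := by
    rw [Fintype.card_coe, steiner.1 o ho]
  let eq : ↥o ≃ Fin 8 := Fintype.equivFinOfCardEq hcard
  have e3 : alternatingGroup ↥o ≃* alternatingGroup (Fin 8) := Equiv.altCongrHom eq
  exact ⟨e1.trans (e2.trans e3)⟩

end Cfsg.Agent.Lib.GolayOctad
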