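import Mathlib
import Cfsg.Agent.Lib.H1Torus2
import Cfsg.Prelude.Def_ParabolicCharacters

set_option autoImplicit false

/-! The Borel subgroup of `SL₂`. -/

namespace Cfsg.Agent.Lib.H1Borel

open Matrix Cfsg.Agent.Lib.H1GL2 Cfsg.Agent.Lib.H1SL2 Cfsg.Agent.Lib.H1PSL2 Cfsg.Agent.Lib.H1SL2C

variable {F : Type*} [Field F]

/-- The Borel subgroup of `SL₂`. -/
abbrev Bor (F : Type*) [Field F] : Subgroup (SL2 F) :=
  (Cfsg.upperTriangularGL 2 F).comap Matrix.SpecialLinearGroup.toGL

theorem mem_Bor (g : SL2 F) : g ∈ Bor F ↔ (g : M2 F) 1 0 = 0 := by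
  change (g : M2 F).BlockTriangular id ↔ _
  constructor
  · intro h
    exact h (show (0 : Fin 2) < 1 by decide)
  · intro h i j hij
    fin_cases i <;> fin_cases j <;> first | exact h | exact absurd hij (by decide)

theorem isConj_bor_of (x y : Bor F) (c : SL2 F) (hc : c ∈ Bor F) (h : c * x.1 = y.1 * c) : IsConj x y := by
  rw [isConj_iff]
  refine ⟨⟨c, hc⟩, ?_⟩
  apply Subtype.ext
  change c * x.1 * c⁻¹ = y.1
  rw [h, mul_inv_cancel_right]

theorem entry_of_conj {x y : Bor F} (h : IsConj x y) : (x.1 : M2 F) 0 0 = (y.1 : M2 F) 0 0 := by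
  obtain ⟨c, rfl⟩ := isConj_iff.mp h
  have hc := (mem_Bor _).mp c.2
  have hx := (mem_Bor _).mp x.2
  have hd := sl_det c.1
  rw [hc, mul_zero, sub_zero] at hd
  change (x.1 : M2 F) 0 0 = ((c.1 * x.1 * c.1⁻¹ : SL2 F) : M2 F) 0 0
  simp only [sl_mul00, sl_inv00, sl_inv10, hc, hx, neg_zero]
  linear_combination (-(x.1 : M2 F) 0 0) * hd

theorem tv_mem (b : F) : tv b ∈ Bor F := (mem_Bor _).mpr rfl
theorem dg_mem (u : Fˣ) : dg u ∈ Bor F := (mem_Bor _).mpr rfl
theorem one_mem' : (1 : SL2 F) ∈ Bor F := Subgroup.one_mem _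
theorem mone_mem : (mone : SL2 F) ∈ Bor F := (mem_Bor _).mpr rfl

theorem uu_mem (ε : F) (k : Fin 3) : uu ε k ∈ Bor F := by
  fin_cases k
  · exact one_mem'
  · exact tv_mem _
  · exact tv_mem _

/-- Conjugating a transvection by a diagonal element. -/
theorem tv_conj_bor (b b' : F) (e : Fˣ) (h : b' = (e : F) ^ 2 * b) (hb : tv b ∈ Bor F) (hb' : tv b' ∈ Bor F) :
    IsConj (⟨tv b, hb⟩ : Bor F) ⟨tv b', hb'⟩ := by
  apply isConj_bor_of _ _ (dg e) (dg_mem e)
  apply sl_ext <;> simp [sl_mul00, sl_mul01, sl_mul10, sl_mul11, h]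
  have : (e : F) * ((e : F))⁻¹ = 1 := by simp
  linear_combination (-(e : F) * b) * this

section main

variable [Fintype F]

/-- **The Borel subgroup of `SL₂(q)`, `q` odd, has `q + 3` classes.** -/
theorem card_classes_bor (hodd : Odd (Fintype.card F)) :
    Nat.card (ConjClasses (Bor F)) = Fintype.card F + 3 := by
  classical
  have hchar : ringChar F ≠ 2 := by
    intro h
    have := FiniteField.even_card_of_char_two h
    exact (Nat.not_even_iff_odd.mpr hodd) (Nat.even_iff.mpr this)
  have h2F : (2 : F) ≠ 0 := Ring.two_ne_zero hchar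
  have h1ne : (1 : F) ≠ -1 := by
    intro h
    apply h2F
    linear_combination h
  obtain ⟨ε, hε⟩ := FiniteField.exists_nonsquare hchar
  have hε0 : ε ≠ 0 := fun h => hε (h ▸ IsSquare.zero)
  have hmm : ∀ k, mone * uu ε k ∈ Bor F := fun k => Subgroup.mul_mem _ mone_mem (uu_mem ε k)
  let r : {a : Fˣ // (a : F) ^ 2 ≠ 1} ⊕ (Bool × Fin 3) → Bor F := fun x =>
    match x with
    | Sum.inl a => ⟨dg a.1, dg_mem _⟩
    | Sum.inr (true, k) => ⟨uu ε k, uu_mem ε k⟩
    | Sum.inr (false, k) => ⟨mone * uu ε k, hmm k⟩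
  have huu00 : ∀ k, ((uu ε k : SL2 F) : M2 F) 0 0 = 1 := by
    intro k
    fin_cases k <;> simp [uu]
  have hr : ∀ s : Bool, ∀ k, (((r (Sum.inr (s, k))).1 : SL2 F) : M2 F) 0 0 = if s then 1 else -1 := by
    intro s k
    cases s
    · simp only [r]
      simp [sl_mul00, huu00, mone]
    · simp only [r]
      simp [huu00]
  have hsq : ∀ s : Bool, (if s then (1 : F) else -1) ^ 2 = 1 := by
    intro s
    cases s <;> simp
  rw [Cfsg.Agent.Lib.H1SL2C.card_classes_of_reps r]
  · rw [Nat.card_sum, Nat.card_prod, Nat.card_eq_fintype_card, Nat.card_eq_fintype_card,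
      Nat.card_eq_fintype_card]
    simp only [Fintype.card_bool, Fintype.card_fin]
    have h5 : Fintype.card {a : Fˣ // (a : F) ^ 2 ≠ 1} = Fintype.card F - 3 := by
      have h6 : ∀ a : Fˣ, a ∈ ({1, -1} : Finset Fˣ) ↔ (a : F) ^ 2 = 1 := by
        intro a
        simp only [Finset.mem_insert, Finset.mem_singleton]
        constructor
        · rintro (rfl | rfl) <;> simp
        · intro h
          have h7 : ((a : F) - 1) * ((a : F) + 1) = 0 := by linear_combination h
          rcases mul_eq_zero.mp h7 with h8 | h8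
          · left
            exact Units.ext (sub_eq_zero.mp h8)
          · right
            apply Units.ext
            simpa using eq_neg_of_add_eq_zero_left h8
      have hne : (1 : Fˣ) ≠ -1 := by
        intro h
        exact h1ne (by simpa using congrArg Units.val h)
      have h7 := Fintype.card_of_subtype ({1, -1} : Finset Fˣ) h6
      rw [Finset.card_pair hne] at h7
      have h8 := Fintype.card_subtype_compl (fun a : Fˣ => (a : F) ^ 2 = 1)
      rw [h7, Fintype.card_units] at h8
      have h9 : Fintype.card F - 1 - 2 = Fintype.card F - 3 := by omega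
      rw [h9] at h8
      exact h8
    rw [h5]
    have hq3 : 3 ≤ Fintype.card F := by
      obtain ⟨k, hk⟩ := hodd
      have : 1 < Fintype.card F := Fintype.one_lt_card
      omega
    omega
  · rintro (⟨a, ha⟩ | ⟨s, k⟩) (⟨a', ha'⟩ | ⟨s', k'⟩) hc
    · have h1 := entry_of_conj hc
      simp only [r, dg00] at h1
      have : a = a' := Units.ext h1
      subst this
      rfl
    · exfalso
      have h1 := entry_of_conj hc
      rw [hr] at h1
      simp only [r, dg00] at h1
      apply ha
      rw [h1, hsq]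
    · exfalso
      have h1 := entry_of_conj hc
      rw [hr] at h1
      simp only [r, dg00] at h1
      apply ha'
      rw [← h1, hsq]
    · have h1 := entry_of_conj hc
      rw [hr, hr] at h1
      have hss : s = s' := by
        cases s <;> cases s' <;> simp at h1 ⊢
        · exact h1ne h1.symm
        · exact h1ne h1
      subst hss
      have hmap : IsConj ((r (Sum.inr (s, k))).1) ((r (Sum.inr (s, k'))).1) := by
        obtain ⟨c, hc2⟩ := isConj_iff.mp hc
        exact isConj_iff.mpr ⟨c.1, congrArg Subtype.val hc2⟩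
      have hkk : k = k' := by
        cases s
        · simp only [r] at hmap
          exact uu_inj hε k k' (isConj_mone_mul.mp hmap)
        · simp only [r] at hmap
          exact uu_inj hε k k' hmap
      rw [hkk]
  · -- every element has a representative
    have huni : ∀ b : F, ∃ k, IsConj (⟨tv b, tv_mem b⟩ : Bor F) ⟨uu ε k, uu_mem ε k⟩ := by
      intro b
      by_cases hb : b = 0
      · subst hb
        refine ⟨0, ?_⟩
        have : (⟨tv (0 : F), tv_mem 0⟩ : Bor F) = ⟨uu ε 0, uu_mem ε 0⟩ := Subtype.ext tv_zero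
        rw [this]
      by_cases hs : IsSquare b
      · obtain ⟨e, he⟩ := hs
        have he0 : e ≠ 0 := by
          rintro rfl
          apply hb
          rw [he, mul_zero]
        refine ⟨1, ?_⟩
        apply IsConj.symm
        exact tv_conj_bor 1 b (Units.mk0 e he0) (by simp [he, pow_two]) _ _
      · have hs2 : IsSquare (b * ε) := by
          rw [← quadraticChar_one_iff_isSquare (mul_ne_zero hb hε0), map_mul,
            quadraticChar_neg_one_iff_not_isSquare.mpr hs,
            quadraticChar_neg_one_iff_not_isSquare.mpr hε]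
          norm_num
        obtain ⟨e, he⟩ := hs2
        have he0 : e ≠ 0 := by
          rintro rfl
          exact mul_ne_zero hb hε0 (by rw [he, mul_zero])
        refine ⟨2, ?_⟩
        apply tv_conj_bor b ε (Units.mk0 (ε * e⁻¹) (mul_ne_zero hε0 (inv_ne_zero he0)))
        simp only [Units.val_mk0]
        have h3 : e * e⁻¹ = 1 := mul_inv_cancel₀ he0
        have h4 : b * ε * (e⁻¹ * e⁻¹) = 1 := by
          rw [he]
          calc e * e * (e⁻¹ * e⁻¹) = (e * e⁻¹) * (e * e⁻¹) := by ring
            _ = 1 := by rw [h3, one_mul]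
        linear_combination (-ε) * h4
    rintro ⟨g, hg⟩
    have hg10 := (mem_Bor g).mp hg
    have hd := sl_det g
    rw [hg10, mul_zero, sub_zero] at hd
    have ha0 : (g : M2 F) 0 0 ≠ 0 := by
      intro h
      rw [h, zero_mul] at hd
      exact zero_ne_one hd
    have hinv : (g : M2 F) 1 1 = ((g : M2 F) 0 0)⁻¹ := eq_inv_of_mul_eq_one_right hd
    by_cases h1 : (g : M2 F) 0 0 ^ 2 = 1
    · have h7 : ((g : M2 F) 0 0 - 1) * ((g : M2 F) 0 0 + 1) = 0 := by linear_combination h1
      rcases mul_eq_zero.mp h7 with h8 | h8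
      · have h9 : (g : M2 F) 0 0 = 1 := sub_eq_zero.mp h8
        have h10 : (g : M2 F) 1 1 = 1 := by rw [hinv, h9, inv_one]
        have hgt : g = tv ((g : M2 F) 0 1) := by
          apply sl_ext <;> simp [h9, h10, hg10]
        obtain ⟨k, hk⟩ := huni ((g : M2 F) 0 1)
        refine ⟨Sum.inr (true, k), ?_⟩
        have : (⟨g, hg⟩ : Bor F) = ⟨tv ((g : M2 F) 0 1), tv_mem _⟩ := Subtype.ext hgt
        rw [this]
        exact hk
      · have h9 : (g : M2 F) 0 0 = -1 := eq_neg_of_add_eq_zero_left h8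
        have h10 : (g : M2 F) 1 1 = -1 := by rw [hinv, h9]; simp
        have hgt : g = mone * tv (-(g : M2 F) 0 1) := by
          apply sl_ext <;> simp [h9, h10, hg10, sl_mul00, sl_mul01, sl_mul10, sl_mul11, mone]
        obtain ⟨k, hk⟩ := huni (-(g : M2 F) 0 1)
        refine ⟨Sum.inr (false, k), ?_⟩
        have e1 : (⟨g, hg⟩ : Bor F) = ⟨mone, mone_mem⟩ * ⟨tv (-(g : M2 F) 0 1), tv_mem _⟩ :=
          Subtype.ext hgt
        rw [e1]
        obtain ⟨c, hc⟩ := isConj_iff.mp hk
        apply isConj_iff.mpr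
        refine ⟨c, ?_⟩
        apply Subtype.ext
        have hc2 := congrArg Subtype.val hc
        change c.1 * (mone * tv (-(g : M2 F) 0 1)) * c.1⁻¹ = mone * uu ε k
        change c.1 * tv (-(g : M2 F) 0 1) * c.1⁻¹ = uu ε k at hc2
        rw [← hc2]
        have h11 : c.1 * mone = mone * c.1 := (mone_comm c.1).symm
        calc c.1 * (mone * tv (-(g : M2 F) 0 1)) * c.1⁻¹ = (c.1 * mone) * tv (-(g : M2 F) 0 1) * c.1⁻¹ := by group
          _ = (mone * c.1) * tv (-(g : M2 F) 0 1) * c.1⁻¹ := by rw [h11]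
          _ = mone * (c.1 * tv (-(g : M2 F) 0 1) * c.1⁻¹) := by group
    · refine ⟨Sum.inl ⟨Units.mk0 _ ha0, h1⟩, ?_⟩
      simp only [r]
      have hne : (g : M2 F) 0 0 - ((g : M2 F) 0 0)⁻¹ ≠ 0 := by
        intro h
        apply h1
        have h3 : (g : M2 F) 0 0 * ((g : M2 F) 0 0)⁻¹ = 1 := mul_inv_cancel₀ ha0
        have h4 : (g : M2 F) 0 0 = ((g : M2 F) 0 0)⁻¹ := sub_eq_zero.mp h
        calc (g : M2 F) 0 0 ^ 2 = (g : M2 F) 0 0 * (g : M2 F) 0 0 := pow_two _
          _ = (g : M2 F) 0 0 * ((g : M2 F) 0 0)⁻¹ := by nth_rewrite 2 [h4]; rfl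
          _ = 1 := h3
      apply isConj_bor_of _ _ (tv ((g : M2 F) 0 1 / ((g : M2 F) 0 0 - ((g : M2 F) 0 0)⁻¹))) (tv_mem _)
      apply sl_ext <;> simp [sl_mul00, sl_mul01, sl_mul10, sl_mul11, hg10, hinv]
      field_simp
      ring

end main

end Cfsg.Agent.Lib.H1Borel
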