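import Cfsg.Agent.Lib.H1CN3
import Cfsg.Agent.Lib.H1Zip
import Cfsg.Agent.Lib.CentralSylow

/-! Brodkey's theorem. -/

namespace Cfsg.Agent.Lib.H1Brodkey

open Cfsg Cfsg.Agent.Lib
open scoped Pointwise

universe u

variable {G : Type u} [Group G] [Finite G]

theorem brodkey (p : ℕ) [hp : Fact p.Prime] (S : Sylow p G) (hS : IsMulCommutative S) (hOp : Cfsg.pCore p G = ⊥) :
    ∃ g : G, (S : Subgroup G) ⊓ MulAut.conj g • (S : Subgroup G) = ⊥ := by
  classical
  -- all Sylow subgroups are abelian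
  have hAb : ∀ T : Sylow p G, ∀ x ∈ (T : Subgroup G), ∀ y ∈ (T : Subgroup G), x * y = y * x := by
    intro T x hx y hy
    obtain ⟨g, rfl⟩ := MulAction.exists_smul_eq G S T
    rw [Cfsg.Agent.Lib.H1Core.mem_sylow_smul] at hx hy
    have := hS.is_comm.comm ⟨_, hx⟩ ⟨_, hy⟩
    have h2 : g⁻¹ * x * g * (g⁻¹ * y * g) = g⁻¹ * y * g * (g⁻¹ * x * g) := congrArg Subtype.val this
    have h3 : g * (g⁻¹ * x * g * (g⁻¹ * y * g)) * g⁻¹ = g * (g⁻¹ * y * g * (g⁻¹ * x * g)) * g⁻¹ := by rw [h2]
    have h4 : ∀ a b : G, g * (g⁻¹ * a * g * (g⁻¹ * b * g)) * g⁻¹ = a * b := by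
      intro a b
      group
    rwa [h4, h4] at h3
  -- choose a pair with smallest intersection
  obtain ⟨⟨P, Q⟩, -, hmin⟩ := Set.exists_min_image (Set.univ : Set (Sylow p G × Sylow p G))
    (fun q => Nat.card ((q.1 : Subgroup G) ⊓ (q.2 : Subgroup G) : Subgroup G)) (Set.toFinite _) ⟨(S, S), trivial⟩
  simp only at hmin
  set D : Subgroup G := (P : Subgroup G) ⊓ (Q : Subgroup G) with hD
  by_cases hD1 : D = ⊥
  · -- the conclusion for `S`
    obtain ⟨a, rfl⟩ := MulAction.exists_smul_eq G S P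
    obtain ⟨b, rfl⟩ := MulAction.exists_smul_eq G S Q
    refine ⟨a⁻¹ * b, ?_⟩
    rw [eq_bot_iff]
    rintro x ⟨hx, hx'⟩
    rw [Subgroup.mem_bot]
    have hx'' : (a⁻¹ * b)⁻¹ * x * (a⁻¹ * b) ∈ (S : Subgroup G) := Cfsg.Agent.Lib.H1Core.mem_conj_smul.mp hx'
    have h1 : a * x * a⁻¹ ∈ D := by
      constructor
      · apply Cfsg.Agent.Lib.H1Core.mem_sylow_smul.mpr
        have h9 : a⁻¹ * (a * x * a⁻¹) * a = x := by group
        rw [h9]
        exact hx
      · apply Cfsg.Agent.Lib.H1Core.mem_sylow_smul.mpr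
        have : b⁻¹ * (a * x * a⁻¹) * b = (a⁻¹ * b)⁻¹ * x * (a⁻¹ * b) := by group
        rw [this]
        exact hx''
    rw [hD1, Subgroup.mem_bot] at h1
    have h2 : x = a⁻¹ * (a * x * a⁻¹) * a := by group
    rw [h2, h1]
    group
  exfalso
  set N : Subgroup G := Subgroup.normalizer (D : Set G) with hN
  have hPN : (P : Subgroup G) ≤ N := by
    intro x hx
    rw [hN, Subgroup.mem_normalizer_iff]
    intro y
    constructor
    · intro hy
      have h1 : x * y * x⁻¹ = y := by rw [hAb P x hx y hy.1, mul_inv_cancel_right]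
      rw [h1]
      exact hy
    · intro hy
      have h1 : x * y * x⁻¹ ∈ (P : Subgroup G) := hy.1
      have h2 : y ∈ (P : Subgroup G) := by
        have h3 := (P : Subgroup G).mul_mem ((P : Subgroup G).mul_mem ((P : Subgroup G).inv_mem hx) h1) hx
        simpa [mul_assoc] using h3
      have h4 : x * y * x⁻¹ = y := by rw [hAb P x hx y h2, mul_inv_cancel_right]
      rw [h4] at hy
      exact hy
  have hQN : (Q : Subgroup G) ≤ N := by
    intro x hx
    rw [hN, Subgroup.mem_normalizer_iff]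
    intro y
    constructor
    · intro hy
      have h1 : x * y * x⁻¹ = y := by rw [hAb Q x hx y hy.2, mul_inv_cancel_right]
      rw [h1]
      exact hy
    · intro hy
      have h1 : x * y * x⁻¹ ∈ (Q : Subgroup G) := hy.2
      have h2 : y ∈ (Q : Subgroup G) := by
        have h3 := (Q : Subgroup G).mul_mem ((Q : Subgroup G).mul_mem ((Q : Subgroup G).inv_mem hx) h1) hx
        simpa [mul_assoc] using h3
      have h4 : x * y * x⁻¹ = y := by rw [hAb Q x hx y h2, mul_inv_cancel_right]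
      rw [h4] at hy
      exact hy
  -- a Sylow subgroup not normalizing `D`
  obtain ⟨T, hT⟩ : ∃ T : Sylow p G, ¬ (T : Subgroup G) ≤ N := by
    by_contra hall
    push_neg at hall
    -- the join of all Sylow subgroups
    set K : Subgroup G := ⨆ T : Sylow p G, (T : Subgroup G) with hK
    have hKN : K ≤ N := iSup_le hall
    have hKn : K.Normal := by
      refine ⟨fun x hx g => ?_⟩
      have hle : K ≤ K.comap (MulAut.conj g).toMonoidHom := by
        apply iSup_le
        intro T y hy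
        rw [Subgroup.mem_comap]
        apply (le_iSup (fun T : Sylow p G => (T : Subgroup G)) (g • T))
        rw [Cfsg.Agent.Lib.H1Core.mem_sylow_smul]
        simpa [mul_assoc] using hy
      exact hle hx
    have hDK : D ≤ K := inf_le_left.trans (le_iSup (fun T : Sylow p G => (T : Subgroup G)) P)
    -- `D` is a normal `p`-subgroup of `K`
    have hDnK : (D.subgroupOf K).Normal := (Subgroup.normal_subgroupOf_iff_le_normalizer hDK).mpr hKN
    have hDp : IsPGroup p (D.subgroupOf K) := by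
      intro x
      obtain ⟨k, hk⟩ := P.isPGroup' ⟨x.1, x.2.1⟩
      refine ⟨k, Subtype.ext (Subtype.ext ?_)⟩
      simpa using congrArg Subtype.val hk
    haveI := hDnK
    have h1 : D.subgroupOf K ≤ pCore p K := Cfsg.Agent.Lib.H1Core.le_pCore hDnK hDp
    have h2 : ((pCore p K).map K.subtype).Normal := by
      haveI : (pCore p K).Characteristic := Cfsg.Agent.Lib.Comp2.pCore_char p
      exact Cfsg.Agent.Lib.H1Core.normal_map_of_characteristic K (pCore p K)
    have h3 : IsPGroup p ((pCore p K).map K.subtype) := (Cfsg.Agent.Lib.H1Core.pCore_isPGroup p).map _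
    have h4 : (pCore p K).map K.subtype ≤ pCore p G := Cfsg.Agent.Lib.H1Core.le_pCore h2 h3
    rw [hOp, le_bot_iff] at h4
    apply hD1
    rw [eq_bot_iff]
    intro d hd
    have h5 : d ∈ (pCore p K).map K.subtype := ⟨⟨d, hDK hd⟩, h1 hd, rfl⟩
    rw [h4] at h5
    exact h5
  -- `D` is not contained in `T`
  have hDT : ¬ D ≤ (T : Subgroup G) := by
    intro hDT
    apply hT
    intro x hx
    rw [hN, Subgroup.mem_normalizer_iff]
    intro y
    constructor
    · intro hy
      have h1 : x * y * x⁻¹ = y := by rw [hAb T x hx y (hDT hy), mul_inv_cancel_right]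
      rw [h1]
      exact hy
    · intro hy
      have h1 := hDT hy
      have h2 : y ∈ (T : Subgroup G) := by
        have h3 := (T : Subgroup G).mul_mem ((T : Subgroup G).mul_mem ((T : Subgroup G).inv_mem hx) h1) hx
        simpa [mul_assoc] using h3
      have h4 : x * y * x⁻¹ = y := by rw [hAb T x hx y h2, mul_inv_cancel_right]
      rw [h4] at hy
      exact hy
  -- conjugate `P` to contain `T ∩ N`
  have hidx : ¬ p ∣ N.index := fun h => P.not_dvd_index (h.trans (Subgroup.index_dvd_of_le hPN))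
  obtain ⟨R, hTR, hRN⟩ := Cfsg.Agent.Lib.CentralSylow.exists_sylow_le p N hidx ((T : Subgroup G) ⊓ N)
    (T.isPGroup'.to_le inf_le_left) inf_le_right
  obtain ⟨x, hxN, hxR⟩ := Cfsg.Agent.Lib.CentralSylow.exists_conj p N P R hPN hRN
  have hQ' : ((x • Q : Sylow p G) : Subgroup G) ≤ N := by
    intro y hy
    rw [Cfsg.Agent.Lib.H1Core.mem_sylow_smul] at hy
    have h3 := N.mul_mem (N.mul_mem hxN (hQN hy)) (N.inv_mem hxN)
    simpa [mul_assoc] using h3
  have hxD : ∀ y, y ∈ (x • P : Sylow p G) ∧ y ∈ ((x • Q : Sylow p G) : Subgroup G) → y ∈ D := by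
    rintro y ⟨h1, h2⟩
    have h1' : y ∈ ((x • P : Sylow p G) : Subgroup G) := h1
    rw [Cfsg.Agent.Lib.H1Core.mem_sylow_smul] at h1' h2
    have h3 : x⁻¹ * y * x ∈ D := ⟨h1', h2⟩
    have h4 : x * (x⁻¹ * y * x) * x⁻¹ ∈ D := (Subgroup.mem_normalizer_iff.mp hxN _).mp h3
    simpa [mul_assoc] using h4
  have hle : (T : Subgroup G) ⊓ ((x • Q : Sylow p G) : Subgroup G) ≤ (T : Subgroup G) ⊓ D := by
    rintro y ⟨h1, h2⟩
    refine ⟨h1, hxD y ⟨?_, h2⟩⟩
    have h3 : y ∈ (R : Subgroup G) := hTR ⟨h1, hQ' h2⟩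
    rw [hxR] at h3
    exact Cfsg.Agent.Lib.H1Core.mem_sylow_smul.mpr h3
  have hcard1 := hmin (T, x • Q) trivial
  simp only at hcard1
  have hcard2 : Nat.card ((T : Subgroup G) ⊓ ((x • Q : Sylow p G) : Subgroup G) : Subgroup G) ≤
      Nat.card ((T : Subgroup G) ⊓ D : Subgroup G) := Subgroup.card_le_of_le hle
  have hcard3 : Nat.card ((T : Subgroup G) ⊓ D : Subgroup G) < Nat.card D := by
    have hlt : (T : Subgroup G) ⊓ D < D := by
      refine lt_of_le_of_ne inf_le_right ?_
      intro h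
      exact hDT (h ▸ inf_le_left)
    have h1 : Nat.card ((T : Subgroup G) ⊓ D : Subgroup G) ≤ Nat.card D := Subgroup.card_le_of_le hlt.le
    have h2 : Nat.card ((T : Subgroup G) ⊓ D : Subgroup G) ≠ Nat.card D := by
      intro h
      exact hlt.ne (Subgroup.eq_of_le_of_card_ge hlt.le h.symm.le)
    omega
  omega

end Cfsg.Agent.Lib.H1Brodkey
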