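import Cfsg.Agent.Lib.H1Sys
import Cfsg.Agent.Lib.H1Thomp

set_option autoImplicit false
set_option linter.style.haveILetI false

/-! Carter subgroups of finite solvable groups. -/

namespace Cfsg.Agent.Lib.H1Carter

open Cfsg Pointwise Cfsg.Agent.Lib.H1Core Cfsg.Agent.Lib.H1Conj Cfsg.Agent.Lib.H1SZ
open Cfsg.Agent.Lib.H1Hall Cfsg.Agent.Lib.H1Hall2 Cfsg.Agent.Lib.H1Sys

universe u

variable {G : Type u} [Group G]

theorem eq_of_conj_le [Finite G] {x : G} {R : Subgroup G} (h : MulAut.conj x • R ≤ R) :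
    MulAut.conj x • R = R :=
  Subgroup.eq_of_le_of_card_ge h (by rw [card_conj_smul])

theorem isNilpotent_map {Y : Type*} [Group Y] (f : G →* Y) (C : Subgroup G)
    (hC : Group.IsNilpotent C) : Group.IsNilpotent (C.map f) := by
  haveI := hC
  exact nilpotent_of_surjective (f.subgroupMap C) (f.subgroupMap_surjective C)

theorem isNilpotent_of_injOn {Y : Type*} [Group Y] [Group.IsNilpotent Y] (f : G →* Y) (R : Subgroup G)
    (h : R ⊓ f.ker = ⊥) : Group.IsNilpotent R := by
  have hinj : Function.Injective (f.comp R.subtype) := by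
    rw [injective_iff_map_eq_one]
    intro a ha
    have h1 : (a : G) ∈ R ⊓ f.ker := ⟨a.2, ha⟩
    rw [h] at h1
    exact Subtype.ext h1
  let e := MonoidHom.ofInjective hinj
  exact nilpotent_of_surjective e.symm.toMonoidHom e.symm.surjective

theorem coprime_of_pgroup {q : ℕ} [Fact q.Prime] {x : G} {k : ℕ} (hx : orderOf x = q ^ k)
    {n : ℕ} (hn : n.Coprime q) : (orderOf x).Coprime n := by
  rw [hx]
  exact Nat.Coprime.pow_left _ hn.symm

theorem eq_one_of_coprime_pgroup {q : ℕ} {x : G} {k : ℕ} (hx : orderOf x = q ^ k)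
    {n : ℕ} (hn : n.Coprime q) (hd : orderOf x ∣ n) : x = 1 := by
  rw [← orderOf_eq_one_iff]
  have h1 : (orderOf x).Coprime q := Nat.Coprime.coprime_dvd_left hd hn
  have h2 : (orderOf x).Coprime (q ^ k) := Nat.Coprime.pow_right _ h1
  rw [← hx] at h2
  exact (Nat.coprime_self _).mp h2

theorem orderOf_conj_eq (c x : G) : orderOf (c * x * c⁻¹) = orderOf x :=
  orderOf_injective (MulAut.conj c).toMonoidHom (MulAut.conj c).injective x

theorem orderOf_conj_eq' (c x : G) : orderOf (c⁻¹ * x * c) = orderOf x := by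
  have := orderOf_conj_eq c⁻¹ x
  rwa [inv_inv] at this

/-- The `q'`-part of a finite nilpotent group. -/
theorem part_exists {Y : Type*} [Group Y] [Finite Y] (hY : Group.IsNilpotent Y) (q : ℕ)
    [hq : Fact q.Prime] :
    ∃ R : Subgroup Y, R.Normal ∧ (Nat.card R).Coprime q ∧ (∃ k, R.index = q ^ k) ∧
      ∀ y : Y, (orderOf y).Coprime q → y ∈ R := by
  obtain ⟨P, K, hK, hc⟩ := Cfsg.Agent.Lib.H1Thomp.npc_of_nilpotent hY q
  haveI := hK
  obtain ⟨k, hk⟩ := IsPGroup.iff_card.mp P.isPGroup'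
  have hidx : K.index = q ^ k := by rw [hc.symm.index_eq_card, hk]
  refine ⟨K, hK, ?_, ⟨k, hidx⟩, ?_⟩
  · rw [← hc.index_eq_card]
    exact ((Nat.Prime.coprime_iff_not_dvd hq.out).mpr P.not_dvd_index).symm
  · intro y hy
    have h1 : y ^ K.index ∈ K := K.pow_index_mem y
    have h2 : y ^ orderOf y ∈ K := by rw [pow_orderOf_eq_one]; exact K.one_mem
    have h3 : K.index.Coprime (orderOf y) := by
      rw [hidx]
      exact Nat.Coprime.pow_left _ hy.symm
    exact Cfsg.Agent.Lib.H1CN3.mem_of_pow_mem h1 h2 h3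

/-- The `q'`-part of a nilpotent subgroup. -/
theorem part_sub [Finite G] (C : Subgroup G) (hC : Group.IsNilpotent C) (q : ℕ) [hq : Fact q.Prime] :
    ∃ R : Subgroup G, R ≤ C ∧ (Nat.card R).Coprime q ∧ (∃ k, R.relIndex C = q ^ k) ∧
      (∀ y ∈ C, (orderOf y).Coprime q → y ∈ R) ∧ C ≤ Subgroup.normalizer (R : Set G) := by
  obtain ⟨R', -, hc, ⟨k, hk⟩, hall⟩ := part_exists hC q
  have hle : R'.map C.subtype ≤ C := Subgroup.map_subtype_le _
  have hcard : (Nat.card (R'.map C.subtype)).Coprime q := by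
    rwa [Subgroup.card_map_of_injective C.subtype_injective]
  have hall' : ∀ y ∈ C, (orderOf y).Coprime q → y ∈ R'.map C.subtype := by
    intro y hy hyc
    refine ⟨⟨y, hy⟩, hall _ ?_, rfl⟩
    rwa [Subgroup.orderOf_mk]
  refine ⟨R'.map C.subtype, hle, hcard, ⟨k, ?_⟩, hall', ?_⟩
  · rw [Subgroup.relIndex, Subgroup.subgroupOf, Subgroup.comap_map_eq_self_of_injective C.subtype_injective]
    exact hk
  · intro c hc'
    apply mem_normalizer_of_conj_smul_eq
    apply eq_of_conj_le
    intro x hx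
    rw [mem_conj_smul] at hx
    apply hall' x
    · have h1 := hle hx
      have h2 : x = c * (c⁻¹ * x * c) * c⁻¹ := by group
      rw [h2]
      exact C.mul_mem (C.mul_mem hc' h1) (C.inv_mem hc')
    · exact Nat.Coprime.coprime_dvd_left (by
        rw [← orderOf_conj_eq' c x]
        exact Subgroup.orderOf_dvd_natCard _ hx) hcard

/-- Hall `q'`-subgroups. -/
theorem exists_hall [Finite G] [Group.IsSolvable G] (q : ℕ) [hq : Fact q.Prime] :
    ∃ R : Subgroup G, (∃ k, R.index = q ^ k) ∧ (Nat.card R).Coprime q := by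
  have h1 := Nat.ordProj_mul_ordCompl_eq_self (Nat.card G) q
  have hcop : (ordCompl[q] (Nat.card G)).Coprime (q ^ (Nat.card G).factorization q) :=
    Nat.Coprime.pow_right _ (Nat.coprime_ordCompl hq.out Nat.card_pos.ne').symm
  obtain ⟨H, hH⟩ := hall_exists (G := G) _ _ (by rw [mul_comm]; exact h1.symm) hcop
  refine ⟨H, ⟨(Nat.card G).factorization q, ?_⟩, ?_⟩
  · have h2 := Subgroup.index_mul_card H
    rw [hH] at h2
    have h3 : 0 < ordCompl[q] (Nat.card G) := Nat.ordCompl_pos _ Nat.card_pos.ne'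
    apply Nat.eq_of_mul_eq_mul_right h3
    rw [h2]
    exact h1.symm
  · rw [hH]
    exact (Nat.coprime_ordCompl hq.out Nat.card_pos.ne').symm

/-- Any `q'`-subgroup lies in a Hall `q'`-subgroup. -/
theorem exists_hall_ge [Finite G] [Group.IsSolvable G] (q : ℕ) [hq : Fact q.Prime] (T : Subgroup G)
    (hT : (Nat.card T).Coprime q) :
    ∃ R : Subgroup G, (∃ k, R.index = q ^ k) ∧ (Nat.card R).Coprime q ∧ T ≤ R := by
  have h1 := Nat.ordProj_mul_ordCompl_eq_self (Nat.card G) q
  have hcop : (ordCompl[q] (Nat.card G)).Coprime (q ^ (Nat.card G).factorization q) :=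
    Nat.Coprime.pow_right _ (Nat.coprime_ordCompl hq.out Nat.card_pos.ne').symm
  obtain ⟨H, hH, hTH⟩ := hall_contains (G := G) _ _ (by rw [mul_comm]; exact h1.symm) hcop T
    (Nat.Coprime.pow_right _ hT)
  refine ⟨H, ⟨(Nat.card G).factorization q, ?_⟩, ?_, hTH⟩
  · have h2 := Subgroup.index_mul_card H
    rw [hH] at h2
    have h3 : 0 < ordCompl[q] (Nat.card G) := Nat.ordCompl_pos _ Nat.card_pos.ne'
    apply Nat.eq_of_mul_eq_mul_right h3
    rw [h2]
    exact h1.symm
  · rw [hH]
    exact (Nat.coprime_ordCompl hq.out Nat.card_pos.ne').symm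


section Main

/-- The key lemma: the normalizer of a Hall `q'`-subgroup when the kernel is a `q`-group and
the image is nilpotent. -/
theorem hall_normalizer [Finite G] {Y : Type*} [Group Y] [Finite Y] [hY : Group.IsNilpotent Y]
    (f : G →* Y) (q : ℕ) [hq : Fact q.Prime] (hA : IsPGroup q f.ker) (R : Subgroup G) (k : ℕ)
    (hRi : R.index = q ^ k) (hRc : (Nat.card R).Coprime q) :
    (∀ g : G, ∃ a ∈ f.ker, ∃ n ∈ Subgroup.normalizer (R : Set G), g = a * n) ∧
      Group.IsNilpotent (Subgroup.normalizer (R : Set G)) ∧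
      ∀ y ∈ Subgroup.normalizer (R : Set G), (orderOf y).Coprime q → y ∈ R := by
  classical
  have hYtop : Group.IsNilpotent (⊤ : Subgroup Y) := inferInstance
  obtain ⟨m, hm⟩ := IsPGroup.iff_card.mp hA
  have hkerR : Nat.card f.ker = q ^ m := hm
  -- commuting of images
  have hcomm : ∀ u v : G, (∃ j, orderOf u = q ^ j) → (orderOf v).Coprime q → Commute (f u) (f v) := by
    intro u v ⟨j, hj⟩ hv
    apply Cfsg.Agent.Lib.H1FH.commute_coprime hYtop (Subgroup.mem_top _) (Subgroup.mem_top _)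
    have h1 : orderOf (f u) ∣ orderOf u := orderOf_map_dvd f u
    have h2 : orderOf (f v) ∣ orderOf v := orderOf_map_dvd f v
    refine Nat.Coprime.coprime_dvd_left h1 (Nat.Coprime.coprime_dvd_right h2 ?_)
    rw [hj]
    exact Nat.Coprime.pow_left _ hv.symm
  have hRord : ∀ r ∈ R, (orderOf r).Coprime q := fun r hr =>
    Nat.Coprime.coprime_dvd_left (Subgroup.orderOf_dvd_natCard R hr) hRc
  have hRker : ∀ c ∈ R, c ∈ f.ker → c = 1 := by
    intro c hc hc'
    have h1 : orderOf c ∣ q ^ m := by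
      rw [← hkerR]
      exact Subgroup.orderOf_dvd_natCard _ hc'
    obtain ⟨j, -, hj⟩ := (Nat.dvd_prime_pow hq.out).mp h1
    exact eq_one_of_coprime_pgroup hj hRc (Subgroup.orderOf_dvd_natCard R hc)
  have hRkerbot : R ⊓ f.ker = ⊥ := by
    rw [eq_bot_iff]
    intro c hc
    exact hRker c hc.1 hc.2
  -- a Sylow subgroup of `G`
  obtain ⟨S₀⟩ : Nonempty (Sylow q G) := inferInstance
  have hS₀ : (S₀ : Subgroup G).index.Coprime R.index := by
    rw [hRi]
    apply Nat.Coprime.pow_right
    exact ((Nat.Prime.coprime_iff_not_dvd hq.out).mpr S₀.not_dvd_index).symm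
  have hS₀ord : ∀ s ∈ (S₀ : Subgroup G), ∃ j, orderOf s = q ^ j := by
    intro s hs
    obtain ⟨j, hj⟩ := (IsPGroup.iff_orderOf.mp S₀.isPGroup') ⟨s, hs⟩
    exact ⟨j, by rw [← Subgroup.orderOf_mk s hs, hj]⟩
  have hnorm : ∀ g : G, ∀ r ∈ R, ∃ r' ∈ R, f (g * r * g⁻¹) = f r' := by
    intro g r hr
    obtain ⟨s, hs, r₁, hr₁, rfl⟩ := mul_eq_of_coprime hS₀ g
    set r' := r₁ * r * r₁⁻¹ with hr'
    have hr'R : r' ∈ R := R.mul_mem (R.mul_mem hr₁ hr) (R.inv_mem hr₁)
    refine ⟨r', hr'R, ?_⟩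
    have h1 : s * r₁ * r * (s * r₁)⁻¹ = s * r' * s⁻¹ := by rw [hr']; group
    rw [h1, map_mul, map_mul, map_inv, (hcomm s r' (hS₀ord s hs) (hRord r' hr'R)).eq]
    group
  have hfrat : ∀ g : G, ∃ a ∈ f.ker, ∃ n ∈ Subgroup.normalizer (R : Set G), g = a * n := by
    intro g
    have hle : MulAut.conj g • R ≤ f.ker ⊔ R := by
      intro x hx
      rw [mem_conj_smul] at hx
      obtain ⟨r', hr', hxr⟩ := hnorm g _ hx
      have h1 : g * (g⁻¹ * x * g) * g⁻¹ = x := by group
      rw [h1] at hxr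
      have h2 : x * r'⁻¹ ∈ f.ker := by
        rw [MonoidHom.mem_ker, map_mul, map_inv, hxr, mul_inv_cancel]
      have h3 : x = (x * r'⁻¹) * r' := by group
      rw [h3]
      exact Subgroup.mul_mem _ ((le_sup_left : f.ker ≤ f.ker ⊔ R) h2) ((le_sup_right : R ≤ f.ker ⊔ R) hr')
    have hcop : (Nat.card f.ker).Coprime (Nat.card R) := by
      rw [hkerR]
      exact Nat.Coprime.pow_left _ hRc.symm
    haveI hkersol : Group.IsNilpotent f.ker := hA.isNilpotent
    obtain ⟨a, ha, hac⟩ := Cfsg.Agent.Lib.FGS3.sz_conj_in_sup f.ker R (MulAut.conj g • R) hcop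
      (Or.inl inferInstance) hle (card_conj_smul g R)
    refine ⟨a, ha, a⁻¹ * g, ?_, by group⟩
    apply mem_normalizer_of_conj_smul_eq
    rw [conj_mul_smul, ← hac, conj_inv_smul_conj_smul]
  set N : Subgroup G := Subgroup.normalizer (R : Set G) with hN
  have hRN : R ≤ N := Subgroup.le_normalizer
  -- a Sylow subgroup of `N`
  obtain ⟨S⟩ : Nonempty (Sylow q N) := inferInstance
  have hSord : ∀ s : N, s ∈ (S : Subgroup N) → ∃ j, orderOf (s : G) = q ^ j := by
    intro s hs
    obtain ⟨j, hj⟩ := (IsPGroup.iff_orderOf.mp S.isPGroup') ⟨s, hs⟩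
    exact ⟨j, by rw [Subgroup.orderOf_coe, ← Subgroup.orderOf_mk s hs, hj]⟩
  have hSR : (S : Subgroup N).index.Coprime (R.subgroupOf N).index := by
    have h1 : (R.subgroupOf N).index ∣ q ^ k := by
      rw [← hRi]
      exact Subgroup.relIndex_dvd_index_of_le hRN
    refine Nat.Coprime.coprime_dvd_right h1 ?_
    apply Nat.Coprime.pow_right
    exact ((Nat.Prime.coprime_iff_not_dvd hq.out).mpr S.not_dvd_index).symm
  have hSRcomm : ∀ s : N, s ∈ (S : Subgroup N) → ∀ r ∈ R, (s : G) * r = r * s := by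
    intro s hs r hr
    set c := (s : G) * r * (s : G)⁻¹ * r⁻¹ with hc
    have h1 : c ∈ R := by
      have := (Subgroup.mem_normalizer_iff.mp s.2 r).mp hr
      exact R.mul_mem this (R.inv_mem hr)
    have h2 : c ∈ f.ker := by
      rw [MonoidHom.mem_ker, hc, map_mul, map_mul, map_mul, map_inv, map_inv,
        (hcomm s r (hSord s hs) (hRord r hr)).eq]
      group
    have h3 : c = 1 := hRker c h1 h2
    have h4 : (s : G) * r = c * (r * s) := by rw [hc]; group
    rw [h4, h3, one_mul]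
  have hfact : ∀ n : N, ∃ a : N, a ∈ (S : Subgroup N) ∧ ∃ b ∈ R, (n : G) = a * b := by
    intro n
    obtain ⟨a, ha, b, hb, hab⟩ := mul_eq_of_coprime hSR n
    exact ⟨a, ha, b, Subgroup.mem_subgroupOf.mp hb, congrArg Subtype.val hab⟩
  refine ⟨hfrat, ?_, ?_⟩
  · -- nilpotency of `N`
    set Q : Subgroup G := (S : Subgroup N).map N.subtype with hQ
    have hQnil : Group.IsNilpotent Q := by
      have : IsPGroup q Q := S.isPGroup'.map _
      exact this.isNilpotent
    have hRnil : Group.IsNilpotent R := isNilpotent_of_injOn f R hRkerbot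
    let H : Bool → Subgroup G := fun b => cond b Q R
    have hsup : (⨆ b, H b) = Q ⊔ R := by
      rw [iSup_bool_eq]
      rfl
    have hnil : Group.IsNilpotent (⨆ b, H b : Subgroup G) := by
      apply isNilpotent_iSup_of_commute H
      · intro b
        cases b
        · exact hRnil
        · exact hQnil
      · intro i j hij x y hx hy
        cases i <;> cases j
        · exact absurd rfl hij
        · obtain ⟨s, hs, rfl⟩ := hy
          exact (hSRcomm s hs x hx).symm
        · obtain ⟨s, hs, rfl⟩ := hx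
          exact hSRcomm s hs y hy
        · exact absurd rfl hij
    rw [hsup] at hnil
    apply Cfsg.Agent.Lib.H1Schmidt.isNilpotent_of_le _ hnil
    intro n hn
    obtain ⟨a, ha, b, hb, hab⟩ := hfact ⟨n, hn⟩
    have h1 : n = a * b := hab
    rw [h1]
    exact Subgroup.mul_mem _ ((le_sup_left : Q ≤ Q ⊔ R) ⟨a, ha, rfl⟩) ((le_sup_right : R ≤ Q ⊔ R) hb)
  · intro y hy hyc
    obtain ⟨a, ha, b, hb, hab⟩ := hfact ⟨y, hy⟩
    have h1 : y = a * b := hab
    have hab' : Commute (a : G) b := hSRcomm a ha b hb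
    obtain ⟨j, hj⟩ := hSord a ha
    have h2 : (a : G) = y * b⁻¹ := by rw [h1]; group
    have h3 : Commute y b⁻¹ := by
      rw [h1]
      exact (hab'.inv_right).mul_left (Commute.inv_right (Commute.refl b))
    have h4 : orderOf (a : G) ∣ orderOf y * orderOf b⁻¹ := by
      rw [h2]
      exact h3.orderOf_mul_dvd_mul_orderOf
    have h5 : (a : G) = 1 := by
      refine eq_one_of_coprime_pgroup hj ?_ h4
      apply Nat.Coprime.mul_left hyc
      rw [orderOf_inv]
      exact hRord b hb
    rw [h1, h5, one_mul]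
    exact hb

end Main

/-! ### Carter subgroups -/

theorem carter_eq_of_le [Finite G] {C N : Subgroup G} (hC : IsCarterSubgroup C) (hCN : C ≤ N)
    (hN : Group.IsNilpotent N) : C = N := by
  haveI := hN
  have h1 := (normalizerCondition_iff_only_full_group_self_normalizing.mp
    (normalizerCondition_of_isNilpotent (G := N))) (C.subgroupOf N)
  have h2 : Subgroup.normalizer ((C.subgroupOf N : Subgroup N) : Set N) = C.subgroupOf N := by
    apply le_antisymm _ Subgroup.le_normalizer
    intro x hx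
    rw [Subgroup.mem_subgroupOf, ← hC.2]
    rw [Subgroup.mem_normalizer_iff]
    intro y
    constructor
    · intro hy
      have h3 : (⟨y, hCN hy⟩ : N) ∈ C.subgroupOf N := Subgroup.mem_subgroupOf.mpr hy
      have h4 := (Subgroup.mem_normalizer_iff.mp hx _).mp h3
      exact Subgroup.mem_subgroupOf.mp h4
    · intro hy
      have h3 : y ∈ N := by
        have h4 : y = (x : G)⁻¹ * ((x : G) * y * (x : G)⁻¹) * x := by group
        rw [h4]
        exact N.mul_mem (N.mul_mem (N.inv_mem x.2) (hCN hy)) x.2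
      have h4 : x * (⟨y, h3⟩ : N) * x⁻¹ ∈ C.subgroupOf N := Subgroup.mem_subgroupOf.mpr hy
      have h5 := (Subgroup.mem_normalizer_iff.mp hx _).mpr h4
      exact Subgroup.mem_subgroupOf.mp h5
  have h3 := h1 h2
  apply le_antisymm hCN
  intro y hy
  have : (⟨y, hy⟩ : N) ∈ C.subgroupOf N := by rw [h3]; trivial
  exact Subgroup.mem_subgroupOf.mp this

theorem carter_conj_smul {C : Subgroup G} (hC : IsCarterSubgroup C) (g : G) :
    IsCarterSubgroup (MulAut.conj g • C) := by
  constructor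
  · have := isNilpotent_map (MulAut.conj g).toMonoidHom C hC.1
    exact this
  · apply le_antisymm _ Subgroup.le_normalizer
    intro x hx
    rw [mem_conj_smul, ← hC.2]
    apply mem_normalizer_of_conj_smul_eq
    have h1 := conj_smul_eq_self_of_mem_normalizer hx
    have h2 : g⁻¹ * x * g = g⁻¹ * (x * g) := by group
    rw [h2, conj_mul_smul, conj_mul_smul, h1, conj_inv_smul_conj_smul]

theorem carter_subgroupOf {C H : Subgroup G} (hC : IsCarterSubgroup C) (hCH : C ≤ H) :
    IsCarterSubgroup (C.subgroupOf H) := by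
  constructor
  · haveI := hC.1
    let e := Subgroup.subgroupOfEquivOfLe hCH
    exact nilpotent_of_surjective e.symm.toMonoidHom e.symm.surjective
  · apply le_antisymm _ Subgroup.le_normalizer
    intro x hx
    rw [Subgroup.mem_subgroupOf, ← hC.2]
    rw [Subgroup.mem_normalizer_iff]
    intro y
    constructor
    · intro hy
      have h3 : (⟨y, hCH hy⟩ : H) ∈ C.subgroupOf H := Subgroup.mem_subgroupOf.mpr hy
      have h4 := (Subgroup.mem_normalizer_iff.mp hx _).mp h3
      exact Subgroup.mem_subgroupOf.mp h4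
    · intro hy
      have h3 : y ∈ H := by
        have h4 : y = (x : G)⁻¹ * ((x : G) * y * (x : G)⁻¹) * x := by group
        rw [h4]
        exact H.mul_mem (H.mul_mem (H.inv_mem x.2) (hCH hy)) x.2
      have h4 : x * (⟨y, h3⟩ : H) * x⁻¹ ∈ C.subgroupOf H := Subgroup.mem_subgroupOf.mpr hy
      have h5 := (Subgroup.mem_normalizer_iff.mp hx _).mpr h4
      exact Subgroup.mem_subgroupOf.mp h5


theorem top_carter_of_nilpotent [Group.IsNilpotent G] : IsCarterSubgroup (⊤ : Subgroup G) :=
  ⟨inferInstance, by rw [Subgroup.normalizer_eq_top_iff]; infer_instance⟩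

/-- **Existence of Carter subgroups.** -/
theorem carter_exists (G : Type u) [Group G] [Finite G] [Group.IsSolvable G] :
    ∃ C : Subgroup G, IsCarterSubgroup C := by
  classical
  induction hc : Nat.card G using Nat.strong_induction_on generalizing G with
  | _ n ih =>
    rcases subsingleton_or_nontrivial G with hs | hnt
    · haveI : Group.IsNilpotent G := inferInstance
      exact ⟨⊤, top_carter_of_nilpotent⟩
    obtain ⟨q, a, A, hq, ha, hAn, hAc⟩ := exists_minimal_normal_pgroup (X := G)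
    haveI := hAn
    haveI : Fact q.Prime := ⟨hq⟩
    have hAp : IsPGroup q A := IsPGroup.of_card hAc
    set π := QuotientGroup.mk' A with hπ
    have hsurj : Function.Surjective π := QuotientGroup.mk'_surjective A
    have hker : ∀ y, π y = 1 ↔ y ∈ A := fun y => QuotientGroup.eq_one_iff y
    have hcard : Nat.card (G ⧸ A) < n := by
      rw [← hc]
      have h1 := card_quotient_mul A
      have h2 : 1 < Nat.card A := by
        rw [hAc]
        exact Nat.one_lt_pow ha.ne' hq.one_lt
      have h3 : 0 < Nat.card (G ⧸ A) := Nat.card_pos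
      nlinarith
    obtain ⟨Cb, hCb⟩ := ih _ hcard (G ⧸ A) rfl
    set L : Subgroup G := Cb.comap π with hL
    haveI := hCb.1
    let f : L →* Cb := (π.comp L.subtype).codRestrict Cb (fun x => x.2)
    have hfval : ∀ x : L, ((f x : Cb) : G ⧸ A) = π x := fun x => rfl
    have hfker : IsPGroup q f.ker := by
      rintro ⟨x, hx⟩
      have h1 : π x = 1 := by
        have h2 := congrArg Subtype.val (MonoidHom.mem_ker.mp hx)
        exact h2
      have h2 : (x : G) ∈ A := (hker _).mp h1
      obtain ⟨j, hj⟩ := hAp ⟨x, h2⟩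
      refine ⟨j, ?_⟩
      apply Subtype.ext
      apply Subtype.ext
      have h3 := congrArg Subtype.val hj
      simpa using h3
    haveI : Group.IsSolvable L := inferInstance
    obtain ⟨R, ⟨k, hRi⟩, hRc⟩ := exists_hall (G := L) q
    obtain ⟨hfrat, hnil, hall⟩ := hall_normalizer f q hfker R k hRi hRc
    set N : Subgroup L := Subgroup.normalizer (R : Set L) with hN
    set C : Subgroup G := N.map L.subtype with hC
    have hCL : C ≤ L := Subgroup.map_subtype_le _
    have hmap : C.map π = Cb := by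
      apply le_antisymm
      · rintro _ ⟨x, hx, rfl⟩
        exact hCL hx
      · intro y hy
        obtain ⟨g, rfl⟩ := hsurj y
        have hgL : g ∈ L := hy
        obtain ⟨a', ha', m, hm, hg⟩ := hfrat ⟨g, hgL⟩
        have h1 : π (a' : G) = 1 := by
          have h2 := congrArg Subtype.val (MonoidHom.mem_ker.mp ha')
          exact h2
        have h2 : g = (a' : G) * m := congrArg Subtype.val hg
        refine ⟨m, ⟨m, hm, rfl⟩, ?_⟩
        rw [h2, map_mul, h1, one_mul]
    have hCnil : Group.IsNilpotent C := isNilpotent_map L.subtype N hnil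
    refine ⟨C, hCnil, ?_⟩
    apply le_antisymm _ Subgroup.le_normalizer
    intro x hx
    have hxC := conj_smul_eq_self_of_mem_normalizer hx
    have hxL : x ∈ L := by
      have h1 : π x ∈ Subgroup.normalizer (Cb : Set (G ⧸ A)) := by
        apply mem_normalizer_of_conj_smul_eq
        rw [← hmap, ← map_conj_smul, hxC]
      rw [hCb.2] at h1
      exact h1
    have hxN : (⟨x, hxL⟩ : L) ∈ N := by
      apply mem_normalizer_of_conj_smul_eq
      apply eq_of_conj_le
      intro z hz
      rw [mem_conj_smul] at hz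
      set x' : L := ⟨x, hxL⟩ with hx'
      have hzR : x'⁻¹ * z * x' ∈ R := hz
      have hzC : ((x'⁻¹ * z * x' : L) : G) ∈ C :=
        ⟨_, (Subgroup.le_normalizer hzR), rfl⟩
      have h1 : (z : G) ∈ C := by
        have h2 : (z : G) = x * ((x'⁻¹ * z * x' : L) : G) * x⁻¹ := by
          simp [hx']
          group
        rw [h2]
        exact (Subgroup.mem_normalizer_iff.mp hx _).mp hzC
      obtain ⟨m, hm, hmz⟩ := h1
      have h3 : m = z := Subtype.ext hmz
      rw [← h3]
      apply hall m hm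
      rw [h3]
      have h4 := orderOf_conj_eq' x' z
      rw [← h4]
      exact Nat.Coprime.coprime_dvd_left (Subgroup.orderOf_dvd_natCard R hzR) hRc
    exact ⟨⟨x, hxL⟩, hxN, rfl⟩


/-- The image of a Carter subgroup, assuming conjugacy in proper subgroups. -/
theorem carter_map [Finite G]
    (hIH : ∀ H : Subgroup G, H ≠ ⊤ → ∀ C D : Subgroup H, IsCarterSubgroup C → IsCarterSubgroup D →
      ∃ g : H, MulAut.conj g • C = D)
    (A : Subgroup G) [A.Normal] {C : Subgroup G} (hC : IsCarterSubgroup C) :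
    IsCarterSubgroup (C.map (QuotientGroup.mk' A)) := by
  set π := QuotientGroup.mk' A with hπ
  have hsurj : Function.Surjective π := QuotientGroup.mk'_surjective A
  refine ⟨isNilpotent_map π C hC.1, ?_⟩
  apply le_antisymm _ Subgroup.le_normalizer
  intro y hy
  obtain ⟨x, rfl⟩ := hsurj y
  set H : Subgroup G := C ⊔ A with hHdef
  have hHcomap : H = (C.map π).comap π := by
    rw [Subgroup.comap_map_eq, hπ, QuotientGroup.ker_mk']
  by_cases hH : H = ⊤
  · have hx : x ∈ H := hH ▸ Subgroup.mem_top x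
    rw [hHcomap] at hx
    exact hx
  · have hxH : MulAut.conj x • C ≤ H := by
      intro z hz
      rw [hHcomap, Subgroup.mem_comap]
      have h1 := conj_smul_eq_self_of_mem_normalizer hy
      rw [← map_conj_smul] at h1
      rw [← h1]
      exact ⟨z, hz, rfl⟩
    obtain ⟨h, hh⟩ := hIH H hH (C.subgroupOf H) ((MulAut.conj x • C).subgroupOf H)
      (carter_subgroupOf hC le_sup_left) (carter_subgroupOf (carter_conj_smul hC x) hxH)
    have h1 := conj_of_subgroupOf le_sup_left hxH h hh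
    have h2 : (h : G)⁻¹ * x ∈ C := by
      rw [← hC.2]
      apply mem_normalizer_of_conj_smul_eq
      rw [conj_mul_smul, ← h1, conj_inv_smul_conj_smul]
    have h3 : x ∈ H := by
      have h4 : x = h * ((h : G)⁻¹ * x) := by group
      rw [h4]
      exact H.mul_mem h.2 ((le_sup_left : C ≤ H) h2)
    rw [hHcomap] at h3
    exact h3

/-- Two Hall `q'`-subgroups are conjugate. -/
theorem hall_conj' [Finite G] [Group.IsSolvable G] {R₁ R₂ : Subgroup G} {q k₁ k₂ : ℕ} (hq : q.Prime)
    (i₁ : R₁.index = q ^ k₁) (i₂ : R₂.index = q ^ k₂) (c₁ : (Nat.card R₁).Coprime q)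
    (c₂ : (Nat.card R₂).Coprime q) : ∃ g : G, MulAut.conj g • R₁ = R₂ := by
  have h1 := index_eq_of_coprime R₁ hq i₁ c₁
  have h2 := index_eq_of_coprime R₂ hq i₂ c₂
  have h3 := Subgroup.index_mul_card R₁
  have h4 := Subgroup.index_mul_card R₂
  have h5 : Nat.card R₂ = Nat.card R₁ := by
    rw [h1] at h3
    rw [h2] at h4
    exact Nat.eq_of_mul_eq_mul_left (pow_pos hq.pos _) (h4.trans h3.symm)
  exact hall_conj (Nat.card R₁) R₁.index (by rw [mul_comm, h3]) (by
    rw [i₁]; exact Nat.Coprime.pow_right _ c₁) R₁ R₂ rfl h5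

theorem index_of_sup [Finite G] {T A : Subgroup G} [A.Normal] (h : T ⊔ A = ⊤) : T.index ∣ Nat.card A := by
  have h1 := Cfsg.Agent.Lib.FGSBasic.relIndex_eq_relIndex_sup A T
  rw [sup_comm, h, Subgroup.relIndex_top_right] at h1
  rw [← h1]
  exact Subgroup.relIndex_dvd_card T A

/-- **Conjugacy of Carter subgroups.** -/
theorem carter_conj (G : Type u) [Group G] [Finite G] [Group.IsSolvable G] :
    ∀ C D : Subgroup G, IsCarterSubgroup C → IsCarterSubgroup D → ∃ g : G, MulAut.conj g • C = D := by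
  classical
  induction hc : Nat.card G using Nat.strong_induction_on generalizing G with
  | _ n ih =>
    intro C D hC hD
    rcases subsingleton_or_nontrivial G with hs | hnt
    · exact ⟨1, by rw [conj_one_smul]; exact Subsingleton.elim _ _⟩
    obtain ⟨q, a, A, hq, ha, hAn, hAc⟩ := exists_minimal_normal_pgroup (X := G)
    haveI := hAn
    haveI : Fact q.Prime := ⟨hq⟩
    have hAp : IsPGroup q A := IsPGroup.of_card hAc
    set π := QuotientGroup.mk' A with hπ
    have hsurj : Function.Surjective π := QuotientGroup.mk'_surjective A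
    have hker : ∀ y, π y = 1 ↔ y ∈ A := fun y => QuotientGroup.eq_one_iff y
    have hcard : Nat.card (G ⧸ A) < n := by
      rw [← hc]
      have h1 := card_quotient_mul A
      have h2 : 1 < Nat.card A := by
        rw [hAc]
        exact Nat.one_lt_pow ha.ne' hq.one_lt
      have h3 : 0 < Nat.card (G ⧸ A) := Nat.card_pos
      nlinarith
    have hsub : ∀ H : Subgroup G, H ≠ ⊤ → ∀ C' D' : Subgroup H, IsCarterSubgroup C' →
        IsCarterSubgroup D' → ∃ g : H, MulAut.conj g • C' = D' := by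
      intro H hH C' D' h1 h2
      have h3 : Nat.card H < n := by
        have := card_lt_of_lt (lt_top_iff_ne_top.mpr hH)
        rwa [Subgroup.card_top, hc] at this
      exact ih _ h3 H rfl C' D' h1 h2
    obtain ⟨yb, hyb⟩ := ih _ hcard (G ⧸ A) rfl _ _ (carter_map hsub A hC) (carter_map hsub A hD)
    obtain ⟨y, rfl⟩ := hsurj yb
    set C₁ : Subgroup G := MulAut.conj y • C with hC₁def
    have hC₁ : IsCarterSubgroup C₁ := carter_conj_smul hC y
    have hC₁m : C₁.map π = D.map π := by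
      rw [hC₁def, map_conj_smul]
      exact hyb
    have hsup : C₁ ⊔ A = D ⊔ A := by
      have := congrArg (Subgroup.comap π) hC₁m
      rwa [Subgroup.comap_map_eq, Subgroup.comap_map_eq, hπ, QuotientGroup.ker_mk'] at this
    suffices h : ∃ g, MulAut.conj g • C₁ = D by
      obtain ⟨g, hg⟩ := h
      exact ⟨g * y, by rw [conj_mul_smul]; exact hg⟩
    by_cases hL : D ⊔ A = ⊤
    swap
    · have hC₁L : C₁ ≤ D ⊔ A := hsup ▸ le_sup_left
      have hDL : D ≤ D ⊔ A := le_sup_left
      obtain ⟨h, hh⟩ := hsub (D ⊔ A) hL (C₁.subgroupOf (D ⊔ A)) (D.subgroupOf (D ⊔ A))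
        (carter_subgroupOf hC₁ hC₁L) (carter_subgroupOf hD hDL)
      exact ⟨h, conj_of_subgroupOf hC₁L hDL h hh⟩
    -- the key case
    have hYnil : Group.IsNilpotent (G ⧸ A) := by
      have h1 : D.map π = ⊤ := by
        rw [eq_top_iff]
        intro y _
        obtain ⟨g, rfl⟩ := hsurj y
        have h2 : g ∈ D ⊔ A := hL ▸ Subgroup.mem_top g
        obtain ⟨d, hd, a', ha', rfl⟩ := Subgroup.mem_sup_of_normal_right.mp h2
        exact ⟨d, hd, by rw [map_mul, (hker a').mpr ha', mul_one]⟩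
      have h2 := isNilpotent_map π D hD.1
      rw [h1] at h2
      exact nilpotent_of_surjective (⊤ : Subgroup (G ⧸ A)).subtype
        (fun x => ⟨⟨x, trivial⟩, rfl⟩)
    have hfker : IsPGroup q π.ker := by
      rw [hπ, QuotientGroup.ker_mk']
      exact hAp
    obtain ⟨R₁, hR₁C, hR₁c, ⟨k₁, hk₁⟩, -, hR₁N⟩ := part_sub C₁ hC₁.1 q
    obtain ⟨R₂, hR₂D, hR₂c, ⟨k₂, hk₂⟩, -, hR₂N⟩ := part_sub D hD.1 q
    obtain ⟨j₁, -, hj₁⟩ := (Nat.dvd_prime_pow hq).mp
      (hAc ▸ index_of_sup (T := C₁) (A := A) (hsup.trans hL))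
    obtain ⟨j₂, -, hj₂⟩ := (Nat.dvd_prime_pow hq).mp
      (hAc ▸ index_of_sup (T := D) (A := A) hL)
    have hi₁ : R₁.index = q ^ (k₁ + j₁) := by
      rw [← Subgroup.relIndex_mul_index hR₁C, hk₁, hj₁, pow_add]
    have hi₂ : R₂.index = q ^ (k₂ + j₂) := by
      rw [← Subgroup.relIndex_mul_index hR₂D, hk₂, hj₂, pow_add]
    obtain ⟨g, hg⟩ := hall_conj' hq hi₁ hi₂ hR₁c hR₂c
    obtain ⟨-, hnil, -⟩ := hall_normalizer π q hfker R₂ _ hi₂ hR₂c
    refine ⟨g, ?_⟩
    have h1 : MulAut.conj g • C₁ = Subgroup.normalizer (R₂ : Set G) := by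
      apply carter_eq_of_le (carter_conj_smul hC₁ g) _ hnil
      intro x hx
      rw [mem_conj_smul] at hx
      apply mem_normalizer_of_conj_smul_eq
      have h2 := conj_smul_eq_self_of_mem_normalizer (hR₁N hx)
      have h3 : x = g * (g⁻¹ * x * g) * g⁻¹ := by group
      rw [h3, conj_mul_smul, conj_mul_smul, ← hg, conj_inv_smul_conj_smul, h2]
    rw [h1]
    exact (carter_eq_of_le hD hR₂N hnil).symm


/-! ### Carter subgroups and system normalizers -/

/-- A system adapted to a subgroup `C`. -/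
def Adapted (C : Subgroup G) (K : Nat.Primes → Subgroup G) : Prop :=
  ∀ p : Nat.Primes, ∀ y ∈ C, (orderOf y).Coprime (p : ℕ) → y ∈ K p

theorem exists_adapted [Finite G] [Group.IsSolvable G] (C : Subgroup G) (hC : Group.IsNilpotent C) :
    ∃ K : Nat.Primes → Subgroup G, IsComplementSystem K ∧ Adapted C K := by
  have h : ∀ p : Nat.Primes, ∃ W : Subgroup G, W.index = (p : ℕ) ^ (Nat.card G).factorization p ∧
      ∀ y ∈ C, (orderOf y).Coprime (p : ℕ) → y ∈ W := by
    intro p
    haveI : Fact (p : ℕ).Prime := ⟨p.2⟩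
    obtain ⟨R, -, hRc, -, hall, -⟩ := part_sub C hC (p : ℕ)
    obtain ⟨W, ⟨k, hk⟩, hWc, hRW⟩ := exists_hall_ge (G := G) (p : ℕ) R hRc
    exact ⟨W, index_eq_of_coprime W p.2 hk hWc, fun y hy hyc => hRW (hall y hy hyc)⟩
  choose K hK hK' using h
  exact ⟨K, hK, hK'⟩

theorem mem_normalizer_subgroupOf {R H : Subgroup G} {x : H}
    (hx : (x : G) ∈ Subgroup.normalizer (R : Set G)) :
    x ∈ Subgroup.normalizer ((R.subgroupOf H : Subgroup H) : Set H) := by
  rw [Subgroup.mem_normalizer_iff]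
  intro h
  rw [Subgroup.mem_subgroupOf, Subgroup.mem_subgroupOf]
  exact Subgroup.mem_normalizer_iff.mp hx h

/-- A system adapted to a Carter subgroup has its normalizer inside the subgroup. -/
theorem sysNorm_le_of_adapted (G : Type u) [Group G] [Finite G] [Group.IsSolvable G] :
    ∀ (C : Subgroup G), IsCarterSubgroup C → ∀ K : Nat.Primes → Subgroup G, IsComplementSystem K →
      Adapted C K → systemNormalizer K ≤ C := by
  classical
  induction hc : Nat.card G using Nat.strong_induction_on generalizing G with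
  | _ n ih =>
    intro C hC K hK had
    rcases subsingleton_or_nontrivial G with hs | hnt
    · intro x _
      rw [Subsingleton.elim x 1]
      exact C.one_mem
    obtain ⟨q, a, A, hq, ha, hAn, hAc⟩ := exists_minimal_normal_pgroup (X := G)
    haveI := hAn
    haveI : Fact q.Prime := ⟨hq⟩
    have hAp : IsPGroup q A := IsPGroup.of_card hAc
    set π := QuotientGroup.mk' A with hπ
    have hsurj : Function.Surjective π := QuotientGroup.mk'_surjective A
    have hker : ∀ y, π y = 1 ↔ y ∈ A := fun y => QuotientGroup.eq_one_iff y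
    have hcard : Nat.card (G ⧸ A) < n := by
      rw [← hc]
      have h1 := card_quotient_mul A
      have h2 : 1 < Nat.card A := by
        rw [hAc]
        exact Nat.one_lt_pow ha.ne' hq.one_lt
      have h3 : 0 < Nat.card (G ⧸ A) := Nat.card_pos
      nlinarith
    have hCm : IsCarterSubgroup (C.map π) :=
      carter_map (fun H _ C' D' h1 h2 => carter_conj H C' D' h1 h2) A hC
    have hadm : Adapted (C.map π) (fun p => (K p).map π) := by
      intro p y hy hyc
      obtain ⟨c, hc', rfl⟩ := hy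
      obtain ⟨u, v, hu, hv, huv, huo, hvo⟩ := Cfsg.Agent.Lib.FGS3.exists_pi_decomp {(p : ℕ)} c
      have hvc : v ∈ C := (Subgroup.zpowers_le.mpr hc') hv
      have hvK : v ∈ K p := by
        apply had p v hvc
        apply Nat.Coprime.symm
        rw [Nat.Prime.coprime_iff_not_dvd p.2]
        intro h
        exact hvo _ p.2 h rfl
      have hπu : π u = 1 := by
        rw [← orderOf_eq_one_iff]
        by_contra hne
        obtain ⟨r, hr, hrd⟩ := Nat.exists_prime_and_dvd hne
        have h1 : orderOf (π u) ∣ orderOf (π c) := by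
          obtain ⟨z, rfl⟩ := Subgroup.mem_zpowers_iff.1 hu
          rw [map_zpow]
          exact orderOf_dvd_of_mem_zpowers (Subgroup.zpow_mem_zpowers _ _)
        have h2 : r = (p : ℕ) := huo r hr (hrd.trans (orderOf_map_dvd π u))
        have h3 : (p : ℕ) ∣ Nat.gcd (orderOf (π c)) (p : ℕ) :=
          Nat.dvd_gcd (h2 ▸ hrd.trans h1) dvd_rfl
        rw [hyc] at h3
        exact p.2.one_lt.ne' (Nat.dvd_one.mp h3)
      refine ⟨v, hvK, ?_⟩
      rw [← huv, map_mul, hπu, one_mul]
    have hIH := ih _ hcard (G ⧸ A) rfl (C.map π) hCm (fun p => (K p).map π) (system_map hK A) hadm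
    set L : Subgroup G := C ⊔ A with hLdef
    have hLcomap : L = (C.map π).comap π := by
      rw [Subgroup.comap_map_eq, hπ, QuotientGroup.ker_mk']
    have hDL : systemNormalizer K ≤ L := by
      intro d hd
      rw [hLcomap, Subgroup.mem_comap]
      exact hIH (sysNorm_le_map K π ⟨d, hd, rfl⟩)
    have hCL : C ≤ L := le_sup_left
    obtain ⟨R₀, hR₀C, hR₀c, ⟨k₀, hk₀⟩, hR₀all, hR₀N⟩ := part_sub C hC.1 q
    have hR₀K : R₀ ≤ K ⟨q, hq⟩ := by
      intro y hy
      exact had ⟨q, hq⟩ y (hR₀C hy) (Nat.Coprime.coprime_dvd_left (Subgroup.orderOf_dvd_natCard R₀ hy) hR₀c)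
    -- the index of `C` in `L`
    have hCLi : ∃ j, C.relIndex L = q ^ j := by
      have h1 := Cfsg.Agent.Lib.FGSBasic.relIndex_eq_relIndex_sup A C
      rw [sup_comm] at h1
      have h2 : C.relIndex L ∣ q ^ a := by
        rw [hLdef, ← h1, ← hAc]
        exact Subgroup.relIndex_dvd_card C A
      obtain ⟨j, -, hj⟩ := (Nat.dvd_prime_pow hq).mp h2
      exact ⟨j, hj⟩
    obtain ⟨j, hj⟩ := hCLi
    have hR₀L : R₀.relIndex L = q ^ (k₀ + j) := by
      rw [← Subgroup.relIndex_mul_relIndex R₀ C L hR₀C hCL, hk₀, hj, pow_add]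
    -- `L ⊓ K q = R₀`
    have hT : L ⊓ K ⟨q, hq⟩ ≤ R₀ := by
      set T : Subgroup G := L ⊓ K ⟨q, hq⟩ with hTdef
      have hR₀T : R₀ ≤ T := le_inf (hR₀C.trans hCL) hR₀K
      have hTL : T ≤ L := inf_le_left
      have h1 : R₀.relIndex T ∣ q ^ (k₀ + j) := by
        rw [← hR₀L, ← Subgroup.relIndex_mul_relIndex R₀ T L hR₀T hTL]
        exact Dvd.intro _ rfl
      have h2 : R₀.relIndex T ∣ Nat.card T := Subgroup.relIndex_dvd_card R₀ T
      have h3 : (Nat.card T).Coprime q := by
        have h4 : Nat.card T ∣ Nat.card (K ⟨q, hq⟩) := card_dvd_of_le inf_le_right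
        exact Nat.Coprime.coprime_dvd_left h4 (card_coprime hK ⟨q, hq⟩)
      have h4 : (R₀.relIndex T).Coprime (q ^ (k₀ + j)) :=
        Nat.Coprime.pow_right _ (Nat.Coprime.coprime_dvd_left h2 h3)
      have h5 : R₀.relIndex T = 1 := Nat.Coprime.eq_one_of_dvd h4 h1
      exact Subgroup.relIndex_eq_one.mp h5
    intro d hd
    have hdL := hDL hd
    have hdR : d ∈ Subgroup.normalizer (R₀ : Set G) := by
      apply mem_normalizer_of_conj_smul_eq
      apply eq_of_conj_le
      intro z hz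
      rw [mem_conj_smul] at hz
      apply hT
      have hzz : z = d * (d⁻¹ * z * d) * d⁻¹ := by group
      constructor
      · rw [hzz]
        exact L.mul_mem (L.mul_mem hdL (hCL (hR₀C hz))) (L.inv_mem hdL)
      · rw [hzz]
        exact (Subgroup.mem_normalizer_iff.mp (Subgroup.mem_iInf.mp hd ⟨q, hq⟩) _).mp (hR₀K hz)
    have hLmem : ∀ y, y ∈ L → π y ∈ C.map π := by
      intro y hy
      rw [hLcomap] at hy
      exact hy
    haveI := hCm.1
    let f : L →* (C.map π) := (π.comp L.subtype).codRestrict (C.map π) (fun x => hLmem x x.2)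
    have hfker : IsPGroup q f.ker := by
      rintro ⟨x, hx⟩
      have h1 : π x = 1 := by
        have h2 := congrArg Subtype.val (MonoidHom.mem_ker.mp hx)
        exact h2
      have h2 : (x : G) ∈ A := (hker _).mp h1
      obtain ⟨j, hj⟩ := hAp ⟨x, h2⟩
      refine ⟨j, ?_⟩
      apply Subtype.ext
      apply Subtype.ext
      have h3 := congrArg Subtype.val hj
      simpa using h3
    have hR'c : (Nat.card (R₀.subgroupOf L)).Coprime q := by
      rw [card_subgroupOf_of_le (hR₀C.trans hCL)]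
      exact hR₀c
    obtain ⟨-, hnil, -⟩ := hall_normalizer f q hfker (R₀.subgroupOf L) _ hR₀L hR'c
    have hC' := carter_eq_of_le (carter_subgroupOf hC hCL)
      (N := Subgroup.normalizer ((R₀.subgroupOf L : Subgroup L) : Set L)) (by
        intro x hx
        exact mem_normalizer_subgroupOf (hR₀N (Subgroup.mem_subgroupOf.mp hx))) hnil
    have h1 : (⟨d, hdL⟩ : L) ∈ C.subgroupOf L := by
      rw [hC']
      exact mem_normalizer_subgroupOf hdR
    exact Subgroup.mem_subgroupOf.mp h1

/-- Carter subgroups contain a system normalizer. -/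
theorem exists_sys_le [Finite G] [Group.IsSolvable G] {C : Subgroup G} (hC : IsCarterSubgroup C) :
    ∃ K : Nat.Primes → Subgroup G, IsComplementSystem K ∧ systemNormalizer K ≤ C := by
  obtain ⟨K, hK, had⟩ := exists_adapted C hC.1
  exact ⟨K, hK, sysNorm_le_of_adapted G C hC K hK had⟩

/-- A system normalizer lies in a Carter subgroup. -/
theorem exists_carter_ge [Finite G] [Group.IsSolvable G] {K : Nat.Primes → Subgroup G}
    (hK : IsComplementSystem K) : ∃ C : Subgroup G, IsCarterSubgroup C ∧ systemNormalizer K ≤ C := by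
  obtain ⟨C₀, hC₀⟩ := carter_exists G
  obtain ⟨K₀, hK₀, hle⟩ := exists_sys_le hC₀
  obtain ⟨g, hg⟩ := sys_conj K₀ K hK₀ hK
  refine ⟨MulAut.conj g • C₀, carter_conj_smul hC₀ g, ?_⟩
  intro x hx
  rw [mem_conj_smul]
  apply hle
  apply Subgroup.mem_iInf.mpr
  intro p
  apply mem_normalizer_of_conj_smul_eq
  have h1 := conj_smul_eq_self_of_mem_normalizer (Subgroup.mem_iInf.mp hx p)
  have h2 : g⁻¹ * x * g = g⁻¹ * (x * g) := by group
  rw [h2, conj_mul_smul, conj_mul_smul, hg p, h1, ← hg p, conj_inv_smul_conj_smul]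

/-! ### Nilpotent length two -/

/-- A Hall `p'`-subgroup of a nilpotent group is normal. -/
theorem normal_of_hall_nilpotent {Y : Type*} [Group Y] [Finite Y] (hY : Group.IsNilpotent Y)
    {p k : ℕ} [Fact p.Prime] (W : Subgroup Y) (hi : W.index = p ^ k) (hc : (Nat.card W).Coprime p) :
    W.Normal := by
  obtain ⟨R, hRn, hRc, -, hall⟩ := part_exists hY p
  haveI := hRn
  have h1 : R ≤ W := Cfsg.Agent.Lib.H1CN3.normal_le_of_coprime (by
    rw [hi]
    exact Nat.Coprime.pow_right _ hRc)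
  have h2 : W ≤ R := fun w hw => hall w
    (Nat.Coprime.coprime_dvd_left (Subgroup.orderOf_dvd_natCard W hw) hc)
  rw [le_antisymm h2 h1]
  exact hRn

/-- Elements of order prime to `p` in a nilpotent normal subgroup lie in each `K p`. -/
theorem mem_of_nilpotent_normal [Finite G] (F : Subgroup G) [hFn : F.Normal] (hF : Group.IsNilpotent F)
    {W : Subgroup G} {p k : ℕ} [Fact p.Prime] (hi : W.index = p ^ k) {v : G} (hv : v ∈ F)
    (hvc : (orderOf v).Coprime p) : v ∈ W := by
  obtain ⟨R, hRF, hRc, -, hall, -⟩ := part_sub F hF p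
  haveI hRn : R.Normal := by
    refine ⟨fun r hr g => ?_⟩
    apply hall _ (hFn.conj_mem r (hRF hr) g)
    rw [orderOf_conj_eq]
    exact Nat.Coprime.coprime_dvd_left (Subgroup.orderOf_dvd_natCard R hr) hRc
  have h1 : R ≤ W := Cfsg.Agent.Lib.H1CN3.normal_le_of_coprime (by
    rw [hi]
    exact Nat.Coprime.pow_right _ hRc)
  exact h1 (hall v hv hvc)

/-- System normalizers of groups of nilpotent length two are Carter subgroups. -/
theorem sys_carter [Finite G] [Group.IsSolvable G] (F : Subgroup G) [hFn : F.Normal]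
    (hF : Group.IsNilpotent F) (hGF : Group.IsNilpotent (G ⧸ F)) {K : Nat.Primes → Subgroup G}
    (hK : IsComplementSystem K) : IsCarterSubgroup (systemNormalizer K) := by
  classical
  set D : Subgroup G := systemNormalizer K with hDdef
  have hDnil : Group.IsNilpotent D := sys_nilpotent K hK
  refine ⟨hDnil, ?_⟩
  have hK₁ := system_map hK F
  have hDF : ∀ g : G, ∃ d ∈ D, ∃ f ∈ F, g = d * f := by
    intro g
    have h1 : (QuotientGroup.mk' F g) ∈ systemNormalizer (fun p => (K p).map (QuotientGroup.mk' F)) := by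
      apply Subgroup.mem_iInf.mpr
      intro p
      haveI : Fact (p : ℕ).Prime := ⟨p.2⟩
      haveI := normal_of_hall_nilpotent hGF ((K p).map (QuotientGroup.mk' F)) (hK₁ p) (card_coprime hK₁ p)
      rw [Subgroup.normalizer_eq_top_iff.mpr inferInstance]
      trivial
    rw [sysNorm_map hK F] at h1
    obtain ⟨d, hd, hdg⟩ := h1
    refine ⟨d, hd, d⁻¹ * g, QuotientGroup.eq.mp hdg, by group⟩
  have hFN : ∀ x ∈ F, x ∈ Subgroup.normalizer (D : Set G) → x ∈ D := by
    intro x hxF hxN
    apply Subgroup.mem_iInf.mpr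
    intro p
    haveI : Fact (p : ℕ).Prime := ⟨p.2⟩
    have hpp := p.2
    obtain ⟨x₁, x₂, hx₁, hx₂, hx₁₂, hx₁o, hx₂o⟩ := Cfsg.Agent.Lib.FGS3.exists_pi_decomp {(p : ℕ)} x
    -- a generic fact
    have hco : ∀ z : G, (∀ r : ℕ, r.Prime → r ∣ orderOf z → r ∉ ({(p : ℕ)} : Set ℕ)) → (orderOf z).Coprime (p : ℕ) := by
      intro z hz
      apply Nat.Coprime.symm
      rw [Nat.Prime.coprime_iff_not_dvd hpp]
      intro h
      exact hz _ hpp h rfl
    have hpo : ∀ z : G, (∀ r : ℕ, r.Prime → r ∣ orderOf z → r ∈ ({(p : ℕ)} : Set ℕ)) →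
        ∃ e, orderOf z = (p : ℕ) ^ e := by
      intro z hz
      have hz' : ∀ r : ℕ, r.Prime → r ∣ orderOf z → r = (p : ℕ) := hz
      exact ⟨_, Nat.eq_prime_pow_of_unique_prime_dvd (orderOf_pos z).ne' (fun {d} hd hdv => hz' d hd hdv)⟩
    -- the `p`-part of `F`
    set T : Subgroup G := Cfsg.Agent.Lib.H1CN.pPart (p : ℕ) F with hTdef
    have hTp : IsPGroup (p : ℕ) T := Cfsg.Agent.Lib.H1CN.pPart_isPGroup (p : ℕ) F
    haveI hTn : T.Normal := by
      refine ⟨fun r hr g => ?_⟩
      obtain ⟨k, hk⟩ := Cfsg.Agent.Lib.H1CN.pPart_pow hr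
      exact Cfsg.Agent.Lib.H1CN.mem_pPart hF (hFn.conj_mem r (Cfsg.Agent.Lib.H1CN.pPart_le _ _ hr) g)
        ⟨k, by rw [conj_pow, hk, mul_one, mul_inv_cancel]⟩
    have hmemT : ∀ z ∈ F, (∃ e, orderOf z = (p : ℕ) ^ e) → z ∈ T := by
      rintro z hz ⟨e, he⟩
      exact Cfsg.Agent.Lib.H1CN.mem_pPart hF hz ⟨e, by rw [← he, pow_orderOf_eq_one]⟩
    have hx₁F : x₁ ∈ F := (Subgroup.zpowers_le.mpr hxF) hx₁
    have hx₂F : x₂ ∈ F := (Subgroup.zpowers_le.mpr hxF) hx₂
    have hx₁N : x₁ ∈ Subgroup.normalizer (D : Set G) := (Subgroup.zpowers_le.mpr hxN) hx₁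
    have hx₁ord := hpo x₁ hx₁o
    have hx₁T : x₁ ∈ T := hmemT x₁ hx₁F hx₁ord
    obtain ⟨e₁, he₁⟩ := hx₁ord
    have hx₂K : x₂ ∈ K p := mem_of_nilpotent_normal F hF (hK p) hx₂F (hco x₂ hx₂o)
    -- `x₁` centralizes `K p`
    have hcommK : ∀ k ∈ K p, x₁ * k = k * x₁ := by
      intro k hk
      obtain ⟨d, hd, f, hf, hkdf⟩ := hDF k
      obtain ⟨d₁, d₂, hd₁, hd₂, hd₁₂, hd₁o, hd₂o⟩ := Cfsg.Agent.Lib.FGS3.exists_pi_decomp {(p : ℕ)} d
      obtain ⟨f₁, f₂, hf₁, hf₂, hf₁₂, hf₁o, hf₂o⟩ := Cfsg.Agent.Lib.FGS3.exists_pi_decomp {(p : ℕ)} f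
      have hd₂D : d₂ ∈ D := (Subgroup.zpowers_le.mpr hd) hd₂
      have hd₂c := hco d₂ hd₂o
      have hd₂K : d₂ ∈ K p := mem_of_sys hK hd₂D hd₂c
      have hf₁F : f₁ ∈ F := (Subgroup.zpowers_le.mpr hf) hf₁
      have hf₂F : f₂ ∈ F := (Subgroup.zpowers_le.mpr hf) hf₂
      have hf₂c := hco f₂ hf₂o
      have hf₂K : f₂ ∈ K p := mem_of_nilpotent_normal F hF (hK p) hf₂F hf₂c
      have hf₁T : f₁ ∈ T := hmemT f₁ hf₁F (hpo f₁ hf₁o)
      have hdcomm : d₁ * d₂ = d₂ * d₁ := by
        obtain ⟨a, rfl⟩ := Subgroup.mem_zpowers_iff.1 hd₁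
        obtain ⟨b, rfl⟩ := Subgroup.mem_zpowers_iff.1 hd₂
        exact (Commute.refl d).zpow_zpow a b
      have hdf : d₁ * f₁ ∈ K p := by
        have h1 : d₁ * f₁ = d₂⁻¹ * k * f₂⁻¹ := by
          rw [hkdf, ← hd₁₂, ← hf₁₂, hdcomm]
          group
        rw [h1]
        exact (K p).mul_mem ((K p).mul_mem ((K p).inv_mem hd₂K) hk) ((K p).inv_mem hf₂K)
      obtain ⟨e, he⟩ := hpo d₁ hd₁o
      have hdfone : d₁ * f₁ = 1 := by
        have h1 : IsPGroup (p : ℕ) (Subgroup.zpowers d₁) := by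
          rw [IsPGroup.iff_card, Nat.card_zpowers, he]
          exact ⟨e, rfl⟩
        obtain ⟨S, hS⟩ := h1.exists_le_sylow
        have hTS : T ≤ (S : Subgroup G) := hTp.le_sylow_of_normal S
        have h2 : d₁ * f₁ ∈ (S : Subgroup G) :=
          (S : Subgroup G).mul_mem (hS (Subgroup.mem_zpowers d₁)) (hTS hf₁T)
        have h3 : orderOf (d₁ * f₁) ∣ Nat.card (S : Subgroup G) := Subgroup.orderOf_dvd_natCard _ h2
        obtain ⟨n, hn⟩ := IsPGroup.iff_card.mp S.isPGroup'
        rw [hn] at h3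
        obtain ⟨j, -, hj⟩ := (Nat.dvd_prime_pow hpp).mp h3
        exact eq_one_of_coprime_pgroup hj (card_coprime hK p) (Subgroup.orderOf_dvd_natCard _ hdf)
      have hkeq : k = d₂ * f₂ := by
        have h1 : k = d₂ * (d₁ * f₁) * f₂ := by
          rw [hkdf, ← hd₁₂, ← hf₁₂, hdcomm]
          group
        rw [h1, hdfone, mul_one]
      have hcf : x₁ * f₂ = f₂ * x₁ := by
        apply (Cfsg.Agent.Lib.H1FH.commute_coprime hF hx₁F hf₂F _).eq
        rw [he₁]
        exact Nat.Coprime.pow_left _ hf₂c.symm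
      have hcd : x₁ * d₂ = d₂ * x₁ := by
        obtain ⟨R, hRD, hRc, -, hall, -⟩ := part_sub D hDnil (p : ℕ)
        set c := x₁ * d₂ * x₁⁻¹ * d₂⁻¹ with hc
        have h1 : x₁ * d₂ * x₁⁻¹ ∈ D := (Subgroup.mem_normalizer_iff.mp hx₁N d₂).mp hd₂D
        have h2 : x₁ * d₂ * x₁⁻¹ ∈ R := by
          apply hall _ h1
          rw [orderOf_conj_eq]
          exact hd₂c
        have h3 : c ∈ R := R.mul_mem h2 (R.inv_mem (hall d₂ hd₂D hd₂c))
        have h4 : c ∈ T := by
          have : c = x₁ * (d₂ * x₁⁻¹ * d₂⁻¹) := by rw [hc]; group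
          rw [this]
          exact T.mul_mem hx₁T (hTn.conj_mem _ (T.inv_mem hx₁T) d₂)
        have h5 : orderOf c ∣ Nat.card T := Subgroup.orderOf_dvd_natCard _ h4
        obtain ⟨n, hn⟩ := IsPGroup.iff_card.mp hTp
        rw [hn] at h5
        obtain ⟨j, -, hj⟩ := (Nat.dvd_prime_pow hpp).mp h5
        have h6 : c = 1 := eq_one_of_coprime_pgroup hj hRc (Subgroup.orderOf_dvd_natCard _ h3)
        have h7 : x₁ * d₂ = c * (d₂ * x₁) := by rw [hc]; group
        rw [h7, h6, one_mul]
      rw [hkeq, ← mul_assoc, hcd, mul_assoc, hcf, mul_assoc]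
    have hx₁Np : x₁ ∈ Subgroup.normalizer (K p : Set G) := by
      apply mem_normalizer_of_conj_smul_eq
      apply eq_of_conj_le
      intro z hz
      rw [mem_conj_smul] at hz
      have h1 : x₁⁻¹ * z * x₁ = z := by
        have := hcommK _ hz
        have h3 : x₁ * (x₁⁻¹ * z * x₁) = z * x₁ := by group
        rw [h3] at this
        exact (mul_right_cancel this).symm
      rwa [h1] at hz
    rw [← hx₁₂]
    exact Subgroup.mul_mem _ hx₁Np (Subgroup.le_normalizer hx₂K)
  apply le_antisymm _ Subgroup.le_normalizer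
  intro x hx
  obtain ⟨d, hd, f, hf, rfl⟩ := hDF x
  refine D.mul_mem hd (hFN f hf ?_)
  have h1 : f = d⁻¹ * (d * f) := by group
  rw [h1]
  exact Subgroup.mul_mem _ (Subgroup.inv_mem _ (Subgroup.le_normalizer hd)) hx


/-- Carter subgroups in groups of nilpotent length two are exactly the system normalizers. -/
theorem carter_iff_sys [Finite G] (F : Subgroup G) [hFn : F.Normal] (hF : Group.IsNilpotent F)
    (hGF : Group.IsNilpotent (G ⧸ F)) (C : Subgroup G) :
    IsCarterSubgroup C ↔ ∃ K : Nat.Primes → Subgroup G, IsComplementSystem K ∧ C = systemNormalizer K := by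
  haveI : Group.IsSolvable G := solvable_of_ker_le_range F.subtype (QuotientGroup.mk' F) (by
    rw [QuotientGroup.ker_mk', Subgroup.range_subtype])
  constructor
  · intro hC
    obtain ⟨K, hK, hle⟩ := exists_sys_le hC
    exact ⟨K, hK, (carter_eq_of_le (sys_carter F hF hGF hK) hle hC.1).symm⟩
  · rintro ⟨K, hK, rfl⟩
    exact sys_carter F hF hGF hK

end Cfsg.Agent.Lib.H1Carter
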