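import Mathlib

/-!
# Additive endomorphisms of a finite field of characteristic two as combinations of automorphisms
-/

set_option autoImplicit false

namespace Cfsg.Agent.Lib.H1Dedekind

variable {F : Type*} [Field F] [Fintype F] [CharP F 2]

instance finA : Finite (F ≃+* F) :=
  Finite.of_injective (fun σ : F ≃+* F => (σ : F → F)) DFunLike.coe_injective

instance finE : Finite (F →+ F) :=
  Finite.of_injective (fun f : F →+ F => (f : F → F)) DFunLike.coe_injective

lemma indep_fun : LinearIndependent F (fun σ : F ≃+* F => ((σ : F →+* F) : F → F)) := by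
  have h := linearIndependent_monoidHom F F
  exact h.comp (fun σ : F ≃+* F => ((σ : F →+* F) : F →* F)) (fun σ τ e => by
    ext x
    exact DFunLike.congr_fun e x)

variable [Fintype (F ≃+* F)]

lemma indep (c : (F ≃+* F) → F) (h : ∀ x : F, ∑ σ, c σ * σ x = 0) : c = 0 := by
  have hi := Fintype.linearIndependent_iff.1 (indep_fun (F := F)) c (by
    ext x
    simpa [Finset.sum_apply] using h x)
  funext σ
  exact hi σ

/-- The additive map attached to a family of coefficients. -/
noncomputable def Phi : ((F ≃+* F) → F) →+ (F →+ F) where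
  toFun c :=
    { toFun := fun x => ∑ σ, c σ * σ x
      map_zero' := by simp
      map_add' := fun x y => by simp [mul_add, Finset.sum_add_distrib] }
  map_zero' := by ext x; simp
  map_add' c d := by
    ext x
    simp [add_mul, Finset.sum_add_distrib]

lemma Phi_apply (c : (F ≃+* F) → F) (x : F) : Phi c x = ∑ σ, c σ * σ x := rfl

lemma Phi_inj : Function.Injective (Phi (F := F)) := by
  rw [injective_iff_map_eq_zero]
  intro c hc
  exact indep c fun x => by
    have := DFunLike.congr_fun hc x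
    simpa [Phi_apply] using this

lemma card_end : Nat.card (F →+ F) ≤ Nat.card ((F ≃+* F) → F) := by
  letI : Algebra (ZMod 2) F := ZMod.algebra F 2
  haveI : Fact (Nat.Prime 2) := ⟨Nat.prime_two⟩
  set n := Module.finrank (ZMod 2) F with hn
  have h1 : Nat.card (F →+ F) = Nat.card (F →ₗ[ZMod 2] F) :=
    Nat.card_congr (AddMonoidHom.toZModLinearMapEquiv 2).toEquiv
  have hF : Nat.card F = 2 ^ n := by
    rw [hn, Module.natCard_eq_pow_finrank (K := ZMod 2) (V := F)]
    simp
  have h2 : Nat.card (F →ₗ[ZMod 2] F) = 2 ^ (n * n) := by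
    rw [Module.natCard_eq_pow_finrank (K := ZMod 2) (V := F →ₗ[ZMod 2] F), Module.finrank_linearMap]
    simp [hn]
  have h3 : n ≤ Nat.card (F ≃+* F) := by
    have h4 : Nat.card (F ≃ₐ[ZMod 2] F) = n := IsGalois.card_aut_eq_finrank _ _
    rw [← h4]
    exact Nat.card_le_card_of_injective (fun σ : F ≃ₐ[ZMod 2] F => (σ : F ≃+* F))
      (fun σ τ e => by
        ext x
        exact DFunLike.congr_fun e x)
  rw [h1, h2]
  have h5 : Nat.card ((F ≃+* F) → F) = (2 ^ n) ^ Nat.card (F ≃+* F) := by
    rw [Nat.card_fun, hF]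
  rw [h5, pow_mul]
  exact Nat.pow_le_pow_right (by positivity) h3

lemma Phi_bij : Function.Bijective (Phi (F := F)) :=
  Phi_inj.bijective_of_nat_card_le card_end

lemma exists_repr (f : F →+ F) : ∃ c : (F ≃+* F) → F, ∀ x : F, f x = ∑ σ, c σ * σ x := by
  obtain ⟨c, rfl⟩ := Phi_bij.2 f
  exact ⟨c, fun _ => rfl⟩

lemma biadd_repr (B : F →+ F →+ F) :
    ∃ c : (F ≃+* F) × (F ≃+* F) → F, ∀ x y : F, B x y = ∑ p, c p * (p.1 x * p.2 y) := by
  let E : ((F ≃+* F) → F) ≃+ (F →+ F) := AddEquiv.ofBijective Phi Phi_bij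
  have hE : ∀ (c : (F ≃+* F) → F) (x : F), E c x = ∑ σ, c σ * σ x := fun _ _ => rfl
  let C : (F ≃+* F) → (F →+ F) := fun τ =>
    (Pi.evalAddMonoidHom _ τ).comp (E.symm.toAddMonoidHom.comp B)
  have hC : ∀ τ x, C τ x = E.symm (B x) τ := fun _ _ => rfl
  choose d hd using fun τ => exists_repr (C τ)
  refine ⟨fun p => d p.2 p.1, fun x y => ?_⟩
  have e1 : B x y = ∑ τ, E.symm (B x) τ * τ y := by
    rw [← hE, AddEquiv.apply_symm_apply]
  rw [e1, Fintype.sum_prod_type_right]
  refine Finset.sum_congr rfl fun τ _ => ?_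
  rw [← hC, hd, Finset.sum_mul]
  refine Finset.sum_congr rfl fun σ _ => ?_
  ring

end Cfsg.Agent.Lib.H1Dedekind
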