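import Mathlib
import Cfsg.Prelude.Def_FischerSpaces

set_option autoImplicit false
open Cfsg

namespace Cfsg.Agent.Lib.H1Fischer

section model
variable {X T : Type*}

lemma subspace_range (L : Set (Set X)) (M : Set (Set T)) (f : T → X) (hf : Function.Injective f)
    (hPL : LineSystem.IsPartialLinear L)
    (H2 : ∀ m ∈ M, f '' m ∈ L)
    (H3 : ∀ n ∈ L, ∀ i j, i ≠ j → f i ∈ n → f j ∈ n → ∃ m ∈ M, i ∈ m ∧ j ∈ m) :
    LineSystem.IsSubspace L (Set.range f) := by
  rintro n hn _ ⟨i, rfl⟩ _ ⟨j, rfl⟩ hne hi hj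
  have hij : i ≠ j := fun e => hne (by rw [e])
  obtain ⟨m, hm, him, hjm⟩ := H3 n hn i j hij hi hj
  have : n = f '' m := hPL n hn _ (H2 m hm) _ _ hne hi hj ⟨i, him, rfl⟩ ⟨j, hjm, rfl⟩
  rw [this]
  exact Set.image_subset_range f m

/-- Generic transfer to a model. -/
lemma model_iso (L : Set (Set X)) (M : Set (Set T)) (f : T → X) (hf : Function.Injective f)
    (hPL : LineSystem.IsPartialLinear L) (hL2 : ∀ l ∈ L, ∃ u ∈ l, ∃ v ∈ l, u ≠ v)
    (H2 : ∀ m ∈ M, f '' m ∈ L)
    (H3 : ∀ n ∈ L, ∀ i j, i ≠ j → f i ∈ n → f j ∈ n → ∃ m ∈ M, i ∈ m ∧ j ∈ m) :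
    LineSystem.Isomorphic (LineSystem.restrict L (Set.range f)) M := by
  refine ⟨(Equiv.ofInjective f hf).symm, ?_⟩
  intro l'
  have hE : ∀ x : Set.range f, f ((Equiv.ofInjective f hf).symm x) = x :=
    fun x => Equiv.apply_ofInjective_symm hf x
  constructor
  · rintro ⟨l, hl, hsub, rfl⟩
    obtain ⟨u, hu, v, hv, huv⟩ := hL2 l hl
    obtain ⟨i, rfl⟩ := hsub hu
    obtain ⟨j, rfl⟩ := hsub hv
    have hij : i ≠ j := fun e => huv (by rw [e])
    obtain ⟨m, hm, him, hjm⟩ := H3 l hl i j hij hu hv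
    have hlm : l = f '' m := hPL l hl _ (H2 m hm) _ _ huv hu hv ⟨i, him, rfl⟩ ⟨j, hjm, rfl⟩
    subst hlm
    have : (Equiv.ofInjective f hf).symm '' {x : Set.range f | (x : X) ∈ f '' m} = m := by
      ext t
      constructor
      · rintro ⟨x, ⟨t', ht', he⟩, rfl⟩
        have := hE x
        rw [← he] at this
        rw [hf this]
        exact ht'
      · intro ht
        refine ⟨⟨f t, t, rfl⟩, ⟨t, ht, rfl⟩, ?_⟩
        exact hf (hE _)
    rw [this]
    exact hm
  · intro hm
    refine ⟨f '' ((Equiv.ofInjective f hf).symm '' l'), H2 _ hm, Set.image_subset_range _ _, ?_⟩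
    ext x
    constructor
    · intro hx
      exact ⟨_, ⟨x, hx, rfl⟩, hE x⟩
    · rintro ⟨_, ⟨y, hy, rfl⟩, he⟩
      rw [hE] at he
      have : y = x := Subtype.ext he
      rwa [← this]

lemma span_eq (L : Set (Set X)) {S₀ R : Set X} (h0 : S₀ ⊆ R) (hR : LineSystem.IsSubspace L R)
    (hT : ∀ T : Set X, S₀ ⊆ T → LineSystem.IsSubspace L T → R ⊆ T) : LineSystem.span L S₀ = R := by
  apply Set.Subset.antisymm
  · intro x hx
    exact Set.mem_sInter.mp hx R ⟨h0, hR⟩
  · intro x hx
    exact Set.mem_sInter.mpr (fun T hT' => hT T hT'.1 hT'.2 hx)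

end model

section tri
variable {G : Type*} [Group G]

/-- A line of three involutions. -/
structure Tri (x y z : G) : Prop where
  nc : ¬ Commute x y
  hx : x * x = 1
  hy : y * y = 1
  e1 : x * y * x = z
  e2 : y * x * y = z

lemma Tri.ne {x y z : G} (h : Tri x y z) : x ≠ y := by
  rintro rfl
  exact h.nc (Commute.refl _)

lemma Tri.swap {x y z : G} (h : Tri x y z) : Tri y x z :=
  ⟨fun hc => h.nc hc.symm, h.hy, h.hx, h.e2, h.e1⟩

lemma Tri.rot {x y z : G} (h : Tri x y z) : Tri x z y := by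
  obtain ⟨nc, hx, hy, e1, e2⟩ := h
  subst e1
  have hxx : x⁻¹ = x := inv_eq_of_mul_eq_one_left hx
  refine ⟨?_, hx, ?_, ?_, ?_⟩
  · intro hc
    apply nc
    have h1 : x * (x * y * x) = x * y * x * x := hc
    have h2 : y * x = x * y := by
      calc y * x = x * x * y * x := by rw [hx, one_mul]
        _ = x * (x * y * x) := by group
        _ = x * y * x * x := h1
        _ = x * y * (x * x) := by group
        _ = x * y := by rw [hx, mul_one]
    exact h2.symm
  · calc x * y * x * (x * y * x) = x * y * (x * x) * y * x := by group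
      _ = x * (y * y) * x := by rw [hx, mul_one]; group
      _ = 1 := by rw [hy, mul_one, hx]
  · calc x * (x * y * x) * x = (x * x) * y * (x * x) := by group
      _ = y := by rw [hx, one_mul, mul_one]
  · -- (xyx) x (xyx) = x y x y x = x (y x y) x = x (x y x) x = y
    calc x * y * x * x * (x * y * x) = x * y * (x * x) * x * y * x := by group
      _ = x * (y * x * y) * x := by rw [hx, mul_one]; group
      _ = x * (x * y * x) * x := by rw [e2]
      _ = (x * x) * y * (x * x) := by group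
      _ = y := by rw [hx, one_mul, mul_one]

lemma Tri.hz {x y z : G} (h : Tri x y z) : z * z = 1 := h.rot.hy

lemma Tri.map {x y z : G} (h : Tri x y z) (φ : G ≃* G) : Tri (φ x) (φ y) (φ z) := by
  refine ⟨?_, ?_, ?_, ?_, ?_⟩
  · intro hc
    apply h.nc
    have : φ (x * y) = φ (y * x) := by
      rw [map_mul, map_mul]; exact hc
    exact φ.injective this
  · rw [← map_mul, h.hx, map_one]
  · rw [← map_mul, h.hy, map_one]
  · rw [← map_mul, ← map_mul, h.e1]
  · rw [← map_mul, ← map_mul, h.e2]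

lemma Tri.conj {x y z u x' y' z' : G} (h : Tri x y z) (hu : u * u = 1) (h1 : u * x * u = x')
    (h2 : u * y * u = y') (h3 : u * z * u = z') : Tri x' y' z' := by
  have hi : u⁻¹ = u := inv_eq_of_mul_eq_one_left hu
  have := h.map (MulAut.conj u)
  simp only [MulAut.conj_apply, hi, h1, h2, h3] at this
  exact this

lemma tri_mk {x y : G} (hx : x * x = 1) (hy : y * y = 1) (h3 : (x * y) ^ 2 = 1 ∨ (x * y) ^ 3 = 1)
    (nc : ¬ Commute x y) : Tri x y (x * y * x) := by
  have hxi : x⁻¹ = x := inv_eq_of_mul_eq_one_left hx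
  have hyi : y⁻¹ = y := inv_eq_of_mul_eq_one_left hy
  rcases h3 with h3 | h3
  · exfalso
    apply nc
    have h4 : x * y * (x * y) = 1 := by rw [← pow_two]; exact h3
    have h5 : x * y = (x * y)⁻¹ := eq_inv_of_mul_eq_one_left h4
    rw [mul_inv_rev, hxi, hyi] at h5
    exact h5
  · refine ⟨nc, hx, hy, rfl, ?_⟩
    have h4 : x * y * (x * y) * (x * y) = 1 := by
      rw [← h3, pow_succ, pow_two]
    have h5 : y * x * y = (x * y * x)⁻¹ := by
      apply eq_inv_of_mul_eq_one_left
      calc y * x * y * (x * y * x) = x * x * (y * x * y * (x * y * x)) := by rw [hx, one_mul]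
        _ = x * (x * y * (x * y) * (x * y)) * x := by group
        _ = 1 := by rw [h4, mul_one, hx]
    rw [h5]
    simp only [mul_inv_rev, hxi, hyi, mul_assoc]

end tri


section lines
variable {G : Type*} [Group G] {D : Set G}

lemma inv_of_mem (hD : IsThreeTranspositionSet D) {x : G} (hx : x ∈ D) : x * x = 1 := by
  rw [← pow_two, ← hD.1 x hx]
  exact pow_orderOf_eq_one x

/-- Any line is a triple. -/
lemma tri_of_line (hD : IsThreeTranspositionSet D) (hc : ∀ g : G, ∀ d ∈ D, g * d * g⁻¹ ∈ D) {l : Set D}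
    (hl : l ∈ threeTranspositionLines D) : ∃ x y z : D, Tri (x : G) y z ∧ l = {x, y, z} := by
  obtain ⟨x, y, nc, rfl⟩ := hl
  have hxx := inv_of_mem hD x.2
  have hyy := inv_of_mem hD y.2
  have hyi : (y : G)⁻¹ = y := inv_eq_of_mul_eq_one_left hyy
  have ht := tri_mk hxx hyy (hD.2 x x.2 y y.2) nc
  have hm : (y : G) * x * (y : G) ∈ D := by
    have := hc y x x.2
    rwa [hyi] at this
  refine ⟨x, y, ⟨(y : G) * x * (y : G), hm⟩, ?_, ?_⟩
  · show Tri (x : G) y ((y : G) * x * y)
    rw [ht.e2]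
    exact ht
  · ext w
    simp only [Set.mem_setOf_eq, Set.mem_insert_iff, Set.mem_singleton_iff, Subtype.ext_iff, hyi]

lemma line_of_tri (hD : IsThreeTranspositionSet D) {x y z : D} (h : Tri (x : G) y z) :
    ({x, y, z} : Set D) ∈ threeTranspositionLines D := by
  refine ⟨x, y, h.nc, ?_⟩
  have hyi : (y : G)⁻¹ = y := inv_eq_of_mul_eq_one_left h.hy
  ext w
  simp only [Set.mem_setOf_eq, Set.mem_insert_iff, Set.mem_singleton_iff, Subtype.ext_iff, hyi, h.e2]

lemma tri_two {x y z u v : D} (h : Tri (x : G) y z) (hu : u ∈ ({x, y, z} : Set D))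
    (hv : v ∈ ({x, y, z} : Set D)) (huv : u ≠ v) :
    ∃ w : D, Tri (u : G) v w ∧ ({x, y, z} : Set D) = {u, v, w} := by
  simp only [Set.mem_insert_iff, Set.mem_singleton_iff] at hu hv
  rcases hu with rfl | rfl | rfl <;> rcases hv with rfl | rfl | rfl
  · exact absurd rfl huv
  · exact ⟨z, h, rfl⟩
  · exact ⟨y, h.rot, by ext w; simp only [Set.mem_insert_iff, Set.mem_singleton_iff]; tauto⟩
  · exact ⟨z, h.swap, by ext w; simp only [Set.mem_insert_iff, Set.mem_singleton_iff]; tauto⟩
  · exact absurd rfl huv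
  · exact ⟨x, h.swap.rot, by ext w; simp only [Set.mem_insert_iff, Set.mem_singleton_iff]; tauto⟩
  · exact ⟨y, h.rot.swap, by ext w; simp only [Set.mem_insert_iff, Set.mem_singleton_iff]; tauto⟩
  · exact ⟨x, h.swap.rot.swap, by ext w; simp only [Set.mem_insert_iff, Set.mem_singleton_iff]; tauto⟩
  · exact absurd rfl huv

lemma tri_unique {x y z z' : D} (h : Tri (x : G) y z) (h' : Tri (x : G) y z') : z = z' :=
  Subtype.ext (h.e1.symm.trans h'.e1)

lemma partial_linear (hD : IsThreeTranspositionSet D) (hc : ∀ g : G, ∀ d ∈ D, g * d * g⁻¹ ∈ D) :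
    LineSystem.IsPartialLinear (threeTranspositionLines D) := by
  intro l hl m hm u v huv hul hvl hum hvm
  obtain ⟨x, y, z, h, rfl⟩ := tri_of_line hD hc hl
  obtain ⟨x', y', z', h', rfl⟩ := tri_of_line hD hc hm
  obtain ⟨w, hw, e⟩ := tri_two h hul hvl huv
  obtain ⟨w', hw', e'⟩ := tri_two h' hum hvm huv
  rw [e, e', tri_unique hw hw']

lemma Tri.distinct {x y z : G} (h : Tri x y z) : x ≠ y ∧ x ≠ z ∧ y ≠ z :=
  ⟨h.ne, h.rot.ne, h.swap.rot.ne⟩

lemma line_card (hD : IsThreeTranspositionSet D) (hc : ∀ g : G, ∀ d ∈ D, g * d * g⁻¹ ∈ D) {l : Set D}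
    (hl : l ∈ threeTranspositionLines D) : l.ncard = 3 := by
  obtain ⟨x, y, z, h, rfl⟩ := tri_of_line hD hc hl
  obtain ⟨h1, h2, h3⟩ := h.distinct
  exact Set.ncard_eq_three.mpr ⟨x, y, z, fun e => h1 (by rw [e]), fun e => h2 (by rw [e]),
    fun e => h3 (by rw [e]), rfl⟩

lemma line_two (hD : IsThreeTranspositionSet D) (hc : ∀ g : G, ∀ d ∈ D, g * d * g⁻¹ ∈ D) {l : Set D}
    (hl : l ∈ threeTranspositionLines D) : ∃ u ∈ l, ∃ v ∈ l, u ≠ v := by
  obtain ⟨x, y, z, h, rfl⟩ := tri_of_line hD hc hl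
  exact ⟨x, by simp, y, by simp, fun e => h.ne (by rw [e])⟩

lemma line_nc (hD : IsThreeTranspositionSet D) (hc : ∀ g : G, ∀ d ∈ D, g * d * g⁻¹ ∈ D) {l : Set D}
    (hl : l ∈ threeTranspositionLines D) {u v : D} (hu : u ∈ l) (hv : v ∈ l) (huv : u ≠ v) :
    ¬ Commute (u : G) v := by
  obtain ⟨x, y, z, h, rfl⟩ := tri_of_line hD hc hl
  obtain ⟨w, hw, _⟩ := tri_two h hu hv huv
  exact hw.nc

/-- Through a point of a line. -/
lemma exists_tri_through (hD : IsThreeTranspositionSet D) (hc : ∀ g : G, ∀ d ∈ D, g * d * g⁻¹ ∈ D)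
    {l : Set D} (hl : l ∈ threeTranspositionLines D) {p : D} (hp : p ∈ l) :
    ∃ a a' : D, Tri (p : G) a a' ∧ l = {p, a, a'} := by
  obtain ⟨x, y, z, h, rfl⟩ := tri_of_line hD hc hl
  by_cases hpx : p = x
  · subst hpx
    exact ⟨y, z, h, rfl⟩
  · obtain ⟨w, hw, e⟩ := tri_two h hp (show x ∈ ({x, y, z} : Set D) by simp) hpx
    exact ⟨x, w, hw, e⟩

/-- `third` element in `D`. -/
lemma conj_mem (hD : IsThreeTranspositionSet D) (hc : ∀ g : G, ∀ d ∈ D, g * d * g⁻¹ ∈ D) {x y : G}
    (hx : x ∈ D) (hy : y ∈ D) : x * y * x ∈ D := by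
  have h := hc x y hy
  rwa [inv_eq_of_mul_eq_one_left (inv_of_mem hD hx)] at h

end lines


def s01 : DualAffinePoint := ⟨{0, 1}, by decide⟩
def s12 : DualAffinePoint := ⟨{1, 2}, by decide⟩
def s02 : DualAffinePoint := ⟨{0, 2}, by decide⟩
def s03 : DualAffinePoint := ⟨{0, 3}, by decide⟩
def s13 : DualAffinePoint := ⟨{1, 3}, by decide⟩
def s23 : DualAffinePoint := ⟨{2, 3}, by decide⟩

set_option maxRecDepth 100000 in
lemma dp_cases : ∀ s : DualAffinePoint, s = s01 ∨ s = s12 ∨ s = s02 ∨ s = s03 ∨ s = s13 ∨ s = s23 := by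
  decide

set_option maxRecDepth 100000 in
lemma dp_comb : ∀ i j : DualAffinePoint, i ≠ j → Disjoint i.val j.val ∨ ∃ k : Fin 4, k ∉ i.val ∧ k ∉ j.val := by
  decide

set_option maxRecDepth 100000 in
lemma dp_disj : ∀ i j : DualAffinePoint, Disjoint i.val j.val → (i = s01 ∧ j = s23) ∨ (i = s23 ∧ j = s01) ∨ (i = s12 ∧ j = s03) ∨ (i = s03 ∧ j = s12) ∨ (i = s02 ∧ j = s13) ∨ (i = s13 ∧ j = s02) := by
  decide

set_option maxRecDepth 100000 in
lemma dp_m3 : {s : DualAffinePoint | (3 : Fin 4) ∉ s.val} = {s01, s12, s02} := by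
  ext s
  rcases dp_cases s with rfl | rfl | rfl | rfl | rfl | rfl <;> simp [s01, s12, s02, s03, s13, s23, Subtype.ext_iff] <;> decide

set_option maxRecDepth 100000 in
lemma dp_m2 : {s : DualAffinePoint | (2 : Fin 4) ∉ s.val} = {s01, s13, s03} := by
  ext s
  rcases dp_cases s with rfl | rfl | rfl | rfl | rfl | rfl <;> simp [s01, s12, s02, s03, s13, s23, Subtype.ext_iff] <;> decide

set_option maxRecDepth 100000 in
lemma dp_m0 : {s : DualAffinePoint | (0 : Fin 4) ∉ s.val} = {s12, s13, s23} := by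
  ext s
  rcases dp_cases s with rfl | rfl | rfl | rfl | rfl | rfl <;> simp [s01, s12, s02, s03, s13, s23, Subtype.ext_iff] <;> decide

set_option maxRecDepth 100000 in
lemma dp_m1 : {s : DualAffinePoint | (1 : Fin 4) ∉ s.val} = {s02, s03, s23} := by
  ext s
  rcases dp_cases s with rfl | rfl | rfl | rfl | rfl | rfl <;> simp [s01, s12, s02, s03, s13, s23, Subtype.ext_iff] <;> decide

section dual
variable {G : Type*} [Group G] {D : Set G}

/-- The labelling for the dual affine plane. -/
def fdual (p a a' b b' c : D) (s : DualAffinePoint) : D :=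
  if s = s01 then p else if s = s12 then a else if s = s02 then a' else if s = s03 then b
  else if s = s13 then b' else c

theorem dual_case (hD : IsThreeTranspositionSet D) (hc : ∀ g : G, ∀ d ∈ D, g * d * g⁻¹ ∈ D)
    {p a a' b b' : D} (h1 : Tri (p : G) a a') (h2 : Tri (p : G) b b') (hab : Commute (a : G) b)
    (hne : a ≠ b) :
    LineSystem.Isomorphic (LineSystem.restrict (threeTranspositionLines D)
      (LineSystem.span (threeTranspositionLines D) (({p, a, a'} : Set D) ∪ {p, b, b'})))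
      dualAffinePlaneTwo := by
  have hp := h1.hx
  have ha := h1.hy
  have hb := h2.hy
  have hb' := h2.hz
  have hnc : ¬ Commute (a : G) b' := by
    intro hcomm
    apply h1.swap.nc
    have e : (b : G) * b' * b = p := h2.swap.rot.e1
    rw [← e]
    exact (hab.mul_right hcomm).mul_right hab
  let c : D := ⟨(a : G) * b' * a, conj_mem hD hc a.2 b'.2⟩
  have T1 : Tri (a : G) b' c := tri_mk ha hb' (hD.2 a a.2 b' b'.2) hnc
  have hab2 : (a : G) * b * a = b := by
    rw [hab.eq, mul_assoc, ha, mul_one]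
  have hpc : (p : G) * c * p = c := by
    show (p : G) * ((a : G) * b' * a) * p = (a : G) * b' * a
    have e1 : (p : G) * a * p = (a : G) * p * a := h1.e1.trans h1.e2.symm
    rw [← h2.e1]
    calc (p : G) * ((a : G) * ((p : G) * b * p) * a) * p = ((p : G) * a * p) * b * ((p : G) * a * p) := by group
      _ = ((a : G) * p * a) * b * ((a : G) * p * a) := by rw [e1]
      _ = (a : G) * p * ((a : G) * b * a) * p * a := by group
      _ = (a : G) * p * b * p * a := by rw [hab2]
      _ = (a : G) * ((p : G) * b * p) * a := by group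
  have T2 : Tri (a' : G) b c := T1.conj hp h1.e1 h2.rot.e1 hpc
  have hi : (p : G)⁻¹ = p := inv_eq_of_mul_eq_one_left hp
  have hc1 : Commute (a' : G) b' := by
    have := hab.map (MulAut.conj (p : G)).toMonoidHom
    simp only [MulEquiv.toMonoidHom_eq_coe, MonoidHom.coe_coe, MulAut.conj_apply, hi] at this
    rwa [h1.e1, h2.e1] at this
  have hc2 : Commute (p : G) c := by
    show (p : G) * c = c * p
    calc (p : G) * c = (p : G) * c * (p * p) := by rw [hp, mul_one]
      _ = ((p : G) * c * p) * p := by group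
      _ = c * p := by rw [hpc]
  -- distinctness
  have d1 := h1.distinct
  have d2 := h2.distinct
  have d3 := T1.distinct
  have d4 := T2.distinct
  have hne2 : (a' : G) ≠ b' := by
    intro e
    apply hne
    apply Subtype.ext
    have e1 : (p : G) * a' * p = a := h1.rot.e1
    have e2 : (p : G) * b' * p = b := h2.rot.e1
    rw [← e1, ← e2, e]
  have hne3 : (p : G) ≠ c := by
    intro e
    apply hne2
    have e1 : (a : G) * p * a = a' := h1.e2
    have e2 : (a : G) * c * a = b' := T1.rot.e1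
    rw [← e1, ← e2, e]
  have hne1 : (a : G) ≠ b := fun e => hne (Subtype.ext e)
  let f := fdual p a a' b b' c
  have f1 : f s01 = p := by simp [f, fdual]
  have f2 : f s12 = a := by simp [f, fdual, show s12 ≠ s01 by decide]
  have f3 : f s02 = a' := by simp [f, fdual, show s02 ≠ s01 by decide, show s02 ≠ s12 by decide]
  have f4 : f s03 = b := by
    simp [f, fdual, show s03 ≠ s01 by decide, show s03 ≠ s12 by decide, show s03 ≠ s02 by decide]
  have f5 : f s13 = b' := by
    simp [f, fdual, show s13 ≠ s01 by decide, show s13 ≠ s12 by decide, show s13 ≠ s02 by decide,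
      show s13 ≠ s03 by decide]
  have f6 : f s23 = c := by
    simp [f, fdual, show s23 ≠ s01 by decide, show s23 ≠ s12 by decide, show s23 ≠ s02 by decide,
      show s23 ≠ s03 by decide, show s23 ≠ s13 by decide]
  have hfinj : Function.Injective f := by
    intro i j he
    by_contra hij
    rcases dp_cases i with rfl | rfl | rfl | rfl | rfl | rfl <;>
      rcases dp_cases j with rfl | rfl | rfl | rfl | rfl | rfl <;>
      first
        | exact hij rfl
        | (simp only [f1, f2, f3, f4, f5, f6] at he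
           have he' := congrArg (Subtype.val) he
           first
            | exact d1.1 he' | exact d1.2.1 he' | exact d1.2.2 he'
            | exact d2.1 he' | exact d2.2.1 he' | exact d2.2.2 he'
            | exact d3.1 he' | exact d3.2.1 he' | exact d3.2.2 he'
            | exact d4.1 he' | exact d4.2.1 he' | exact d4.2.2 he'
            | exact hne1 he' | exact hne2 he' | exact hne3 he'
            | exact d1.1 he'.symm | exact d1.2.1 he'.symm | exact d1.2.2 he'.symm
            | exact d2.1 he'.symm | exact d2.2.1 he'.symm | exact d2.2.2 he'.symm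
            | exact d3.1 he'.symm | exact d3.2.1 he'.symm | exact d3.2.2 he'.symm
            | exact d4.1 he'.symm | exact d4.2.1 he'.symm | exact d4.2.2 he'.symm
            | exact hne1 he'.symm | exact hne2 he'.symm | exact hne3 he'.symm)
  have hPL := partial_linear hD hc
  have H2 : ∀ m ∈ dualAffinePlaneTwo, f '' m ∈ threeTranspositionLines D := by
    rintro m ⟨i, rfl⟩
    have hi : i = 0 ∨ i = 1 ∨ i = 2 ∨ i = 3 := by
      revert i; decide
    rcases hi with rfl | rfl | rfl | rfl
    · rw [dp_m0, Set.image_insert_eq, Set.image_insert_eq, Set.image_singleton, f2, f5, f6]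
      exact line_of_tri hD T1
    · rw [dp_m1, Set.image_insert_eq, Set.image_insert_eq, Set.image_singleton, f3, f4, f6]
      exact line_of_tri hD T2
    · rw [dp_m2, Set.image_insert_eq, Set.image_insert_eq, Set.image_singleton, f1, f5, f4]
      exact line_of_tri hD h2.rot
    · rw [dp_m3, Set.image_insert_eq, Set.image_insert_eq, Set.image_singleton, f1, f2, f3]
      exact line_of_tri hD h1
  have H3 : ∀ n ∈ threeTranspositionLines D, ∀ i j, i ≠ j → f i ∈ n → f j ∈ n →
      ∃ m ∈ dualAffinePlaneTwo, i ∈ m ∧ j ∈ m := by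
    intro n hn i j hij hi hj
    have hnc' := line_nc hD hc hn hi hj (fun e => hij (hfinj e))
    rcases dp_comb i j hij with hd | ⟨k, hk1, hk2⟩
    · exfalso
      rcases dp_disj i j hd with ⟨rfl, rfl⟩ | ⟨rfl, rfl⟩ | ⟨rfl, rfl⟩ | ⟨rfl, rfl⟩ | ⟨rfl, rfl⟩ | ⟨rfl, rfl⟩ <;>
        simp only [f1, f2, f3, f4, f5, f6] at hnc'
      · exact hnc' hc2
      · exact hnc' hc2.symm
      · exact hnc' hab
      · exact hnc' hab.symm
      · exact hnc' hc1
      · exact hnc' hc1.symm
    · exact ⟨{s | k ∉ s.val}, ⟨k, rfl⟩, hk1, hk2⟩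
  have hspan : LineSystem.span (threeTranspositionLines D) (({p, a, a'} : Set D) ∪ {p, b, b'}) = Set.range f := by
    apply span_eq
    · rintro x (hx | hx) <;> simp only [Set.mem_insert_iff, Set.mem_singleton_iff] at hx
      · rcases hx with rfl | rfl | rfl
        · exact ⟨s01, f1⟩
        · exact ⟨s12, f2⟩
        · exact ⟨s02, f3⟩
      · rcases hx with rfl | rfl | rfl
        · exact ⟨s01, f1⟩
        · exact ⟨s03, f4⟩
        · exact ⟨s13, f5⟩
    · exact subspace_range _ _ f hfinj hPL H2 H3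
    · rintro T hT hsub _ ⟨s, rfl⟩
      have mp : p ∈ T := hT (Or.inl (by simp))
      have ma : a ∈ T := hT (Or.inl (by simp))
      have ma' : a' ∈ T := hT (Or.inl (by simp))
      have mb : b ∈ T := hT (Or.inr (by simp))
      have mb' : b' ∈ T := hT (Or.inr (by simp))
      have mc : c ∈ T := hsub _ (line_of_tri hD T1) a ma b' mb' (fun e => d3.1 (by rw [e])) (by simp) (by simp) (by simp)
      rcases dp_cases s with rfl | rfl | rfl | rfl | rfl | rfl
      · rwa [f1]
      · rwa [f2]
      · rwa [f3]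
      · rwa [f4]
      · rwa [f5]
      · rwa [f6]
  rw [hspan]
  exact model_iso _ _ f hfinj hPL (fun l hl => line_two hD hc hl) H2 H3

end dual


section ag
variable {G : Type*} [Group G] {D : Set G}

lemma z3_third : ∀ x y : ZMod 3, -x - (x + y) = x + 2 * y := by decide

lemma z3_zero_one_two : ∀ c : ZMod 3, c = 0 ∨ c = 1 ∨ c = 2 := by decide

/-- The table of the nine points. -/
def tbl (p a a' b b' c1 c2 c3 c4 : D) (r s : ZMod 3) : D :=
  (![![p, b, b'], ![a, c4, c3], ![a', c2, c1]] : Fin 3 → Fin 3 → D) r s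

set_option maxHeartbeats 4000000 in
lemma tbl_law {p a a' b b' c1 c2 c3 c4 : D}
    (t1 : Tri (p : G) a a') (t2 : Tri (p : G) b b') (t3 : Tri (a : G) b c1) (t4 : Tri (a : G) b' c2)
    (t5 : Tri (a' : G) b' c4) (t6 : Tri (a' : G) b c3) (t7 : Tri (b' : G) c1 c3)
    (t8 : Tri (b : G) c2 c4) (t9 : Tri (a' : G) c1 c2) (t10 : Tri (a : G) c3 c4)
    (t11 : Tri (p : G) c1 c4) (t12 : Tri (p : G) c2 c3) (r s r' s' : ZMod 3)
    (hne : (r, s) ≠ (r', s')) :
    Tri ((tbl p a a' b b' c1 c2 c3 c4 r s : D) : G) (tbl p a a' b b' c1 c2 c3 c4 r' s' : D)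
      (tbl p a a' b b' c1 c2 c3 c4 (-r - r') (-s - s') : D) := by
  fin_cases r <;> fin_cases s <;> fin_cases r' <;> fin_cases s'
  · exact absurd rfl hne
  · exact t2
  · exact t2.rot
  · exact t1
  · exact t11.rot
  · exact t12.rot
  · exact t1.rot
  · exact t12
  · exact t11
  · exact t2.swap
  · exact absurd rfl hne
  · exact t2.swap.rot
  · exact t3.swap
  · exact t8.rot
  · exact t6.swap.rot
  · exact t6.swap
  · exact t8
  · exact t3.swap.rot
  · exact t2.rot.swap
  · exact t2.swap.rot.swap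
  · exact absurd rfl hne
  · exact t4.swap
  · exact t5.swap.rot
  · exact t7.rot
  · exact t5.swap
  · exact t4.swap.rot
  · exact t7
  · exact t1.swap
  · exact t3
  · exact t4
  · exact absurd rfl hne
  · exact t10.rot
  · exact t10
  · exact t1.swap.rot
  · exact t4.rot
  · exact t3.rot
  · exact t11.rot.swap
  · exact t8.rot.swap
  · exact t5.swap.rot.swap
  · exact t10.rot.swap
  · exact absurd rfl hne
  · exact t10.swap.rot.swap
  · exact t5.rot.swap
  · exact t8.swap.rot.swap
  · exact t11.swap.rot.swap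
  · exact t12.rot.swap
  · exact t6.swap.rot.swap
  · exact t7.rot.swap
  · exact t10.swap
  · exact t10.swap.rot
  · exact absurd rfl hne
  · exact t6.rot.swap
  · exact t12.swap.rot.swap
  · exact t7.swap.rot.swap
  · exact t1.rot.swap
  · exact t6
  · exact t5
  · exact t1.swap.rot.swap
  · exact t5.rot
  · exact t6.rot
  · exact absurd rfl hne
  · exact t9.rot
  · exact t9
  · exact t12.swap
  · exact t8.swap
  · exact t4.swap.rot.swap
  · exact t4.rot.swap
  · exact t8.swap.rot
  · exact t12.swap.rot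
  · exact t9.rot.swap
  · exact absurd rfl hne
  · exact t9.swap.rot.swap
  · exact t11.swap
  · exact t3.swap.rot.swap
  · exact t7.swap
  · exact t3.rot.swap
  · exact t11.swap.rot
  · exact t7.swap.rot
  · exact t9.swap
  · exact t9.swap.rot
  · exact absurd rfl hne

theorem ag_case (hD : IsThreeTranspositionSet D) (hc : ∀ g : G, ∀ d ∈ D, g * d * g⁻¹ ∈ D)
    {p a a' b b' : D} (t1 : Tri (p : G) a a') (t2 : Tri (p : G) b b') (hab : ¬ Commute (a : G) b)
    (hab' : ¬ Commute (a : G) b') :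
    LineSystem.Isomorphic (LineSystem.restrict (threeTranspositionLines D)
      (LineSystem.span (threeTranspositionLines D) (({p, a, a'} : Set D) ∪ {p, b, b'})))
      affinePlaneThree := by
  have hp := t1.hx
  have ha := t1.hy
  have ha' := t1.hz
  have hb := t2.hy
  have hb' := t2.hz
  let c1 : D := ⟨(a : G) * b * a, conj_mem hD hc a.2 b.2⟩
  let c2 : D := ⟨(a : G) * b' * a, conj_mem hD hc a.2 b'.2⟩
  have t3 : Tri (a : G) b c1 := tri_mk ha hb (hD.2 a a.2 b b.2) hab
  have t4 : Tri (a : G) b' c2 := tri_mk ha hb' (hD.2 a a.2 b' b'.2) hab'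
  let c4 : D := ⟨(p : G) * c1 * p, conj_mem hD hc p.2 c1.2⟩
  let c3 : D := ⟨(p : G) * c2 * p, conj_mem hD hc p.2 c2.2⟩
  have t5 : Tri (a' : G) b' c4 := t3.conj hp t1.e1 t2.e1 rfl
  have t6 : Tri (a' : G) b c3 := t4.conj hp t1.e1 t2.rot.e1 rfl
  have t7 : Tri (b' : G) c1 c3 := t1.conj hb t2.swap.e1 t3.swap.e1 t6.swap.e1
  have t8 : Tri (b : G) c2 c4 := t1.conj hb' t2.rot.swap.e1 t4.swap.e1 t5.swap.e1
  have t9 : Tri (a' : G) c1 c2 := t2.conj ha t1.swap.e1 t3.e1 t4.e1
  have t10 : Tri (a : G) c3 c4 := t2.conj ha' t1.rot.swap.e1 t6.e1 t5.e1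
  have t11 : Tri (p : G) c1 c4 := t6.conj ha t1.swap.rot.e1 t3.e1 t10.e1
  have t12 : Tri (p : G) c2 c3 := t5.conj ha t1.swap.rot.e1 t4.e1 t10.rot.e1
  let f : (Fin 2 → ZMod 3) → D := fun i => tbl p a a' b b' c1 c2 c3 c4 (i 0) (i 1)
  have law : ∀ i j : Fin 2 → ZMod 3, i ≠ j → Tri ((f i : D) : G) (f j : D) (f (-i - j) : D) := by
    intro i j hij
    refine tbl_law t1 t2 t3 t4 t5 t6 t7 t8 t9 t10 t11 t12 (i 0) (i 1) (j 0) (j 1) ?_
    intro he
    apply hij
    funext k
    have h0 := congrArg Prod.fst he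
    have h1 := congrArg Prod.snd he
    fin_cases k
    · exact h0
    · exact h1
  have hfinj : Function.Injective f := by
    intro i j he
    by_contra hij
    exact (law i j hij).ne (by rw [he])
  have hPL := partial_linear hD hc
  have H2 : ∀ m ∈ affinePlaneThree, f '' m ∈ threeTranspositionLines D := by
    rintro m ⟨v, w, hw, rfl⟩
    have hvw : v ≠ v + w := by
      intro e
      apply hw
      exact left_eq_add.mp e
    have e3 : -v - (v + w) = v + (2 : ZMod 3) • w := by
      funext k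
      simp only [Pi.sub_apply, Pi.neg_apply, Pi.add_apply, Pi.smul_apply, smul_eq_mul]
      exact z3_third _ _
    have hl := law v (v + w) hvw
    rw [e3] at hl
    have hset : f '' {x | ∃ c : ZMod 3, x = v + c • w} = {f v, f (v + w), f (v + (2 : ZMod 3) • w)} := by
      ext y
      simp only [Set.mem_image, Set.mem_setOf_eq, Set.mem_insert_iff, Set.mem_singleton_iff]
      constructor
      · rintro ⟨x, ⟨c, rfl⟩, rfl⟩
        rcases z3_zero_one_two c with rfl | rfl | rfl
        · left; simp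
        · right; left; simp
        · right; right; rfl
      · rintro (rfl | rfl | rfl)
        · exact ⟨v, ⟨0, by simp⟩, rfl⟩
        · exact ⟨v + w, ⟨1, by simp⟩, rfl⟩
        · exact ⟨_, ⟨2, rfl⟩, rfl⟩
    rw [hset]
    exact line_of_tri hD hl
  have H3 : ∀ n ∈ threeTranspositionLines D, ∀ i j, i ≠ j → f i ∈ n → f j ∈ n →
      ∃ m ∈ affinePlaneThree, i ∈ m ∧ j ∈ m := by
    intro n _ i j hij _ _
    refine ⟨_, ⟨i, j - i, sub_ne_zero.mpr hij.symm, rfl⟩, ⟨0, by simp⟩, ⟨1, by simp⟩⟩
  have fp : f ![0, 0] = p := rfl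
  have fa : f ![1, 0] = a := rfl
  have fa' : f ![2, 0] = a' := rfl
  have fb : f ![0, 1] = b := rfl
  have fb' : f ![0, 2] = b' := rfl
  have hspan : LineSystem.span (threeTranspositionLines D) (({p, a, a'} : Set D) ∪ {p, b, b'}) = Set.range f := by
    apply span_eq
    · rintro x (hx | hx) <;> simp only [Set.mem_insert_iff, Set.mem_singleton_iff] at hx
      · rcases hx with rfl | rfl | rfl
        · exact ⟨_, fp⟩
        · exact ⟨_, fa⟩
        · exact ⟨_, fa'⟩
      · rcases hx with rfl | rfl | rfl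
        · exact ⟨_, fp⟩
        · exact ⟨_, fb⟩
        · exact ⟨_, fb'⟩
    · exact subspace_range _ _ f hfinj hPL H2 H3
    · rintro T hT hsub _ ⟨i, rfl⟩
      have mp : p ∈ T := hT (Or.inl (by simp))
      have ma : a ∈ T := hT (Or.inl (by simp))
      have ma' : a' ∈ T := hT (Or.inl (by simp))
      have mb : b ∈ T := hT (Or.inr (by simp))
      have mb' : b' ∈ T := hT (Or.inr (by simp))
      have m1 : c1 ∈ T := hsub _ (line_of_tri hD t3) a ma b mb (fun e => t3.ne (by rw [e])) (by simp) (by simp) (by simp)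
      have m2 : c2 ∈ T := hsub _ (line_of_tri hD t4) a ma b' mb' (fun e => t4.ne (by rw [e])) (by simp) (by simp) (by simp)
      have m3 : c3 ∈ T := hsub _ (line_of_tri hD t6) a' ma' b mb (fun e => t6.ne (by rw [e])) (by simp) (by simp) (by simp)
      have m4 : c4 ∈ T := hsub _ (line_of_tri hD t5) a' ma' b' mb' (fun e => t5.ne (by rw [e])) (by simp) (by simp) (by simp)
      show tbl p a a' b b' c1 c2 c3 c4 (i 0) (i 1) ∈ T
      generalize i 0 = r
      generalize i 1 = s
      fin_cases r <;> fin_cases s <;> assumption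
  rw [hspan]
  exact model_iso _ _ f hfinj hPL (fun l hl => line_two hD hc hl) H2 H3

/-- The line system of a 3-transposition group is a Fischer space. -/
theorem fischer (hD : IsThreeTranspositionSet D) (hc : ∀ g : G, ∀ d ∈ D, g * d * g⁻¹ ∈ D) :
    IsFischerSpace (threeTranspositionLines D) := by
  have hPL := partial_linear hD hc
  refine ⟨hPL, fun l hl => line_card hD hc hl, ?_⟩
  rintro l hl m hm hne ⟨p, hpl, hpm⟩
  obtain ⟨a, a', h1, rfl⟩ := exists_tri_through hD hc hl hpl
  obtain ⟨b, b', h2, rfl⟩ := exists_tri_through hD hc hm hpm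
  have hpa : p ≠ a := fun e => h1.ne (by rw [← e])
  by_cases hab : Commute (a : G) b
  · left
    refine dual_case hD hc h1 h2 hab ?_
    rintro rfl
    exact hne (hPL _ hl _ hm p a hpa (by simp) (by simp) (by simp) (by simp))
  · by_cases hab' : Commute (a : G) b'
    · left
      have e : ({p, b, b'} : Set D) = {p, b', b} := by
        ext w; simp only [Set.mem_insert_iff, Set.mem_singleton_iff]; tauto
      rw [e]
      refine dual_case hD hc h1 h2.rot hab' ?_
      rintro rfl
      exact hne (hPL _ hl _ hm p a hpa (by simp) (by simp) (by simp) (by simp))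
    · right
      exact ag_case hD hc h1 h2 hab hab'

end ag

end Cfsg.Agent.Lib.H1Fischer
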