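import Mathlib
import Cfsg.Prelude.Def_FischerSpaces

set_option autoImplicit false
open Cfsg

namespace Cfsg.Agent.Lib.H1Fischer2

variable {X : Type*} {L : Set (Set X)}

/-- Line triples. -/
def T3 (L : Set (Set X)) (a b c : X) : Prop := c ≠ a ∧ c ≠ b ∧ a ≠ b ∧ ({a, b, c} : Set X) ∈ L

lemma T3.swap {a b c : X} (h : T3 L a b c) : T3 L b a c := by
  obtain ⟨h1, h2, h3, h4⟩ := h
  refine ⟨h2, h1, h3.symm, ?_⟩
  rwa [Set.insert_comm]

lemma T3.rot {a b c : X} (h : T3 L a b c) : T3 L a c b := by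
  obtain ⟨h1, h2, h3, h4⟩ := h
  refine ⟨h3.symm, h2.symm, h1.symm, ?_⟩
  rwa [Set.pair_comm b c] at h4

/-- Structural hypotheses. -/
structure Pre (L : Set (Set X)) : Prop where
  pl : LineSystem.IsPartialLinear L
  three : ∀ l ∈ L, l.ncard = 3

lemma Pre.third_unique (h : Pre L) {a b c c' : X} (h1 : T3 L a b c) (h2 : T3 L a b c') : c = c' := by
  have he := h.pl _ h1.2.2.2 _ h2.2.2.2 a b h1.2.2.1 (by simp) (by simp) (by simp) (by simp)
  have hc : c ∈ ({a, b, c'} : Set X) := by rw [← he]; simp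
  simp only [Set.mem_insert_iff, Set.mem_singleton_iff] at hc
  rcases hc with hc | hc | hc
  · exact absurd hc h1.1
  · exact absurd hc h1.2.1
  · exact hc

lemma lm_of_T (h : Pre L) {a b c : X} (h1 : T3 L a b c) : LineSystem.lineMap L a b = c := by
  unfold LineSystem.lineMap
  have hex : ∃ z : X, z ≠ a ∧ z ≠ b ∧ a ≠ b ∧ ({a, b, z} : Set X) ∈ L := ⟨c, h1⟩
  rw [dif_pos hex]
  exact h.third_unique (Exists.choose_spec hex) h1

lemma lm_of_not {a b : X} (h1 : ¬ ∃ c, T3 L a b c) : LineSystem.lineMap L a b = b := by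
  unfold LineSystem.lineMap
  exact dif_neg h1

/-- Collinearity by triples. -/
def Col (L : Set (Set X)) (a b : X) : Prop := ∃ c, T3 L a b c

lemma Col.symm {a b : X} (h : Col L a b) : Col L b a := by
  obtain ⟨c, hc⟩ := h
  exact ⟨c, hc.swap⟩

lemma lm_ne_iff (h : Pre L) {a b : X} : LineSystem.lineMap L a b ≠ b ↔ Col L a b := by
  constructor
  · intro hne
    by_contra hc
    exact hne (lm_of_not hc)
  · rintro ⟨c, hc⟩
    rw [lm_of_T h hc]
    exact hc.2.1

lemma lm_invol (h : Pre L) (a b : X) : LineSystem.lineMap L a (LineSystem.lineMap L a b) = b := by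
  by_cases hc : ∃ c, T3 L a b c
  · obtain ⟨c, hc⟩ := hc
    rw [lm_of_T h hc, lm_of_T h hc.rot]
  · rw [lm_of_not hc, lm_of_not hc]

lemma line_eq (h : Pre L) {l : Set X} (hl : l ∈ L) {u v w : X} (hu : u ∈ l) (hv : v ∈ l) (hw : w ∈ l)
    (huv : u ≠ v) (huw : u ≠ w) (hvw : v ≠ w) : l = {u, v, w} := by
  have hfin : l.Finite := Set.finite_of_ncard_ne_zero (by rw [h.three l hl]; norm_num)
  refine (Set.eq_of_subset_of_ncard_le ?_ ?_ hfin).symm
  · intro x hx
    simp only [Set.mem_insert_iff, Set.mem_singleton_iff] at hx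
    rcases hx with rfl | rfl | rfl <;> assumption
  · rw [h.three l hl, Set.ncard_eq_three.mpr ⟨u, v, w, huv, huw, hvw, rfl⟩]

lemma line_exists (h : Pre L) {l : Set X} (hl : l ∈ L) : ∃ a b c, T3 L a b c ∧ l = {a, b, c} := by
  obtain ⟨a, b, c, h1, h2, h3, rfl⟩ := Set.ncard_eq_three.mp (h.three l hl)
  exact ⟨a, b, c, ⟨h2.symm, h3.symm, h1, hl⟩, rfl⟩

lemma line_through (h : Pre L) {l : Set X} (hl : l ∈ L) {u v : X} (hu : u ∈ l) (hv : v ∈ l) (huv : u ≠ v) :
    ∃ w, T3 L u v w ∧ l = {u, v, w} := by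
  obtain ⟨a, b, c, hT, rfl⟩ := line_exists h hl
  simp only [Set.mem_insert_iff, Set.mem_singleton_iff] at hu hv
  have e1 : ({a, b, c} : Set X) = {b, a, c} := Set.insert_comm _ _ _
  have e2 : ({a, b, c} : Set X) = {a, c, b} := by rw [Set.pair_comm b c]
  have e3 : ({a, b, c} : Set X) = {b, c, a} := by
    ext w; simp only [Set.mem_insert_iff, Set.mem_singleton_iff]; tauto
  have e4 : ({a, b, c} : Set X) = {c, a, b} := by
    ext w; simp only [Set.mem_insert_iff, Set.mem_singleton_iff]; tauto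
  have e5 : ({a, b, c} : Set X) = {c, b, a} := by
    ext w; simp only [Set.mem_insert_iff, Set.mem_singleton_iff]; tauto
  rcases hu with rfl | rfl | rfl <;> rcases hv with rfl | rfl | rfl
  · exact absurd rfl huv
  · exact ⟨c, hT, rfl⟩
  · exact ⟨b, hT.rot, e2⟩
  · exact ⟨c, hT.swap, e1⟩
  · exact absurd rfl huv
  · exact ⟨a, hT.swap.rot, e3⟩
  · exact ⟨b, hT.rot.swap, e4⟩
  · exact ⟨a, hT.swap.rot.swap, e5⟩
  · exact absurd rfl huv

lemma span_subspace (S₀ : Set X) : LineSystem.IsSubspace L (LineSystem.span L S₀) := by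
  intro l hl x hx y hy hxy hxl hyl z hz
  refine Set.mem_sInter.mpr ?_
  rintro T ⟨hT1, hT2⟩
  exact hT2 l hl x (Set.mem_sInter.mp hx T ⟨hT1, hT2⟩) y (Set.mem_sInter.mp hy T ⟨hT1, hT2⟩) hxy hxl hyl hz

lemma subset_span (S₀ : Set X) : S₀ ⊆ LineSystem.span L S₀ :=
  fun _ hx => Set.mem_sInter.mpr (fun _ hT => hT.1 hx)

/-- Local structure. -/
structure Loc (L : Set (Set X)) (S : Set X) : Prop where
  cl : ∀ u ∈ S, ∀ v ∈ S, LineSystem.lineMap L u v ∈ S
  f1 : ∀ u ∈ S, ∀ a ∈ S, ∀ b ∈ S, LineSystem.lineMap L (LineSystem.lineMap L u a) (LineSystem.lineMap L u b)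
    = LineSystem.lineMap L u (LineSystem.lineMap L a b)
  f2a : ∀ u ∈ S, ∀ v ∈ S, ∀ w ∈ S, Col L u v →
    LineSystem.lineMap L u (LineSystem.lineMap L v (LineSystem.lineMap L u (LineSystem.lineMap L v
      (LineSystem.lineMap L u (LineSystem.lineMap L v w))))) = w
  f2b : ∀ u ∈ S, ∀ v ∈ S, ∀ w ∈ S, u ≠ v → ¬ Col L u v →
    LineSystem.lineMap L u (LineSystem.lineMap L v w) = LineSystem.lineMap L v (LineSystem.lineMap L u w)
  f3 : ∀ u ∈ S, ∀ v ∈ S, ∀ w ∈ S, u ≠ v → ¬ Col L u v → w ≠ u → w ≠ v → Col L w v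

/-- A finite model with explicit line maps. -/
structure IsModel {T : Type*} (M : Set (Set T)) (τ : T → T → T) : Prop where
  m1 : ∀ i j k, k ≠ i → k ≠ j → i ≠ j → ({i, j, k} : Set T) ∈ M → τ i j = k
  m2 : ∀ i j, τ i j ≠ j → τ i j ≠ i ∧ i ≠ j ∧ ({i, j, τ i j} : Set T) ∈ M
  f1 : ∀ i a b, τ (τ i a) (τ i b) = τ i (τ a b)
  f2a : ∀ i j k, τ i j ≠ j → τ i (τ j (τ i (τ j (τ i (τ j k))))) = k
  f2b : ∀ i j k, i ≠ j → τ i j = j → τ i (τ j k) = τ j (τ i k)
  f3 : ∀ i j k, i ≠ j → τ i j = j → k ≠ i → k ≠ j → τ k j ≠ j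

/-- Transfer of a model to a subspace. -/
theorem loc_of_model {T : Type*} (h : Pre L) {S : Set X} (hS : LineSystem.IsSubspace L S) {M : Set (Set T)}
    {τ : T → T → T} (hM : IsModel M τ) (hI : LineSystem.Isomorphic (LineSystem.restrict L S) M) :
    Loc L S := by
  obtain ⟨e, he⟩ := hI
  -- A1: a line through two points of `S`
  have A1 : ∀ (u v : S) (w : X), T3 L (u : X) v w → ∃ hw : w ∈ S, τ (e u) (e v) = e ⟨w, hw⟩ := by
    intro u v w hT
    have hsub : ({(u : X), (v : X), w} : Set X) ⊆ S :=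
      hS _ hT.2.2.2 u u.2 v v.2 hT.2.2.1 (by simp) (by simp)
    have hw : w ∈ S := hsub (by simp)
    refine ⟨hw, ?_⟩
    have hr : {x : S | (x : X) ∈ ({(u : X), (v : X), w} : Set X)} ∈ LineSystem.restrict L S :=
      ⟨_, hT.2.2.2, hsub, rfl⟩
    have hm := (he _).mp hr
    have hset : e '' {x : S | (x : X) ∈ ({(u : X), (v : X), w} : Set X)} = {e u, e v, e ⟨w, hw⟩} := by
      ext t
      simp only [Set.mem_image, Set.mem_setOf_eq, Set.mem_insert_iff, Set.mem_singleton_iff]
      constructor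
      · rintro ⟨x, hx | hx | hx, rfl⟩
        · left; rw [Subtype.ext hx]
        · right; left; rw [Subtype.ext hx]
        · right; right; rw [show x = ⟨w, hw⟩ from Subtype.ext hx]
      · rintro (rfl | rfl | rfl)
        · exact ⟨u, Or.inl rfl, rfl⟩
        · exact ⟨v, Or.inr (Or.inl rfl), rfl⟩
        · exact ⟨⟨w, hw⟩, Or.inr (Or.inr rfl), rfl⟩
    rw [hset] at hm
    have n1 : e ⟨w, hw⟩ ≠ e u := fun hh => hT.1 (congrArg Subtype.val (e.injective hh))
    have n2 : e ⟨w, hw⟩ ≠ e v := fun hh => hT.2.1 (congrArg Subtype.val (e.injective hh))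
    have n3 : e u ≠ e v := fun hh => hT.2.2.1 (congrArg Subtype.val (e.injective hh))
    exact hM.m1 _ _ _ n1 n2 n3 hm
  -- A2: a model line comes from a line
  have A2 : ∀ u v : S, τ (e u) (e v) ≠ e v → T3 L (u : X) v (e.symm (τ (e u) (e v)) : S) := by
    intro u v hne
    obtain ⟨h1, h2, h3⟩ := hM.m2 _ _ hne
    set k : S := e.symm (τ (e u) (e v)) with hk
    have hek : e k = τ (e u) (e v) := by rw [hk]; simp
    rw [← hek] at h3
    have huv : u ≠ v := fun hh => h2 (by rw [hh])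
    have hku : k ≠ u := fun hh => h1 (by rw [← hek, hh])
    have hkv : k ≠ v := fun hh => hne (by rw [← hek, hh])
    have hpre : e '' (e ⁻¹' {e u, e v, e k}) = {e u, e v, e k} := Set.image_preimage_eq _ e.surjective
    have hr := (he (e ⁻¹' {e u, e v, e k})).mpr (by rw [hpre]; exact h3)
    obtain ⟨l, hl, hlS, hEq⟩ := hr
    have mem : ∀ x : S, e x ∈ ({e u, e v, e k} : Set T) → (x : X) ∈ l := by
      intro x hx
      have : x ∈ e ⁻¹' {e u, e v, e k} := hx
      rw [hEq] at this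
      exact this
    have hlu : (u : X) ∈ l := mem u (by simp)
    have hlv : (v : X) ∈ l := mem v (by simp)
    have hlk : (k : X) ∈ l := mem k (by simp)
    have n1 : (u : X) ≠ v := fun hh => huv (Subtype.ext hh)
    have n2 : (k : X) ≠ u := fun hh => hku (Subtype.ext hh)
    have n3 : (k : X) ≠ v := fun hh => hkv (Subtype.ext hh)
    have hll := line_eq h hl hlu hlv hlk n1 n2.symm n3.symm
    refine ⟨n2, n3, n1, ?_⟩
    rw [← hll]
    exact hl
  -- formula
  have F : ∀ u v : S, LineSystem.lineMap L (u : X) v = (e.symm (τ (e u) (e v)) : S) := by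
    intro u v
    by_cases hne : τ (e u) (e v) = e v
    · rw [hne, e.symm_apply_apply]
      apply lm_of_not
      rintro ⟨w, hw⟩
      obtain ⟨hwS, hwe⟩ := A1 u v w hw
      rw [hne] at hwe
      exact hw.2.1 (congrArg Subtype.val (e.injective hwe)).symm
    · exact lm_of_T h (A2 u v hne)
  have Fe : ∀ u v : S, ∃ hm : LineSystem.lineMap L (u : X) v ∈ S, e ⟨LineSystem.lineMap L (u : X) v, hm⟩ = τ (e u) (e v) := by
    intro u v
    refine ⟨by rw [F u v]; exact Subtype.coe_prop _, ?_⟩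
    have : (⟨LineSystem.lineMap L (u : X) v, by rw [F u v]; exact Subtype.coe_prop _⟩ : S) = e.symm (τ (e u) (e v)) :=
      Subtype.ext (F u v)
    rw [this]
    simp
  have Col_iff : ∀ u v : S, Col L (u : X) v ↔ τ (e u) (e v) ≠ e v := by
    intro u v
    constructor
    · rintro ⟨w, hw⟩ hh
      obtain ⟨hwS, hwe⟩ := A1 u v w hw
      rw [hh] at hwe
      exact hw.2.1 (congrArg Subtype.val (e.injective hwe)).symm
    · intro hne
      exact ⟨_, A2 u v hne⟩
  -- local operation on `S`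
  let tS : S → S → S := fun u v => e.symm (τ (e u) (e v))
  have htS : ∀ u v : S, LineSystem.lineMap L (u : X) v = (tS u v : S) := F
  have etS : ∀ u v : S, e (tS u v) = τ (e u) (e v) := by
    intro u v
    simp [tS]
  refine ⟨?_, ?_, ?_, ?_, ?_⟩
  · intro u hu v hv
    exact (Fe ⟨u, hu⟩ ⟨v, hv⟩).1
  · intro u hu a ha b hb
    have h1 := hM.f1 (e ⟨u, hu⟩) (e ⟨a, ha⟩) (e ⟨b, hb⟩)
    rw [show u = ((⟨u, hu⟩ : S) : X) from rfl, show a = ((⟨a, ha⟩ : S) : X) from rfl,
      show b = ((⟨b, hb⟩ : S) : X) from rfl]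
    rw [htS, htS, htS, htS, htS]
    congr 1
    apply e.injective
    simp only [etS]
    exact h1
  · intro u hu v hv w hw hc
    have hc' := (Col_iff ⟨u, hu⟩ ⟨v, hv⟩).mp hc
    have h1 := hM.f2a _ _ (e ⟨w, hw⟩) hc'
    have e1 : ∀ x : S, LineSystem.lineMap L u (x : X) = (tS ⟨u, hu⟩ x : S) := fun x => htS ⟨u, hu⟩ x
    have e2 : ∀ x : S, LineSystem.lineMap L v (x : X) = (tS ⟨v, hv⟩ x : S) := fun x => htS ⟨v, hv⟩ x
    rw [show w = ((⟨w, hw⟩ : S) : X) from rfl, e2, e1, e2, e1, e2, e1]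
    apply congrArg Subtype.val
    apply e.injective
    simp only [etS]
    exact h1
  · intro u hu v hv w hw huv hc
    have hc' : τ (e ⟨u, hu⟩) (e ⟨v, hv⟩) = e ⟨v, hv⟩ := by
      by_contra hh
      exact hc ((Col_iff ⟨u, hu⟩ ⟨v, hv⟩).mpr hh)
    have hne : e ⟨u, hu⟩ ≠ e ⟨v, hv⟩ := fun hh => huv (congrArg Subtype.val (e.injective hh))
    have h1 := hM.f2b _ _ (e ⟨w, hw⟩) hne hc'
    have e1 : ∀ x : S, LineSystem.lineMap L u (x : X) = (tS ⟨u, hu⟩ x : S) := fun x => htS ⟨u, hu⟩ x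
    have e2 : ∀ x : S, LineSystem.lineMap L v (x : X) = (tS ⟨v, hv⟩ x : S) := fun x => htS ⟨v, hv⟩ x
    rw [show w = ((⟨w, hw⟩ : S) : X) from rfl, e2, e1, e1, e2]
    apply congrArg Subtype.val
    apply e.injective
    simp only [etS]
    exact h1
  · intro u hu v hv w hw huv hc hwu hwv
    have hc' : τ (e ⟨u, hu⟩) (e ⟨v, hv⟩) = e ⟨v, hv⟩ := by
      by_contra hh
      exact hc ((Col_iff ⟨u, hu⟩ ⟨v, hv⟩).mpr hh)
    have hne : e ⟨u, hu⟩ ≠ e ⟨v, hv⟩ := fun hh => huv (congrArg Subtype.val (e.injective hh))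
    have n1 : e ⟨w, hw⟩ ≠ e ⟨u, hu⟩ := fun hh => hwu (congrArg Subtype.val (e.injective hh))
    have n2 : e ⟨w, hw⟩ ≠ e ⟨v, hv⟩ := fun hh => hwv (congrArg Subtype.val (e.injective hh))
    have h1 := hM.f3 _ _ _ hne hc' n1 n2
    exact (Col_iff ⟨w, hw⟩ ⟨v, hv⟩).mpr h1


section ag

lemma z3_a : ∀ x : ZMod 3, -x - x = x := by decide
lemma z3_b : ∀ x y : ZMod 3, -x - y = y → x = y := by decide
lemma z3_c : ∀ i a b : ZMod 3, -(-i - a) - (-i - b) = -i - (-a - b) := by decide
lemma z3_d : ∀ i j k : ZMod 3, -i - (-j - (-i - (-j - (-i - (-j - k))))) = k := by decide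
lemma z3_e : ∀ v w c1 c2 c3 : ZMod 3, c1 + c2 + c3 = 0 → -(v + c1 * w) - (v + c2 * w) = v + c3 * w := by decide
lemma z3_f : ∀ c1 c2 c3 : ZMod 3, c1 ≠ c2 → c1 ≠ c3 → c2 ≠ c3 → c1 + c2 + c3 = 0 := by decide
lemma z3_g : ∀ c : ZMod 3, c = 0 ∨ c = 1 ∨ c = 2 := by decide
lemma z3_h : ∀ i j : ZMod 3, -i - j = i + 2 * (j - i) := by decide
lemma z3_i : ∀ x y : ZMod 3, -x - y = x → x = y := by decide

lemma ag_model : IsModel affinePlaneThree (fun i j : Fin 2 → ZMod 3 => -i - j) where
  m1 := by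
    rintro i j k hki hkj hij ⟨v, w, _, hset⟩
    have hi : i ∈ ({i, j, k} : Set (Fin 2 → ZMod 3)) := by simp
    have hj : j ∈ ({i, j, k} : Set (Fin 2 → ZMod 3)) := by simp
    have hk : k ∈ ({i, j, k} : Set (Fin 2 → ZMod 3)) := by simp
    rw [hset] at hi hj hk
    obtain ⟨c1, rfl⟩ := hi
    obtain ⟨c2, rfl⟩ := hj
    obtain ⟨c3, rfl⟩ := hk
    have h12 : c1 ≠ c2 := by rintro rfl; exact hij rfl
    have h13 : c1 ≠ c3 := by rintro rfl; exact hki rfl
    have h23 : c2 ≠ c3 := by rintro rfl; exact hkj rfl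
    have hs := z3_f c1 c2 c3 h12 h13 h23
    funext n
    simp only [Pi.sub_apply, Pi.neg_apply, Pi.add_apply, Pi.smul_apply, smul_eq_mul]
    exact z3_e _ _ _ _ _ hs
  m2 := by
    intro i j hne
    change -i - j ≠ j at hne
    show -i - j ≠ i ∧ i ≠ j ∧ ({i, j, -i - j} : Set (Fin 2 → ZMod 3)) ∈ affinePlaneThree
    have hij : i ≠ j := by
      rintro rfl
      apply hne
      funext n
      exact z3_a _
    have hki : -i - j ≠ i := by
      intro he
      apply hij
      funext n
      exact z3_i _ _ (congrFun he n)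
    refine ⟨hki, hij, i, j - i, sub_ne_zero.mpr hij.symm, ?_⟩
    ext x
    simp only [Set.mem_insert_iff, Set.mem_singleton_iff, Set.mem_setOf_eq]
    constructor
    · rintro (rfl | rfl | rfl)
      · exact ⟨0, by simp⟩
      · exact ⟨1, by simp⟩
      · refine ⟨2, ?_⟩
        funext n
        simp only [Pi.sub_apply, Pi.neg_apply, Pi.add_apply, Pi.smul_apply, smul_eq_mul]
        exact z3_h _ _
    · rintro ⟨c, rfl⟩
      rcases z3_g c with rfl | rfl | rfl
      · left; simp
      · right; left; simp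
      · right; right
        funext n
        simp only [Pi.sub_apply, Pi.neg_apply, Pi.add_apply, Pi.smul_apply, smul_eq_mul]
        exact (z3_h _ _).symm
  f1 := by
    intro i a b
    funext n
    exact z3_c _ _ _
  f2a := by
    intro i j k _
    funext n
    exact z3_d _ _ _
  f2b := by
    intro i j k hij he
    exfalso
    apply hij
    funext n
    exact z3_b _ _ (congrFun he n)
  f3 := by
    intro i j k hij he
    exfalso
    apply hij
    funext n
    exact z3_b _ _ (congrFun he n)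

end ag

section dual

abbrev DP := DualAffinePoint

set_option maxRecDepth 100000 in
lemma dp_card : ∀ i j : DP, (i.1 ∩ j.1).card = 1 → (symmDiff i.1 j.1).card = 2 := by decide

/-- Line maps in the dual affine plane. -/
def tauD (i j : DP) : DP :=
  if h : (i.1 ∩ j.1).card = 1 then ⟨symmDiff i.1 j.1, dp_card i j h⟩ else j

set_option maxRecDepth 100000 in
lemma dp_a : ∀ (n : Fin 4) (i j k : DP), k ≠ i → k ≠ j → i ≠ j → n ∉ i.1 → n ∉ j.1 → n ∉ k.1 → tauD i j = k := by
  decide

set_option maxRecDepth 100000 in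
lemma dp_b : ∀ i j : DP, tauD i j ≠ j → tauD i j ≠ i ∧ i ≠ j ∧ ∃ n : Fin 4, n ∉ i.1 ∧ n ∉ j.1 ∧ n ∉ (tauD i j).1 := by
  decide

set_option maxRecDepth 100000 in
set_option synthInstance.maxHeartbeats 400000 in
set_option synthInstance.maxSize 1000 in
lemma dp_c : ∀ (n : Fin 4) (i j k s : DP), k ≠ i → k ≠ j → i ≠ j → n ∉ i.1 → n ∉ j.1 → n ∉ k.1 → n ∉ s.1 →
    s = i ∨ s = j ∨ s = k := by
  decide

set_option maxRecDepth 100000 in
lemma dp_f1 : ∀ i a b : DP, tauD (tauD i a) (tauD i b) = tauD i (tauD a b) := by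
  decide

set_option maxRecDepth 100000 in
lemma dp_f2a : ∀ i j k : DP, tauD i j ≠ j → tauD i (tauD j (tauD i (tauD j (tauD i (tauD j k))))) = k := by
  decide

set_option maxRecDepth 100000 in
lemma dp_f2b : ∀ i j k : DP, i ≠ j → tauD i j = j → tauD i (tauD j k) = tauD j (tauD i k) := by
  decide

set_option maxRecDepth 100000 in
lemma dp_f3 : ∀ i j k : DP, i ≠ j → tauD i j = j → k ≠ i → k ≠ j → tauD k j ≠ j := by
  decide

lemma dual_model : IsModel dualAffinePlaneTwo tauD where
  m1 := by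
    rintro i j k hki hkj hij ⟨n, hset⟩
    have hi : i ∈ ({i, j, k} : Set DP) := by simp
    have hj : j ∈ ({i, j, k} : Set DP) := by simp
    have hk : k ∈ ({i, j, k} : Set DP) := by simp
    rw [hset] at hi hj hk
    exact dp_a n i j k hki hkj hij hi hj hk
  m2 := by
    intro i j hne
    obtain ⟨h1, h2, n, a1, a2, a3⟩ := dp_b i j hne
    refine ⟨h1, h2, n, ?_⟩
    ext s
    simp only [Set.mem_insert_iff, Set.mem_singleton_iff, Set.mem_setOf_eq]
    constructor
    · rintro (rfl | rfl | rfl) <;> assumption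
    · intro hs
      exact dp_c n i j _ s h1 hne h2 a1 a2 a3 hs
  f1 := dp_f1
  f2a := dp_f2a
  f2b := dp_f2b
  f3 := dp_f3

end dual


section main

lemma exists_loc (hF : IsFischerSpace L) {l m : Set X} (hl : l ∈ L) (hm : m ∈ L) (hne : l ≠ m)
    (hi : (l ∩ m).Nonempty) : Loc L (LineSystem.span L (l ∪ m)) := by
  have h : Pre L := ⟨hF.1, hF.2.1⟩
  rcases hF.2.2 l hl m hm hne hi with hI | hI
  · exact loc_of_model h (span_subspace _) dual_model hI
  · exact loc_of_model h (span_subspace _) ag_model hI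

lemma lm_self (a : X) : LineSystem.lineMap L a a = a := by
  apply lm_of_not
  rintro ⟨c, hc⟩
  exact hc.2.2.1 rfl

lemma lm_inj (h : Pre L) (a : X) : Function.Injective (LineSystem.lineMap L a) :=
  Function.LeftInverse.injective (lm_invol h a)

/-- The line map is an automorphism. -/
lemma aut_image (hF : IsFischerSpace L) (x : X) {l : Set X} (hl : l ∈ L) :
    LineSystem.lineMap L x '' l ∈ L := by
  have h : Pre L := ⟨hF.1, hF.2.1⟩
  obtain ⟨a, b, c, hT, rfl⟩ := line_exists h hl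
  have himg : LineSystem.lineMap L x '' ({a, b, c} : Set X) =
      {LineSystem.lineMap L x a, LineSystem.lineMap L x b, LineSystem.lineMap L x c} := by
    rw [Set.image_insert_eq, Set.image_insert_eq, Set.image_singleton]
  rw [himg]
  by_cases hx : x ∈ ({a, b, c} : Set X)
  · -- the line through `x`
    obtain ⟨y, hy, hyx⟩ : ∃ y ∈ ({a, b, c} : Set X), y ≠ x := by
      by_cases hax : a = x
      · exact ⟨b, by simp, fun e => hT.2.2.1 (by rw [hax, e])⟩
      · exact ⟨a, by simp, hax⟩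
    obtain ⟨w, hw, he⟩ := line_through h hl hx hy hyx.symm
    have hset : ({LineSystem.lineMap L x a, LineSystem.lineMap L x b, LineSystem.lineMap L x c} : Set X) = {a, b, c} := by
      rw [← himg, he, Set.image_insert_eq, Set.image_insert_eq, Set.image_singleton, lm_self,
        lm_of_T h hw, lm_of_T h hw.rot, Set.pair_comm]
    rw [hset]
    exact hl
  · by_cases hcol : ∃ v ∈ ({a, b, c} : Set X), Col L x v
    · obtain ⟨v, hv, w, hw⟩ := hcol
      have hnl : ({x, v, w} : Set X) ≠ {a, b, c} := by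
        intro he
        apply hx
        rw [← he]
        simp
      have hLoc := exists_loc hF hw.2.2.2 hl hnl ⟨v, by simp, hv⟩
      have hS : ({a, b, c} : Set X) ⊆ LineSystem.span L (({x, v, w} : Set X) ∪ {a, b, c}) :=
        fun y hy => subset_span _ (Or.inr hy)
      have hxS : x ∈ LineSystem.span L (({x, v, w} : Set X) ∪ {a, b, c}) :=
        subset_span _ (Or.inl (by simp))
      have ha := hS (show a ∈ ({a, b, c} : Set X) by simp)
      have hb := hS (show b ∈ ({a, b, c} : Set X) by simp)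
      have e1 := hLoc.f1 x hxS a ha b hb
      rw [lm_of_T h hT] at e1
      have hne : LineSystem.lineMap L x c ≠ LineSystem.lineMap L x b :=
        fun hh => hT.2.1 (lm_inj h x hh)
      have hne' : LineSystem.lineMap L (LineSystem.lineMap L x a) (LineSystem.lineMap L x b) ≠ LineSystem.lineMap L x b := by
        rw [e1]; exact hne
      obtain ⟨z, hz⟩ := (lm_ne_iff h).mp hne'
      have hzc : z = LineSystem.lineMap L x c := by
        rw [← e1, lm_of_T h hz]
      rw [hzc] at hz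
      exact hz.2.2.2
    · push Not at hcol
      have hfix : ∀ v ∈ ({a, b, c} : Set X), LineSystem.lineMap L x v = v := fun v hv => lm_of_not (hcol v hv)
      rw [hfix a (by simp), hfix b (by simp), hfix c (by simp)]
      exact hl

/-- Square of a line map. -/
noncomputable def lmPerm (h : Pre L) (x : X) : Equiv.Perm X :=
  ⟨LineSystem.lineMap L x, LineSystem.lineMap L x, lm_invol h x, lm_invol h x⟩

lemma exists_T_of_nondeg (h : Pre L) (hnd : LineSystem.IsNondegenerate L) (x : X) : ∃ y z, T3 L x y z := by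
  obtain ⟨l, hl, hx⟩ := hnd x
  obtain ⟨a, b, c, hT, rfl⟩ := line_exists h hl
  obtain ⟨y, hy, hyx⟩ : ∃ y ∈ ({a, b, c} : Set X), y ≠ x := by
    by_cases hax : a = x
    · exact ⟨b, by simp, fun e => hT.2.2.1 (by rw [hax, e])⟩
    · exact ⟨a, by simp, hax⟩
  obtain ⟨w, hw, _⟩ := line_through h hl hx hy hyx.symm
  exact ⟨y, w, hw⟩

lemma order_two (h : Pre L) (hnd : LineSystem.IsNondegenerate L) {σ : Equiv.Perm X} {x : X}
    (hσ : ⇑σ = LineSystem.lineMap L x) : orderOf σ = 2 := by
  haveI : Fact (Nat.Prime 2) := ⟨Nat.prime_two⟩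
  apply orderOf_eq_prime
  · ext y
    rw [pow_two, Equiv.Perm.mul_apply, hσ, lm_invol h]
    rfl
  · intro he
    obtain ⟨y, z, hT⟩ := exists_T_of_nondeg h hnd x
    have h1 : σ y = y := by rw [he]; rfl
    rw [hσ, lm_of_T h hT] at h1
    exact hT.2.1 h1

/-- Product of two collinear line maps cubes to one. -/
lemma cube_col (hF : IsFischerSpace L) {x y : X} (hxy : Col L x y) (w : X) :
    LineSystem.lineMap L x (LineSystem.lineMap L y (LineSystem.lineMap L x (LineSystem.lineMap L y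
      (LineSystem.lineMap L x (LineSystem.lineMap L y w))))) = w := by
  have h : Pre L := ⟨hF.1, hF.2.1⟩
  obtain ⟨z, hz⟩ := hxy
  have a1 := lm_of_T h hz
  have a2 := lm_of_T h hz.rot
  have a3 := lm_of_T h hz.swap
  have a4 := lm_of_T h hz.swap.rot
  by_cases hw : w ∈ ({x, y, z} : Set X)
  · simp only [Set.mem_insert_iff, Set.mem_singleton_iff] at hw
    rcases hw with rfl | rfl | rfl
    · rw [a3, a2, lm_self, a1, a4, lm_self]
    · rw [lm_self, a1, a4, lm_self, a3, a2]
    · rw [a4, lm_self, a3, a2, lm_self, a1]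
  · by_cases hcol : ∃ v ∈ ({x, y, z} : Set X), Col L v w
    · obtain ⟨v, hv, u, hu⟩ := hcol
      have hnl : ({x, y, z} : Set X) ≠ {v, w, u} := by
        intro he
        apply hw
        rw [he]
        simp
      have hLoc := exists_loc hF hz.2.2.2 hu.2.2.2 hnl ⟨v, hv, by simp⟩
      refine hLoc.f2a x (subset_span _ (Or.inl (by simp))) y (subset_span _ (Or.inl (by simp))) w
        (subset_span _ (Or.inr (by simp))) ⟨z, hz⟩
    · push Not at hcol
      have f1 : LineSystem.lineMap L x w = w := lm_of_not (hcol x (by simp))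
      have f2 : LineSystem.lineMap L y w = w := lm_of_not (hcol y (by simp))
      rw [f2, f1, f2, f1, f2, f1]

/-- Two non-collinear line maps commute. -/
lemma comm_noncol (hF : IsFischerSpace L) {x y : X} (hne : x ≠ y) (hxy : ¬ Col L x y) (w : X) :
    LineSystem.lineMap L x (LineSystem.lineMap L y w) = LineSystem.lineMap L y (LineSystem.lineMap L x w) := by
  have h : Pre L := ⟨hF.1, hF.2.1⟩
  have aux : ∀ {x y w : X}, x ≠ y → ¬ Col L x y → Col L x w → ¬ Col L y w →
      LineSystem.lineMap L x (LineSystem.lineMap L y w) = LineSystem.lineMap L y (LineSystem.lineMap L x w) := by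
    intro x y w hne hxy hx hy
    obtain ⟨w', hw'⟩ := hx
    have f1 : LineSystem.lineMap L y w = w := lm_of_not hy
    rw [f1, lm_of_T h hw']
    by_contra hc
    have hc' : Col L y w' := by
      by_contra hnot
      exact hc (lm_of_not hnot).symm
    obtain ⟨u, hu⟩ := hc'
    have hnl : ({x, w, w'} : Set X) ≠ {y, w', u} := by
      intro he
      have hy : y ∈ ({x, w, w'} : Set X) := by rw [he]; simp
      simp only [Set.mem_insert_iff, Set.mem_singleton_iff] at hy
      rcases hy with rfl | rfl | rfl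
      · exact hne rfl
      · exact hxy ⟨w', hw'⟩
      · exact hu.2.2.1 rfl
    have hLoc := exists_loc hF hw'.2.2.2 hu.2.2.2 hnl ⟨w', by simp, by simp⟩
    have hwx : w ≠ x := hw'.2.2.1.symm
    have hwy : w ≠ y := by
      rintro rfl
      exact hxy ⟨w', hw'⟩
    have := hLoc.f3 x (subset_span _ (Or.inl (by simp))) y (subset_span _ (Or.inr (by simp))) w
      (subset_span _ (Or.inl (by simp))) hne hxy hwx hwy
    exact hy this.symm
  have hyx : ¬ Col L y x := fun hc => hxy hc.symm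
  by_cases hx : Col L x w <;> by_cases hy : Col L y w
  · obtain ⟨u, hu⟩ := hx
    obtain ⟨v, hv⟩ := hy
    have hnl : ({x, w, u} : Set X) ≠ {y, w, v} := by
      intro he
      have hy : y ∈ ({x, w, u} : Set X) := by rw [he]; simp
      simp only [Set.mem_insert_iff, Set.mem_singleton_iff] at hy
      rcases hy with rfl | rfl | rfl
      · exact hne rfl
      · exact hv.2.2.1 rfl
      · exact hxy ⟨w, hu.rot⟩
    have hLoc := exists_loc hF hu.2.2.2 hv.2.2.2 hnl ⟨w, by simp, by simp⟩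
    exact hLoc.f2b x (subset_span _ (Or.inl (by simp))) y (subset_span _ (Or.inr (by simp))) w
      (subset_span _ (Or.inl (by simp))) hne hxy
  · exact aux hne hxy hx hy
  · exact (aux hne.symm hyx hy hx).symm
  · have f1 : LineSystem.lineMap L x w = w := lm_of_not hx
    have f2 : LineSystem.lineMap L y w = w := lm_of_not hy
    rw [f2, f1, f2]

theorem main (hF : IsFischerSpace L) (hnd : LineSystem.IsNondegenerate L) :
    (∀ x : X, ∃ σ : Equiv.Perm X, ⇑σ = LineSystem.lineMap L x ∧ orderOf σ = 2 ∧ LineSystem.IsIso L L σ) ∧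
      IsThreeTranspositionSet {σ : Equiv.Perm X | ∃ x : X, ⇑σ = LineSystem.lineMap L x} := by
  have h : Pre L := ⟨hF.1, hF.2.1⟩
  refine ⟨?_, ?_, ?_⟩
  · intro x
    refine ⟨lmPerm h x, rfl, order_two h hnd rfl, ?_⟩
    intro l
    constructor
    · exact fun hl => aut_image hF x hl
    · intro hl
      have := aut_image hF x hl
      have e : LineSystem.lineMap L x '' (⇑(lmPerm h x) '' l) = l := by
        ext y
        simp only [Set.mem_image, exists_exists_and_eq_and]
        constructor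
        · rintro ⟨z, hz, rfl⟩
          have : LineSystem.lineMap L x ((lmPerm h x) z) = z := lm_invol h x z
          rwa [this]
        · intro hy
          exact ⟨y, hy, lm_invol h x y⟩
      rwa [e] at this
  · rintro d ⟨x, hx⟩
    exact order_two h hnd hx
  · rintro d ⟨x, hx⟩ e ⟨y, hy⟩
    by_cases hxy : x = y
    · left
      subst hxy
      ext w
      simp only [pow_two, Equiv.Perm.mul_apply, Equiv.Perm.one_apply, hx, hy, lm_invol h]
    by_cases hc : Col L x y
    · right
      ext w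
      simp only [pow_succ, pow_zero, one_mul, Equiv.Perm.mul_apply, hx, hy]
      rw [cube_col hF hc w]
      rfl
    · left
      ext w
      simp only [pow_two, Equiv.Perm.mul_apply, hx, hy, Equiv.Perm.one_apply]
      rw [comm_noncol hF hxy hc (LineSystem.lineMap L x (LineSystem.lineMap L y w)), lm_invol h, lm_invol h]

end main

end Cfsg.Agent.Lib.H1Fischer2
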