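import Mathlib

set_option autoImplicit false

/-! The Borel-Tits flag of a `p`-subgroup of `SL_n(F)`. -/

namespace Cfsg.Agent.Lib.H1Flag

open Matrix

variable {F : Type*} [Field F] {n : ℕ}

/-- The ascending series of a subgroup. -/
def W (U : Subgroup (Matrix.SpecialLinearGroup (Fin n) F)) : ℕ → Submodule F (Fin n → F)
  | 0 => ⊥
  | i + 1 =>
    { carrier := {v | ∀ u ∈ U, (u : Matrix (Fin n) (Fin n) F).mulVec v - v ∈ W U i}
      add_mem' := by
        intro a b ha hb u hu
        have := (W U i).add_mem (ha u hu) (hb u hu)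
        rw [Matrix.mulVec_add]
        convert this using 1
        abel
      zero_mem' := by
        intro u _
        simp
      smul_mem' := by
        intro c v hv u hu
        have := (W U i).smul_mem c (hv u hu)
        rw [Matrix.mulVec_smul, ← smul_sub]
        exact this }

theorem mem_W_succ {U : Subgroup (Matrix.SpecialLinearGroup (Fin n) F)} {i : ℕ} {v : Fin n → F} :
    v ∈ W U (i + 1) ↔ ∀ u ∈ U, (u : Matrix (Fin n) (Fin n) F).mulVec v - v ∈ W U i := Iff.rfl

theorem W_mono (U : Subgroup (Matrix.SpecialLinearGroup (Fin n) F)) (i : ℕ) : W U i ≤ W U (i + 1) := by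
  induction i with
  | zero =>
    intro v hv
    have : v = 0 := by simpa [W] using hv
    subst this
    exact (W U 1).zero_mem
  | succ i ih =>
    intro v hv u hu
    exact ih (hv u hu)

theorem W_normal (U : Subgroup (Matrix.SpecialLinearGroup (Fin n) F))
    {g : Matrix.SpecialLinearGroup (Fin n) F}
    (hg : g ∈ Subgroup.normalizer (U : Set (Matrix.SpecialLinearGroup (Fin n) F))) (i : ℕ)
    {v : Fin n → F} (hv : v ∈ W U i) : (g : Matrix (Fin n) (Fin n) F).mulVec v ∈ W U i := by
  induction i generalizing v with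
  | zero =>
    have : v = 0 := by simpa [W] using hv
    subst this
    simp
  | succ i ih =>
    intro u hu
    have hu2 : g⁻¹ * u * g ∈ U := by
      have h1 := (Subgroup.mem_normalizer_iff.mp hg (g⁻¹ * u * g))
      have e : g * (g⁻¹ * u * g) * g⁻¹ = u := by group
      rw [e] at h1
      exact h1.mpr hu
    have h2 := ih (hv _ hu2)
    have e : (u : Matrix (Fin n) (Fin n) F).mulVec ((g : Matrix (Fin n) (Fin n) F).mulVec v) -
        (g : Matrix (Fin n) (Fin n) F).mulVec v =
        (g : Matrix (Fin n) (Fin n) F).mulVec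
          (((g⁻¹ * u * g : Matrix.SpecialLinearGroup (Fin n) F) : Matrix (Fin n) (Fin n) F).mulVec v - v) := by
      rw [Matrix.mulVec_sub, Matrix.mulVec_mulVec, Matrix.mulVec_mulVec]
      have e2 : (g : Matrix (Fin n) (Fin n) F) *
          ((g⁻¹ * u * g : Matrix.SpecialLinearGroup (Fin n) F) : Matrix (Fin n) (Fin n) F) =
          ((u * g : Matrix.SpecialLinearGroup (Fin n) F) : Matrix (Fin n) (Fin n) F) := by
        have e3 : g * (g⁻¹ * u * g) = u * g := by simp [mul_assoc]
        rw [← Matrix.SpecialLinearGroup.coe_mul, e3]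
      rw [e2, Matrix.SpecialLinearGroup.coe_mul]
    rw [e]
    exact h2

theorem W_map (U : Subgroup (Matrix.SpecialLinearGroup (Fin n) F))
    {g : Matrix.SpecialLinearGroup (Fin n) F}
    (hg : g ∈ Subgroup.normalizer (U : Set (Matrix.SpecialLinearGroup (Fin n) F))) (i : ℕ) :
    (W U i).map (Matrix.mulVecLin (g : Matrix (Fin n) (Fin n) F)) = W U i := by
  apply le_antisymm
  · rintro _ ⟨v, hv, rfl⟩
    exact W_normal U hg i hv
  · intro v hv
    refine ⟨((g⁻¹ : Matrix.SpecialLinearGroup (Fin n) F) : Matrix (Fin n) (Fin n) F).mulVec v,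
      W_normal U (Subgroup.inv_mem _ hg) i hv, ?_⟩
    change (g : Matrix (Fin n) (Fin n) F).mulVec (((g⁻¹ : Matrix.SpecialLinearGroup (Fin n) F) : Matrix (Fin n) (Fin n) F).mulVec v) = v
    rw [Matrix.mulVec_mulVec, ← Matrix.SpecialLinearGroup.coe_mul, mul_inv_cancel]
    simp

/-- Strict growth of the series: the fixed point theorem for `p`-groups on the quotient. -/
theorem exists_fixed [Fintype F] {p : ℕ} [hp : Fact p.Prime] [CharP F p]
    (U : Subgroup (Matrix.SpecialLinearGroup (Fin n) F)) (hU : IsPGroup p U) (i : ℕ) (hne : W U i ≠ ⊤) :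
    ∃ v, v ∈ W U (i + 1) ∧ v ∉ W U i := by
  classical
  have hinv : ∀ u : U, (W U i).map (Matrix.mulVecLin ((u : Matrix.SpecialLinearGroup (Fin n) F) : Matrix (Fin n) (Fin n) F)) ≤ W U i := by
    intro u
    rw [W_map U (Subgroup.le_normalizer u.2)]
  let φ : U → ((Fin n → F) ⧸ W U i) → ((Fin n → F) ⧸ W U i) := fun u =>
    Submodule.mapQ (W U i) (W U i) (Matrix.mulVecLin ((u : Matrix.SpecialLinearGroup (Fin n) F) : Matrix (Fin n) (Fin n) F))
      (Submodule.map_le_iff_le_comap.mp (hinv u))
  letI : MulAction U ((Fin n → F) ⧸ W U i) :=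
    { smul := φ
      one_smul := by
        intro x
        induction x using Submodule.Quotient.induction_on with
        | H v =>
          change φ 1 _ = _
          simp only [φ, Submodule.mapQ_apply]
          simp
      mul_smul := by
        intro a b x
        induction x using Submodule.Quotient.induction_on with
        | H v =>
          change φ (a * b) _ = φ a (φ b _)
          simp only [φ, Submodule.mapQ_apply]
          simp [Matrix.mulVec_mulVec] }
  have hsmul : ∀ (u : U) (v : Fin n → F), u • (Submodule.Quotient.mk v : (Fin n → F) ⧸ W U i) =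
      Submodule.Quotient.mk (((u : Matrix.SpecialLinearGroup (Fin n) F) : Matrix (Fin n) (Fin n) F).mulVec v) := by
    intro u v
    change φ u _ = _
    simp only [φ, Submodule.mapQ_apply]
    rfl
  haveI : Nontrivial ((Fin n → F) ⧸ W U i) := Submodule.Quotient.nontrivial_iff.mpr hne
  have hpcard : p ∣ Nat.card ((Fin n → F) ⧸ W U i) := by
    rw [Module.natCard_eq_pow_finrank (K := F)]
    have hpos : 0 < Module.finrank F ((Fin n → F) ⧸ W U i) := Module.finrank_pos
    apply Dvd.dvd.pow _ hpos.ne'
    obtain ⟨f, hf⟩ := FiniteField.card F p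
    rw [Nat.card_eq_fintype_card, hf.2]
    exact dvd_pow_self p (by exact_mod_cast f.2.ne')
  have hfix0 : (0 : (Fin n → F) ⧸ W U i) ∈ MulAction.fixedPoints U ((Fin n → F) ⧸ W U i) := by
    intro u
    have := hsmul u 0
    simpa using this
  obtain ⟨b, hb, hb2⟩ := hU.exists_fixed_point_of_prime_dvd_card_of_fixed_point ((Fin n → F) ⧸ W U i) hpcard hfix0
  obtain ⟨v, rfl⟩ := Submodule.Quotient.mk_surjective _ b
  refine ⟨v, ?_, ?_⟩
  · intro u hu
    have h1 := hb ⟨u, hu⟩
    rw [hsmul] at h1
    rw [← Submodule.Quotient.eq]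
    exact h1
  · intro hv
    apply hb2
    exact ((Submodule.Quotient.mk_eq_zero _).mpr hv).symm

/-- The series reaches the whole space. -/
theorem exists_top [Fintype F] {p : ℕ} [hp : Fact p.Prime] [CharP F p]
    (U : Subgroup (Matrix.SpecialLinearGroup (Fin n) F)) (hU : IsPGroup p U) :
    ∃ i, W U i = ⊤ := by
  by_contra hcon
  push Not at hcon
  have hgrow : ∀ i, i ≤ Module.finrank F (W U i) := by
    intro i
    induction i with
    | zero => exact Nat.zero_le _
    | succ i ih =>
      obtain ⟨v, hv1, hv2⟩ := exists_fixed U hU i (hcon i)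
      have hlt : W U i < W U (i + 1) :=
        lt_of_le_of_ne (W_mono U i) (fun h => hv2 (h ▸ hv1))
      have := Submodule.finrank_lt_finrank_of_lt hlt
      omega
  have h1 := hgrow (n + 1)
  have h2 : Module.finrank F (W U (n + 1)) ≤ n := by
    have := Submodule.finrank_le (W U (n + 1))
    simpa using this
  omega

/-- **The Borel-Tits flag.** -/
theorem flag [Fintype F] (p : ℕ) [hp : Fact p.Prime] [CharP F p]
    (U : Subgroup (Matrix.SpecialLinearGroup (Fin n) F)) (hU : IsPGroup p U) (hne : U ≠ ⊥) :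
    ∃ (k : ℕ) (V : Fin (k + 2) → Submodule F (Fin n → F)), 1 ≤ k ∧ StrictMono V ∧ V 0 = ⊥ ∧
      V (Fin.last (k + 1)) = ⊤ ∧
      (∀ g ∈ Subgroup.normalizer (U : Set (Matrix.SpecialLinearGroup (Fin n) F)), ∀ i,
        (V i).map (Matrix.mulVecLin (g : Matrix (Fin n) (Fin n) F)) = V i) ∧
      (∀ u ∈ U, ∀ i : Fin (k + 1), ∀ v ∈ V i.succ,
        (u : Matrix (Fin n) (Fin n) F).mulVec v - v ∈ V (Fin.castSucc i)) := by
  classical
  have hex := exists_top U hU
  set m := Nat.find hex with hm
  have hmtop : W U m = ⊤ := Nat.find_spec hex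
  have hlt : ∀ i, i < m → W U i ≠ ⊤ := fun i hi => Nat.find_min hex hi
  -- `n ≠ 0`, indeed `U ≠ ⊥`
  have hW1 : W U 1 ≠ ⊤ := by
    intro h
    apply hne
    rw [eq_bot_iff]
    intro u hu
    rw [Subgroup.mem_bot]
    apply Subtype.ext
    ext i j
    have hv : (Pi.single j 1 : Fin n → F) ∈ W U 1 := by rw [h]; trivial
    have h1 := hv u hu
    have h2 : (u : Matrix (Fin n) (Fin n) F).mulVec (Pi.single j 1) - Pi.single j 1 = 0 := by
      simpa [W] using h1
    have h3 := congrFun h2 i
    simp only [Matrix.mulVec_single_one, Pi.sub_apply, Pi.zero_apply, sub_eq_zero, Matrix.col_apply] at h3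
    rw [h3]
    simp [Matrix.one_apply, Pi.single_apply, eq_comm]
  have hW0 : W U 0 ≠ ⊤ := by
    intro h
    apply hW1
    rw [eq_top_iff]
    rw [← h]
    exact W_mono U 0
  have hm2 : 2 ≤ m := by
    by_contra h
    have : m = 0 ∨ m = 1 := by omega
    rcases this with h3 | h3
    · rw [h3] at hmtop
      exact hW0 hmtop
    · rw [h3] at hmtop
      exact hW1 hmtop
  obtain ⟨k, hk⟩ : ∃ k, m = k + 1 := ⟨m - 1, by omega⟩
  refine ⟨k, fun i => W U i, by omega, ?_, rfl, ?_, ?_, ?_⟩
  · apply Fin.strictMono_iff_lt_succ.mpr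
    intro i
    have hi : (i : ℕ) < m := by
      have := i.2
      omega
    obtain ⟨v, hv1, hv2⟩ := exists_fixed U hU i (hlt i hi)
    exact lt_of_le_of_ne (W_mono U i) (fun h => hv2 (h ▸ hv1))
  · simpa [hk] using hmtop
  · intro g hg i
    exact W_map U hg i
  · intro u hu i v hv
    exact hv u hu

end Cfsg.Agent.Lib.H1Flag
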