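import Mathlib
import Cfsg.Prelude.Def_Sporadic_a

set_option autoImplicit false
open Finset

namespace Cfsg.Agent.Lib.H1Golay

abbrev V := Fin 24 → ZMod 2

structure Code (C : Submodule (ZMod 2) V) : Prop where
  hdim : Module.finrank (ZMod 2) C = 12
  horth : ∀ v ∈ C, ∀ w ∈ C, ∑ i, v i * w i = 0
  hmin : ∀ w ∈ C, w ≠ 0 → 8 ≤ hammingNorm w

lemma z2_cases (x : ZMod 2) : x = 0 ∨ x = 1 := by
  revert x; decide

lemma z2_ne (x : ZMod 2) : x ≠ 0 ↔ x = 1 := by
  revert x; decide

lemma norm_eq (w : V) : hammingNorm w = (Cfsg.support₂ w).card := by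
  unfold hammingNorm Cfsg.support₂
  congr!

lemma mem_supp (w : V) (i : Fin 24) : i ∈ Cfsg.support₂ w ↔ w i = 1 := by
  unfold Cfsg.support₂
  simp [z2_ne]

lemma nmem_supp (w : V) (i : Fin 24) : i ∉ Cfsg.support₂ w ↔ w i = 0 := by
  unfold Cfsg.support₂
  simp

lemma supp_inj {u v : V} (h : Cfsg.support₂ u = Cfsg.support₂ v) : u = v := by
  funext i
  rcases z2_cases (u i) with hu | hu
  · have : i ∉ Cfsg.support₂ v := by
      rw [← h, nmem_supp]; exact hu
    rw [nmem_supp] at this
    rw [hu, this]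
  · have : i ∈ Cfsg.support₂ v := by
      rw [← h, mem_supp]; exact hu
    rw [mem_supp] at this
    rw [hu, this]

/-- Characteristic vector. -/
def chi (S : Finset (Fin 24)) : V := fun i => if i ∈ S then 1 else 0

lemma supp_chi (S : Finset (Fin 24)) : Cfsg.support₂ (chi S) = S := by
  ext i
  rw [mem_supp]
  unfold chi
  by_cases h : i ∈ S <;> simp [h]

lemma norm_chi (S : Finset (Fin 24)) : hammingNorm (chi S) = S.card := by
  rw [norm_eq, supp_chi]

lemma supp_add (u v : V) : Cfsg.support₂ (u + v) = symmDiff (Cfsg.support₂ u) (Cfsg.support₂ v) := by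
  ext i
  rw [Finset.mem_symmDiff]
  simp only [mem_supp, nmem_supp, Pi.add_apply]
  rcases z2_cases (u i) with hu | hu <;> rcases z2_cases (v i) with hv | hv <;> rw [hu, hv] <;> decide

lemma card_symm (A B : Finset (Fin 24)) : (symmDiff A B).card + 2 * (A ∩ B).card = A.card + B.card := by
  have h1 : (symmDiff A B).card = (A \ B).card + (B \ A).card := by
    rw [symmDiff_def, Finset.sup_eq_union, Finset.card_union_of_disjoint]
    exact Finset.disjoint_left.mpr (fun x hx hx' => (Finset.mem_sdiff.mp hx).2 (Finset.mem_sdiff.mp hx').1)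
  have h2 := Finset.card_sdiff_add_card_inter A B
  have h3 := Finset.card_sdiff_add_card_inter B A
  rw [Finset.inter_comm] at h3
  omega

lemma norm_add (u v : V) : hammingNorm (u + v) + 2 * (Cfsg.support₂ u ∩ Cfsg.support₂ v).card
    = hammingNorm u + hammingNorm v := by
  simp only [norm_eq]
  rw [supp_add]
  exact card_symm _ _

lemma sub_eq_add' (u v : V) : u - v = u + v := by
  funext i
  simp only [Pi.sub_apply, Pi.add_apply]
  generalize u i = a
  generalize v i = b
  revert a b
  decide

lemma add_self' (u : V) : u + u = 0 := by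
  funext i
  simp only [Pi.add_apply, Pi.zero_apply]
  generalize u i = a
  revert a
  decide

variable {C : Submodule (ZMod 2) V}

/-- Self-duality. -/
lemma mem_of_orth (h : Code C) (u : V) (hu : ∀ w ∈ C, ∑ i, u i * w i = 0) : u ∈ C := by
  let φ : V →ₗ[ZMod 2] (C →ₗ[ZMod 2] ZMod 2) :=
    LinearMap.mk₂ (ZMod 2) (fun (u : V) (w : C) => ∑ i, u i * (w : V) i)
      (by intro a b c; simp [add_mul, Finset.sum_add_distrib])
      (by intro a b c; simp [Finset.mul_sum, mul_assoc])
      (by intro a b c; simp [mul_add, Finset.sum_add_distrib])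
      (by intro a b c; simp only [Submodule.coe_smul, Pi.smul_apply, smul_eq_mul, Finset.mul_sum]; exact Finset.sum_congr rfl (fun i _ => by ring))
  have hφ : ∀ (x : V) (w : C), φ x w = ∑ i, x i * (w : V) i := fun _ _ => rfl
  have hle : C ≤ LinearMap.ker φ := by
    intro v hv
    rw [LinearMap.mem_ker]
    ext w
    rw [hφ]
    exact h.horth v hv w w.2
  have hrank := LinearMap.finrank_range_add_finrank_ker φ
  have hsurj : LinearMap.range φ = ⊤ := by
    rw [LinearMap.range_eq_top]
    intro f
    obtain ⟨g, hg⟩ := LinearMap.exists_extend f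
    refine ⟨fun i => g (fun j => if i = j then 1 else 0), ?_⟩
    ext w
    rw [hφ, ← hg]
    simp only [LinearMap.comp_apply, Submodule.subtype_apply]
    rw [LinearMap.pi_apply_eq_sum_univ g (w : V)]
    refine Finset.sum_congr rfl (fun i _ => ?_)
    simp [mul_comm]
  have hr2 : Module.finrank (ZMod 2) (LinearMap.range φ) = 12 := by
    rw [hsurj, finrank_top, Module.finrank_linearMap, h.hdim]; simp
  have hV : Module.finrank (ZMod 2) V = 24 := by simp
  have heq : C = LinearMap.ker φ := by
    apply Submodule.eq_of_le_of_finrank_le hle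
    rw [h.hdim]
    omega
  rw [heq, LinearMap.mem_ker]
  ext w
  rw [hφ]
  exact hu w w.2

/-- Sum over coordinates of a word equals the parity of the weight. -/
lemma sum_eq_norm (w : V) : ∑ i, w i = (hammingNorm w : ZMod 2) := by
  rw [norm_eq]
  unfold Cfsg.support₂
  rw [Finset.card_filter]
  push_cast
  refine Finset.sum_congr rfl (fun i _ => ?_)
  rcases z2_cases (w i) with h | h <;> simp [h]

lemma sum_self (h : Code C) (w : V) (hw : w ∈ C) : ∑ i, w i = 0 := by
  have := h.horth w hw w hw
  rw [← this]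
  refine Finset.sum_congr rfl (fun i _ => ?_)
  rcases z2_cases (w i) with h | h <;> simp [h]

lemma even_norm (h : Code C) (w : V) (hw : w ∈ C) : 2 ∣ hammingNorm w := by
  have := sum_self h w hw
  rw [sum_eq_norm] at this
  exact (ZMod.natCast_eq_zero_iff _ _).mp this

lemma one_mem (h : Code C) : (fun _ => 1 : V) ∈ C := by
  apply mem_of_orth h
  intro w hw
  simp only [one_mul]
  exact sum_self h w hw

lemma norm_le (w : V) : hammingNorm w ≤ 24 := by
  rw [norm_eq]
  simpa using Finset.card_le_univ (Cfsg.support₂ w)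

lemma norm_one_add (w : V) : hammingNorm ((fun _ => 1 : V) + w) + hammingNorm w = 24 := by
  have h := norm_add (fun _ => 1 : V) w
  have h1 : Cfsg.support₂ (fun _ => 1 : V) = Finset.univ := by
    ext i; simp [mem_supp]
  rw [h1, Finset.univ_inter] at h
  have h2 : hammingNorm (fun _ => 1 : V) = 24 := by
    rw [norm_eq, h1]; simp
  rw [h2, norm_eq w] at h
  rw [norm_eq w]
  omega


/-- Restriction of the code to a set of coordinates. -/
def restr (C : Submodule (ZMod 2) V) (T : Finset (Fin 24)) : C →ₗ[ZMod 2] (↥T → ZMod 2) where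
  toFun := fun w i => (w : V) i
  map_add' := fun _ _ => rfl
  map_smul' := fun _ _ => rfl

lemma restr_surj (h : Code C) (T : Finset (Fin 24)) (hT : T.card ≤ 7) :
    Function.Surjective (restr C T) := by
  by_contra hns
  have hlt : LinearMap.range (restr C T) < ⊤ := by
    refine lt_top_iff_ne_top.mpr (fun heq => hns ?_)
    exact LinearMap.range_eq_top.mp heq
  obtain ⟨f, hf0, hfk⟩ := Submodule.exists_le_ker_of_lt_top _ hlt
  classical
  let a : ↥T → ZMod 2 := fun i => f (fun j => if i = j then 1 else 0)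
  let u : V := fun j => if hj : j ∈ T then a ⟨j, hj⟩ else 0
  have hfa : ∀ y : ↥T → ZMod 2, f y = ∑ i, a i * y i := by
    intro y
    rw [LinearMap.pi_apply_eq_sum_univ f y]
    refine Finset.sum_congr rfl (fun i _ => ?_)
    simp [a, mul_comm]
  have hu : u ∈ C := by
    apply mem_of_orth h
    intro w hw
    have h1 : ∑ j, u j * w j = ∑ j ∈ T, u j * w j :=
      (Finset.sum_subset (Finset.subset_univ T) (fun j _ hj => by simp [u, hj])).symm
    rw [h1, ← Finset.sum_coe_sort T]
    have h2 : f (restr C T ⟨w, hw⟩) = 0 := hfk (LinearMap.mem_range_self _ _)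
    rw [hfa] at h2
    rw [← h2]
    refine Finset.sum_congr rfl (fun i _ => ?_)
    simp [u, restr]
  have hu0 : u = 0 := by
    by_contra hne
    have h8 := h.hmin u hu hne
    have h7 : hammingNorm u ≤ T.card := by
      rw [norm_eq]
      apply Finset.card_le_card
      intro j hj
      rw [mem_supp] at hj
      by_contra hjT
      simp [u, hjT] at hj
    omega
  apply hf0
  refine LinearMap.ext (fun y => ?_)
  rw [hfa]
  have : ∀ i : ↥T, a i = 0 := by
    intro i
    have := congrFun hu0 i.1
    simpa [u] using this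
  simp [this]

lemma card_code (h : Code C) [Fintype C] : Fintype.card C = 4096 := by
  rw [Module.card_eq_pow_finrank (K := ZMod 2) (V := C), h.hdim, ZMod.card]
  norm_num

open Classical in
/-- Number of code words whose support contains `T`. -/
lemma count_contains (h : Code C) (T : Finset (Fin 24)) (hT : T.card ≤ 7) :
    (Finset.univ.filter (fun w : C => T ⊆ Cfsg.support₂ (w : V))).card * 2 ^ T.card = 4096 := by
  have hs := restr_surj h T hT
  let r : C →+ (↥T → ZMod 2) := (restr C T).toAddMonoidHom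
  have hr : ∀ w, r w = restr C T w := fun _ => rfl
  let y1 : ↥T → ZMod 2 := fun _ => 1
  have hfib : ∀ y : ↥T → ZMod 2, (Finset.univ.filter (fun g : C => r g = y)).card
      = (Finset.univ.filter (fun g : C => r g = y1)).card := by
    intro y
    exact AddMonoidHom.card_fiber_eq_of_mem_range r (hs y) (hs y1)
  have hc := Finset.card_eq_sum_card_fiberwise (s := (Finset.univ : Finset C)) (t := (Finset.univ : Finset (↥T → ZMod 2))) (f := r) (fun _ _ => Finset.mem_univ _)
  rw [Finset.card_univ, card_code h] at hc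
  simp only [hfib] at hc
  rw [Finset.sum_const, Finset.card_univ, Fintype.card_fun, ZMod.card, Fintype.card_coe, smul_eq_mul] at hc
  rw [mul_comm] at hc
  rw [hc]
  congr 2
  ext w
  simp only [Finset.mem_filter, Finset.mem_univ, true_and]
  constructor
  · intro hsub
    funext i
    have := (mem_supp _ _).mp (hsub i.2)
    rw [hr]
    exact this
  · intro hrw i hi
    have := congrFun hrw ⟨i, hi⟩
    rw [mem_supp]
    exact this

open Classical in
/-- Double counting. -/
lemma double_count {ι : Type*} (S : Finset ι) (f : ι → Finset (Fin 24)) (t : ℕ) :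
    ∑ a ∈ S, (f a).card.choose t
      = ∑ T ∈ Finset.powersetCard t (Finset.univ : Finset (Fin 24)), (S.filter (fun a => T ⊆ f a)).card := by
  have := Finset.sum_card_bipartiteAbove_eq_sum_card_bipartiteBelow (s := S)
    (t := Finset.powersetCard t (Finset.univ : Finset (Fin 24))) (fun a T => T ⊆ f a)
  unfold Finset.bipartiteAbove Finset.bipartiteBelow at this
  rw [← this]
  refine Finset.sum_congr rfl (fun a _ => ?_)
  rw [← Finset.card_powersetCard]
  congr 1
  ext T
  simp only [Finset.mem_filter, Finset.mem_powersetCard]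
  constructor
  · rintro ⟨hT, hc⟩
    exact ⟨⟨Finset.subset_univ _, hc⟩, hT⟩
  · rintro ⟨⟨_, hc⟩, hT⟩
    exact ⟨hT, hc⟩

open Classical in
/-- Moments. -/
lemma moment (h : Code C) (t : ℕ) (ht : t ≤ 7) :
    (∑ w : C, (hammingNorm (w : V)).choose t) * 2 ^ t = (Nat.choose 24 t) * 4096 := by
  simp only [norm_eq]
  rw [double_count Finset.univ (fun w : C => Cfsg.support₂ (w : V)) t, Finset.sum_mul]
  rw [Finset.sum_congr rfl (g := fun _ => 4096)]
  · rw [Finset.sum_const, Finset.card_powersetCard, smul_eq_mul]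
    simp
  · intro T hT
    have hc := (Finset.mem_powersetCard.mp hT).2
    have := count_contains h T (by omega)
    rw [hc] at this
    rw [← this]

open Classical in
/-- Weight distribution. -/
noncomputable def wdist (C : Submodule (ZMod 2) V) (i : ℕ) : ℕ :=
  (Finset.univ.filter (fun w : C => hammingNorm (w : V) = i)).card

open Classical in
lemma sum_wdist (f : ℕ → ℕ) :
    ∑ w : C, f (hammingNorm (w : V)) = ∑ i ∈ Finset.range 25, wdist C i * f i := by
  rw [← Finset.sum_fiberwise_of_maps_to (s := (Finset.univ : Finset C)) (t := Finset.range 25)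
    (g := fun w : C => hammingNorm (w : V))]
  · refine Finset.sum_congr rfl (fun i _ => ?_)
    rw [Finset.sum_congr rfl (g := fun _ => f i)]
    · rw [Finset.sum_const, smul_eq_mul]
      rfl
    · intro w hw
      rw [(Finset.mem_filter.mp hw).2]
  · intro w _
    have := norm_le (w : V)
    exact Finset.mem_range.mpr (by omega)

lemma wdist_eq_zero (i : ℕ) (hi : ∀ w ∈ C, hammingNorm w ≠ i) : wdist C i = 0 := by
  classical
  unfold wdist
  rw [Finset.card_eq_zero, Finset.filter_eq_empty_iff]
  intro w _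
  exact hi w w.2

lemma wdist_zero : wdist C 0 = 1 := by
  classical
  unfold wdist
  rw [Finset.card_eq_one]
  refine ⟨0, ?_⟩
  ext w
  simp only [Finset.mem_filter, Finset.mem_univ, true_and, Finset.mem_singleton]
  rw [hammingNorm_eq_zero]
  constructor
  · intro h; exact Subtype.ext h
  · intro h; rw [h]; rfl

lemma wdist_symm (h : Code C) (i : ℕ) (hi : i ≤ 24) : wdist C (24 - i) = wdist C i := by
  classical
  unfold wdist
  have h1 := one_mem h
  refine Finset.card_bij' (fun w _ => (⟨(fun _ => 1 : V) + w, C.add_mem h1 w.2⟩ : C))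
    (fun w _ => (⟨(fun _ => 1 : V) + w, C.add_mem h1 w.2⟩ : C)) ?_ ?_ ?_ ?_
  · intro w hw
    simp only [Finset.mem_filter, Finset.mem_univ, true_and] at hw ⊢
    have := norm_one_add (w : V)
    omega
  · intro w hw
    simp only [Finset.mem_filter, Finset.mem_univ, true_and] at hw ⊢
    have := norm_one_add (w : V)
    omega
  · intro w _
    apply Subtype.ext
    show (fun _ => 1 : V) + ((fun _ => 1 : V) + (w : V)) = w
    rw [← add_assoc, add_self', zero_add]
  · intro w _
    apply Subtype.ext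
    show (fun _ => 1 : V) + ((fun _ => 1 : V) + (w : V)) = w
    rw [← add_assoc, add_self', zero_add]

lemma solve_aux (A : ℕ → ℕ)
    (hodd : ∀ i, i % 2 = 1 → A i = 0)
    (hsmall : ∀ i, 0 < i → i < 8 → A i = 0)
    (hz : A 0 = 1)
    (hsymm : ∀ i, i ≤ 24 → A (24 - i) = A i)
    (m0 : (∑ i ∈ Finset.range 25, A i * i.choose 0) * 2 ^ 0 = Nat.choose 24 0 * 4096)
    (m2 : (∑ i ∈ Finset.range 25, A i * i.choose 2) * 2 ^ 2 = Nat.choose 24 2 * 4096)
    (m4 : (∑ i ∈ Finset.range 25, A i * i.choose 4) * 2 ^ 4 = Nat.choose 24 4 * 4096) :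
    A 8 = 759 ∧ A 10 = 0 ∧ A 14 = 0 := by
  have e2 := hsmall 2 (by norm_num) (by norm_num)
  have e4 := hsmall 4 (by norm_num) (by norm_num)
  have e6 := hsmall 6 (by norm_num) (by norm_num)
  have s0 : A 24 = A 0 := hsymm 0 (by norm_num)
  have s2 : A 22 = A 2 := hsymm 2 (by norm_num)
  have s4 : A 20 = A 4 := hsymm 4 (by norm_num)
  have s6 : A 18 = A 6 := hsymm 6 (by norm_num)
  have s8 : A 16 = A 8 := hsymm 8 (by norm_num)
  have s10 : A 14 = A 10 := hsymm 10 (by norm_num)
  simp only [Finset.sum_range_succ, Finset.range_zero, Finset.sum_empty] at m0 m2 m4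
  rw [hodd 1 rfl, hodd 3 rfl, hodd 5 rfl, hodd 7 rfl, hodd 9 rfl, hodd 11 rfl, hodd 13 rfl,
    hodd 15 rfl, hodd 17 rfl, hodd 19 rfl, hodd 21 rfl, hodd 23 rfl, s0, s2, s4, s6, s8, s10,
    e2, e4, e6, hz] at m0 m2 m4
  rw [s10]
  generalize A 8 = a at *
  generalize A 10 = b at *
  generalize A 12 = c at *
  norm_num [Nat.choose] at m0 m2 m4
  omega

/-- The weight distribution. -/
theorem wdist_vals (h : Code C) : wdist C 8 = 759 ∧ wdist C 10 = 0 ∧ wdist C 14 = 0 := by
  classical
  have hodd : ∀ i, i % 2 = 1 → wdist C i = 0 := by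
    intro i hi
    apply wdist_eq_zero
    intro w hw he
    have := even_norm h w hw
    omega
  have hsmall : ∀ i, 0 < i → i < 8 → wdist C i = 0 := by
    intro i hi hi8
    apply wdist_eq_zero
    intro w hw he
    have hne : w ≠ 0 := by
      rintro rfl
      rw [hammingNorm_zero] at he
      omega
    have := h.hmin w hw hne
    omega
  have m0 := moment h 0 (by norm_num)
  have m2 := moment h 2 (by norm_num)
  have m4 := moment h 4 (by norm_num)
  rw [sum_wdist (fun n => n.choose 0)] at m0
  rw [sum_wdist (fun n => n.choose 2)] at m2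
  rw [sum_wdist (fun n => n.choose 4)] at m4
  exact solve_aux (wdist C) hodd hsmall wdist_zero (wdist_symm h) m0 m2 m4

theorem doubly_even (h : Code C) (w : V) (hw : w ∈ C) : 4 ∣ hammingNorm w := by
  obtain ⟨_, h10, h14⟩ := wdist_vals h
  classical
  have hne : ∀ i, wdist C i = 0 → hammingNorm w ≠ i := by
    intro i hi he
    unfold wdist at hi
    rw [Finset.card_eq_zero, Finset.filter_eq_empty_iff] at hi
    exact hi (x := ⟨w, hw⟩) (Finset.mem_univ _) he
  have h1 := hne 10 h10
  have h2 := hne 14 h14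
  have h3 := even_norm h w hw
  have h4 := norm_le w
  by_cases h0 : w = 0
  · subst h0; simp
  have h5 := h.hmin w hw h0
  have h6 := norm_one_add w
  by_cases h7 : w = (fun _ => 1 : V)
  · have h9 : (fun _ => 1 : V) + w = 0 := by rw [h7]; exact add_self' _
    rw [h9, hammingNorm_zero] at h6
    omega
  have h8 := h.hmin ((fun _ => 1 : V) + w) (C.add_mem (one_mem h) hw) (by
    intro he
    apply h7
    have : w = (fun _ => 1 : V) + ((fun _ => 1 : V) + w) := by
      rw [← add_assoc, add_self', zero_add]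
    rw [this, he, add_zero])
  omega


lemma add_ne_zero_of_ne {u v : V} (hne : u ≠ v) : u + v ≠ 0 := by
  intro h0
  apply hne
  have : u = u + (v + v) := by rw [add_self', add_zero]
  rw [this, ← add_assoc, h0, zero_add]

lemma octad_unique (h : Code C) {T : Finset (Fin 24)} (hT : 5 ≤ T.card) {w w' : V} (hw : w ∈ C)
    (hw' : w' ∈ C) (h8 : hammingNorm w = 8) (h8' : hammingNorm w' = 8)
    (hs : T ⊆ Cfsg.support₂ w) (hs' : T ⊆ Cfsg.support₂ w') : w = w' := by
  by_contra hne
  have h1 := h.hmin (w + w') (C.add_mem hw hw') (add_ne_zero_of_ne hne)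
  have h2 := norm_add w w'
  have h3 : T.card ≤ (Cfsg.support₂ w ∩ Cfsg.support₂ w').card :=
    Finset.card_le_card (Finset.subset_inter hs hs')
  omega

lemma octad_exists (h : Code C) (T : Finset (Fin 24)) (hT : T.card = 5) :
    ∃ w ∈ C, hammingNorm w = 8 ∧ T ⊆ Cfsg.support₂ w := by
  classical
  by_contra hno
  let Oct : Finset C := Finset.univ.filter (fun w : C => hammingNorm (w : V) = 8)
  have hOct : Oct.card = 759 := (wdist_vals h).1
  have hdc := double_count Oct (fun w : C => Cfsg.support₂ (w : V)) 5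
  have hl : ∑ a ∈ Oct, (Cfsg.support₂ (a : V)).card.choose 5 = 42504 := by
    rw [Finset.sum_congr rfl (g := fun _ => 56)]
    · rw [Finset.sum_const, hOct]; norm_num
    · intro a ha
      have := (Finset.mem_filter.mp ha).2
      rw [norm_eq] at this
      rw [this]
      norm_num [Nat.choose]
  have hle : ∀ S ∈ Finset.powersetCard 5 (Finset.univ : Finset (Fin 24)),
      (Oct.filter (fun a : C => S ⊆ Cfsg.support₂ (a : V))).card ≤ 1 := by
    intro S hS
    rw [Finset.card_le_one]
    intro a ha b hb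
    obtain ⟨ha1, ha2⟩ := Finset.mem_filter.mp ha
    obtain ⟨hb1, hb2⟩ := Finset.mem_filter.mp hb
    apply Subtype.ext
    exact octad_unique h (T := S) (by rw [(Finset.mem_powersetCard.mp hS).2]) a.2 b.2
      (Finset.mem_filter.mp ha1).2 (Finset.mem_filter.mp hb1).2 ha2 hb2
  have hlt : ∑ S ∈ Finset.powersetCard 5 (Finset.univ : Finset (Fin 24)),
      (Oct.filter (fun a : C => S ⊆ Cfsg.support₂ (a : V))).card
      < ∑ S ∈ Finset.powersetCard 5 (Finset.univ : Finset (Fin 24)), 1 := by
    apply Finset.sum_lt_sum hle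
    refine ⟨T, Finset.mem_powersetCard.mpr ⟨Finset.subset_univ _, hT⟩, ?_⟩
    rw [Nat.lt_one_iff, Finset.card_eq_zero, Finset.filter_eq_empty_iff]
    intro a ha hs
    exact hno ⟨a, a.2, (Finset.mem_filter.mp ha).2, hs⟩
  rw [Finset.sum_const, Finset.card_powersetCard, ← hdc, hl] at hlt
  norm_num [Nat.choose] at hlt

lemma descent (h : Code C) (w : V) (hw : 5 ≤ hammingNorm w) :
    ∃ o ∈ C, hammingNorm o = 8 ∧ hammingNorm (w + o) + 2 ≤ hammingNorm w := by
  rw [norm_eq] at hw
  obtain ⟨T, hT, hc⟩ := Finset.exists_subset_card_eq hw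
  obtain ⟨o, ho, h8, hs⟩ := octad_exists h T hc
  refine ⟨o, ho, h8, ?_⟩
  have h1 := norm_add w o
  have h2 : T.card ≤ (Cfsg.support₂ w ∩ Cfsg.support₂ o).card :=
    Finset.card_le_card (Finset.subset_inter hT hs)
  rw [norm_eq w] at h1 ⊢
  omega

theorem steiner (h : Code C) : Cfsg.IsSteinerSystem 5 8 (Cfsg.wordsOfWeight (C : Set V) 8) := by
  refine ⟨fun b hb => hb.2, ?_⟩
  intro s hs
  obtain ⟨w, hw, h8, hsw⟩ := octad_exists h s hs
  refine ⟨Cfsg.support₂ w, ⟨⟨⟨w, hw, rfl⟩, by rw [← norm_eq, h8]⟩, hsw⟩, ?_⟩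
  rintro b ⟨⟨⟨w', hw', rfl⟩, hc⟩, hsb⟩
  rw [← norm_eq] at hc
  rw [octad_unique h (T := s) (by omega) hw' hw hc h8 hsb hsw]

theorem exists_octad (h : Code C) : ∃ w ∈ C, hammingNorm w = 8 := by
  obtain ⟨w, hw, h8, _⟩ := octad_exists h {0, 1, 2, 3, 4} (by decide)
  exact ⟨w, hw, h8⟩

theorem span_octads (h : Code C) : Submodule.span (ZMod 2) {w : V | w ∈ C ∧ hammingNorm w = 8} = C := by
  apply le_antisymm
  · rw [Submodule.span_le]
    exact fun w hw => hw.1
  · suffices hs : ∀ n, ∀ w ∈ C, hammingNorm w ≤ n →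
        w ∈ Submodule.span (ZMod 2) {w : V | w ∈ C ∧ hammingNorm w = 8} from
      fun w hw => hs _ w hw le_rfl
    intro n
    induction n with
    | zero =>
      intro w _ hw
      have : w = 0 := hammingNorm_eq_zero.mp (by omega)
      rw [this]
      exact Submodule.zero_mem _
    | succ n ih =>
      intro w hwC hw
      by_cases h0 : w = 0
      · rw [h0]; exact Submodule.zero_mem _
      by_cases h8 : hammingNorm w = 8
      · exact Submodule.subset_span ⟨hwC, h8⟩
      have hge := h.hmin w hwC h0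
      obtain ⟨o, ho, ho8, hd⟩ := descent h w (by omega)
      have h1 := ih (w + o) (C.add_mem hwC ho) (by omega)
      have h2 : o ∈ Submodule.span (ZMod 2) {w : V | w ∈ C ∧ hammingNorm w = 8} :=
        Submodule.subset_span ⟨ho, ho8⟩
      have h3 := Submodule.add_mem _ h1 h2
      rwa [add_assoc, add_self', add_zero] at h3

lemma leader_pair (h : Code C) {w u u' : V} (hu : u - w ∈ C) (hu' : u' - w ∈ C)
    (h4 : hammingNorm u ≤ 4) (h4' : hammingNorm u' ≤ 4) (hne : u ≠ u') :
    hammingNorm u = 4 ∧ hammingNorm u' = 4 ∧ Disjoint (Cfsg.support₂ u) (Cfsg.support₂ u') := by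
  have hc : u + u' ∈ C := by
    have := C.sub_mem hu hu'
    rwa [sub_sub_sub_cancel_right, sub_eq_add'] at this
  have h1 := h.hmin (u + u') hc (add_ne_zero_of_ne hne)
  have h2 := norm_add u u'
  refine ⟨by omega, by omega, ?_⟩
  rw [Finset.disjoint_iff_inter_eq_empty, ← Finset.card_eq_zero]
  omega

lemma exists_leader (h : Code C) (w : V) : ∃ u, u - w ∈ C ∧ hammingNorm u ≤ 4 := by
  suffices hs : ∀ n, ∀ u, hammingNorm u ≤ n → u - w ∈ C → ∃ u', u' - w ∈ C ∧ hammingNorm u' ≤ 4 from
    hs _ w le_rfl (by rw [sub_self]; exact C.zero_mem)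
  intro n
  induction n with
  | zero =>
    intro u hu huC
    exact ⟨u, huC, by omega⟩
  | succ n ih =>
    intro u hu huC
    by_cases h4 : hammingNorm u ≤ 4
    · exact ⟨u, huC, h4⟩
    obtain ⟨o, ho, _, hd⟩ := descent h u (by omega)
    refine ih (u + o) (by omega) ?_
    have := C.add_mem huC ho
    rwa [sub_add_eq_add_sub] at this

theorem cosets (h : Code C) (w : V) :
    (∃ u : V, {u : V | u - w ∈ C ∧ hammingNorm u ≤ 4} = {u} ∧ hammingNorm u ≤ 3) ∨
      ({u : V | u - w ∈ C ∧ hammingNorm u ≤ 4}.ncard = 6 ∧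
        ∀ u ∈ {u : V | u - w ∈ C ∧ hammingNorm u ≤ 4}, hammingNorm u = 4 ∧
          ∀ u' ∈ {u : V | u - w ∈ C ∧ hammingNorm u ≤ 4}, u ≠ u' →
            Disjoint (Cfsg.support₂ u) (Cfsg.support₂ u')) := by
  classical
  obtain ⟨u₀, hu₀, h₀⟩ := exists_leader h w
  by_cases h3 : hammingNorm u₀ ≤ 3
  · left
    refine ⟨u₀, ?_, h3⟩
    ext u
    simp only [Set.mem_setOf_eq, Set.mem_singleton_iff]
    constructor
    · rintro ⟨hu, hu4⟩
      by_contra hne
      have := leader_pair h hu hu₀ hu4 h₀ hne
      omega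
    · rintro rfl
      exact ⟨hu₀, h₀⟩
  · right
    have h44 : hammingNorm u₀ = 4 := by omega
    have hall : ∀ u ∈ {u : V | u - w ∈ C ∧ hammingNorm u ≤ 4}, hammingNorm u = 4 := by
      rintro u ⟨hu, hu4⟩
      by_cases he : u = u₀
      · rw [he]; exact h44
      · exact (leader_pair h hu hu₀ hu4 h₀ he).1
    have hdis : ∀ u ∈ {u : V | u - w ∈ C ∧ hammingNorm u ≤ 4},
        ∀ u' ∈ {u : V | u - w ∈ C ∧ hammingNorm u ≤ 4}, u ≠ u' →
            Disjoint (Cfsg.support₂ u) (Cfsg.support₂ u') := by
      rintro u ⟨hu, hu4⟩ u' ⟨hu', hu4'⟩ hne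
      exact (leader_pair h hu hu' hu4 hu4' hne).2.2
    refine ⟨?_, fun u hu => ⟨hall u hu, hdis u hu⟩⟩
    let UF : Finset V := Finset.univ.filter (fun u : V => u - w ∈ C ∧ hammingNorm u ≤ 4)
    have hUF : {u : V | u - w ∈ C ∧ hammingNorm u ≤ 4} = (UF : Set V) := by
      ext u
      simp [UF]
    rw [hUF, Set.ncard_coe_finset]
    have hcov : UF.biUnion Cfsg.support₂ = Finset.univ := by
      rw [Finset.eq_univ_iff_forall]
      intro p
      rw [Finset.mem_biUnion]
      by_cases hp : p ∈ Cfsg.support₂ u₀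
      · exact ⟨u₀, by simp [UF, hu₀, h₀], hp⟩
      · have hcard : (insert p (Cfsg.support₂ u₀)).card = 5 := by
          rw [Finset.card_insert_of_notMem hp, ← norm_eq, h44]
        obtain ⟨o, ho, h8, hs⟩ := octad_exists h _ hcard
        have hsub : Cfsg.support₂ u₀ ⊆ Cfsg.support₂ o :=
          (Finset.subset_insert _ _).trans hs
        have hpo : p ∈ Cfsg.support₂ o := hs (Finset.mem_insert_self _ _)
        refine ⟨u₀ + o, ?_, ?_⟩
        · have hC : u₀ + o - w ∈ C := by
            have := C.add_mem hu₀ ho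
            rwa [sub_add_eq_add_sub] at this
          have h1 := norm_add u₀ o
          rw [Finset.inter_eq_left.mpr hsub, ← norm_eq, h44, h8] at h1
          simp only [UF, Finset.mem_filter, Finset.mem_univ, true_and]
          exact ⟨hC, by omega⟩
        · rw [supp_add, Finset.mem_symmDiff]
          exact Or.inr ⟨hpo, hp⟩
    have hc := Finset.card_biUnion (s := UF) (t := Cfsg.support₂) (by
      intro u hu u' hu' hne
      have h1 : u ∈ {u : V | u - w ∈ C ∧ hammingNorm u ≤ 4} := by rw [hUF]; exact hu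
      have h2 : u' ∈ {u : V | u - w ∈ C ∧ hammingNorm u ≤ 4} := by rw [hUF]; exact hu'
      exact hdis u h1 u' h2 hne)
    rw [hcov, Finset.card_univ, Fintype.card_fin] at hc
    rw [Finset.sum_congr rfl (g := fun _ => 4), Finset.sum_const, smul_eq_mul] at hc
    · omega
    · intro u hu
      have h1 : u ∈ {u : V | u - w ∈ C ∧ hammingNorm u ≤ 4} := by rw [hUF]; exact hu
      rw [← norm_eq]
      exact hall u h1

end Cfsg.Agent.Lib.H1Golay
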