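import Mathlib

set_option autoImplicit false

/-! Elements of small support in multiply transitive groups. -/

namespace Cfsg.Agent.Lib.H1Jordan

open Equiv.Perm MulAction

variable {α : Type*} [Fintype α] [DecidableEq α]

theorem exists_of_finset {G : Subgroup (Equiv.Perm α)} {k : ℕ} (hG : IsMultiplyPretransitive G α k)
    (S : Finset α) (hS : S.card = k) (f : S → α) (hf : Function.Injective f) :
    ∃ g ∈ G, ∀ a : S, g (a : α) = f a := by
  let e : S ≃ Fin k := Finset.equivFinOfCardEq hS
  let x : Fin k ↪ α := ⟨fun i => (e.symm i : α), fun i j h => e.symm.injective (Subtype.ext h)⟩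
  let y : Fin k ↪ α := ⟨fun i => f (e.symm i), fun i j h => e.symm.injective (hf h)⟩
  obtain ⟨g, hg⟩ := hG.exists_smul_eq x y
  refine ⟨g, g.2, fun a => ?_⟩
  have h1 := congrArg (fun t : Fin k ↪ α => t (e a)) hg
  have h2 : ((g : Equiv.Perm α)) (x (e a)) = y (e a) := h1
  have h3 : x (e a) = a := by
    show (e.symm (e a) : α) = a
    rw [e.symm_apply_apply]
  have h4 : y (e a) = f a := by
    show f (e.symm (e a)) = f a
    rw [e.symm_apply_apply]
  rwa [h3, h4] at h2

theorem exists_fix_move {G : Subgroup (Equiv.Perm α)} {k : ℕ} (hG : IsMultiplyPretransitive G α k)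
    (hk : k ≤ Fintype.card α) (Γ : Finset α) (δ δ' : α) (hδ : δ ∉ Γ) (hδ' : δ' ∉ Γ)
    (hc : Γ.card + 1 ≤ k) : ∃ y ∈ G, (∀ γ ∈ Γ, y γ = γ) ∧ y δ = δ' := by
  classical
  have hG' : IsMultiplyPretransitive G α (Γ.card + 1) := by
    haveI := hG
    exact isMultiplyPretransitive_of_le (n := k) hc (by rwa [Nat.card_eq_fintype_card])
  let S : Finset α := insert δ Γ
  have hS : S.card = Γ.card + 1 := Finset.card_insert_of_notMem hδ
  let f : S → α := fun a => if (a : α) = δ then δ' else a
  have hf : Function.Injective f := by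
    rintro ⟨a, ha⟩ ⟨b, hb⟩ h
    simp only [f] at h
    apply Subtype.ext
    show a = b
    by_cases h1 : a = δ <;> by_cases h2 : b = δ
    · rw [h1, h2]
    · rw [if_pos h1, if_neg h2] at h
      exfalso
      have h3 : b ∈ Γ := (Finset.mem_insert.mp hb).resolve_left h2
      exact hδ' (h ▸ h3)
    · rw [if_neg h1, if_pos h2] at h
      exfalso
      have h3 : a ∈ Γ := (Finset.mem_insert.mp ha).resolve_left h1
      exact hδ' (h ▸ h3)
    · rwa [if_neg h1, if_neg h2] at h
  obtain ⟨y, hy, hyf⟩ := exists_of_finset hG' S hS f hf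
  refine ⟨y, hy, fun γ hγ => ?_, ?_⟩
  · have h1 := hyf ⟨γ, Finset.mem_insert_of_mem hγ⟩
    have h2 : γ ≠ δ := fun h => hδ (h ▸ hγ)
    simpa [f, h2] using h1
  · have h1 := hyf ⟨δ, Finset.mem_insert_self _ _⟩
    simpa [f] using h1

/-- Size bound for the support of a commutator. -/
theorem supp_bound (x y : Equiv.Perm α) (Γ R : Finset α) (hΓ : ∀ γ ∈ Γ, y γ = γ)
    (hΓΔ : Γ ⊆ x.support) (hRΔ : R ⊆ x.support) (hR : ∀ d ∈ R, y⁻¹ d ∈ x.support) :
    (x⁻¹ * (y⁻¹ * x * y)).support.card + (Γ.filter (fun γ => x γ ∈ Γ)).card +  R.card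
      ≤ 2 * x.support.card := by
  classical
  set Δ := x.support with hΔ
  set w := y⁻¹ * x * y with hw
  set F := Γ.filter (fun γ => x γ ∈ Γ) with hF
  set T := Δ ∪ w.support with hT
  have hyinv : ∀ γ ∈ Γ, y⁻¹ γ = γ := by
    intro γ hγ
    rw [Equiv.Perm.inv_eq_iff_eq]
    exact (hΓ γ hγ).symm
  have hsub : (x⁻¹ * w).support ⊆ T \ F := by
    intro a ha
    refine Finset.mem_sdiff.mpr ⟨?_, ?_⟩
    · have h1 := Equiv.Perm.support_mul_le x⁻¹ w ha
      rw [Equiv.Perm.support_inv] at h1
      exact h1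
    · intro haF
      obtain ⟨ha1, ha2⟩ := Finset.mem_filter.mp haF
      rw [Equiv.Perm.mem_support] at ha
      apply ha
      show x⁻¹ (y⁻¹ (x (y a))) = a
      rw [hΓ a ha1, hyinv _ ha2]
      simp
  have hFT : F ⊆ T := by
    intro a ha
    exact Finset.mem_union_left _ (hΓΔ (Finset.mem_filter.mp ha).1)
  have h1 : (x⁻¹ * w).support.card + F.card ≤ T.card := by
    have h2 := Finset.card_le_card hsub
    rw [Finset.card_sdiff_of_subset hFT] at h2
    have h3 := Finset.card_le_card hFT
    omega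
  have h2 : T.card ≤ Δ.card + (w.support \ Δ).card := by
    rw [hT, ← Finset.union_sdiff_self_eq_union]
    exact Finset.card_union_le _ _
  have h3 : (w.support \ Δ).card ≤ (Δ \ R).card := by
    apply Finset.card_le_card_of_injOn (fun a => y a)
    · intro a ha
      have ha' := Finset.mem_sdiff.mp (Finset.mem_coe.mp ha)
      refine Finset.mem_coe.mpr (Finset.mem_sdiff.mpr ⟨?_, ?_⟩)
      · rw [hΔ, Equiv.Perm.mem_support]
        intro h
        have h4 := ha'.1
        rw [Equiv.Perm.mem_support] at h4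
        apply h4
        show y⁻¹ (x (y a)) = a
        rw [h]
        simp
      · intro hya
        have h5 := hR _ hya
        apply ha'.2
        simpa using h5
    · intro a _ b _ h
      exact y.injective h
  have h4 : (Δ \ R).card = Δ.card - R.card := Finset.card_sdiff_of_subset hRΔ
  have h5 := Finset.card_le_card hRΔ
  omega

/-- `x`-invariant set without fixed points: its size is divisible by `p`. -/
theorem dvd_card_of_inv {p : ℕ} [Fact p.Prime] (x : Equiv.Perm α) (hx : x ^ p = 1) (S : Finset α)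
    (hS : ∀ a ∈ S, x a ∈ S) (hm : ∀ a ∈ S, x a ≠ a) : p ∣ S.card := by
  classical
  let f : Function.End S := fun a => ⟨x a, hS a a.2⟩
  have hpow : ∀ (n : ℕ) (a : S), (((f ^ n) a : S) : α) = (x ^ n) a := by
    intro n
    induction n with
    | zero => intro a; rfl
    | succ n ih =>
      intro a
      rw [pow_succ', pow_succ']
      show x (((f ^ n) a : S) : α) = x ((x ^ n) a)
      rw [ih]
  have hf : f ^ p ^ 1 = 1 := by
    funext a
    apply Subtype.ext
    rw [pow_one, hpow, hx]
    rfl
  have h1 := Equiv.Perm.card_fixedPoints_modEq hf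
  have h2 : Fintype.card (Function.fixedPoints f) = 0 := by
    rw [Fintype.card_eq_zero_iff]
    constructor
    rintro ⟨a, ha⟩
    have h3 : f a = a := ha
    exact hm a a.2 (congrArg Subtype.val h3)
  rw [h2, Fintype.card_coe] at h1
  exact (Nat.modEq_zero_iff_dvd.mp h1)

/-- A subset of the support of given size with at most one boundary point. -/
theorem exists_arc (x : Equiv.Perm α) (s : ℕ) (hs : s ≤ x.support.card) :
    ∃ Γ : Finset α, Γ ⊆ x.support ∧ Γ.card = s ∧ (Γ.filter (fun γ => x γ ∉ Γ)).card ≤ 1 := by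
  classical
  induction s with
  | zero => exact ⟨∅, Finset.empty_subset _, rfl, by simp⟩
  | succ s ih =>
    obtain ⟨Γ, hΓ, hc, hb⟩ := ih (by omega)
    by_cases hB : (Γ.filter (fun γ => x γ ∉ Γ)) = ∅
    · obtain ⟨δ, hδ, hδΓ⟩ : ∃ δ ∈ x.support, δ ∉ Γ := by
        apply Finset.exists_mem_notMem_of_card_lt_card
        omega
      refine ⟨insert δ Γ, ?_, by rw [Finset.card_insert_of_notMem hδΓ, hc], ?_⟩
      · exact Finset.insert_subset hδ hΓ
      · have h1 : (insert δ Γ).filter (fun γ => x γ ∉ insert δ Γ) ⊆ {δ} := by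
          intro a ha
          obtain ⟨ha1, ha2⟩ := Finset.mem_filter.mp ha
          rcases Finset.mem_insert.mp ha1 with h | h
          · exact Finset.mem_singleton.mpr h
          · exfalso
            apply ha2
            apply Finset.mem_insert_of_mem
            by_contra h3
            have h4 : a ∈ Γ.filter (fun γ => x γ ∉ Γ) := Finset.mem_filter.mpr ⟨h, h3⟩
            rw [hB] at h4
            exact absurd h4 (Finset.notMem_empty _)
        exact (Finset.card_le_card h1).trans (by simp)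
    · obtain ⟨γ0, hγ0⟩ := Finset.nonempty_iff_ne_empty.mpr hB
      obtain ⟨hγ1, hγ2⟩ := Finset.mem_filter.mp hγ0
      have huniq : ∀ a ∈ Γ, x a ∉ Γ → a = γ0 := by
        intro a ha hxa
        have h4 : a ∈ Γ.filter (fun γ => x γ ∉ Γ) := Finset.mem_filter.mpr ⟨ha, hxa⟩
        exact Finset.card_le_one.mp hb _ h4 _ hγ0
      set δ := x γ0 with hδ
      have hδΔ : δ ∈ x.support := by
        rw [hδ]
        exact Equiv.Perm.apply_mem_support.mpr (hΓ hγ1)
      refine ⟨insert δ Γ, Finset.insert_subset hδΔ hΓ, by rw [Finset.card_insert_of_notMem hγ2, hc], ?_⟩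
      have h1 : (insert δ Γ).filter (fun γ => x γ ∉ insert δ Γ) ⊆ {δ} := by
        intro a ha
        obtain ⟨ha1, ha2⟩ := Finset.mem_filter.mp ha
        rcases Finset.mem_insert.mp ha1 with h | h
        · exact Finset.mem_singleton.mpr h
        · exfalso
          apply ha2
          by_cases h3 : x a ∈ Γ
          · exact Finset.mem_insert_of_mem h3
          · have h4 := huniq a h h3
            rw [h4]
            exact Finset.mem_insert_self _ _
      exact (Finset.card_le_card h1).trans (by simp)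

theorem comm_ne_one (x y : Equiv.Perm α) (γ0 : α) (hy0 : y γ0 = γ0) (hy1 : y (x γ0) ≠ x γ0) :
    x⁻¹ * (y⁻¹ * x * y) ≠ 1 := by
  intro h
  have h1 : y⁻¹ * x * y = x := by
    have := inv_mul_eq_one.mp h
    exact this.symm
  have h2 := congrArg (fun f : Equiv.Perm α => f γ0) h1
  have h3 : y⁻¹ (x (y γ0)) = x γ0 := h2
  rw [hy0] at h3
  apply hy1
  rw [Equiv.Perm.inv_eq_iff_eq] at h3
  exact h3.symm

end Cfsg.Agent.Lib.H1Jordan
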