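import Mathlib

set_option autoImplicit false
set_option linter.unusedVariables false
set_option linter.unusedSectionVars false
set_option linter.style.longLine false

/-!
# Jordan sets in primitive groups

If `G` is primitive on `Ω` and `Γ` is a set with at most half of the points such that the pointwise
stabilizer of the complement is transitive on `Γ`, then `G` is 3-transitive.
-/

namespace Cfsg.Agent.Lib.H1JordanSet

open MulAction

variable {G Ω : Type*} [Group G] [MulAction G Ω]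

/-- Counting elements sending a point to a subset of its orbit. -/
theorem count_fiber {H : Type*} [Group H] [MulAction H Ω] [Finite H] [Finite Ω] (a : Ω) (T : Set Ω) (hT : T ⊆ orbit H a) :
    Nat.card {h : H // h • a ∈ T} * (orbit H a).ncard = T.ncard * Nat.card H := by
  classical
  have hc : ∀ t : T, ∃ h : H, h • a = (t : Ω) := by
    rintro ⟨t, ht⟩
    obtain ⟨h, hh⟩ := hT ht
    exact ⟨h, hh⟩
  choose c hc using hc
  let e : {h : H // h • a ∈ T} ≃ T × stabilizer H a :=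
    { toFun := fun h => (⟨h.1 • a, h.2⟩, ⟨(c ⟨h.1 • a, h.2⟩)⁻¹ * h.1, by
        rw [mem_stabilizer_iff, mul_smul, inv_smul_eq_iff, hc]⟩)
      invFun := fun p => ⟨c p.1 * p.2, by
        have h1 : (p.2 : H) • a = a := p.2.2
        rw [mul_smul, h1, hc]
        exact p.1.2⟩
      left_inv := by
        rintro ⟨h, hh⟩
        apply Subtype.ext
        simp
      right_inv := by
        rintro ⟨t, s⟩
        have h1 : (s : H) • a = a := s.2
        have h2 : (c t * (s : H)) • a = (t : Ω) := by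
          rw [mul_smul, h1, hc]
        have h3 : (⟨(c t * (s : H)) • a, by rw [h2]; exact t.2⟩ : T) = t := Subtype.ext h2
        simp only [Prod.mk.injEq]
        refine ⟨h3, ?_⟩
        apply Subtype.ext
        simp only
        rw [h3]
        group }
  rw [Nat.card_congr e, Nat.card_prod, Nat.card_coe_set_eq T]
  have h4 := Subgroup.card_mul_index (stabilizer H a)
  rw [index_stabilizer] at h4
  rw [mul_assoc, h4]

/-- Avoiding two points. -/
theorem avoid_two [Finite G] [Finite Ω] (htr : IsPretransitive G Ω)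
    (h2 : ∀ a b c d : Ω, a ≠ b → c ≠ d → ∃ g : G, g • a = c ∧ g • b = d)
    (Γ : Set Ω) (hm : 2 * Γ.ncard ≤ Nat.card Ω) (hne : Γ.Nonempty) {x a z : Ω} (hax : a ≠ x) (hzx : z ≠ x) :
    ∃ g : G, g⁻¹ • x ∈ Γ ∧ g⁻¹ • a ∉ Γ ∧ g⁻¹ • z ∉ Γ := by
  classical
  obtain ⟨p, hp⟩ := hne
  obtain ⟨g₀, hg₀⟩ := htr.exists_smul_eq p x
  let T : Set Ω := {t | t ≠ x ∧ g₀⁻¹ • t ∈ Γ}
  have hT : T = (fun w => g₀ • w) '' (Γ \ {p}) := by
    ext t
    constructor
    · rintro ⟨h1, h3⟩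
      refine ⟨g₀⁻¹ • t, ⟨h3, ?_⟩, smul_inv_smul _ _⟩
      intro h4
      apply h1
      have h5 : g₀⁻¹ • t = p := h4
      rw [← hg₀, ← h5, smul_inv_smul]
    · rintro ⟨w, ⟨h1, h3⟩, rfl⟩
      refine ⟨?_, by simpa using h1⟩
      intro h4
      apply h3
      rw [← hg₀] at h4
      exact smul_left_cancel _ h4
  have hTc : T.ncard + 1 = Γ.ncard := by
    rw [hT, Set.ncard_image_of_injective _ (MulAction.injective g₀)]
    exact Set.ncard_diff_singleton_add_one hp (Set.toFinite _)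
  let H := stabilizer G x
  have hO : ∀ b : Ω, b ≠ x → orbit H b = {x}ᶜ := by
    intro b hb
    ext t
    constructor
    · rintro ⟨h, rfl⟩ h3
      apply hb
      have h4 : (h : G) • b = x := h3
      have h5 : (h : G) • x = x := h.2
      exact smul_left_cancel (h : G) (h4.trans h5.symm)
    · intro ht
      obtain ⟨g, hg1, hg2⟩ := h2 x b x t (Ne.symm hb) (Ne.symm ht)
      exact ⟨⟨g, hg1⟩, hg2⟩
  have hOc : ({x}ᶜ : Set Ω).ncard + 1 = Nat.card Ω := by
    have := Set.ncard_add_ncard_compl ({x} : Set Ω)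
    rw [Set.ncard_singleton] at this
    omega
  have hTO : T ⊆ {x}ᶜ := fun t ht => ht.1
  have hA := count_fiber (H := H) a T (by rw [hO a hax]; exact hTO)
  have hZ := count_fiber (H := H) z T (by rw [hO z hzx]; exact hTO)
  rw [hO a hax] at hA
  rw [hO z hzx] at hZ
  by_contra hcon
  push Not at hcon
  have hall : ∀ h : H, h • a ∈ T ∨ h • z ∈ T := by
    intro h
    by_contra hno
    rw [not_or] at hno
    obtain ⟨h3, h4⟩ := hno
    -- use `g = h⁻¹ g₀`
    have hg := hcon ((h : G)⁻¹ * g₀)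
    have e : ((h : G)⁻¹ * g₀)⁻¹ = g₀⁻¹ * (h : G) := by group
    rw [e] at hg
    have h5 : (g₀⁻¹ * (h : G)) • x = p := by
      have h6 : (h : G) • x = x := h.2
      rw [mul_smul, h6, ← hg₀, inv_smul_smul]
    have h7 : (g₀⁻¹ * (h : G)) • x ∈ Γ := by rw [h5]; exact hp
    have h8 := hg h7
    by_cases h9 : (g₀⁻¹ * (h : G)) • a ∈ Γ
    · apply h3
      refine ⟨?_, ?_⟩
      · intro h10
        apply hax
        have h6 : (h : G) • x = x := h.2
        have h11 : (h : G) • a = x := h10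
        exact smul_left_cancel (h : G) (h11.trans h6.symm)
      · rwa [mul_smul] at h9
    · apply h4
      refine ⟨?_, ?_⟩
      · intro h10
        apply hzx
        have h6 : (h : G) • x = x := h.2
        have h11 : (h : G) • z = x := h10
        exact smul_left_cancel (h : G) (h11.trans h6.symm)
      · have := h8 h9
        rwa [mul_smul] at this
  have hle : Nat.card H ≤ Nat.card {h : H // h • a ∈ T} + Nat.card {h : H // h • z ∈ T} := by
    rw [← Nat.card_sum]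
    let f : H → {h : H // h • a ∈ T} ⊕ {h : H // h • z ∈ T} := fun h =>
      if h1 : h • a ∈ T then Sum.inl ⟨h, h1⟩ else Sum.inr ⟨h, (hall h).resolve_left h1⟩
    have hf : Function.Injective f := by
      intro u v huv
      simp only [f] at huv
      split_ifs at huv with h1 h3 h3
      · exact congrArg Subtype.val (Sum.inl.inj huv)
      · exact congrArg Subtype.val (Sum.inr.inj huv)
    exact Nat.card_le_card_of_injective f hf
  have hHpos : 0 < Nat.card H := Nat.card_pos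
  have hkey : Nat.card H * ({x}ᶜ : Set Ω).ncard ≤ 2 * T.ncard * Nat.card H := by
    calc Nat.card H * ({x}ᶜ : Set Ω).ncard
        ≤ (Nat.card {h : H // h • a ∈ T} + Nat.card {h : H // h • z ∈ T}) * ({x}ᶜ : Set Ω).ncard :=
          Nat.mul_le_mul_right _ hle
      _ = 2 * T.ncard * Nat.card H := by rw [add_mul, hA, hZ]; ring
  have h10 : ({x}ᶜ : Set Ω).ncard ≤ 2 * T.ncard := by
    have : Nat.card H * ({x}ᶜ : Set Ω).ncard ≤ Nat.card H * (2 * T.ncard) := by
      rw [mul_comm (Nat.card H) (2 * T.ncard)]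
      exact hkey
    exact Nat.le_of_mul_le_mul_left this hHpos
  omega

/-- The "closure" of a pair of points under the translates of `Γ`. -/
def L (Γ : Set Ω) (p q : Ω) : Set Ω := {w | ∀ g : G, g⁻¹ • p ∈ Γ → g⁻¹ • q ∈ Γ → g⁻¹ • w ∈ Γ}

theorem L_left (Γ : Set Ω) (p q : Ω) : p ∈ L (G := G) Γ p q := fun g h1 h3 => h1
theorem L_right (Γ : Set Ω) (p q : Ω) : q ∈ L (G := G) Γ p q := fun g h1 h3 => h3

theorem L_smul (Γ : Set Ω) {p q w : Ω} (h : G) (hw : w ∈ L (G := G) Γ p q) : h • w ∈ L (G := G) Γ (h • p) (h • q) := by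
  intro g h1 h3
  have e : ∀ t : Ω, g⁻¹ • h • t = (h⁻¹ * g)⁻¹ • t := by
    intro t
    rw [mul_inv_rev, inv_inv, mul_smul]
  rw [e] at h1 h3 ⊢
  exact hw _ h1 h3

theorem L_sub (Γ : Set Ω) {p q u v : Ω} (hu : u ∈ L (G := G) Γ p q) (hv : v ∈ L (G := G) Γ p q) :
    L (G := G) Γ u v ⊆ L (G := G) Γ p q := by
  intro w hw g h1 h3
  exact hw g (hu g h1 h3) (hv g h1 h3)

theorem L_eq [Finite Ω] (h2 : ∀ a b c d : Ω, a ≠ b → c ≠ d → ∃ g : G, g • a = c ∧ g • b = d) (Γ : Set Ω)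
    {p q u v : Ω} (hpq : p ≠ q) (huv : u ≠ v) (hu : u ∈ L (G := G) Γ p q) (hv : v ∈ L (G := G) Γ p q) :
    L (G := G) Γ u v = L (G := G) Γ p q := by
  apply Set.eq_of_subset_of_ncard_le (L_sub Γ hu hv) _ (Set.toFinite _)
  obtain ⟨h, h3, h4⟩ := h2 u v p q huv hpq
  have : L (G := G) Γ p q = (fun w => h • w) '' L (G := G) Γ u v := by
    ext w
    constructor
    · intro hw
      refine ⟨h⁻¹ • w, ?_, smul_inv_smul _ _⟩
      have := L_smul Γ h⁻¹ hw
      rwa [← h3, ← h4, inv_smul_smul, inv_smul_smul] at this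
    · rintro ⟨t, ht, rfl⟩
      have := L_smul Γ h ht
      rwa [h3, h4] at this
  rw [this, Set.ncard_image_of_injective _ (MulAction.injective h)]

/-- Any two points lie in a translate avoiding a given third point. -/
theorem line_two [Finite Ω] (h2 : ∀ a b c d : Ω, a ≠ b → c ≠ d → ∃ g : G, g • a = c ∧ g • b = d)
    (Γ : Set Ω) (hJ : ∀ x ∈ Γ, ∀ y ∈ Γ, ∃ g : G, (∀ z ∉ Γ, g • z = z) ∧ g • x = y)
    {x₀ x₁ z₀ : Ω} (h0 : x₀ ∈ Γ) (h1 : x₁ ∈ Γ) (h01 : x₀ ≠ x₁) (hz : z₀ ∉ Γ)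
    {x y a : Ω} (hxy : x ≠ y) (hax : a ≠ x) (hay : a ≠ y) :
    ∃ g : G, g⁻¹ • x ∈ Γ ∧ g⁻¹ • y ∈ Γ ∧ g⁻¹ • a ∉ Γ := by
  by_contra hcon
  push Not at hcon
  have ha : a ∈ L (G := G) Γ x y := hcon
  have hz0 : z₀ ≠ x₀ := by
    rintro rfl
    exact hz h0
  -- a third point on the line through `z₀` and `x₀`
  obtain ⟨h, h3, h4⟩ := h2 x y z₀ x₀ hxy hz0
  have hw : h • a ∈ L (G := G) Γ z₀ x₀ := by
    have := L_smul Γ h ha
    rwa [h3, h4] at this
  set w := h • a with hwdef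
  have hwz : w ≠ z₀ := by
    intro h5
    rw [hwdef, ← h3] at h5
    exact hax (smul_left_cancel _ h5)
  have hwx : w ≠ x₀ := by
    intro h5
    rw [hwdef, ← h4] at h5
    exact hay (smul_left_cancel _ h5)
  have hsub : ∀ {u v : Ω}, u ∈ Γ → v ∈ Γ → L (G := G) Γ u v ⊆ Γ := by
    intro u v hu hv t ht
    have := ht 1 (by simpa using hu) (by simpa using hv)
    simpa using this
  have hwΓ : w ∉ Γ := by
    intro hwG
    have h5 := L_eq h2 Γ hz0 (Ne.symm hwx) (L_right Γ z₀ x₀) hw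
    have h6 : z₀ ∈ L (G := G) Γ x₀ w := by
      rw [h5]
      exact L_left Γ z₀ x₀
    exact hz (hsub h0 hwG h6)
  obtain ⟨k, hk, hkx⟩ := hJ x₀ h0 x₁ h1
  have h5 : L (G := G) Γ z₀ w = L (G := G) Γ z₀ x₀ := L_eq h2 Γ hz0 (Ne.symm hwz) (L_left Γ z₀ x₀) hw
  have h6 : x₁ ∈ L (G := G) Γ z₀ x₀ := by
    have h7 : x₀ ∈ L (G := G) Γ z₀ w := by
      rw [h5]
      exact L_right Γ z₀ x₀
    have h8 := L_smul Γ k h7
    rw [hk z₀ hz, hk w hwΓ, hkx, h5] at h8
    exact h8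
  have h7 := L_eq h2 Γ hz0 h01 (L_right Γ z₀ x₀) h6
  have h8 : z₀ ∈ L (G := G) Γ x₀ x₁ := by
    rw [h7]
    exact L_left Γ z₀ x₀
  exact hz (hsub h0 h1 h8)

/-- The Jordan property of translates. -/
theorem jord {Γ : Set Ω} (hJ : ∀ x ∈ Γ, ∀ y ∈ Γ, ∃ g : G, (∀ z ∉ Γ, g • z = z) ∧ g • x = y) (g : G) {u v : Ω}
    (hu : g⁻¹ • u ∈ Γ) (hv : g⁻¹ • v ∈ Γ) : ∃ k : G, (∀ z, g⁻¹ • z ∉ Γ → k • z = z) ∧ k • u = v := by
  obtain ⟨k, hk, hkuv⟩ := hJ _ hu _ hv
  refine ⟨g * k * g⁻¹, ?_, ?_⟩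
  · intro z hz
    rw [mul_smul, mul_smul, hk _ hz, smul_inv_smul]
  · rw [mul_smul, mul_smul, hkuv, smul_inv_smul]

theorem ncard_translate (Γ : Set Ω) (g : G) : {w | g⁻¹ • w ∈ Γ}.ncard = Γ.ncard := by
  have : {w | g⁻¹ • w ∈ Γ} = (fun t => g • t) '' Γ := by
    ext w
    constructor
    · intro h
      exact ⟨g⁻¹ • w, h, smul_inv_smul _ _⟩
    · rintro ⟨t, ht, rfl⟩
      simpa using ht
  rw [this, Set.ncard_image_of_injective _ (MulAction.injective g)]

section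
open scoped Pointwise

theorem stab_prim [Finite G] [Finite Ω] (htr : IsPretransitive G Ω)
    (h2 : ∀ a b c d : Ω, a ≠ b → c ≠ d → ∃ g : G, g • a = c ∧ g • b = d)
    (Γ : Set Ω) (hJ : ∀ x ∈ Γ, ∀ y ∈ Γ, ∃ g : G, (∀ z ∉ Γ, g • z = z) ∧ g • x = y)
    (hm : 2 * Γ.ncard ≤ Nat.card Ω) {x₀ x₁ z₀ : Ω} (h0 : x₀ ∈ Γ) (h1 : x₁ ∈ Γ) (h01 : x₀ ≠ x₁) (hz : z₀ ∉ Γ) (a : Ω) :
    IsPreprimitive (stabilizer G a) (SubMulAction.ofStabilizer G a) := by
  have hne : Γ.Nonempty := ⟨x₀, h0⟩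
  refine { toIsPretransitive := ⟨?_⟩, isTrivialBlock_of_isBlock := ?_ }
  · rintro ⟨u, hu⟩ ⟨v, hv⟩
    rw [SubMulAction.mem_ofStabilizer_iff] at hu hv
    obtain ⟨g, hg1, hg2⟩ := h2 a u a v (Ne.symm hu) (Ne.symm hv)
    exact ⟨⟨g, hg1⟩, Subtype.ext hg2⟩
  · intro B hB
    by_contra hB'
    rw [IsTrivialBlock, not_or] at hB'
    obtain ⟨hB1, hB2⟩ := hB'
    rw [Set.not_subsingleton_iff] at hB1
    obtain ⟨⟨x, hxa⟩, hxB, ⟨z, hza⟩, hzB, hxz⟩ := hB1
    obtain ⟨⟨y, hya⟩, hyB⟩ : ∃ y, y ∉ B := by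
      by_contra h
      push Not at h
      exact hB2 (Set.eq_univ_of_forall h)
    rw [SubMulAction.mem_ofStabilizer_iff] at hxa hza hya
    let B' : Set Ω := Subtype.val '' B
    have hxB' : x ∈ B' := ⟨⟨x, hxa⟩, hxB, rfl⟩
    have hzB' : z ∈ B' := ⟨⟨z, hza⟩, hzB, rfl⟩
    have hyB' : y ∉ B' := by
      rintro ⟨⟨y', hy'⟩, h3, h4⟩
      have h5 : y' = y := h4
      subst h5
      exact hyB h3
    have hxz' : x ≠ z := fun h => hxz (Subtype.ext h)
    have haB' : a ∉ B' := by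
      rintro ⟨⟨w, hw⟩, -, h4⟩
      rw [SubMulAction.mem_ofStabilizer_iff] at hw
      exact hw h4
    -- the block property
    have hblk : ∀ k : G, k • a = a → ∀ b ∈ B', k • b ∈ B' → ∀ w ∈ B', k • w ∈ B' := by
      rintro k hka _ ⟨b', hb', rfl⟩ ⟨b'', hb'', h3⟩ _ ⟨w', hw', rfl⟩
      let k' : stabilizer G a := ⟨k, hka⟩
      have h4 : k' • b' = b'' := Subtype.ext h3.symm
      have h5 : k' • B = B := by
        apply isBlock_iff_smul_eq_of_nonempty.mp hB
        exact ⟨b'', ⟨b', hb', h4⟩, hb''⟩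
      have h6 : k' • w' ∈ B := by
        rw [← h5]
        exact Set.smul_mem_smul_set hw'
      exact ⟨k' • w', h6, rfl⟩
    -- type one
    obtain ⟨g₁, hg1x, hg1a, hg1z⟩ := avoid_two htr h2 Γ hm hne (Ne.symm hxa) (Ne.symm hxz')
    have hsub1 : {w | g₁⁻¹ • w ∈ Γ} ⊆ B' := by
      intro u hu
      obtain ⟨k, hk, hkxu⟩ := jord hJ g₁ hg1x hu
      have h3 := hblk k (hk a hg1a) z hzB' (by rw [hk z hg1z]; exact hzB') x hxB'
      rwa [hkxu] at h3
    have hc1 : Γ.ncard ≤ B'.ncard := by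
      rw [← ncard_translate Γ g₁]
      exact Set.ncard_le_ncard hsub1 (Set.toFinite _)
    -- type two
    have hxy : x ≠ y := by
      rintro rfl
      exact hyB' hxB'
    obtain ⟨g₂, hg2x, hg2y, hg2a⟩ := line_two h2 Γ hJ h0 h1 h01 hz hxy (Ne.symm hxa) (Ne.symm hya)
    have hsub2 : B' ⊆ {w | g₂⁻¹ • w ∈ Γ} := by
      intro u hu
      by_contra hnot
      obtain ⟨k, hk, hkxy⟩ := jord hJ g₂ hg2x hg2y
      have h3 := hblk k (hk a hg2a) u hu (by rw [hk u hnot]; exact hu) x hxB'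
      rw [hkxy] at h3
      exact hyB' h3
    obtain ⟨h, hha, hhx⟩ := h2 a x a y (Ne.symm hxa) (Ne.symm hya)
    have hnoh : ∀ b ∈ B', h • b ∉ B' := by
      intro b hb hhb
      have h3 := hblk h hha b hb hhb x hxB'
      rw [hhx] at h3
      exact hyB' h3
    have hsub3 : (fun t => h • t) '' B' ⊆ {w | g₂⁻¹ • w ∈ Γ} := by
      rintro _ ⟨t, ht, rfl⟩
      by_contra hnot
      obtain ⟨k, hk, hkyx⟩ := jord hJ g₂ hg2y hg2x
      have hkt := hk _ hnot
      have hk2 : (h⁻¹ * k * h) • a = a := by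
        rw [mul_smul, mul_smul, hha, hk a hg2a, inv_smul_eq_iff, hha]
      have h3 : (h⁻¹ * k * h) • t = t := by
        rw [mul_smul, mul_smul, hkt, inv_smul_smul]
      have h4 := hblk _ hk2 t ht (by rw [h3]; exact ht) x hxB'
      have h5 : (h⁻¹ * k * h) • x = h⁻¹ • x := by
        rw [mul_smul, mul_smul, hhx, hkyx]
      rw [h5] at h4
      apply hnoh _ h4
      rw [smul_inv_smul]
      exact hxB'
    have hdisj : Disjoint B' ((fun t => h • t) '' B') := by
      rw [Set.disjoint_left]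
      rintro u hu ⟨t, ht, rfl⟩
      exact hnoh t ht hu
    have hc2 : B'.ncard + B'.ncard ≤ Γ.ncard := by
      have h3 : ((fun t => h • t) '' B').ncard = B'.ncard := Set.ncard_image_of_injective _ (MulAction.injective h)
      have h4 := Set.ncard_union_eq hdisj (Set.toFinite _) (Set.toFinite _)
      rw [h3] at h4
      rw [← h4, ← ncard_translate Γ g₂]
      exact Set.ncard_le_ncard (Set.union_subset hsub2 hsub3) (Set.toFinite _)
    have hc3 : 0 < B'.ncard := (Set.ncard_pos (Set.toFinite _)).mpr ⟨x, hxB'⟩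
    omega

end

/-- A primitive group with a Jordan set of at most half the points is 3-transitive. -/
theorem three_trans [Finite G] [Finite Ω] (hprim : IsPreprimitive G Ω) (Γ : Set Ω) (h1 : 1 < Γ.ncard)
    (hm : 2 * Γ.ncard ≤ Nat.card Ω)
    (hJ : ∀ x ∈ Γ, ∀ y ∈ Γ, ∃ g : G, (∀ z ∉ Γ, g • z = z) ∧ g • x = y) :
    IsMultiplyPretransitive G Ω 3 := by
  classical
  have hcompl : (Γᶜ).ncard + Γ.ncard = Nat.card Ω := by
    rw [add_comm]
    exact Set.ncard_add_ncard_compl Γ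
  obtain ⟨x₀, x₁, h0, h01', h01⟩ := (Set.one_lt_ncard_iff (Set.toFinite Γ)).mp h1
  obtain ⟨t, ht⟩ : ∃ t, (Γᶜ).ncard = t + 1 := ⟨(Γᶜ).ncard - 1, by omega⟩
  have hs : IsPretransitive (fixingSubgroup G Γᶜ) (SubMulAction.ofFixingSubgroup G Γᶜ) := by
    constructor
    rintro ⟨u, hu⟩ ⟨v, hv⟩
    rw [SubMulAction.mem_ofFixingSubgroup_iff] at hu hv
    obtain ⟨k, hk, hkuv⟩ := hJ u (by simpa using hu) v (by simpa using hv)
    refine ⟨⟨k, ?_⟩, Subtype.ext hkuv⟩
    rw [mem_fixingSubgroup_iff]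
    intro z hz
    exact hk z (by simpa using hz)
  have h2tr := hprim.is_two_pretransitive ht (by omega) hs
  have h2' : ∀ a b c d : Ω, a ≠ b → c ≠ d → ∃ g : G, g • a = c ∧ g • b = d :=
    fun a b c d h3 h4 => is_two_pretransitive_iff.mp h2tr h3 h4
  have hne : (Γᶜ).Nonempty := (Set.ncard_pos (Set.toFinite _)).mp (by omega)
  obtain ⟨a, ha⟩ := hne
  have haΓ : a ∉ Γ := ha
  have hA := stab_prim hprim.toIsPretransitive h2' Γ hJ hm h0 h01' h01 haΓ a
  let t' : Set (SubMulAction.ofStabilizer G a) := {u | (u : Ω) ∉ Γ}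
  have himg : Subtype.val '' t' = Γᶜ \ {a} := by
    ext w
    constructor
    · rintro ⟨⟨u, hu⟩, h3, rfl⟩
      rw [SubMulAction.mem_ofStabilizer_iff] at hu
      exact ⟨h3, hu⟩
    · rintro ⟨h3, h4⟩
      have h5 : w ∈ SubMulAction.ofStabilizer G a := by
        rw [SubMulAction.mem_ofStabilizer_iff]
        exact h4
      exact ⟨⟨w, h5⟩, h3, rfl⟩
  have hct : t'.ncard + 1 = (Γᶜ).ncard := by
    rw [← Set.ncard_image_of_injective t' Subtype.val_injective, himg]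
    exact Set.ncard_diff_singleton_add_one ha (Set.toFinite _)
  obtain ⟨r, hr⟩ : ∃ r, t'.ncard = r + 1 := ⟨t'.ncard - 1, by omega⟩
  have hcardA : Nat.card (SubMulAction.ofStabilizer G a) + 1 = Nat.card Ω :=
    SubMulAction.nat_card_ofStabilizer_add_one_eq G a
  have hs' : IsPretransitive (fixingSubgroup (stabilizer G a) t') (SubMulAction.ofFixingSubgroup (stabilizer G a) t') := by
    constructor
    rintro ⟨⟨u, hu0⟩, hu⟩ ⟨⟨v, hv0⟩, hv⟩
    rw [SubMulAction.mem_ofFixingSubgroup_iff] at hu hv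
    have hu1 : u ∈ Γ := by
      by_contra h
      exact hu h
    have hv1 : v ∈ Γ := by
      by_contra h
      exact hv h
    obtain ⟨k, hk, hkuv⟩ := hJ u hu1 v hv1
    have hka : k • a = a := hk a haΓ
    refine ⟨⟨⟨k, hka⟩, ?_⟩, ?_⟩
    · rw [mem_fixingSubgroup_iff]
      rintro ⟨w, hw0⟩ hw
      apply Subtype.ext
      exact hk w hw
    · apply Subtype.ext
      apply Subtype.ext
      exact hkuv
  have h3 := hA.is_two_pretransitive hr (by omega) hs'
  haveI := hprim.toIsPretransitive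
  exact SubMulAction.ofStabilizer.isMultiplyPretransitive.mpr h3

end Cfsg.Agent.Lib.H1JordanSet
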