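import Cfsg.Agent.Lib.H1Prod

set_option autoImplicit false

/-! Kegel's lemma on permutable conjugates. -/

namespace Cfsg.Agent.Lib.H1Kegel

open Cfsg Pointwise Cfsg.Agent.Lib.H1Core Cfsg.Agent.Lib.H1Conj

variable {G : Type*} [Group G]

/-- If `X C = C X`-type commutation holds, the product set is a subgroup. -/
theorem exists_subgroup_mul {X C : Subgroup G}
    (h : ∀ x ∈ X, ∀ c ∈ C, ∃ x' ∈ X, ∃ c' ∈ C, c * x = x' * c') :
    ∃ S : Subgroup G, (S : Set G) = (X : Set G) * (C : Set G) ∧ X ≤ S ∧ C ≤ S := by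
  let S : Subgroup G :=
    { carrier := (X : Set G) * (C : Set G)
      mul_mem' := by
        rintro _ _ ⟨x₁, hx₁, c₁, hc₁, rfl⟩ ⟨x₂, hx₂, c₂, hc₂, rfl⟩
        obtain ⟨x₃, hx₃, c₃, hc₃, e⟩ := h x₂ hx₂ c₁ hc₁
        refine ⟨x₁ * x₃, X.mul_mem hx₁ hx₃, c₃ * c₂, C.mul_mem hc₃ hc₂, ?_⟩
        calc x₁ * x₃ * (c₃ * c₂) = x₁ * (x₃ * c₃) * c₂ := by group
          _ = x₁ * (c₁ * x₂) * c₂ := by rw [e]
          _ = _ := by group
      one_mem' := ⟨1, X.one_mem, 1, C.one_mem, by simp⟩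
      inv_mem' := by
        rintro _ ⟨x, hx, c, hc, rfl⟩
        obtain ⟨x', hx', c', hc', e⟩ := h x⁻¹ (X.inv_mem hx) c⁻¹ (C.inv_mem hc)
        refine ⟨x', hx', c', hc', ?_⟩
        show x' * c' = (x * c)⁻¹
        rw [← e, mul_inv_rev] }
  refine ⟨S, rfl, ?_, ?_⟩
  · intro x hx
    exact ⟨x, hx, 1, C.one_mem, by simp⟩
  · intro c hc
    exact ⟨1, X.one_mem, c, hc, by simp⟩

/-- A product which is a subgroup: commutation. -/
theorem perm_of_subgroup {U C S : Subgroup G} (h : (S : Set G) = (U : Set G) * (C : Set G)) :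
    ∀ c ∈ C, ∀ u ∈ U, ∃ u' ∈ U, ∃ c' ∈ C, c * u = u' * c' := by
  intro c hc u hu
  have h1 : c ∈ (S : Set G) := by
    rw [h]; exact ⟨1, U.one_mem, c, hc, by simp⟩
  have h2 : u ∈ (S : Set G) := by
    rw [h]; exact ⟨u, hu, 1, C.one_mem, by simp⟩
  have h3 : c * u ∈ (S : Set G) := S.mul_mem h1 h2
  rw [h] at h3
  obtain ⟨u', hu', c', hc', e⟩ := h3
  exact ⟨u', hu', c', hc', e.symm⟩

/-- Commutation passes to joins. -/
theorem iSup_perm {ι : Sort*} (U : ι → Subgroup G) (C : Subgroup G)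
    (h : ∀ i, ∀ c ∈ C, ∀ u ∈ U i, ∃ u' ∈ U i, ∃ c' ∈ C, c * u = u' * c') :
    ∀ x ∈ ⨆ i, U i, ∀ c ∈ C, ∃ x' ∈ ⨆ i, U i, ∃ c' ∈ C, c * x = x' * c' := by
  intro x hx
  induction hx using Subgroup.iSup_induction' with
  | hp i u hu =>
    intro c hc
    obtain ⟨u', hu', c', hc', e⟩ := h i c hc u hu
    exact ⟨u', Subgroup.mem_iSup_of_mem i hu', c', hc', e⟩
  | h1 =>
    intro c hc
    exact ⟨1, Subgroup.one_mem _, c, hc, by simp⟩
  | hmul x y _ _ hx hy =>
    intro c hc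
    obtain ⟨x₁, hx₁, c₁, hc₁, e₁⟩ := hx c hc
    obtain ⟨x₂, hx₂, c₂, hc₂, e₂⟩ := hy c₁ hc₁
    refine ⟨x₁ * x₂, Subgroup.mul_mem _ hx₁ hx₂, c₂, hc₂, ?_⟩
    calc c * (x * y) = (c * x) * y := by group
      _ = x₁ * (c₁ * y) := by rw [e₁]; group
      _ = _ := by rw [e₂]; group

/-- Conjugating a product set. -/
theorem conj_smul_coe_mul {U V S : Subgroup G} (h : (S : Set G) = (U : Set G) * (V : Set G)) (y : G) :
    ((MulAut.conj y • S : Subgroup G) : Set G) =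
      ((MulAut.conj y • U : Subgroup G) : Set G) * ((MulAut.conj y • V : Subgroup G) : Set G) := by
  ext g
  constructor
  · intro hg
    have h1 : y⁻¹ * g * y ∈ (S : Set G) := mem_conj_smul.mp hg
    rw [h] at h1
    obtain ⟨u, hu, v, hv, e⟩ := h1
    refine ⟨y * u * y⁻¹, mul_mem_conj_smul hu, y * v * y⁻¹, mul_mem_conj_smul hv, ?_⟩
    have e' : u * v = y⁻¹ * g * y := e
    have : g = y * (u * v) * y⁻¹ := by rw [e']; group
    rw [this]; group
  · rintro ⟨u, hu, v, hv, rfl⟩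
    have hu' : y⁻¹ * u * y ∈ U := mem_conj_smul.mp hu
    have hv' : y⁻¹ * v * y ∈ V := mem_conj_smul.mp hv
    refine mem_conj_smul.mpr ?_
    have h1 : (y⁻¹ * u * y) * (y⁻¹ * v * y) ∈ (S : Set G) := by
      rw [h]; exact ⟨_, hu', _, hv', rfl⟩
    have e : y⁻¹ * (u * v) * y = (y⁻¹ * u * y) * (y⁻¹ * v * y) := by group
    rw [e]
    exact h1

/-- If `G = X Y^w` then `G = X Y`. -/
theorem mul_top_of_conj {X Y : Subgroup G} {w : G}
    (h : ∀ g : G, ∃ x ∈ X, ∃ y ∈ MulAut.conj w • Y, g = x * y) :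
    ∀ g : G, ∃ x ∈ X, ∃ y ∈ Y, g = x * y := by
  obtain ⟨x₀, hx₀, y₀', hy₀', e⟩ := h w⁻¹
  have hy₀ : w⁻¹ * y₀' * w ∈ Y := mem_conj_smul.mp hy₀'
  set y₀ := w⁻¹ * y₀' * w with hy₀def
  have hw : w = x₀⁻¹ * y₀⁻¹ := by
    have h1 : x₀ * w * y₀ = 1 := by
      have e2 : y₀' = w * y₀ * w⁻¹ := by rw [hy₀def]; group
      rw [e2] at e
      calc x₀ * w * y₀ = x₀ * (w * y₀ * w⁻¹) * w := by group
        _ = w⁻¹ * w := by rw [← e]
        _ = 1 := by group
    have h2 : w = x₀⁻¹ * (x₀ * w * y₀) * y₀⁻¹ := by group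
    rw [h2, h1]; group
  intro g
  obtain ⟨x, hx, y', hy', e2⟩ := h (g * x₀)
  have hy : w⁻¹ * y' * w ∈ Y := mem_conj_smul.mp hy'
  refine ⟨x * x₀⁻¹, X.mul_mem hx (X.inv_mem hx₀), y₀⁻¹ * (w⁻¹ * y' * w) * y₀, ?_, ?_⟩
  · exact Y.mul_mem (Y.mul_mem (Y.inv_mem hy₀) hy) hy₀
  · have e3 : y' = x⁻¹ * (g * x₀) := by rw [e2]; group
    have e4 : x * x₀⁻¹ * (y₀⁻¹ * (w⁻¹ * y' * w) * y₀) =
        x * (x₀⁻¹ * y₀⁻¹) * w⁻¹ * y' * w * y₀ := by group
    rw [e4, ← hw]
    have e5 : x * w * w⁻¹ * y' * w * y₀ = x * y' * w * y₀ := by group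
    rw [e5, ← e2]
    have h1 : w * y₀ = x₀⁻¹ := by rw [hw]; group
    rw [mul_assoc, h1]
    group

/-- **Kegel's lemma**. -/
theorem kegel [Finite G] (A B : Subgroup G)
    (h : ∀ x : G, ∃ S : Subgroup G, S ≠ ⊤ ∧
      (S : Set G) = (A : Set G) * ((MulAut.conj x • B : Subgroup G) : Set G)) :
    ∃ N : Subgroup G, N.Normal ∧ N ≠ ⊤ ∧ (A ≤ N ∨ B ≤ N) := by
  classical
  by_cases hB : Subgroup.normalClosure (B : Set G) = ⊤
  · set 𝓧 : Set (Subgroup G) := {A' | ∀ x : G, ∃ S : Subgroup G, S ≠ ⊤ ∧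
      (S : Set G) = (A' : Set G) * ((MulAut.conj x • B : Subgroup G) : Set G)} with h𝓧
    obtain ⟨A', hle, hA'⟩ := (Set.toFinite 𝓧).exists_le_maximal (a := A) h
    have hA'mem : A' ∈ 𝓧 := hA'.1
    have hmax : ∀ X ∈ 𝓧, A' ≤ X → X ≤ A' := fun X hX hle => hA'.2 hX hle
    have hsub : ∀ {S C : Subgroup G}, (S : Set G) = (A' : Set G) * (C : Set G) → A' ≤ S ∧ C ≤ S := by
      intro S C hS
      constructor
      · intro a ha
        have : a ∈ (S : Set G) := by rw [hS]; exact ⟨a, ha, 1, C.one_mem, by simp⟩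
        exact this
      · intro c hc
        have : c ∈ (S : Set G) := by rw [hS]; exact ⟨1, A'.one_mem, c, hc, by simp⟩
        exact this
    have key : ∀ x : G, MulAut.conj x • B ≤ Subgroup.normalizer (A' : Set G) := by
      intro x
      obtain ⟨S₁, hS₁, hS₁e⟩ := hA'mem x
      set B₁ : Subgroup G := MulAut.conj x • B with hB₁
      obtain ⟨hA'S, hB₁S⟩ := hsub hS₁e
      let Y := {y : G // MulAut.conj y • A' ≤ S₁}
      let U : Y → Subgroup G := fun y => MulAut.conj y.1 • A'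
      set X : Subgroup G := ⨆ y : Y, U y with hX
      have hXS : X ≤ S₁ := iSup_le fun y => y.2
      have hUX : ∀ y : Y, U y ≤ X := fun y => le_iSup U y
      have hA'X : A' ≤ X := by
        have h1 := hUX ⟨1, by rw [conj_one_smul]; exact hA'S⟩
        simpa [U, conj_one_smul] using h1
      have hX𝓧 : X ∈ 𝓧 := by
        intro z
        set C : Subgroup G := MulAut.conj z • B with hC
        have hperm : ∀ y : Y, ∀ c ∈ C, ∀ u ∈ U y, ∃ u' ∈ U y, ∃ c' ∈ C, c * u = u' * c' := by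
          intro y
          obtain ⟨S₀, -, hS₀⟩ := hA'mem (y.1⁻¹ * z)
          have h1 := conj_smul_coe_mul hS₀ y.1
          have h2 : MulAut.conj y.1 • (MulAut.conj (y.1⁻¹ * z) • B) = C := by
            rw [← conj_mul_smul, mul_inv_cancel_left]
          rw [h2] at h1
          exact perm_of_subgroup h1
        obtain ⟨S, hSe, hXS', hCS⟩ := exists_subgroup_mul (iSup_perm U C hperm)
        refine ⟨S, ?_, hSe⟩
        intro htop
        have hall : ∀ g : G, ∃ x' ∈ X, ∃ y ∈ MulAut.conj (z * x⁻¹) • B₁, g = x' * y := by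
          intro g
          have h3 : g ∈ (S : Set G) := by rw [htop]; trivial
          rw [hSe] at h3
          obtain ⟨x', hx', c, hc, e⟩ := h3
          refine ⟨x', hx', c, ?_, e.symm⟩
          have h4 : MulAut.conj (z * x⁻¹) • B₁ = C := by
            rw [hB₁, ← conj_mul_smul, inv_mul_cancel_right]
          rw [h4]
          exact hc
        have hall2 := mul_top_of_conj hall
        apply hS₁
        rw [eq_top_iff]
        intro g _
        obtain ⟨x', hx', y, hy, rfl⟩ := hall2 g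
        exact S₁.mul_mem (hXS hx') (hB₁S hy)
      have hXA' : X ≤ A' := hmax X hX𝓧 hA'X
      intro b hb
      apply mem_normalizer_of_conj_smul_eq
      apply Subgroup.eq_of_le_of_card_ge
      · have h1 : MulAut.conj b • A' ≤ S₁ := by
          intro t ht
          have ht' := mem_conj_smul.mp ht
          have h2 := S₁.mul_mem (S₁.mul_mem (hB₁S hb) (hA'S ht')) (S₁.inv_mem (hB₁S hb))
          have e : b * (b⁻¹ * t * b) * b⁻¹ = t := by group
          rwa [e] at h2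
        exact (hUX ⟨b, h1⟩).trans hXA'
      · rw [card_conj_smul]
    have hN : Subgroup.normalizer (A' : Set G) = ⊤ := by
      rw [eq_top_iff, ← hB, Subgroup.normalClosure, Subgroup.closure_le]
      intro y hy
      obtain ⟨b, hb, hc⟩ := Group.mem_conjugatesOfSet_iff.mp hy
      obtain ⟨g, rfl⟩ := isConj_iff.mp hc
      exact key g (mul_mem_conj_smul hb)
    have hA'n : A'.Normal := Subgroup.normalizer_eq_top_iff.mp hN
    obtain ⟨S, hS, hSe⟩ := hA'mem 1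
    refine ⟨A', hA'n, fun e => hS ?_, Or.inl hle⟩
    rw [eq_top_iff, ← e]
    exact (hsub hSe).1
  · exact ⟨_, Subgroup.normalClosure_normal, hB, Or.inr Subgroup.subset_normalClosure⟩

end Cfsg.Agent.Lib.H1Kegel
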