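import Cfsg.Agent.Lib.H1L168b
import Cfsg.Agent.Lib.QD
import Cfsg.Agent.Lib.KleinSylow

/-!
# Simple group of order 168: Klein four-groups and maximal subgroups
-/

set_option autoImplicit false
set_option linter.unusedVariables false
set_option linter.unusedSectionVars false
set_option linter.style.longLine false

namespace Cfsg.Agent.Lib.H1L168

open Cfsg.Agent.Lib.H1Small

section D4

open DihedralGroup

/-- Klein four-subgroups of the dihedral group, in terms of finite sets. -/
theorem dih_klein_sets : ∀ S : Finset (DihedralGroup 4), S.card = 4 → (1 : DihedralGroup 4) ∈ S → (∀ a ∈ S, ∀ b ∈ S, a * b ∈ S) →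
    (∀ a ∈ S, a * a = 1) → S = {1, r 2, sr 0, sr 2} ∨ S = {1, r 2, sr 1, sr 3} := by
  decide +kernel

/-- The two Klein four-subgroups of the dihedral group. -/
def K0 : Subgroup (DihedralGroup 4) where
  carrier := {x | x ∈ ({1, r 2, sr 0, sr 2} : Finset (DihedralGroup 4))}
  mul_mem' := by
    intro a b
    simp only [Set.mem_setOf_eq]
    revert a b
    decide
  one_mem' := by
    simp only [Set.mem_setOf_eq]
    decide
  inv_mem' := by
    intro a
    simp only [Set.mem_setOf_eq]
    revert a
    decide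

/-- The second one. -/
def K1 : Subgroup (DihedralGroup 4) where
  carrier := {x | x ∈ ({1, r 2, sr 1, sr 3} : Finset (DihedralGroup 4))}
  mul_mem' := by
    intro a b
    simp only [Set.mem_setOf_eq]
    revert a b
    decide
  one_mem' := by
    simp only [Set.mem_setOf_eq]
    decide
  inv_mem' := by
    intro a
    simp only [Set.mem_setOf_eq]
    revert a
    decide

theorem mem_K0 (x : DihedralGroup 4) : x ∈ K0 ↔ x ∈ ({1, r 2, sr 0, sr 2} : Finset (DihedralGroup 4)) := Iff.rfl
theorem mem_K1 (x : DihedralGroup 4) : x ∈ K1 ↔ x ∈ ({1, r 2, sr 1, sr 3} : Finset (DihedralGroup 4)) := Iff.rfl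

theorem K0_sq : ∀ x : DihedralGroup 4, x ∈ ({1, r 2, sr 0, sr 2} : Finset (DihedralGroup 4)) → x * x = 1 := by decide
theorem K1_sq : ∀ x : DihedralGroup 4, x ∈ ({1, r 2, sr 1, sr 3} : Finset (DihedralGroup 4)) → x * x = 1 := by decide

theorem card_K0 : Nat.card K0 = 4 := by
  change Nat.card {x // x ∈ K0} = 4
  have : Nat.card {x // x ∈ K0} = Nat.card {x // x ∈ ({1, r 2, sr 0, sr 2} : Finset (DihedralGroup 4))} :=
    Nat.card_congr (Equiv.subtypeEquivRight mem_K0)
  rw [this, Nat.card_eq_fintype_card, Fintype.card_coe]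
  decide

theorem card_K1 : Nat.card K1 = 4 := by
  change Nat.card {x // x ∈ K1} = 4
  have : Nat.card {x // x ∈ K1} = Nat.card {x // x ∈ ({1, r 2, sr 1, sr 3} : Finset (DihedralGroup 4))} :=
    Nat.card_congr (Equiv.subtypeEquivRight mem_K1)
  rw [this, Nat.card_eq_fintype_card, Fintype.card_coe]
  decide

end D4

section Main3

variable {G : Type*} [Group G] [Finite G] [IsSimpleGroup G]

/-- A Sylow `2`-subgroup has exactly two Klein four-subgroups. -/
theorem klein_in_sylow (h : Nat.card G = 168) (T : Sylow 2 G) :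
    ∃ A₀ A₁ : Subgroup G, A₀ ≠ A₁ ∧ A₀ ≤ T ∧ A₁ ≤ T ∧ IsKleinFour A₀ ∧ IsKleinFour A₁ ∧
      ∀ U : Subgroup G, U ≤ T → IsKleinFour U → U = A₀ ∨ U = A₁ := by
  classical
  obtain ⟨e⟩ := sylow_two_dihedral h T
  let φ : DihedralGroup 4 →* G := (T : Subgroup G).subtype.comp e.symm.toMonoidHom
  have hφ : Function.Injective φ := by
    intro a b hab
    exact e.symm.injective (Subtype.ext hab)
  have hφT : ∀ x, φ x ∈ (T : Subgroup G) := fun x => (e.symm x).2
  have hcardmap : ∀ K : Subgroup (DihedralGroup 4), Nat.card (K.map φ) = Nat.card K := fun K =>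
    Nat.card_congr (Subgroup.equivMapOfInjective K φ hφ).toEquiv.symm
  have hsqmap : ∀ K : Subgroup (DihedralGroup 4), (∀ x ∈ K, x * x = 1) → ∀ v ∈ K.map φ, v * v = 1 := by
    rintro K hK _ ⟨x, hx, rfl⟩
    rw [← map_mul, hK x hx, map_one]
  refine ⟨K0.map φ, K1.map φ, ?_, ?_, ?_, ?_, ?_, ?_⟩
  · intro heq
    have h1 : φ (DihedralGroup.sr 0) ∈ K1.map φ := by
      rw [← heq]
      exact ⟨_, by rw [SetLike.mem_coe, mem_K0]; decide, rfl⟩
    obtain ⟨x, hx, hxe⟩ := h1
    have := hφ hxe
    subst this
    revert hx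
    rw [SetLike.mem_coe, mem_K1]
    decide
  · rintro _ ⟨x, -, rfl⟩
    exact hφT x
  · rintro _ ⟨x, -, rfl⟩
    exact hφT x
  · exact Cfsg.Agent.Lib.QD.isKleinFour_of (by rw [hcardmap, card_K0]) (hsqmap _ (fun x hx => K0_sq x hx))
  · exact Cfsg.Agent.Lib.QD.isKleinFour_of (by rw [hcardmap, card_K1]) (hsqmap _ (fun x hx => K1_sq x hx))
  · intro U hU hK
    -- the corresponding finite set
    let S : Finset (DihedralGroup 4) := Finset.univ.filter (fun x => φ x ∈ U)
    have hmemS : ∀ x, x ∈ S ↔ φ x ∈ U := by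
      intro x
      simp [S]
    have hsq : ∀ x ∈ U, x * x = 1 := by
      intro v hv
      have h5 : (⟨v, hv⟩ : U) ^ (Monoid.exponent U) = 1 := Monoid.pow_exponent_eq_one _
      rw [hK.exponent_two] at h5
      have h6 := congrArg (fun s : U => (s : G)) h5
      simpa [pow_two] using h6
    have hcardS : S.card = 4 := by
      have h1 : Nat.card U = 4 := hK.card_four
      have h2 : Nat.card U = Nat.card {x // x ∈ S} := by
        apply Nat.card_congr
        refine
          { toFun := fun u => ⟨e ⟨u.1, hU u.2⟩, ?_⟩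
            invFun := fun x => ⟨φ x.1, (hmemS _).mp x.2⟩
            left_inv := ?_
            right_inv := ?_ }
        · rw [hmemS]
          change (((e.symm (e ⟨u.1, hU u.2⟩)) : (T : Subgroup G)) : G) ∈ U
          rw [MulEquiv.symm_apply_apply]
          exact u.2
        · intro u
          apply Subtype.ext
          change (((e.symm (e ⟨u.1, hU u.2⟩)) : (T : Subgroup G)) : G) = u
          rw [MulEquiv.symm_apply_apply]
        · intro x
          apply Subtype.ext
          change e (e.symm x.1) = x.1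
          exact e.apply_symm_apply _
      rw [h1, Nat.card_eq_fintype_card, Fintype.card_coe] at h2
      exact h2.symm
    have hS := dih_klein_sets S hcardS ((hmemS 1).mpr (by rw [map_one]; exact U.one_mem))
      (by
        intro a ha b hb
        rw [hmemS] at ha hb ⊢
        rw [map_mul]
        exact U.mul_mem ha hb)
      (by
        intro a ha
        rw [hmemS] at ha
        apply hφ
        rw [map_mul, hsq _ ha, map_one])
    have hU' : ∀ K : Subgroup (DihedralGroup 4), (∀ x, x ∈ S ↔ x ∈ K) → U = K.map φ := by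
      intro K hKS
      ext g
      constructor
      · intro hg
        refine ⟨e ⟨g, hU hg⟩, ?_, ?_⟩
        · rw [SetLike.mem_coe, ← hKS, hmemS]
          change (((e.symm (e ⟨g, hU hg⟩)) : (T : Subgroup G)) : G) ∈ U
          rw [MulEquiv.symm_apply_apply]
          exact hg
        · change (((e.symm (e ⟨g, hU hg⟩)) : (T : Subgroup G)) : G) = g
          rw [MulEquiv.symm_apply_apply]
      · rintro ⟨x, hx, rfl⟩
        rw [SetLike.mem_coe, ← hKS, hmemS] at hx
        exact hx
    rcases hS with hS | hS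
    · left
      apply hU'
      intro x
      rw [hS, mem_K0]
    · right
      apply hU'
      intro x
      rw [hS, mem_K1]

/-- A Sylow subgroup normalizes its Klein four-subgroups. -/
theorem le_normalizer_klein (h : Nat.card G = 168) (T : Sylow 2 G) {U : Subgroup G} (hU : U ≤ T) (hK : IsKleinFour U) :
    (T : Subgroup G) ≤ Subgroup.normalizer (U : Set G) := by
  have hcU : Nat.card U = 4 := hK.card_four
  have hcT := card_sylow_two_of h T
  have hsub : Nat.card (U.subgroupOf (T : Subgroup G)) = 4 := by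
    rw [← hcU]
    exact Nat.card_congr (Subgroup.subgroupOfEquivOfLe hU).toEquiv
  have hidx : (U.subgroupOf (T : Subgroup G)).index = 2 := by
    have := Subgroup.card_mul_index (U.subgroupOf (T : Subgroup G))
    rw [hsub, hcT] at this
    omega
  have hn := Subgroup.normal_of_index_eq_two hidx
  intro x hx
  have key : ∀ y ∈ (T : Subgroup G), ∀ u ∈ U, y * u * y⁻¹ ∈ U := by
    intro y hy u hu
    have h1 : (⟨u, hU hu⟩ : (T : Subgroup G)) ∈ U.subgroupOf (T : Subgroup G) := Subgroup.mem_subgroupOf.mpr hu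
    have h2 := hn.conj_mem _ h1 ⟨y, hy⟩
    exact Subgroup.mem_subgroupOf.mp h2
  rw [Subgroup.mem_normalizer_iff]
  intro u
  constructor
  · exact key x hx u
  · intro hu
    have := key x⁻¹ (T.1.inv_mem hx) _ hu
    have e : x⁻¹ * (x * u * x⁻¹) * x⁻¹⁻¹ = u := by group
    rwa [e] at this

/-- The two Klein four-subgroups of a Sylow subgroup are not conjugate. -/
theorem klein_not_conj (h : Nat.card G = 168) (T : Sylow 2 G) {U W : Subgroup G} (hU : U ≤ T) (hW : W ≤ T)
    (hKU : IsKleinFour U) (hKW : IsKleinFour W) (hne : U ≠ W) (g : G) : U.map (MulAut.conj g).toMonoidHom ≠ W := by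
  intro heq
  have hmem : ∀ x, x ∈ W ↔ g⁻¹ * x * g ∈ U := by
    intro x
    rw [← heq]
    constructor
    · rintro ⟨u, hu, rfl⟩
      have : g⁻¹ * (MulAut.conj g).toMonoidHom u * g = u := by
        simp only [MulEquiv.coe_toMonoidHom, MulAut.conj_apply]
        group
      rw [this]
      exact hu
    · intro hx
      refine ⟨_, hx, ?_⟩
      simp [MulAut.conj_apply, mul_assoc]
  -- `g T g⁻¹` normalizes `W`
  have hN1 := le_normalizer_klein h T hW hKW
  have hN2 := le_normalizer_klein h T hU hKU
  have hgT : IsPGroup 2 ((g • T : Sylow 2 G) : Subgroup G) := (g • T).isPGroup'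
  have hle : ((g • T : Sylow 2 G) : Subgroup G) ≤ Subgroup.normalizer (W : Set G) := by
    intro x hx
    rw [mem_smul_sylow] at hx
    have h3 := (Subgroup.mem_normalizer_iff.mp (hN2 hx))
    rw [Subgroup.mem_normalizer_iff]
    intro v
    rw [hmem v, hmem (x * v * x⁻¹), h3 (g⁻¹ * v * g)]
    have e : g⁻¹ * x * g * (g⁻¹ * v * g) * (g⁻¹ * x * g)⁻¹ = g⁻¹ * (x * v * x⁻¹) * g := by group
    rw [e]
  obtain ⟨n, hn, hle2⟩ := exists_le_smul_sylow (Subgroup.normalizer (W : Set G)) T hN1 _ hgT hle
  have heq2 : g • T = n • T := by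
    apply Sylow.ext
    apply Subgroup.eq_of_le_of_card_ge hle2
    rw [card_sylow_eq (n • T) (g • T)]
  have hk : n⁻¹ * g ∈ (T : Subgroup G) := by
    rw [← (syl2 h T).2.2]
    apply (smul_eq_iff_mem_nrm T _).mp
    rw [mul_smul, heq2, inv_smul_smul]
  apply hne
  -- `k = n⁻¹ g` normalizes `U`; hence `U ≤ W`
  set k := n⁻¹ * g with hkdef
  have hnk := Subgroup.mem_normalizer_iff.mp (hN2 hk)
  have hsub : U ≤ W := by
    intro u hu
    have hv : k⁻¹ * u * k ∈ U := by
      have h6 := Subgroup.mem_normalizer_iff.mp (Subgroup.inv_mem _ (hN2 hk)) u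
      have h7 := h6.mp hu
      simpa using h7
    have hg : g * (k⁻¹ * u * k) * g⁻¹ ∈ W := by
      rw [hmem]
      have e : g⁻¹ * (g * (k⁻¹ * u * k) * g⁻¹) * g = k⁻¹ * u * k := by group
      rw [e]
      exact hv
    have h8 := (Subgroup.mem_normalizer_iff.mp (Subgroup.inv_mem _ hn) _).mp hg
    have e2 : n⁻¹ * (g * (k⁻¹ * u * k) * g⁻¹) * n⁻¹⁻¹ = u := by
      rw [hkdef]
      group
    rwa [e2] at h8
  exact Subgroup.eq_of_le_of_card_ge hsub (by rw [hKU.card_four, hKW.card_four])

/-- Normalizers of Klein four-groups have order `24`. -/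
theorem card_normalizer_klein (h : Nat.card G = 168) {U : Subgroup G} (hK : IsKleinFour U) :
    Nat.card (Subgroup.normalizer (U : Set G)) = 24 := by
  classical
  have hcU : Nat.card U = 4 := hK.card_four
  have hpU : IsPGroup 2 U := by
    rw [IsPGroup.iff_card, hcU]
    exact ⟨2, by norm_num⟩
  obtain ⟨T, hUT⟩ := hpU.exists_le_sylow
  have hTN := le_normalizer_klein h T hUT hK
  have h8 : 8 ∣ Nat.card (Subgroup.normalizer (U : Set G)) := by
    rw [← card_sylow_two_of h T]
    exact Subgroup.card_dvd_of_le hTN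
  have hd : Nat.card (Subgroup.normalizer (U : Set G)) ∣ 168 := by
    rw [← h]
    exact Subgroup.card_subgroup_dvd_card _
  have hne : Subgroup.normalizer (U : Set G) ≠ ⊤ := by
    intro htop
    haveI hnorm : U.Normal := Subgroup.normalizer_eq_top_iff.mp htop
    rcases hnorm.eq_bot_or_eq_top with hb | ht
    · rw [hb] at hcU
      simp at hcU
    · rw [ht, Subgroup.card_top, h] at hcU
      omega
  have hidx := index_ge_seven h _ hne
  have hmul := Subgroup.card_mul_index (Subgroup.normalizer (U : Set G))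
  rw [h] at hmul
  have hle : Nat.card (Subgroup.normalizer (U : Set G)) ≤ 24 := by
    by_contra hgt
    push Not at hgt
    nlinarith
  obtain ⟨a, b, c, ha, hb, hc, ha1, hb1, hc1, hab, hac, hbc, hall, hsq⟩ := Cfsg.Agent.Lib.KleinSylow.klein_elements U hK
  obtain ⟨z, hzT, hz, hzc⟩ := exists_central_involution h T
  -- an element of `U` different from the central involution of `T`
  obtain ⟨u, huU, hu1, huz⟩ : ∃ u ∈ U, u ≠ 1 ∧ u ≠ z := by
    by_cases haz : a = z
    · exact ⟨b, hb, hb1, fun h0 => hab (haz.trans h0.symm)⟩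
    · exact ⟨a, ha, ha1, haz⟩
  have huo : orderOf u = 2 := Cfsg.Agent.Lib.KleinSylow.orderOf_two_of_sq (hsq u huU) hu1
  have hCu : Nat.card (Subgroup.centralizer ({u} : Set G)) = 8 := by
    have hz1 : z ≠ 1 := by
      rintro rfl
      rw [orderOf_one] at hz
      omega
    have h1 := card_centralizer_eq_of_conj h (involutions_conj h T hzT hz hzc huo)
    rw [← h1, centralizer_eq_of_central h T hzT hz1 hzc, card_sylow_two_of h T]
  have hp : IsPGroup 2 (Subgroup.centralizer ({u} : Set G)) := by
    rw [IsPGroup.iff_card, hCu]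
    exact ⟨3, by norm_num⟩
  obtain ⟨Q, hQ⟩ := hp.exists_le_sylow
  have hQe : Subgroup.centralizer ({u} : Set G) = Q :=
    Subgroup.eq_of_le_of_card_ge hQ (by rw [hCu, card_sylow_two_of h Q])
  have hUQ : U ≤ (Q : Subgroup G) := by
    rw [← hQe]
    intro x hx
    rw [Subgroup.mem_centralizer_iff]
    intro y hy
    rw [Set.mem_singleton_iff.mp hy]
    exact comm_of_card_eq_sq (p := 2) U hcU huU hx
  have hQN := le_normalizer_klein h Q hUQ hK
  -- cases
  have hcases : Nat.card (Subgroup.normalizer (U : Set G)) = 8 ∨ Nat.card (Subgroup.normalizer (U : Set G)) = 24 := by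
    obtain ⟨k, hk⟩ := h8
    have hk3 : k ≤ 3 := by omega
    have hk0 : 1 ≤ k := by
      by_contra hlt
      have h0 : k = 0 := by omega
      subst h0
      have := Nat.card_pos (α := Subgroup.normalizer (U : Set G))
      omega
    rw [hk] at hd
    interval_cases k
    · left; omega
    · exfalso
      revert hd
      norm_num
    · right; omega
  rcases hcases with h8' | h24
  · exfalso
    have hTe : (T : Subgroup G) = Subgroup.normalizer (U : Set G) :=
      Subgroup.eq_of_le_of_card_ge hTN (by rw [h8', card_sylow_two_of h T])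
    have hQe' : (Q : Subgroup G) = Subgroup.normalizer (U : Set G) :=
      Subgroup.eq_of_le_of_card_ge hQN (by rw [h8', card_sylow_two_of h Q])
    have hTQ : (T : Subgroup G) = Q := hTe.trans hQe'.symm
    apply huz
    apply sylow_central_unique h T (hUT huU) hzT hu1
    · rintro rfl
      rw [orderOf_one] at hz
      omega
    · intro t ht
      have h5 : t ∈ Subgroup.centralizer ({u} : Set G) := by
        rw [hQe, ← hTQ]
        exact ht
      exact ((Subgroup.mem_centralizer_iff.mp h5) u rfl).symm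
    · exact hzc
  · exact h24

/-- Normalizers of Klein four-groups are symmetric groups. -/
theorem normalizer_klein_iso (h : Nat.card G = 168) {U : Subgroup G} (hK : IsKleinFour U) :
    Nonempty (Subgroup.normalizer (U : Set G) ≃* Equiv.Perm (Fin 4)) := by
  apply Cfsg.Agent.S1012.result (card_normalizer_klein h hK)
  intro g hg
  rw [Subgroup.orderOf_coe g |>.symm] at hg
  rcases order_all h (g : G) with h1 | h1 | h1 | h1 | h1 <;> omega

theorem card_klein_eq (h : Nat.card G = 168) (T : Sylow 2 G) :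
    Nat.card {U : Subgroup G // U ≤ (T : Subgroup G) ∧ IsKleinFour U} = 2 := by
  obtain ⟨A₀, A₁, hne, h0, h1, hk0, hk1, hall⟩ := klein_in_sylow h T
  rw [Nat.card_eq_two_iff]
  refine ⟨⟨A₀, h0, hk0⟩, ⟨A₁, h1, hk1⟩, ?_, ?_⟩
  · intro h2
    exact hne (congrArg Subtype.val h2)
  · ext ⟨U, hU, hK⟩
    simp only [Set.mem_insert_iff, Set.mem_singleton_iff, Set.mem_univ, iff_true, Subtype.mk.injEq]
    exact hall U hU hK

end Main3

end Cfsg.Agent.Lib.H1L168
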