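import Cfsg.Agent.Lib.H1L168c

/-!
# Simple group of order 168: maximal subgroups
-/

set_option autoImplicit false
set_option linter.unusedVariables false
set_option linter.unusedSectionVars false
set_option linter.style.longLine false

namespace Cfsg.Agent.Lib.H1L168

open Cfsg.Agent.Lib.H1Small

section S4

/-- Predicate for the Klein four-subgroup of `S₄`. -/
def kP (x : Equiv.Perm (Fin 4)) : Prop := x * x = 1 ∧ (x = 1 ∨ ∀ i, x i ≠ i)

instance (x : Equiv.Perm (Fin 4)) : Decidable (kP x) := by
  unfold kP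
  infer_instance

theorem kP_mul : ∀ a b : Equiv.Perm (Fin 4), kP a → kP b → kP (a * b) := by decide +kernel
theorem kP_one : kP 1 := by decide
theorem kP_inv : ∀ a : Equiv.Perm (Fin 4), kP a → kP a⁻¹ := by decide +kernel
theorem kP_conj : ∀ g a : Equiv.Perm (Fin 4), kP a → kP (g * a * g⁻¹) := by decide +kernel
theorem kP_card : Fintype.card {x : Equiv.Perm (Fin 4) // kP x} = 4 := by decide +kernel

/-- The normal Klein four-subgroup of `S₄`. -/
def V4 : Subgroup (Equiv.Perm (Fin 4)) where
  carrier := {x | kP x}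
  mul_mem' := fun {a b} ha hb => kP_mul a b ha hb
  one_mem' := kP_one
  inv_mem' := fun {a} ha => kP_inv a ha

theorem card_V4 : Nat.card V4 = 4 := by
  change Nat.card {x // kP x} = 4
  rw [Nat.card_eq_fintype_card]
  exact kP_card

/-- An element of order 3 of `S₄` is inverted by some element. -/
theorem s4_invert : ∀ y : Equiv.Perm (Fin 4), y ^ 3 = 1 → y ≠ 1 → ∃ s : Equiv.Perm (Fin 4), s * y * s⁻¹ = y⁻¹ := by
  decide +kernel

end S4

section Main4

variable {G : Type*} [Group G] [Finite G] [IsSimpleGroup G]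

theorem card_le_of_ne_top (h : Nat.card G = 168) (M : Subgroup G) (hM : M ≠ ⊤) : Nat.card M ≤ 24 := by
  have h1 := index_ge_seven h M hM
  have h2 := Subgroup.card_mul_index M
  rw [h] at h2
  by_contra hgt
  push Not at hgt
  nlinarith

theorem coatom_of_card (h : Nat.card G = 168) (M : Subgroup G) (hM : Nat.card M = 21 ∨ Nat.card M = 24) : IsCoatom M := by
  have hne : M ≠ ⊤ := by
    rintro rfl
    rw [Subgroup.card_top, h] at hM
    omega
  refine ⟨hne, ?_⟩
  intro K hK
  by_contra hKtop
  have h1 := card_le_of_ne_top h K hKtop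
  have h2 := Subgroup.card_dvd_of_le hK.le
  have h3 : Nat.card M ≠ Nat.card K := by
    intro h4
    exact hK.ne (Subgroup.eq_of_le_of_card_ge hK.le h4.ge)
  have hpos : 0 < Nat.card K := Nat.card_pos
  have h5 := Nat.le_of_dvd hpos h2
  rcases hM with h6 | h6 <;> rw [h6] at h2 h3 h5
  · obtain ⟨k, hk⟩ := h2
    have hk1 : k = 1 := by
      by_contra hne1
      have : k = 0 ∨ 2 ≤ k := by omega
      rcases this with rfl | h7
      · omega
      · nlinarith
    subst hk1
    omega
  · omega

/-- Conjugate subgroups: normalizer of a conjugate. -/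
theorem normalizer_map_conj (U : Subgroup G) (g : G) :
    Subgroup.normalizer ((U.map (MulAut.conj g).toMonoidHom : Subgroup G) : Set G) =
      (Subgroup.normalizer (U : Set G)).map (MulAut.conj g).toMonoidHom := by
  have hmem : ∀ x, x ∈ U.map (MulAut.conj g).toMonoidHom ↔ g⁻¹ * x * g ∈ U := by
    intro x
    constructor
    · rintro ⟨u, hu, rfl⟩
      have : g⁻¹ * (MulAut.conj g).toMonoidHom u * g = u := by
        simp only [MulEquiv.coe_toMonoidHom, MulAut.conj_apply]
        group
      rw [this]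
      exact hu
    · intro hx
      refine ⟨_, hx, ?_⟩
      simp only [MulEquiv.coe_toMonoidHom, MulAut.conj_apply]
      group
  ext z
  rw [Subgroup.mem_normalizer_iff]
  constructor
  · intro hz
    refine ⟨g⁻¹ * z * g, ?_, ?_⟩
    · rw [SetLike.mem_coe, Subgroup.mem_normalizer_iff]
      intro u
      have h1 := hz (g * u * g⁻¹)
      rw [hmem, hmem] at h1
      have e1 : g⁻¹ * (g * u * g⁻¹) * g = u := by group
      have e2 : g⁻¹ * (z * (g * u * g⁻¹) * z⁻¹) * g = g⁻¹ * z * g * u * (g⁻¹ * z * g)⁻¹ := by group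
      rwa [e1, e2] at h1
    · simp only [MulEquiv.coe_toMonoidHom, MulAut.conj_apply]
      group
  · rintro ⟨n, hn, rfl⟩ x
    have hn' := Subgroup.mem_normalizer_iff.mp hn (g⁻¹ * x * g)
    rw [hmem, hmem, hn']
    simp only [MulEquiv.coe_toMonoidHom, MulAut.conj_apply]
    have e : g * n * g⁻¹ * x * (g * n * g⁻¹)⁻¹ = g * (n * (g⁻¹ * x * g) * n⁻¹) * g⁻¹ := by group
    rw [e]
    have e2 : g⁻¹ * (g * (n * (g⁻¹ * x * g) * n⁻¹) * g⁻¹) * g = n * (g⁻¹ * x * g) * n⁻¹ := by group
    rw [e2]

theorem card_map_conj (U : Subgroup G) (g : G) : Nat.card (U.map (MulAut.conj g).toMonoidHom) = Nat.card U :=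
  Nat.card_congr (Subgroup.equivMapOfInjective U _ (MulAut.conj g).injective).toEquiv.symm

/-- The Klein four-group of a copy of `S₄`. -/
theorem exists_klein_of_iso (h : Nat.card G = 168) (M : Subgroup G) (e : M ≃* Equiv.Perm (Fin 4)) :
    ∃ K : Subgroup G, IsKleinFour K ∧ M = Subgroup.normalizer (K : Set G) := by
  classical
  let φ : Equiv.Perm (Fin 4) →* G := M.subtype.comp e.symm.toMonoidHom
  have hφ : Function.Injective φ := by
    intro a b hab
    exact e.symm.injective (Subtype.ext hab)
  have hφM : ∀ x, φ x ∈ M := fun x => (e.symm x).2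
  let K := V4.map φ
  have hKc : Nat.card K = 4 := by
    rw [← card_V4]
    exact Nat.card_congr (Subgroup.equivMapOfInjective V4 φ hφ).toEquiv.symm
  have hKk : IsKleinFour K := by
    apply Cfsg.Agent.Lib.QD.isKleinFour_of hKc
    rintro _ ⟨x, hx, rfl⟩
    rw [← map_mul, hx.1, map_one]
  refine ⟨K, hKk, ?_⟩
  have hle : M ≤ Subgroup.normalizer (K : Set G) := by
    intro m hm
    have key : ∀ n ∈ M, ∀ u ∈ K, n * u * n⁻¹ ∈ K := by
      rintro n hn _ ⟨x, hx, rfl⟩
      refine ⟨e ⟨n, hn⟩ * x * (e ⟨n, hn⟩)⁻¹, kP_conj _ _ hx, ?_⟩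
      simp only [map_mul, map_inv]
      congr 2
      · change ((e.symm (e ⟨n, hn⟩) : M) : G) = n
        rw [MulEquiv.symm_apply_apply]
      · congr 1
        change ((e.symm (e ⟨n, hn⟩) : M) : G) = n
        rw [MulEquiv.symm_apply_apply]
    rw [Subgroup.mem_normalizer_iff]
    intro u
    constructor
    · exact key m hm u
    · intro hu
      have := key m⁻¹ (M.inv_mem hm) _ hu
      have e' : m⁻¹ * (m * u * m⁻¹) * m⁻¹⁻¹ = u := by group
      rwa [e'] at this
  have hcM : Nat.card M = 24 := by
    rw [Nat.card_congr e.toEquiv, Nat.card_perm]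
    simp [Nat.factorial]
  exact Subgroup.eq_of_le_of_card_ge hle (by rw [card_normalizer_klein h hKk, hcM])

/-- A conjugacy statement for Klein four-groups. -/
theorem klein_unique (h : Nat.card G = 168) {A B : Subgroup G} (hA : IsKleinFour A) (hB : IsKleinFour B)
    (hN : Subgroup.normalizer (A : Set G) = Subgroup.normalizer (B : Set G)) : A = B := by
  classical
  by_contra hne
  have hcA : Nat.card A = 4 := hA.card_four
  have hcB : Nat.card B = 4 := hB.card_four
  have hpA : IsPGroup 2 A := by
    rw [IsPGroup.iff_card, hcA]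
    exact ⟨2, by norm_num⟩
  have hpB : IsPGroup 2 B := by
    rw [IsPGroup.iff_card, hcB]
    exact ⟨2, by norm_num⟩
  obtain ⟨T, hAT⟩ := hpA.exists_le_sylow
  have hTW := le_normalizer_klein h T hAT hA
  rw [hN] at hTW
  have hBW : B ≤ Subgroup.normalizer (B : Set G) := Subgroup.le_normalizer
  obtain ⟨n, hn, hBn⟩ := exists_le_smul_sylow (Subgroup.normalizer (B : Set G)) T hTW B hpB hBW
  have hBT : B ≤ (T : Subgroup G) := by
    intro b hb
    have h1 : n * b * n⁻¹ ∈ B := (Subgroup.mem_normalizer_iff.mp hn b).mp hb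
    have h2 := hBn h1
    rw [mem_smul_sylow] at h2
    have e : n⁻¹ * (n * b * n⁻¹) * n = b := by group
    rwa [e] at h2
  -- every element of the normalizer normalizes `T`
  have hW : Subgroup.normalizer (B : Set G) ≤ (T : Subgroup G) := by
    intro k hk
    have hAk : k ∈ Subgroup.normalizer (A : Set G) := by rw [hN]; exact hk
    have hI1 : A ≤ (T : Subgroup G) ⊓ ((k • T : Sylow 2 G) : Subgroup G) := by
      intro a ha
      refine ⟨hAT ha, ?_⟩
      show a ∈ ((k • T : Sylow 2 G) : Subgroup G)
      rw [mem_smul_sylow]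
      apply hAT
      have h1 := (Subgroup.mem_normalizer_iff.mp (Subgroup.inv_mem _ hAk) a).mp ha
      simpa using h1
    have hI2 : B ≤ (T : Subgroup G) ⊓ ((k • T : Sylow 2 G) : Subgroup G) := by
      intro a ha
      refine ⟨hBT ha, ?_⟩
      show a ∈ ((k • T : Sylow 2 G) : Subgroup G)
      rw [mem_smul_sylow]
      apply hBT
      have h1 := (Subgroup.mem_normalizer_iff.mp (Subgroup.inv_mem _ hk) a).mp ha
      simpa using h1
    set I := (T : Subgroup G) ⊓ ((k • T : Sylow 2 G) : Subgroup G) with hI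
    have hId : Nat.card I ∣ 8 := by
      rw [← card_sylow_two_of h T]
      exact Subgroup.card_dvd_of_le inf_le_left
    have hAd : 4 ∣ Nat.card I := by
      rw [← hcA]
      exact Subgroup.card_dvd_of_le hI1
    have hI8 : Nat.card I = 8 := by
      have h1 : Nat.card I ≤ 8 := Nat.le_of_dvd (by norm_num) hId
      have h2 : 4 ≤ Nat.card I := Nat.le_of_dvd Nat.card_pos hAd
      have h3 : Nat.card I ≠ 4 := by
        intro h4
        have e1 : A = I := Subgroup.eq_of_le_of_card_ge hI1 (by rw [h4, hcA])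
        have e2 : B = I := Subgroup.eq_of_le_of_card_ge hI2 (by rw [h4, hcB])
        exact hne (e1.trans e2.symm)
      interval_cases hh : Nat.card I <;> omega
    have hT1 : (T : Subgroup G) = I :=
      (Subgroup.eq_of_le_of_card_ge (inf_le_left : I ≤ (T : Subgroup G)) (by rw [hI8, card_sylow_two_of h T])).symm
    have hT2 : ((k • T : Sylow 2 G) : Subgroup G) = I :=
      (Subgroup.eq_of_le_of_card_ge (inf_le_right : I ≤ ((k • T : Sylow 2 G) : Subgroup G)) (by
        rw [hI8, card_sylow_eq (k • T) T, card_sylow_two_of h T])).symm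
    have hk' : k • T = T := Sylow.ext (hT2.trans hT1.symm)
    rw [← (syl2 h T).2.2]
    exact (smul_eq_iff_mem_nrm T k).mp hk'
  have h8 := Nat.le_of_dvd (by rw [card_sylow_two_of h T]; norm_num) (Subgroup.card_dvd_of_le hW)
  rw [card_normalizer_klein h hB, card_sylow_two_of h T] at h8
  omega

end Main4

end Cfsg.Agent.Lib.H1L168
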