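import Cfsg.Agent.Lib.H1L168d
import Cfsg.Agent.S1012

/-!
# Simple group of order 168: subgroups contained in maximal subgroups
-/

set_option autoImplicit false
set_option linter.unusedVariables false
set_option linter.unusedSectionVars false
set_option linter.style.longLine false

namespace Cfsg.Agent.Lib.H1L168

open Cfsg.Agent.Lib.H1Small

section Main5

variable {G : Type*} [Group G] [Finite G] [IsSimpleGroup G]

/-- A conjugate of a Klein four-group is a Klein four-group. -/
theorem klein_map_conj {A : Subgroup G} (hk0 : IsKleinFour A) (g : G) :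
    IsKleinFour (A.map (MulAut.conj g).toMonoidHom) := by
  have hcc : Nat.card (A.map (MulAut.conj g).toMonoidHom) = 4 := by
    rw [card_map_conj]
    exact hk0.card_four
  apply Cfsg.Agent.Lib.QD.isKleinFour_of hcc
  rintro _ ⟨x, hx, rfl⟩
  have hx2 : x * x = 1 := by
    have h1 := Monoid.pow_exponent_eq_one (⟨x, hx⟩ : A)
    rw [hk0.exponent_two, pow_two] at h1
    exact congrArg Subtype.val h1
  rw [← map_mul, hx2, map_one]

/-- If `M` has a unique Sylow `p`-subgroup, and the Sylow `p`-subgroups of `G` have order `p`,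
then `M` contains and normalizes a Sylow `p`-subgroup of `G`. -/
theorem exists_sylow_normalized {p : ℕ} [hp : Fact p.Prime]
    (hall : ∀ P : Sylow p G, Nat.card (P : Subgroup G) = p)
    (M : Subgroup G) (hd : p ∣ Nat.card M) (hu : Nat.card (Sylow p M) = 1) :
    ∃ P : Sylow p G, (P : Subgroup G) ≤ M ∧ M ≤ Subgroup.normalizer ((P : Subgroup G) : Set G) := by
  classical
  obtain ⟨Q⟩ : Nonempty (Sylow p M) := inferInstance
  haveI hs : Subsingleton (Sylow p M) := (Nat.card_eq_one_iff_unique.mp hu).1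
  have hQn : (Q : Subgroup M).Normal := Q.normal_of_subsingleton
  have hQ'p : IsPGroup p ((Q : Subgroup M).map M.subtype) := Q.isPGroup'.map M.subtype
  obtain ⟨P, hP⟩ := hQ'p.exists_le_sylow
  have hcQ : Nat.card ((Q : Subgroup M).map M.subtype) = Nat.card (Q : Subgroup M) :=
    Nat.card_congr (Subgroup.equivMapOfInjective (Q : Subgroup M) M.subtype M.subtype_injective).toEquiv.symm
  have hne : (Q : Subgroup M) ≠ ⊥ := Q.ne_bot_of_dvd_card hd
  have hcne : Nat.card (Q : Subgroup M) ≠ 1 := by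
    intro h1
    exact hne (Subgroup.card_eq_one.mp h1)
  have hdv : Nat.card ((Q : Subgroup M).map M.subtype) ∣ p :=
    (Subgroup.card_dvd_of_le hP).trans (hall P).dvd
  have heq : (Q : Subgroup M).map M.subtype = P := by
    apply Subgroup.eq_of_le_of_card_ge hP
    rw [hall P]
    rcases (Nat.dvd_prime hp.out).mp hdv with h1 | h1
    · rw [hcQ] at h1
      exact absurd h1 hcne
    · exact h1.ge
  refine ⟨P, ?_, ?_⟩
  · rw [← heq]
    exact Subgroup.map_subtype_le _
  · intro m hm
    rw [Subgroup.mem_normalizer_iff]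
    intro x
    have key : ∀ n ∈ M, ∀ u ∈ (P : Subgroup G), n * u * n⁻¹ ∈ (P : Subgroup G) := by
      intro n hn u hu
      rw [← heq] at hu ⊢
      obtain ⟨v, hv, rfl⟩ := hu
      exact ⟨⟨n, hn⟩ * v * (⟨n, hn⟩ : M)⁻¹, hQn.conj_mem v hv _, rfl⟩
    constructor
    · exact key m hm x
    · intro hx
      have := key m⁻¹ (M.inv_mem hm) _ hx
      have e' : m⁻¹ * (m * x * m⁻¹) * m⁻¹⁻¹ = x := by group
      rwa [e'] at this

/-- A maximal subgroup of order divisible by 7 is the normalizer of a Sylow 7-subgroup. -/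
theorem coatom_seven (h : Nat.card G = 168) (M : Subgroup G) (hM : IsCoatom M) (h7 : 7 ∣ Nat.card M) :
    ∃ P : Sylow 7 G, M = Subgroup.normalizer ((P : Subgroup G) : Set G) := by
  have hle := card_le_of_ne_top h M hM.1
  obtain ⟨m, hm⟩ := h7
  have hm3 : m ≤ 3 := by omega
  have hm0 : m ≠ 0 := by
    rintro rfl
    have := Nat.card_pos (α := M)
    omega
  have hdv : Nat.card M ∣ 168 := by
    rw [← h]
    exact Subgroup.card_subgroup_dvd_card M
  have hcM : Nat.card M = 7 ^ 1 * m := by rw [hm]; ring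
  have hm7 : ¬ 7 ∣ m := by omega
  obtain ⟨Q⟩ : Nonempty (Sylow 7 M) := inferInstance
  obtain ⟨h1, h2, h3, h4⟩ := sylow_data (p := 7) 1 m hcM hm7 Q
  have hu : Nat.card (Sylow 7 M) = 1 := by
    have := Nat.le_of_dvd (by omega) h2
    omega
  obtain ⟨P, hPM, hMP⟩ := exists_sylow_normalized (fun P => (syl7 h P).1) M ⟨m, hm⟩ hu
  refine ⟨P, ?_⟩
  have hne : Subgroup.normalizer ((P : Subgroup G) : Set G) ≠ ⊤ := by
    intro ht
    have := (syl7 h P).2.2.1
    rw [ht, Subgroup.card_top, h] at this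
    omega
  by_contra hne2
  exact hne (hM.2 _ (lt_of_le_of_ne hMP hne2))

/-- The normalizer of a Sylow 7-subgroup is non-abelian of order 21. -/
theorem normalizer_seven_noncomm (h : Nat.card G = 168) (P : Sylow 7 G) :
    ¬ IsMulCommutative (Subgroup.normalizer ((P : Subgroup G) : Set G)) := by
  intro hc
  have hle : Subgroup.normalizer ((P : Subgroup G) : Set G) ≤ Subgroup.centralizer ((P : Subgroup G) : Set G) := by
    intro x hx
    rw [Subgroup.mem_centralizer_iff]
    intro y hy
    have hy' : y ∈ Subgroup.normalizer ((P : Subgroup G) : Set G) := Subgroup.le_normalizer hy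
    have := hc.is_comm.comm (⟨y, hy'⟩ : Subgroup.normalizer ((P : Subgroup G) : Set G)) ⟨x, hx⟩
    exact congrArg Subtype.val this
  have h1 := hle.trans (syl7 h P).2.2.2
  have h2 := Nat.le_of_dvd Nat.card_pos (Subgroup.card_dvd_of_le h1)
  rw [(syl7 h P).2.2.1, (syl7 h P).1] at h2
  omega

/-- The normalizer of every Sylow 3-subgroup lies in the normalizer of a Klein four-group. -/
theorem normalizer_three_le (h : Nat.card G = 168) (P : Sylow 3 G) :
    ∃ K : Subgroup G, IsKleinFour K ∧ Subgroup.normalizer ((P : Subgroup G) : Set G) ≤ Subgroup.normalizer (K : Set G) := by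
  classical
  obtain ⟨T⟩ : Nonempty (Sylow 2 G) := inferInstance
  obtain ⟨A₀, -, -, -, -, hk0, -, -⟩ := klein_in_sylow h T
  obtain ⟨e⟩ := normalizer_klein_iso h hk0
  set W := Subgroup.normalizer (A₀ : Set G) with hW
  let φ : Equiv.Perm (Fin 4) →* G := W.subtype.comp e.symm.toMonoidHom
  have hφ : Function.Injective φ := by
    intro a b hab
    exact e.symm.injective (Subtype.ext hab)
  have hφW : ∀ x, φ x ∈ W := fun x => (e.symm x).2
  -- a 3-cycle
  let c : Equiv.Perm (Fin 4) := Equiv.swap 0 1 * Equiv.swap 1 2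
  have hc3 : c ^ 3 = 1 := by decide
  have hc1 : c ≠ 1 := by decide
  have hoc : orderOf c = 3 := orderOf_eq_prime hc3 hc1
  obtain ⟨s, hs⟩ := s4_invert c hc3 hc1
  set y := φ c with hy
  have hoy : orderOf y = 3 := by
    rw [hy, orderOf_injective φ hφ, hoc]
  obtain ⟨Q, hQ⟩ := (isPGroup_zpowers_of_orderOf hoy).exists_le_sylow
  have hcQ := (syl3 h Q).1
  have hQz : Subgroup.zpowers y = (Q : Subgroup G) := by
    apply Subgroup.eq_of_le_of_card_ge hQ
    rw [hcQ, Nat.card_zpowers, hoy]
  have hQW : (Q : Subgroup G) ≤ W := by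
    rw [← hQz, Subgroup.zpowers_le]
    exact hφW c
  have hsN : φ s ∈ Subgroup.normalizer ((Q : Subgroup G) : Set G) := by
    rw [Subgroup.mem_normalizer_iff]
    have hconj : φ s * y * (φ s)⁻¹ = y⁻¹ := by
      rw [hy, ← map_inv, ← map_mul, ← map_mul, hs, map_inv]
    have hconj2 : ∀ k : ℤ, φ s * y ^ k * (φ s)⁻¹ = (y ^ k)⁻¹ := by
      intro k
      have : φ s * y ^ k * (φ s)⁻¹ = (φ s * y * (φ s)⁻¹) ^ k := by
        rw [conj_zpow]
      rw [this, hconj, inv_zpow]
    intro x
    constructor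
    · intro hx
      rw [← hQz] at hx ⊢
      obtain ⟨k, rfl⟩ := Subgroup.mem_zpowers_iff.mp hx
      rw [hconj2]
      exact Subgroup.inv_mem _ (Subgroup.zpow_mem_zpowers y k)
    · intro hx
      rw [← hQz] at hx ⊢
      obtain ⟨k, hk⟩ := Subgroup.mem_zpowers_iff.mp hx
      have h1 : φ s * y ^ (-k) * (φ s)⁻¹ = φ s * x * (φ s)⁻¹ := by
        rw [hconj2, zpow_neg, inv_inv, hk]
      have h2 : y ^ (-k) = x := by
        have h3 : φ s * y ^ (-k) = φ s * x := mul_right_cancel h1
        exact mul_left_cancel h3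
      rw [← h2]
      exact Subgroup.zpow_mem_zpowers y _
  have hsQ : φ s ∉ (Q : Subgroup G) := by
    intro hmem
    rw [← hQz] at hmem
    obtain ⟨k, hk⟩ := Subgroup.mem_zpowers_iff.mp hmem
    have hcomm : φ s * y * (φ s)⁻¹ = y := by
      rw [← hk]
      have h9 : y ^ k * y = y * y ^ k := (Commute.refl y).zpow_left k
      rw [h9, mul_inv_cancel_right]
    have hconj : φ s * y * (φ s)⁻¹ = y⁻¹ := by
      rw [hy, ← map_inv, ← map_mul, ← map_mul, hs, map_inv]
    have hyy : y = y⁻¹ := hcomm.symm.trans hconj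
    have hy2 : y ^ 2 = 1 := by
      rw [pow_two]
      nth_rewrite 2 [hyy]
      exact mul_inv_cancel y
    have := orderOf_dvd_of_pow_eq_one hy2
    rw [hoy] at this
    omega
  -- `W ⊓ N(Q)` has order 6
  have hN6 := (syl3 h Q).2.2.1
  have hinf : Subgroup.normalizer ((Q : Subgroup G) : Set G) ≤ W := by
    set I := W ⊓ Subgroup.normalizer ((Q : Subgroup G) : Set G) with hI
    have hQI : (Q : Subgroup G) ≤ I := le_inf hQW Subgroup.le_normalizer
    have hlt : (Q : Subgroup G) < I := by
      refine lt_of_le_of_ne hQI ?_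
      intro heq
      apply hsQ
      rw [heq]
      exact ⟨hφW s, hsN⟩
    have hI6 : Nat.card I ∣ 6 := by
      rw [← hN6]
      exact Subgroup.card_dvd_of_le inf_le_right
    have h3I : 3 ∣ Nat.card I := by
      rw [← hcQ]
      exact Subgroup.card_dvd_of_le hQI
    have hne3 : Nat.card I ≠ 3 := by
      intro h3
      exact hlt.ne (Subgroup.eq_of_le_of_card_ge hQI (by rw [h3, hcQ]))
    have hI66 : Nat.card I = 6 := by
      have h1 := Nat.le_of_dvd (by norm_num) hI6
      have h2 := Nat.card_pos (α := I)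
      interval_cases hh : Nat.card I <;> omega
    have : I = Subgroup.normalizer ((Q : Subgroup G) : Set G) :=
      Subgroup.eq_of_le_of_card_ge inf_le_right (by rw [hI66, hN6])
    rw [← this]
    exact inf_le_left
  -- conjugate
  obtain ⟨g, hg⟩ := MulAction.exists_smul_eq G Q P
  refine ⟨A₀.map (MulAut.conj g).toMonoidHom, ?_, ?_⟩
  · have hcc : Nat.card (A₀.map (MulAut.conj g).toMonoidHom) = 4 := by
      rw [card_map_conj]
      exact hk0.card_four
    apply Cfsg.Agent.Lib.QD.isKleinFour_of hcc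
    rintro _ ⟨x, hx, rfl⟩
    have hx2 : x * x = 1 := by
      have h1 := Monoid.pow_exponent_eq_one (⟨x, hx⟩ : A₀)
      rw [hk0.exponent_two, pow_two] at h1
      exact congrArg Subtype.val h1
    rw [← map_mul, hx2, map_one]
  · rw [normalizer_map_conj, ← hW]
    intro z hz
    refine ⟨g⁻¹ * z * g, ?_, ?_⟩
    · apply hinf
      rw [← hg] at hz
      have := (mem_nrm_smul Q g z).mp hz
      exact this
    · simp only [MulEquiv.coe_toMonoidHom, MulAut.conj_apply]
      group

/-- A subgroup of order 3 or 6 lies in the normalizer of a Klein four-group. -/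
theorem le_normalizer_of_three (h : Nat.card G = 168) (M : Subgroup G) (h3 : Nat.card M = 3 ∨ Nat.card M = 6) :
    ∃ K : Subgroup G, IsKleinFour K ∧ M ≤ Subgroup.normalizer (K : Set G) := by
  obtain ⟨m, hm, hm1⟩ : ∃ m, m ≤ 2 ∧ Nat.card M = 3 ^ 1 * m := by
    rcases h3 with h3 | h3
    · exact ⟨1, by norm_num, by rw [h3]; norm_num⟩
    · exact ⟨2, by norm_num, by rw [h3]; norm_num⟩
  have hm0 : m ≠ 0 := by
    rintro rfl
    rcases h3 with h3 | h3 <;> omega
  obtain ⟨Q⟩ : Nonempty (Sylow 3 M) := inferInstance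
  obtain ⟨h1, h2, h3', h4⟩ := sylow_data (p := 3) 1 m hm1 (by omega) Q
  have hu : Nat.card (Sylow 3 M) = 1 := by
    have := Nat.le_of_dvd (by omega) h2
    omega
  obtain ⟨P, hPM, hMP⟩ := exists_sylow_normalized (fun P => (syl3 h P).1) M ⟨m, by omega⟩ hu
  obtain ⟨K, hK, hle⟩ := normalizer_three_le h P
  exact ⟨K, hK, hMP.trans hle⟩

/-- A 2-subgroup lies in the normalizer of a Klein four-group. -/
theorem le_normalizer_of_two (h : Nat.card G = 168) (M : Subgroup G) (hM : IsPGroup 2 M) :
    ∃ K : Subgroup G, IsKleinFour K ∧ M ≤ Subgroup.normalizer (K : Set G) := by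
  obtain ⟨T, hT⟩ := hM.exists_le_sylow
  obtain ⟨A₀, -, -, h0, -, hk0, -, -⟩ := klein_in_sylow h T
  exact ⟨A₀, hk0, hT.trans (le_normalizer_klein h T h0 hk0)⟩

/-- A subgroup of order 12 lies in the normalizer of a Klein four-group. -/
theorem le_normalizer_of_twelve (h : Nat.card G = 168) (M : Subgroup G) (h12 : Nat.card M = 12) :
    ∃ K : Subgroup G, IsKleinFour K ∧ M ≤ Subgroup.normalizer (K : Set G) := by
  classical
  haveI : Fintype M := Fintype.ofFinite M
  have hm1 : Nat.card M = 3 ^ 1 * 4 := by rw [h12]; norm_num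
  obtain ⟨Q⟩ : Nonempty (Sylow 3 M) := inferInstance
  obtain ⟨h1, h2, h3', h4⟩ := sylow_data (p := 3) 1 4 hm1 (by norm_num) Q
  have hn : Nat.card (Sylow 3 M) = 1 ∨ Nat.card (Sylow 3 M) = 4 := by
    have h5 := Nat.le_of_dvd (by norm_num) h2
    interval_cases hh : Nat.card (Sylow 3 M) <;> omega
  rcases hn with hn | hn
  · exfalso
    obtain ⟨P, hPM, hMP⟩ := exists_sylow_normalized (fun P => (syl3 h P).1) M ⟨4, by omega⟩ hn
    have h5 := Nat.le_of_dvd (by rw [(syl3 h P).2.2.1]; norm_num) (Subgroup.card_dvd_of_le hMP)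
    rw [(syl3 h P).2.2.1, h12] at h5
    omega
  -- eight elements of order three
  have hall3 : ∀ R : Sylow 3 M, Nat.card (R : Subgroup M) = 3 := by
    intro R
    obtain ⟨h6, -, -, -⟩ := sylow_data (p := 3) 1 4 hm1 (by norm_num) R
    simpa using h6
  have hc8 : Nat.card {g : M // orderOf g = 3} = 8 := by
    rw [card_order_p hall3, hn]
  obtain ⟨V⟩ : Nonempty (Sylow 2 M) := inferInstance
  have hm2 : Nat.card M = 2 ^ 2 * 3 := by rw [h12]; norm_num
  obtain ⟨h6', -, -, -⟩ := sylow_data (p := 2) 2 3 hm2 (by norm_num) V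
  have h6 : Nat.card (V : Subgroup M) = 4 := by rw [h6']; norm_num
  -- elements of `V` are the elements of order not 3
  have hV3 : ∀ x ∈ (V : Subgroup M), orderOf x ≠ 3 := by
    intro x hx h9
    have := Subgroup.orderOf_dvd_natCard (V : Subgroup M) hx
    rw [h6, h9] at this
    omega
  have hcS : Nat.card {x : M // orderOf x ≠ 3} = 4 := by
    have h7 := Fintype.card_subtype_compl (fun x : M => orderOf x = 3)
    rw [Nat.card_eq_fintype_card] at hc8 h12
    rw [Nat.card_eq_fintype_card]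
    rw [hc8, h12] at h7
    exact h7
  have hVeq : ∀ x : M, orderOf x ≠ 3 → x ∈ (V : Subgroup M) := by
    let f : ↥(V : Subgroup M) → {x : M // orderOf x ≠ 3} := fun v => ⟨(v : M), hV3 v v.2⟩
    have hf : Function.Injective f := fun a b hab => Subtype.ext (congrArg (fun s : {x : M // orderOf x ≠ 3} => (s : M)) hab)
    haveI : Finite {x : M // orderOf x ≠ 3} := Subtype.finite
    have hb : Function.Bijective f := (Function.Injective.bijective_of_nat_card_le hf (by rw [hcS, h6]))
    intro x hx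
    obtain ⟨v, hv⟩ := hb.2 ⟨x, hx⟩
    have : (v : M) = x := congrArg (fun s : {x : M // orderOf x ≠ 3} => (s : M)) hv
    rw [← this]
    exact v.2
  have hVn : ∀ m v : M, v ∈ (V : Subgroup M) → m * v * m⁻¹ ∈ (V : Subgroup M) := by
    intro m v hv
    apply hVeq
    have h71 := MulEquiv.orderOf_eq (MulAut.conj m) v
    rw [MulAut.conj_apply] at h71
    rw [h71]
    exact hV3 v hv
  -- the image in `G`
  set K := (V : Subgroup M).map M.subtype with hK
  have hcK : Nat.card K = 4 := by
    rw [← h6]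
    exact Nat.card_congr (Subgroup.equivMapOfInjective (V : Subgroup M) M.subtype M.subtype_injective).toEquiv.symm
  have hKn : ∀ n ∈ M, ∀ u ∈ K, n * u * n⁻¹ ∈ K := by
    rintro n hn _ ⟨v, hv, rfl⟩
    exact ⟨⟨n, hn⟩ * v * (⟨n, hn⟩ : M)⁻¹, hVn _ _ hv, rfl⟩
  have hMN : M ≤ Subgroup.normalizer (K : Set G) := by
    intro m hm
    rw [Subgroup.mem_normalizer_iff]
    intro x
    constructor
    · exact hKn m hm x
    · intro hx
      have := hKn m⁻¹ (M.inv_mem hm) _ hx
      have e' : m⁻¹ * (m * x * m⁻¹) * m⁻¹⁻¹ = x := by group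
      rwa [e'] at this
  obtain ⟨y', hy'⟩ := exists_prime_orderOf_dvd_card' (G := M) 3 (by rw [h12]; norm_num)
  have hy3 : orderOf (y' : G) = 3 := (Subgroup.orderOf_coe y').trans hy'
  set y : G := (y' : G) with hy
  have hyM : y ∈ M := y'.2
  refine ⟨K, ?_, hMN⟩
  apply Cfsg.Agent.Lib.QD.isKleinFour_of hcK
  intro x hx
  by_contra hxx
  have hdv : orderOf x ∣ 4 := by
    have := Subgroup.orderOf_dvd_natCard K hx
    rwa [hcK] at this
  have ho4 : orderOf x = 4 := by
    obtain ⟨k, hk, hk'⟩ := (Nat.dvd_prime_pow Nat.prime_two).mp (show orderOf x ∣ 2 ^ 2 from hdv)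
    have : k = 0 ∨ k = 1 ∨ k = 2 := by omega
    rcases this with rfl | rfl | rfl
    · exfalso
      apply hxx
      have : x = 1 := orderOf_eq_one_iff.mp (by simpa using hk')
      simp [this]
    · exfalso
      apply hxx
      have h8 : x ^ 2 = 1 := by
        rw [← orderOf_dvd_iff_pow_eq_one, hk']
        norm_num
      rwa [pow_two] at h8
    · simpa using hk'
  have hzK : Subgroup.zpowers x = K := by
    apply Subgroup.eq_of_le_of_card_ge
    · rw [Subgroup.zpowers_le]
      exact hx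
    · rw [Nat.card_zpowers, ho4, hcK]
  have hconj : y * x * y⁻¹ ∈ Subgroup.zpowers x := by
    rw [hzK]
    exact hKn y hyM x hx
  obtain ⟨k, hk⟩ := Subgroup.mem_zpowers_iff.mp hconj
  have hstep : ∀ j : ℤ, y * x ^ j * y⁻¹ = x ^ (k * j) := by
    intro j
    rw [zpow_mul, hk, conj_zpow]
  have hy3' : y ^ 3 = 1 := by
    rw [← hy3]
    exact pow_orderOf_eq_one y
  have hcube : x ^ (k * (k * k)) = x := by
    have h1 : x ^ (k * (k * k)) = y * (y * (y * x * y⁻¹) * y⁻¹) * y⁻¹ := by
      have h2 : y * x * y⁻¹ = x ^ k := hk.symm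
      rw [h2, hstep, hstep]
    rw [h1]
    have h3 : y * (y * (y * x * y⁻¹) * y⁻¹) * y⁻¹ = y ^ 3 * x * (y ^ 3)⁻¹ := by
      simp only [pow_succ, pow_zero, one_mul, mul_inv_rev, mul_assoc]
    rw [h3, hy3']
    simp
  have hk4 : k % 4 = 1 := by
    have h1 : x ^ (k * (k * k) - 1) = 1 := by
      rw [zpow_sub, hcube, zpow_one, mul_inv_cancel]
    have h2 := orderOf_dvd_iff_zpow_eq_one.mpr h1
    rw [ho4] at h2
    have h3 : (k * (k * k) - 1) % 4 = 0 := by
      omega
    have h4 : (k * (k * k) - 1) % 4 = ((k % 4) * ((k % 4) * (k % 4)) - 1) % 4 := by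
      simp [Int.sub_emod, Int.mul_emod]
    rw [h4] at h3
    have h5 : k % 4 = 0 ∨ k % 4 = 1 ∨ k % 4 = 2 ∨ k % 4 = 3 := by omega
    rcases h5 with h5 | h5 | h5 | h5 <;> rw [h5] at h3 <;> first | exact h5 | omega
  have hcomm : y * x * y⁻¹ = x := by
    rw [← hk, ← zpow_mod_orderOf, ho4]
    norm_cast
    rw [hk4, zpow_one]
  have hcc : x * y = y * x := by
    have : y * x = x * y := by
      calc y * x = y * x * y⁻¹ * y := by group
        _ = x * y := by rw [hcomm]
    exact this.symm
  have := dvd_three_of_comm h hy3 hcc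
  rw [ho4] at this
  omega

/-- Any subgroup of order prime to 7 lies in the normalizer of a Klein four-group. -/
theorem le_normalizer_of_not_seven (h : Nat.card G = 168) (M : Subgroup G) (hne : M ≠ ⊤) (h7 : ¬ 7 ∣ Nat.card M) :
    ∃ K : Subgroup G, IsKleinFour K ∧ M ≤ Subgroup.normalizer (K : Set G) := by
  have hle := card_le_of_ne_top h M hne
  have hdv : Nat.card M ∣ 168 := by
    rw [← h]
    exact Subgroup.card_subgroup_dvd_card M
  have hpos := Nat.card_pos (α := M)
  have hcases : Nat.card M = 1 ∨ Nat.card M = 2 ∨ Nat.card M = 3 ∨ Nat.card M = 4 ∨ Nat.card M = 6 ∨ Nat.card M = 8 ∨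
      Nat.card M = 12 ∨ Nat.card M = 24 := by
    interval_cases hh : Nat.card M <;> first | omega | skip
  have hp2 : ∀ k, Nat.card M = 2 ^ k → IsPGroup 2 M := fun k hk => by
    rw [IsPGroup.iff_card]
    exact ⟨k, hk⟩
  rcases hcases with h1 | h1 | h1 | h1 | h1 | h1 | h1 | h1
  · exact le_normalizer_of_two h M (hp2 0 (by rw [h1]; norm_num))
  · exact le_normalizer_of_two h M (hp2 1 (by rw [h1]; norm_num))
  · exact le_normalizer_of_three h M (Or.inl h1)
  · exact le_normalizer_of_two h M (hp2 2 (by rw [h1]; norm_num))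
  · exact le_normalizer_of_three h M (Or.inr h1)
  · exact le_normalizer_of_two h M (hp2 3 (by rw [h1]; norm_num))
  · exact le_normalizer_of_twelve h M h1
  · have hiso : Nonempty (M ≃* Equiv.Perm (Fin 4)) := by
      apply Cfsg.Agent.S1012.result h1
      intro g hg
      rw [Subgroup.orderOf_coe g |>.symm] at hg
      rcases order_all h (g : G) with h1 | h1 | h1 | h1 | h1 <;> omega
    obtain ⟨e⟩ := hiso
    obtain ⟨K, hK, hMK⟩ := exists_klein_of_iso h M e
    exact ⟨K, hK, hMK.le⟩

/-- Maximal subgroups of order prime to 7 are normalizers of Klein four-groups. -/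
theorem coatom_not_seven (h : Nat.card G = 168) (M : Subgroup G) (hM : IsCoatom M) (h7 : ¬ 7 ∣ Nat.card M) :
    ∃ K : Subgroup G, IsKleinFour K ∧ M = Subgroup.normalizer (K : Set G) := by
  obtain ⟨K, hK, hle⟩ := le_normalizer_of_not_seven h M hM.1 h7
  refine ⟨K, hK, ?_⟩
  by_contra hne
  have hc := card_normalizer_klein h hK
  have := hM.2 _ (lt_of_le_of_ne hle hne)
  rw [this, Subgroup.card_top, h] at hc
  omega

end Main5

end Cfsg.Agent.Lib.H1L168
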