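import Cfsg.Agent.Lib.H1FrobMod
import Mathlib

set_option autoImplicit false

/-! A minimal normal subgroup of a finite group is a direct power of a simple group. -/

namespace Cfsg.Agent.Lib.H1MinNormal

open Subgroup

/-- Splitting off the last coordinate, as a group isomorphism. -/
def snocEquiv (m : ℕ) (A : Type*) [Group A] : ((Fin m → A) × A) ≃* (Fin (m + 1) → A) where
  toFun p := Fin.snoc (α := fun _ => A) p.1 p.2
  invFun x := (Fin.init (α := fun _ => A) x, x (Fin.last m))
  left_inv p := by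
    ext i <;> simp
  right_inv x := by
    simp
  map_mul' p q := by
    funext i
    induction i using Fin.lastCases with
    | last => simp
    | cast i => simp

variable {G : Type*} [Group G]

theorem comm_of_normal_inf (P X : Subgroup G) [P.Normal] [X.Normal] (h : P ⊓ X = ⊥) (p x : G)
    (hp : p ∈ P) (hx : x ∈ X) : p * x = x * p := by
  have h1 : p * x * p⁻¹ * x⁻¹ ∈ P ⊓ X := by
    refine Subgroup.mem_inf.mpr ⟨?_, ?_⟩
    · have h2 : x * p⁻¹ * x⁻¹ ∈ P := ‹P.Normal›.conj_mem _ (P.inv_mem hp) x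
      have h3 : p * x * p⁻¹ * x⁻¹ = p * (x * p⁻¹ * x⁻¹) := by group
      rw [h3]
      exact P.mul_mem hp h2
    · have h2 : p * x * p⁻¹ ∈ X := ‹X.Normal›.conj_mem _ hx p
      exact X.mul_mem h2 (X.inv_mem hx)
  rw [h, Subgroup.mem_bot] at h1
  have h2 : p * x * p⁻¹ = x := mul_inv_eq_one.mp h1
  calc p * x = p * x * p⁻¹ * p := by group
    _ = x * p := by rw [h2]

/-- The product of two normal subgroups with trivial intersection. -/
theorem sup_equiv (P X : Subgroup G) [P.Normal] [X.Normal] (h : P ⊓ X = ⊥) :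
    Nonempty (P × X ≃* ↥(P ⊔ X)) := by
  let f : P →* ↥(P ⊔ X) := Subgroup.inclusion le_sup_left
  let g : X →* ↥(P ⊔ X) := Subgroup.inclusion le_sup_right
  have hc : ∀ a b, Commute (f a) (g b) := fun a b => by
    apply Subtype.ext
    exact comm_of_normal_inf P X h a b a.2 b.2
  let φ : P × X →* ↥(P ⊔ X) := MonoidHom.noncommCoprod f g hc
  have hφ : ∀ a b, ((φ (a, b) : ↥(P ⊔ X)) : G) = (a : G) * b := fun a b => rfl
  refine ⟨MulEquiv.ofBijective φ ⟨?_, ?_⟩⟩
  · rw [injective_iff_map_eq_one]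
    rintro ⟨a, b⟩ hab
    have h1 : (a : G) * b = 1 := by
      have := congrArg Subtype.val hab
      rwa [hφ] at this
    have h2 : (a : G) = (b : G)⁻¹ := eq_inv_of_mul_eq_one_left h1
    have h3 : (a : G) ∈ P ⊓ X := Subgroup.mem_inf.mpr ⟨a.2, by rw [h2]; exact X.inv_mem b.2⟩
    rw [h, Subgroup.mem_bot] at h3
    have h4 : (b : G) = 1 := by
      rw [h3, one_mul] at h1; exact h1
    exact Prod.ext (Subtype.ext h3) (Subtype.ext h4)
  · rintro ⟨q, hq⟩
    have h1 : q ∈ ((P ⊔ X : Subgroup G) : Set G) := hq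
    rw [Subgroup.mul_normal, Set.mem_mul] at h1
    obtain ⟨a, ha, b, hb, hab⟩ := h1
    exact ⟨(⟨a, ha⟩, ⟨b, hb⟩), Subtype.ext hab⟩

theorem minnormal_prod [Finite G] {S₀ : Type*} [Group S₀] (F : Set (Subgroup G))
    (hF : ∀ X ∈ F, X.Normal ∧ Nonempty (X ≃* S₀) ∧ ∀ L : Subgroup G, L.Normal → L ≤ X → L = ⊥ ∨ L = X)
    (htop : sSup F = ⊤) (hne : ∀ X ∈ F, X ≠ ⊥) : ∃ m : ℕ, Nonempty (G ≃* (Fin m → S₀)) := by
  classical
  have key : ∀ (n : ℕ) (P : Subgroup G), P.Normal → Nat.card G - Nat.card P = n →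
      (∃ m : ℕ, Nonempty (P ≃* (Fin m → S₀))) → ∃ m : ℕ, Nonempty (G ≃* (Fin m → S₀)) := by
    intro n
    induction n using Nat.strong_induction_on with
    | _ n ih =>
      intro P hPn hn hP
      obtain ⟨m, ⟨e⟩⟩ := hP
      by_cases hPt : P = ⊤
      · subst hPt
        exact ⟨m, ⟨(Subgroup.topEquiv).symm.trans e⟩⟩
      have hex : ∃ X ∈ F, ¬ X ≤ P := by
        by_contra hc
        push Not at hc
        apply hPt
        rw [eq_top_iff, ← htop]
        exact sSup_le hc
      obtain ⟨X, hX, hXP⟩ := hex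
      obtain ⟨hXn, ⟨eX⟩, hXmin⟩ := hF X hX
      haveI := hPn
      haveI := hXn
      have hinf : P ⊓ X = ⊥ := by
        rcases hXmin (P ⊓ X) inferInstance inf_le_right with h | h
        · exact h
        · exfalso
          apply hXP
          exact inf_eq_right.mp h
      obtain ⟨es⟩ := sup_equiv P X hinf
      have hlt : P < P ⊔ X := by
        refine lt_of_le_of_ne le_sup_left ?_
        intro h
        apply hXP
        rw [h]
        exact le_sup_right
      have hcard : Nat.card P < Nat.card ↥(P ⊔ X) := by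
        by_contra hc
        push Not at hc
        exact hlt.ne (Subgroup.eq_of_le_of_card_ge hlt.le hc)
      have hle : Nat.card ↥(P ⊔ X) ≤ Nat.card G := Subgroup.card_le_card_group _
      refine ih _ ?_ (P ⊔ X) inferInstance rfl ⟨m + 1, ⟨es.symm.trans
        ((MulEquiv.prodCongr e eX).trans (snocEquiv m S₀))⟩⟩
      omega
  refine key _ ⊥ inferInstance rfl ⟨0, ⟨?_⟩⟩
  exact
    { toFun := fun _ => 1
      invFun := fun _ => 1
      left_inv := fun x => Subsingleton.elim _ _
      right_inv := fun x => Subsingleton.elim _ _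
      map_mul' := fun _ _ => by simp }

end Cfsg.Agent.Lib.H1MinNormal
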