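import Mathlib
import Cfsg.Prelude.Def_Sporadic_a

set_option autoImplicit false
open Finset

namespace Cfsg.Agent.Lib.H1PG4

variable {α : Type*} [Fintype α] [DecidableEq α] {L : Set (Finset α)}

structure Pl (L : Set (Finset α)) : Prop where
  card : Fintype.card α = 21
  st : Cfsg.IsSteinerSystem 2 5 L

lemma Pl.card_line (h : Pl L) {l : Finset α} (hl : l ∈ L) : l.card = 5 := h.st.1 l hl

lemma Pl.exists_other (h : Pl L) (p : α) : ∃ q, q ≠ p := by
  have : 1 < Fintype.card α := by rw [h.card]; norm_num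
  have := Fintype.one_lt_card_iff_nontrivial.mp this
  exact exists_ne p

lemma Pl.exists_line (h : Pl L) (p q : α) : ∃ l ∈ L, p ∈ l ∧ q ∈ l := by
  by_cases hne : p = q
  · subst hne
    obtain ⟨r, hr⟩ := h.exists_other p
    obtain ⟨l, ⟨⟨hl, hs⟩, _⟩⟩ := h.st.2 {p, r} (card_pair hr.symm)
    exact ⟨l, hl, hs (by simp), hs (by simp)⟩
  · obtain ⟨l, ⟨⟨hl, hs⟩, _⟩⟩ := h.st.2 {p, q} (card_pair hne)
    exact ⟨l, hl, hs (by simp), hs (by simp)⟩

lemma Pl.line_unique (h : Pl L) {l m : Finset α} (hl : l ∈ L) (hm : m ∈ L) {p q : α} (hne : p ≠ q)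
    (hpl : p ∈ l) (hql : q ∈ l) (hpm : p ∈ m) (hqm : q ∈ m) : l = m := by
  obtain ⟨b, _, hu⟩ := h.st.2 {p, q} (card_pair hne)
  have h1 := hu l ⟨hl, by simp [Finset.insert_subset_iff, hpl, hql]⟩
  have h2 := hu m ⟨hm, by simp [Finset.insert_subset_iff, hpm, hqm]⟩
  rw [h1, h2]

/-- A line through two points. -/
noncomputable def ln (h : Pl L) (p q : α) : Finset α := Classical.choose (h.exists_line p q)

lemma ln_mem (h : Pl L) (p q : α) : ln h p q ∈ L := (Classical.choose_spec (h.exists_line p q)).1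
lemma left_mem (h : Pl L) (p q : α) : p ∈ ln h p q := (Classical.choose_spec (h.exists_line p q)).2.1
lemma right_mem (h : Pl L) (p q : α) : q ∈ ln h p q := (Classical.choose_spec (h.exists_line p q)).2.2

lemma eq_ln (h : Pl L) {l : Finset α} (hl : l ∈ L) {p q : α} (hne : p ≠ q) (hp : p ∈ l) (hq : q ∈ l) :
    l = ln h p q :=
  h.line_unique hl (ln_mem h p q) hne hp hq (left_mem h p q) (right_mem h p q)

lemma ln_comm (h : Pl L) {p q : α} (hne : p ≠ q) : ln h p q = ln h q p :=
  (eq_ln h (ln_mem h q p) hne (right_mem h q p) (left_mem h q p)).symm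

open Classical in
/-- The lines through a point. -/
noncomputable def thru (L : Set (Finset α)) (a : α) : Finset (Finset α) :=
  Finset.univ.filter (fun l => l ∈ L ∧ a ∈ l)

lemma mem_thru {a : α} {l : Finset α} : l ∈ thru L a ↔ l ∈ L ∧ a ∈ l := by
  classical
  simp [thru]

lemma card_thru (h : Pl L) (a : α) : (thru L a).card = 5 := by
  have hU : (Finset.univ.erase a) = (thru L a).biUnion (fun l => l.erase a) := by
    ext x
    simp only [Finset.mem_erase, Finset.mem_univ, and_true, Finset.mem_biUnion, mem_thru]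
    constructor
    · intro hx
      exact ⟨ln h a x, ⟨ln_mem h a x, left_mem h a x⟩, hx, right_mem h a x⟩
    · rintro ⟨l, _, hx, _⟩
      exact hx
  have hd := Finset.card_biUnion (s := thru L a) (t := fun l => l.erase a) (by
    intro l hl m hm hne
    show Disjoint (l.erase a) (m.erase a)
    rw [Finset.disjoint_left]
    intro x hx hx'
    obtain ⟨hl1, hl2⟩ := mem_thru.mp (Finset.mem_coe.mp hl)
    obtain ⟨hm1, hm2⟩ := mem_thru.mp (Finset.mem_coe.mp hm)
    exact hne (h.line_unique hl1 hm1 (Finset.ne_of_mem_erase hx).symm hl2 (Finset.mem_of_mem_erase hx) hm2 (Finset.mem_of_mem_erase hx')))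
  rw [← hU, Finset.card_erase_of_mem (Finset.mem_univ a), Finset.card_univ, h.card,
    Finset.sum_congr rfl (g := fun _ => 4), Finset.sum_const, smul_eq_mul] at hd
  · omega
  · intro l hl
    obtain ⟨hl1, hl2⟩ := mem_thru.mp hl
    rw [Finset.card_erase_of_mem hl2, h.card_line hl1]

/-- Any two lines meet. -/
lemma meet (h : Pl L) {l m : Finset α} (hl : l ∈ L) (hm : m ∈ L) : ∃ x, x ∈ l ∧ x ∈ m := by
  by_contra hno
  push Not at hno
  obtain ⟨p, hp⟩ : l.Nonempty := Finset.card_pos.mp (by rw [h.card_line hl]; norm_num)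
  have hpm : p ∉ m := hno p hp
  have hinj : Set.InjOn (ln h p) (m : Set α) := by
    intro q hq q' hq' he
    by_contra hne
    have h1 : m = ln h p q := h.line_unique hm (ln_mem h p q) hne hq hq' (right_mem h p q) (by rw [he]; exact right_mem h p q')
    exact hpm (by rw [h1]; exact left_mem h p q)
  have hsub : m.image (ln h p) ⊆ thru L p := by
    intro x hx
    obtain ⟨q, _, rfl⟩ := Finset.mem_image.mp hx
    exact mem_thru.mpr ⟨ln_mem h p q, left_mem h p q⟩
  have heq : m.image (ln h p) = thru L p :=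
    Finset.eq_of_subset_of_card_le hsub (by rw [card_thru h, Finset.card_image_of_injOn hinj, h.card_line hm])
  have hlt : l ∈ thru L p := mem_thru.mpr ⟨hl, hp⟩
  rw [← heq, Finset.mem_image] at hlt
  obtain ⟨q, hq, hlq⟩ := hlt
  exact hno q (by rw [← hlq]; exact right_mem h p q) hq

/-- Independent sets. -/
def Indep (L : Set (Finset α)) (S : Finset α) : Prop := ∀ l ∈ L, (l ∩ S).card ≤ 2

lemma Indep.no3 {S : Finset α} (hS : Indep L S) {l : Finset α} (hl : l ∈ L) {x y z : α}
    (hx : x ∈ S) (hy : y ∈ S) (hz : z ∈ S) (hxy : x ≠ y) (hxz : x ≠ z) (hyz : y ≠ z)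
    (hxl : x ∈ l) (hyl : y ∈ l) : z ∉ l := by
  intro hzl
  have h1 := hS l hl
  have h2 : 2 < (l ∩ S).card := by
    rw [Finset.two_lt_card_iff]
    exact ⟨x, y, z, Finset.mem_inter.mpr ⟨hxl, hx⟩, Finset.mem_inter.mpr ⟨hyl, hy⟩,
      Finset.mem_inter.mpr ⟨hzl, hz⟩, hxy, hxz, hyz⟩
  omega

lemma indep_of_no3 {S : Finset α}
    (hno : ∀ l ∈ L, ∀ x ∈ S, ∀ y ∈ S, ∀ z ∈ S, x ≠ y → x ≠ z → y ≠ z → x ∈ l → y ∈ l → z ∉ l) :
    Indep L S := by
  intro l hl
  by_contra hc
  have h2 : 2 < (l ∩ S).card := by omega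
  rw [Finset.two_lt_card_iff] at h2
  obtain ⟨a, b, c, ha, hb, hc, hab, hac, hbc⟩ := h2
  rw [Finset.mem_inter] at ha hb hc
  exact hno l hl a ha.2 b hb.2 c hc.2 hab hac hbc ha.1 hb.1 hc.1

lemma Indep.mono {S T : Finset α} (hT : Indep L T) (hST : S ⊆ T) : Indep L S := by
  intro l hl
  exact (Finset.card_le_card (Finset.inter_subset_inter_left hST)).trans (hT l hl)

/-- Points that extend `S` to an independent set. -/
noncomputable def Ext (L : Set (Finset α)) (S : Finset α) : Finset α := by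
  classical
  exact Finset.univ.filter (fun x => x ∉ S ∧ Indep L (insert x S))

lemma mem_Ext {S : Finset α} {x : α} : x ∈ Ext L S ↔ x ∉ S ∧ Indep L (insert x S) := by
  classical
  simp [Ext]

/-- Characterisation of `Ext`. -/
lemma mem_Ext_iff (h : Pl L) {S : Finset α} (hS : Indep L S) {x : α} :
    x ∈ Ext L S ↔ x ∉ S ∧ ∀ y ∈ S, ∀ z ∈ S, y ≠ z → x ∉ ln h y z := by
  rw [mem_Ext]
  constructor
  · rintro ⟨hx, hi⟩
    refine ⟨hx, ?_⟩
    intro y hy z hz hne hxl
    refine hi.no3 (ln_mem h y z) (x := y) (y := z) (z := x) (by simp [hy]) (by simp [hz]) (by simp) hne ?_ ?_ (left_mem h y z) (right_mem h y z) hxl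
    · rintro rfl; exact hx hy
    · rintro rfl; exact hx hz
  · rintro ⟨hx, hno⟩
    refine ⟨hx, indep_of_no3 ?_⟩
    intro l hl a ha b hb c hc hab hac hbc hal hbl hcl
    rw [Finset.mem_insert] at ha hb hc
    rcases ha with rfl | ha
    · rcases hb with rfl | hb
      · exact hab rfl
      rcases hc with rfl | hc
      · exact hac rfl
      exact hno b hb c hc hbc (by rw [← eq_ln h hl hbc hbl hcl]; exact hal)
    · rcases hb with rfl | hb
      · rcases hc with rfl | hc
        · exact hbc rfl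
        exact hno a ha c hc hac (by rw [← eq_ln h hl hac hal hcl]; exact hbl)
      · rcases hc with rfl | hc
        · exact hno a ha b hb hab (by rw [← eq_ln h hl hab hal hbl]; exact hcl)
        · exact hS.no3 hl ha hb hc hab hac hbc hal hbl hcl

/-- Two distinct lines share at most one point. -/
lemma inter_eq (h : Pl L) {l m : Finset α} (hl : l ∈ L) (hm : m ∈ L) (hne : l ≠ m) {x y : α}
    (hx : x ∈ l) (hx' : x ∈ m) (hy : y ∈ l) (hy' : y ∈ m) : x = y := by
  by_contra hxy
  exact hne (h.line_unique hl hm hxy hx hy hx' hy')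

section quad
variable (h : Pl L) {a b c d : α}

/-- The key lemma: a line through `a` missing `b, c, d`. -/
lemma one_point (hab : a ≠ b) (hac : a ≠ c) (had : a ≠ d) (hbc : b ≠ c) (hbd : b ≠ d) (hcd : c ≠ d)
    (habc : a ∉ ln h b c) (habd : a ∉ ln h b d) (hacd : a ∉ ln h c d) (hbcd : d ∉ ln h b c)
    (hcbd : c ∉ ln h b d) (hbcd' : b ∉ ln h c d)
    {m : Finset α} (hm : m ∈ L) (ha : a ∈ m) (hmb : b ∉ m) (hmc : c ∉ m) (hmd : d ∉ m) :
    ∃ e ∈ m, e ∉ ln h a b ∧ e ∉ ln h a c ∧ e ∉ ln h a d ∧ e ∉ ln h b c ∧ e ∉ ln h b d ∧ e ∉ ln h c d ∧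
      ∀ x ∈ m, x ∉ ln h a b → x ∉ ln h a c → x ∉ ln h a d → x ∉ ln h b c → x ∉ ln h b d →
        x ∉ ln h c d → x = e := by
  obtain ⟨x₁, hx₁m, hx₁⟩ := meet h hm (ln_mem h b c)
  obtain ⟨x₂, hx₂m, hx₂⟩ := meet h hm (ln_mem h b d)
  obtain ⟨x₃, hx₃m, hx₃⟩ := meet h hm (ln_mem h c d)
  have hne12 : ln h b c ≠ ln h b d := by
    intro he; exact hbcd (by rw [he]; exact right_mem h b d)
  have hne13 : ln h b c ≠ ln h c d := by
    intro he; exact hbcd (by rw [he]; exact right_mem h c d)
  have hne23 : ln h b d ≠ ln h c d := by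
    intro he; exact hcbd (by rw [he]; exact left_mem h c d)
  have h12 : x₁ ≠ x₂ := by
    rintro rfl
    have := inter_eq h (ln_mem h b c) (ln_mem h b d) hne12 hx₁ hx₂ (left_mem h b c) (left_mem h b d)
    exact hmb (this ▸ hx₁m)
  have h13 : x₁ ≠ x₃ := by
    rintro rfl
    have := inter_eq h (ln_mem h b c) (ln_mem h c d) hne13 hx₁ hx₃ (right_mem h b c) (left_mem h c d)
    exact hmc (this ▸ hx₁m)
  have h23 : x₂ ≠ x₃ := by
    rintro rfl
    have := inter_eq h (ln_mem h b d) (ln_mem h c d) hne23 hx₂ hx₃ (right_mem h b d) (right_mem h c d)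
    exact hmd (this ▸ hx₂m)
  have ha1 : a ≠ x₁ := by rintro rfl; exact habc hx₁
  have ha2 : a ≠ x₂ := by rintro rfl; exact habd hx₂
  have ha3 : a ≠ x₃ := by rintro rfl; exact hacd hx₃
  have hsub : ({a, x₁, x₂, x₃} : Finset α) ⊆ m := by
    intro y hy
    simp only [Finset.mem_insert, Finset.mem_singleton] at hy
    rcases hy with rfl | rfl | rfl | rfl <;> assumption
  have hc4 : ({a, x₁, x₂, x₃} : Finset α).card = 4 := by
    rw [Finset.card_insert_of_notMem (by simp [ha1, ha2, ha3]), Finset.card_insert_of_notMem (by simp [h12, h13]), Finset.card_pair h23]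
  have hcd1 : (m \ {a, x₁, x₂, x₃}).card = 1 := by
    rw [Finset.card_sdiff_of_subset hsub, hc4, h.card_line hm]
  obtain ⟨e, he⟩ := Finset.card_eq_one.mp hcd1
  have hem : e ∈ m \ {a, x₁, x₂, x₃} := by rw [he]; simp
  rw [Finset.mem_sdiff] at hem
  simp only [Finset.mem_insert, Finset.mem_singleton, not_or] at hem
  obtain ⟨hem, hea, he1, he2, he3⟩ := hem
  -- `m` differs from each of the six lines
  have hmab : m ≠ ln h a b := by rintro rfl; exact hmb (right_mem h a b)
  have hmac : m ≠ ln h a c := by rintro rfl; exact hmc (right_mem h a c)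
  have hmad : m ≠ ln h a d := by rintro rfl; exact hmd (right_mem h a d)
  have hmbc : m ≠ ln h b c := by rintro rfl; exact hmb (left_mem h b c)
  have hmbd : m ≠ ln h b d := by rintro rfl; exact hmb (left_mem h b d)
  have hmcd : m ≠ ln h c d := by rintro rfl; exact hmc (left_mem h c d)
  refine ⟨e, hem, ?_, ?_, ?_, ?_, ?_, ?_, ?_⟩
  · intro hel; exact hea (inter_eq h hm (ln_mem h a b) hmab hem hel ha (left_mem h a b))
  · intro hel; exact hea (inter_eq h hm (ln_mem h a c) hmac hem hel ha (left_mem h a c))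
  · intro hel; exact hea (inter_eq h hm (ln_mem h a d) hmad hem hel ha (left_mem h a d))
  · intro hel; exact he1 (inter_eq h hm (ln_mem h b c) hmbc hem hel hx₁m hx₁)
  · intro hel; exact he2 (inter_eq h hm (ln_mem h b d) hmbd hem hel hx₂m hx₂)
  · intro hel; exact he3 (inter_eq h hm (ln_mem h c d) hmcd hem hel hx₃m hx₃)
  · intro x hxm hab' _ _ hbc' hbd' hcd'
    have : x ∈ m \ {a, x₁, x₂, x₃} := by
      rw [Finset.mem_sdiff]
      refine ⟨hxm, ?_⟩
      simp only [Finset.mem_insert, Finset.mem_singleton, not_or]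
      refine ⟨?_, ?_, ?_, ?_⟩
      · rintro rfl; exact hab' (left_mem h x b)
      · rintro rfl; exact hbc' hx₁
      · rintro rfl; exact hbd' hx₂
      · rintro rfl; exact hcd' hx₃
    rw [he] at this
    exact Finset.mem_singleton.mp this

end quad


section quad2
variable (h : Pl L) {a b c d : α}

lemma cov_iff (hQ : Indep L {a, b, c, d}) (hab : a ≠ b) (hac : a ≠ c) (had : a ≠ d) (hbc : b ≠ c)
    (hbd : b ≠ d) (hcd : c ≠ d) (x : α) :
    x ∈ Ext L {a, b, c, d} ↔ x ∉ ln h a b ∧ x ∉ ln h a c ∧ x ∉ ln h a d ∧ x ∉ ln h b c ∧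
      x ∉ ln h b d ∧ x ∉ ln h c d := by
  rw [mem_Ext_iff h hQ]
  constructor
  · rintro ⟨_, hx⟩
    exact ⟨hx a (by simp) b (by simp) hab, hx a (by simp) c (by simp) hac,
      hx a (by simp) d (by simp) had, hx b (by simp) c (by simp) hbc,
      hx b (by simp) d (by simp) hbd, hx c (by simp) d (by simp) hcd⟩
  · rintro ⟨h1, h2, h3, h4, h5, h6⟩
    refine ⟨?_, ?_⟩
    · simp only [Finset.mem_insert, Finset.mem_singleton, not_or]
      refine ⟨?_, ?_, ?_, ?_⟩
      · rintro rfl; exact h1 (left_mem h _ _)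
      · rintro rfl; exact h1 (right_mem h _ _)
      · rintro rfl; exact h2 (right_mem h _ _)
      · rintro rfl; exact h3 (right_mem h _ _)
    · intro y hy z hz hne
      simp only [Finset.mem_insert, Finset.mem_singleton] at hy hz
      rcases hy with rfl | rfl | rfl | rfl <;> rcases hz with rfl | rfl | rfl | rfl <;>
        first
          | exact absurd rfl hne
          | assumption
          | (rw [ln_comm h hne]; assumption)

lemma comp_struct' (h : Pl L) (hQ : Indep L {a, b, c, d}) (hab : a ≠ b) (hac : a ≠ c) (had : a ≠ d)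
    (hbc : b ≠ c) (hbd : b ≠ d) (hcd : c ≠ d) :
    ∃ e f, e ≠ f ∧ Ext L {a, b, c, d} = {e, f} ∧ ∀ l ∈ L, a ∈ l → e ∈ l → f ∉ l := by
  classical
  have nc : ∀ x ∈ ({a, b, c, d} : Finset α), ∀ y ∈ ({a, b, c, d} : Finset α),
      ∀ z ∈ ({a, b, c, d} : Finset α), x ≠ y → x ≠ z → y ≠ z → z ∉ ln h x y :=
    fun x hx y hy z hz hxy hxz hyz =>
      hQ.no3 (ln_mem h x y) hx hy hz hxy hxz hyz (left_mem h x y) (right_mem h x y)
  have h1 : c ∉ ln h a b := nc a (by simp) b (by simp) c (by simp) hab hac hbc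
  have h2 : d ∉ ln h a b := nc a (by simp) b (by simp) d (by simp) hab had hbd
  have h3 : d ∉ ln h a c := nc a (by simp) c (by simp) d (by simp) hac had hcd
  have habc : a ∉ ln h b c := nc b (by simp) c (by simp) a (by simp) hbc hab.symm hac.symm
  have habd : a ∉ ln h b d := nc b (by simp) d (by simp) a (by simp) hbd hab.symm had.symm
  have hacd : a ∉ ln h c d := nc c (by simp) d (by simp) a (by simp) hcd hac.symm had.symm
  have hbcd : d ∉ ln h b c := nc b (by simp) c (by simp) d (by simp) hbc hbd hcd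
  have hcbd : c ∉ ln h b d := nc b (by simp) d (by simp) c (by simp) hbd hbc hcd.symm
  have hbcd' : b ∉ ln h c d := nc c (by simp) d (by simp) b (by simp) hcd hbc.symm hbd.symm
  have hne1 : ln h a b ≠ ln h a c := by
    intro he; exact h1 (by rw [he]; exact right_mem h a c)
  have hne2 : ln h a b ≠ ln h a d := by
    intro he; exact h2 (by rw [he]; exact right_mem h a d)
  have hne3 : ln h a c ≠ ln h a d := by
    intro he; exact h3 (by rw [he]; exact right_mem h a d)
  let T : Finset (Finset α) := {ln h a b, ln h a c, ln h a d}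
  have hT : T ⊆ thru L a := by
    intro l hl
    simp only [T, Finset.mem_insert, Finset.mem_singleton] at hl
    rcases hl with rfl | rfl | rfl <;> exact mem_thru.mpr ⟨ln_mem h _ _, left_mem h _ _⟩
  have hTc : T.card = 3 := by
    simp only [T]
    rw [Finset.card_insert_of_notMem (by simp [hne1, hne2]), Finset.card_pair hne3]
  have hA : (thru L a \ T).card = 2 := by
    rw [Finset.card_sdiff_of_subset hT, card_thru h, hTc]
  obtain ⟨m₁, m₂, hm12, hAe⟩ := Finset.card_eq_two.mp hA
  have hmprop : ∀ m ∈ thru L a \ T, m ∈ L ∧ a ∈ m ∧ b ∉ m ∧ c ∉ m ∧ d ∉ m := by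
    intro m hm
    rw [Finset.mem_sdiff] at hm
    obtain ⟨hm1, hm2⟩ := mem_thru.mp hm.1
    have hmT := hm.2
    simp only [T, Finset.mem_insert, Finset.mem_singleton, not_or] at hmT
    refine ⟨hm1, hm2, ?_, ?_, ?_⟩
    · intro hb; exact hmT.1 (eq_ln h hm1 hab hm2 hb)
    · intro hc; exact hmT.2.1 (eq_ln h hm1 hac hm2 hc)
    · intro hd; exact hmT.2.2 (eq_ln h hm1 had hm2 hd)
  obtain ⟨m1L, a1, b1, c1, d1⟩ := hmprop m₁ (by rw [hAe]; simp)
  obtain ⟨m2L, a2, b2, c2, d2⟩ := hmprop m₂ (by rw [hAe]; simp)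
  obtain ⟨e, he, e1, e2, e3, e4, e5, e6, heu⟩ :=
    one_point h hab hac had hbc hbd hcd habc habd hacd hbcd hcbd hbcd' m1L a1 b1 c1 d1
  obtain ⟨f, hf, f1, f2, f3, f4, f5, f6, hfu⟩ :=
    one_point h hab hac had hbc hbd hcd habc habd hacd hbcd hcbd hbcd' m2L a2 b2 c2 d2
  have hea : e ≠ a := by rintro rfl; exact e1 (left_mem h _ _)
  have hfa : f ≠ a := by rintro rfl; exact f1 (left_mem h _ _)
  refine ⟨e, f, ?_, ?_, ?_⟩
  · rintro rfl
    exact hm12 (h.line_unique m1L m2L hea.symm a1 he a2 hf)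
  · ext x
    rw [cov_iff h hQ hab hac had hbc hbd hcd, Finset.mem_insert, Finset.mem_singleton]
    constructor
    · rintro ⟨x1, x2, x3, x4, x5, x6⟩
      have hxa : x ≠ a := by rintro rfl; exact x1 (left_mem h _ _)
      have hl : ln h a x ∈ thru L a \ T := by
        rw [Finset.mem_sdiff]
        refine ⟨mem_thru.mpr ⟨ln_mem h _ _, left_mem h _ _⟩, ?_⟩
        simp only [T, Finset.mem_insert, Finset.mem_singleton, not_or]
        refine ⟨?_, ?_, ?_⟩
        · intro he'; exact x1 (by rw [← he']; exact right_mem h _ _)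
        · intro he'; exact x2 (by rw [← he']; exact right_mem h _ _)
        · intro he'; exact x3 (by rw [← he']; exact right_mem h _ _)
      rw [hAe, Finset.mem_insert, Finset.mem_singleton] at hl
      rcases hl with hl | hl
      · left
        exact heu x (by rw [← hl]; exact right_mem h _ _) x1 x2 x3 x4 x5 x6
      · right
        exact hfu x (by rw [← hl]; exact right_mem h _ _) x1 x2 x3 x4 x5 x6
    · rintro (rfl | rfl)
      · exact ⟨e1, e2, e3, e4, e5, e6⟩
      · exact ⟨f1, f2, f3, f4, f5, f6⟩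
  · intro l hl hal hel hfl
    have h1 := h.line_unique hl m1L hea.symm hal hel a1 he
    have h2 := h.line_unique hl m2L hfa.symm hal hfl a2 hf
    exact hm12 (h1.symm.trans h2)

end quad2

lemma comp_struct (h : Pl L) {Q : Finset α} (hc : Q.card = 4) (hQ : Indep L Q) {a : α} (ha : a ∈ Q) :
    ∃ e f, e ≠ f ∧ Ext L Q = {e, f} ∧ ∀ l ∈ L, a ∈ l → e ∈ l → f ∉ l := by
  have hc3 : (Q.erase a).card = 3 := by rw [Finset.card_erase_of_mem ha, hc]
  obtain ⟨b, c, d, hbc, hbd, hcd, he⟩ := Finset.card_eq_three.mp hc3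
  have hQe : Q = {a, b, c, d} := by
    rw [← Finset.insert_erase ha, he]
  have hb : b ∈ Q.erase a := by rw [he]; simp
  have hc' : c ∈ Q.erase a := by rw [he]; simp
  have hd : d ∈ Q.erase a := by rw [he]; simp
  have hab : a ≠ b := (Finset.ne_of_mem_erase hb).symm
  have hac : a ≠ c := (Finset.ne_of_mem_erase hc').symm
  have had : a ≠ d := (Finset.ne_of_mem_erase hd).symm
  rw [hQe] at hQ ⊢
  exact comp_struct' h hQ hab hac had hbc hbd hcd

lemma card_Ext_quad (h : Pl L) {Q : Finset α} (hc : Q.card = 4) (hQ : Indep L Q) :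
    (Ext L Q).card = 2 := by
  obtain ⟨a, ha⟩ : Q.Nonempty := Finset.card_pos.mp (by omega)
  obtain ⟨e, f, hef, he, _⟩ := comp_struct h hc hQ ha
  rw [he, Finset.card_pair hef]

lemma not_Ext_sub (h : Pl L) {Q : Finset α} (hc : Q.card = 4) (hQ : Indep L Q) {a : α} (ha : a ∈ Q)
    {l : Finset α} (hl : l ∈ L) (hal : a ∈ l) : ¬ Ext L Q ⊆ l := by
  obtain ⟨e, f, hef, he, hno⟩ := comp_struct h hc hQ ha
  intro hsub
  rw [he] at hsub
  exact hno l hl hal (hsub (by simp)) (hsub (by simp))

lemma disj_Ext (Q : Finset α) : Disjoint Q (Ext L Q) := by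
  rw [Finset.disjoint_right]
  intro x hx
  exact (mem_Ext.mp hx).1

lemma hyp_of_quad (h : Pl L) {Q : Finset α} (hc : Q.card = 4) (hQ : Indep L Q) :
    (Q ∪ Ext L Q).card = 6 ∧ Indep L (Q ∪ Ext L Q) := by
  have hE := card_Ext_quad h hc hQ
  refine ⟨by rw [Finset.card_union_of_disjoint (disj_Ext Q), hc, hE], ?_⟩
  intro l hl
  rw [Finset.inter_union_distrib_left, Finset.card_union_of_disjoint
    (Finset.disjoint_of_subset_left Finset.inter_subset_right
      (Finset.disjoint_of_subset_right Finset.inter_subset_right (disj_Ext Q)))]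
  have hQl := hQ l hl
  have hle : (l ∩ Ext L Q).card ≤ 2 := (Finset.card_le_card Finset.inter_subset_right).trans hE.le
  by_cases h2 : (l ∩ Ext L Q).card = 2
  · have hsub : Ext L Q ⊆ l := by
      have := Finset.eq_of_subset_of_card_le (Finset.inter_subset_right (s₁ := l) (s₂ := Ext L Q)) (by omega)
      exact this ▸ Finset.inter_subset_left
    have h0 : (l ∩ Q) = ∅ := by
      rw [Finset.eq_empty_iff_forall_notMem]
      intro a ha
      rw [Finset.mem_inter] at ha
      exact not_Ext_sub h hc hQ ha.2 hl ha.1 hsub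
    rw [h0, h2]
    simp
  · by_cases h1 : (l ∩ Ext L Q).card = 0
    · omega
    · obtain ⟨e, he⟩ : (l ∩ Ext L Q).Nonempty := Finset.card_pos.mp (by omega)
      rw [Finset.mem_inter] at he
      obtain ⟨hnQ, hi⟩ := mem_Ext.mp he.2
      have h3 := hi l hl
      have h4 : l ∩ insert e Q = insert e (l ∩ Q) := by
        rw [Finset.inter_insert_of_mem he.1]
      rw [h4, Finset.card_insert_of_notMem (fun hh => hnQ (Finset.mem_inter.mp hh).2)] at h3
      omega

lemma hyp_unique (h : Pl L) {Q H : Finset α} (hc : Q.card = 4) (hQ : Indep L Q) (hH : H.card = 6)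
    (hHi : Indep L H) (hs : Q ⊆ H) : H = Q ∪ Ext L Q := by
  have hsub : H \ Q ⊆ Ext L Q := by
    intro x hx
    rw [Finset.mem_sdiff] at hx
    refine mem_Ext.mpr ⟨hx.2, hHi.mono ?_⟩
    exact Finset.insert_subset hx.1 hs
  have hc2 : (H \ Q).card = 2 := by
    rw [Finset.card_sdiff_of_subset hs, hH, hc]
  have heq := Finset.eq_of_subset_of_card_le hsub (by rw [card_Ext_quad h hc hQ, hc2])
  rw [← heq, Finset.union_sdiff_of_subset hs]

/-- The independent `k`-sets. -/
noncomputable def I (L : Set (Finset α)) (k : ℕ) : Finset (Finset α) := by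
  classical
  exact Finset.univ.filter (fun S => S.card = k ∧ Indep L S)

lemma mem_I {k : ℕ} {S : Finset α} : S ∈ I L k ↔ S.card = k ∧ Indep L S := by
  classical
  simp [I]

open Classical in
lemma dc (j k c : ℕ) (hc : ∀ S ∈ I L j, ((I L k).filter (fun T => S ⊆ T)).card = c) :
    (I L j).card * c = (I L k).card * Nat.choose k j := by
  have := Finset.sum_card_bipartiteAbove_eq_sum_card_bipartiteBelow (s := I L j)
    (t := I L k) (fun S T => S ⊆ T)
  unfold Finset.bipartiteAbove Finset.bipartiteBelow at this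
  rw [Finset.sum_congr rfl hc, Finset.sum_const, smul_eq_mul] at this
  rw [this, Finset.sum_congr rfl (g := fun _ => Nat.choose k j), Finset.sum_const, smul_eq_mul]
  intro T hT
  obtain ⟨hT1, hT2⟩ := mem_I.mp hT
  rw [← hT1, ← Finset.card_powersetCard]
  congr 1
  ext S
  simp only [Finset.mem_filter, Finset.mem_powersetCard, mem_I]
  constructor
  · rintro ⟨⟨h1, _⟩, h3⟩
    exact ⟨h3, h1⟩
  · rintro ⟨h3, h1⟩
    exact ⟨⟨h1, hT2.mono h3⟩, h3⟩

open Classical in
lemma card_ext_eq {k : ℕ} {S : Finset α} (hS : S.card = k) :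
    ((I L (k + 1)).filter (fun T => S ⊆ T)).card = (Ext L S).card := by
  symm
  refine Finset.card_bij (fun x _ => insert x S) ?_ ?_ ?_
  · intro x hx
    obtain ⟨hx1, hx2⟩ := mem_Ext.mp hx
    simp only [Finset.mem_filter, mem_I]
    exact ⟨⟨by rw [Finset.card_insert_of_notMem hx1, hS], hx2⟩, Finset.subset_insert _ _⟩
  · intro x hx y hy he
    obtain ⟨hx1, _⟩ := mem_Ext.mp hx
    have : x ∈ insert y S := he ▸ Finset.mem_insert_self x S
    rw [Finset.mem_insert] at this
    rcases this with h | h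
    · exact h
    · exact absurd h hx1
  · intro T hT
    simp only [Finset.mem_filter, mem_I] at hT
    obtain ⟨⟨hT1, hT2⟩, hT3⟩ := hT
    have hc : (T \ S).card = 1 := by
      rw [Finset.card_sdiff_of_subset hT3, hT1, hS]
      omega
    obtain ⟨x, hx⟩ := Finset.card_eq_one.mp hc
    have hxm : x ∈ T \ S := by rw [hx]; simp
    rw [Finset.mem_sdiff] at hxm
    have hTe : T = insert x S := by
      ext y
      rw [Finset.mem_insert]
      constructor
      · intro hy
        by_cases hyS : y ∈ S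
        · exact Or.inr hyS
        · left
          have : y ∈ T \ S := Finset.mem_sdiff.mpr ⟨hy, hyS⟩
          rw [hx] at this
          exact Finset.mem_singleton.mp this
      · rintro (rfl | hy)
        · exact hxm.1
        · exact hT3 hy
    exact ⟨x, mem_Ext.mpr ⟨hxm.2, hTe ▸ hT2⟩, hTe.symm⟩

lemma card_I2 (h : Pl L) : (I L 2).card = 210 := by
  have : I L 2 = Finset.powersetCard 2 (Finset.univ : Finset α) := by
    ext S
    rw [mem_I, Finset.mem_powersetCard]
    constructor
    · rintro ⟨h1, _⟩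
      exact ⟨Finset.subset_univ _, h1⟩
    · rintro ⟨_, h1⟩
      refine ⟨h1, fun l _ => ?_⟩
      rw [← h1]
      exact Finset.card_le_card Finset.inter_subset_right
  rw [this, Finset.card_powersetCard, Finset.card_univ, h.card]
  norm_num [Nat.choose]

lemma card_Ext2 (h : Pl L) {S : Finset α} (hS : S ∈ I L 2) : (Ext L S).card = 16 := by
  obtain ⟨hS1, hS2⟩ := mem_I.mp hS
  obtain ⟨a, b, hab, rfl⟩ := Finset.card_eq_two.mp hS1
  have : Ext L {a, b} = Finset.univ \ ln h a b := by
    ext x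
    rw [mem_Ext_iff h hS2, Finset.mem_sdiff]
    simp only [Finset.mem_univ, true_and]
    constructor
    · rintro ⟨_, hx⟩
      exact hx a (by simp) b (by simp) hab
    · intro hx
      refine ⟨?_, ?_⟩
      · simp only [Finset.mem_insert, Finset.mem_singleton, not_or]
        refine ⟨?_, ?_⟩
        · rintro rfl; exact hx (left_mem h _ _)
        · rintro rfl; exact hx (right_mem h _ _)
      · intro y hy z hz hne
        simp only [Finset.mem_insert, Finset.mem_singleton] at hy hz
        rcases hy with rfl | rfl <;> rcases hz with rfl | rfl <;>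
          first
            | exact absurd rfl hne
            | assumption
            | (rw [ln_comm h hne]; assumption)
  rw [this, Finset.card_sdiff_of_subset (Finset.subset_univ _), Finset.card_univ, h.card,
    h.card_line (ln_mem h a b)]

lemma card_Ext3 (h : Pl L) {S : Finset α} (hS : S ∈ I L 3) : (Ext L S).card = 9 := by
  obtain ⟨hS1, hS2⟩ := mem_I.mp hS
  obtain ⟨a, b, c, hab, hac, hbc, rfl⟩ := Finset.card_eq_three.mp hS1
  have h1 : c ∉ ln h a b :=
    hS2.no3 (ln_mem h a b) (by simp) (by simp) (by simp) hab hac hbc (left_mem h a b) (right_mem h a b)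
  have h2 : b ∉ ln h a c :=
    hS2.no3 (ln_mem h a c) (by simp) (by simp) (by simp) hac hab hbc.symm (left_mem h a c) (right_mem h a c)
  have h3 : a ∉ ln h b c :=
    hS2.no3 (ln_mem h b c) (by simp) (by simp) (by simp) hbc hab.symm hac.symm (left_mem h b c) (right_mem h b c)
  have : Ext L {a, b, c} = Finset.univ \ (ln h a b ∪ ln h a c ∪ ln h b c) := by
    ext x
    rw [mem_Ext_iff h hS2, Finset.mem_sdiff]
    simp only [Finset.mem_univ, true_and, Finset.mem_union, not_or]
    constructor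
    · rintro ⟨_, hx⟩
      exact ⟨⟨hx a (by simp) b (by simp) hab, hx a (by simp) c (by simp) hac⟩, hx b (by simp) c (by simp) hbc⟩
    · rintro ⟨⟨hx1, hx2⟩, hx3⟩
      refine ⟨?_, ?_⟩
      · simp only [Finset.mem_insert, Finset.mem_singleton, not_or]
        refine ⟨?_, ?_, ?_⟩
        · rintro rfl; exact hx1 (left_mem h _ _)
        · rintro rfl; exact hx1 (right_mem h _ _)
        · rintro rfl; exact hx2 (right_mem h _ _)
      · intro y hy z hz hne
        simp only [Finset.mem_insert, Finset.mem_singleton] at hy hz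
        rcases hy with rfl | rfl | rfl <;> rcases hz with rfl | rfl | rfl <;>
          first
            | exact absurd rfl hne
            | assumption
            | (rw [ln_comm h hne]; assumption)
  have hne1 : ln h a b ≠ ln h a c := by
    intro he; exact h1 (by rw [he]; exact right_mem h a c)
  have hne2 : ln h a b ≠ ln h b c := by
    intro he; exact h1 (by rw [he]; exact right_mem h b c)
  have hne3 : ln h a c ≠ ln h b c := by
    intro he; exact h2 (by rw [he]; exact left_mem h b c)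
  have i1 : ln h a b ∩ ln h a c = {a} := by
    ext x
    rw [Finset.mem_inter, Finset.mem_singleton]
    constructor
    · rintro ⟨hx, hx'⟩
      exact inter_eq h (ln_mem h a b) (ln_mem h a c) hne1 hx hx' (left_mem h _ _) (left_mem h _ _)
    · rintro rfl
      exact ⟨left_mem h _ _, left_mem h _ _⟩
  have i2 : (ln h a b ∪ ln h a c) ∩ ln h b c = {b, c} := by
    ext x
    rw [Finset.mem_inter, Finset.mem_union, Finset.mem_insert, Finset.mem_singleton]
    constructor
    · rintro ⟨hx | hx, hx'⟩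
      · left
        exact inter_eq h (ln_mem h a b) (ln_mem h b c) hne2 hx hx' (right_mem h _ _) (left_mem h _ _)
      · right
        exact inter_eq h (ln_mem h a c) (ln_mem h b c) hne3 hx hx' (right_mem h _ _) (right_mem h _ _)
    · rintro (rfl | rfl)
      · exact ⟨Or.inl (right_mem h _ _), left_mem h _ _⟩
      · exact ⟨Or.inr (right_mem h _ _), right_mem h _ _⟩
  have c1 := Finset.card_union_add_card_inter (ln h a b) (ln h a c)
  have c2 := Finset.card_union_add_card_inter (ln h a b ∪ ln h a c) (ln h b c)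
  rw [i1, Finset.card_singleton, h.card_line (ln_mem h a b), h.card_line (ln_mem h a c)] at c1
  rw [i2, Finset.card_pair hbc, h.card_line (ln_mem h b c)] at c2
  rw [this, Finset.card_sdiff_of_subset (Finset.subset_univ _), Finset.card_univ, h.card]
  omega

theorem card_I3 (h : Pl L) : (I L 3).card = 1120 := by
  classical
  have := dc (L := L) 2 3 16 (by
    intro S hS
    rw [card_ext_eq (k := 2) (mem_I.mp hS).1, card_Ext2 h hS])
  rw [card_I2 h] at this
  norm_num [Nat.choose] at this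
  omega

theorem card_I4 (h : Pl L) : (I L 4).card = 2520 := by
  classical
  have := dc (L := L) 3 4 9 (by
    intro S hS
    rw [card_ext_eq (k := 3) (mem_I.mp hS).1, card_Ext3 h hS])
  rw [card_I3 h] at this
  norm_num [Nat.choose] at this
  omega

/-- Every independent 4-set lies in exactly one hyperoval. -/
theorem exists_unique_hyp (h : Pl L) {Q : Finset α} (hc : Q.card = 4) (hQ : Indep L Q) :
    ∃! H : Finset α, (H.card = 6 ∧ Indep L H) ∧ Q ⊆ H := by
  obtain ⟨h1, h2⟩ := hyp_of_quad h hc hQ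
  refine ⟨Q ∪ Ext L Q, ⟨⟨h1, h2⟩, Finset.subset_union_left⟩, ?_⟩
  rintro H ⟨⟨hH, hHi⟩, hs⟩
  exact hyp_unique h hc hQ hH hHi hs

theorem card_I6 (h : Pl L) : (I L 6).card = 168 := by
  classical
  have := dc (L := L) 4 6 1 (by
    intro S hS
    obtain ⟨hS1, hS2⟩ := mem_I.mp hS
    obtain ⟨H, ⟨⟨h1, h2⟩, h3⟩, hu⟩ := exists_unique_hyp h hS1 hS2
    rw [Finset.card_eq_one]
    refine ⟨H, ?_⟩
    ext T
    simp only [Finset.mem_filter, mem_I, Finset.mem_singleton]
    constructor
    · rintro ⟨⟨hT1, hT2⟩, hT3⟩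
      exact hu T ⟨⟨hT1, hT2⟩, hT3⟩
    · rintro rfl
      exact ⟨⟨h1, h2⟩, h3⟩)
  rw [card_I4 h] at this
  norm_num [Nat.choose] at this
  omega

lemma ncard_eq (k : ℕ) : {S : Finset α | S.card = k ∧ ∀ l ∈ L, (l ∩ S).card ≤ 2}.ncard = (I L k).card := by
  have : {S : Finset α | S.card = k ∧ ∀ l ∈ L, (l ∩ S).card ≤ 2} = ((I L k : Finset (Finset α)) : Set (Finset α)) := by
    ext S
    simp only [Finset.mem_coe, mem_I]
    rfl
  rw [this, Set.ncard_coe_finset]

end Cfsg.Agent.Lib.H1PG4
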