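import Cfsg.Agent.Lib.H1PLen

/-! Calculus of the upper `p`-series: images, subgroups, extensions. -/

set_option autoImplicit false
set_option linter.unusedSectionVars false
set_option linter.unusedVariables false
set_option linter.style.haveILetI false

namespace Cfsg.Agent.Lib.H1PLenX

open Cfsg Cfsg.Agent.Lib Cfsg.Agent.Lib.H1Core

universe u

section Basic

variable {G : Type*} [Group G] [Finite G] {p : ℕ} [hp : Fact p.Prime]

theorem mem_even {n : ℕ} (h : Even n) {x : G} (hx : x ∈ (upperPSeries p G (n + 1)).1) :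
    ∃ m : ℕ, m.Coprime p ∧ x ^ m ∈ (upperPSeries p G n).1 := by
  rw [PSolv.upper_succ_even p h, Subgroup.mem_comap] at hx
  set U := (upperPSeries p G n).1
  refine ⟨orderOf (⟨_, hx⟩ : pPrimeCore p (G ⧸ U)), ?_, ?_⟩
  · exact Nat.Coprime.coprime_dvd_left (orderOf_dvd_natCard _) (pPrimeCore_coprime p)
  · have h1 := pow_orderOf_eq_one (⟨_, hx⟩ : pPrimeCore p (G ⧸ U))
    have h2 := congrArg Subtype.val h1
    simp only [SubmonoidClass.coe_pow, OneMemClass.coe_one] at h2
    rw [← map_pow] at h2
    exact (QuotientGroup.eq_one_iff _).mp h2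

theorem mem_odd {n : ℕ} (h : ¬ Even n) {x : G} (hx : x ∈ (upperPSeries p G (n + 1)).1) :
    ∃ e : ℕ, x ^ (p ^ e) ∈ (upperPSeries p G n).1 := by
  rw [PSolv.upper_succ_odd p h, Subgroup.mem_comap] at hx
  set U := (upperPSeries p G n).1
  obtain ⟨e, he⟩ := pCore_isPGroup (G := G ⧸ U) p ⟨_, hx⟩
  refine ⟨e, ?_⟩
  have h2 := congrArg Subtype.val he
  simp only [SubmonoidClass.coe_pow, OneMemClass.coe_one] at h2
  rw [← map_pow] at h2
  exact (QuotientGroup.eq_one_iff _).mp h2

theorem le_even {n : ℕ} (h : Even n) (Z : Subgroup G) [hZ : Z.Normal]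
    (hz : ∀ z ∈ Z, ∃ m : ℕ, m.Coprime p ∧ z ^ m ∈ (upperPSeries p G n).1) :
    Z ≤ (upperPSeries p G (n + 1)).1 := by
  rw [PSolv.upper_succ_even p h]
  set U := (upperPSeries p G n).1
  rw [← Subgroup.map_le_iff_le_comap]
  apply le_pPrimeCore (Subgroup.Normal.map hZ _ (QuotientGroup.mk'_surjective U))
  rw [Nat.coprime_comm, Nat.Prime.coprime_iff_not_dvd hp.out]
  intro hd
  obtain ⟨⟨y, hy⟩, hyo⟩ := exists_prime_orderOf_dvd_card' p hd
  rw [Subgroup.orderOf_mk] at hyo
  obtain ⟨z, hzZ, rfl⟩ := hy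
  obtain ⟨m, hm, hzm⟩ := hz z hzZ
  have h1 : (QuotientGroup.mk' U z) ^ m = 1 := by
    rw [← map_pow]
    exact (QuotientGroup.eq_one_iff _).mpr hzm
  have h2 : orderOf (QuotientGroup.mk' U z) ∣ m := orderOf_dvd_of_pow_eq_one h1
  rw [hyo] at h2
  have h3 := Nat.Coprime.eq_one_of_dvd hm.symm h2
  exact hp.out.ne_one h3

theorem le_odd {n : ℕ} (h : ¬ Even n) (Z : Subgroup G) [hZ : Z.Normal]
    (hz : ∀ z ∈ Z, ∃ e : ℕ, z ^ (p ^ e) ∈ (upperPSeries p G n).1) :
    Z ≤ (upperPSeries p G (n + 1)).1 := by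
  rw [PSolv.upper_succ_odd p h]
  set U := (upperPSeries p G n).1
  rw [← Subgroup.map_le_iff_le_comap]
  apply le_pCore (Subgroup.Normal.map hZ _ (QuotientGroup.mk'_surjective U))
  rintro ⟨y, z, hzZ, rfl⟩
  obtain ⟨e, he⟩ := hz z hzZ
  refine ⟨e, Subtype.ext ?_⟩
  simp only [SubmonoidClass.coe_pow, OneMemClass.coe_one]
  rw [← map_pow]
  exact (QuotientGroup.eq_one_iff _).mpr he

end Basic

section Map

variable {G Y : Type*} [Group G] [Group Y] [Finite G] [Finite Y] {p : ℕ} [hp : Fact p.Prime]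

theorem upper_map_le (f : G →* Y) (hf : Function.Surjective f) (n : ℕ) :
    (upperPSeries p G n).1.map f ≤ (upperPSeries p Y n).1 := by
  induction n with
  | zero =>
    change (⊥ : Subgroup G).map f ≤ ⊥
    rw [Subgroup.map_bot]
  | succ n ih =>
    haveI hZ : ((upperPSeries p G (n + 1)).1.map f).Normal :=
      Subgroup.Normal.map (upperPSeries_normal p G _) f hf
    by_cases hn : Even n
    · apply le_even hn
      rintro _ ⟨x, hx, rfl⟩
      obtain ⟨m, hm, hxm⟩ := mem_even hn hx
      exact ⟨m, hm, by rw [← map_pow]; exact ih ⟨_, hxm, rfl⟩⟩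
    · apply le_odd hn
      rintro _ ⟨x, hx, rfl⟩
      obtain ⟨e, he⟩ := mem_odd hn hx
      exact ⟨e, by rw [← map_pow]; exact ih ⟨_, he, rfl⟩⟩

theorem plen_of_surjective (f : G →* Y) (hf : Function.Surjective f) {k : ℕ}
    (h : PLengthLE p k G) : PLengthLE p k Y := by
  unfold PLengthLE at h ⊢
  have h1 := upper_map_le (p := p) f hf (2 * k + 1)
  rw [h, Subgroup.map_top_of_surjective f hf] at h1
  exact top_le_iff.mp h1

end Map

section Sub

variable {G : Type*} [Group G] [Finite G] {p : ℕ} [hp : Fact p.Prime]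

theorem comap_upper_le (A : Subgroup G) (n : ℕ) :
    (upperPSeries p G n).1.comap A.subtype ≤ (upperPSeries p A n).1 := by
  induction n with
  | zero =>
    intro x hx
    have h0 : (x : G) ∈ (⊥ : Subgroup G) := hx
    have hx1 : x = 1 := Subtype.ext (Subgroup.mem_bot.mp h0)
    rw [hx1]
    exact one_mem _
  | succ n ih =>
    haveI hZ : ((upperPSeries p G (n + 1)).1.comap A.subtype).Normal :=
      Subgroup.Normal.comap (upperPSeries_normal p G _) _
    by_cases hn : Even n
    · apply le_even hn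
      intro z hz
      obtain ⟨m, hm, hzm⟩ := mem_even hn (Subgroup.mem_comap.mp hz)
      refine ⟨m, hm, ih (Subgroup.mem_comap.mpr ?_)⟩
      rw [map_pow]
      exact hzm
    · apply le_odd hn
      intro z hz
      obtain ⟨e, he⟩ := mem_odd hn (Subgroup.mem_comap.mp hz)
      refine ⟨e, ih (Subgroup.mem_comap.mpr ?_)⟩
      rw [map_pow]
      exact he

theorem plen_subgroup (A : Subgroup G) {k : ℕ} (h : PLengthLE p k G) : PLengthLE p k A := by
  unfold PLengthLE at h ⊢
  have h1 := comap_upper_le (p := p) A (2 * k + 1)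
  rw [h, Subgroup.comap_top] at h1
  exact top_le_iff.mp h1

theorem upper_characteristic (n : ℕ) : (upperPSeries p G n).1.Characteristic := by
  rw [Subgroup.characteristic_iff_map_le]
  intro ϕ
  exact upper_map_le (p := p) ϕ.toMonoidHom ϕ.surjective n

theorem plen_zero_of_coprime (h : (Nat.card G).Coprime p) : PLengthLE p 0 G := by
  unfold PLengthLE
  rw [eq_top_iff]
  apply le_even (p := p) (n := 0) (by simp) ⊤
  intro z _
  refine ⟨orderOf z, Nat.Coprime.coprime_dvd_left (orderOf_dvd_natCard _) h, ?_⟩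
  rw [pow_orderOf_eq_one]
  exact one_mem _

theorem plen_one_of_pgroup (h : IsPGroup p G) : PLengthLE p 1 G := by
  have h1 : (upperPSeries p G 2).1 = ⊤ := by
    rw [eq_top_iff]
    apply le_odd (p := p) (n := 1) (by decide) ⊤
    intro z _
    obtain ⟨e, he⟩ := h z
    exact ⟨e, by rw [he]; exact one_mem _⟩
  unfold PLengthLE
  rw [eq_top_iff]
  apply le_even (p := p) (n := 2) (by decide) ⊤
  intro z _
  exact ⟨1, by simp, by rw [pow_one, h1]; exact Subgroup.mem_top z⟩

/-- Extension lemma for the `p`-length. -/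
theorem plen_ext (N : Subgroup G) [hN : N.Normal] {a b : ℕ} (ha : PLengthLE p a N)
    (hb : PLengthLE p b (G ⧸ N)) : PLengthLE p (a + b) G := by
  -- the series of N sits in the series of G
  have h1 : ∀ n, (upperPSeries p N n).1.map N.subtype ≤ (upperPSeries p G n).1 := by
    intro n
    induction n with
    | zero =>
      change (⊥ : Subgroup N).map N.subtype ≤ ⊥
      rw [Subgroup.map_bot]
    | succ n ih =>
      haveI : (upperPSeries p N (n + 1)).1.Characteristic := upper_characteristic (n + 1)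
      haveI hZ : ((upperPSeries p N (n + 1)).1.map N.subtype).Normal :=
        ConjAct.normal_of_characteristic_of_normal
      by_cases hn : Even n
      · apply le_even hn
        rintro _ ⟨x, hx, rfl⟩
        obtain ⟨m, hm, hxm⟩ := mem_even hn hx
        exact ⟨m, hm, by rw [← map_pow]; exact ih ⟨_, hxm, rfl⟩⟩
      · apply le_odd hn
        rintro _ ⟨x, hx, rfl⟩
        obtain ⟨e, he⟩ := mem_odd hn hx
        exact ⟨e, by rw [← map_pow]; exact ih ⟨_, he, rfl⟩⟩
  have hNU : N ≤ (upperPSeries p G (2 * a + 1)).1 := by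
    have h2 := h1 (2 * a + 1)
    unfold PLengthLE at ha
    rw [ha, ← MonoidHom.range_eq_map, Subgroup.range_subtype] at h2
    exact h2
  -- the series of the quotient
  let f := QuotientGroup.mk' N
  have hf : Function.Surjective f := QuotientGroup.mk'_surjective N
  have hodd : ¬ Even (2 * a + 1) := by simp [Nat.even_add_one]
  have heven : Even (2 * a) := even_two_mul a
  have h3 : ∀ n, (upperPSeries p (G ⧸ N) (n + 1)).1.comap f ≤ (upperPSeries p G (2 * a + n + 1)).1 := by
    intro n
    induction n with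
    | zero =>
      haveI hZ : ((upperPSeries p (G ⧸ N) (0 + 1)).1.comap f).Normal :=
        Subgroup.Normal.comap (upperPSeries_normal p _ _) _
      apply le_even (n := 2 * a + 0) (by simpa using heven)
      intro z hz
      obtain ⟨m, hm, hzm⟩ := mem_even (p := p) (n := 0) (by simp) (Subgroup.mem_comap.mp hz)
      have hbot : (upperPSeries p (G ⧸ N) 0).1 = ⊥ := rfl
      rw [hbot, Subgroup.mem_bot, ← map_pow] at hzm
      have hzN : z ^ m ∈ N := by
        have := (QuotientGroup.eq_one_iff _).mp hzm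
        exact this
      obtain ⟨m', hm', hz2⟩ := mem_even heven (hNU hzN)
      refine ⟨m * m', Nat.Coprime.mul_left hm hm', ?_⟩
      rw [pow_mul]
      exact hz2
    | succ n ih =>
      haveI hZ : ((upperPSeries p (G ⧸ N) (n + 1 + 1)).1.comap f).Normal :=
        Subgroup.Normal.comap (upperPSeries_normal p _ _) _
      by_cases hn : Even (n + 1)
      · have hn' : Even (2 * a + n + 1) := by
          rw [add_assoc]
          exact heven.add hn
        apply le_even (n := 2 * a + n + 1) hn'
        intro z hz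
        obtain ⟨m, hm, hzm⟩ := mem_even hn (Subgroup.mem_comap.mp hz)
        refine ⟨m, hm, ih (Subgroup.mem_comap.mpr ?_)⟩
        rw [map_pow]
        exact hzm
      · have hn' : ¬ Even (2 * a + n + 1) := by
          rw [add_assoc]
          intro h
          exact hn ((Nat.even_add.mp h).mp heven)
        apply le_odd (n := 2 * a + n + 1) hn'
        intro z hz
        obtain ⟨e, he⟩ := mem_odd hn (Subgroup.mem_comap.mp hz)
        refine ⟨e, ih (Subgroup.mem_comap.mpr ?_)⟩
        rw [map_pow]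
        exact he
  unfold PLengthLE at hb ⊢
  have h4 := h3 (2 * b)
  rw [hb, Subgroup.comap_top] at h4
  have h5 : 2 * a + 2 * b + 1 = 2 * (a + b) + 1 := by ring
  rw [h5] at h4
  exact top_le_iff.mp h4

end Sub

section Shift

variable {G : Type u} [Group G] [Finite G] {p : ℕ} [hp : Fact p.Prime]

theorem plen_shift {k : ℕ} (h : PLengthLE p (k + 1) G) :
    PLengthLE p k (G ⧸ (upperPSeries p G 2).1) := by
  unfold PLengthLE at h ⊢
  have h1 := PSolv.upper_shift p (G := G) (2 * k + 1)
  have h2 : 2 * k + 1 + 2 = 2 * (k + 1) + 1 := by ring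
  rw [h2, h] at h1
  rw [eq_top_iff]
  intro x _
  obtain ⟨g, rfl⟩ := QuotientGroup.mk'_surjective _ x
  have h3 : g ∈ (⊤ : Subgroup G) := Subgroup.mem_top g
  rw [h1] at h3
  exact h3

/-- The double quotient by `O_{p'}` and then `O_p` has smaller `p`-length. -/
theorem plen_shift' {k : ℕ} (h : PLengthLE p (k + 1) G) :
    PLengthLE p k ((G ⧸ pPrimeCore p G) ⧸ pCore p (G ⧸ pPrimeCore p G)) := by
  have h1 := plen_shift h
  let b : G →* ((G ⧸ pPrimeCore p G) ⧸ pCore p (G ⧸ pPrimeCore p G)) :=
    (QuotientGroup.mk' (pCore p (G ⧸ pPrimeCore p G))).comp (QuotientGroup.mk' (pPrimeCore p G))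
  have hb : Function.Surjective b :=
    (QuotientGroup.mk'_surjective _).comp (QuotientGroup.mk'_surjective _)
  have hker : (QuotientGroup.mk' (upperPSeries p G 2).1).ker = b.ker := by
    rw [QuotientGroup.ker_mk', H1PLen.upper_two]
    ext x
    rw [MonoidHom.mem_ker]
    simp only [b, MonoidHom.comp_apply]
    exact (QuotientGroup.eq_one_iff (N := pCore p (G ⧸ pPrimeCore p G)) (QuotientGroup.mk' (pPrimeCore p G) x)).symm
  obtain ⟨e, he⟩ := PSolv.exists_equiv_of_ker_eq _ b (QuotientGroup.mk'_surjective _) hb hker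
  exact plen_of_surjective e.toMonoidHom e.surjective h1

end Shift

end Cfsg.Agent.Lib.H1PLenX
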