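import Cfsg.Agent.Lib.H1Kegel
import Cfsg.Agent.Lib.H1Prim2
import Cfsg.Agent.Lib.H1Hall

set_option autoImplicit false

/-! Permutable conjugates of Hall subgroups in solvable groups. -/

namespace Cfsg.Agent.Lib.H1Perm

open Cfsg Pointwise Cfsg.Agent.Lib.H1Core Cfsg.Agent.Lib.H1Conj Cfsg.Agent.Lib.H1Kegel

universe u

/-- A Hall divisor, locally. -/
theorem hall_iff {m n : ℕ} (hn : n ≠ 0) (hm : m ∣ n) :
    Nat.Coprime m (n / m) ↔ ∀ p : ℕ, p.Prime → p ∣ m → m.factorization p = n.factorization p := by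
  obtain ⟨k, rfl⟩ := hm
  have hm0 : m ≠ 0 := left_ne_zero_of_mul hn
  have hk0 : k ≠ 0 := right_ne_zero_of_mul hn
  rw [Nat.mul_div_cancel_left k (Nat.pos_of_ne_zero hm0)]
  constructor
  · intro hc p hp hd
    rw [Nat.factorization_mul hm0 hk0, Finsupp.add_apply]
    have : ¬ p ∣ k := by
      intro h2
      have h3 : p ∣ Nat.gcd m k := Nat.dvd_gcd hd h2
      rw [hc] at h3
      exact hp.one_lt.ne' (Nat.dvd_one.mp h3)
    rw [Nat.factorization_eq_zero_of_not_dvd this, add_zero]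
  · intro h
    apply Nat.coprime_of_dvd
    intro p hp h1 h2
    have h3 := h p hp h1
    rw [Nat.factorization_mul hm0 hk0, Finsupp.add_apply] at h3
    have h4 := (hp.dvd_iff_one_le_factorization hk0).mp h2
    omega

theorem gcd_lcm_hall {a b n : ℕ} (hn : n ≠ 0) (ha : a ∣ n) (hb : b ∣ n)
    (hac : Nat.Coprime a (n / a)) (hbc : Nat.Coprime b (n / b)) :
    Nat.Coprime (Nat.gcd a b) (n / Nat.gcd a b) ∧
      Nat.Coprime (Nat.lcm a b) (n / Nat.lcm a b) ∧
      Nat.Coprime b (Nat.lcm a b / b) := by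
  have ha0 : a ≠ 0 := fun e => hn (by rw [e, zero_dvd_iff] at ha; exact ha)
  have hb0 : b ≠ 0 := fun e => hn (by rw [e, zero_dvd_iff] at hb; exact hb)
  have hA := (hall_iff hn ha).mp hac
  have hB := (hall_iff hn hb).mp hbc
  have hg0 : Nat.gcd a b ≠ 0 := Nat.gcd_ne_zero_left ha0
  have hl0 : Nat.lcm a b ≠ 0 := Nat.lcm_ne_zero ha0 hb0
  have hle : Nat.lcm a b ∣ n := Nat.lcm_dvd ha hb
  have hale : ∀ p, a.factorization p ≤ n.factorization p := fun p =>
    (Nat.factorization_le_iff_dvd ha0 hn).mpr ha p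
  have hble : ∀ p, b.factorization p ≤ n.factorization p := fun p =>
    (Nat.factorization_le_iff_dvd hb0 hn).mpr hb p
  refine ⟨?_, ?_, ?_⟩
  · rw [hall_iff hn ((Nat.gcd_dvd_left a b).trans ha)]
    intro p hp hd
    have h1 := hA p hp (hd.trans (Nat.gcd_dvd_left a b))
    have h2 := hB p hp (hd.trans (Nat.gcd_dvd_right a b))
    rw [Nat.factorization_gcd ha0 hb0, Finsupp.inf_apply, h1, h2, inf_idem]
  · rw [hall_iff hn hle]
    intro p hp hd
    rw [Nat.factorization_lcm ha0 hb0, Finsupp.sup_apply]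
    rcases (Nat.Prime.dvd_mul hp).mp (hd.trans (Nat.lcm_dvd_mul a b)) with h | h
    · rw [hA p hp h]
      exact sup_eq_left.mpr (hble p)
    · rw [hB p hp h]
      exact sup_eq_right.mpr (hale p)
  · rw [hall_iff hl0 (Nat.dvd_lcm_right a b)]
    intro p hp hd
    rw [Nat.factorization_lcm ha0 hb0, Finsupp.sup_apply, hB p hp hd]
    exact (sup_eq_right.mpr (hale p)).symm

/-- In a finite solvable group two Hall subgroups have permutable conjugates. -/
theorem exists_perm_conj {G : Type u} [Group G] [Finite G] [Group.IsSolvable G] (A B : Subgroup G)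
    (hA : (Nat.card A).Coprime A.index) (hB : (Nat.card B).Coprime B.index) :
    ∃ (u w : G) (T : Subgroup G), (T : Set G) =
      ((MulAut.conj u • A : Subgroup G) : Set G) * ((MulAut.conj w • B : Subgroup G) : Set G) := by
  classical
  set n := Nat.card G with hn
  have hn0 : n ≠ 0 := Nat.card_pos.ne'
  set a := Nat.card A with ha
  set b := Nat.card B with hb
  have hGa : a * A.index = n := Subgroup.card_mul_index A
  have hGb : b * B.index = n := Subgroup.card_mul_index B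
  have hapos : 0 < a := Nat.card_pos
  have hbpos : 0 < b := Nat.card_pos
  have had : a ∣ n := Dvd.intro _ hGa
  have hbd : b ∣ n := Dvd.intro _ hGb
  have hA' : a.Coprime (n / a) := by
    rw [← hGa, Nat.mul_div_cancel_left _ hapos]; exact hA
  have hB' : b.Coprime (n / b) := by
    rw [← hGb, Nat.mul_div_cancel_left _ hbpos]; exact hB
  obtain ⟨h1, h2, h3⟩ := gcd_lcm_hall hn0 had hbd hA' hB'
  set d := Nat.gcd a b with hd
  set l := Nat.lcm a b with hl
  have hdn : d ∣ n := (Nat.gcd_dvd_left a b).trans had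
  have hln : l ∣ n := Nat.lcm_dvd had hbd
  have hbl : b ∣ l := Nat.dvd_lcm_right a b
  have hal : a ∣ l := Nat.dvd_lcm_left a b
  -- the subgroup `D`
  obtain ⟨D, hDc⟩ := Cfsg.Agent.Lib.H1Hall.hall_exists d (n / d)
    (by rw [Nat.mul_div_cancel' hdn]) h1
  -- `A₁ ⊇ D` of order `a`
  obtain ⟨A₁, hA₁c, hDA₁⟩ := Cfsg.Agent.Lib.H1Hall.hall_contains a (n / a)
    (by rw [Nat.mul_div_cancel' had]) hA' D (by
      rw [hDc]
      exact Nat.Coprime.coprime_dvd_left (Nat.gcd_dvd_left a b) hA')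
  obtain ⟨u, hu⟩ := Cfsg.Agent.Lib.H1Hall.hall_conj a (n / a)
    (by rw [Nat.mul_div_cancel' had]) hA' A A₁ rfl hA₁c
  -- `T ⊇ A₁` of order `l`
  obtain ⟨T, hTc, hA₁T⟩ := Cfsg.Agent.Lib.H1Hall.hall_contains l (n / l)
    (by rw [Nat.mul_div_cancel' hln]) h2 A₁ (by
      rw [hA₁c]
      exact Nat.Coprime.coprime_dvd_left hal h2)
  have hDT : D ≤ T := hDA₁.trans hA₁T
  -- `B₂ ⊇ D` of order `b` in `T`
  haveI hTs : Group.IsSolvable T := Cfsg.Agent.Lib.H1SZ.isSolvable_of_le (le_top : T ≤ ⊤) (by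
    exact (inferInstance : Group.IsSolvable (⊤ : Subgroup G)))
  obtain ⟨B₂, hB₂c, hDB₂⟩ := Cfsg.Agent.Lib.H1Hall.hall_contains (G := T) b (l / b)
    (by rw [hTc, Nat.mul_div_cancel' hbl]) h3 (D.subgroupOf T) (by
      rw [Cfsg.Agent.Lib.H1SZ.card_subgroupOf_of_le hDT, hDc]
      exact Nat.Coprime.coprime_dvd_left (Nat.gcd_dvd_right a b) h3)
  set B₃ : Subgroup G := B₂.map T.subtype with hB₃
  have hB₃c : Nat.card B₃ = b := by
    rw [hB₃, Subgroup.card_map_of_injective T.subtype_injective, hB₂c]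
  have hB₃T : B₃ ≤ T := Subgroup.map_subtype_le _
  have hDB₃ : D ≤ B₃ := by
    intro y hy
    exact ⟨⟨y, hDT hy⟩, hDB₂ (Subgroup.mem_subgroupOf.mpr hy), rfl⟩
  obtain ⟨w, hw⟩ := Cfsg.Agent.Lib.H1Hall.hall_conj b (n / b)
    (by rw [Nat.mul_div_cancel' hbd]) hB' B B₃ rfl hB₃c
  refine ⟨u, w, T, ?_⟩
  rw [hu, hw]
  -- the count
  have hinf : Nat.card (A₁ ⊓ B₃ : Subgroup G) = d := by
    apply Nat.dvd_antisymm
    · apply Nat.dvd_gcd
      · rw [← hA₁c]; exact Subgroup.card_dvd_of_le inf_le_left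
      · rw [← hB₃c]; exact Subgroup.card_dvd_of_le inf_le_right
    · rw [← hDc]
      exact Subgroup.card_dvd_of_le (le_inf hDA₁ hDB₃)
  have hprod := Cfsg.Agent.Lib.H1Prod.card_mul_set A₁ B₃
  rw [hinf, hA₁c, hB₃c] at hprod
  have hdl : d * l = a * b := Nat.gcd_mul_lcm a b
  have hdpos : 0 < d := Nat.gcd_pos_of_pos_left _ hapos
  have hcard : Nat.card ((A₁ : Set G) * (B₃ : Set G) : Set G) = l := by
    rw [mul_comm, ← hdl] at hprod
    exact Nat.eq_of_mul_eq_mul_left hdpos hprod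
  symm
  apply Set.eq_of_subset_of_ncard_le
  · rintro _ ⟨x, hx, y, hy, rfl⟩
    exact T.mul_mem (hA₁T hx) (hB₃T hy)
  · rw [← Nat.card_coe_set_eq, ← Nat.card_coe_set_eq, hcard]
    show Nat.card T ≤ l
    rw [hTc]
  · exact Set.toFinite _

/-- A normal Hall subgroup is invariant under conjugations preserving the larger subgroup. -/
theorem conj_smul_eq_of_hall {G : Type*} [Group G] [Finite G] {H A : Subgroup G} (hAH : A ≤ H)
    (hAn : (A.subgroupOf H).Normal) (hAh : (Nat.card A).Coprime A.index) {x g : G}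
    (hxg : MulAut.conj x • H = MulAut.conj g • H) : MulAut.conj x • A = MulAut.conj g • A := by
  classical
  set t := g⁻¹ * x with ht
  have hx : x = g * t := by rw [ht]; group
  have htH : MulAut.conj t • H = H := by
    rw [ht, conj_mul_smul, hxg, conj_inv_smul_conj_smul]
  suffices hs : MulAut.conj t • A = A by
    rw [hx, conj_mul_smul, hs]
  apply Subgroup.eq_of_le_of_card_ge
  · intro a ha
    have haH : a ∈ H := by
      rw [← htH]
      exact mem_conj_smul.mpr (hAH (mem_conj_smul.mp ha))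
    haveI := hAn
    set z : ↥H ⧸ A.subgroupOf H := QuotientGroup.mk' (A.subgroupOf H) ⟨a, haH⟩ with hz
    have h1 : a ^ Nat.card A = 1 := by
      have h2 := mem_conj_smul.mp ha
      have h3 := pow_card_eq_one' (x := (⟨t⁻¹ * a * t, h2⟩ : A))
      have h4 : (t⁻¹ * a * t) ^ Nat.card A = 1 := congrArg Subtype.val h3
      have h5 : t * (t⁻¹ * a * t) * t⁻¹ = a := by group
      rw [← h5, conj_pow, h4]
      group
    have hz1 : z ^ Nat.card A = 1 := by
      rw [hz, ← map_pow]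
      have : (⟨a, haH⟩ : H) ^ Nat.card A = 1 := Subtype.ext h1
      rw [this, map_one]
    have hz2 : z ^ Nat.card (↥H ⧸ A.subgroupOf H) = 1 := pow_card_eq_one'
    have hdvd : Nat.card (↥H ⧸ A.subgroupOf H) ∣ A.index := by
      have h3 : A.relIndex H * H.index = A.index := Subgroup.relIndex_mul_index hAH
      rw [← Subgroup.index_eq_card]
      exact Dvd.intro _ h3
    have hcop := Nat.Coprime.coprime_dvd_right hdvd hAh
    have h6 : orderOf z ∣ Nat.gcd (Nat.card A) (Nat.card (↥H ⧸ A.subgroupOf H)) :=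
      Nat.dvd_gcd (orderOf_dvd_of_pow_eq_one hz1) (orderOf_dvd_of_pow_eq_one hz2)
    rw [hcop, Nat.dvd_one, orderOf_eq_one_iff] at h6
    have h7 := (QuotientGroup.eq_one_iff _).mp h6
    exact Subgroup.mem_subgroupOf.mp h7
  · rw [card_conj_smul]

/-- Permutability of Hall subgroups normal in the factors of a factorization. -/
theorem hall_perm {G : Type u} [Group G] [Finite G] [Group.IsSolvable G] (H K A B : Subgroup G)
    (hHK : ∀ g : G, ∃ h ∈ H, ∃ k ∈ K, g = h * k) (hA : A ≤ H) (hAn : (A.subgroupOf H).Normal)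
    (hB : B ≤ K) (hBn : (B.subgroupOf K).Normal) (hAh : (Nat.card A).Coprime A.index)
    (hBh : (Nat.card B).Coprime B.index) (x y : G) :
    ∃ S : Subgroup G, (S : Set G) =
      ((MulAut.conj x • A : Subgroup G) : Set G) * ((MulAut.conj y • B : Subgroup G) : Set G) := by
  classical
  have hsim : ∀ x y : G, ∃ g : G, MulAut.conj x • H = MulAut.conj g • H ∧
      MulAut.conj y • K = MulAut.conj g • K := by
    intro x y
    obtain ⟨h', hh', k', hk', e⟩ := hHK (x⁻¹ * y)
    have hg : x * h' = y * k'⁻¹ := by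
      have : y = x * (h' * k') := by rw [← e]; group
      rw [this]; group
    refine ⟨x * h', ?_, ?_⟩
    · rw [conj_mul_smul, conj_smul_eq_self_of_mem hh']
    · rw [hg, conj_mul_smul, conj_smul_eq_self_of_mem (K.inv_mem hk')]
  obtain ⟨u, w, T, hT⟩ := exists_perm_conj A B hAh hBh
  obtain ⟨g₀, hg₁, hg₂⟩ := hsim u w
  have e1 := conj_smul_eq_of_hall hA hAn hAh hg₁
  have e2 := conj_smul_eq_of_hall hB hBn hBh hg₂
  rw [e1, e2] at hT
  obtain ⟨g, hg₃, hg₄⟩ := hsim x y
  have e3 := conj_smul_eq_of_hall hA hAn hAh hg₃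
  have e4 := conj_smul_eq_of_hall hB hBn hBh hg₄
  rw [e3, e4]
  refine ⟨MulAut.conj (g * g₀⁻¹) • T, ?_⟩
  rw [conj_smul_coe_mul hT, ← conj_mul_smul, ← conj_mul_smul, inv_mul_cancel_right]

end Cfsg.Agent.Lib.H1Perm
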