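import Cfsg.Agent.Lib.CharInt
import Cfsg.Agent.Lib.CharLin
import Cfsg.Agent.Lib.CharAlg
import Cfsg.Agent.Lib.CharFS
import Cfsg.Prelude.Def_Perm
import Mathlib

set_option autoImplicit false

/-! Permutation characters and the centraliser ring. -/

namespace Cfsg.Agent.Lib.H1PermChar

open Cfsg MulAction Module
open scoped ComplexConjugate
open Cfsg.Agent.Lib.CharBasic Cfsg.Agent.Lib.CharOrth
open Cfsg.Agent.Lib

universe u v

section Mat

variable {ι κ : Type*} [Fintype ι] [Fintype κ] [DecidableEq ι] [DecidableEq κ]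

theorem trace_rect (L : Matrix ι κ ℂ →ₗ[ℂ] Matrix ι κ ℂ) :
    LinearMap.trace ℂ _ L = ∑ i, ∑ j, (L (Matrix.single i j 1)) i j := by
  rw [LinearMap.trace_eq_matrix_trace ℂ (Matrix.stdBasis ℂ ι κ) L]
  have h : ∀ (X : Matrix ι κ ℂ) (p : ι × κ), (Matrix.stdBasis ℂ ι κ).repr X p = X p.1 p.2 := by
    intro X p
    simp [Matrix.stdBasis]
  simp only [Matrix.trace, Matrix.diag, LinearMap.toMatrix_apply, h]
  rw [Fintype.sum_prod_type]
  simp [Matrix.stdBasis_eq_single]

/-- left-right multiplication on rectangular matrices -/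
noncomputable def lr (X : Matrix ι ι ℂ) (Y : Matrix κ κ ℂ) : Matrix ι κ ℂ →ₗ[ℂ] Matrix ι κ ℂ where
  toFun ψ := X * ψ * Y
  map_add' a b := by simp [Matrix.mul_add, Matrix.add_mul]
  map_smul' c a := by simp [Matrix.mul_smul, Matrix.smul_mul]

theorem lr_apply (X : Matrix ι ι ℂ) (Y : Matrix κ κ ℂ) (ψ : Matrix ι κ ℂ) : lr X Y ψ = X * ψ * Y := rfl

theorem trace_lr (X : Matrix ι ι ℂ) (Y : Matrix κ κ ℂ) :
    LinearMap.trace ℂ _ (lr X Y) = X.trace * Y.trace := by
  rw [trace_rect]
  have h : ∀ i j, (X * Matrix.single i j (1 : ℂ) * Y) i j = X i i * Y j j := by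
    intro i j
    rw [Matrix.mul_assoc, Matrix.mul_apply]
    simp only [Matrix.mul_apply, Matrix.single_apply]
    rw [Finset.sum_eq_single i]
    · rw [Finset.sum_eq_single j]
      · simp
      · intro b _ hb
        simp [hb.symm]
      · intro h
        exact absurd (Finset.mem_univ _) h
    · intro b _ hb
      simp [hb.symm]
    · intro h
      exact absurd (Finset.mem_univ _) h
  simp only [lr_apply, h]
  simp only [Matrix.trace, Matrix.diag]
  rw [Finset.sum_mul_sum]

variable {G : Type u} [Group G] [Fintype G]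

theorem card_ne_zero' : (Nat.card G : ℂ) ≠ 0 := by
  have : 0 < Nat.card G := Nat.card_pos
  exact_mod_cast this.ne'

/-- The averaging projection on rectangular matrices. -/
noncomputable def avgP (R : G → Matrix ι ι ℂ) (S : G → Matrix κ κ ℂ) :
    Matrix ι κ ℂ →ₗ[ℂ] Matrix ι κ ℂ :=
  (Nat.card G : ℂ)⁻¹ • ∑ g, lr (R g) (S g⁻¹)

theorem avgP_apply (R : G → Matrix ι ι ℂ) (S : G → Matrix κ κ ℂ) (ψ : Matrix ι κ ℂ) :
    avgP R S ψ = (Nat.card G : ℂ)⁻¹ • ∑ g, R g * ψ * S g⁻¹ := by
  simp [avgP, LinearMap.sum_apply, lr_apply]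

theorem avgP_idem (R : G → Matrix ι ι ℂ) (S : G → Matrix κ κ ℂ)
    (hR : ∀ g h, R (g * h) = R g * R h) (hS : ∀ g h, S (g * h) = S g * S h) (ψ : Matrix ι κ ℂ) :
    avgP R S (avgP R S ψ) = avgP R S ψ := by
  have hcard := card_ne_zero' (G := G)
  rw [avgP_apply, avgP_apply]
  have h1 : ∀ g : G, R g * ((Nat.card G : ℂ)⁻¹ • ∑ h, R h * ψ * S h⁻¹) * S g⁻¹ =
      (Nat.card G : ℂ)⁻¹ • ∑ h, R (g * h) * ψ * S (g * h)⁻¹ := by
    intro g
    rw [Matrix.mul_smul, Matrix.smul_mul, Matrix.mul_sum, Matrix.sum_mul]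
    congr 1
    apply Finset.sum_congr rfl
    intro h _
    rw [hR, mul_inv_rev, hS]
    simp only [Matrix.mul_assoc]
  simp only [h1]
  have h2 : ∀ g : G, ∑ h, R (g * h) * ψ * S (g * h)⁻¹ = ∑ k, R k * ψ * S k⁻¹ := by
    intro g
    exact Equiv.sum_comp (Equiv.mulLeft g) (fun k => R k * ψ * S k⁻¹)
  simp only [h2, Finset.sum_const, Finset.card_univ, ← Nat.card_eq_fintype_card]
  rw [← Nat.cast_smul_eq_nsmul ℂ, smul_smul, smul_smul, mul_assoc, mul_inv_cancel₀ hcard, mul_one]

theorem trace_avg_mul (R : G → Matrix ι ι ℂ) (S : G → Matrix κ κ ℂ) (A : Matrix ι ι ℂ) :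
    LinearMap.trace ℂ _ (lr A 1 ∘ₗ avgP R S) =
      (Nat.card G : ℂ)⁻¹ * ∑ g, (A * R g).trace * (S g⁻¹).trace := by
  have h : lr A 1 ∘ₗ avgP R S = (Nat.card G : ℂ)⁻¹ • ∑ g, lr (A * R g) (S g⁻¹) := by
    ext1 ψ
    rw [LinearMap.comp_apply, avgP_apply, lr_apply]
    simp only [LinearMap.smul_apply, LinearMap.sum_apply, lr_apply, Matrix.mul_one, Matrix.mul_smul,
      Matrix.mul_sum]
    congr 1
    apply Finset.sum_congr rfl
    intro g _
    simp only [Matrix.mul_assoc]
  rw [h, map_smul, map_sum, smul_eq_mul]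
  simp only [trace_lr]

theorem isIntegral_avg (R : G → Matrix ι ι ℂ) (S : G → Matrix κ κ ℂ)
    (hR : ∀ g h, R (g * h) = R g * R h) (hS : ∀ g h, S (g * h) = S g * S h)
    (A : Matrix ι ι ℂ) (hA : ∀ g, A * R g = R g * A)
    (hint : ∀ (μ : ℂ) (v : ι → ℂ), v ≠ 0 → A.mulVec v = μ • v → IsIntegral ℤ μ) :
    IsIntegral ℤ ((Nat.card G : ℂ)⁻¹ * ∑ g, (A * R g).trace * (S g⁻¹).trace) := by
  rw [← trace_avg_mul]
  set Ξ : Module.End ℂ (Matrix ι κ ℂ) := lr A 1 ∘ₗ avgP R S with hΞ
  have hsplit : Ξ.charpoly.Splits := IsAlgClosed.splits _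
  rw [Module.End.trace_eq_sum_roots_charpoly_of_splits hsplit]
  apply IsIntegral.multiset_sum
  intro μ hμ
  by_cases hμ0 : μ = 0
  · rw [hμ0]
    exact isIntegral_zero
  have hroot : Ξ.charpoly.IsRoot μ := (Polynomial.mem_roots'.mp hμ).2
  have heig : Ξ.HasEigenvalue μ := Module.End.hasEigenvalue_iff_isRoot_charpoly Ξ μ |>.mpr hroot
  obtain ⟨ψ, hψ⟩ := heig.exists_hasEigenvector
  have hψ1 : Ξ ψ = μ • ψ := hψ.apply_eq_smul
  have hψ2 : ψ ≠ 0 := hψ.2
  have hcomm : ∀ φ : Matrix ι κ ℂ, avgP R S (A * φ) = A * avgP R S φ := by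
    intro φ
    rw [avgP_apply, avgP_apply, Matrix.mul_smul, Matrix.mul_sum]
    congr 1
    apply Finset.sum_congr rfl
    intro g _
    calc R g * (A * φ) * S g⁻¹ = (R g * A) * φ * S g⁻¹ := by simp only [Matrix.mul_assoc]
      _ = (A * R g) * φ * S g⁻¹ := by rw [hA g]
      _ = A * (R g * φ * S g⁻¹) := by simp only [Matrix.mul_assoc]
  have hΞapp : ∀ φ, Ξ φ = A * avgP R S φ := by
    intro φ
    simp [hΞ, lr_apply]
  have hPψ : avgP R S ψ = ψ := by
    have h1 : avgP R S (Ξ ψ) = Ξ ψ := by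
      rw [hΞapp, hcomm, avgP_idem R S hR hS]
    rw [hψ1, map_smul] at h1
    exact smul_right_injective _ hμ0 h1
  have hAψ : A * ψ = μ • ψ := by
    rw [← hψ1, hΞapp, hPψ]
  obtain ⟨j, hj⟩ : ∃ j, (fun i => ψ i j) ≠ 0 := by
    by_contra hc
    push Not at hc
    apply hψ2
    ext i j
    exact congrFun (hc j) i
  apply hint μ _ hj
  ext i
  have h3 := congrFun (congrFun hAψ i) j
  simpa [Matrix.mulVec, dotProduct, Matrix.mul_apply] using h3

/-- Eigenvalues of integer matrices are algebraic integers. -/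
theorem isIntegral_eigenvalue (M : Matrix ι ι ℤ) (μ : ℂ) (v : ι → ℂ) (hv : v ≠ 0)
    (h : (M.map (Int.castRingHom ℂ)).mulVec v = μ • v) : IsIntegral ℤ μ := by
  set A := M.map (Int.castRingHom ℂ) with hA
  let f : Module.End ℂ (ι → ℂ) := Matrix.toLin' A
  have heig : f.HasEigenvector μ v := by
    refine ⟨?_, hv⟩
    rw [Module.End.mem_eigenspace_iff]
    exact h
  have hroot : f.charpoly.IsRoot μ :=
    (Module.End.hasEigenvalue_iff_isRoot_charpoly f μ).mp (Module.End.hasEigenvalue_of_hasEigenvector heig)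
  have hcp : f.charpoly = M.charpoly.map (Int.castRingHom ℂ) := by
    rw [show f.charpoly = A.charpoly from Matrix.charpoly_toLin' A]
    rw [hA, Matrix.charpoly_map]
  refine ⟨M.charpoly, M.charpoly_monic, ?_⟩
  rw [hcp] at hroot
  rw [Polynomial.IsRoot, Polynomial.eval_map] at hroot
  exact hroot

/-- The projection `avgP` vanishes when its trace does. -/
theorem avgP_eq_zero (R : G → Matrix ι ι ℂ) (S : G → Matrix κ κ ℂ)
    (hR : ∀ g h, R (g * h) = R g * R h) (hS : ∀ g h, S (g * h) = S g * S h)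
    (h0 : (Nat.card G : ℂ)⁻¹ * ∑ g, (R g).trace * (S g⁻¹).trace = 0) : avgP R S = 0 := by
  have hidem : IsIdempotentElem (avgP R S : Module.End ℂ (Matrix ι κ ℂ)) := by
    ext1 ψ
    exact avgP_idem R S hR hS ψ
  have hproj := LinearMap.IsIdempotentElem.isProj_range (avgP R S) hidem
  have htr := hproj.trace
  have h1 : LinearMap.trace ℂ _ (avgP R S) = (Nat.card G : ℂ)⁻¹ * ∑ g, (R g).trace * (S g⁻¹).trace := by
    have h2 := trace_avg_mul R S (1 : Matrix ι ι ℂ)
    simp only [Matrix.one_mul] at h2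
    rw [← h2]
    congr 1
    ext1 ψ
    simp [lr_apply]
  rw [h1, h0] at htr
  have h3 : finrank ℂ (LinearMap.range (avgP R S)) = 0 := by
    exact_mod_cast htr.symm
  rw [Submodule.finrank_eq_zero] at h3
  exact LinearMap.range_eq_bot.mp h3

end Mat

section Perm

variable {G : Type u} [Group G] [Fintype G] {Ω : Type v} [Fintype Ω] [DecidableEq Ω] [MulAction G Ω]

/-- The permutation matrix of `g`. -/
noncomputable def permMat (g : G) : Matrix Ω Ω ℂ := fun x y => if g • y = x then 1 else 0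

theorem permMat_mul (g h : G) : (permMat (g * h) : Matrix Ω Ω ℂ) = permMat g * permMat h := by
  ext x y
  simp only [permMat, Matrix.mul_apply]
  rw [Finset.sum_eq_single (h • y)]
  · simp [mul_smul]
  · intro b _ hb
    simp [hb.symm]
  · intro h
    exact absurd (Finset.mem_univ _) h

theorem trace_permMat (g : G) : (permMat g : Matrix Ω Ω ℂ).trace = Nat.card (fixedBy Ω g) := by
  classical
  simp only [Matrix.trace, Matrix.diag, permMat]
  rw [Finset.sum_boole, Nat.card_eq_fintype_card, Fintype.card_subtype]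
  congr 2

theorem perm_character (g : G) : (permRep ℂ G Ω).character g = Nat.card (fixedBy Ω g) := by
  classical
  rw [← trace_permMat (Ω := Ω) g]
  simp only [Representation.character]
  rw [LinearMap.trace_eq_matrix_trace ℂ (Pi.basisFun ℂ Ω)]
  congr 1
  ext x y
  simp only [LinearMap.toMatrix_apply, Pi.basisFun_repr, Pi.basisFun_apply, permMat]
  show (Pi.single y (1 : ℂ) : Ω → ℂ) (g⁻¹ • x) = _
  simp only [Pi.single_apply, inv_smul_eq_iff]
  by_cases h : g • y = x
  · simp [h]
  · rw [if_neg h, if_neg (fun h' => h h'.symm)]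

theorem isCharacter_perm : IsCharacter G (fun g : G => (Nat.card (fixedBy Ω g) : ℂ)) := by
  have h : (fun g : G => (Nat.card (fixedBy Ω g) : ℂ)) = (permRep ℂ G Ω).character := by
    funext g
    exact (perm_character g).symm
  rw [h]
  exact isCharacter_character _

/-- Relation: pairs in the orbit of `(a, b)`. -/
def Rel (G : Type u) [Group G] {Ω : Type v} [MulAction G Ω] (a b x y : Ω) : Prop :=
  ∃ g : G, g • a = x ∧ g • b = y

open Classical in
/-- Adjacency matrix of the orbital through `(a, b)`. -/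
noncomputable def adjZ (G : Type u) [Group G] {Ω : Type v} [MulAction G Ω] (a b : Ω) : Matrix Ω Ω ℤ :=
  fun x y => if Rel G a b x y then 1 else 0

noncomputable def adj (G : Type u) [Group G] {Ω : Type v} [MulAction G Ω] (a b : Ω) : Matrix Ω Ω ℂ :=
  (adjZ G a b).map (Int.castRingHom ℂ)

open Classical in
theorem adj_apply (a b x y : Ω) : adj G a b x y = if Rel G a b x y then 1 else 0 := by
  simp only [adj, adjZ, Matrix.map_apply]
  split_ifs <;> simp

theorem rel_smul (a b x y : Ω) (g : G) : Rel G a b (g • x) (g • y) ↔ Rel G a b x y := by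
  constructor
  · rintro ⟨h, h1, h2⟩
    refine ⟨g⁻¹ * h, ?_, ?_⟩
    · rw [mul_smul, h1, inv_smul_smul]
    · rw [mul_smul, h2, inv_smul_smul]
  · rintro ⟨h, h1, h2⟩
    exact ⟨g * h, by rw [mul_smul, h1], by rw [mul_smul, h2]⟩

theorem adj_mul_permMat (a b : Ω) (g : G) (x y : Ω) :
    (adj G a b * (permMat g : Matrix Ω Ω ℂ)) x y = adj G a b x (g • y) := by
  simp only [Matrix.mul_apply, permMat]
  rw [Finset.sum_eq_single (g • y)]
  · simp
  · intro c _ hc
    simp [hc.symm]
  · intro h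
    exact absurd (Finset.mem_univ _) h

theorem permMat_mul_adj (a b : Ω) (g : G) (x y : Ω) :
    ((permMat g : Matrix Ω Ω ℂ) * adj G a b) x y = adj G a b (g⁻¹ • x) y := by
  simp only [Matrix.mul_apply, permMat]
  rw [Finset.sum_eq_single (g⁻¹ • x)]
  · simp
  · intro c _ hc
    have : g • c ≠ x := fun h => hc (by rw [← h, inv_smul_smul])
    simp [this]
  · intro h
    exact absurd (Finset.mem_univ _) h

theorem adj_comm (a b : Ω) (g : G) :
    adj G a b * (permMat g : Matrix Ω Ω ℂ) = (permMat g : Matrix Ω Ω ℂ) * adj G a b := by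
  ext x y
  rw [adj_mul_permMat, permMat_mul_adj]
  classical
  rw [adj_apply, adj_apply]
  have : Rel G a b x (g • y) ↔ Rel G a b (g⁻¹ • x) y := by
    rw [← rel_smul a b (g⁻¹ • x) y g, smul_inv_smul]
  simp only [this]

theorem trace_adj_mul (a b : Ω) (g : G) :
    (adj G a b * (permMat g : Matrix Ω Ω ℂ)).trace = ∑ x, adj G a b x (g • x) := by
  simp only [Matrix.trace, Matrix.diag_apply, adj_mul_permMat]

/-- The formal sum `∑ g, tr (A R g)` equals `|G|` times the subdegree. -/
theorem sum_trace_adj [IsPretransitive G Ω] (a b : Ω) :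
    ∑ g : G, (adj G a b * (permMat g : Matrix Ω Ω ℂ)).trace =
      (Nat.card G : ℂ) * Nat.card (orbit (stabilizer G a) b) := by
  classical
  simp only [trace_adj_mul]
  rw [Finset.sum_comm]
  -- for each point the inner sum is the same
  have hinner : ∀ x : Ω, ∑ g : G, adj G a b x (g • x) = ∑ g : G, adj G a b a (g • a) := by
    intro x
    obtain ⟨t, rfl⟩ := exists_smul_eq G a x
    rw [← Equiv.sum_comp (MulAut.conj t).toEquiv]
    apply Finset.sum_congr rfl
    intro g _
    simp only [MulEquiv.toEquiv_eq_coe, EquivLike.coe_coe, MulAut.conj_apply]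
    rw [adj_apply, adj_apply]
    have h1 : (t * g * t⁻¹) • t • a = t • (g • a) := by
      rw [mul_smul, mul_smul, inv_smul_smul]
    rw [h1]
    simp only [rel_smul]
  simp only [hinner, Finset.sum_const, Finset.card_univ, nsmul_eq_mul]
  -- count group elements
  have hcount : ∑ g : G, adj G a b a (g • a) =
      (Nat.card (orbit (stabilizer G a) b) : ℂ) * Nat.card (stabilizer G a) := by
    have h1 : ∀ g : G, adj G a b a (g • a) = if g • a ∈ orbit (stabilizer G a) b then 1 else 0 := by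
      intro g
      rw [adj_apply]
      congr 1
      apply propext
      constructor
      · rintro ⟨h, h1, h2⟩
        exact ⟨⟨h, h1⟩, h2⟩
      · rintro ⟨h, h2⟩
        exact ⟨h, h.2, h2⟩
    simp only [h1]
    rw [Finset.sum_boole]
    -- the map g ↦ g • a has fibres of size |G_a| over the orbit
    have h2 : (Finset.univ.filter (fun g : G => g • a ∈ orbit (stabilizer G a) b)).card =
        Nat.card (orbit (stabilizer G a) b) * Nat.card (stabilizer G a) := by
      rw [Finset.card_eq_sum_card_fiberwise (f := fun g : G => g • a)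
        (t := (orbit (stabilizer G a) b).toFinset) (by
          intro g hg
          simpa using hg)]
      have h3 : ∀ y ∈ (orbit (stabilizer G a) b).toFinset,
          ((Finset.univ.filter (fun g : G => g • a ∈ orbit (stabilizer G a) b)).filter
            (fun g => g • a = y)).card = Nat.card (stabilizer G a) := by
        intro y hy
        have hy' : y ∈ orbit (stabilizer G a) b := by simpa using hy
        obtain ⟨t, rfl⟩ := exists_smul_eq G a y
        rw [Nat.card_eq_fintype_card, Fintype.card_congr (show stabilizer G a ≃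
            {g : G // g ∈ ((Finset.univ.filter (fun g : G => g • a ∈ orbit (stabilizer G a) b)).filter
              (fun g => g • a = t • a))} from
          { toFun := fun s => ⟨t * s, by
              simp only [Finset.mem_filter, Finset.mem_univ, true_and]
              have hs : (s : G) • a = a := s.2
              rw [mul_smul, hs]
              exact ⟨hy', rfl⟩⟩
            invFun := fun g => ⟨t⁻¹ * g, by
              have hg := g.2
              simp only [Finset.mem_filter, Finset.mem_univ, true_and] at hg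
              show (t⁻¹ * g) • a = a
              rw [mul_smul, hg.2, inv_smul_smul]⟩
            left_inv := fun s => Subtype.ext (by simp)
            right_inv := fun g => Subtype.ext (by simp) }), Fintype.card_coe]
      rw [Finset.sum_congr rfl h3, Finset.sum_const, smul_eq_mul]
      congr 1
      rw [Nat.card_eq_fintype_card, Set.toFinset_card]
    rw [h2]
    push_cast
    ring
  rw [hcount]
  have horb : Nat.card (stabilizer G a) * Fintype.card Ω = Nat.card G := by
    have h1 := card_orbit_mul_card_stabilizer_eq_card_group G a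
    have h2 : Fintype.card (orbit G a) = Fintype.card Ω := by
      rw [← Nat.card_eq_fintype_card, ← Nat.card_eq_fintype_card,
        Nat.card_congr (Equiv.setCongr (orbit_eq_univ G a)), Nat.card_coe_set_eq, Set.ncard_univ]
    rw [h2] at h1
    rw [Nat.card_eq_fintype_card, Nat.card_eq_fintype_card, mul_comm]
    exact h1
  rw [← horb]
  push_cast
  ring

theorem permMat_one : (permMat (1 : G) : Matrix Ω Ω ℂ) = 1 := by
  ext x y
  simp [permMat, Matrix.one_apply, eq_comm]

/-- The average `u χ`. -/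
noncomputable def uAvg (a b : Ω) (χ : G → ℂ) : ℂ :=
  (Nat.card G : ℂ)⁻¹ * ∑ g : G, (adj G a b * (permMat g : Matrix Ω Ω ℂ)).trace * χ g⁻¹

theorem uAvg_isIntegral (a b : Ω) {χ : G → ℂ} (hχ : IsIrrCharacter G χ) :
    IsIntegral ℤ (uAvg a b χ) := by
  obtain ⟨n, σ, _, rfl⟩ := hχ
  have h := isIntegral_avg (G := G) (fun g => (permMat g : Matrix Ω Ω ℂ)) (CharFS.matOf σ)
    permMat_mul (CharFS.matOf_mul σ) (adj G a b) (adj_comm a b)
    (fun μ v hv hμ => isIntegral_eigenvalue (adjZ G a b) μ v hv hμ)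
  simp only [CharFS.trace_matOf] at h
  exact h

theorem uAvg_eq_zero (a b : Ω) {χ : G → ℂ} (hχ : IsIrrCharacter G χ)
    (h0 : classInner (fun g : G => (Nat.card (fixedBy Ω g) : ℂ)) χ = 0) : uAvg a b χ = 0 := by
  obtain ⟨n, σ, hσ, rfl⟩ := id hχ
  have hP := avgP_eq_zero (G := G) (fun g => (permMat g : Matrix Ω Ω ℂ)) (CharFS.matOf σ)
    permMat_mul (CharFS.matOf_mul σ) (by
      simp only [CharFS.trace_matOf, trace_permMat]
      simp only [classInner] at h0
      rw [← h0]
      congr 1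
      apply Finset.sum_congr rfl
      intro g _
      rw [IsIrrCharacter.map_inv hχ])
  have h1 := trace_avg_mul (G := G) (fun g => (permMat g : Matrix Ω Ω ℂ)) (CharFS.matOf σ) (adj G a b)
  rw [hP, LinearMap.comp_zero, map_zero] at h1
  simp only [CharFS.trace_matOf] at h1
  exact h1.symm

theorem sum_uAvg (a b : Ω) (hab : b ≠ a) :
    ∑ χ : IrrCharacter G, (χ : G → ℂ) 1 * uAvg a b (χ : G → ℂ) = 0 := by
  classical
  have hcard := card_ne_zero' (G := G)
  simp only [uAvg, Finset.mul_sum]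
  rw [Finset.sum_comm]
  have h1 : ∀ g : G, ∑ χ : IrrCharacter G, (χ : G → ℂ) 1 * ((Nat.card G : ℂ)⁻¹ *
      ((adj G a b * (permMat g : Matrix Ω Ω ℂ)).trace * (χ : G → ℂ) g⁻¹)) =
      (Nat.card G : ℂ)⁻¹ * (adj G a b * (permMat g : Matrix Ω Ω ℂ)).trace *
        ∑ χ : IrrCharacter G, (χ : G → ℂ) 1 * (χ : G → ℂ) g⁻¹ := by
    intro g
    rw [Finset.mul_sum]
    apply Finset.sum_congr rfl
    intro χ _
    ring
  simp only [h1, CharLin.sum_degree_mul]
  rw [Finset.sum_eq_single 1]
  · simp only [inv_one, if_true, permMat_one, Matrix.mul_one]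
    have h2 : (adj G a b).trace = 0 := by
      simp only [Matrix.trace, Matrix.diag_apply]
      apply Finset.sum_eq_zero
      intro x _
      rw [adj_apply, if_neg]
      rintro ⟨g, h3, h4⟩
      apply hab
      exact smul_left_cancel g (h4.trans h3.symm)
    rw [h2]
    simp
  · intro g _ hg
    rw [if_neg (inv_eq_one.not.mpr hg), mul_zero]
  · intro h
    exact absurd (Finset.mem_univ _) h

theorem uAvg_one [IsPretransitive G Ω] (a b : Ω) :
    uAvg a b (fun _ : G => (1 : ℂ)) = Nat.card (orbit (stabilizer G a) b) := by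
  have hcard := card_ne_zero' (G := G)
  simp only [uAvg, mul_one]
  rw [sum_trace_adj, ← mul_assoc, inv_mul_cancel₀ hcard, one_mul]

/-- If `f` divides the degrees of the non-principal constituents, it divides all subdegrees. -/
theorem dvd_subdegree [IsPretransitive G Ω] (f : ℕ)
    (hf : ∀ χ : G → ℂ, IsIrrCharacter G χ → χ ≠ (fun _ => 1) →
      classInner (fun g : G => (Nat.card (fixedBy Ω g) : ℂ)) χ ≠ 0 → ∃ m : ℕ, χ 1 = (f : ℂ) * m)
    (a b : Ω) (hab : b ≠ a) : f ∣ Nat.card (orbit (stabilizer G a) b) := by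
  classical
  let χ₁ : IrrCharacter G := ⟨fun _ => 1, CharAlg.isIrrCharacter_one⟩
  have hk : ∀ χ : IrrCharacter G, ∃ k : ℕ, χ ≠ χ₁ →
      classInner (fun g : G => (Nat.card (fixedBy Ω g) : ℂ)) (χ : G → ℂ) ≠ 0 →
      (χ : G → ℂ) 1 = (f : ℂ) * k := by
    intro χ
    by_cases h1 : χ ≠ χ₁ ∧ classInner (fun g : G => (Nat.card (fixedBy Ω g) : ℂ)) (χ : G → ℂ) ≠ 0
    · obtain ⟨m, hm⟩ := hf χ χ.2 (fun h => h1.1 (Subtype.ext h)) h1.2
      exact ⟨m, fun _ _ => hm⟩
    · exact ⟨0, fun h2 h3 => absurd ⟨h2, h3⟩ h1⟩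
  choose k hk using hk
  set n := Nat.card (orbit (stabilizer G a) b) with hn
  let T : ℂ := ∑ χ ∈ Finset.univ.erase χ₁, (k χ : ℂ) * uAvg a b (χ : G → ℂ)
  have hT : IsIntegral ℤ T := by
    apply IsIntegral.sum
    intro χ _
    exact IsIntegral.mul (isIntegral_natCast _) (uAvg_isIntegral a b χ.2)
  have hsum := sum_uAvg (G := G) a b hab
  rw [← Finset.add_sum_erase _ _ (Finset.mem_univ χ₁)] at hsum
  have h2 : (χ₁ : G → ℂ) 1 * uAvg a b (χ₁ : G → ℂ) = n := by
    show (1 : ℂ) * uAvg a b (fun _ : G => (1 : ℂ)) = n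
    rw [one_mul, uAvg_one]
  have h3 : ∑ χ ∈ Finset.univ.erase χ₁, (χ : G → ℂ) 1 * uAvg a b (χ : G → ℂ) = (f : ℂ) * T := by
    rw [Finset.mul_sum]
    apply Finset.sum_congr rfl
    intro χ hχ
    have hne : χ ≠ χ₁ := (Finset.mem_erase.mp hχ).1
    by_cases h0 : classInner (fun g : G => (Nat.card (fixedBy Ω g) : ℂ)) (χ : G → ℂ) = 0
    · rw [uAvg_eq_zero a b χ.2 h0]
      simp
    · rw [hk χ hne h0]
      ring
  rw [h2, h3] at hsum
  have hsum' : (n : ℂ) = (f : ℂ) * (-T) := by
    rw [mul_neg]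
    exact eq_neg_of_add_eq_zero_left hsum
  by_cases hf0 : f = 0
  · rw [hf0] at hsum' ⊢
    have : (n : ℂ) = 0 := by simpa using hsum'
    have h5 : n = 0 := by exact_mod_cast this
    rw [h5]
  · apply CharInt.dvd_of_isIntegral_div n f hf0
    have hfC : (f : ℂ) ≠ 0 := by exact_mod_cast hf0
    have h5 : (n : ℂ) / f = -T := by
      rw [hsum']
      field_simp
    rw [h5]
    exact hT.neg

end Perm

end Cfsg.Agent.Lib.H1PermChar
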