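import Cfsg.Agent.Lib.H1PermChar
import Mathlib

set_option autoImplicit false

/-! Rank, multiplicities and subdegrees. -/

namespace Cfsg.Agent.Lib.H1PermChar2

open Cfsg MulAction Module
open scoped ComplexConjugate
open Cfsg.Agent.Lib.CharBasic Cfsg.Agent.Lib.CharOrth Cfsg.Agent.Lib.H1PermChar
open Cfsg.Agent.Lib

universe u v

variable {G : Type u} [Group G] [Fintype G] {Ω : Type v} [Fintype Ω] [MulAction G Ω]

/-- The permutation character. -/
noncomputable abbrev pc (G : Type u) [Group G] (Ω : Type v) [MulAction G Ω] : G → ℂ :=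
  fun g => (Nat.card (fixedBy Ω g) : ℂ)

open Classical in
theorem pc_eq_sum (g : G) : pc G Ω g = ∑ x : Ω, if g • x = x then (1 : ℂ) else 0 := by
  show (Nat.card (fixedBy Ω g) : ℂ) = _
  rw [Finset.sum_boole, Nat.card_eq_fintype_card, Fintype.card_subtype]
  congr 2

theorem pc_one : pc G Ω 1 = Fintype.card Ω := by
  classical
  rw [pc_eq_sum]
  simp

theorem pc_classFunction : IsClassFunction G (pc G Ω) := by
  classical
  exact classFunction_of_isCharacter isCharacter_perm

theorem pc_isCharacter : IsCharacter G (pc G Ω) := by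
  classical
  exact isCharacter_perm

theorem card_stab_mul [IsPretransitive G Ω] (a : Ω) :
    Nat.card (stabilizer G a) * Fintype.card Ω = Nat.card G := by
  classical
  have h1 := card_orbit_mul_card_stabilizer_eq_card_group G a
  have h2 : Fintype.card (orbit G a) = Fintype.card Ω := by
    rw [← Nat.card_eq_fintype_card, ← Nat.card_eq_fintype_card,
      Nat.card_congr (Equiv.setCongr (orbit_eq_univ G a)), Nat.card_coe_set_eq, Set.ncard_univ]
  rw [h2] at h1
  rw [Nat.card_eq_fintype_card, Nat.card_eq_fintype_card, mul_comm]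
  exact h1

/-- `⟨π, π⟩` is the rank. -/
theorem rank_formula [IsPretransitive G Ω] (a : Ω) :
    classInner (pc G Ω) (pc G Ω) = Nat.card (orbitRel.Quotient (stabilizer G a) Ω) := by
  classical
  have hcard : (Nat.card G : ℂ) ≠ 0 := card_ne_zero'
  have hcls := pc_classFunction (G := G) (Ω := Ω)
  have hconj : ∀ g : G, conj (pc G Ω g) = pc G Ω g := fun g => by simp [pc]
  simp only [classInner, hconj]
  have h1 : ∑ g : G, pc G Ω g * pc G Ω g =
      ∑ x : Ω, ∑ g : G, pc G Ω g * (if g • x = x then (1 : ℂ) else 0) := by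
    rw [Finset.sum_comm]
    apply Finset.sum_congr rfl
    intro g _
    rw [← Finset.mul_sum, ← pc_eq_sum]
  have hinner : ∀ x : Ω, ∑ g : G, pc G Ω g * (if g • x = x then (1 : ℂ) else 0) =
      ∑ g : G, pc G Ω g * (if g • a = a then (1 : ℂ) else 0) := by
    intro x
    obtain ⟨t, rfl⟩ := exists_smul_eq G a x
    rw [← Equiv.sum_comp (MulAut.conj t).toEquiv]
    apply Finset.sum_congr rfl
    intro g _
    show pc G Ω (t * g * t⁻¹) * (if (t * g * t⁻¹) • t • a = t • a then (1 : ℂ) else 0) = _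
    rw [hcls g t]
    have h3 : (t * g * t⁻¹) • t • a = t • a ↔ g • a = a := by
      rw [mul_smul, mul_smul, inv_smul_smul, smul_left_cancel_iff]
    simp only [h3]
  rw [h1]
  simp only [hinner, Finset.sum_const, Finset.card_univ, nsmul_eq_mul]
  -- the sum over the stabiliser
  have h2 : ∑ g : G, pc G Ω g * (if g • a = a then (1 : ℂ) else 0) =
      ∑ s : stabilizer G a, pc G Ω (s : G) := by
    have h3 : ∀ g : G, pc G Ω g * (if g • a = a then (1 : ℂ) else 0) =
        if g ∈ stabilizer G a then pc G Ω g else 0 := by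
      intro g
      by_cases h : g • a = a
      · rw [if_pos h, if_pos (mem_stabilizer_iff.mpr h), mul_one]
      · rw [if_neg h, if_neg (fun h' => h (mem_stabilizer_iff.mp h')), mul_zero]
    simp only [h3]
    rw [← Finset.sum_filter]
    exact Finset.sum_subtype _ (by simp) _
  rw [h2]
  have hB := sum_card_fixedBy_eq_card_orbits_mul_card_group (stabilizer G a) Ω
  have h3 : ∑ s : stabilizer G a, pc G Ω (s : G) =
      (Fintype.card (orbitRel.Quotient (stabilizer G a) Ω) : ℂ) * Fintype.card (stabilizer G a) := by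
    rw [← Nat.cast_mul, ← hB]
    push_cast
    apply Finset.sum_congr rfl
    intro s _
    simp only [pc]
    rw [Nat.card_eq_fintype_card]
    congr 1
  rw [h3, Nat.card_eq_fintype_card (α := orbitRel.Quotient (stabilizer G a) Ω)]
  have h4 := card_stab_mul (G := G) a
  have h5 : (Nat.card G : ℂ) = (Fintype.card (stabilizer G a) : ℂ) * Fintype.card Ω := by
    rw [← h4, Nat.card_eq_fintype_card]
    push_cast
    rfl
  rw [h5] at hcard ⊢
  have hX := left_ne_zero_of_mul hcard
  have hY := right_ne_zero_of_mul hcard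
  field_simp

noncomputable instance instQ (a : Ω) : Fintype (orbitRel.Quotient (stabilizer G a) Ω) :=
  Fintype.ofFinite _

/-- The trivial irreducible character. -/
noncomputable def triv : IrrCharacter G := ⟨fun _ => 1, CharAlg.isIrrCharacter_one⟩

theorem inner_triv [IsPretransitive G Ω] (a : Ω) :
    classInner (pc G Ω) (fun _ : G => (1 : ℂ)) = 1 := by
  classical
  have hcard : (Nat.card G : ℂ) ≠ 0 := card_ne_zero'
  simp only [classInner, map_one, mul_one]
  have hB := sum_card_fixedBy_eq_card_orbits_mul_card_group G Ω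
  haveI : Subsingleton (orbitRel.Quotient G Ω) := by
    constructor
    intro x y
    induction x using Quotient.inductionOn'
    induction y using Quotient.inductionOn'
    rename_i x y
    apply Quotient.sound'
    exact (exists_smul_eq G y x)
  haveI : Nonempty (orbitRel.Quotient G Ω) := ⟨Quotient.mk'' a⟩
  have h1 : Fintype.card (orbitRel.Quotient G Ω) = 1 := Fintype.card_eq_one_iff.mpr
    ⟨Quotient.mk'' a, fun y => Subsingleton.elim _ _⟩
  rw [h1, one_mul] at hB
  have h2 : ∑ g : G, pc G Ω g = Nat.card G := by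
    rw [Nat.card_eq_fintype_card, ← hB]
    push_cast
    apply Finset.sum_congr rfl
    intro g _
    simp only [pc]
    rw [Nat.card_eq_fintype_card]
  show (Nat.card G : ℂ)⁻¹ * ∑ g : G, pc G Ω g = 1
  rw [h2, inv_mul_cancel₀ hcard]

/-- The multiplicities. -/
theorem coeff_data [IsPretransitive G Ω] (a : Ω) : ∃ m : IrrCharacter G → ℕ,
    (∀ ψ : IrrCharacter G, classInner (pc G Ω) (ψ : G → ℂ) = m ψ) ∧
    (∑ ψ : IrrCharacter G, (m ψ : ℂ) * (ψ : G → ℂ) 1 = Fintype.card Ω) ∧
    (∑ ψ : IrrCharacter G, (m ψ) ^ 2 = Nat.card (orbitRel.Quotient (stabilizer G a) Ω)) ∧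
    m triv = 1 := by
  classical
  obtain ⟨m, hm⟩ := CharAlg.IsCharacter.exists_nat_coeff (pc_isCharacter (G := G) (Ω := Ω))
  have hinner : ∀ ψ : IrrCharacter G, classInner (pc G Ω) (ψ : G → ℂ) = m ψ := by
    intro ψ
    rw [hm]
    exact CharAlg.classInner_sum_irr (fun φ => (m φ : ℂ)) ψ
  refine ⟨m, hinner, ?_, ?_, ?_⟩
  · rw [← pc_one (G := G)]
    have h := congrFun hm 1
    rw [h]
    simp only [Finset.sum_apply, Pi.smul_apply, smul_eq_mul]
  · have h1 := rank_formula (G := G) a
    rw [CharAlg.classInner_eq_sum _ _ pc_classFunction] at h1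
    simp only [hinner, Complex.conj_natCast] at h1
    have h2 : ((∑ ψ : IrrCharacter G, (m ψ) ^ 2 : ℕ) : ℂ) =
        (Nat.card (orbitRel.Quotient (stabilizer G a) Ω) : ℂ) := by
      rw [← h1]
      push_cast
      apply Finset.sum_congr rfl
      intro ψ _
      ring
    exact_mod_cast h2
  · have h1 := hinner triv
    have h2 := inner_triv (G := G) a
    have h3 : classInner (pc G Ω) ((triv : IrrCharacter G) : G → ℂ) = 1 := h2
    rw [h3] at h1
    exact_mod_cast h1.symm

/-- Sum of the subdegrees. -/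
theorem subdeg_sum (a : Ω) :
    ∑ q : orbitRel.Quotient (stabilizer G a) Ω, Nat.card (orbit (stabilizer G a) q.out) =
      Fintype.card Ω := by
  classical
  rw [← Nat.card_eq_fintype_card, Nat.card_congr (selfEquivSigmaOrbits (stabilizer G a) Ω),
    Nat.card_sigma]

theorem out_ne (a : Ω) (q : orbitRel.Quotient (stabilizer G a) Ω)
    (hq : q ≠ Quotient.mk'' a) : q.out ≠ a := by
  intro h
  apply hq
  calc q = Quotient.mk'' q.out := (Quotient.out_eq' q).symm
    _ = Quotient.mk'' a := congrArg (Quotient.mk'' (s₁ := orbitRel (stabilizer G a) Ω)) h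

theorem card_orbit_a (a : Ω) :
    Nat.card (orbit (stabilizer G a)
      ((Quotient.mk'' a : orbitRel.Quotient (stabilizer G a) Ω)).out) = 1 := by
  classical
  have h1 : ∀ x ∈ orbit (stabilizer G a) a, x = a := by
    rintro _ ⟨s, rfl⟩
    exact s.2
  have h2 : (Quotient.mk'' a : orbitRel.Quotient (stabilizer G a) Ω).out = a := by
    have h3 : (Quotient.mk'' a : orbitRel.Quotient (stabilizer G a) Ω).out ∈ orbit (stabilizer G a) a := by
      have := Quotient.exact' (Quotient.out_eq' (Quotient.mk'' a : orbitRel.Quotient (stabilizer G a) Ω))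
      exact this
    exact h1 _ h3
  rw [h2, Nat.card_eq_one_iff_unique]
  refine ⟨⟨fun x y => Subtype.ext ((h1 _ x.2).trans (h1 _ y.2).symm)⟩, ⟨⟨a, mem_orbit_self a⟩⟩⟩

theorem card_orbit_out (a b : Ω) :
    Nat.card (orbit (stabilizer G a) b) =
      Nat.card (orbit (stabilizer G a)
        ((Quotient.mk'' b : orbitRel.Quotient (stabilizer G a) Ω)).out) := by
  apply Nat.card_congr
  apply Equiv.setCongr
  have h3 : (Quotient.mk'' b : orbitRel.Quotient (stabilizer G a) Ω).out ∈ orbit (stabilizer G a) b := by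
    have := Quotient.exact' (Quotient.out_eq' (Quotient.mk'' b : orbitRel.Quotient (stabilizer G a) Ω))
    exact this
  exact (orbit_eq_iff.mpr h3).symm

open Classical in
/-- Common counting facts: the number of non-trivial orbits and the sum of their lengths. -/
theorem erase_counts [IsPretransitive G Ω] (a : Ω) (m : IrrCharacter G → ℕ)
    (hdim : ∑ ψ : IrrCharacter G, (m ψ : ℂ) * (ψ : G → ℂ) 1 = Fintype.card Ω)
    (hrank : ∑ ψ : IrrCharacter G, (m ψ) ^ 2 = Nat.card (orbitRel.Quotient (stabilizer G a) Ω))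
    (htriv : m triv = 1) :
    (((Finset.univ : Finset (orbitRel.Quotient (stabilizer G a) Ω)).erase (Quotient.mk'' a)).card =
        ∑ ψ ∈ (Finset.univ : Finset (IrrCharacter G)).erase triv, (m ψ) ^ 2) ∧
    ((∑ q ∈ (Finset.univ : Finset (orbitRel.Quotient (stabilizer G a) Ω)).erase (Quotient.mk'' a),
        (Nat.card (orbit (stabilizer G a) q.out) : ℂ)) =
      ∑ ψ ∈ (Finset.univ : Finset (IrrCharacter G)).erase triv, (m ψ : ℂ) * (ψ : G → ℂ) 1) := by
  classical
  constructor
  · rw [Finset.card_erase_of_mem (Finset.mem_univ _), Finset.card_univ, ← Nat.card_eq_fintype_card, ← hrank,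
      ← Finset.add_sum_erase _ _ (Finset.mem_univ (triv : IrrCharacter G)), htriv]
    simp
  · have h1 := subdeg_sum (G := G) a
    have h2 : (∑ q : orbitRel.Quotient (stabilizer G a) Ω,
        (Nat.card (orbit (stabilizer G a) q.out) : ℂ)) = Fintype.card Ω := by
      exact_mod_cast h1
    rw [← Finset.add_sum_erase _ _ (Finset.mem_univ (Quotient.mk'' a : orbitRel.Quotient (stabilizer G a) Ω)),
      card_orbit_a] at h2
    rw [← Finset.add_sum_erase _ _ (Finset.mem_univ (triv : IrrCharacter G)), htriv] at hdim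
    have h3 : ((triv : IrrCharacter G) : G → ℂ) 1 = 1 := rfl
    rw [h3] at hdim
    have h4 := h2.trans hdim.symm
    simp only [Nat.cast_one, one_mul] at h4
    exact add_left_cancel h4

theorem isIrr_degree (ψ : IrrCharacter G) : ∃ d : ℕ, 0 < d ∧ (ψ : G → ℂ) 1 = d := by
  obtain ⟨d, hd, h⟩ := CharAlg.IsIrrCharacter.map_one_pos ψ.2
  exact ⟨d, hd, h⟩

/-- The counting argument for part (a). -/
theorem same_degree [IsPretransitive G Ω] (a : Ω) (f : ℕ)
    (hf : ∀ χ : G → ℂ, IsIrrCharacter G χ → χ ≠ (fun _ => 1) →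
      classInner (fun g : G => (Nat.card (fixedBy Ω g) : ℂ)) χ ≠ 0 → χ 1 = f) :
    (∀ χ : G → ℂ, IsIrrCharacter G χ →
      classInner (fun g : G => (Nat.card (fixedBy Ω g) : ℂ)) χ = 0 ∨
      classInner (fun g : G => (Nat.card (fixedBy Ω g) : ℂ)) χ = 1) ∧
    ∀ b : Ω, b ≠ a → Nat.card (orbit (stabilizer G a) b) = f := by
  classical
  obtain ⟨m, hinner, hdim, hrank, htriv⟩ := coeff_data (G := G) a
  obtain ⟨hc1, hc2⟩ := erase_counts a m hdim hrank htriv
  have hne : ∀ ψ : IrrCharacter G, ψ ≠ triv → m ψ ≠ 0 → (ψ : G → ℂ) 1 = f := by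
    intro ψ h1 h2
    apply hf ψ ψ.2 (fun h => h1 (Subtype.ext h))
    rw [hinner]
    exact_mod_cast h2
  have hdvd : ∀ q ∈ (Finset.univ : Finset (orbitRel.Quotient (stabilizer G a) Ω)).erase (Quotient.mk'' a),
      f ∣ Nat.card (orbit (stabilizer G a) q.out) := by
    intro q hq
    apply dvd_subdegree f (fun χ h1 h2 h3 => ⟨1, by rw [hf χ h1 h2 h3]; simp⟩) a q.out
    exact out_ne a q (Finset.mem_erase.mp hq).1
  have hterm : ∀ ψ ∈ (Finset.univ : Finset (IrrCharacter G)).erase triv,
      (m ψ : ℂ) * (ψ : G → ℂ) 1 = ((m ψ * f : ℕ) : ℂ) := by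
    intro ψ hψ
    by_cases h0 : m ψ = 0
    · simp [h0]
    · rw [hne ψ (Finset.mem_erase.mp hψ).1 h0]
      push_cast
      ring
  rw [Finset.sum_congr rfl hterm] at hc2
  have hc2' : ∑ q ∈ (Finset.univ : Finset (orbitRel.Quotient (stabilizer G a) Ω)).erase (Quotient.mk'' a),
      Nat.card (orbit (stabilizer G a) q.out) =
      ∑ ψ ∈ (Finset.univ : Finset (IrrCharacter G)).erase triv, m ψ * f := by
    exact_mod_cast hc2
  rcases Nat.eq_zero_or_pos f with hf0 | hfpos
  · -- all nontrivial multiplicities vanish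
    have hzero : ∀ ψ ∈ (Finset.univ : Finset (IrrCharacter G)).erase triv, m ψ = 0 := by
      intro ψ hψ
      by_contra h0
      have h1 := hne ψ (Finset.mem_erase.mp hψ).1 h0
      rw [hf0] at h1
      exact CharAlg.IsIrrCharacter.ne_zero ψ.2 (by simpa using h1)
    constructor
    · intro χ hχ
      have hval : classInner (fun g : G => (Nat.card (fixedBy Ω g) : ℂ)) χ = (m ⟨χ, hχ⟩ : ℂ) :=
        hinner ⟨χ, hχ⟩
      by_cases hχ1 : (⟨χ, hχ⟩ : IrrCharacter G) = triv
      · right
        rw [hval, hχ1, htriv, Nat.cast_one]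
      · left
        rw [hval, hzero _ (Finset.mem_erase.mpr ⟨hχ1, Finset.mem_univ _⟩), Nat.cast_zero]
    · intro b hb
      exfalso
      -- the set of nontrivial orbits is empty
      have h3 : ((Finset.univ : Finset (orbitRel.Quotient (stabilizer G a) Ω)).erase (Quotient.mk'' a)).card = 0 := by
        rw [hc1]
        apply Finset.sum_eq_zero
        intro ψ hψ
        rw [hzero ψ hψ]
        simp
      have h4 : (Quotient.mk'' b : orbitRel.Quotient (stabilizer G a) Ω) ∈
          (Finset.univ : Finset (orbitRel.Quotient (stabilizer G a) Ω)).erase (Quotient.mk'' a) := by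
        refine Finset.mem_erase.mpr ⟨?_, Finset.mem_univ _⟩
        intro h
        have h5 : b ∈ orbit (stabilizer G a) a := Quotient.exact' h
        obtain ⟨s, hs⟩ := h5
        exact hb (hs.symm.trans s.2)
      rw [Finset.card_eq_zero] at h3
      rw [h3] at h4
      exact absurd h4 (Finset.notMem_empty _)
  · -- the main count
    have hge : ∀ q ∈ (Finset.univ : Finset (orbitRel.Quotient (stabilizer G a) Ω)).erase (Quotient.mk'' a),
        f ≤ Nat.card (orbit (stabilizer G a) q.out) := by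
      intro q hq
      haveI : Nonempty (orbit (stabilizer G a) q.out) := ⟨⟨q.out, mem_orbit_self _⟩⟩
      apply Nat.le_of_dvd _ (hdvd q hq)
      exact Nat.card_pos
    have hle1 : (∑ ψ ∈ (Finset.univ : Finset (IrrCharacter G)).erase triv, (m ψ) ^ 2) * f ≤
        ∑ ψ ∈ (Finset.univ : Finset (IrrCharacter G)).erase triv, m ψ * f := by
      rw [← hc2', ← hc1]
      have := Finset.card_nsmul_le_sum _ _ f hge
      simpa [smul_eq_mul] using this
    have hle2 : ∑ ψ ∈ (Finset.univ : Finset (IrrCharacter G)).erase triv, m ψ ≤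
        ∑ ψ ∈ (Finset.univ : Finset (IrrCharacter G)).erase triv, (m ψ) ^ 2 := by
      apply Finset.sum_le_sum
      intro ψ _
      exact Nat.le_self_pow (by norm_num) _
    have heq : ∑ ψ ∈ (Finset.univ : Finset (IrrCharacter G)).erase triv, m ψ =
        ∑ ψ ∈ (Finset.univ : Finset (IrrCharacter G)).erase triv, (m ψ) ^ 2 := by
      apply le_antisymm hle2
      rw [← Finset.sum_mul] at hle1
      exact Nat.le_of_mul_le_mul_right hle1 hfpos
    have hmterm : ∀ ψ ∈ (Finset.univ : Finset (IrrCharacter G)).erase triv, m ψ = (m ψ) ^ 2 :=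
      (Finset.sum_eq_sum_iff_of_le (fun ψ _ => Nat.le_self_pow (by norm_num) _)).mp heq
    constructor
    · intro χ hχ
      have hval : classInner (fun g : G => (Nat.card (fixedBy Ω g) : ℂ)) χ = (m ⟨χ, hχ⟩ : ℂ) :=
        hinner ⟨χ, hχ⟩
      by_cases hχ1 : (⟨χ, hχ⟩ : IrrCharacter G) = triv
      · right
        rw [hval, hχ1, htriv, Nat.cast_one]
      · have h2 := hmterm _ (Finset.mem_erase.mpr ⟨hχ1, Finset.mem_univ _⟩)
        have h3 : m ⟨χ, hχ⟩ = 0 ∨ m ⟨χ, hχ⟩ = 1 := by
          rcases Nat.eq_zero_or_pos (m ⟨χ, hχ⟩) with h4 | h4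
          · exact Or.inl h4
          · right
            nlinarith
        rcases h3 with h3 | h3
        · left
          rw [hval, h3, Nat.cast_zero]
        · right
          rw [hval, h3, Nat.cast_one]
    · have htotal : ∑ q ∈ (Finset.univ : Finset (orbitRel.Quotient (stabilizer G a) Ω)).erase (Quotient.mk'' a),
          f = ∑ q ∈ (Finset.univ : Finset (orbitRel.Quotient (stabilizer G a) Ω)).erase (Quotient.mk'' a),
          Nat.card (orbit (stabilizer G a) q.out) := by
        rw [hc2', ← Finset.sum_mul, heq, ← hc1, Finset.sum_const, smul_eq_mul]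
      have hall := (Finset.sum_eq_sum_iff_of_le hge).mp htotal
      intro b hb
      rw [card_orbit_out]
      refine (hall _ (Finset.mem_erase.mpr ⟨?_, Finset.mem_univ _⟩)).symm
      intro h
      have h5 : b ∈ orbit (stabilizer G a) a := Quotient.exact' h
      obtain ⟨s, hs⟩ := h5
      exact hb (hs.symm.trans s.2)

/-- Rank at most five forces multiplicity-freeness. -/
theorem rank_le_five [IsPretransitive G Ω] (a : Ω)
    (hr : Nat.card (orbitRel.Quotient (stabilizer G a) Ω) ≤ 5) :
    ∀ χ : G → ℂ, IsIrrCharacter G χ →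
      classInner (fun g : G => (Nat.card (fixedBy Ω g) : ℂ)) χ = 0 ∨
      classInner (fun g : G => (Nat.card (fixedBy Ω g) : ℂ)) χ = 1 := by
  classical
  obtain ⟨m, hinner, hdim, hrank, htriv⟩ := coeff_data (G := G) a
  obtain ⟨hc1, hc2⟩ := erase_counts a m hdim hrank htriv
  intro χ hχ
  by_contra hcon
  push Not at hcon
  obtain ⟨h0, h1⟩ := hcon
  set ψ₀ : IrrCharacter G := ⟨χ, hχ⟩ with hψ₀
  have hm0 : classInner (fun g : G => (Nat.card (fixedBy Ω g) : ℂ)) χ = (m ψ₀ : ℂ) := hinner ψ₀
  have hm2 : 2 ≤ m ψ₀ := by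
    have h2 : m ψ₀ ≠ 0 := by
      intro h
      apply h0
      rw [hm0, h, Nat.cast_zero]
    have h3 : m ψ₀ ≠ 1 := by
      intro h
      apply h1
      rw [hm0, h, Nat.cast_one]
    omega
  have hne : ψ₀ ≠ triv := by
    intro h
    rw [h, htriv] at hm2
    omega
  have hmem : ψ₀ ∈ (Finset.univ : Finset (IrrCharacter G)).erase triv :=
    Finset.mem_erase.mpr ⟨hne, Finset.mem_univ _⟩
  rw [← hrank, ← Finset.add_sum_erase _ _ (Finset.mem_univ (triv : IrrCharacter G)), htriv] at hr
  rw [← Finset.add_sum_erase _ _ hmem] at hr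
  have hm : m ψ₀ = 2 := by
    have h3 : m ψ₀ ^ 2 ≤ 4 := by
      have : 1 ^ 2 + (m ψ₀ ^ 2 + ∑ x ∈ ((Finset.univ : Finset (IrrCharacter G)).erase triv).erase ψ₀, m x ^ 2) ≤ 5 := hr
      omega
    nlinarith
  have hrest : ∑ x ∈ ((Finset.univ : Finset (IrrCharacter G)).erase triv).erase ψ₀, m x ^ 2 = 0 := by
    rw [hm] at hr
    have : 1 ^ 2 + (2 ^ 2 + ∑ x ∈ ((Finset.univ : Finset (IrrCharacter G)).erase triv).erase ψ₀, m x ^ 2) ≤ 5 := hr
    omega
  have hothers : ∀ ψ ∈ (Finset.univ : Finset (IrrCharacter G)).erase triv, ψ ≠ ψ₀ → m ψ = 0 := by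
    intro ψ hψ hψ0
    have h3 := (Finset.sum_eq_zero_iff.mp hrest) ψ (Finset.mem_erase.mpr ⟨hψ0, hψ⟩)
    exact pow_eq_zero_iff (two_ne_zero) |>.mp h3
  obtain ⟨f, hfpos, hf⟩ := isIrr_degree ψ₀
  -- the divisibility
  have hdvd : ∀ q ∈ (Finset.univ : Finset (orbitRel.Quotient (stabilizer G a) Ω)).erase (Quotient.mk'' a),
      f ∣ Nat.card (orbit (stabilizer G a) q.out) := by
    intro q hq
    apply dvd_subdegree f _ a q.out (out_ne a q (Finset.mem_erase.mp hq).1)
    intro χ' h1' h2' h3'
    have h4 : (⟨χ', h1'⟩ : IrrCharacter G) = ψ₀ := by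
      by_contra h5
      have h6 := hothers ⟨χ', h1'⟩ (Finset.mem_erase.mpr ⟨fun h => h2' (congrArg Subtype.val h), Finset.mem_univ _⟩) h5
      have h7 : classInner (fun g : G => (Nat.card (fixedBy Ω g) : ℂ)) χ' = (m ⟨χ', h1'⟩ : ℂ) :=
        hinner ⟨χ', h1'⟩
      apply h3'
      rw [h7, h6, Nat.cast_zero]
    have h5 : χ' = (ψ₀ : G → ℂ) := congrArg Subtype.val h4
    exact ⟨1, by rw [h5, hf]; simp⟩
  have hge : ∀ q ∈ (Finset.univ : Finset (orbitRel.Quotient (stabilizer G a) Ω)).erase (Quotient.mk'' a),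
      f ≤ Nat.card (orbit (stabilizer G a) q.out) := by
    intro q hq
    haveI : Nonempty (orbit (stabilizer G a) q.out) := ⟨⟨q.out, mem_orbit_self _⟩⟩
    apply Nat.le_of_dvd _ (hdvd q hq)
    exact Nat.card_pos
  have hsq : ∑ ψ ∈ (Finset.univ : Finset (IrrCharacter G)).erase triv, m ψ ^ 2 = 4 := by
    rw [← Finset.add_sum_erase _ _ hmem, hrest, hm]
    norm_num
  have hsumd : ∑ ψ ∈ (Finset.univ : Finset (IrrCharacter G)).erase triv, (m ψ : ℂ) * (ψ : G → ℂ) 1 =
      ((2 * f : ℕ) : ℂ) := by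
    rw [← Finset.add_sum_erase _ _ hmem, hm, hf, Finset.sum_eq_zero]
    · push_cast
      ring
    · intro ψ hψ
      obtain ⟨h3, h4⟩ := Finset.mem_erase.mp hψ
      rw [hothers ψ h4 h3]
      simp
  rw [hsumd] at hc2
  have hc2' : ∑ q ∈ (Finset.univ : Finset (orbitRel.Quotient (stabilizer G a) Ω)).erase (Quotient.mk'' a),
      Nat.card (orbit (stabilizer G a) q.out) = 2 * f := by
    exact_mod_cast hc2
  have h3 := Finset.card_nsmul_le_sum _ _ f hge
  rw [hc2', hc1, hsq, smul_eq_mul] at h3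
  omega

end Cfsg.Agent.Lib.H1PermChar2
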