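import Cfsg.Agent.Lib.H1PermChar2
import Mathlib

set_option autoImplicit false

/-! The centraliser ring of a permutation representation. -/

namespace Cfsg.Agent.Lib.H1PermChar3

open Cfsg MulAction Module
open scoped ComplexConjugate
open Cfsg.Agent.Lib.CharBasic Cfsg.Agent.Lib.CharOrth Cfsg.Agent.Lib.H1PermChar
open Cfsg.Agent.Lib.H1PermChar2
open Cfsg.Agent.Lib

universe u v w

section general

variable {G : Type u} [Group G] [Fintype G] {V : Type v} [AddCommGroup V] [Module ℂ V]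
  {n : ℕ} (σ : Representation ℂ G (Fin n → ℂ)) (ρ : Representation ℂ G V)

/-- The isotypic average (without the degree factor). -/
noncomputable def E (χ : G → ℂ) (x : V) : V := (Nat.card G : ℂ)⁻¹ • ∑ g : G, χ g⁻¹ • ρ g x

/-- The intertwiner built from a vector and a coordinate. -/
noncomputable def phi (x : V) (k : Fin n) : Representation.IntertwiningMap σ ρ :=
  { toFun := fun u => (Nat.card G : ℂ)⁻¹ • ∑ g : G, (σ g⁻¹ u) k • ρ g x
    map_add' := by
      intro u v
      simp only [map_add, Pi.add_apply, add_smul, Finset.sum_add_distrib, smul_add]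
    map_smul' := by
      intro c u
      simp only [map_smul, Pi.smul_apply, smul_eq_mul, mul_smul, RingHom.id_apply, Finset.smul_sum]
      apply Finset.sum_congr rfl
      intro g _
      rw [smul_comm]
    isIntertwining' := by
      intro h
      refine LinearMap.ext fun u => ?_
      simp only [LinearMap.comp_apply, LinearMap.coe_mk, AddHom.coe_mk, map_smul, map_sum]
      congr 1
      rw [← Equiv.sum_comp (Equiv.mulLeft h)]
      apply Finset.sum_congr rfl
      intro g _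
      simp only [Equiv.coe_mulLeft, mul_inv_rev, map_mul, Module.End.mul_apply, inv_inv]
      simp }

theorem phi_apply (x : V) (k : Fin n) (u : Fin n → ℂ) :
    phi σ ρ x k u = (Nat.card G : ℂ)⁻¹ • ∑ g : G, (σ g⁻¹ u) k • ρ g x := rfl

theorem sum_phi (x : V) :
    ∑ k, phi σ ρ x k (Pi.single k 1) = E ρ σ.character x := by
  simp only [phi_apply, E]
  rw [← Finset.smul_sum, Finset.sum_comm]
  congr 1
  apply Finset.sum_congr rfl
  intro g _
  rw [← Finset.sum_smul]
  congr 1
  rw [← CharFS.trace_matOf, Matrix.trace]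
  apply Finset.sum_congr rfl
  intro k _
  simp [CharFS.matOf, LinearMap.toMatrix'_apply]

theorem sum_degree_E [DecidableEq G] (x : V) :
    ∑ χ : IrrCharacter G, (χ : G → ℂ) 1 • E ρ (χ : G → ℂ) x = x := by
  classical
  have hcard : (Nat.card G : ℂ) ≠ 0 := card_ne_zero'
  unfold E
  simp only [smul_smul, Finset.smul_sum]
  rw [Finset.sum_comm]
  have h1 : ∀ g : G, ∑ χ : IrrCharacter G, ((χ : G → ℂ) 1 * ((Nat.card G : ℂ)⁻¹ * (χ : G → ℂ) g⁻¹)) • ρ g x =
      (Nat.card G : ℂ)⁻¹ • (∑ χ : IrrCharacter G, (χ : G → ℂ) 1 * (χ : G → ℂ) g⁻¹) • ρ g x := by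
    intro g
    rw [Finset.sum_smul, Finset.smul_sum]
    apply Finset.sum_congr rfl
    intro χ _
    rw [smul_smul]
    congr 1
    ring
  simp only [h1, CharLin.sum_degree_mul]
  rw [Finset.sum_eq_single 1]
  · simp [smul_smul, inv_mul_cancel₀ hcard]
  · intro g _ hg
    rw [if_neg (inv_eq_one.not.mpr hg)]
    simp
  · intro h
    exact absurd (Finset.mem_univ _) h

/-- If there are no intertwiners the average vanishes. -/
theorem E_eq_zero (h0 : finrank ℂ (Representation.IntertwiningMap σ ρ) = 0)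
    [FiniteDimensional ℂ V] (x : V) : E ρ σ.character x = 0 := by
  haveI : Subsingleton (Representation.IntertwiningMap σ ρ) := finrank_zero_iff.mp h0
  rw [← sum_phi]
  apply Finset.sum_eq_zero
  intro k _
  rw [Subsingleton.elim (phi σ ρ x k) 0]
  rfl

/-- An endomorphism commuting with `ρ` acts as a scalar on the isotypic part of multiplicity one. -/
theorem scalar_on_E [FiniteDimensional ℂ V] (h1 : finrank ℂ (Representation.IntertwiningMap σ ρ) ≤ 1)
    (S : V →ₗ[ℂ] V) (hS : ∀ g v, S (ρ g v) = ρ g (S v)) :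
    ∃ c : ℂ, ∀ x, S (E ρ σ.character x) = c • E ρ σ.character x := by
  rcases Nat.le_one_iff_eq_zero_or_eq_one.mp h1 with h0 | h2
  · refine ⟨0, fun x => ?_⟩
    rw [E_eq_zero σ ρ h0 x]
    simp
  · obtain ⟨φ₀, hφ₀, hall⟩ := finrank_eq_one_iff'.mp h2
    let Sφ : Representation.IntertwiningMap σ ρ :=
      { toLinearMap := S ∘ₗ φ₀.toLinearMap
        isIntertwining' := by
          intro g
          refine LinearMap.ext fun u => ?_
          simp only [LinearMap.comp_apply]
          rw [← hS]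
          congr 1
          exact LinearMap.congr_fun (φ₀.isIntertwining' g) u }
    obtain ⟨c, hc⟩ := hall Sφ
    refine ⟨c, fun x => ?_⟩
    have hSall : ∀ φ : Representation.IntertwiningMap σ ρ, ∀ u, S (φ u) = c • φ u := by
      intro φ u
      obtain ⟨d, hd⟩ := hall φ
      rw [← hd]
      have h3 : S (φ₀ u) = c • φ₀ u := by
        have := congrArg (fun f : Representation.IntertwiningMap σ ρ => f u) hc
        exact this.symm
      show S (d • φ₀ u) = c • (d • φ₀ u)
      rw [map_smul, h3, smul_comm]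
    rw [← sum_phi, map_sum, Finset.smul_sum]
    apply Finset.sum_congr rfl
    intro k _
    exact hSall _ _

end general

section retract

variable {G : Type u} [Group G] [Fintype G] {V : Type v} [AddCommGroup V] [Module ℂ V]
  {n : ℕ} (σ : Representation ℂ G (Fin n → ℂ)) (ρ : Representation ℂ G V)

/-- A nonzero intertwiner out of an irreducible representation has an equivariant retraction. -/
theorem exists_retraction (hσ : σ.IsIrreducible) (φ : Representation.IntertwiningMap σ ρ) (hφ : φ ≠ 0) :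
    ∃ ψ : V →ₗ[ℂ] (Fin n → ℂ), (∀ g v, ψ (ρ g v) = σ g (ψ v)) ∧ ∀ u, ψ (φ u) = u := by
  classical
  have hcard : (Nat.card G : ℂ) ≠ 0 := card_ne_zero'
  have hinter : ∀ g u, φ (σ g u) = ρ g (φ u) := fun g u => LinearMap.congr_fun (φ.isIntertwining' g) u
  have hirr := (isIrreducible_iff σ).mp hσ
  have hker : LinearMap.ker φ.toLinearMap = ⊥ := by
    rcases hirr.2 (LinearMap.ker φ.toLinearMap) (by
      intro g v hv
      rw [LinearMap.mem_ker] at hv ⊢
      have h1 : φ v = 0 := hv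
      show φ (σ g v) = 0
      rw [hinter, h1, map_zero]) with h | h
    · exact h
    · exfalso
      apply hφ
      refine Representation.IntertwiningMap.ext (LinearMap.ext fun u => ?_)
      have h1 : u ∈ LinearMap.ker φ.toLinearMap := by rw [h]; trivial
      exact h1
  obtain ⟨f, hf⟩ := LinearMap.exists_leftInverse_of_injective φ.toLinearMap hker
  have hf' : ∀ u, f (φ u) = u := fun u => by
    have := congrArg (fun F : (Fin n → ℂ) →ₗ[ℂ] (Fin n → ℂ) => F u) hf
    exact this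
  let ψ : V →ₗ[ℂ] (Fin n → ℂ) := (Nat.card G : ℂ)⁻¹ • ∑ g : G, (σ g) ∘ₗ f ∘ₗ (ρ g⁻¹)
  have hψ : ∀ v, ψ v = (Nat.card G : ℂ)⁻¹ • ∑ g : G, σ g (f (ρ g⁻¹ v)) := by
    intro v
    simp [ψ, LinearMap.sum_apply]
  refine ⟨ψ, ?_, ?_⟩
  · intro h v
    rw [hψ, hψ, map_smul, map_sum]
    congr 1
    rw [← Equiv.sum_comp (Equiv.mulLeft h)]
    apply Finset.sum_congr rfl
    intro g _
    simp only [Equiv.coe_mulLeft, mul_inv_rev, map_mul, Module.End.mul_apply]
    simp
  · intro u
    rw [hψ]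
    have h1 : ∀ g : G, σ g (f (ρ g⁻¹ (φ u))) = u := by
      intro g
      rw [← hinter, hf', ← Module.End.mul_apply, ← map_mul, mul_inv_cancel, map_one]
      rfl
    simp only [h1, Finset.sum_const, Finset.card_univ, ← Nat.card_eq_fintype_card]
    rw [← Nat.cast_smul_eq_nsmul ℂ, smul_smul, inv_mul_cancel₀ hcard, one_smul]

/-- Multiplicity at least two produces non-commuting equivariant endomorphisms. -/
theorem exists_noncomm [FiniteDimensional ℂ V] (hσ : σ.IsIrreducible)
    (h2 : 1 < finrank ℂ (Representation.IntertwiningMap σ ρ)) :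
    ∃ S T : V →ₗ[ℂ] V, (∀ g v, S (ρ g v) = ρ g (S v)) ∧ (∀ g v, T (ρ g v) = ρ g (T v)) ∧
      S ∘ₗ T ≠ T ∘ₗ S := by
  classical
  haveI hnt : Nontrivial (Representation.IntertwiningMap σ ρ) :=
    Module.nontrivial_of_finrank_pos (R := ℂ) (by omega)
  obtain ⟨φ₁, hφ₁⟩ := exists_ne (0 : Representation.IntertwiningMap σ ρ)
  obtain ⟨φ₂, hLI⟩ := exists_linearIndependent_pair_of_one_lt_finrank h2 hφ₁
  rw [LinearIndependent.pair_iff] at hLI
  have hU : Nontrivial (Fin n → ℂ) := ((isIrreducible_iff σ).mp hσ).1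
  obtain ⟨ψ₁, hψ₁, hψ₁φ₁⟩ := exists_retraction σ ρ hσ φ₁ hφ₁
  have hint : ∀ φ : Representation.IntertwiningMap σ ρ, ∀ g u, φ (σ g u) = ρ g (φ u) :=
    fun φ g u => LinearMap.congr_fun (φ.isIntertwining' g) u
  -- the scalar `ψ₁ φ₂`
  obtain ⟨c, hc⟩ := schur σ hσ (ψ₁ ∘ₗ φ₂.toLinearMap) (by
    intro g v
    show ψ₁ (φ₂ (σ g v)) = σ g (ψ₁ (φ₂ v))
    rw [hint, hψ₁])
  have hc' : ∀ u, ψ₁ (φ₂ u) = c • u := fun u => by
    have := congrArg (fun F : (Fin n → ℂ) →ₗ[ℂ] (Fin n → ℂ) => F u) hc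
    exact this
  let φ₃ : Representation.IntertwiningMap σ ρ := φ₂ - c • φ₁
  have hφ₃u : ∀ u, φ₃ u = φ₂ u - c • φ₁ u := fun u => rfl
  have hφ₃ : φ₃ ≠ 0 := by
    intro h
    have h3 := hLI (-c) 1 (by
      rw [one_smul, neg_smul, neg_add_eq_sub]
      exact h)
    exact one_ne_zero h3.2
  have hψ₁φ₃ : ∀ u, ψ₁ (φ₃ u) = 0 := by
    intro u
    rw [hφ₃u, map_sub, map_smul, hc', hψ₁φ₁, sub_self]
  obtain ⟨ψ₂, hψ₂, hψ₂φ₃⟩ := exists_retraction σ ρ hσ φ₃ hφ₃
  obtain ⟨c', hc''⟩ := schur σ hσ (ψ₂ ∘ₗ φ₁.toLinearMap) (by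
    intro g v
    show ψ₂ (φ₁ (σ g v)) = σ g (ψ₂ (φ₁ v))
    rw [hint, hψ₂])
  have hc''' : ∀ u, ψ₂ (φ₁ u) = c' • u := fun u => by
    have := congrArg (fun F : (Fin n → ℂ) →ₗ[ℂ] (Fin n → ℂ) => F u) hc''
    exact this
  refine ⟨φ₁.toLinearMap ∘ₗ ψ₂, φ₃.toLinearMap ∘ₗ ψ₁, ?_, ?_, ?_⟩
  · intro g v
    show φ₁ (ψ₂ (ρ g v)) = ρ g (φ₁ (ψ₂ v))
    rw [hψ₂, hint]
  · intro g v
    show φ₃ (ψ₁ (ρ g v)) = ρ g (φ₃ (ψ₁ v))
    rw [hψ₁, hint]
  · intro h
    have h3 : ∀ u, φ₁ u = c' • φ₃ u := by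
      intro u
      have h4 := congrArg (fun F : V →ₗ[ℂ] V => F (φ₁ u)) h
      have h5 : φ₁ (ψ₂ (φ₃ (ψ₁ (φ₁ u)))) = φ₃ (ψ₁ (φ₁ (ψ₂ (φ₁ u)))) := h4
      rw [hψ₁φ₁, hψ₂φ₃, hc''', hψ₁φ₁ (c' • u), map_smul] at h5
      exact h5
    -- linear dependence
    have h6 : (1 + c' * c) • φ₁ + (-c') • φ₂ = 0 := by
      refine Representation.IntertwiningMap.ext (LinearMap.ext fun u => ?_)
      show (1 + c' * c) • φ₁ u + (-c') • φ₂ u = 0
      have h7 := h3 u
      rw [hφ₃u, smul_sub, smul_smul] at h7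
      rw [add_smul, one_smul, mul_smul, neg_smul]
      rw [smul_smul]
      have h8 : φ₁ u - (c' • φ₂ u - (c' * c) • φ₁ u) = 0 := sub_eq_zero.mpr h7
      rw [← h8]
      abel
    obtain ⟨h7, h8⟩ := hLI _ _ h6
    have h9 : c' = 0 := neg_eq_zero.mp h8
    rw [h9] at h7
    simp at h7

end retract

section main

variable {G : Type u} [Group G] [Fintype G] {Ω : Type v} [Fintype Ω] [MulAction G Ω]

theorem hom_of_mem {S : (Ω → ℂ) →ₗ[ℂ] (Ω → ℂ)}
    (h : S ∈ ((permRep ℂ G Ω).linHom (permRep ℂ G Ω)).invariants) (g : G) (v : Ω → ℂ) :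
    S (permRep ℂ G Ω g v) = permRep ℂ G Ω g (S v) := by
  have h1 := congrArg (fun F : (Ω → ℂ) →ₗ[ℂ] (Ω → ℂ) => F (permRep ℂ G Ω g v)) (h g)
  simp only [Representation.linHom_apply, LinearMap.comp_apply] at h1
  rw [← h1, ← Module.End.mul_apply (permRep ℂ G Ω g⁻¹), ← map_mul, inv_mul_cancel, map_one]
  rfl

theorem mem_of_hom {S : (Ω → ℂ) →ₗ[ℂ] (Ω → ℂ)}
    (h : ∀ g v, S (permRep ℂ G Ω g v) = permRep ℂ G Ω g (S v)) :
    S ∈ ((permRep ℂ G Ω).linHom (permRep ℂ G Ω)).invariants := by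
  intro g
  refine LinearMap.ext fun v => ?_
  simp only [Representation.linHom_apply, LinearMap.comp_apply]
  rw [← h, ← Module.End.mul_apply (permRep ℂ G Ω g), ← map_mul, mul_inv_cancel, map_one]
  rfl

/-- The multiplicity as a dimension. -/
theorem inner_eq_finrank {n : ℕ} (σ : Representation ℂ G (Fin n → ℂ)) :
    classInner (fun g : G => (Nat.card (fixedBy Ω g) : ℂ)) σ.character =
      finrank ℂ (Representation.IntertwiningMap σ (permRep ℂ G Ω)) := by
  classical
  have h1 := classInner_character σ (permRep ℂ G Ω)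
  have h2 : (permRep ℂ G Ω).character = fun g : G => (Nat.card (fixedBy Ω g) : ℂ) := by
    funext g
    exact perm_character g
  rw [h2] at h1
  exact h1

/-- Multiplicity-freeness is equivalent to commutativity of the centraliser ring. -/
theorem multfree_iff_comm :
    (∀ χ : G → ℂ, IsIrrCharacter G χ →
      classInner (fun g : G => (Nat.card (fixedBy Ω g) : ℂ)) χ = 0 ∨
      classInner (fun g : G => (Nat.card (fixedBy Ω g) : ℂ)) χ = 1) ↔
    ∀ S T : (Ω → ℂ) →ₗ[ℂ] (Ω → ℂ), S ∈ ((permRep ℂ G Ω).linHom (permRep ℂ G Ω)).invariants →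
      T ∈ ((permRep ℂ G Ω).linHom (permRep ℂ G Ω)).invariants → S ∘ₗ T = T ∘ₗ S := by
  classical
  constructor
  · intro hm S T hS hT
    have hS' := hom_of_mem hS
    have hT' := hom_of_mem hT
    have hscal : ∀ (S' : (Ω → ℂ) →ₗ[ℂ] (Ω → ℂ)), (∀ g v, S' (permRep ℂ G Ω g v) = permRep ℂ G Ω g (S' v)) →
        ∀ χ : IrrCharacter G, ∃ c : ℂ, ∀ x, S' (E (permRep ℂ G Ω) (χ : G → ℂ) x) =
          c • E (permRep ℂ G Ω) (χ : G → ℂ) x := by
      intro S' hS'' χ
      obtain ⟨n, σ, hσ, hχ⟩ := χ.2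
      have h1 := inner_eq_finrank (Ω := Ω) σ
      have h2 : finrank ℂ (Representation.IntertwiningMap σ (permRep ℂ G Ω)) ≤ 1 := by
        rcases hm χ χ.2 with h3 | h3
        · rw [← hχ, h1] at h3
          have : finrank ℂ (Representation.IntertwiningMap σ (permRep ℂ G Ω)) = 0 := by
            exact_mod_cast h3
          omega
        · rw [← hχ, h1] at h3
          have : finrank ℂ (Representation.IntertwiningMap σ (permRep ℂ G Ω)) = 1 := by
            exact_mod_cast h3
          omega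
      rw [← hχ]
      exact scalar_on_E σ (permRep ℂ G Ω) h2 S' hS''
    choose cS hcS using hscal S hS'
    choose cT hcT using hscal T hT'
    refine LinearMap.ext fun x => ?_
    conv_lhs => rw [← sum_degree_E (permRep ℂ G Ω) x]
    conv_rhs => rw [← sum_degree_E (permRep ℂ G Ω) x]
    simp only [LinearMap.comp_apply, map_sum, map_smul]
    apply Finset.sum_congr rfl
    intro χ _
    rw [hcT, map_smul, hcS, map_smul, hcT, smul_comm (cT χ)]
  · intro hc χ hχ
    obtain ⟨n, σ, hσ, rfl⟩ := id hχ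
    rw [inner_eq_finrank σ]
    by_contra hcon
    push Not at hcon
    obtain ⟨h0, h1⟩ := hcon
    have h2 : 1 < finrank ℂ (Representation.IntertwiningMap σ (permRep ℂ G Ω)) := by
      have h3 : finrank ℂ (Representation.IntertwiningMap σ (permRep ℂ G Ω)) ≠ 0 := by
        intro h
        rw [h] at h0
        simp at h0
      have h4 : finrank ℂ (Representation.IntertwiningMap σ (permRep ℂ G Ω)) ≠ 1 := by
        intro h
        rw [h] at h1
        simp at h1
      omega
    obtain ⟨S, T, hS, hT, hST⟩ := exists_noncomm σ (permRep ℂ G Ω) hσ h2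
    exact hST (hc S T (mem_of_hom hS) (mem_of_hom hT))

end main

end Cfsg.Agent.Lib.H1PermChar3
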