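import Cfsg.Agent.Lib.H1PermChar3
import Mathlib

set_option autoImplicit false

/-! Self-paired suborbits. -/

namespace Cfsg.Agent.Lib.H1PermChar4

open Cfsg MulAction Module
open scoped ComplexConjugate
open Cfsg.Agent.Lib.CharBasic Cfsg.Agent.Lib.CharOrth Cfsg.Agent.Lib.H1PermChar
open Cfsg.Agent.Lib.H1PermChar2 Cfsg.Agent.Lib.H1PermChar3
open Cfsg.Agent.Lib

universe u v

variable {G : Type u} [Group G] [Fintype G] {Ω : Type v} [Fintype Ω] [MulAction G Ω]

open Classical in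
/-- Under the swapping hypothesis, `∑ π (g²) = ∑ π (g)²`. -/
theorem sum_square_eq (hswap : ∀ a b : Ω, ∃ g : G, g • a = b ∧ g • b = a) :
    ∑ g : G, pc G Ω (g * g) = ∑ g : G, pc G Ω g * pc G Ω g := by
  have h1 : ∀ g : G, pc G Ω (g * g) =
      ∑ x : Ω, ∑ y : Ω, if g • x = y ∧ g • y = x then (1 : ℂ) else 0 := by
    intro g
    rw [pc_eq_sum]
    apply Finset.sum_congr rfl
    intro x _
    rw [Finset.sum_eq_single (g • x)]
    · simp [mul_smul]
    · intro y _ hy
      rw [if_neg]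
      rintro ⟨h2, _⟩
      exact hy h2.symm
    · intro h
      exact absurd (Finset.mem_univ _) h
  have h2 : ∀ g : G, pc G Ω g * pc G Ω g =
      ∑ x : Ω, ∑ y : Ω, if g • x = x ∧ g • y = y then (1 : ℂ) else 0 := by
    intro g
    rw [pc_eq_sum, Finset.sum_mul_sum]
    apply Finset.sum_congr rfl
    intro x _
    apply Finset.sum_congr rfl
    intro y _
    by_cases h3 : g • x = x <;> by_cases h4 : g • y = y <;> simp [h3, h4]
  simp only [h1, h2]
  rw [Finset.sum_comm]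
  conv_rhs => rw [Finset.sum_comm]
  apply Finset.sum_congr rfl
  intro x _
  rw [Finset.sum_comm]
  conv_rhs => rw [Finset.sum_comm]
  apply Finset.sum_congr rfl
  intro y _
  obtain ⟨t, ht1, ht2⟩ := hswap x y
  rw [← Equiv.sum_comp (Equiv.mulLeft t)]
  apply Finset.sum_congr rfl
  intro g _
  simp only [Equiv.coe_mulLeft, mul_smul]
  have h3 : t • g • x = y ↔ g • x = x := by
    rw [← ht1, smul_left_cancel_iff]
  have h4 : t • g • y = x ↔ g • y = y := by
    rw [← ht2, smul_left_cancel_iff]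
  rw [if_congr (and_congr h3 h4) rfl rfl]

/-- The forward direction. -/
theorem forward (hswap : ∀ a b : Ω, ∃ g : G, g • a = b ∧ g • b = a) :
    ∀ χ : G → ℂ, IsIrrCharacter G χ → classInner (pc G Ω) χ ≠ 0 →
      classInner (pc G Ω) χ = 1 ∧ ∀ g : G, (starRingEnd ℂ) (χ g) = χ g := by
  classical
  have hcard : (Nat.card G : ℂ) ≠ 0 := card_ne_zero'
  obtain ⟨m, hm⟩ := CharAlg.IsCharacter.exists_nat_coeff (pc_isCharacter (G := G) (Ω := Ω))
  have hinner : ∀ ψ : IrrCharacter G, classInner (pc G Ω) (ψ : G → ℂ) = m ψ := by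
    intro ψ
    rw [hm]
    exact CharAlg.classInner_sum_irr (fun φ => (m φ : ℂ)) ψ
  let ν : IrrCharacter G → ℂ := fun ψ => (Nat.card G : ℂ)⁻¹ * ∑ s : G, (ψ : G → ℂ) (s * s)
  have hν : ∀ ψ : IrrCharacter G, (ν ψ = 0 ∨ ν ψ = 1 ∨ ν ψ = -1) ∧
      (ν ψ = 0 ↔ ∃ s : G, ((ψ : G → ℂ) s).im ≠ 0) := by
    intro ψ
    obtain ⟨n, σ, hσ, hχ⟩ := ψ.2
    have h1 := CharFS.frobenius_schur σ hσ
    simp only [ν]
    rw [← hχ]
    exact h1
  have hsum1 : ∑ ψ : IrrCharacter G, (m ψ : ℂ) * (m ψ : ℂ) = ∑ ψ : IrrCharacter G, (m ψ : ℂ) * ν ψ := by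
    have h1 := CharAlg.classInner_eq_sum (pc G Ω) (pc G Ω) pc_classFunction
    simp only [hinner, Complex.conj_natCast] at h1
    rw [← h1]
    -- the Frobenius-Schur sum
    have h2 : ∑ g : G, pc G Ω (g * g) = (Nat.card G : ℂ) * ∑ ψ : IrrCharacter G, (m ψ : ℂ) * ν ψ := by
      have h3 : ∀ g : G, pc G Ω (g * g) = ∑ ψ : IrrCharacter G, (m ψ : ℂ) * (ψ : G → ℂ) (g * g) := by
        intro g
        have h4 := congrFun hm (g * g)
        rw [h4]
        simp only [Finset.sum_apply, Pi.smul_apply, smul_eq_mul]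
      simp only [h3, ν]
      rw [Finset.sum_comm, Finset.mul_sum]
      apply Finset.sum_congr rfl
      intro ψ _
      rw [← Finset.mul_sum]
      field_simp
    simp only [classInner]
    have hconj : ∀ g : G, conj (pc G Ω g) = pc G Ω g := fun g => by simp [pc]
    simp only [hconj]
    rw [← sum_square_eq hswap, h2]
    field_simp
  -- pass to real parts
  let r : IrrCharacter G → ℝ := fun ψ => (ν ψ).re
  have hνr : ∀ ψ, ν ψ = (r ψ : ℂ) := by
    intro ψ
    rcases (hν ψ).1 with h | h | h <;> simp [r, h]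
  have hr : ∀ ψ, r ψ ≤ 1 := by
    intro ψ
    rcases (hν ψ).1 with h | h | h <;> simp [r, h] <;> norm_num
  have hsum2 : ∑ ψ : IrrCharacter G, (m ψ : ℝ) * ((m ψ : ℝ) - r ψ) = 0 := by
    have h1 : ((∑ ψ : IrrCharacter G, (m ψ : ℝ) * ((m ψ : ℝ) - r ψ) : ℝ) : ℂ) = 0 := by
      push_cast
      simp only [mul_sub, Finset.sum_sub_distrib]
      rw [hsum1, sub_eq_zero]
      apply Finset.sum_congr rfl
      intro ψ _
      rw [hνr]
    exact_mod_cast h1
  have hnonneg : ∀ ψ ∈ (Finset.univ : Finset (IrrCharacter G)), 0 ≤ (m ψ : ℝ) * ((m ψ : ℝ) - r ψ) := by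
    intro ψ _
    rcases Nat.eq_zero_or_pos (m ψ) with h | h
    · simp [h]
    · apply mul_nonneg (Nat.cast_nonneg _)
      have h1 : (1 : ℝ) ≤ (m ψ : ℝ) := by exact_mod_cast h
      linarith [hr ψ]
  have hzero := (Finset.sum_eq_zero_iff_of_nonneg hnonneg).mp hsum2
  intro χ hχ hne
  let ψ : IrrCharacter G := ⟨χ, hχ⟩
  have hmψ : classInner (pc G Ω) χ = m ψ := hinner ψ
  have hm0 : m ψ ≠ 0 := by
    intro h
    apply hne
    rw [hmψ, h, Nat.cast_zero]
  have h1 := hzero ψ (Finset.mem_univ _)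
  have h2 : (m ψ : ℝ) ≠ 0 := by exact_mod_cast hm0
  have h3 : (m ψ : ℝ) = r ψ := by
    have := (mul_eq_zero.mp h1).resolve_left h2
    linarith
  have h4 : (1 : ℝ) ≤ (m ψ : ℝ) := by exact_mod_cast Nat.pos_of_ne_zero hm0
  have h5 : (m ψ : ℝ) = 1 := le_antisymm (h3 ▸ hr ψ) h4
  have h6 : m ψ = 1 := by exact_mod_cast h5
  refine ⟨by rw [hmψ, h6, Nat.cast_one], fun g => ?_⟩
  have h7 : ν ψ ≠ 0 := by
    rw [hνr, ← h3, h5]
    simp
  have h8 : ¬ ∃ s : G, (χ s).im ≠ 0 := fun h => h7 ((hν ψ).2.mpr h)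
  push Not at h8
  exact Complex.conj_eq_iff_im.mpr (h8 g)

/-- The backward direction. -/
theorem backward (hm : ∀ χ : G → ℂ, IsIrrCharacter G χ → classInner (pc G Ω) χ ≠ 0 →
      classInner (pc G Ω) χ = 1 ∧ ∀ g : G, (starRingEnd ℂ) (χ g) = χ g) :
    ∀ a b : Ω, ∃ g : G, g • a = b ∧ g • b = a := by
  classical
  intro a b
  let S : (Ω → ℂ) →ₗ[ℂ] (Ω → ℂ) := Matrix.toLin' (adj G a b)
  have hperm : ∀ (g : G) (v : Ω → ℂ), permRep ℂ G Ω g v = (permMat g : Matrix Ω Ω ℂ).mulVec v := by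
    intro g v
    funext x
    simp only [Matrix.mulVec, dotProduct, permMat]
    rw [Finset.sum_eq_single (g⁻¹ • x)]
    · simp
      rfl
    · intro y _ hy
      have : g • y ≠ x := fun h => hy (by rw [← h, inv_smul_smul])
      simp [this]
    · intro h
      exact absurd (Finset.mem_univ _) h
  have hS : ∀ g v, S (permRep ℂ G Ω g v) = permRep ℂ G Ω g (S v) := by
    intro g v
    simp only [S, Matrix.toLin'_apply, hperm, Matrix.mulVec_mulVec, adj_comm]
  have hfin : ∀ χ : IrrCharacter G, ∃ c : ℂ, ∀ x, S (E (permRep ℂ G Ω) (χ : G → ℂ) x) =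
      c • E (permRep ℂ G Ω) (χ : G → ℂ) x := by
    intro χ
    obtain ⟨n, σ, hσ, hχ⟩ := χ.2
    have h1 : classInner (pc G Ω) σ.character = _ := inner_eq_finrank (Ω := Ω) σ
    have h2 : finrank ℂ (Representation.IntertwiningMap σ (permRep ℂ G Ω)) ≤ 1 := by
      by_cases h3 : classInner (pc G Ω) σ.character = 0
      · rw [h1] at h3
        have : finrank ℂ (Representation.IntertwiningMap σ (permRep ℂ G Ω)) = 0 := by
          exact_mod_cast h3
        omega
      · have h4 := (hm _ (hχ ▸ χ.2) h3).1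
        rw [h1] at h4
        have : finrank ℂ (Representation.IntertwiningMap σ (permRep ℂ G Ω)) = 1 := by
          exact_mod_cast h4
        omega
    rw [← hχ]
    exact scalar_on_E σ (permRep ℂ G Ω) h2 S hS
  choose c hc using hfin
  have hexp : ∀ (x : Ω → ℂ), S x = ∑ χ : IrrCharacter G, (χ : G → ℂ) 1 • c χ • E (permRep ℂ G Ω) (χ : G → ℂ) x := by
    intro x
    conv_lhs => rw [← sum_degree_E (permRep ℂ G Ω) x]
    simp only [map_sum, map_smul, hc]
  have hEval : ∀ (χ : G → ℂ) (p q : Ω), E (permRep ℂ G Ω) χ (Pi.single p 1) q =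
      (Nat.card G : ℂ)⁻¹ * ∑ g : G, χ g⁻¹ * (if g • p = q then 1 else 0) := by
    intro χ p q
    simp only [E, Pi.smul_apply, Finset.sum_apply, smul_eq_mul]
    congr 1
    apply Finset.sum_congr rfl
    intro g _
    congr 1
    show (Pi.single p (1 : ℂ) : Ω → ℂ) (g⁻¹ • q) = _
    rw [Pi.single_apply]
    by_cases h : g • p = q
    · rw [if_pos h, if_pos (by rw [← h, inv_smul_smul])]
    · rw [if_neg h, if_neg (fun h' => h (by rw [← h', smul_inv_smul]))]
  have hsym : ∀ χ : IrrCharacter G, E (permRep ℂ G Ω) (χ : G → ℂ) (Pi.single b 1) a =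
      E (permRep ℂ G Ω) (χ : G → ℂ) (Pi.single a 1) b := by
    intro χ
    by_cases h0 : classInner (pc G Ω) (χ : G → ℂ) = 0
    · obtain ⟨n, σ, hσ, hχ⟩ := χ.2
      have h1 : classInner (pc G Ω) σ.character = _ := inner_eq_finrank (Ω := Ω) σ
      rw [← hχ] at h0 ⊢
      rw [h1] at h0
      have h3 : finrank ℂ (Representation.IntertwiningMap σ (permRep ℂ G Ω)) = 0 := by
        exact_mod_cast h0
      rw [E_eq_zero σ (permRep ℂ G Ω) h3, E_eq_zero σ (permRep ℂ G Ω) h3]
      rfl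
    · have hreal := (hm _ χ.2 h0).2
      rw [hEval, hEval]
      congr 1
      rw [← Equiv.sum_comp (Equiv.inv G)]
      apply Finset.sum_congr rfl
      intro g _
      simp only [Equiv.inv_apply, inv_inv]
      have h4 : (χ : G → ℂ) g⁻¹ = (χ : G → ℂ) g := by
        rw [IsIrrCharacter.map_inv χ.2, hreal]
      rw [h4]
      congr 1
      by_cases h : g • a = b
      · rw [if_pos h, if_pos (by rw [inv_smul_eq_iff, h])]
      · rw [if_neg h, if_neg (fun h' => h (by rw [← h', smul_inv_smul]))]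
  have hadj : ∀ p q : Ω, S (Pi.single q 1) p = adj G a b p q := by
    intro p q
    simp [S, Matrix.toLin'_apply]
  have h1 : adj G a b a b = adj G a b b a := by
    rw [← hadj, ← hadj, hexp, hexp]
    simp only [Finset.sum_apply, Pi.smul_apply, smul_eq_mul]
    apply Finset.sum_congr rfl
    intro χ _
    rw [hsym]
  have h2 : adj G a b a b = 1 := by
    rw [adj_apply, if_pos]
    exact ⟨1, one_smul _ _, one_smul _ _⟩
  rw [h2, adj_apply] at h1
  by_contra hcon
  rw [if_neg] at h1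
  · exact one_ne_zero h1
  · rintro ⟨g, h3, h4⟩
    exact hcon ⟨g, h3, h4⟩

end Cfsg.Agent.Lib.H1PermChar4
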