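import Mathlib

set_option autoImplicit false

/-! Transitive minimal normal subgroups of permutation groups. -/

namespace Cfsg.Agent.Lib.H1PermMin

variable {α : Type*} (G : Subgroup (Equiv.Perm α))

theorem fix_of_comm (M : Subgroup G) (hM : MulAction.IsPretransitive M α) (x : Equiv.Perm α)
    (hx : ∀ m ∈ M, ((m : G) : Equiv.Perm α) * x = x * (m : G)) (a : α) (hxa : x a = a) : x = 1 := by
  ext b
  obtain ⟨m, hm⟩ := hM.exists_smul_eq a b
  have hm' : ((m : G) : Equiv.Perm α) a = b := hm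
  have h1 := hx m m.2
  have h2 := congrArg (fun f : Equiv.Perm α => f a) h1
  simp only [Equiv.Perm.mul_apply, hxa, hm'] at h2
  simpa using h2.symm

theorem inf_eq_bot_of_min (M N : Subgroup G) [M.Normal] [N.Normal] (hM : M ≠ ⊥)
    (hMmin : ∀ L : Subgroup G, L.Normal → L ≤ M → L = ⊥ ∨ L = M)
    (hNmin : ∀ L : Subgroup G, L.Normal → L ≤ N → L = ⊥ ∨ L = N) (hMN : M ≠ N) : M ⊓ N = ⊥ := by
  rcases hMmin (M ⊓ N) inferInstance inf_le_left with h | h
  · exact h
  · exfalso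
    have hle : M ≤ N := inf_eq_left.mp h
    rcases hNmin M inferInstance hle with h2 | h2
    · exact hM h2
    · exact hMN h2

theorem comm_of_inf_bot (M N : Subgroup G) [M.Normal] [N.Normal] (h : M ⊓ N = ⊥) (m n : G)
    (hm : m ∈ M) (hn : n ∈ N) : m * n = n * m := by
  have h1 : m * n * m⁻¹ * n⁻¹ ∈ M ⊓ N := by
    refine Subgroup.mem_inf.mpr ⟨?_, ?_⟩
    · have h2 : n * m⁻¹ * n⁻¹ ∈ M := ‹M.Normal›.conj_mem _ (M.inv_mem hm) n
      have h3 : m * n * m⁻¹ * n⁻¹ = m * (n * m⁻¹ * n⁻¹) := by group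
      rw [h3]
      exact M.mul_mem hm h2
    · have h2 : m * n * m⁻¹ ∈ N := ‹N.Normal›.conj_mem _ hn m
      exact N.mul_mem h2 (N.inv_mem hn)
  rw [h, Subgroup.mem_bot] at h1
  have h2 : m * n * m⁻¹ = n := mul_inv_eq_one.mp h1
  calc m * n = m * n * m⁻¹ * m := by group
    _ = n * m := by rw [h2]

end Cfsg.Agent.Lib.H1PermMin
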