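import Cfsg.Agent.Lib.H1Frat
import Cfsg.Prelude.Def_OddOrderLocal

/-! The Puig series. -/

namespace Cfsg.Agent.Lib.H1Puig

open Cfsg

variable {G : Type*} [Group G]

theorem puigStep_anti {X Y : Subgroup G} (h : X ≤ Y) : puigStep Y ≤ puigStep X :=
  sSup_le_sSup fun _ hA => ⟨hA.1, h.trans hA.2⟩

theorem puigSeq_zero : puigSeq G 0 = ⊥ := rfl

theorem puigSeq_succ (n : ℕ) : puigSeq G (n + 1) = puigStep (puigSeq G n) := rfl

theorem le_puigStep {X A : Subgroup G} (hA : IsMulCommutative A) (hX : X ≤ Subgroup.normalizer (A : Set G)) :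
    A ≤ puigStep X :=
  le_sSup ⟨hA, hX⟩

theorem mem_puigStep_of_centralizer {X : Subgroup G} {x : G}
    (hx : x ∈ Subgroup.centralizer (X : Set G)) : x ∈ puigStep X := by
  have h1 : IsMulCommutative (Subgroup.zpowers x) := inferInstance
  have h2 : X ≤ Subgroup.normalizer ((Subgroup.zpowers x : Subgroup G) : Set G) := by
    intro t ht
    rw [Subgroup.mem_normalizer_iff]
    have hc : Commute t x := (Subgroup.mem_centralizer_iff.mp hx t ht)
    intro y
    constructor
    · rintro ⟨k, rfl⟩
      have hcy : Commute t (x ^ k) := hc.zpow_right k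
      have e : t * x ^ k * t⁻¹ = x ^ k := by
        rw [hcy.eq]; group
      show t * (x ^ k) * t⁻¹ ∈ Subgroup.zpowers x
      rw [e]
      exact Subgroup.zpow_mem_zpowers x k
    · intro hy
      obtain ⟨k, hk⟩ := hy
      have hk' : x ^ k = t * y * t⁻¹ := hk
      have hcy : Commute t (x ^ k) := hc.zpow_right k
      have e : y = t⁻¹ * x ^ k * t := by rw [hk']; group
      have e2 : t⁻¹ * x ^ k * t = x ^ k := by
        rw [mul_assoc, ← hcy.eq]; group
      rw [e, e2]
      exact Subgroup.zpow_mem_zpowers x k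
  exact le_puigStep h1 h2 (Subgroup.mem_zpowers x)

theorem puigSeq_one : puigSeq G 1 = ⊤ := by
  rw [eq_top_iff]
  intro x _
  rw [puigSeq_succ]
  apply mem_puigStep_of_centralizer
  rw [puigSeq_zero, Subgroup.mem_centralizer_iff]
  intro y hy
  simp only [Subgroup.coe_bot, Set.mem_singleton_iff] at hy
  simp [hy]

theorem even_le_even (n : ℕ) : puigSeq G (2 * n) ≤ puigSeq G (2 * n + 2) := by
  induction n with
  | zero => rw [puigSeq_zero (G := G)]; simp
  | succ n ih =>
    have h1 : puigSeq G (2 * n + 3) ≤ puigSeq G (2 * n + 1) := puigStep_anti ih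
    have h2 : puigSeq G (2 * n + 2) ≤ puigSeq G (2 * n + 4) := puigStep_anti h1
    simpa [mul_add, add_assoc] using h2

theorem odd_le_odd (n : ℕ) : puigSeq G (2 * n + 3) ≤ puigSeq G (2 * n + 1) :=
  puigStep_anti (even_le_even n)

theorem even_le_succ (n : ℕ) : puigSeq G (2 * n) ≤ puigSeq G (2 * n + 1) := by
  induction n with
  | zero => rw [puigSeq_zero (G := G)]; simp
  | succ n ih =>
    have h1 : puigSeq G (2 * n + 2) ≤ puigSeq G (2 * n + 1) := puigStep_anti ih
    have h2 : puigSeq G (2 * n + 2) ≤ puigSeq G (2 * n + 3) := puigStep_anti h1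
    simpa [mul_add, add_assoc] using h2

theorem even_mono {n m : ℕ} (h : n ≤ m) : puigSeq G (2 * n) ≤ puigSeq G (2 * m) := by
  induction h with
  | refl => exact le_rfl
  | step _ ih =>
    refine ih.trans ?_
    exact even_le_even _

theorem odd_anti {n m : ℕ} (h : n ≤ m) : puigSeq G (2 * m + 1) ≤ puigSeq G (2 * n + 1) := by
  induction h with
  | refl => exact le_rfl
  | step _ ih =>
    refine le_trans ?_ ih
    exact odd_le_odd _

theorem even_le_odd (n m : ℕ) : puigSeq G (2 * n) ≤ puigSeq G (2 * m + 1) :=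
  (even_mono (le_max_left n m)).trans
    ((even_le_succ _).trans (odd_anti (le_max_right n m)))

/-- Stabilisation of the two subsequences. -/
theorem exists_stable [Finite G] : ∃ k : ℕ, ∀ n : ℕ, k ≤ n →
    puigSeq G (2 * n) = puigLower G ∧ puigSeq G (2 * n + 1) = puigSubgroup G := by
  classical
  obtain ⟨k₁, hk₁⟩ := (wellFoundedGT_iff_monotone_chain_condition (α := Subgroup G)).mp inferInstance
    ⟨fun n => puigSeq G (2 * n), fun _ _ h => even_mono h⟩
  obtain ⟨k₂, hk₂⟩ := (wellFoundedGT_iff_monotone_chain_condition (α := (Subgroup G)ᵒᵈ)).mp inferInstance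
    ⟨fun n => OrderDual.toDual (puigSeq G (2 * n + 1)), fun _ _ h => odd_anti h⟩
  have h₁ : ∀ n, k₁ ≤ n → puigSeq G (2 * n) = puigSeq G (2 * k₁) := fun n hn => (hk₁ n hn).symm
  have h₂ : ∀ n, k₂ ≤ n → puigSeq G (2 * n + 1) = puigSeq G (2 * k₂ + 1) := fun n hn =>
    OrderDual.toDual.injective (hk₂ n hn).symm
  have hL : puigLower G = puigSeq G (2 * k₁) := by
    apply le_antisymm
    · refine iSup_le fun n => ?_
      rcases le_total n k₁ with h | h
      · exact even_mono h
      · rw [h₁ n h]
    · exact le_iSup (fun n => puigSeq G (2 * n)) k₁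
  have hU : puigSubgroup G = puigSeq G (2 * k₂ + 1) := by
    apply le_antisymm
    · exact iInf_le (fun n => puigSeq G (2 * n + 1)) k₂
    · refine le_iInf fun n => ?_
      rcases le_total n k₂ with h | h
      · exact odd_anti h
      · rw [h₂ n h]
  refine ⟨max k₁ k₂, fun n hn => ⟨?_, ?_⟩⟩
  · rw [hL]; exact h₁ n (le_trans (le_max_left _ _) hn)
  · rw [hU]; exact h₂ n (le_trans (le_max_right _ _) hn)

theorem puigLower_le_puigSubgroup : puigLower G ≤ puigSubgroup G :=
  iSup_le fun n => le_iInf fun m => even_le_odd n m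

theorem step_lower [Finite G] : puigStep (puigLower G) = puigSubgroup G := by
  obtain ⟨k, hk⟩ := exists_stable (G := G)
  rw [← (hk k le_rfl).1, ← (hk k le_rfl).2]
  rfl

theorem step_upper [Finite G] : puigStep (puigSubgroup G) = puigLower G := by
  obtain ⟨k, hk⟩ := exists_stable (G := G)
  rw [← (hk k le_rfl).2, ← (hk (k + 1) (Nat.le_succ k)).1]
  rfl

/-- `puigStep` of a normal subgroup is normal. -/
theorem puigStep_normal {X : Subgroup G} (hX : X.Normal) : (puigStep X).Normal := by
  refine ⟨fun y hy g => ?_⟩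
  have hle : puigStep X ≤ (puigStep X).comap (MulAut.conj g).toMonoidHom := by
    refine sSup_le fun A hA => ?_
    intro a ha
    rw [Subgroup.mem_comap]
    set B : Subgroup G := A.map (MulAut.conj g).toMonoidHom with hB
    have hBmem : B ≤ puigStep X := by
      refine le_puigStep ?_ ?_
      · refine ⟨⟨?_⟩⟩
        rintro ⟨_, b₁, hb₁, rfl⟩ ⟨_, b₂, hb₂, rfl⟩
        apply Subtype.ext
        have := hA.1.is_comm.comm (⟨b₁, hb₁⟩ : A) ⟨b₂, hb₂⟩
        have h2 : b₁ * b₂ = b₂ * b₁ := congrArg Subtype.val this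
        simp only [MulEquiv.coe_toMonoidHom, MulAut.conj_apply, Subgroup.coe_mul]
        calc g * b₁ * g⁻¹ * (g * b₂ * g⁻¹) = g * (b₁ * b₂) * g⁻¹ := by group
          _ = g * (b₂ * b₁) * g⁻¹ := by rw [h2]
          _ = _ := by group
      · intro t ht
        have ht' : g⁻¹ * t * g ∈ X := by
          have := hX.conj_mem t ht g⁻¹
          simpa using this
        rw [Subgroup.mem_normalizer_iff]
        intro z
        have hnorm := Subgroup.mem_normalizer_iff.mp (hA.2 ht')
        constructor
        · rintro ⟨b, hb, rfl⟩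
          refine ⟨(g⁻¹ * t * g) * b * (g⁻¹ * t * g)⁻¹, (hnorm b).mp hb, ?_⟩
          simp only [MulEquiv.coe_toMonoidHom, MulAut.conj_apply]
          group
        · rintro ⟨b, hb, hbz⟩
          simp only [MulEquiv.coe_toMonoidHom, MulAut.conj_apply] at hbz
          refine ⟨g⁻¹ * z * g, ?_, by
            simp only [MulEquiv.coe_toMonoidHom, MulAut.conj_apply]; group⟩
          refine (hnorm _).mpr ?_
          have : (g⁻¹ * t * g) * (g⁻¹ * z * g) * (g⁻¹ * t * g)⁻¹ = b := by
            have e : t * z * t⁻¹ = g * b * g⁻¹ := hbz.symm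
            calc (g⁻¹ * t * g) * (g⁻¹ * z * g) * (g⁻¹ * t * g)⁻¹ = g⁻¹ * (t * z * t⁻¹) * g := by group
              _ = g⁻¹ * (g * b * g⁻¹) * g := by rw [e]
              _ = b := by group
          rw [this]
          exact hb
    exact hBmem ⟨a, ha, rfl⟩
  have := hle hy
  rw [Subgroup.mem_comap] at this
  exact this

theorem puigSeq_normal (n : ℕ) : (puigSeq G n).Normal := by
  induction n with
  | zero => rw [puigSeq_zero]; infer_instance
  | succ n ih => exact puigStep_normal ih


/-- Odd terms contain their centralizers. -/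
theorem centralizer_le_odd (n : ℕ) :
    Subgroup.centralizer (puigSeq G (2 * n + 1) : Set G) ≤ puigSeq G (2 * n + 1) := by
  intro x hx
  rw [puigSeq_succ]
  apply mem_puigStep_of_centralizer
  exact Subgroup.centralizer_le (fun y hy => even_le_succ n hy) hx

/-- In a `p`-group, `C_R(step M) ≤ step M` if `step M ≤ M` and these are normal. -/
theorem centralizer_le_step_of_pgroup [Finite G] {p : ℕ} [Fact p.Prime] (hG : IsPGroup p G)
    {M : Subgroup G} (hMn : M.Normal) :
    Subgroup.centralizer (puigStep M : Set G) ≤ puigStep M := by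
  classical
  set L : Subgroup G := puigStep M with hLdef
  haveI hLn : L.Normal := puigStep_normal hMn
  haveI hCn : (Subgroup.centralizer (L : Set G)).Normal := Subgroup.normal_centralizer
  by_contra hcontra
  -- the image of the centralizer in `G / L`
  set C : Subgroup G := Subgroup.centralizer (L : Set G) with hC
  set Cbar : Subgroup (G ⧸ L) := C.map (QuotientGroup.mk' L) with hCbar
  haveI : Cbar.Normal := Subgroup.Normal.map hCn _ (QuotientGroup.mk'_surjective L)
  have hQ : IsPGroup p (G ⧸ L) := hG.to_quotient L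
  haveI : Group.IsNilpotent (G ⧸ L) := hQ.isNilpotent
  have hne : Cbar ≠ ⊥ := by
    intro h
    apply hcontra
    intro c hc
    have : (c : G ⧸ L) ∈ Cbar := ⟨c, hc, rfl⟩
    rw [h, Subgroup.mem_bot, QuotientGroup.eq_one_iff] at this
    exact this
  have h2 := Cfsg.Agent.Lib.H1Frat.normal_inf_center_ne_bot Cbar hne
  obtain ⟨xb, hxb, hxb1⟩ := (Subgroup.bot_or_exists_ne_one _).resolve_left h2
  obtain ⟨⟨x, hxC, rfl⟩, hxcen⟩ := Subgroup.mem_inf.mp hxb
  have hxL : x ∉ L := by
    intro h
    apply hxb1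
    simpa using h
  have hcomm : ∀ y : G, y * x * y⁻¹ * x⁻¹ ∈ L := by
    intro y
    have h3 := Subgroup.mem_center_iff.mp hxcen ((y : G ⧸ L))
    rw [← QuotientGroup.eq_one_iff]
    simp only [QuotientGroup.mk'_apply] at h3
    simp only [QuotientGroup.mk_mul, QuotientGroup.mk_inv]
    rw [h3]
    group
  set Z : Subgroup G := L ⊓ C with hZ
  haveI hZn : Z.Normal := Subgroup.normal_inf_normal _ _
  set A : Subgroup G := Subgroup.closure ((Z : Set G) ∪ {x}) with hA
  have hAcomm : IsMulCommutative A := by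
    apply Subgroup.isMulCommutative_closure
    have hzx : ∀ z ∈ Z, z * x = x * z := fun z hz =>
      (Subgroup.mem_centralizer_iff.mp hxC z (Subgroup.mem_inf.mp hz).1)
    rintro a (ha | ha) b (hb | hb)
    · exact (Subgroup.mem_centralizer_iff.mp (Subgroup.mem_inf.mp hb).2 a (Subgroup.mem_inf.mp ha).1)
    · rw [Set.mem_singleton_iff] at hb
      rw [hb]
      exact hzx a ha
    · rw [Set.mem_singleton_iff] at ha
      rw [ha]
      exact (hzx b hb).symm
    · rw [Set.mem_singleton_iff] at ha hb
      rw [ha, hb]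
  have hAnorm : M ≤ Subgroup.normalizer (A : Set G) := by
    rw [hA, Subgroup.le_normalizer_closure_iff]
    rintro y - s (hs | hs)
    · exact Subgroup.subset_closure (Or.inl (hZn.conj_mem s hs y))
    · rw [Set.mem_singleton_iff] at hs
      rw [hs]
      have ht : y * x * y⁻¹ * x⁻¹ ∈ Z := by
        refine Subgroup.mem_inf.mpr ⟨hcomm y, ?_⟩
        exact Subgroup.mul_mem _ (hCn.conj_mem x hxC y) (Subgroup.inv_mem _ hxC)
      have e : y * x * y⁻¹ = (y * x * y⁻¹ * x⁻¹) * x := by group
      rw [e]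
      exact Subgroup.mul_mem _ (Subgroup.subset_closure (Or.inl ht))
        (Subgroup.subset_closure (Or.inr rfl))
  exact hxL (le_puigStep hAcomm hAnorm (Subgroup.subset_closure (Or.inr rfl)))

theorem centralizer_le_of_pgroup [Finite G] {p : ℕ} [Fact p.Prime] (hG : IsPGroup p G) (i : ℕ)
    (hi : 0 < i) : Subgroup.centralizer (puigSeq G i : Set G) ≤ puigSeq G i := by
  obtain ⟨j, rfl⟩ : ∃ j, i = j + 1 := ⟨i - 1, by omega⟩
  exact centralizer_le_step_of_pgroup hG (puigSeq_normal j)

end Cfsg.Agent.Lib.H1Puig
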