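import Cfsg.Prelude.Def_LieRecognition
import Mathlib

/-!
# Canonical forms in the rank-one set-up
-/

set_option autoImplicit false

namespace Cfsg.Agent.Lib.H1RankOne

variable {G Ω : Type*} [Group G] [MulAction G Ω] {a : Ω} {t : G} {Q : Subgroup G}

lemma tt (hS : Cfsg.IsRankOneSetup G Ω a t Q) (x : G) : t * (t * x) = x := by
  rw [← mul_assoc, hS.mul_self, one_mul]

lemma tinv (hS : Cfsg.IsRankOneSetup G Ω a t Q) : t⁻¹ = t :=
  inv_eq_of_mul_eq_one_left hS.mul_self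

lemma conj_D (hS : Cfsg.IsRankOneSetup G Ω a t Q) {h : G}
    (hh : h ∈ MulAction.stabilizer G a ⊓ MulAction.stabilizer G (t • a)) :
    t * h * t ∈ MulAction.stabilizer G a ⊓ MulAction.stabilizer G (t • a) := by
  obtain ⟨h1, h2⟩ := Subgroup.mem_inf.1 hh
  rw [MulAction.mem_stabilizer_iff] at h1 h2
  refine Subgroup.mem_inf.2 ⟨?_, ?_⟩
  · rw [MulAction.mem_stabilizer_iff, mul_smul, mul_smul, h2, ← mul_smul,
      hS.mul_self, one_smul]
  · rw [MulAction.mem_stabilizer_iff, mul_smul, mul_smul, ← mul_smul t t,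
      hS.mul_self, one_smul, h1]

/-- Uniqueness of the canonical form `g h t f`. -/
lemma uniq (hS : Cfsg.IsRankOneSetup G Ω a t Q) {g h f g' h' f' : G}
    (hg : g ∈ Q) (hh : h ∈ MulAction.stabilizer G a ⊓ MulAction.stabilizer G (t • a)) (hf : f ∈ Q)
    (hg' : g' ∈ Q) (hh' : h' ∈ MulAction.stabilizer G a ⊓ MulAction.stabilizer G (t • a))
    (hf' : f' ∈ Q) (e : g * h * t * f = g' * h' * t * f') : g = g' ∧ h = h' ∧ f = f' := by
  set u : G := h'⁻¹ * g'⁻¹ * g * h with hu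
  have hh1 := Subgroup.mem_inf.1 hh
  have hh1' := Subgroup.mem_inf.1 hh'
  have hua : u ∈ MulAction.stabilizer G a :=
    Subgroup.mul_mem _ (Subgroup.mul_mem _ (Subgroup.mul_mem _ (Subgroup.inv_mem _ hh1'.1)
      (Subgroup.inv_mem _ (hS.le hg'))) (hS.le hg)) hh1.1
  have e1 : u * t = t * (f' * f⁻¹) := by
    rw [hu]
    have : g * h * t = g' * h' * t * f' * f⁻¹ := by
      rw [← e]; group
    calc h'⁻¹ * g'⁻¹ * g * h * t = h'⁻¹ * g'⁻¹ * (g * h * t) := by group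
      _ = t * (f' * f⁻¹) := by rw [this]; group
  have e2 : f' * f⁻¹ = t * u * t := by
    have : t * (t * (f' * f⁻¹)) = f' * f⁻¹ := tt hS _
    rw [← this, ← e1]; group
  have hw : f' * f⁻¹ ∈ Q ⊓ MulAction.stabilizer G (t • a) := by
    refine Subgroup.mem_inf.2 ⟨Q.mul_mem hf' (Q.inv_mem hf), ?_⟩
    rw [MulAction.mem_stabilizer_iff, e2, mul_smul, mul_smul, ← mul_smul t t,
      hS.mul_self, one_smul, MulAction.mem_stabilizer_iff.1 hua]
  rw [hS.inf_eq_bot, Subgroup.mem_bot] at hw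
  have hff : f = f' := by
    rw [mul_inv_eq_one] at hw
    exact hw.symm
  have hu1 : u = 1 := by
    rw [hw, mul_one] at e1
    exact mul_right_cancel (e1.trans (one_mul t).symm)
  have e3 : g'⁻¹ * g = h' * h⁻¹ := by
    rw [hu] at hu1
    have : h'⁻¹ * (g'⁻¹ * g) * h = 1 := by rw [← hu1]; group
    calc g'⁻¹ * g = h' * (h'⁻¹ * (g'⁻¹ * g) * h) * h⁻¹ := by group
      _ = h' * h⁻¹ := by rw [this]; group
  have hv : g'⁻¹ * g ∈ Q ⊓ MulAction.stabilizer G (t • a) := by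
    refine Subgroup.mem_inf.2 ⟨Q.mul_mem (Q.inv_mem hg') hg, ?_⟩
    rw [e3]
    exact Subgroup.mul_mem _ hh1'.2 (Subgroup.inv_mem _ hh1.2)
  rw [hS.inf_eq_bot, Subgroup.mem_bot] at hv
  have hgg : g = g' := by
    rw [inv_mul_eq_one] at hv
    exact hv.symm
  refine ⟨hgg, ?_, hff⟩
  rw [hv] at e3
  exact (mul_inv_eq_one.1 e3.symm).symm

end Cfsg.Agent.Lib.H1RankOne
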