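import Cfsg.Prelude.Def_LieRecognition
import Mathlib

/-!
# Suzuki 2-groups: central elements are involutions (Higman)
-/

set_option autoImplicit false

namespace Cfsg.Agent.Lib.H1Suzuki

universe u v

/-- An alternating equivariant biadditive map on a "one-dimensional" module vanishes. -/
lemma no_alt {V K : Type*} [Group V] [Finite V] [Group K]
    (hV : ∀ v w : V, v * w = w * v) (hV2 : ∀ v : V, v * v = 1)
    (hK : ∀ k k' : K, k * k' = k' * k)
    (a : K → V → V) (a_mul : ∀ k k' v, a (k * k') v = a k (a k' v)) (a_one : ∀ v, a 1 v = v)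
    (a_hom : ∀ k v w, a k (v * w) = a k v * a k w)
    (htr : ∀ v w : V, v ≠ 1 → w ≠ 1 → ∃ k, a k v = w)
    (hreg : ∀ k v, v ≠ 1 → a k v = v → k = 1)
    (β : V → V → V)
    (β_l : ∀ v v' w, β (v * v') w = β v w * β v' w)
    (β_r : ∀ v w w', β v (w * w') = β v w * β v w')
    (β_alt : ∀ v, β v v = 1)
    (β_eq : ∀ k v w, β (a k v) (a k w) = a k (β v w)) :
    ∀ v w, β v w = 1 := by
  classical
  have hinv : ∀ v : V, v⁻¹ = v := fun v => inv_eq_of_mul_eq_one_left (hV2 v)
  have a1 : ∀ k, a k 1 = 1 := fun k => by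
    have := a_hom k 1 1
    rw [mul_one] at this
    exact left_eq_mul.1 this
  have β1l : ∀ w, β 1 w = 1 := fun w => by
    have := β_l 1 1 w
    rw [mul_one] at this
    exact left_eq_mul.1 this
  have β1r : ∀ v, β v 1 = 1 := fun v => by
    have := β_r v 1 1
    rw [mul_one] at this
    exact left_eq_mul.1 this
  by_cases htriv : ∃ e : V, e ≠ 1
  swap
  · push Not at htriv
    intro v w
    rw [htriv v, β1l]
  obtain ⟨e₀, he₀⟩ := htriv
  set h : V → V := β e₀ with hh
  have hh_mul : ∀ v w, h (v * w) = h v * h w := fun v w => β_r e₀ v w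
  -- the "field addition"
  have K1 : ∀ s : K, s ≠ 1 → ∃ t : K, ∀ z, a t z = a s z * z := by
    intro s hs
    have h1 : a s e₀ * e₀ ≠ 1 := by
      intro h0
      have : a s e₀ = e₀ := by
        have := eq_inv_of_mul_eq_one_left h0
        rwa [hinv] at this
      exact hs (hreg s e₀ he₀ this)
    obtain ⟨t, ht⟩ := htr e₀ _ he₀ h1
    refine ⟨t, fun z => ?_⟩
    by_cases hz : z = 1
    · rw [hz, a1, a1, one_mul]
    obtain ⟨c, rfl⟩ := htr e₀ z he₀ hz
    rw [← a_mul, hK t c, a_mul, ht, a_hom, ← a_mul, hK c s, a_mul]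
  -- the key identity
  have K2 : ∀ (s : K) (z : V), h (a s (a s z)) = a s (h z) := by
    intro s z
    by_cases hs : s = 1
    · rw [hs, a_one, a_one, a_one]
    obtain ⟨t, ht⟩ := K1 s hs
    have e1 : a t (h (a s z)) = a s (h (a t z)) * h (a s (a t z)) := by
      have e2 := β_l (a s e₀) e₀ (a s (a t z))
      rw [← ht e₀] at e2
      have e3 : a s (a t z) = a t (a s z) := by rw [← a_mul, hK s t, a_mul]
      rw [β_eq s e₀ (a t z)] at e2
      rw [e3] at e2
      rw [β_eq t e₀ (a s z)] at e2
      rw [e2, e3]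
    rw [ht (h (a s z)), ht z, hh_mul, a_hom, a_hom, hh_mul] at e1
    -- cancel
    set A := a s (h (a s z))
    set B := h (a s z)
    set C := a s (h z)
    set D := h (a s (a s z))
    have e4 : A * B = (A * B) * (C * D) := by
      calc A * B = A * C * (D * B) := e1
        _ = (A * B) * (C * D) := by
          rw [mul_assoc A C, mul_assoc A B]
          congr 1
          rw [hV D B, ← mul_assoc, hV C B, mul_assoc]
    have e5 : C * D = 1 := left_eq_mul.1 e4
    have e6 := eq_inv_of_mul_eq_one_left e5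
    rw [hinv] at e6
    exact e6.symm
  -- squaring on `K` is surjective
  have hfin : Finite K := by
    refine Finite.of_injective (fun k : K => a k e₀) ?_
    intro k k' hkk
    have e1 : a (k'⁻¹ * k) e₀ = e₀ := by
      rw [a_mul]
      simp only at hkk
      rw [hkk, ← a_mul, inv_mul_cancel, a_one]
    have := hreg _ e₀ he₀ e1
    exact (inv_mul_eq_one.1 this).symm
  have hcardK : Nat.card K + 1 = Nat.card V := by
    have hinj : Function.Injective (fun k : K => (⟨a k e₀, by
        intro h0
        have e1 : a k⁻¹ (a k e₀) = e₀ := by rw [← a_mul, inv_mul_cancel, a_one]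
        rw [h0, a1] at e1
        exact he₀ e1.symm⟩ : {v : V // v ≠ 1})) := by
      intro k k' hkk
      have hkk' : a k e₀ = a k' e₀ := congrArg Subtype.val hkk
      have e1 : a (k'⁻¹ * k) e₀ = e₀ := by
        rw [a_mul, hkk', ← a_mul, inv_mul_cancel, a_one]
      have := hreg _ e₀ he₀ e1
      exact (inv_mul_eq_one.1 this).symm
    have hsurj : Function.Surjective (fun k : K => (⟨a k e₀, by
        intro h0
        have e1 : a k⁻¹ (a k e₀) = e₀ := by rw [← a_mul, inv_mul_cancel, a_one]
        rw [h0, a1] at e1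
        exact he₀ e1.symm⟩ : {v : V // v ≠ 1})) := by
      rintro ⟨v, hv⟩
      obtain ⟨k, hk⟩ := htr e₀ v he₀ hv
      exact ⟨k, Subtype.ext hk⟩
    have e1 := Nat.card_congr (Equiv.ofBijective _ ⟨hinj, hsurj⟩)
    rw [e1]
    cases nonempty_fintype V
    rw [Nat.card_eq_fintype_card, Nat.card_eq_fintype_card]
    have e3 : Fintype.card {v : V // v ≠ 1} = Fintype.card V - 1 := by
      simp
    rw [e3]
    have : 0 < Fintype.card V := Fintype.card_pos
    omega
  have hevenV : 2 ∣ Nat.card V := by
    have h1 : orderOf e₀ = 2 := orderOf_eq_prime (by rw [sq]; exact hV2 e₀) he₀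
    exact h1 ▸ orderOf_dvd_natCard e₀
  have hcop : Nat.Coprime (Nat.card K) 2 := by
    obtain ⟨c, hc⟩ := hevenV
    exact Nat.coprime_two_right.2 ⟨c - 1, by omega⟩
  have hsq : ∀ k : K, ∃ s : K, s * s = k := by
    intro k
    obtain ⟨s, hs⟩ := (powCoprime hcop).surjective k
    refine ⟨s, ?_⟩
    rw [← hs]
    simp [sq]
  have K4 : ∀ v, h v = 1 := by
    intro v
    by_cases hv : v = 1
    · rw [hv]
      exact β1r e₀
    obtain ⟨k, rfl⟩ := htr e₀ v he₀ hv
    obtain ⟨s, rfl⟩ := hsq k
    rw [a_mul, K2, hh, β_alt, a1]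
  intro v w
  by_cases hv : v = 1
  · rw [hv, β1l]
  obtain ⟨k, rfl⟩ := htr e₀ v he₀ hv
  have e1 : w = a k (a k⁻¹ w) := by rw [← a_mul, mul_inv_cancel, a_one]
  rw [e1, β_eq, show β e₀ (a k⁻¹ w) = h (a k⁻¹ w) from rfl, K4, a1]


/-- The hypotheses on the action of `K` on `P`. -/
structure Setup {P K : Type*} [Group P] [Group K] (ρ : K →* MulAut P) : Prop where
  comm : ∀ k k' : K, k * k' = k' * k
  trans : ∀ x y : P, x ≠ 1 → x * x = 1 → y ≠ 1 → y * y = 1 → ∃ k, ρ k x = y
  reg : ∀ (k : K) (x : P), x ≠ 1 → x * x = 1 → ρ k x = x → k = 1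
  two : ∃ x y : P, x ≠ y ∧ x ≠ 1 ∧ x * x = 1 ∧ y ≠ 1 ∧ y * y = 1

section basics

variable {P : Type*} [Group P]

/-- Central elements. -/
def Cn (x : P) : Prop := ∀ y : P, y * x = x * y

/-- The commutator. -/
def cm (x y : P) : P := x⁻¹ * y⁻¹ * x * y

lemma cm_eq_one {x y : P} : cm x y = 1 ↔ y * x = x * y := by
  have e : x⁻¹ * y⁻¹ * x * y = (y * x)⁻¹ * (x * y) := by group
  rw [cm, e, inv_mul_eq_one]

lemma Cn.rho {K : Type*} [Group K] (ρ : K →* MulAut P) (k : K) {x : P} (hx : Cn x) :
    Cn (ρ k x) := by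
  intro y
  obtain ⟨y', rfl⟩ := (ρ k).surjective y
  rw [← map_mul, ← map_mul, hx y']

lemma Cn.mul {x y : P} (hx : Cn x) (hy : Cn y) : Cn (x * y) := fun z => by
  rw [← mul_assoc, hx z, mul_assoc, hy z, mul_assoc]

lemma Cn.inv {x : P} (hx : Cn x) : Cn x⁻¹ := fun z => by
  have := hx z⁻¹
  have h2 := congrArg (· ⁻¹) this
  simpa using h2.symm

lemma Cn.pow {x : P} (hx : Cn x) (n : ℕ) : Cn (x ^ n) := by
  induction n with
  | zero => exact fun z => by simp
  | succ n ih =>
    rw [pow_succ]
    exact ih.mul hx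

lemma exists_order4 (hP : IsPGroup 2 P) {z : P} (hz : Cn z) (hzz : z * z ≠ 1) :
    ∃ w : P, Cn w ∧ w * w ≠ 1 ∧ (w * w) * (w * w) = 1 := by
  classical
  have hex : ∃ t, z ^ (2 ^ t) = 1 := hP z
  set t₀ := Nat.find hex with ht₀
  have hspec : z ^ (2 ^ t₀) = 1 := Nat.find_spec hex
  have h0 : t₀ ≠ 0 := by
    intro h
    rw [h] at hspec
    simp only [pow_zero, pow_one] at hspec
    rw [hspec, one_mul] at hzz
    exact hzz rfl
  have h1 : t₀ ≠ 1 := by
    intro h
    rw [h] at hspec
    simp only [pow_one] at hspec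
    rw [sq] at hspec
    exact hzz hspec
  obtain ⟨j, hj⟩ : ∃ j, t₀ = j + 2 := ⟨t₀ - 2, by omega⟩
  refine ⟨z ^ (2 ^ j), hz.pow _, ?_, ?_⟩
  · rw [← pow_add, ← two_mul, ← pow_succ']
    exact Nat.find_min hex (m := j + 1) (by omega)
  · rw [← pow_add, ← pow_add]
    have : 2 ^ j + 2 ^ j + (2 ^ j + 2 ^ j) = 2 ^ t₀ := by
      rw [hj, pow_add]
      ring
    rw [this]
    exact hspec

end basics


section quot

variable {P K : Type*} [Group P] [Group K]

/-- The induced action on a quotient by an invariant normal subgroup. -/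
noncomputable def rhoQ (ρ : K →* MulAut P) (E : Subgroup P) [E.Normal]
    (hE : ∀ k, ∀ x ∈ E, ρ k x ∈ E) : K →* MulAut (P ⧸ E) where
  toFun k := QuotientGroup.congr E E (ρ k) (by
    ext y
    constructor
    · rintro ⟨x, hx, rfl⟩
      exact hE k x hx
    · intro hy
      refine ⟨ρ k⁻¹ y, hE _ y hy, ?_⟩
      change ρ k (ρ k⁻¹ y) = y
      rw [← MulAut.mul_apply, ← map_mul, mul_inv_cancel, map_one]
      rfl)
  map_one' := by
    ext x
    obtain ⟨x, rfl⟩ := QuotientGroup.mk_surjective x
    simp [QuotientGroup.congr_mk]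
  map_mul' k k' := by
    ext x
    obtain ⟨x, rfl⟩ := QuotientGroup.mk_surjective x
    simp [QuotientGroup.congr_mk]

lemma rhoQ_mk (ρ : K →* MulAut P) (E : Subgroup P) [E.Normal]
    (hE : ∀ k, ∀ x ∈ E, ρ k x ∈ E) (k : K) (x : P) :
    rhoQ ρ E hE k (x : P ⧸ E) = ((ρ k x : P) : P ⧸ E) := rfl

end quot


section cmlemmas

variable {P : Type*} [Group P]

lemma cm_sq {x y : P} (hc : Cn (cm x y)) : cm (x * x) y = cm x y * cm x y := by
  set c := cm x y with hcdef
  have e1 : y⁻¹ * x * y = x * c := by
    rw [hcdef, cm]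
    group
  have e2 : y⁻¹ * (x * x) * y = (y⁻¹ * x * y) * (y⁻¹ * x * y) := by group
  have e3 : x * c * (x * c) = x * x * (c * c) := by
    calc x * c * (x * c) = x * (c * x) * c := by group
      _ = x * (x * c) * c := by rw [hc x]
      _ = x * x * (c * c) := by group
  calc cm (x * x) y = (x * x)⁻¹ * (y⁻¹ * (x * x) * y) := by
        rw [cm]
        group
    _ = c * c := by
        rw [e2, e1, e3, ← mul_assoc, inv_mul_cancel, one_mul]

lemma cm_mul_l {x x' y : P} (hc : Cn (cm x y)) : cm (x * x') y = cm x y * cm x' y := by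
  set c := cm x y with hcdef
  have e1 : x⁻¹ * y⁻¹ * x = c * y⁻¹ := by
    rw [hcdef, cm]
    group
  calc cm (x * x') y = x'⁻¹ * (x⁻¹ * y⁻¹ * x) * x' * y := by
        rw [cm]
        group
    _ = x'⁻¹ * c * y⁻¹ * x' * y := by rw [e1]; group
    _ = c * x'⁻¹ * y⁻¹ * x' * y := by rw [hc x'⁻¹]
    _ = c * cm x' y := by rw [cm]; group

lemma cm_mul_r {x y y' : P} (hc : Cn (cm x y)) : cm x (y * y') = cm x y * cm x y' := by
  set c := cm x y with hcdef
  have e1 : y⁻¹ * x * y = x * c := by
    rw [hcdef, cm]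
    group
  calc cm x (y * y') = x⁻¹ * y'⁻¹ * (y⁻¹ * x * y) * y' := by
        rw [cm]
        group
    _ = x⁻¹ * y'⁻¹ * x * (c * y') := by rw [e1]; group
    _ = x⁻¹ * y'⁻¹ * x * (y' * c) := by rw [hc y']
    _ = c * cm x y' := by
        rw [cm, ← mul_assoc, hc (x⁻¹ * y'⁻¹ * x * y')]

lemma cm_center_l {x y : P} (hx : Cn x) : cm x y = 1 := cm_eq_one.2 (hx y)

lemma cm_center_r {x y : P} (hy : Cn y) : cm x y = 1 := cm_eq_one.2 (hy x).symm

lemma cm_self (x : P) : cm x x = 1 := cm_eq_one.2 rfl

lemma cm_rho {K : Type*} [Group K] (ρ : K →* MulAut P) (k : K) (x y : P) :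
    cm (ρ k x) (ρ k y) = ρ k (cm x y) := by
  simp [cm]

end cmlemmas

section main

/-- Powers on the centre. -/
def powZ {P : Type*} [Group P] (m : ℕ) : Subgroup.center P →* Subgroup.center P where
  toFun c := c ^ m
  map_one' := one_pow _
  map_mul' a b := ((commute_iff_eq a b).2 (Subtype.ext ((Subgroup.mem_center_iff.1 a.2) b.1).symm)).mul_pow m

variable {K : Type v} [Group K]

theorem center_sq : ∀ (n : ℕ) (P : Type u) [Group P] [Finite P], Nat.card P ≤ n → IsPGroup 2 P →
    ∀ ρ : K →* MulAut P, Setup ρ → (∃ x y : P, x * y ≠ y * x) → ∀ z : P, Cn z → z * z = 1 := by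
  intro n
  induction n with
  | zero =>
    intro P _ _ hc
    exact absurd hc (by have := Nat.card_pos (α := P); omega)
  | succ n ih =>
    intro P _ _ hc hP ρ hS hNA z hz
    by_contra hzz
    obtain ⟨w, hwC, hw1, hw2⟩ := exists_order4 hP hz hzz
    have hiv : ∀ x : P, x * x = 1 → Cn x := by
      intro x hx
      by_cases hx1 : x = 1
      · rw [hx1]
        exact fun y => by simp
      obtain ⟨k, rfl⟩ := hS.trans (w * w) x hw1 hw2 hx1 hx
      exact (hwC.mul hwC).rho ρ k
    let E : Subgroup P :=
      { carrier := {x | x * x = 1}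
        one_mem' := by simp
        mul_mem' := fun {a b} ha hb => by
          have ha' : a * a = 1 := ha
          have hb' : b * b = 1 := hb
          show a * b * (a * b) = 1
          calc a * b * (a * b) = a * (b * a) * b := by group
            _ = a * (a * b) * b := by rw [(hiv b hb' a).symm]
            _ = (a * a) * (b * b) := by group
            _ = 1 := by rw [ha', hb', one_mul]
        inv_mem' := fun {a} ha => by
          have ha' : a * a = 1 := ha
          show a⁻¹ * a⁻¹ = 1
          rw [← mul_inv_rev, ha', inv_one] }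
    have hEm : ∀ x, x ∈ E ↔ x * x = 1 := fun _ => Iff.rfl
    have hEn : E.Normal := ⟨fun x hx g => by
      have : g * x * g⁻¹ = x := by
        rw [(hiv x hx g)]
        group
      rw [this]
      exact hx⟩
    have hEρ : ∀ k, ∀ x ∈ E, ρ k x ∈ E := fun k x hx => by
      rw [hEm, ← map_mul, (hEm x).1 hx, map_one]
    have hsq : ∀ e : P, e ≠ 1 → e * e = 1 → ∃ u, Cn u ∧ u * u = e := by
      intro e he1 he2
      obtain ⟨k, rfl⟩ := hS.trans (w * w) e hw1 hw2 he1 he2
      exact ⟨ρ k w, hwC.rho ρ k, by rw [← map_mul]⟩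
    have stepA : ∀ x : P, (x * x) * (x * x) = 1 → Cn x := by
      intro x hx
      by_cases h1 : x * x = 1
      · exact hiv x h1
      obtain ⟨u, huC, hu⟩ := hsq (x * x) h1 hx
      have h2 : Cn (x * u⁻¹) := hiv _ (by
        calc x * u⁻¹ * (x * u⁻¹) = x * (u⁻¹ * x) * u⁻¹ := by group
          _ = x * (x * u⁻¹) * u⁻¹ := by rw [huC.inv x |>.symm]
          _ = (x * x) * (u * u)⁻¹ := by group
          _ = 1 := by rw [hu, mul_inv_cancel])
      have e : x = (x * u⁻¹) * u := by group
      rw [e]
      exact h2.mul huC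
    by_cases hab : ∀ x y : P, cm x y ∈ E
    · -- `P / E` is abelian
      have habC : ∀ x y : P, Cn (cm x y) := fun x y => hiv _ (hab x y)
      have hsqC : ∀ x : P, Cn (x * x) := by
        intro x y
        have e1 := cm_sq (habC x y)
        rw [(hEm _).1 (hab x y)] at e1
        exact cm_eq_one.1 e1
      -- the exponent of the centre
      obtain ⟨M, hM⟩ : ∃ M, ∀ x : P, x ^ (2 ^ M) = 1 := by
        obtain ⟨M, hM⟩ := hP.exists_card_eq
        exact ⟨M, fun x => by rw [← hM]; exact pow_card_eq_one'⟩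
      classical
      have hexm : ∃ m, ∀ x : P, Cn x → x ^ (2 ^ m) = 1 := ⟨M, fun x _ => hM x⟩
      set m₀ := Nat.find hexm with hm₀
      have hspec : ∀ x : P, Cn x → x ^ (2 ^ m₀) = 1 := Nat.find_spec hexm
      have hm0 : m₀ ≠ 0 := by
        intro h
        have := hspec w hwC
        rw [h] at this
        simp only [pow_zero, pow_one] at this
        rw [this, mul_one] at hw1
        exact hw1 rfl
      obtain ⟨n', hn'⟩ : ∃ n', m₀ = n' + 1 := ⟨m₀ - 1, by omega⟩
      have hn1 : n' ≠ 0 := by
        intro h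
        have := hspec w hwC
        rw [hn', h] at this
        simp only [zero_add, pow_one] at this
        rw [sq] at this
        exact hw1 this
      obtain ⟨z₁, hz₁C, hz₁⟩ : ∃ z₁ : P, Cn z₁ ∧ z₁ ^ (2 ^ n') ≠ 1 := by
        have := Nat.find_min hexm (m := n') (by omega)
        push Not at this
        exact this
      have hpow : ∀ x : P, Cn x → x ^ (2 ^ n') * x ^ (2 ^ n') = 1 := by
        intro x hx
        rw [← pow_add, ← two_mul, ← pow_succ']
        have := hspec x hx
        rwa [hn'] at this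
      -- squares in the centre
      have hker : ∀ c : P, Cn c → c ^ (2 ^ n') = 1 → ∃ u, Cn u ∧ u * u = c := by
        let Z := Subgroup.center P
        let sqH : Z →* Z := powZ 2
        let piH : Z →* Z := powZ (2 ^ n')
        have hrange : piH.range = sqH.ker := by
          apply le_antisymm
          · rintro _ ⟨c, rfl⟩
            rw [MonoidHom.mem_ker]
            apply Subtype.ext
            show ((c : P) ^ (2 ^ n')) ^ 2 = 1
            rw [sq]
            exact hpow c (fun y => (Subgroup.mem_center_iff.1 c.2) y)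
          · intro c hc
            have hc2 : (c : P) ^ 2 = 1 := congrArg Subtype.val (MonoidHom.mem_ker.1 hc)
            rw [sq] at hc2
            by_cases hc1 : (c : P) = 1
            · have : c = 1 := Subtype.ext hc1
              rw [this]
              exact Subgroup.one_mem _
            obtain ⟨k, hk⟩ := hS.trans _ _ hz₁ (hpow z₁ hz₁C) hc1 hc2
            have hmem : ρ k z₁ ∈ Z := Subgroup.mem_center_iff.2 (hz₁C.rho ρ k)
            refine ⟨⟨ρ k z₁, hmem⟩, ?_⟩
            apply Subtype.ext
            show (ρ k z₁) ^ (2 ^ n') = c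
            rw [← hk, map_pow]
        have hle : sqH.range ≤ piH.ker := by
          rintro _ ⟨c, rfl⟩
          rw [MonoidHom.mem_ker]
          apply Subtype.ext
          show ((c : P) ^ 2) ^ (2 ^ n') = 1
          rw [← pow_mul, ← pow_succ']
          have := hspec c (fun y => (Subgroup.mem_center_iff.1 c.2) y)
          rwa [hn'] at this
        have hcard : Nat.card piH.ker = Nat.card sqH.range := by
          have h1 := Subgroup.card_mul_index piH.ker
          have h2 := Subgroup.card_mul_index sqH.ker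
          rw [Subgroup.index_ker] at h1 h2
          rw [hrange] at h1
          have h3 : Nat.card piH.ker * Nat.card sqH.ker = Nat.card sqH.range * Nat.card sqH.ker := by
            rw [h1, ← h2, mul_comm]
          exact Nat.eq_of_mul_eq_mul_right Nat.card_pos h3
        have heq : sqH.range = piH.ker :=
          Subgroup.eq_of_le_of_card_ge hle hcard.le
        intro c hc hc1
        have hmem : (⟨c, Subgroup.mem_center_iff.2 hc⟩ : Z) ∈ piH.ker := by
          rw [MonoidHom.mem_ker]
          exact Subtype.ext hc1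
        rw [← heq] at hmem
        obtain ⟨u, hu⟩ := hmem
        refine ⟨u, fun y => (Subgroup.mem_center_iff.1 u.2) y, ?_⟩
        have := congrArg Subtype.val hu
        simp only at this
        rw [← this]
        show (u : P) * u = (u : P) ^ 2
        rw [sq]
      -- the map `g`
      let g : P → P := fun x => (x * x) ^ (2 ^ n')
      have hgdef : ∀ x, g x = (x * x) ^ (2 ^ n') := fun _ => rfl
      have gmul : ∀ x y, g (x * y) = g x * g y := by
        intro x y
        set c := cm y x with hc
        have hcC : Cn c := habC y x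
        have hc2 : c * c = 1 := hab y x
        have e1 : x * y * (x * y) = x * x * (y * y) * c := by
          have e2 : y * x = x * y * c := by
            rw [hc, cm]
            group
          calc x * y * (x * y) = x * (y * x) * y := by group
            _ = x * (x * y * c) * y := by rw [e2]
            _ = x * x * y * (c * y) := by group
            _ = x * x * y * (y * c) := by rw [hcC y]
            _ = _ := by group
        have hc3 : c ^ (2 ^ n') = 1 := by
          obtain ⟨j, hj⟩ : ∃ j, n' = j + 1 := ⟨n' - 1, by omega⟩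
          rw [hj, pow_succ', pow_mul, sq, hc2, one_pow]
        rw [hgdef, e1, hgdef, hgdef]
        have comm1 : Commute (x * x * (y * y)) c := (commute_iff_eq _ _).2 (hcC _)
        have comm2 : Commute (x * x) (y * y) := (commute_iff_eq _ _).2 (hsqC x (y * y)).symm
        rw [comm1.mul_pow, comm2.mul_pow, hc3, mul_one]
      have g1 : g 1 = 1 := by simp [hgdef]
      have gE : ∀ x, g x * g x = 1 := fun x => hpow _ (hsqC x)
      have gker : ∀ x, g x = 1 → Cn x := by
        intro x hx
        obtain ⟨u, huC, hu⟩ := hker _ (hsqC x) hx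
        have h2 : Cn (x * u⁻¹) := hiv _ (by
          calc x * u⁻¹ * (x * u⁻¹) = x * (u⁻¹ * x) * u⁻¹ := by group
            _ = x * (x * u⁻¹) * u⁻¹ := by rw [huC.inv x |>.symm]
            _ = (x * x) * (u * u)⁻¹ := by group
            _ = 1 := by rw [hu, mul_inv_cancel])
        have e : x = (x * u⁻¹) * u := by group
        rw [e]
        exact h2.mul huC
      have gρ : ∀ k x, g (ρ k x) = ρ k (g x) := by
        intro k x
        simp only [hgdef, map_pow, map_mul]
      obtain ⟨x₀, hx₀⟩ : ∃ x₀ : P, ¬ Cn x₀ := by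
        obtain ⟨x, y, hxy⟩ := hNA
        exact ⟨y, fun h => hxy (h x)⟩
      have gx₀ : g x₀ ≠ 1 := fun h => hx₀ (gker x₀ h)
      have gsurj : ∀ e : P, e * e = 1 → ∃ x, g x = e := by
        intro e he
        by_cases he1 : e = 1
        · exact ⟨1, by rw [he1, g1]⟩
        obtain ⟨k, hk⟩ := hS.trans _ _ gx₀ (gE x₀) he1 he
        exact ⟨ρ k x₀, by rw [gρ, hk]⟩
      have gcong : ∀ x x', g x = g x' → ∃ c, Cn c ∧ x' = x * c := by
        intro x x' h
        refine ⟨x⁻¹ * x', gker _ ?_, by group⟩
        have e1 := gmul x (x⁻¹ * x')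
        rw [mul_inv_cancel_left, ← h] at e1
        exact left_eq_mul.1 e1
      have cm_cong : ∀ x x' y y', g x = g x' → g y = g y' → cm x y = cm x' y' := by
        intro x x' y y' h1 h2
        obtain ⟨c, hcC, rfl⟩ := gcong x x' h1
        obtain ⟨d, hdC, rfl⟩ := gcong y y' h2
        rw [cm_mul_l (habC _ _), cm_mul_r (habC _ _), cm_center_l hcC, mul_one, cm_center_r hdC,
          mul_one]
      -- the reduction to the field computation
      haveI : Finite E := inferInstance
      choose s hs using fun v : E => gsurj v v.2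
      have hall := no_alt (V := E) (K := K)
        (fun v w => Subtype.ext (hiv v v.2 w).symm)
        (fun v => Subtype.ext v.2)
        hS.comm
        (fun k v => ⟨ρ k v, hEρ k v v.2⟩)
        (fun k k' v => Subtype.ext (by simp))
        (fun v => Subtype.ext (by simp))
        (fun k v w => Subtype.ext (by simp))
        (fun v w hv hw => by
          obtain ⟨k, hk⟩ := hS.trans v w (fun h => hv (Subtype.ext h)) v.2
            (fun h => hw (Subtype.ext h)) w.2
          exact ⟨k, Subtype.ext hk⟩)
        (fun k v hv hk => hS.reg k v (fun h => hv (Subtype.ext h)) v.2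
          (congrArg Subtype.val hk))
        (fun v w => ⟨cm (s v) (s w), hab _ _⟩)
        (fun v v' w => Subtype.ext (by
          show cm (s (v * v')) (s w) = cm (s v) (s w) * cm (s v') (s w)
          rw [← cm_mul_l (habC _ _)]
          apply cm_cong _ _ _ _ _ rfl
          rw [gmul, hs, hs, hs]
          rfl))
        (fun v w w' => Subtype.ext (by
          show cm (s v) (s (w * w')) = cm (s v) (s w) * cm (s v) (s w')
          rw [← cm_mul_r (habC _ _)]
          apply cm_cong _ _ _ _ rfl
          rw [gmul, hs, hs, hs]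
          rfl))
        (fun v => Subtype.ext (cm_self _))
        (fun k v w => Subtype.ext (by
          show cm (s ⟨ρ k v, _⟩) (s ⟨ρ k w, _⟩) = ρ k (cm (s v) (s w))
          rw [← cm_rho]
          apply cm_cong
          · rw [gρ, hs, hs]
          · rw [gρ, hs, hs]))
      obtain ⟨x, y, hxy⟩ := hNA
      apply hxy
      have e1 : cm y x = 1 := by
        have e2 := hall ⟨g y, gE y⟩ ⟨g x, gE x⟩
        have e3 := congrArg Subtype.val e2
        have e4 : cm (s ⟨g y, gE y⟩) (s ⟨g x, gE x⟩) = 1 := e3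
        rw [← e4]
        apply cm_cong
        · rw [hs]
        · rw [hs]
      exact cm_eq_one.1 e1
    · -- `P / E` is not abelian: use the induction hypothesis
      push Not at hab
      obtain ⟨x₀, y₀, h₀⟩ := hab
      haveI := hEn
      let ρ₁ := rhoQ ρ E hEρ
      have hwE : w * w ∈ E := hw2
      have hEne : E ≠ ⊥ := fun h => hw1 (by
        have := hwE
        rw [h, Subgroup.mem_bot] at this
        exact this)
      have hc₁ : Nat.card (P ⧸ E) ≤ n := by
        have h1 := Subgroup.card_eq_card_quotient_mul_card_subgroup E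
        have h2 : 1 < Nat.card E := (Subgroup.one_lt_card_iff_ne_bot E).2 hEne
        have h3 : 0 < Nat.card (P ⧸ E) := Nat.card_pos
        nlinarith
      have hP₁ : IsPGroup 2 (P ⧸ E) := hP.to_quotient E
      have hmk1 : ∀ x : P, ((x : P ⧸ E) = 1 ↔ x * x = 1) := fun x => by
        rw [QuotientGroup.eq_one_iff]
        exact hEm x
      have hmk2 : ∀ x : P, (x : P ⧸ E) * (x : P ⧸ E) = 1 ↔ (x * x) * (x * x) = 1 := fun x => by
        rw [← QuotientGroup.mk_mul, hmk1]
      have hS₁ : Setup ρ₁ := by
        refine ⟨hS.comm, ?_, ?_, ?_⟩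
        · intro a b ha ha2 hb hb2
          obtain ⟨x, rfl⟩ := QuotientGroup.mk_surjective a
          obtain ⟨y, rfl⟩ := QuotientGroup.mk_surjective b
          have hx1 : x * x ≠ 1 := fun h => ha ((hmk1 x).2 h)
          have hy1 : y * y ≠ 1 := fun h => hb ((hmk1 y).2 h)
          have hx2 := (hmk2 x).1 ha2
          have hy2 := (hmk2 y).1 hb2
          have hxC := stepA x hx2
          have hyC := stepA y hy2
          obtain ⟨k, hk⟩ := hS.trans _ _ hx1 hx2 hy1 hy2
          refine ⟨k, ?_⟩
          change (((ρ k x : P) : P ⧸ E)) = (y : P ⧸ E)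
          rw [QuotientGroup.eq, hEm]
          rw [map_mul] at hk
          have hC := hxC.rho ρ k
          calc (ρ k x)⁻¹ * y * ((ρ k x)⁻¹ * y) = (ρ k x)⁻¹ * (y * (ρ k x)⁻¹) * y := by group
            _ = (ρ k x)⁻¹ * ((ρ k x)⁻¹ * y) * y := by rw [hC.inv y]
            _ = (ρ k x * ρ k x)⁻¹ * (y * y) := by group
            _ = 1 := by rw [hk, inv_mul_cancel]
        · intro k a ha ha2 hk
          obtain ⟨x, rfl⟩ := QuotientGroup.mk_surjective a
          have hx1 : x * x ≠ 1 := fun h => ha ((hmk1 x).2 h)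
          have hx2 := (hmk2 x).1 ha2
          have hxC := stepA x hx2
          have hk' : (((ρ k x : P) : P ⧸ E)) = (x : P ⧸ E) := hk
          rw [QuotientGroup.eq, hEm] at hk'
          set e := (ρ k x)⁻¹ * x with he
          have e1 : ρ k x = x * e⁻¹ := by
            rw [he]
            group
          refine hS.reg k (x * x) hx1 hx2 ?_
          rw [map_mul, e1]
          calc x * e⁻¹ * (x * e⁻¹) = x * (e⁻¹ * x) * e⁻¹ := by group
            _ = x * (x * e⁻¹) * e⁻¹ := by rw [hxC e⁻¹]
            _ = x * x * (e * e)⁻¹ := by group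
            _ = x * x := by rw [hk', inv_one, mul_one]
        · obtain ⟨e₁, e₂, hne, h1, h1', h2, h2'⟩ := hS.two
          obtain ⟨u₁, hu₁C, hu₁⟩ := hsq e₁ h1 h1'
          obtain ⟨u₂, hu₂C, hu₂⟩ := hsq e₂ h2 h2'
          refine ⟨(u₁ : P ⧸ E), (u₂ : P ⧸ E), ?_, ?_, ?_, ?_, ?_⟩
          · intro h
            rw [QuotientGroup.eq, hEm] at h
            apply hne
            rw [← hu₁, ← hu₂]
            have e1 : u₁⁻¹ * u₂ * (u₁⁻¹ * u₂) = (u₁ * u₁)⁻¹ * (u₂ * u₂) := by
              calc u₁⁻¹ * u₂ * (u₁⁻¹ * u₂) = u₁⁻¹ * (u₂ * u₁⁻¹) * u₂ := by group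
                _ = u₁⁻¹ * (u₁⁻¹ * u₂) * u₂ := by rw [hu₁C.inv u₂]
                _ = _ := by group
            rw [e1] at h
            exact inv_mul_eq_one.1 h
          · intro h
            exact h1 (by rw [← hu₁]; exact (hmk1 u₁).1 h)
          · exact (hmk2 u₁).2 (by rw [hu₁]; exact h1')
          · intro h
            exact h2 (by rw [← hu₂]; exact (hmk1 u₂).1 h)
          · exact (hmk2 u₂).2 (by rw [hu₂]; exact h2')
      have hmkcm : ∀ x y : P, cm x y ∈ E → ((y : P ⧸ E) * (x : P ⧸ E) = (x : P ⧸ E) * (y : P ⧸ E)) := by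
        intro x y h
        have e1 : ((cm x y : P) : P ⧸ E) = 1 := (QuotientGroup.eq_one_iff _).2 h
        have e2 : ((cm x y : P) : P ⧸ E) = cm (x : P ⧸ E) (y : P ⧸ E) := rfl
        rw [e2] at e1
        exact cm_eq_one.1 e1
      have hNA₁ : ∃ a b : P ⧸ E, a * b ≠ b * a := by
        refine ⟨(y₀ : P ⧸ E), (x₀ : P ⧸ E), fun h => h₀ ?_⟩
        have e1 : cm (x₀ : P ⧸ E) (y₀ : P ⧸ E) = 1 := cm_eq_one.2 h
        have e2 : ((cm x₀ y₀ : P) : P ⧸ E) = cm (x₀ : P ⧸ E) (y₀ : P ⧸ E) := rfl
        rw [← e2] at e1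
        exact (QuotientGroup.eq_one_iff _).1 e1
      have IH := ih (P ⧸ E) hc₁ hP₁ ρ₁ hS₁ hNA₁
      have Z1 : ∀ x : P, (∀ y, cm x y ∈ E) → Cn x := by
        intro x hx
        apply stepA
        apply (hmk2 x).1
        apply IH
        intro b
        obtain ⟨y, rfl⟩ := QuotientGroup.mk_surjective b
        exact hmkcm x y (hx y)
      have Z2 : ∀ c : P, Cn c → c * c ∈ E := by
        intro c hc'
        apply (hmk2 c).1
        apply IH
        intro b
        obtain ⟨y, rfl⟩ := QuotientGroup.mk_surjective b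
        exact hmkcm c y (by rw [cm_center_l hc']; exact E.one_mem)
      -- the centre of `P / Z(P)`
      haveI hnt : Nontrivial (P ⧸ Subgroup.center P) := by
        obtain ⟨x, y, hxy⟩ := hNA
        refine ⟨⟨(y : P ⧸ Subgroup.center P), 1, fun h => hxy ?_⟩⟩
        have := (QuotientGroup.eq_one_iff y).1 h
        exact (Subgroup.mem_center_iff.1 this) x
      have hPZ : IsPGroup 2 (P ⧸ Subgroup.center P) := hP.to_quotient _
      haveI := hPZ.center_nontrivial
      obtain ⟨⟨xb, hxb⟩, hxb1⟩ := exists_ne (1 : Subgroup.center (P ⧸ Subgroup.center P))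
      obtain ⟨x, rfl⟩ := QuotientGroup.mk_surjective xb
      have hxN : ¬ Cn x := by
        intro h
        apply hxb1
        apply Subtype.ext
        exact (QuotientGroup.eq_one_iff x).2 (Subgroup.mem_center_iff.2 h)
      apply hxN
      apply Z1
      intro y
      have hcC : Cn (cm x y) := by
        have e1 : cm (x : P ⧸ Subgroup.center P) (y : P ⧸ Subgroup.center P) = 1 :=
          cm_eq_one.2 ((Subgroup.mem_center_iff.1 hxb) _)
        have e2 : ((cm x y : P) : P ⧸ Subgroup.center P) =
          cm (x : P ⧸ Subgroup.center P) (y : P ⧸ Subgroup.center P) := rfl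
        rw [← e2] at e1
        exact fun z => (Subgroup.mem_center_iff.1 ((QuotientGroup.eq_one_iff _).1 e1)) z
      have h2C : Cn (x * x) := by
        apply Z1
        intro y'
        have hcC' : Cn (cm x y') := by
          have e1 : cm (x : P ⧸ Subgroup.center P) (y' : P ⧸ Subgroup.center P) = 1 :=
            cm_eq_one.2 ((Subgroup.mem_center_iff.1 hxb) _)
          have e2 : ((cm x y' : P) : P ⧸ Subgroup.center P) =
            cm (x : P ⧸ Subgroup.center P) (y' : P ⧸ Subgroup.center P) := rfl
          rw [← e2] at e1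
          exact fun z => (Subgroup.mem_center_iff.1 ((QuotientGroup.eq_one_iff _).1 e1)) z
        rw [cm_sq hcC']
        exact Z2 _ hcC'
      have e1 := cm_sq hcC
      rw [cm_center_l h2C] at e1
      exact e1.symm

end main

end Cfsg.Agent.Lib.H1Suzuki
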