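import Cfsg.Prelude.Def_SolvableStructure
import Cfsg.Agent.Lib.H1Hall2
import Cfsg.Agent.Lib.H1CN3
import Cfsg.Agent.Lib.FGS2
import Cfsg.Agent.Lib.FGS3

set_option autoImplicit false
set_option linter.style.haveILetI false

/-! Hall complement systems and system normalizers in finite solvable groups. -/

namespace Cfsg.Agent.Lib.H1Sys

open Cfsg Pointwise Cfsg.Agent.Lib.H1Core Cfsg.Agent.Lib.H1Conj Cfsg.Agent.Lib.H1SZ
open Cfsg.Agent.Lib.H1Hall Cfsg.Agent.Lib.H1Hall2
open scoped commutatorElement

universe u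

variable {G : Type u} [Group G]

theorem index_conj_smul [Finite G] (g : G) (H : Subgroup G) :
    (MulAut.conj g • H).index = H.index := by
  have h1 := Subgroup.index_mul_card H
  have h2 := Subgroup.index_mul_card (MulAut.conj g • H)
  rw [card_conj_smul] at h2
  have h3 : 0 < Nat.card H := Nat.card_pos
  exact Nat.eq_of_mul_eq_mul_right h3 (h2.trans h1.symm)

theorem conj_system [Finite G] {K : Nat.Primes → Subgroup G} (hK : IsComplementSystem K) (g : G) :
    IsComplementSystem (fun p => MulAut.conj g • K p) := by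
  intro p
  rw [index_conj_smul]
  exact hK p

theorem fact_card_ne_zero [Finite G] : Nat.card G ≠ 0 := Nat.card_pos.ne'

/-- A complement member has order prime to `p`. -/
theorem card_coprime [Finite G] {K : Nat.Primes → Subgroup G} (hK : IsComplementSystem K)
    (p : Nat.Primes) : (Nat.card (K p)).Coprime (p : ℕ) := by
  have hp := p.2
  have h1 := Subgroup.index_mul_card (K p)
  rw [hK p] at h1
  have h2 := Nat.ordProj_mul_ordCompl_eq_self (Nat.card G) (p : ℕ)
  have h3 : Nat.card (K p) = Nat.card G / (p : ℕ) ^ (Nat.card G).factorization p :=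
    (Nat.div_eq_of_eq_mul_right (pow_pos hp.pos _) h1.symm).symm
  rw [h3]
  exact (Nat.coprime_ordCompl hp (fact_card_ne_zero (G := G))).symm

theorem index_coprime {K : Nat.Primes → Subgroup G} (hK : IsComplementSystem K)
    {p q : Nat.Primes} (h : p ≠ q) : (K p).index.Coprime (q : ℕ) := by
  rw [hK p]
  apply Nat.Coprime.pow_left
  exact (Nat.coprime_primes p.2 q.2).mpr (fun e => h (Subtype.ext e))

theorem index_coprime' {K L : Nat.Primes → Subgroup G} (hK : IsComplementSystem K)
    (hL : IsComplementSystem L) {p q : Nat.Primes} (h : p ≠ q) : (K p).index.Coprime (L q).index := by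
  rw [hL q]
  exact Nat.Coprime.pow_right _ (index_coprime hK h)

/-- The index of a finite intersection of members of a complement system. -/
theorem biInf_index_coprime [Finite G] {L : Nat.Primes → Subgroup G} (hL : IsComplementSystem L)
    (s : Finset Nat.Primes) : ∀ r : Nat.Primes, r ∉ s → (⨅ p ∈ s, L p).index.Coprime (r : ℕ) := by
  classical
  induction s using Finset.induction_on with
  | empty =>
    intro r _
    simp
  | insert q s hq ih =>
    intro r hr
    rw [Finset.mem_insert, not_or] at hr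
    rw [Finset.iInf_insert]
    have h1 : (⨅ p ∈ s, L p).index.Coprime (L q).index := by
      rw [hL q]
      exact Nat.Coprime.pow_right _ (ih q hq)
    rw [index_inf_of_coprime h1]
    exact Nat.Coprime.mul_left (index_coprime hL (Ne.symm hr.1)) (ih r hr.2)

/-- Single step: members of complement systems with the same join with `N` are `N`-conjugate. -/
theorem exists_conj_in_normal [Finite G] [Group.IsSolvable G] {H J : Subgroup G} (N : Subgroup G)
    [N.Normal] (p : ℕ) (a : ℕ) (hp : p.Prime) (hH : H.index = p ^ a) (hJ : J.index = p ^ a)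
    (hHc : (Nat.card H).Coprime p) (h : H ⊔ N = J ⊔ N) : ∃ n ∈ N, MulAut.conj n • H = J := by
  set T : Subgroup G := H ⊔ N with hT
  have hHT : H ≤ T := le_sup_left
  have hJT : J ≤ T := by rw [h]; exact le_sup_left
  have hcardH : Nat.card (H.subgroupOf T) = Nat.card H := card_subgroupOf_of_le hHT
  have hcardJ : Nat.card (J.subgroupOf T) = Nat.card J := card_subgroupOf_of_le hJT
  have hcards : Nat.card J = Nat.card H := by
    have h1 := Subgroup.index_mul_card H
    have h2 := Subgroup.index_mul_card J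
    rw [hH] at h1
    rw [hJ] at h2
    exact Nat.eq_of_mul_eq_mul_left (pow_pos hp.pos a) (h2.trans h1.symm)
  have hdvd : (H.subgroupOf T).index ∣ p ^ a := by
    rw [← hH]
    exact Subgroup.relIndex_dvd_index_of_le hHT
  have hcop : (Nat.card H).Coprime (H.subgroupOf T).index :=
    Nat.Coprime.coprime_dvd_right hdvd (Nat.Coprime.pow_right _ hHc)
  have hTcard : Nat.card T = Nat.card H * (H.subgroupOf T).index := by
    have := Subgroup.index_mul_card (H.subgroupOf T)
    rw [hcardH] at this
    rw [← this, mul_comm]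
  haveI : Group.IsSolvable T := isSolvable_of_le le_top (by
    haveI : Group.IsSolvable (⊤ : Subgroup G) := by
      exact inferInstance
    exact inferInstance)
  obtain ⟨t, ht⟩ := hall_conj (G := T) (Nat.card H) (H.subgroupOf T).index hTcard hcop
    (H.subgroupOf T) (J.subgroupOf T) hcardH (hcardJ.trans hcards)
  have h3 := conj_of_subgroupOf hHT hJT t ht
  have ht2 : (t : G) ∈ H ⊔ N := t.2
  obtain ⟨k, hk, n, hn, hkn⟩ := Subgroup.mem_sup_of_normal_right.mp ht2
  -- write `t = n' * k`
  refine ⟨k * n * k⁻¹, (‹N.Normal›).conj_mem n hn k, ?_⟩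
  have h4 : (t : G) = (k * n * k⁻¹) * k := by rw [← hkn]; group
  rw [h4, conj_mul_smul, conj_smul_eq_self_of_mem hk] at h3
  exact h3

theorem conj_sup_normal {H N : Subgroup G} [N.Normal] {n : G} (hn : n ∈ N) :
    MulAut.conj n • H ⊔ N = H ⊔ N := by
  apply le_antisymm
  · refine sup_le ?_ le_sup_right
    intro x hx
    rw [mem_conj_smul] at hx
    have h1 : x = n * (n⁻¹ * x * n) * n⁻¹ := by group
    rw [h1]
    have hn' : n ∈ H ⊔ N := (le_sup_right : N ≤ H ⊔ N) hn
    have hb : n⁻¹ * x * n ∈ H ⊔ N := (le_sup_left : H ≤ H ⊔ N) hx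
    exact (H ⊔ N).mul_mem ((H ⊔ N).mul_mem hn' hb) ((H ⊔ N).inv_mem hn')
  · refine sup_le ?_ le_sup_right
    intro x hx
    have h1 : x = n * (n⁻¹ * x * n) * n⁻¹ := by group
    have h2 : n * (n⁻¹ * x * n) * n⁻¹ = (n * (n⁻¹ * x * n) * n⁻¹ * x⁻¹) * x := by group
    have hn' : n ∈ MulAut.conj n • H ⊔ N := (le_sup_right : N ≤ MulAut.conj n • H ⊔ N) hn
    have hb : n⁻¹ * (n * x * n⁻¹) * n ∈ H := by
      have : n⁻¹ * (n * x * n⁻¹) * n = x := by group
      rw [this]; exact hx
    have h5 : n * x * n⁻¹ ∈ MulAut.conj n • H := mem_conj_smul.mpr hb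
    have h6 : x = n⁻¹ * (n * x * n⁻¹) * n := by group
    rw [h6]
    exact (MulAut.conj n • H ⊔ N).mul_mem ((MulAut.conj n • H ⊔ N).mul_mem
      ((MulAut.conj n • H ⊔ N).inv_mem hn') ((le_sup_left : MulAut.conj n • H ≤ MulAut.conj n • H ⊔ N) h5)) hn'

/-- **Relative conjugacy of complement systems.** -/
theorem sys_conj_rel [Finite G] [Group.IsSolvable G] (K L : Nat.Primes → Subgroup G)
    (hK : IsComplementSystem K) (hL : IsComplementSystem L) (N : Subgroup G) [hN : N.Normal]
    (h : ∀ p, K p ⊔ N = L p ⊔ N) : ∃ n ∈ N, ∀ p, MulAut.conj n • K p = L p := by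
  classical
  -- finite induction over primes
  have key : ∀ s : Finset Nat.Primes, ∃ n ∈ N, ∀ p ∈ s, MulAut.conj n • K p = L p := by
    intro s
    induction s using Finset.induction_on with
    | empty => exact ⟨1, N.one_mem, by simp⟩
    | insert q s hq ih =>
      obtain ⟨n₀, hn₀, hs⟩ := ih
      set K' : Nat.Primes → Subgroup G := fun p => MulAut.conj n₀ • K p with hK'
      have hK's : IsComplementSystem K' := conj_system hK n₀
      obtain ⟨n₁, hn₁, hq₁⟩ := exists_conj_in_normal (H := K' q) (J := L q) N (q : ℕ)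
        ((Nat.card G).factorization q) q.2 (hK's q) (hL q) (card_coprime hK's q)
        (by rw [← h q]; exact conj_sup_normal hn₀)
      -- factor `n₁`
      set D : Subgroup G := ⨅ p ∈ s, L p with hD
      have hDq : D.index.Coprime (K' q).index := by
        rw [hK's q]
        exact Nat.Coprime.pow_right _ (biInf_index_coprime hL s q hq)
      have hA : (D.subgroupOf N).index.Coprime ((K' q).subgroupOf N).index := by
        have h1 : (D.subgroupOf N).index ∣ D.index := Cfsg.Agent.Lib.FGS2.relIndex_normal_dvd_index N D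
        have h2 : ((K' q).subgroupOf N).index ∣ (K' q).index :=
          Cfsg.Agent.Lib.FGS2.relIndex_normal_dvd_index N (K' q)
        exact Nat.Coprime.of_dvd h1 h2 hDq
      obtain ⟨a, ha, b, hb, hab⟩ := mul_eq_of_coprime hA (⟨n₁, hn₁⟩ : N)
      have ha' : (a : G) ∈ D := Subgroup.mem_subgroupOf.mp ha
      have hb' : (b : G) ∈ K' q := Subgroup.mem_subgroupOf.mp hb
      have hab' : n₁ = (a : G) * b := congrArg Subtype.val hab
      refine ⟨(a : G) * n₀, N.mul_mem a.2 hn₀, ?_⟩
      intro p hp
      rw [conj_mul_smul]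
      rcases Finset.mem_insert.mp hp with rfl | hp
      · change MulAut.conj (a : G) • K' p = L p
        rw [← hq₁, hab', conj_mul_smul, conj_smul_eq_self_of_mem hb']
      · rw [hs p hp]
        apply conj_smul_eq_self_of_mem
        have : D ≤ L p := iInf₂_le p hp
        exact this ha'
  obtain ⟨n, hn, hs⟩ := key (Finset.subtype Nat.Prime (Nat.card G).primeFactors)
  refine ⟨n, hn, ?_⟩
  intro p
  by_cases hp : p.1 ∣ Nat.card G
  · apply hs
    exact Finset.mem_subtype.mpr (Nat.mem_primeFactors.mpr ⟨p.2, hp, fact_card_ne_zero⟩)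
  · have hKtop : ∀ (M : Nat.Primes → Subgroup G), IsComplementSystem M → M p = ⊤ := by
      intro M hM
      have := hM p
      rw [Nat.factorization_eq_zero_of_not_dvd hp, pow_zero] at this
      exact Subgroup.index_eq_one.mp this
    rw [hKtop K hK, hKtop L hL, conj_smul_eq_map, Subgroup.map_top_of_surjective _ (MulAut.conj n).surjective]

/-- **Conjugacy of complement systems.** -/
theorem sys_conj [Finite G] [Group.IsSolvable G] (K L : Nat.Primes → Subgroup G)
    (hK : IsComplementSystem K) (hL : IsComplementSystem L) :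
    ∃ g : G, ∀ p, MulAut.conj g • K p = L p := by
  obtain ⟨n, -, h⟩ := sys_conj_rel K L hK hL ⊤ (by intro p; simp)
  exact ⟨n, h⟩


/-! ### The system normalizer is nilpotent -/

theorem mem_of_mem_normalizer [Finite G] {H : Subgroup G} {x : G} {p a : ℕ} (hp : p.Prime)
    (hH : H.index = p ^ a) (hx : x ∈ Subgroup.normalizer (H : Set G)) (hc : (orderOf x).Coprime p) :
    x ∈ H := by
  have h0 : H ≤ Subgroup.normalizer (H : Set G) := Subgroup.le_normalizer
  have h1 := Subgroup.pow_relIndex_mem (H.subgroupOf (Subgroup.normalizer (H : Set G)))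
    (g := (⟨x, hx⟩ : Subgroup.normalizer (H : Set G))) (K := ⊤) (Subgroup.mem_top _)
  rw [Subgroup.relIndex_top_right] at h1
  have h2 : x ^ (H.subgroupOf (Subgroup.normalizer (H : Set G))).index ∈ H := by
    have := Subgroup.mem_subgroupOf.mp h1
    simpa using this
  have h3 : (H.subgroupOf (Subgroup.normalizer (H : Set G))).index ∣ p ^ a := by
    rw [← hH]
    exact Subgroup.relIndex_dvd_index_of_le h0
  have h4 : x ^ orderOf x ∈ H := by rw [pow_orderOf_eq_one]; exact H.one_mem
  have h5 : (H.subgroupOf (Subgroup.normalizer (H : Set G))).index.Coprime (orderOf x) :=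
    Nat.Coprime.coprime_dvd_left h3 (Nat.Coprime.pow_left _ hc.symm)
  exact Cfsg.Agent.Lib.H1CN3.mem_of_pow_mem h2 h4 h5

theorem mem_of_sys [Finite G] {K : Nat.Primes → Subgroup G} (hK : IsComplementSystem K)
    {x : G} (hx : x ∈ systemNormalizer K) {p : Nat.Primes} (hc : (orderOf x).Coprime (p : ℕ)) :
    x ∈ K p :=
  mem_of_mem_normalizer p.2 (hK p) (Subgroup.mem_iInf.mp hx p) hc

theorem eq_one_of_forall_mem [Finite G] {K : Nat.Primes → Subgroup G} (hK : IsComplementSystem K)
    {x : G} (h : ∀ p, x ∈ K p) : x = 1 := by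
  by_contra hne
  have h1 : orderOf x ≠ 1 := fun e => hne (orderOf_eq_one_iff.mp e)
  obtain ⟨r, hr, hrd⟩ := Nat.exists_prime_and_dvd h1
  have h2 : orderOf x ∣ Nat.card (K ⟨r, hr⟩) := Subgroup.orderOf_dvd_natCard _ (h ⟨r, hr⟩)
  have h3 := card_coprime hK ⟨r, hr⟩
  have h4 : r ∣ Nat.gcd (Nat.card (K ⟨r, hr⟩)) r := Nat.dvd_gcd (hrd.trans h2) dvd_rfl
  rw [h3] at h4
  exact hr.one_lt.ne' (Nat.dvd_one.mp h4)

theorem commute_of_sys [Finite G] {K : Nat.Primes → Subgroup G} (hK : IsComplementSystem K)
    {x y : G} (hx : x ∈ systemNormalizer K) (hy : y ∈ systemNormalizer K) (p : Nat.Primes)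
    (hxp : ∃ k, orderOf x = (p : ℕ) ^ k) (hyp : (orderOf y).Coprime (p : ℕ)) : x * y = y * x := by
  have key : x * y * x⁻¹ * y⁻¹ = 1 := by
    apply eq_one_of_forall_mem hK
    intro r
    by_cases hr : r = p
    · subst hr
      have h1 : y ∈ K r := mem_of_sys hK hy hyp
      have h2 := (Subgroup.mem_normalizer_iff.mp (Subgroup.mem_iInf.mp hx r) y).mp h1
      exact (K r).mul_mem h2 ((K r).inv_mem h1)
    · have h1 : (orderOf x).Coprime (r : ℕ) := by
        obtain ⟨k, hk⟩ := hxp
        rw [hk]
        apply Nat.Coprime.pow_left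
        exact (Nat.coprime_primes p.2 r.2).mpr (fun e => hr (Subtype.ext e).symm)
      have h2 : x ∈ K r := mem_of_sys hK hx h1
      have h3 := (Subgroup.mem_normalizer_iff.mp (Subgroup.mem_iInf.mp hy r) x⁻¹).mp ((K r).inv_mem h2)
      have h4 : x * y * x⁻¹ * y⁻¹ = x * (y * x⁻¹ * y⁻¹) := by group
      rw [h4]
      exact (K r).mul_mem h2 h3
  have h5 : x * y = (x * y * x⁻¹ * y⁻¹) * (y * x) := by group
  rw [h5, key, one_mul]

/-- **System normalizers are nilpotent.** -/
theorem sys_nilpotent [Finite G] (K : Nat.Primes → Subgroup G) (hK : IsComplementSystem K) :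
    Group.IsNilpotent (systemNormalizer K) := by
  classical
  have q := (Group.isNilpotent_of_finite_tfae (G := systemNormalizer K)).out 0 3
  rw [q]
  intro p hp P
  rw [← Subgroup.normalizer_eq_top_iff, ← Subgroup.index_eq_one]
  by_contra hne
  obtain ⟨r, hr, hrd⟩ := Nat.exists_prime_and_dvd hne
  by_cases hrp : r = p
  · subst hrp
    have h1 : (Subgroup.normalizer ((P : Subgroup (systemNormalizer K)) : Set (systemNormalizer K))).index ∣
        (P : Subgroup (systemNormalizer K)).index :=
      Subgroup.index_dvd_of_le Subgroup.le_normalizer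
    exact P.not_dvd_index (hrd.trans h1)
  · haveI : Fact r.Prime := ⟨hr⟩
    obtain ⟨Q⟩ : Nonempty (Sylow r (systemNormalizer K)) := inferInstance
    have hle : (Q : Subgroup (systemNormalizer K)) ≤
        Subgroup.normalizer ((P : Subgroup (systemNormalizer K)) : Set (systemNormalizer K)) := by
      intro y hy
      have hyord : (orderOf (y : G)).Coprime p := by
        obtain ⟨k, hk⟩ := (IsPGroup.iff_orderOf.mp Q.isPGroup') ⟨y, hy⟩
        rw [Subgroup.orderOf_coe, ← Subgroup.orderOf_mk y hy, hk]
        exact Nat.Coprime.pow_left _ ((Nat.coprime_primes hr hp.out).mpr hrp)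
      have hcomm : ∀ a ∈ (P : Subgroup (systemNormalizer K)), a * y = y * a := by
        intro a ha
        have hford : ∃ k, orderOf (a : G) = (p : ℕ) ^ k := by
          obtain ⟨k, hk⟩ := (IsPGroup.iff_orderOf.mp P.isPGroup') ⟨a, ha⟩
          refine ⟨k, ?_⟩
          rw [Subgroup.orderOf_coe, ← Subgroup.orderOf_mk a ha, hk]
        have := commute_of_sys hK a.2 y.2 ⟨p, hp.out⟩ hford hyord
        exact Subtype.ext this
      rw [Subgroup.mem_normalizer_iff]
      intro a
      constructor
      · intro ha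
        have : y * a * y⁻¹ = a := by rw [← hcomm a ha]; group
        rw [this]; exact ha
      · intro ha
        have h1 := hcomm _ ha
        have h2 : y * a * y⁻¹ * y = y * (y * a * y⁻¹) := h1
        have h3 : y * a = y * (y * a * y⁻¹) := by
          rw [← h2]; group
        have h4 : a = y * a * y⁻¹ := mul_left_cancel h3
        rw [h4]; exact ha
    have h1 : (Subgroup.normalizer ((P : Subgroup (systemNormalizer K)) : Set (systemNormalizer K))).index ∣
        (Q : Subgroup (systemNormalizer K)).index :=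
      Subgroup.index_dvd_of_le hle
    exact Q.not_dvd_index (hrd.trans h1)

/-! ### Images in quotients -/

theorem index_eq_of_coprime {X : Type*} [Group X] [Finite X] (H : Subgroup X) {p j : ℕ} (hp : p.Prime)
    (hi : H.index = p ^ j) (hc : (Nat.card H).Coprime p) :
    H.index = p ^ (Nat.card X).factorization p := by
  have h1 := Subgroup.index_mul_card H
  rw [hi] at h1
  have h2 : (Nat.card H) ≠ 0 := Nat.card_pos.ne'
  have h3 : ¬ p ∣ Nat.card H := (Nat.Prime.coprime_iff_not_dvd hp).mp hc.symm
  rw [hi, ← h1, Nat.factorization_mul (pow_ne_zero _ hp.ne_zero) h2, Finsupp.add_apply,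
    Nat.Prime.factorization_pow hp, Finsupp.single_eq_same, Nat.factorization_eq_zero_of_not_dvd h3,
    add_zero]

theorem system_map [Finite G] {K : Nat.Primes → Subgroup G} (hK : IsComplementSystem K)
    (N : Subgroup G) [N.Normal] : IsComplementSystem (fun p => (K p).map (QuotientGroup.mk' N)) := by
  intro p
  have h1 : ((K p).map (QuotientGroup.mk' N)).index ∣ (K p).index :=
    Subgroup.index_map_dvd _ (QuotientGroup.mk'_surjective N)
  rw [hK p] at h1
  obtain ⟨j, -, hj⟩ := (Nat.dvd_prime_pow p.2).1 h1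
  apply index_eq_of_coprime _ p.2 hj
  have h2 : Nat.card ((K p).map (QuotientGroup.mk' N)) ∣ Nat.card (K p) :=
    Subgroup.card_map_dvd _ _
  exact Nat.Coprime.coprime_dvd_left h2 (card_coprime hK p)

theorem sysNorm_le_map [Finite G] (K : Nat.Primes → Subgroup G) {Y : Type*} [Group Y]
    (f : G →* Y) :
    (systemNormalizer K).map f ≤ systemNormalizer (fun p => (K p).map f) := by
  rintro _ ⟨x, hx, rfl⟩
  apply Subgroup.mem_iInf.mpr
  intro p
  apply mem_normalizer_of_conj_smul_eq
  rw [← map_conj_smul, conj_smul_eq_self_of_mem_normalizer (Subgroup.mem_iInf.mp hx p)]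

theorem sysNorm_map [Finite G] [Group.IsSolvable G] {K : Nat.Primes → Subgroup G}
    (hK : IsComplementSystem K) (N : Subgroup G) [N.Normal] :
    systemNormalizer (fun p => (K p).map (QuotientGroup.mk' N)) =
      (systemNormalizer K).map (QuotientGroup.mk' N) := by
  apply le_antisymm _ (sysNorm_le_map K _)
  intro y hy
  obtain ⟨x, rfl⟩ := QuotientGroup.mk'_surjective N y
  have h1 : ∀ p, K p ⊔ N = MulAut.conj x • K p ⊔ N := by
    intro p
    have h2 := conj_smul_eq_self_of_mem_normalizer (Subgroup.mem_iInf.mp hy p)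
    rw [← map_conj_smul] at h2
    have h3 := congrArg (Subgroup.comap (QuotientGroup.mk' N)) h2
    rw [Subgroup.comap_map_eq, Subgroup.comap_map_eq, QuotientGroup.ker_mk'] at h3
    exact h3.symm
  obtain ⟨n, hn, hc⟩ := sys_conj_rel K (fun p => MulAut.conj x • K p) hK (conj_system hK x) N h1
  refine ⟨n⁻¹ * x, ?_, ?_⟩
  · apply Subgroup.mem_iInf.mpr
    intro p
    apply mem_normalizer_of_conj_smul_eq
    rw [conj_mul_smul, ← hc p, ← conj_mul_smul, inv_mul_cancel, conj_one_smul]
  · rw [map_mul, map_inv]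
    have : QuotientGroup.mk' N n = 1 := (QuotientGroup.eq_one_iff n).mpr hn
    rw [this, inv_one, one_mul]

/-- **The normal closure of a system normalizer is the whole group.** -/
theorem normalClosure_sysNorm [Finite G] [Group.IsSolvable G] {K : Nat.Primes → Subgroup G}
    (hK : IsComplementSystem K) :
    Subgroup.normalClosure ((systemNormalizer K : Subgroup G) : Set G) = ⊤ := by
  by_contra hne
  set M : Subgroup G := Subgroup.normalClosure ((systemNormalizer K : Subgroup G) : Set G) with hM
  haveI : M.Normal := Subgroup.normalClosure_normal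
  set f := QuotientGroup.mk' M with hf
  have hX : Nontrivial (G ⧸ M) := QuotientGroup.nontrivial_iff.mpr hne
  haveI : Group.IsSolvable (G ⧸ M) := inferInstance
  set A : Subgroup (G ⧸ M) := commutator (G ⧸ M) with hA
  have hK₁ := system_map hK M
  have h1 := sysNorm_map hK₁ A
  rw [sysNorm_map hK M] at h1
  have h2 : (systemNormalizer K).map f = ⊥ := by
    rw [Subgroup.map_eq_bot_iff, hf, QuotientGroup.ker_mk']
    exact Subgroup.subset_normalClosure
  rw [h2, Subgroup.map_bot] at h1
  have hcomm : ∀ a b : (G ⧸ M) ⧸ A, a * b = b * a := fun a b => mul_comm (G := Abelianization (G ⧸ M)) a b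
  have htop : ∀ a : (G ⧸ M) ⧸ A, a = 1 := by
    intro a
    have h3 : a ∈ systemNormalizer (fun p => ((K p).map f).map (QuotientGroup.mk' A)) := by
      apply Subgroup.mem_iInf.mpr
      intro p
      rw [Subgroup.mem_normalizer_iff]
      intro b
      have : a * b * a⁻¹ = b := by rw [hcomm a b]; group
      rw [this]
    rw [h1] at h3
    exact h3
  have h4 : A = ⊤ := by
    rw [eq_top_iff]
    intro x _
    have := htop (QuotientGroup.mk x)
    exact (QuotientGroup.eq_one_iff x).mp this
  exact (IsSolvable.commutator_lt_top_of_nontrivial (G ⧸ M)).ne h4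


/-! ### Chief factors -/

/-- Covering of a normal `p`-section by a subgroup of `p`-prime index. -/
theorem exists_mul_of_section {X : Type*} [Group X] [Finite X] (C : Subgroup X) [C.Normal]
    (Rbar : Subgroup (X ⧸ C)) [Rbar.Normal] {p : ℕ} [Fact p.Prime] (hR : IsPGroup p Rbar)
    (S : Subgroup X) (hS : ¬ p ∣ S.index) {r : X} (hr : (r : X ⧸ C) ∈ Rbar) :
    ∃ s ∈ S, s⁻¹ * r ∈ C := by
  have h1 : (S.map (QuotientGroup.mk' C)).index ∣ S.index :=
    Subgroup.index_map_dvd _ (QuotientGroup.mk'_surjective C)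
  have h2 : Rbar ≤ S.map (QuotientGroup.mk' C) :=
    normal_pgroup_le hR (fun h => hS (h.trans h1))
  obtain ⟨s, hs, hsr⟩ := h2 hr
  refine ⟨s, hs, ?_⟩
  exact QuotientGroup.eq.mp hsr

/-- The system normalizer avoids non-central minimal normal subgroups. -/
theorem avoid_aux {X : Type u} [Group X] [Finite X] [Group.IsSolvable X]
    {K : Nat.Primes → Subgroup X} (hK : IsComplementSystem K) (V : Subgroup X) [hVn : V.Normal]
    (hV : V ≠ ⊥) (hmin : ∀ M : Subgroup X, M.Normal → M ≤ V → M = ⊥ ∨ M = V)
    (hnc : ∃ v ∈ V, ∃ g : X, v * g ≠ g * v) {x : X} (hx : x ∈ V)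
    (hxD : x ∈ systemNormalizer K) : x = 1 := by
  classical
  obtain ⟨hab, q, hq, hqV⟩ := H1SZ.minimal_normal_elementary V hV hmin
  haveI : Fact q.Prime := ⟨hq⟩
  set C : Subgroup X := Subgroup.centralizer (V : Set X) with hC
  haveI hCn : C.Normal := Subgroup.normal_centralizer
  have hCne : C ≠ ⊤ := by
    intro h
    obtain ⟨v, hv, g, hvg⟩ := hnc
    have hg : g ∈ C := by rw [h]; trivial
    exact hvg (Subgroup.mem_centralizer_iff.mp hg v hv)
  haveI hT : Nontrivial (X ⧸ C) := QuotientGroup.nontrivial_iff.mpr hCne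
  obtain ⟨p, a, Rbar, hp, ha, hRn, hRc⟩ := exists_minimal_normal_pgroup (X := X ⧸ C)
  haveI := hRn
  haveI : Fact p.Prime := ⟨hp⟩
  have hRp : IsPGroup p Rbar := IsPGroup.of_card hRc
  set R : Subgroup X := Rbar.comap (QuotientGroup.mk' C) with hR
  have hRmem : ∀ r, r ∈ R ↔ (r : X ⧸ C) ∈ Rbar := fun r => Iff.rfl
  haveI hRnn : R.Normal := Subgroup.Normal.comap hRn _
  -- `R` does not centralize `V`
  obtain ⟨r₀, hr₀, hr₀C⟩ : ∃ r₀ ∈ R, r₀ ∉ C := by
    have h1 : Rbar ≠ ⊥ := by
      intro h
      rw [h, Subgroup.card_bot] at hRc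
      have := Nat.one_lt_pow ha.ne' hp.one_lt
      omega
    obtain ⟨y, hy, hy1⟩ := (Subgroup.bot_or_exists_ne_one Rbar).resolve_left h1
    obtain ⟨r, rfl⟩ := QuotientGroup.mk'_surjective C y
    exact ⟨r, hy, fun h => hy1 ((QuotientGroup.eq_one_iff r).mpr h)⟩
  -- the fixed points of `R` on `V` are trivial
  set W : Subgroup X := V ⊓ Subgroup.centralizer (R : Set X) with hW
  have hWbot : W = ⊥ := by
    haveI : (Subgroup.centralizer (R : Set X)).Normal := Subgroup.normal_centralizer
    rcases hmin W (Subgroup.normal_inf_normal _ _) inf_le_left with h | h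
    · exact h
    · exfalso
      apply hr₀C
      rw [hC, Subgroup.mem_centralizer_iff]
      intro v hv
      have hvW : v ∈ W := by rw [h]; exact hv
      exact ((Subgroup.mem_centralizer_iff.mp hvW.2) r₀ hr₀).symm
  have hmemW : ∀ v ∈ V, (∀ r ∈ R, v * r = r * v) → v = 1 := by
    intro v hv hvR
    have : v ∈ W := ⟨hv, Subgroup.mem_centralizer_iff.mpr (fun r hr => (hvR r hr).symm)⟩
    rw [hWbot] at this
    exact this
  -- elements of `C` commute with `V`
  have hCV : ∀ v ∈ V, ∀ c ∈ C, v * c = c * v := fun v hv c hc =>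
    Subgroup.mem_centralizer_iff.mp hc v hv
  have hmul : ∀ (v : X), v ∈ V → ∀ S : Subgroup X, ¬ p ∣ S.index → (∀ s ∈ S, v * s = s * v) → v = 1 := by
    intro v hv S hS hvS
    apply hmemW v hv
    intro r hr
    obtain ⟨s, hs, hsr⟩ := exists_mul_of_section C Rbar hRp S hS hr
    calc v * r = v * s * (s⁻¹ * r) := by group
      _ = s * v * (s⁻¹ * r) := by rw [hvS s hs]
      _ = s * (v * (s⁻¹ * r)) := by group
      _ = s * ((s⁻¹ * r) * v) := by rw [hCV v hv _ hsr]
      _ = r * v := by group
  by_cases hpq : p = q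
  · subst hpq
    exfalso
    -- fixed points of a Sylow subgroup
    obtain ⟨S⟩ : Nonempty (Sylow p X) := inferInstance
    have hVp : IsPGroup p V := fun v => ⟨1, by rw [pow_one]; exact Subtype.ext (hqV v v.2)⟩
    have hVS : V ≤ (S : Subgroup X) := normal_pgroup_le hVp S.not_dvd_index
    haveI hSnil : Group.IsNilpotent (S : Subgroup X) := S.isPGroup'.isNilpotent
    have hne : V.subgroupOf (S : Subgroup X) ≠ ⊥ := by
      intro h
      apply hV
      rw [eq_bot_iff]
      intro v hv
      have h1 : (⟨v, hVS hv⟩ : (S : Subgroup X)) ∈ V.subgroupOf (S : Subgroup X) :=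
        Subgroup.mem_subgroupOf.mpr hv
      rw [h] at h1
      have h2 : (⟨v, hVS hv⟩ : (S : Subgroup X)) = 1 := h1
      exact congrArg Subtype.val h2
    have h3 := Cfsg.Agent.Lib.H1Frat.normal_inf_center_ne_bot (V.subgroupOf (S : Subgroup X)) hne
    obtain ⟨z, hz, hz1⟩ := (Subgroup.bot_or_exists_ne_one _).resolve_left h3
    apply hz1
    have h4 := hmul (z : X) (Subgroup.mem_subgroupOf.mp hz.1) (S : Subgroup X) S.not_dvd_index (by
      intro s hs
      have := (Subgroup.mem_center_iff.mp hz.2) ⟨s, hs⟩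
      exact (congrArg Subtype.val this).symm)
    exact Subtype.ext h4
  · apply hmul x hx (K ⟨q, hq⟩)
    · rw [hK ⟨q, hq⟩]
      intro h
      have h1 := hp.dvd_of_dvd_pow h
      exact hpq ((Nat.prime_dvd_prime_iff_eq hp hq).mp h1)
    · intro y hy
      set c := x * y * x⁻¹ * y⁻¹ with hc
      have h1 : c ∈ V := by
        have : c = x * (y * x⁻¹ * y⁻¹) := by rw [hc]; group
        rw [this]
        exact V.mul_mem hx (hVn.conj_mem _ (V.inv_mem hx) y)
      have h2 : c ∈ K ⟨q, hq⟩ :=
        (K ⟨q, hq⟩).mul_mem ((Subgroup.mem_normalizer_iff.mp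
          (Subgroup.mem_iInf.mp hxD ⟨q, hq⟩) y).mp hy) ((K ⟨q, hq⟩).inv_mem hy)
      have h3 : orderOf c ∣ q := orderOf_dvd_of_pow_eq_one (hqV c h1)
      have h4 : orderOf c ∣ Nat.card (K ⟨q, hq⟩) := Subgroup.orderOf_dvd_natCard _ h2
      have h5 : (orderOf c).Coprime q := Nat.Coprime.coprime_dvd_left h4 (card_coprime hK ⟨q, hq⟩)
      have h6 : orderOf c = 1 := Nat.Coprime.eq_one_of_dvd h5 h3
      have h7 : c = 1 := orderOf_eq_one_iff.mp h6
      have h8 : x * y = c * (y * x) := by rw [hc]; group
      rw [h8, h7, one_mul]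

/-- **Chief factors**: a system normalizer covers central chief factors and avoids the others. -/
theorem cover_avoid [Finite G] [Group.IsSolvable G] {K : Nat.Primes → Subgroup G}
    (hK : IsComplementSystem K) (A B : Subgroup G) [hA : A.Normal] [hB : B.Normal] (hAB : A < B)
    (hchief : ∀ N : Subgroup G, N.Normal → A ≤ N → N ≤ B → N = A ∨ N = B) :
    (⁅B, (⊤ : Subgroup G)⁆ ≤ A → B ≤ A ⊔ systemNormalizer K) ∧
      (¬ ⁅B, (⊤ : Subgroup G)⁆ ≤ A → B ⊓ systemNormalizer K ≤ A) := by
  set f := QuotientGroup.mk' A with hf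
  have hfsurj : Function.Surjective f := QuotientGroup.mk'_surjective A
  have hker : ∀ y, f y = 1 ↔ y ∈ A := fun y => QuotientGroup.eq_one_iff y
  have hK₁ := system_map hK A
  constructor
  · intro hc b hb
    have h1 : f b ∈ systemNormalizer (fun p => (K p).map f) := by
      apply Subgroup.mem_iInf.mpr
      intro p
      rw [Subgroup.mem_normalizer_iff]
      intro y
      obtain ⟨g, rfl⟩ := hfsurj y
      have h2 : f b * f g * (f b)⁻¹ = f g := by
        have h3 : ⁅b, g⁆ ∈ A := hc (Subgroup.commutator_mem_commutator hb (Subgroup.mem_top g))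
        have h4 : f ⁅b, g⁆ = 1 := (hker _).mpr h3
        have h5 : f ⁅b, g⁆ = f b * f g * (f b)⁻¹ * (f g)⁻¹ := by
          rw [commutatorElement_def, map_mul, map_mul, map_mul, map_inv, map_inv]
        rw [h5] at h4
        exact mul_inv_eq_one.mp h4
      rw [h2]
    rw [sysNorm_map hK A] at h1
    obtain ⟨d, hd, hdb⟩ := h1
    have h6 : d⁻¹ * b ∈ A := by
      apply (hker _).mp
      rw [map_mul, map_inv, hdb, inv_mul_cancel]
    have h8 : b = d * (d⁻¹ * b) := by group
    rw [h8]
    exact (A ⊔ systemNormalizer K).mul_mem ((le_sup_right : systemNormalizer K ≤ A ⊔ systemNormalizer K) hd)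
      ((le_sup_left : A ≤ A ⊔ systemNormalizer K) h6)
  · intro hc x hx
    rw [← hker]
    haveI hVn : (B.map f).Normal := Subgroup.Normal.map hB f hfsurj
    have hA' : A ≤ B := hAB.le
    have hVne : B.map f ≠ ⊥ := by
      intro h
      obtain ⟨b, hb, hbA⟩ := SetLike.exists_of_lt hAB
      apply hbA
      rw [← hker]
      have : f b ∈ B.map f := ⟨b, hb, rfl⟩
      rw [h] at this
      exact this
    apply avoid_aux (K := fun p => (K p).map f) hK₁ (B.map f) hVne ?_ ?_ ⟨x, hx.1, rfl⟩
    · exact sysNorm_le_map K f ⟨x, hx.2, rfl⟩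
    · intro M hM hMV
      have hcN : (M.comap f).Normal := Subgroup.Normal.comap hM _
      have hkerle : A ≤ M.comap f := by
        intro a ha
        rw [Subgroup.mem_comap, (hker a).mpr ha]
        exact M.one_mem
      have hle : M.comap f ≤ B := by
        intro b hb
        obtain ⟨b', hb', hbb'⟩ := hMV hb
        have h1 : b'⁻¹ * b ∈ A := by
          apply (hker _).mp
          rw [map_mul, map_inv, hbb', inv_mul_cancel]
        have h2 : b = b' * (b'⁻¹ * b) := by group
        rw [h2]
        exact B.mul_mem hb' (hA' h1)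
      rcases hchief (M.comap f) hcN hkerle hle with h | h
      · left
        rw [eq_bot_iff]
        intro y hy
        obtain ⟨g, rfl⟩ := hfsurj y
        have : g ∈ M.comap f := hy
        rw [h] at this
        exact (hker g).mpr this
      · right
        rw [← Subgroup.map_comap_eq_self_of_surjective hfsurj M, h]
    · -- non-centrality
      rw [Subgroup.commutator_le] at hc
      push_neg at hc
      obtain ⟨b, hb, g, -, hbg⟩ := hc
      refine ⟨f b, ⟨b, hb, rfl⟩, f g, ?_⟩
      intro h
      apply hbg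
      rw [← hker, commutatorElement_def, map_mul, map_mul, map_mul, map_inv, map_inv, h]
      group

end Cfsg.Agent.Lib.H1Sys
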