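import Mathlib

/-! Orbit-counting tools for permutation group statements. -/

set_option autoImplicit false

namespace Cfsg.Agent.Lib.PermOrb

open MulAction

theorem card_orbit_mul_stab {G X : Type*} [Group G] [Finite G] [MulAction G X] (x : X) :
    Nat.card (orbit G x) * Nat.card (stabilizer G x) = Nat.card G := by
  rw [← Nat.card_prod, Nat.card_congr (orbitProdStabilizerEquivGroup G x)]

theorem dvd_card_of_stab {A Y : Type*} [Group A] [Finite A] [MulAction A Y] [Finite Y] (m q : ℕ)
    (hq : q * m = Nat.card A) (hm : 0 < m) (h : ∀ y : Y, Nat.card (stabilizer A y) = m) :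
    q ∣ Nat.card Y := by
  classical
  have e := Nat.card_congr (selfEquivSigmaOrbits A Y)
  letI : Fintype (orbitRel.Quotient A Y) := Fintype.ofFinite _
  rw [e, Nat.card_sigma]
  refine Finset.dvd_sum fun ω _ => ?_
  have h1 := card_orbit_mul_stab (G := A) (ω.out : Y)
  rw [h, ← hq] at h1
  rw [Nat.eq_of_mul_eq_mul_right hm h1]

/-- A faithful action with all point stabilisers of the same order `l > 1` and all two-point
stabilisers of the same order is transitive. -/
theorem pretransitive_of_stabilizers {H X : Type*} [Group H] [Finite H] [Finite X] [MulAction H X]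
    [FaithfulSMul H X] (l m : ℕ) (hl : 1 < l) (hs : ∀ x : X, Nat.card (stabilizer H x) = l)
    (h2 : ∀ x y : X, x ≠ y → Nat.card ↥(stabilizer H x ⊓ stabilizer H y) = m) :
    IsPretransitive H X := by
  classical
  refine ⟨fun a b => ?_⟩
  by_contra hcon
  push Not at hcon
  have hab : a ≠ b := fun e => hcon 1 (by simp [e])
  let A := stabilizer H a
  have hAcard : Nat.card A = l := hs a
  have hmdvd : m ∣ l := by
    rw [← h2 a b hab, ← hs a]
    exact Subgroup.card_dvd_of_le inf_le_left
  have hm0 : 0 < m := by
    rw [← h2 a b hab]; exact Nat.card_pos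
  obtain ⟨q, hq⟩ := hmdvd
  have hq' : q * m = Nat.card A := by rw [hAcard, hq, mul_comm]
  -- the stabiliser of `y ≠ a` in `A`
  have hstab : ∀ y : X, y ≠ a → Nat.card (stabilizer A y) = m := by
    intro y hy
    rw [← h2 a y (Ne.symm hy)]
    refine Nat.card_congr ⟨fun u => ⟨u.1.1, u.1.2, u.2⟩, fun u => ⟨⟨u.1, u.2.1⟩, u.2.2⟩, fun _ => rfl, fun _ => rfl⟩
  let Sb : SubMulAction A X :=
    { carrier := orbit H b
      smul_mem' := by
        rintro u x ⟨h, rfl⟩
        exact ⟨(u : H) * h, by simp [mul_smul]; rfl⟩ }
  let Sa : SubMulAction A X :=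
    { carrier := orbit H a \ {a}
      smul_mem' := by
        rintro u x ⟨⟨h, rfl⟩, hx⟩
        refine ⟨⟨(u : H) * h, by simp [mul_smul]; rfl⟩, ?_⟩
        intro e
        apply hx
        have hu : (u : H) • a = a := u.2
        have e' : (u : H) • ((fun m => m • a) h) = (u : H) • a := e.trans hu.symm
        have := smul_left_cancel _ e'
        simpa using this }
  have hdb : q ∣ Nat.card Sb := by
    refine dvd_card_of_stab m q hq' hm0 fun y => ?_
    have hy : (y : X) ≠ a := by
      intro e
      obtain ⟨h, he⟩ := y.2
      apply hcon h⁻¹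
      rw [inv_smul_eq_iff]
      exact (he.trans e).symm
    rw [← hstab y hy]
    refine Nat.card_congr ⟨fun u => ⟨u.1, ?_⟩, fun u => ⟨u.1, ?_⟩, fun _ => rfl, fun _ => rfl⟩
    · have := u.2
      rw [mem_stabilizer_iff] at this ⊢
      exact congrArg Subtype.val this
    · have := u.2
      rw [mem_stabilizer_iff] at this ⊢
      exact Subtype.ext this
  have hda : q ∣ Nat.card Sa := by
    refine dvd_card_of_stab m q hq' hm0 fun y => ?_
    have hy : (y : X) ≠ a := y.2.2
    rw [← hstab y hy]
    refine Nat.card_congr ⟨fun u => ⟨u.1, ?_⟩, fun u => ⟨u.1, ?_⟩, fun _ => rfl, fun _ => rfl⟩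
    · have := u.2
      rw [mem_stabilizer_iff] at this ⊢
      exact congrArg Subtype.val this
    · have := u.2
      rw [mem_stabilizer_iff] at this ⊢
      exact Subtype.ext this
  have hcardb : Nat.card Sb = Nat.card (orbit H b) := rfl
  have hcarda : Nat.card Sa + 1 = Nat.card (orbit H a) := by
    have h1 : Nat.card Sa = (orbit H a \ {a} : Set X).ncard := rfl
    have h3 : Nat.card (orbit H a) = (orbit H a : Set X).ncard := rfl
    rw [h1, h3]
    exact Set.ncard_sdiff_singleton_add_one (mem_orbit_self a) (Set.toFinite _)
  have hab' : Nat.card (orbit H a) = Nat.card (orbit H b) := by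
    have e1 := card_orbit_mul_stab (G := H) a
    have e2 := card_orbit_mul_stab (G := H) b
    rw [hs] at e1 e2
    exact Nat.eq_of_mul_eq_mul_right (by omega) (e1.trans e2.symm)
  have hq1 : q ∣ 1 := by
    have : q ∣ Nat.card Sa + 1 := by rw [hcarda, hab', ← hcardb]; exact hdb
    exact (Nat.dvd_add_right hda).1 this
  have hq2 : q = 1 := Nat.dvd_one.1 hq1
  rw [hq2, mul_one] at hq
  have hle : ∀ y : X, y ≠ a → stabilizer H a ≤ stabilizer H y := by
    intro y hy
    have h3 : stabilizer H a ⊓ stabilizer H y = stabilizer H a := by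
      apply Subgroup.eq_of_le_of_card_ge inf_le_left
      rw [h2 a y (Ne.symm hy), hs a, hq]
    rw [← h3]
    exact inf_le_right
  have htriv : ∀ u : stabilizer H a, u = 1 := by
    intro u
    apply Subtype.ext
    apply FaithfulSMul.eq_of_smul_eq_smul (α := X)
    intro x
    rw [Subgroup.coe_one, one_smul]
    by_cases hx : x = a
    · rw [hx]; exact u.2
    · exact hle x hx u.2
  have : Nat.card (stabilizer H a) = 1 := Nat.card_eq_one_iff_unique.2 ⟨⟨fun u v => by rw [htriv u, htriv v]⟩, ⟨1⟩⟩
  rw [hs] at this
  omega

/-- The number of points of an invariant set is congruent mod `p` to the number of its fixed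
points. -/
theorem card_modEq_inter {P X : Type*} [Group P] [MulAction P X] [DecidableEq X] {p : ℕ} [Fact p.Prime]
    (hP : IsPGroup p P) (O : Finset X) (hO : ∀ (u : P), ∀ c ∈ O, u • c ∈ O) (T : Finset X)
    (hT : fixedPoints P X = (T : Set X)) : O.card ≡ (O ∩ T).card [MOD p] := by
  let S : SubMulAction P X :=
    { carrier := (O : Set X)
      smul_mem' := fun u c hc => hO u c hc }
  have : Finite S := Set.toFinite (O : Set X)
  have h := hP.card_modEq_card_fixedPoints S
  have h1 : Nat.card S = O.card := by
    show Nat.card ((O : Set X) : Type _) = _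
    rw [Nat.card_eq_fintype_card]; simp
  have h2 : Nat.card (fixedPoints P S) = (O ∩ T).card := by
    have e : Nat.card (fixedPoints P S) = Nat.card {x // x ∈ O ∩ T} := by
      refine Nat.card_congr ⟨fun y => ⟨y.1.1, ?_⟩, fun y => ⟨⟨y.1, ?_⟩, ?_⟩, fun _ => rfl, fun _ => rfl⟩
      · rw [Finset.mem_inter]
        refine ⟨y.1.2, ?_⟩
        have : (y.1.1 : X) ∈ fixedPoints P X := fun u => congrArg Subtype.val (y.2 u)
        rw [hT] at this
        exact this
      · exact (Finset.mem_inter.1 y.2).1
      · intro u
        apply Subtype.ext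
        have : (y.1 : X) ∈ fixedPoints P X := by
          rw [hT]; exact (Finset.mem_inter.1 y.2).2
        exact this u
    rw [e, Nat.card_eq_fintype_card, Fintype.card_coe]
  rw [h1, h2] at h
  exact h

/-- To check `k`-fold transitivity it suffices to check that the pointwise stabiliser of each
smaller set is transitive on its complement. -/
theorem isMultiplyPretransitive_of_fixing {G α : Type*} [Group G] [MulAction G α] [DecidableEq α] (k : ℕ)
    (h : ∀ s : Finset α, s.card < k → ∀ a b, a ∉ s → b ∉ s → ∃ g : G, (∀ x ∈ s, g • x = x) ∧ g • a = b) :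
    IsMultiplyPretransitive G α k := by
  refine ⟨fun x y => ?_⟩
  have key : ∀ j : ℕ, j ≤ k → ∃ g : G, ∀ i : Fin k, i.val < j → g • x i = y i := by
    intro j
    induction j with
    | zero => intro _; exact ⟨1, fun i hi => absurd hi (by omega)⟩
    | succ j ih =>
      intro hj
      obtain ⟨g, hg⟩ := ih (by omega)
      let s : Finset α := (Finset.univ.filter (fun i : Fin k => i.val < j)).image y
      have hscard : s.card < k := by
        calc s.card ≤ (Finset.univ.filter (fun i : Fin k => i.val < j)).card := Finset.card_image_le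
          _ ≤ j := by
            have : (Finset.univ.filter (fun i : Fin k => i.val < j)) = Finset.univ.filter (fun i : Fin k => i.val ∈ Finset.range j) := by simp
            rw [this]
            calc _ ≤ (Finset.range j).card := by
                  apply Finset.card_le_card_of_injOn (fun i => i.val)
                  · intro i hi; simpa using hi
                  · intro a _ b _ e; exact Fin.ext e
              _ = j := by simp
          _ < k := by omega
      let i₀ : Fin k := ⟨j, by omega⟩
      have ha : g • x i₀ ∉ s := by
        intro hmem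
        obtain ⟨i, hi, e⟩ := Finset.mem_image.1 hmem
        have hi' : i.val < j := by simpa using hi
        rw [← hg i hi'] at e
        have := x.injective (smul_left_cancel g e)
        rw [this] at hi'
        exact absurd hi' (by simp [i₀])
      have hb : y i₀ ∉ s := by
        intro hmem
        obtain ⟨i, hi, e⟩ := Finset.mem_image.1 hmem
        have hi' : i.val < j := by simpa using hi
        have := y.injective e
        rw [this] at hi'
        exact absurd hi' (by simp [i₀])
      obtain ⟨u, hu1, hu2⟩ := h s hscard _ _ ha hb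
      refine ⟨u * g, fun i hi => ?_⟩
      rw [mul_smul]
      by_cases hij : i.val < j
      · rw [hg i hij]
        exact hu1 _ (Finset.mem_image.2 ⟨i, by simpa using hij, rfl⟩)
      · have : i = i₀ := Fin.ext (by simp [i₀]; omega)
        rw [this, hu2]
  obtain ⟨g, hg⟩ := key k le_rfl
  refine ⟨g, ?_⟩
  ext i
  exact hg i i.2

end Cfsg.Agent.Lib.PermOrb
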