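import Cfsg.Agent.Lib.H1PermChar3
import Cfsg.Agent.Lib.PermOrb
import Mathlib

set_option autoImplicit false

/-! Groups of Wielandt type: the centraliser ring computation. -/

namespace Cfsg.Agent.Lib.H1WielandtM

open Cfsg MulAction Module Matrix
open scoped ComplexConjugate
open Cfsg.Agent.Lib.CharBasic Cfsg.Agent.Lib.CharOrth Cfsg.Agent.Lib.H1PermChar
open Cfsg.Agent.Lib.H1PermChar2 Cfsg.Agent.Lib.H1PermChar3
open Cfsg.Agent.Lib

universe u v

section matrices

variable {G : Type u} [Group G] [Fintype G] {Ω : Type v} [Fintype Ω] [DecidableEq Ω] [MulAction G Ω]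

theorem permMat_mulVec (g : G) (x : Ω → ℂ) : (permMat g : Matrix Ω Ω ℂ) *ᵥ x = permRep ℂ G Ω g x := by
  ext y
  simp only [mulVec, dotProduct, permMat]
  rw [Finset.sum_eq_single (g⁻¹ • y)]
  · simp only [smul_inv_smul, if_true, one_mul]
    rfl
  · intro b _ hb
    rw [if_neg, zero_mul]
    intro h
    exact hb (by rw [← h, inv_smul_smul])
  · intro h
    exact absurd (Finset.mem_univ _) h

/-- The matrix of the isotypic average. -/
noncomputable def M (Ω : Type v) [Fintype Ω] [DecidableEq Ω] [MulAction G Ω] (χ : G → ℂ) :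
    Matrix Ω Ω ℂ :=
  (Nat.card G : ℂ)⁻¹ • ∑ g : G, χ g⁻¹ • (permMat g : Matrix Ω Ω ℂ)

theorem M_mulVec (χ : G → ℂ) (x : Ω → ℂ) : M Ω χ *ᵥ x = E (permRep ℂ G Ω) χ x := by
  simp only [M, E, smul_mulVec, sum_mulVec, permMat_mulVec]

theorem mat_ext {X Y : Matrix Ω Ω ℂ} (h : ∀ x, X *ᵥ x = Y *ᵥ x) : X = Y := by
  ext a b
  have := congrFun (h (Pi.single b 1)) a
  simpa using this

theorem M_trace {χ : G → ℂ} (hχ : IsIrrCharacter G χ) :
    (M Ω χ).trace = classInner (fun g : G => (Nat.card (fixedBy Ω g) : ℂ)) χ := by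
  simp only [M, trace_smul, trace_sum, classInner, smul_eq_mul, trace_permMat]
  congr 1
  apply Finset.sum_congr rfl
  intro g _
  rw [IsIrrCharacter.map_inv hχ, mul_comm]

theorem M_eq_zero {χ : G → ℂ} (hχ : IsIrrCharacter G χ)
    (h0 : classInner (fun g : G => (Nat.card (fixedBy Ω g) : ℂ)) χ = 0) : M Ω χ = 0 := by
  obtain ⟨n, σ, hσ, rfl⟩ := hχ
  have h1 := inner_eq_finrank (Ω := Ω) σ
  rw [h0] at h1
  have h2 : finrank ℂ (Representation.IntertwiningMap σ (permRep ℂ G Ω)) = 0 := by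
    exact_mod_cast h1.symm
  apply mat_ext
  intro x
  rw [M_mulVec, E_eq_zero σ (permRep ℂ G Ω) h2 x]
  simp

/-- Commuting matrices act as scalars on a constituent of multiplicity one. -/
theorem scalar_M {χ : G → ℂ} (hχ : IsIrrCharacter G χ)
    (h1 : classInner (fun g : G => (Nat.card (fixedBy Ω g) : ℂ)) χ = 1) (X : Matrix Ω Ω ℂ)
    (hX : ∀ g : G, X * (permMat g : Matrix Ω Ω ℂ) = (permMat g : Matrix Ω Ω ℂ) * X) :
    ∃ c : ℂ, X * M Ω χ = c • M Ω χ := by
  obtain ⟨n, σ, hσ, rfl⟩ := hχ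
  have h2 := inner_eq_finrank (Ω := Ω) σ
  rw [h1] at h2
  have h3 : finrank ℂ (Representation.IntertwiningMap σ (permRep ℂ G Ω)) = 1 := by
    exact_mod_cast h2.symm
  obtain ⟨c, hc⟩ := scalar_on_E σ (permRep ℂ G Ω) h3.le X.mulVecLin (by
    intro g v
    simp only [mulVecLin_apply, ← permMat_mulVec, mulVec_mulVec, hX])
  refine ⟨c, mat_ext fun x => ?_⟩
  rw [← mulVec_mulVec, M_mulVec, smul_mulVec, M_mulVec]
  exact hc x

/-- `τ`: the trace against the isotypic average. -/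
noncomputable def tau (X : Matrix Ω Ω ℂ) (χ : G → ℂ) : ℂ := (X * M Ω χ).trace

theorem tau_add (X Y : Matrix Ω Ω ℂ) (χ : G → ℂ) : tau (X + Y) χ = tau X χ + tau Y χ := by
  simp only [tau, add_mul, trace_add]

theorem tau_smul (c : ℂ) (X : Matrix Ω Ω ℂ) (χ : G → ℂ) : tau (c • X) χ = c * tau X χ := by
  simp only [tau, smul_mul, trace_smul, smul_eq_mul]

theorem tau_one (χ : G → ℂ) : tau (1 : Matrix Ω Ω ℂ) χ = (M Ω χ).trace := by
  simp only [tau, one_mul]

theorem tau_of_scalar {χ : G → ℂ} (hχ : IsIrrCharacter G χ)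
    (h1 : classInner (fun g : G => (Nat.card (fixedBy Ω g) : ℂ)) χ = 1) {X : Matrix Ω Ω ℂ} {c : ℂ}
    (h : X * M Ω χ = c • M Ω χ) : tau X χ = c := by
  rw [tau, h, trace_smul, M_trace hχ, h1, smul_eq_mul, mul_one]

theorem mul_M_eq_tau {χ : G → ℂ} (hχ : IsIrrCharacter G χ)
    (h1 : classInner (fun g : G => (Nat.card (fixedBy Ω g) : ℂ)) χ = 1) (X : Matrix Ω Ω ℂ)
    (hX : ∀ g : G, X * (permMat g : Matrix Ω Ω ℂ) = (permMat g : Matrix Ω Ω ℂ) * X) :
    X * M Ω χ = tau X χ • M Ω χ := by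
  obtain ⟨c, hc⟩ := scalar_M hχ h1 X hX
  rw [tau_of_scalar hχ h1 hc]
  exact hc

theorem tau_mul {χ : G → ℂ} (hχ : IsIrrCharacter G χ)
    (h1 : classInner (fun g : G => (Nat.card (fixedBy Ω g) : ℂ)) χ = 1) (X Y : Matrix Ω Ω ℂ)
    (hX : ∀ g : G, X * (permMat g : Matrix Ω Ω ℂ) = (permMat g : Matrix Ω Ω ℂ) * X)
    (hY : ∀ g : G, Y * (permMat g : Matrix Ω Ω ℂ) = (permMat g : Matrix Ω Ω ℂ) * Y) :
    tau (X * Y) χ = tau X χ * tau Y χ := by
  apply tau_of_scalar hχ h1
  rw [Matrix.mul_assoc, mul_M_eq_tau hχ h1 Y hY, Matrix.mul_smul, mul_M_eq_tau hχ h1 X hX, smul_smul,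
    mul_comm]

theorem tau_sum_expand (X : Matrix Ω Ω ℂ) (χ : G → ℂ) :
    tau X χ = (Nat.card G : ℂ)⁻¹ * ∑ g : G, χ g⁻¹ * (X * (permMat g : Matrix Ω Ω ℂ)).trace := by
  simp only [tau, M, Matrix.mul_smul, Matrix.mul_sum, trace_smul, trace_sum, smul_eq_mul]

/-- The trace formula. -/
theorem trace_eq_sum_tau (X : Matrix Ω Ω ℂ) :
    X.trace = ∑ ψ : IrrCharacter G, (ψ : G → ℂ) 1 * tau X (ψ : G → ℂ) := by
  classical
  have hcard := card_ne_zero' (G := G)
  simp only [tau_sum_expand, Finset.mul_sum]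
  rw [Finset.sum_comm]
  have h1 : ∀ g : G, ∑ ψ : IrrCharacter G, (ψ : G → ℂ) 1 * ((Nat.card G : ℂ)⁻¹ *
      ((ψ : G → ℂ) g⁻¹ * (X * (permMat g : Matrix Ω Ω ℂ)).trace)) =
      (Nat.card G : ℂ)⁻¹ * (X * (permMat g : Matrix Ω Ω ℂ)).trace *
        ∑ ψ : IrrCharacter G, (ψ : G → ℂ) 1 * (ψ : G → ℂ) g⁻¹ := by
    intro g
    rw [Finset.mul_sum]
    apply Finset.sum_congr rfl
    intro ψ _
    ring
  simp only [h1, CharLin.sum_degree_mul]
  rw [Finset.sum_eq_single 1]
  · simp only [inv_one, if_true, permMat_one, Matrix.mul_one]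
    field_simp
  · intro g _ hg
    rw [if_neg (inv_eq_one.not.mpr hg), mul_zero]
  · intro h
    exact absurd (Finset.mem_univ _) h

end matrices

section orbitals

variable {G : Type u} [Group G] [Fintype G] {Ω : Type v} [Fintype Ω] [DecidableEq Ω] [MulAction G Ω]

theorem adj_smul (a b x y : Ω) (g : G) : adj G a b (g • x) (g • y) = adj G a b x y := by
  classical
  rw [adj_apply, adj_apply]
  simp only [rel_smul]

theorem adj_sq_smul (a b x y : Ω) (g : G) :
    (adj G a b * adj G a b) (g • x) (g • y) = (adj G a b * adj G a b) x y := by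
  simp only [Matrix.mul_apply]
  rw [← Equiv.sum_comp (MulAction.toPerm g)]
  apply Finset.sum_congr rfl
  intro z _
  simp only [MulAction.toPerm_apply, adj_smul]

theorem not_rel_self {a b : Ω} (hb : b ≠ a) (x : Ω) : ¬ Rel G a b x x := by
  rintro ⟨g, h1, h2⟩
  exact hb (smul_left_cancel g (h2.trans h1.symm))

theorem rel_self_iff (a b y : Ω) : Rel G a b a y ↔ y ∈ orbit (stabilizer G a) b := by
  constructor
  · rintro ⟨g, h1, h2⟩
    exact ⟨⟨g, h1⟩, h2⟩
  · rintro ⟨⟨g, h1⟩, h2⟩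
    exact ⟨g, h1, h2⟩

theorem sum_adj_row (a b : Ω) : ∑ y, adj G a b a y = Nat.card (orbit (stabilizer G a) b) := by
  classical
  simp only [adj_apply, rel_self_iff]
  rw [Finset.sum_boole, Nat.card_eq_fintype_card, Fintype.card_subtype]

variable {a₀ b₁ b₂ : Ω}

theorem rel_classify [IsPretransitive G Ω]
    (hcover : ∀ b, b ≠ a₀ → b ∈ orbit (stabilizer G a₀) b₁ ∨ b ∈ orbit (stabilizer G a₀) b₂)
    (x y : Ω) : x = y ∨ Rel G a₀ b₁ x y ∨ Rel G a₀ b₂ x y := by
  obtain ⟨g, rfl⟩ := exists_smul_eq G a₀ x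
  by_cases h : g⁻¹ • y = a₀
  · left
    rw [← h, smul_inv_smul]
  · right
    rcases hcover _ h with ⟨⟨k, hk⟩, hk2⟩ | ⟨⟨k, hk⟩, hk2⟩
    · left
      refine ⟨g * k, ?_, ?_⟩
      · rw [mul_smul, hk]
      · rw [mul_smul]
        have : k • b₁ = g⁻¹ • y := hk2
        rw [this, smul_inv_smul]
    · right
      refine ⟨g * k, ?_, ?_⟩
      · rw [mul_smul, hk]
      · rw [mul_smul]
        have : k • b₂ = g⁻¹ • y := hk2
        rw [this, smul_inv_smul]

theorem rel_excl (hdist : b₂ ∉ orbit (stabilizer G a₀) b₁) (x y : Ω) :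
    ¬ (Rel G a₀ b₁ x y ∧ Rel G a₀ b₂ x y) := by
  rintro ⟨⟨g, h1, h2⟩, ⟨g', h3, h4⟩⟩
  apply hdist
  refine ⟨⟨g'⁻¹ * g, ?_⟩, ?_⟩
  · change (g'⁻¹ * g) • a₀ = a₀
    rw [mul_smul, h1, ← h3, inv_smul_smul]
  · change (g'⁻¹ * g) • b₁ = b₂
    rw [mul_smul, h2, ← h4, inv_smul_smul]

/-- `I + A + B = J`, entrywise. -/
theorem one_add_entry [IsPretransitive G Ω] (hb1 : b₁ ≠ a₀) (hb2 : b₂ ≠ a₀)
    (hdist : b₂ ∉ orbit (stabilizer G a₀) b₁)
    (hcover : ∀ b, b ≠ a₀ → b ∈ orbit (stabilizer G a₀) b₁ ∨ b ∈ orbit (stabilizer G a₀) b₂)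
    (x y : Ω) : (1 + adj G a₀ b₁ + adj G a₀ b₂ : Matrix Ω Ω ℂ) x y = 1 := by
  classical
  simp only [Matrix.add_apply, adj_apply]
  rcases rel_classify hcover x y with rfl | h | h
  · rw [if_neg (not_rel_self hb1 x), if_neg (not_rel_self hb2 x)]
    simp
  · have hne : x ≠ y := by
      rintro rfl
      exact not_rel_self hb1 x h
    rw [if_pos h, if_neg (fun h' => rel_excl hdist x y ⟨h, h'⟩), Matrix.one_apply_ne hne]
    simp
  · have hne : x ≠ y := by
      rintro rfl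
      exact not_rel_self hb2 x h
    rw [if_pos h, if_neg (fun h' => rel_excl hdist x y ⟨h', h⟩), Matrix.one_apply_ne hne]
    simp

/-- The quadratic relation. -/
theorem sq_formula [IsPretransitive G Ω] (hb1 : b₁ ≠ a₀) (hb2 : b₂ ≠ a₀)
    (hdist : b₂ ∉ orbit (stabilizer G a₀) b₁)
    (hcover : ∀ b, b ≠ a₀ → b ∈ orbit (stabilizer G a₀) b₁ ∨ b ∈ orbit (stabilizer G a₀) b₂) :
    adj G a₀ b₁ * adj G a₀ b₁ = ((adj G a₀ b₁ * adj G a₀ b₁) a₀ a₀) • (1 : Matrix Ω Ω ℂ)
      + ((adj G a₀ b₁ * adj G a₀ b₁) a₀ b₁) • adj G a₀ b₁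
      + ((adj G a₀ b₁ * adj G a₀ b₁) a₀ b₂) • adj G a₀ b₂ := by
  classical
  ext x y
  simp only [Matrix.add_apply, Matrix.smul_apply, smul_eq_mul]
  rcases rel_classify hcover x y with rfl | h | h
  · obtain ⟨g, rfl⟩ := exists_smul_eq G a₀ x
    rw [adj_sq_smul, adj_apply a₀ b₁, adj_apply a₀ b₂, if_neg (not_rel_self hb1 _),
      if_neg (not_rel_self hb2 _)]
    simp
  · have hne : x ≠ y := by
      rintro rfl
      exact not_rel_self hb1 x h
    have h1 := rel_excl (G := G) hdist x y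
    have h2 : ¬ Rel G a₀ b₂ x y := fun h' => h1 ⟨h, h'⟩
    rw [adj_apply a₀ b₁ x y, adj_apply a₀ b₂ x y, if_pos h, if_neg h2, Matrix.one_apply_ne hne]
    obtain ⟨g, rfl, rfl⟩ := h
    rw [adj_sq_smul]
    simp
  · have hne : x ≠ y := by
      rintro rfl
      exact not_rel_self hb2 x h
    have h1 := rel_excl (G := G) hdist x y
    have h2 : ¬ Rel G a₀ b₁ x y := fun h' => h1 ⟨h', h⟩
    rw [adj_apply a₀ b₁ x y, adj_apply a₀ b₂ x y, if_pos h, if_neg h2, Matrix.one_apply_ne hne]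
    obtain ⟨g, rfl, rfl⟩ := h
    rw [adj_sq_smul]
    simp

/-- The diagonal entry of the square of a symmetric orbital. -/
theorem sq_diag (a b : Ω) (hsym : ∃ g : G, g • a = b ∧ g • b = a) :
    (adj G a b * adj G a b) a a = Nat.card (orbit (stabilizer G a) b) := by
  classical
  rw [Matrix.mul_apply, ← sum_adj_row]
  apply Finset.sum_congr rfl
  intro z _
  obtain ⟨g₀, h1, h2⟩ := hsym
  have hs : Rel G a b z a ↔ Rel G a b a z := by
    constructor
    · rintro ⟨g, h3, h4⟩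
      refine ⟨g * g₀, ?_, ?_⟩
      · rw [mul_smul, h1, h4]
      · rw [mul_smul, h2, h3]
    · rintro ⟨g, h3, h4⟩
      refine ⟨g * g₀, ?_, ?_⟩
      · rw [mul_smul, h1, h4]
      · rw [mul_smul, h2, h3]
  rw [adj_apply a b z a, adj_apply a b a z]
  by_cases h : Rel G a b a z
  · rw [if_pos h, if_pos (hs.mpr h), mul_one]
  · rw [if_neg h, zero_mul]

theorem int_entry (a b x y : Ω) : ∃ k : ℤ, (adj G a b * adj G a b) x y = k := by
  refine ⟨(adjZ G a b * adjZ G a b) x y, ?_⟩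
  have : adj G a b * adj G a b = (adjZ G a b * adjZ G a b).map (Int.castRingHom ℂ) := by
    rw [Matrix.map_mul]
    rfl
  rw [this]
  rfl

theorem card_orbit_smul (a b : Ω) (g : G) :
    Nat.card (orbit (stabilizer G (g • a)) (g • b)) = Nat.card (orbit (stabilizer G a) b) := by
  classical
  refine Nat.card_congr (Equiv.ofBijective
    (fun y : orbit (stabilizer G a) b => (⟨g • (y : Ω), by
      obtain ⟨⟨k, hk⟩, hk2⟩ := y.2
      refine ⟨⟨g * k * g⁻¹, ?_⟩, ?_⟩
      · change (g * k * g⁻¹) • g • a = g • a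
        rw [mul_smul, mul_smul, inv_smul_smul]
        have : k • a = a := hk
        rw [this]
      · change (g * k * g⁻¹) • g • b = g • (y : Ω)
        rw [mul_smul, mul_smul, inv_smul_smul]
        have : k • b = y := hk2
        rw [this]⟩ : orbit (stabilizer G (g • a)) (g • b))) ⟨?_, ?_⟩).symm
  · intro x y h
    exact Subtype.ext (smul_left_cancel g (congrArg Subtype.val h))
  · rintro ⟨y, ⟨⟨k, hk⟩, hk2⟩⟩
    refine ⟨⟨g⁻¹ • y, ⟨⟨g⁻¹ * k * g, ?_⟩, ?_⟩⟩, Subtype.ext ?_⟩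
    · change (g⁻¹ * k * g) • a = a
      have h3 : k • g • a = g • a := hk
      rw [mul_smul, mul_smul, h3, inv_smul_smul]
    · change (g⁻¹ * k * g) • b = g⁻¹ • y
      have h3 : k • g • b = y := hk2
      rw [mul_smul, mul_smul, h3]
    · exact smul_inv_smul g y

theorem card_orbit_swap [IsPretransitive G Ω] (a b : Ω) :
    Nat.card (orbit (stabilizer G a) b) = Nat.card (orbit (stabilizer G b) a) := by
  classical
  have h1 := Cfsg.Agent.Lib.PermOrb.card_orbit_mul_stab (G := stabilizer G a) b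
  have h2 := Cfsg.Agent.Lib.PermOrb.card_orbit_mul_stab (G := stabilizer G b) a
  have h3 : Nat.card (stabilizer (stabilizer G a) b) = Nat.card (stabilizer (stabilizer G b) a) :=
    Nat.card_congr
      { toFun := fun x => ⟨⟨x.1.1, x.2⟩, x.1.2⟩
        invFun := fun x => ⟨⟨x.1.1, x.2⟩, x.1.2⟩
        left_inv := fun _ => rfl
        right_inv := fun _ => rfl }
  have h4 : Nat.card (stabilizer G a) = Nat.card (stabilizer G b) := by
    have h5 := card_stab_mul (G := G) a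
    have h6 := card_stab_mul (G := G) b
    have h7 : 0 < Fintype.card Ω := Fintype.card_pos_iff.mpr ⟨a⟩
    exact Nat.eq_of_mul_eq_mul_right h7 (h5.trans h6.symm)
  rw [h3, h4] at h1
  have h8 : 0 < Nat.card (stabilizer (stabilizer G b) a) := Nat.card_pos
  exact Nat.eq_of_mul_eq_mul_right h8 (h1.trans h2.symm)

/-- An orbital with subdegree differing from the other one is self-paired. -/
theorem exists_swap [IsPretransitive G Ω] {b c : Ω} (hb : b ≠ a₀)
    (hcover : ∀ d, d ≠ a₀ → d ∈ orbit (stabilizer G a₀) b ∨ d ∈ orbit (stabilizer G a₀) c)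
    (hne : Nat.card (orbit (stabilizer G a₀) b) ≠ Nat.card (orbit (stabilizer G a₀) c)) :
    ∃ g : G, g • a₀ = b ∧ g • b = a₀ := by
  obtain ⟨h, hh⟩ := exists_smul_eq G b a₀
  have hc : h • a₀ ≠ a₀ := by
    intro e
    apply hb
    exact smul_left_cancel h (hh.trans e.symm)
  have hcard : Nat.card (orbit (stabilizer G a₀) (h • a₀)) = Nat.card (orbit (stabilizer G a₀) b) := by
    have h1 := card_orbit_smul (G := G) b a₀ h
    rw [hh] at h1
    rw [h1]
    exact (card_orbit_swap (G := G) a₀ b).symm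
  rcases hcover _ hc with hk | hk
  · obtain ⟨⟨k, hk1⟩, hk2⟩ := hk
    refine ⟨k⁻¹ * h, ?_, ?_⟩
    · rw [mul_smul, inv_smul_eq_iff]
      exact hk2.symm
    · rw [mul_smul, hh, inv_smul_eq_iff]
      exact hk1.symm
  · exfalso
    apply hne
    rw [← hcard, orbit_eq_iff.mpr hk]

end orbitals

section arithmetic

theorem pos_u {m n r s u : ℤ} (hm : 2 ≤ m) (hn : 2 ≤ n) (h1 : r = n - m * u) (h2 : s = -u - r)
    (h3 : n ^ 2 + (m - 1) * r ^ 2 + m * s ^ 2 = 2 * m * n) : 1 ≤ u := by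
  by_contra h
  push Not at h
  have hu : u ≤ 0 := by omega
  rcases eq_or_lt_of_le hu with rfl | hlt
  · have hr : r = n := by simpa using h1
    have hs : s = -n := by rw [h2, hr]; ring
    rw [hr, hs] at h3
    have h4 : 2 * m * n * (n - 1) = 0 := by linear_combination h3
    have h5 : 2 * m * n ≠ 0 := by positivity
    have h6 : n - 1 = 0 := by
      rcases mul_eq_zero.mp h4 with h7 | h7
      · exact absurd h7 h5
      · exact h7
    omega
  · have hu1 : u ≤ -1 := by omega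
    have hr : n + m ≤ r := by
      rw [h1]
      nlinarith
    have h4 : (n + m) ^ 2 ≤ r ^ 2 := by
      have : 0 ≤ n + m := by omega
      exact pow_le_pow_left₀ this hr 2
    have h5 : 4 * m * n ≤ (n + m) ^ 2 := by nlinarith [sq_nonneg (n - m)]
    have h6 : r ^ 2 ≤ (m - 1) * r ^ 2 := by
      have : 0 ≤ r ^ 2 := sq_nonneg r
      nlinarith
    have h7 : 0 ≤ m * s ^ 2 := by positivity
    have h8 : 0 ≤ n ^ 2 := sq_nonneg n
    have h9 : 0 < m * n := by positivity
    nlinarith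

theorem final_arith {m n₁ n₂ : ℕ} (hm : 2 ≤ m) (h1 : 2 ≤ n₁) (h2 : 2 ≤ n₂) (hs : n₁ + n₂ + 1 = 2 * m)
    {u : ℤ}
    (hE : (n₁ : ℤ) ^ 2 + ((m : ℤ) - 1) * ((n₁ : ℤ) - m * u) ^ 2 + m * (-u - ((n₁ : ℤ) - m * u)) ^ 2
      = 2 * m * n₁) :
    ∃ a : ℕ, 0 < a ∧ m = 2 * a ^ 2 + 2 * a + 1 ∧
      ((n₁ = a * (2 * a + 1) ∧ n₂ = (a + 1) * (2 * a + 1)) ∨
        (n₁ = (a + 1) * (2 * a + 1) ∧ n₂ = a * (2 * a + 1))) := by
  have hn₂ : (n₂ : ℤ) = 2 * m - 1 - n₁ := by omega
  have hu1 : 1 ≤ u := pos_u (m := m) (n := n₁) (by exact_mod_cast hm) (by exact_mod_cast h1) rfl rfl hE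
  have hu2 : 1 ≤ 2 - u := pos_u (m := m) (n := n₂) (r := n₂ - m * (2 - u))
    (s := -(2 - u) - (n₂ - m * (2 - u))) (by exact_mod_cast hm) (by exact_mod_cast h2) rfl rfl (by
      rw [hn₂]
      linear_combination hE)
  have hu : u = 1 := by omega
  subst hu
  have hmZ : (m : ℤ) ≠ 0 := by
    have : 0 < m := by omega
    positivity
  have hsq : (2 * (n₁ : ℤ) - 2 * m + 1) ^ 2 = 2 * m - 1 := by
    have h3 : (m : ℤ) * ((2 * (n₁ : ℤ) - 2 * m + 1) ^ 2 - (2 * m - 1)) = 0 := by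
      linear_combination 2 * hE
    rcases mul_eq_zero.mp h3 with h4 | h4
    · exact absurd h4 hmZ
    · linarith
  set t := (2 * (n₁ : ℤ) - 2 * m + 1).natAbs with ht
  have ht2 : (t : ℤ) ^ 2 = 2 * m - 1 := by
    rw [← hsq, ht, Int.natAbs_sq]
  rcases Nat.even_or_odd' t with ⟨k, hk | hk⟩
  · exfalso
    rw [hk] at ht2
    push_cast at ht2
    have h5 : 2 * (2 * (k : ℤ) ^ 2) + 1 = 2 * m := by linarith
    omega
  · rw [hk] at ht2
    push_cast at ht2
    have hm2 : (m : ℤ) = 2 * (k : ℤ) ^ 2 + 2 * k + 1 := by linarith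
    have hm3 : m = 2 * k ^ 2 + 2 * k + 1 := by exact_mod_cast hm2
    have hkpos : 0 < k := by
      rcases Nat.eq_zero_or_pos k with rfl | h
      · simp at hm3
        omega
      · exact h
    refine ⟨k, hkpos, hm3, ?_⟩
    have habs := Int.natAbs_eq (2 * (n₁ : ℤ) - 2 * m + 1)
    rw [← ht, hk] at habs
    push_cast at habs
    rcases habs with habs | habs
    · right
      have e1 : (n₁ : ℤ) = (k + 1) * (2 * k + 1) := by
        have : 2 * (n₁ : ℤ) = 2 * ((k + 1) * (2 * k + 1)) := by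
          rw [hm2] at habs
          linarith
        linarith
      have e2 : (n₂ : ℤ) = k * (2 * k + 1) := by
        rw [hn₂, e1, hm2]
        ring
      exact ⟨by exact_mod_cast e1, by exact_mod_cast e2⟩
    · left
      have e1 : (n₁ : ℤ) = k * (2 * k + 1) := by
        have : 2 * (n₁ : ℤ) = 2 * (k * (2 * k + 1)) := by
          rw [hm2] at habs
          linarith
        linarith
      have e2 : (n₂ : ℤ) = (k + 1) * (2 * k + 1) := by
        rw [hn₂, e1, hm2]
        ring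
      exact ⟨by exact_mod_cast e1, by exact_mod_cast e2⟩

end arithmetic

section main

variable {G : Type u} [Group G] [Fintype G] {Ω : Type v} [Fintype Ω] [MulAction G Ω]

theorem not_one_subdegree (hprim : IsPreprimitive G Ω) {a b c : Ω} (hb : b ≠ a) (hc1 : c ≠ a)
    (hc2 : c ≠ b) (hswap : ∃ g : G, g • a = b ∧ g • b = a) :
    Nat.card (orbit (stabilizer G a) b) ≠ 1 := by
  intro h1
  obtain ⟨g₀, hg1, hg2⟩ := hswap
  have hfix : ∀ k : G, k • a = a → k • b = b := by
    intro k hk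
    have hm : k • b ∈ orbit (stabilizer G a) b := ⟨⟨k, hk⟩, rfl⟩
    have hm0 : b ∈ orbit (stabilizer G a) b := mem_orbit_self b
    rw [Nat.card_eq_one_iff_unique] at h1
    obtain ⟨hs, -⟩ := h1
    exact congrArg Subtype.val (Subsingleton.elim (⟨k • b, hm⟩ : orbit (stabilizer G a) b) ⟨b, hm0⟩)
  have hfix2 : ∀ k : G, k • b = b → k • a = a := by
    intro k hk
    have h3 : (g₀⁻¹ * k * g₀) • a = a := by
      rw [mul_smul, mul_smul, hg1, hk, ← hg1, inv_smul_smul]
    have h2 := hfix _ h3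
    rw [mul_smul, mul_smul, hg2, inv_smul_eq_iff, hg2] at h2
    exact h2
  have hblock : IsBlock G ({a, b} : Set Ω) := by
    rw [isBlock_iff_smul_eq_or_disjoint]
    intro g
    by_cases h : g • a = a ∨ g • a = b ∨ g • b = a ∨ g • b = b
    · left
      have hcases : (g • a = a ∧ g • b = b) ∨ (g • a = b ∧ g • b = a) := by
        rcases h with h | h | h | h
        · exact Or.inl ⟨h, hfix g h⟩
        · right
          refine ⟨h, ?_⟩
          have h3 : (g₀⁻¹ * g) • a = a := by rw [mul_smul, h, inv_smul_eq_iff, hg1]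
          have h4 := hfix _ h3
          rw [mul_smul, inv_smul_eq_iff, hg2] at h4
          exact h4
        · right
          refine ⟨?_, h⟩
          have h3 : (g₀ * g) • b = b := by rw [mul_smul, h, hg1]
          have h4 := hfix2 _ h3
          rw [mul_smul] at h4
          exact smul_left_cancel g₀ (h4.trans hg2.symm)
        · exact Or.inl ⟨hfix2 g h, h⟩
      rw [Set.smul_set_insert, Set.smul_set_singleton]
      rcases hcases with ⟨h1, h2⟩ | ⟨h1, h2⟩
      · rw [h1, h2]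
      · rw [h1, h2, Set.pair_comm]
    · right
      push Not at h
      obtain ⟨h1, h2, h3, h4⟩ := h
      rw [Set.smul_set_insert, Set.smul_set_singleton, Set.disjoint_left]
      intro x hx hx'
      rcases hx with rfl | hx
      · rcases hx' with e | e
        · exact h1 e
        · exact h2 e
      · rw [Set.mem_singleton_iff] at hx
        subst hx
        rcases hx' with e | e
        · exact h3 e
        · exact h4 e
  rcases hprim.isTrivialBlock_of_isBlock hblock with h | h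
  · exact hb (h (Set.mem_insert_of_mem _ rfl) (Set.mem_insert _ _))
  · have hc : c ∈ ({a, b} : Set Ω) := by rw [h]; trivial
    rcases hc with h5 | h5
    · exact hc1 h5
    · exact hc2 h5

theorem quotient_data (a₀ : Ω)
    (hrank : Nat.card (orbitRel.Quotient (stabilizer G a₀) Ω) = 3) :
    ∃ b₁ b₂ : Ω, b₁ ≠ a₀ ∧ b₂ ≠ a₀ ∧ b₂ ∉ orbit (stabilizer G a₀) b₁ ∧
      ∀ b, b ≠ a₀ → b ∈ orbit (stabilizer G a₀) b₁ ∨ b ∈ orbit (stabilizer G a₀) b₂ := by
  classical
  have hcard : ((Finset.univ : Finset (orbitRel.Quotient (stabilizer G a₀) Ω)).erase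
      (Quotient.mk'' a₀)).card = 2 := by
    rw [Finset.card_erase_of_mem (Finset.mem_univ _), Finset.card_univ, ← Nat.card_eq_fintype_card,
      hrank]
  obtain ⟨q₁, q₂, hq, he⟩ := Finset.card_eq_two.mp hcard
  have hm1 : q₁ ∈ (Finset.univ : Finset (orbitRel.Quotient (stabilizer G a₀) Ω)).erase
      (Quotient.mk'' a₀) := by rw [he]; simp
  have hm2 : q₂ ∈ (Finset.univ : Finset (orbitRel.Quotient (stabilizer G a₀) Ω)).erase
      (Quotient.mk'' a₀) := by rw [he]; simp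
  refine ⟨q₁.out, q₂.out, out_ne a₀ q₁ (Finset.mem_erase.mp hm1).1, out_ne a₀ q₂ (Finset.mem_erase.mp hm2).1,
    ?_, ?_⟩
  · intro h
    apply hq
    have h1 : (Quotient.mk'' q₂.out : orbitRel.Quotient (stabilizer G a₀) Ω) = Quotient.mk'' q₁.out :=
      Quotient.sound' h
    rw [Quotient.out_eq', Quotient.out_eq'] at h1
    exact h1.symm
  · intro b hb
    have hne : (Quotient.mk'' b : orbitRel.Quotient (stabilizer G a₀) Ω) ≠ Quotient.mk'' a₀ := by
      intro e
      have h1 : b ∈ orbit (stabilizer G a₀) a₀ := Quotient.exact' e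
      obtain ⟨s, hs⟩ := h1
      apply hb
      rw [← hs]
      exact s.2
    have hmem : (Quotient.mk'' b : orbitRel.Quotient (stabilizer G a₀) Ω) ∈
        (Finset.univ : Finset (orbitRel.Quotient (stabilizer G a₀) Ω)).erase (Quotient.mk'' a₀) :=
      Finset.mem_erase.mpr ⟨hne, Finset.mem_univ _⟩
    rw [he, Finset.mem_insert, Finset.mem_singleton] at hmem
    rcases hmem with h | h
    · left
      have h1 : (Quotient.mk'' b : orbitRel.Quotient (stabilizer G a₀) Ω) = Quotient.mk'' q₁.out := by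
        rw [h, Quotient.out_eq']
      exact Quotient.exact' h1
    · right
      have h1 : (Quotient.mk'' b : orbitRel.Quotient (stabilizer G a₀) Ω) = Quotient.mk'' q₂.out := by
        rw [h, Quotient.out_eq']
      exact Quotient.exact' h1

end main

end Cfsg.Agent.Lib.H1WielandtM
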