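import Mathlib
import Cfsg.Agent.Lib.CharExt
import Cfsg.Agent.Lib.H3Lin2

set_option autoImplicit false
set_option linter.unusedSectionVars false

/-! Fully ramified characters over Frobenius quotients. -/

namespace Cfsg.Agent.Lib.H3Ram

open Cfsg Module
open scoped ComplexConjugate Pointwise
open Cfsg.Agent.Lib.CharBasic Cfsg.Agent.Lib.CharOrth Cfsg.Agent.Lib.CharAlg
open Cfsg.Agent.Lib.CharLin Cfsg.Agent.Lib.CharInd

universe u

theorem num (u e : ℕ) (hu : 2 ≤ u) (a : ℕ → ℕ) (h1 : ∑ i ∈ Finset.range u, a i = e)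
    (h2 : (u : ℤ) * ∑ i ∈ Finset.range u, (a i : ℤ) ^ 2 ≤ (e : ℤ) ^ 2 + u - 1)
    (h3 : (u : ℤ) ∣ (e : ℤ) ^ 2 - 1) : (u : ℤ) ∣ (e : ℤ) - 1 ∨ (u : ℤ) ∣ (e : ℤ) + 1 := by
  have hu0 : (0 : ℤ) < u := by exact_mod_cast (by omega : 0 < u)
  have hu2 : (2 : ℤ) ≤ u := by exact_mod_cast hu
  set q := (e : ℤ) / u with hq
  set s := (e : ℤ) % u with hs
  have hs0 : 0 ≤ s := Int.emod_nonneg _ hu0.ne'
  have hs1 : s < u := Int.emod_lt_of_pos _ hu0
  have he : (e : ℤ) = u * q + s := (Int.mul_ediv_add_emod _ _).symm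
  have hk : 0 ≤ ∑ i ∈ Finset.range u, ((a i : ℤ) - q) * ((a i : ℤ) - q - 1) := by
    refine Finset.sum_nonneg fun i _ => ?_
    rcases le_or_gt ((a i : ℤ) - q) 0 with h | h
    · nlinarith
    · nlinarith
  have he2 : ∑ i ∈ Finset.range u, ((a i : ℤ) - q) * ((a i : ℤ) - q - 1) =
      ∑ i ∈ Finset.range u, (a i : ℤ) ^ 2 - (2 * q + 1) * e + u * (q * (q + 1)) := by
    have h4 : (e : ℤ) = ∑ i ∈ Finset.range u, (a i : ℤ) := by rw [← h1]; push_cast; rfl
    rw [h4, Finset.mul_sum, ← Finset.sum_sub_distrib]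
    have h5 : (u : ℤ) * (q * (q + 1)) = ∑ _i ∈ Finset.range u, (q * (q + 1)) := by simp
    rw [h5, ← Finset.sum_add_distrib]
    refine Finset.sum_congr rfl fun i _ => ?_
    ring
  have h6 : (u : ℤ) * s ≤ s ^ 2 + u - 1 := by
    have h7 : 0 ≤ (u : ℤ) * (∑ i ∈ Finset.range u, (a i : ℤ) ^ 2 - (2 * q + 1) * e + u * (q * (q + 1))) := by
      rw [← he2]; positivity
    have h8 : (u : ℤ) * (∑ i ∈ Finset.range u, (a i : ℤ) ^ 2 - (2 * q + 1) * e + u * (q * (q + 1))) =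
        (u : ℤ) * ∑ i ∈ Finset.range u, (a i : ℤ) ^ 2 - (u * (2 * q + 1) * (u * q + s) - u ^ 2 * (q * (q + 1))) := by
      rw [he]; ring
    rw [h8] at h7
    have h9 : ((e : ℤ) ^ 2 + u - 1) = (u * q + s) ^ 2 + u - 1 := by rw [← he]
    rw [h9] at h2
    nlinarith
  have hs2 : s ≠ 0 := by
    intro h0
    have h10 : (u : ℤ) ∣ (e : ℤ) := ⟨q, by rw [he, h0]; ring⟩
    have h11 : (u : ℤ) ∣ (e : ℤ) ^ 2 := dvd_pow h10 two_ne_zero
    have h12 : (u : ℤ) ∣ 1 := by
      have := dvd_sub h11 h3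
      simpa using this
    have := Int.le_of_dvd one_pos h12
    omega
  have hs3 : 1 ≤ s := by omega
  have hs4 : s = 1 ∨ s = u - 1 := by
    by_contra hcon
    push Not at hcon
    have h13 : 2 ≤ s := by
      have := hcon.1
      omega
    have h14 : s ≤ u - 2 := by
      have := hcon.2
      omega
    nlinarith
  rcases hs4 with h | h
  · left
    exact ⟨q, by rw [he, h]; ring⟩
  · right
    exact ⟨q + 1, by rw [he, h]; ring⟩

section H

variable {H : Type u} [Group H] [Fintype H]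

open Classical in
theorem sum_sub_c (A : Subgroup H) [Fintype A] (f : H → ℂ) :
    ∑ x : A, f x = ∑ w, if w ∈ A then f w else 0 := by
  rw [← Finset.sum_filter]
  exact (Finset.sum_subtype _ (by simp) f).symm

set_option maxHeartbeats 4000000 in
open Classical in
/-- The twisted inner products add up to the inner product over the kernel. -/
theorem formulaA (N₀ : Subgroup H) [Fintype N₀] (ν : H →* ℂˣ) (u : ℕ) (hu : 0 < u)
    (hker : ∀ h, ν h = 1 ↔ h ∈ N₀) (hνu : ∀ h, ν h ^ u = 1) (hcard : Nat.card H = u * Nat.card N₀)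
    (θ φ : H → ℂ) :
    ∑ i ∈ Finset.range u, classInner φ (fun h => θ h * (ν h : ℂ) ^ i) =
      classInner (fun n : N₀ => φ n) (fun n : N₀ => θ n) := by
  have hN0 : (Nat.card N₀ : ℂ) ≠ 0 := by exact_mod_cast Nat.card_pos.ne'
  have hu0 : (u : ℂ) ≠ 0 := by exact_mod_cast hu.ne'
  have hgeo : ∀ h : H, ∑ i ∈ Finset.range u, conj ((ν h : ℂ) ^ i) = if h ∈ N₀ then (u : ℂ) else 0 := by
    intro h
    by_cases hh : h ∈ N₀
    · rw [if_pos hh, (hker h).mpr hh]
      simp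
    · rw [if_neg hh]
      have h1 : conj (ν h : ℂ) ≠ 1 := by
        intro h2
        have h3 : (ν h : ℂ) = 1 := by
          have := congrArg conj h2
          simpa using this
        exact hh ((hker h).mp (Units.ext h3))
      have h2 : conj (ν h : ℂ) ^ u = 1 := by
        rw [← map_pow, ← Units.val_pow_eq_pow_val, hνu]
        simp
      simp_rw [map_pow]
      rw [geom_sum_eq h1, h2]
      simp
  unfold classInner
  rw [← Finset.mul_sum, Finset.sum_comm]
  have h3 : ∀ h : H, ∑ i ∈ Finset.range u, φ h * conj (θ h * (ν h : ℂ) ^ i) =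
      if h ∈ N₀ then (u : ℂ) * (φ h * conj (θ h)) else 0 := by
    intro h
    have h4 : ∀ i ∈ Finset.range u, φ h * conj (θ h * (ν h : ℂ) ^ i) =
        φ h * conj (θ h) * conj ((ν h : ℂ) ^ i) := by
      intro i _
      rw [map_mul]
      ring
    rw [Finset.sum_congr rfl h4, ← Finset.mul_sum, hgeo]
    split_ifs <;> ring
  simp_rw [h3]
  rw [← sum_sub_c N₀ (fun w => (u : ℂ) * (φ w * conj (θ w))), ← Finset.mul_sum, hcard]
  push_cast
  field_simp

theorem norm_nu (ν : H →* ℂˣ) (u : ℕ) (hu : 0 < u) (hνu : ∀ h, ν h ^ u = 1) (h : H) : ‖(ν h : ℂ)‖ = 1 := by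
  have h1 : (ν h : ℂ) ^ u = 1 := by
    rw [← Units.val_pow_eq_pow_val, hνu]
    rfl
  exact Complex.norm_eq_one_of_pow_eq_one h1 hu.ne'

set_option maxHeartbeats 4000000 in
open Classical in
theorem stepH (N₀ : Subgroup H) [Fintype N₀] (ν : H →* ℂˣ) (u : ℕ) (hu : 0 < u)
    (hker : ∀ h, ν h = 1 ↔ h ∈ N₀) (hνu : ∀ h, ν h ^ u = 1) (hcard : Nat.card H = u * Nat.card N₀)
    {θ ψ : H → ℂ} (hθ : IsIrrCharacter H θ) (hθ0 : IsIrrCharacter N₀ (fun n : N₀ => θ n))
    (hψ : IsCharacter H ψ) (e : ℕ) (hres : ∀ n : N₀, ψ n = e * θ n) :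
    ∃ a : ℕ → ℕ, ∑ i ∈ Finset.range u, a i = e ∧
      ∀ b : ℕ, classInner ψ ψ = b → ∑ i ∈ Finset.range u, a i ^ 2 ≤ b := by
  have hconj1 : ∀ h i, (ν h : ℂ) ^ i * conj ((ν h : ℂ) ^ i) = 1 := by
    intro h i
    rw [Complex.mul_conj', norm_pow, norm_nu ν u hu hνu h]
    simp
  let τ : ℕ → H → ℂ := fun i h => θ h * (ν h : ℂ) ^ i
  have hτchar : ∀ i, IsCharacter H (τ i) := by
    intro i
    have h1 : IsCharacter H (fun h => (ν h : ℂ) ^ i) := by
      have := IsIrrCharacter.isCharacter (isIrrCharacter_of_hom (ν ^ i))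
      convert this using 2 with h
      simp
    exact IsCharacter.mul (IsIrrCharacter.isCharacter hθ) h1
  have hτnorm : ∀ i, classInner (τ i) (τ i) = 1 := by
    intro i
    rw [← classInner_irr_self hθ]
    unfold classInner
    congr 1
    refine Finset.sum_congr rfl fun h _ => ?_
    simp only [τ, map_mul]
    have := hconj1 h i
    linear_combination (θ h * conj (θ h)) * this
  have hτirr : ∀ i, IsIrrCharacter H (τ i) := fun i => isIrrCharacter_of_norm_one (hτchar i) (hτnorm i)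
  have hτ0 : τ 0 = θ := by
    funext h
    simp [τ]
  -- orthogonality
  have hA1 := formulaA N₀ ν u hu hker hνu hcard θ θ
  rw [classInner_irr_self hθ0] at hA1
  choose c hc using fun i => IsCharacter.classInner_irr_nat (IsIrrCharacter.isCharacter hθ) (hτirr i)
  have hc0 : c 0 = 1 := by
    have := hc 0
    rw [hτ0, classInner_irr_self hθ] at this
    exact_mod_cast this.symm
  have hcsum : ∑ i ∈ Finset.range u, c i = 1 := by
    have h2 : ((∑ i ∈ Finset.range u, c i : ℕ) : ℂ) = ((1 : ℕ) : ℂ) := by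
      push_cast
      rw [← hA1]
      exact Finset.sum_congr rfl fun i _ => (hc i).symm
    exact_mod_cast h2
  have hcz : ∀ i ∈ Finset.range u, i ≠ 0 → c i = 0 := by
    intro i hi hi0
    have h0u : 0 ∈ Finset.range u := Finset.mem_range.mpr hu
    have h3 : c 0 + c i ≤ ∑ k ∈ Finset.range u, c k := by
      have h4 : ({0, i} : Finset ℕ) ⊆ Finset.range u := by
        intro k hk
        simp only [Finset.mem_insert, Finset.mem_singleton] at hk
        rcases hk with rfl | rfl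
        · exact h0u
        · exact hi
      have h5 := Finset.sum_le_sum_of_subset h4 (f := c)
      rwa [Finset.sum_pair (Ne.symm hi0)] at h5
    rw [hc0, hcsum] at h3
    omega
  have hne : ∀ i ∈ Finset.range u, ∀ j ∈ Finset.range u, i < j → τ i ≠ τ j := by
    intro i hi j hj hij heq
    have h1 : classInner (τ i) (τ j) = classInner θ (τ (j - i)) := by
      unfold classInner
      congr 1
      refine Finset.sum_congr rfl fun h _ => ?_
      simp only [τ, map_mul, map_pow]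
      have h2 : conj (ν h : ℂ) ^ j = conj (ν h : ℂ) ^ i * conj (ν h : ℂ) ^ (j - i) := by
        rw [← pow_add]
        congr 1
        omega
      have h3 := hconj1 h i
      rw [map_pow] at h3
      rw [h2]
      linear_combination (θ h * conj (θ h) * conj (ν h : ℂ) ^ (j - i)) * h3
    rw [← heq, hτnorm, hc, hcz (j - i) (Finset.mem_range.mpr (by
      have := Finset.mem_range.mp hj
      omega)) (by omega)] at h1
    simp at h1
  have hinj : Set.InjOn (fun i => (⟨τ i, hτirr i⟩ : IrrCharacter H)) (Finset.range u : Set ℕ) := by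
    intro i hi j hj hij
    have hij' : τ i = τ j := congrArg Subtype.val hij
    by_contra hn
    rcases lt_or_gt_of_ne hn with h | h
    · exact hne i hi j hj h hij'
    · exact hne j hj i hi h hij'.symm
  obtain ⟨m, hm⟩ := IsCharacter.exists_nat_coeff hψ
  have hinner : ∀ φ : IrrCharacter H, classInner ψ (φ : H → ℂ) = m φ := by
    intro φ
    rw [hm]
    exact classInner_sum_irr (fun φ => (m φ : ℂ)) φ
  have hnorm : classInner ψ ψ = ∑ φ : IrrCharacter H, ((m φ ^ 2 : ℕ) : ℂ) := by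
    rw [classInner_eq_sum ψ ψ (classFunction_of_isCharacter hψ)]
    refine Finset.sum_congr rfl fun φ _ => ?_
    rw [hinner, Complex.conj_natCast]
    push_cast
    ring
  refine ⟨fun i => m ⟨τ i, hτirr i⟩, ?_, ?_⟩
  · have hA2 := formulaA N₀ ν u hu hker hνu hcard θ ψ
    have h5 : classInner (fun n : N₀ => ψ n) (fun n : N₀ => θ n) = e := by
      have h6 : (fun n : N₀ => ψ n) = (e : ℂ) • (fun n : N₀ => θ n) := by
        funext n
        simp [hres n]
      rw [h6, classInner_smul_left, classInner_irr_self hθ0, mul_one]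
    rw [h5] at hA2
    have h7 : ((∑ i ∈ Finset.range u, m ⟨τ i, hτirr i⟩ : ℕ) : ℂ) = e := by
      push_cast
      rw [← hA2]
      refine Finset.sum_congr rfl fun i _ => ?_
      exact (hinner ⟨τ i, hτirr i⟩).symm
    exact_mod_cast h7
  · intro b hb
    have h8 : ((∑ φ : IrrCharacter H, m φ ^ 2 : ℕ) : ℂ) = b := by
      rw [← hb, hnorm]
      push_cast
      rfl
    have h9 : ∑ φ : IrrCharacter H, m φ ^ 2 = b := by exact_mod_cast h8
    rw [← h9]
    have h10 : ∑ i ∈ Finset.range u, m ⟨τ i, hτirr i⟩ ^ 2 =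
        ∑ φ ∈ (Finset.range u).image (fun i => (⟨τ i, hτirr i⟩ : IrrCharacter H)), m φ ^ 2 :=
      (Finset.sum_image (f := fun φ => m φ ^ 2) hinj).symm
    rw [h10]
    exact Finset.sum_le_sum_of_subset (Finset.subset_univ _)

end H


theorem inner_self_nat {H : Type u} [Group H] [Fintype H] {ψ : H → ℂ} (hψ : IsCharacter H ψ) :
    ∃ b : ℕ, classInner ψ ψ = b := by
  classical
  obtain ⟨m, hm⟩ := IsCharacter.exists_nat_coeff hψ
  refine ⟨∑ φ : IrrCharacter H, m φ ^ 2, ?_⟩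
  rw [classInner_eq_sum ψ ψ (classFunction_of_isCharacter hψ)]
  push_cast
  refine Finset.sum_congr rfl fun φ _ => ?_
  have h1 : classInner ψ (φ : H → ℂ) = m φ := by
    rw [hm]
    exact classInner_sum_irr (fun φ => (m φ : ℂ)) φ
  rw [h1, Complex.conj_natCast]
  ring

theorem sum_norm_eq {A : Type u} [Group A] [Fintype A] {f : A → ℂ} (hf : IsIrrCharacter A f) :
    ∑ g, ‖f g‖ ^ 2 = (Nat.card A : ℝ) := by
  have h1 := classInner_irr_self hf
  rw [classInner_self_eq] at h1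
  have h2 : ((Nat.card A : ℝ)⁻¹ * ∑ g, ‖f g‖ ^ 2) = 1 := by exact_mod_cast h1
  have hp : (Nat.card A : ℝ) ≠ 0 := by exact_mod_cast Nat.card_pos.ne'
  exact ((inv_mul_eq_one₀ hp).mp h2).symm

section main

variable {Γ : Type u} [Group Γ] [Fintype Γ]

open Classical in
theorem sum_sub_r (A : Subgroup Γ) [Fintype A] (f : Γ → ℝ) :
    ∑ x : A, f x = ∑ w, if w ∈ A then f w else 0 := by
  rw [← Finset.sum_filter]
  exact (Finset.sum_subtype _ (by simp) f).symm

open Classical in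
theorem count_sum (H' : Subgroup Γ) (W : Γ → ℝ) (hW : ∀ t γ, W (t⁻¹ * γ * t) = W γ) :
    (Nat.card Γ : ℝ) * ∑ γ, (if γ ∈ H' then W γ else 0) =
      ∑ γ, W γ * ((Finset.univ.filter (fun t => t⁻¹ * γ * t ∈ H')).card : ℝ) := by
  have h1 : ∀ γ, W γ * ((Finset.univ.filter (fun t => t⁻¹ * γ * t ∈ H')).card : ℝ) =
      ∑ t, if t⁻¹ * γ * t ∈ H' then W (t⁻¹ * γ * t) else 0 := by
    intro γ
    rw [Finset.card_filter]
    push_cast
    rw [Finset.mul_sum]
    refine Finset.sum_congr rfl fun t _ => ?_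
    split_ifs
    · rw [hW, mul_one]
    · rw [mul_zero]
  simp_rw [h1]
  rw [Finset.sum_comm]
  have h2 : ∀ t : Γ, ∑ γ, (if t⁻¹ * γ * t ∈ H' then W (t⁻¹ * γ * t) else 0) =
      ∑ γ, (if γ ∈ H' then W γ else 0) := by
    intro t
    exact Fintype.sum_equiv (MulAut.conj t⁻¹).toEquiv _ _ (fun γ => by simp)
  simp_rw [h2]
  rw [Finset.sum_const, Finset.card_univ, nsmul_eq_mul, Nat.card_eq_fintype_card]

theorem uniq_conj (G N H' : Subgroup Γ) [hG : G.Normal] (hNH : N ≤ H')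
    (h2 : ∀ h ∈ H', h ∈ G → h ∈ N) (h3 : ∀ γ : Γ, ∃ h ∈ H', γ⁻¹ * h ∈ G)
    (hfrob : ∀ x : Γ, x ∉ G → ∀ g : Γ, g ∈ G → x * g * x⁻¹ * g⁻¹ ∈ N → g ∈ N)
    {a s : Γ} (ha : a ∈ H') (haG : a ∉ G) (hs : s⁻¹ * a * s ∈ H') : s ∈ H' := by
  obtain ⟨h, hh, hg⟩ := h3 s
  -- s = h * g' with g' = h⁻¹ * s in G
  set g' := h⁻¹ * s with hg'
  have hg'G : g' ∈ G := by
    have := G.inv_mem hg
    have h4 : (s⁻¹ * h)⁻¹ = g' := by rw [hg']; group
    rwa [h4] at this
  set a' := h⁻¹ * a * h with ha'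
  have ha'H : a' ∈ H' := H'.mul_mem (H'.mul_mem (H'.inv_mem hh) ha) hh
  have ha'G : a' ∉ G := by
    intro h5
    apply haG
    have := hG.conj_mem _ h5 h
    have h6 : h * a' * h⁻¹ = a := by rw [ha']; group
    rwa [h6] at this
  have hb : g'⁻¹ * a' * g' ∈ H' := by
    have h7 : g'⁻¹ * a' * g' = s⁻¹ * a * s := by rw [hg', ha']; group
    rwa [h7]
  have hc : a'⁻¹ * g'⁻¹ * a' * g' ∈ N := by
    apply h2
    · have h8 : a'⁻¹ * g'⁻¹ * a' * g' = a'⁻¹ * (g'⁻¹ * a' * g') := by group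
      rw [h8]
      exact H'.mul_mem (H'.inv_mem ha'H) hb
    · have h9 : a'⁻¹ * g'⁻¹ * a' = a'⁻¹ * g'⁻¹ * a'⁻¹⁻¹ := by simp
      rw [h9]
      exact G.mul_mem (hG.conj_mem _ (G.inv_mem hg'G) _) hg'G
  have hd := hfrob a'⁻¹ (fun h10 => ha'G (by simpa using G.inv_mem h10)) g'⁻¹ (G.inv_mem hg'G) (by
    have h11 : a'⁻¹ * g'⁻¹ * a'⁻¹⁻¹ * g'⁻¹⁻¹ = a'⁻¹ * g'⁻¹ * a' * g' := by simp
    rwa [h11])
  have he : g' ∈ N := by simpa using N.inv_mem hd
  have h12 : s = h * g' := by rw [hg']; group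
  rw [h12]
  exact H'.mul_mem hh (hNH he)

open Classical in
set_option maxHeartbeats 4000000 in
/-- The weighted count over `H'`. -/
theorem main_count (G N H' : Subgroup Γ) [hG : G.Normal] [hN : N.Normal] (hNG : N ≤ G) (hNH : N ≤ H')
    (h2 : ∀ h ∈ H', h ∈ G → h ∈ N) (h3 : ∀ γ : Γ, ∃ h ∈ H', γ⁻¹ * h ∈ G)
    (hfrob : ∀ x : Γ, x ∉ G → ∀ g : Γ, g ∈ G → x * g * x⁻¹ * g⁻¹ ∈ N → g ∈ N)
    (hc1 : Nat.card G * Nat.card H' = Nat.card Γ * Nat.card N)
    (W : Γ → ℝ) (hW : ∀ t γ, W (t⁻¹ * γ * t) = W γ) :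
    (Nat.card Γ : ℝ) * ∑ γ, (if γ ∈ H' then W γ else 0) =
      (Nat.card Γ : ℝ) * (∑ γ, (if γ ∈ N then W γ else 0)) +
        (Nat.card H' : ℝ) * ∑ γ, (if γ ∉ G then W γ else 0) := by
  let c : Γ → ℕ := fun γ => (Finset.univ.filter (fun t => t⁻¹ * γ * t ∈ H')).card
  have hcN : ∀ γ ∈ N, c γ = Nat.card Γ := by
    intro γ hγ
    have h4 : Finset.univ.filter (fun t => t⁻¹ * γ * t ∈ H') = Finset.univ := by
      refine Finset.filter_true_of_mem fun t _ => ?_
      apply hNH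
      have := hN.conj_mem γ hγ t⁻¹
      rwa [inv_inv] at this
    show (Finset.univ.filter (fun t => t⁻¹ * γ * t ∈ H')).card = _
    rw [h4, Finset.card_univ, Nat.card_eq_fintype_card]
  have hcG : ∀ γ ∈ G, γ ∉ N → c γ = 0 := by
    intro γ hγ hγN
    show (Finset.univ.filter (fun t => t⁻¹ * γ * t ∈ H')).card = _
    rw [Finset.card_eq_zero, Finset.filter_eq_empty_iff]
    intro t _ ht
    apply hγN
    have h5 : t⁻¹ * γ * t ∈ G := by
      have := hG.conj_mem γ hγ t⁻¹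
      rwa [inv_inv] at this
    have h6 := hN.conj_mem _ (h2 _ ht h5) t
    have h7 : t * (t⁻¹ * γ * t) * t⁻¹ = γ := by group
    rwa [h7] at h6
  have hcH : (Finset.univ.filter (· ∈ H')).card = Nat.card H' := by
    rw [Nat.card_eq_fintype_card, Fintype.card_subtype]
  have hcases : ∀ γ, γ ∉ G → c γ = 0 ∨ c γ = Nat.card H' := by
    intro γ hγ
    by_cases hne : (Finset.univ.filter (fun t => t⁻¹ * γ * t ∈ H')).Nonempty
    · right
      obtain ⟨t₀, ht₀⟩ := hne
      simp only [Finset.mem_filter, Finset.mem_univ, true_and] at ht₀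
      have haG : t₀⁻¹ * γ * t₀ ∉ G := by
        intro h5
        apply hγ
        have h6 := hG.conj_mem _ h5 t₀
        have h7 : t₀ * (t₀⁻¹ * γ * t₀) * t₀⁻¹ = γ := by group
        rwa [h7] at h6
      show (Finset.univ.filter (fun t => t⁻¹ * γ * t ∈ H')).card = _
      rw [← hcH]
      refine Finset.card_bij' (fun t _ => t₀⁻¹ * t) (fun s _ => t₀ * s) ?_ ?_ ?_ ?_
      · intro t ht
        simp only [Finset.mem_filter, Finset.mem_univ, true_and] at ht ⊢
        apply uniq_conj G N H' hNH h2 h3 hfrob ht₀ haG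
        have h8 : (t₀⁻¹ * t)⁻¹ * (t₀⁻¹ * γ * t₀) * (t₀⁻¹ * t) = t⁻¹ * γ * t := by group
        rwa [h8]
      · intro s hs
        simp only [Finset.mem_filter, Finset.mem_univ, true_and] at hs ⊢
        have h8 : (t₀ * s)⁻¹ * γ * (t₀ * s) = s⁻¹ * (t₀⁻¹ * γ * t₀) * s := by group
        rw [h8]
        exact H'.mul_mem (H'.mul_mem (H'.inv_mem hs) ht₀) hs
      · intro t _
        group
      · intro s _
        group
    · left
      rw [Finset.not_nonempty_iff_eq_empty] at hne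
      show (Finset.univ.filter (fun t => t⁻¹ * γ * t ∈ H')).card = _
      rw [hne, Finset.card_empty]
  have htot := count_sum H' (fun _ => (1 : ℝ)) (fun _ _ => rfl)
  simp only [one_mul] at htot
  have hH0 : ∑ γ, (if γ ∈ H' then (1 : ℝ) else 0) = (Nat.card H' : ℝ) := by
    rw [← hcH, Finset.card_filter]
    push_cast
    rfl
  rw [hH0] at htot
  have hN0 : ∑ γ, (if γ ∈ N then (1 : ℝ) else 0) = (Nat.card N : ℝ) := by
    rw [Nat.card_eq_fintype_card, Fintype.card_subtype, Finset.card_filter]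
    push_cast
    rfl
  have hG0 : ∑ γ, (if γ ∉ G then (1 : ℝ) else 0) = (Nat.card Γ : ℝ) - Nat.card G := by
    have h9 : ∀ γ, (if γ ∉ G then (1 : ℝ) else 0) = 1 - if γ ∈ G then (1 : ℝ) else 0 := by
      intro γ
      by_cases h : γ ∈ G <;> simp [h]
    simp_rw [h9]
    rw [Finset.sum_sub_distrib, Nat.card_eq_fintype_card (α := ↥G), Fintype.card_subtype, Finset.card_filter]
    simp only [Finset.sum_const, Finset.card_univ, nsmul_eq_mul, mul_one, Nat.card_eq_fintype_card]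
    push_cast
    rfl
  have hsplit : ∀ γ, ((Finset.univ.filter (fun t => t⁻¹ * γ * t ∈ H')).card : ℝ) =
      (if γ ∈ N then (Nat.card Γ : ℝ) else 0) + if γ ∉ G then (c γ : ℝ) else 0 := by
    intro γ
    by_cases h1 : γ ∈ N
    · have h10 : γ ∈ G := hNG h1
      have h11 : (Finset.univ.filter (fun t => t⁻¹ * γ * t ∈ H')).card = Nat.card Γ := hcN γ h1
      rw [h11]
      simp [h1, h10]
    · by_cases h10 : γ ∈ G
      · have h11 : (Finset.univ.filter (fun t => t⁻¹ * γ * t ∈ H')).card = 0 := hcG γ h10 h1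
        rw [h11]
        simp [h1, h10]
      · simp [h1, h10, c]
  rw [show (fun γ => ((Finset.univ.filter (fun t => t⁻¹ * γ * t ∈ H')).card : ℝ)) =
    fun γ => (if γ ∈ N then (Nat.card Γ : ℝ) else 0) + if γ ∉ G then (c γ : ℝ) else 0 from funext hsplit] at htot
  rw [Finset.sum_add_distrib] at htot
  have hN1 : ∑ γ, (if γ ∈ N then (Nat.card Γ : ℝ) else 0) = (Nat.card Γ : ℝ) * Nat.card N := by
    rw [← hN0, Finset.mul_sum]
    refine Finset.sum_congr rfl fun γ _ => ?_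
    split_ifs <;> simp
  rw [hN1] at htot
  have hc1r : (Nat.card G : ℝ) * Nat.card H' = (Nat.card Γ : ℝ) * Nat.card N := by exact_mod_cast hc1
  have hzero : ∑ γ, (if γ ∉ G then (Nat.card H' : ℝ) - c γ else 0) = 0 := by
    have h12 : ∀ γ, (if γ ∉ G then (Nat.card H' : ℝ) - c γ else 0) =
        (Nat.card H' : ℝ) * (if γ ∉ G then (1 : ℝ) else 0) - if γ ∉ G then (c γ : ℝ) else 0 := by
      intro γ
      split_ifs <;> simp
    simp_rw [h12]
    rw [Finset.sum_sub_distrib, ← Finset.mul_sum, hG0]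
    linarith
  have hcfull : ∀ γ, γ ∉ G → c γ = Nat.card H' := by
    intro γ hγ
    have h13 := (Finset.sum_eq_zero_iff_of_nonneg (s := Finset.univ)
      (f := fun γ => if γ ∉ G then (Nat.card H' : ℝ) - c γ else 0) (by
        intro γ' _
        by_cases h14 : γ' ∉ G
        · simp only [h14, not_false_eq_true, if_true]
          rcases hcases γ' h14 with h15 | h15
          · rw [h15]
            simp
          · rw [h15]
            simp
        · simp [h14])).mp hzero γ (Finset.mem_univ _)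
    simp only [hγ, not_false_eq_true, if_true] at h13
    have h16 : (c γ : ℝ) = Nat.card H' := by linarith
    exact_mod_cast h16
  rw [count_sum H' W hW, Finset.mul_sum, Finset.mul_sum, ← Finset.sum_add_distrib]
  refine Finset.sum_congr rfl fun γ _ => ?_
  rw [hsplit γ]
  by_cases h1 : γ ∈ N
  · have h10 := hNG h1
    simp [h1, h10]
    ring
  · by_cases h10 : γ ∈ G
    · simp [h1, h10]
    · simp [h1, h10, hcfull γ h10]
      ring

set_option maxHeartbeats 8000000 in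
theorem ram_main (G N : Subgroup Γ) [hG : G.Normal] [hN : N.Normal] [Fintype G] [Fintype N] (hNG : N ≤ G)
    (hGlt : G ≠ ⊤) (hcyc : IsCyclic (Γ ⧸ G))
    (hfrob : ∀ x : Γ, x ∉ G → ∀ g : Γ, g ∈ G → x * g * x⁻¹ * g⁻¹ ∈ N → g ∈ N)
    (θ : IrrCharacter N)
    (hinv : ∀ (x : Γ) (n : N), (θ : N → ℂ) ⟨x * n * x⁻¹, hN.conj_mem n n.2 x⟩ = (θ : N → ℂ) n)
    (χ : IrrCharacter G) (e : ℕ)
    (hram : indFun (N.subgroupOf G) (fun n : N.subgroupOf G => (θ : N → ℂ) ⟨(n : G), n.2⟩) =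
      fun g => (e : ℂ) * (χ : G → ℂ) g) :
    (G.index : ℤ) ∣ (e : ℤ) - 1 ∨ (G.index : ℤ) ∣ (e : ℤ) + 1 := by
  classical
  have hcardN' : Nat.card (N.subgroupOf G) = Nat.card N :=
    Nat.card_congr (Subgroup.subgroupOfEquivOfLe hNG).toEquiv
  have hGpos : (0 : ℝ) < Nat.card G := by exact_mod_cast Nat.card_pos
  have hNpos : (0 : ℝ) < Nat.card N := by exact_mod_cast Nat.card_pos
  have hGc : (Nat.card G : ℂ) ≠ 0 := by exact_mod_cast Nat.card_pos.ne'
  have hNc : (Nat.card N : ℂ) ≠ 0 := by exact_mod_cast Nat.card_pos.ne'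
  have hind_mem : ∀ g : G, ∀ hg : (g : Γ) ∈ N, (e : ℂ) * (χ : G → ℂ) g =
      ((Nat.card G : ℂ) / Nat.card N) * (θ : N → ℂ) ⟨g, hg⟩ := by
    intro g hg
    have h1 := congrFun hram g
    rw [indFun_apply] at h1
    rw [← h1]
    have h2 : ∀ x : G, extendByZero (N.subgroupOf G) (fun n : N.subgroupOf G => (θ : N → ℂ) ⟨(n : G), n.2⟩)
        (x⁻¹ * g * x) = (θ : N → ℂ) ⟨g, hg⟩ := by
      intro x
      have hm : x⁻¹ * g * x ∈ N.subgroupOf G := by
        rw [Subgroup.mem_subgroupOf]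
        have := hN.conj_mem g hg (x : Γ)⁻¹
        simpa using this
      rw [extendByZero_of_mem _ _ hm]
      have h3 := hinv (x : Γ)⁻¹ ⟨g, hg⟩
      rw [← h3]
      exact congrArg _ (Subtype.ext (by simp))
    simp_rw [h2]
    rw [Finset.sum_const, Finset.card_univ, nsmul_eq_mul, hcardN', Nat.card_eq_fintype_card (α := ↥G)]
    field_simp
  have hind_off : ∀ g : G, (g : Γ) ∉ N → (e : ℂ) * (χ : G → ℂ) g = 0 := by
    intro g hg
    have h1 := congrFun hram g
    rw [indFun_apply] at h1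
    rw [← h1]
    have h2 : ∀ x : G, extendByZero (N.subgroupOf G) (fun n : N.subgroupOf G => (θ : N → ℂ) ⟨(n : G), n.2⟩)
        (x⁻¹ * g * x) = 0 := by
      intro x
      apply extendByZero_of_not_mem
      intro hm
      rw [Subgroup.mem_subgroupOf] at hm
      apply hg
      have h3 := hN.conj_mem _ hm (x : Γ)
      simpa [mul_assoc] using h3
    simp_rw [h2]
    simp
  obtain ⟨d, hd0, hd⟩ := IsIrrCharacter.map_one_pos θ.2
  have hdc : (d : ℂ) ≠ 0 := by exact_mod_cast hd0.ne'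
  have he0 : (e : ℂ) ≠ 0 := by
    intro h0
    have h1 := hind_mem 1 (N.one_mem)
    rw [h0, zero_mul] at h1
    have h2 : (θ : N → ℂ) ⟨((1 : G) : Γ), N.one_mem⟩ = d := hd
    rw [h2] at h1
    exact (mul_ne_zero (div_ne_zero hGc hNc) hdc) h1.symm
  have hχinv : ∀ (x : Γ) (g : G), (χ : G → ℂ) ⟨x * g * x⁻¹, hG.conj_mem g g.2 x⟩ = (χ : G → ℂ) g := by
    intro x g
    by_cases hg : (g : Γ) ∈ N
    · have h1 := hind_mem g hg
      have h2 := hind_mem ⟨x * g * x⁻¹, hG.conj_mem g g.2 x⟩ (hN.conj_mem _ hg x)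
      have h3 := hinv x ⟨g, hg⟩
      apply mul_left_cancel₀ he0
      rw [h1, h2]
      congr 1
    · have h1 := hind_off g hg
      have h2 := hind_off ⟨x * g * x⁻¹, hG.conj_mem g g.2 x⟩ (by
        intro hm
        apply hg
        have h3 := hN.conj_mem _ hm x⁻¹
        simpa [mul_assoc] using h3)
      apply mul_left_cancel₀ he0
      rw [h1, h2]
  obtain ⟨χh, hχh, hχr⟩ := Cfsg.Agent.Lib.CharExt.char_ext_of_cyclic G χ.2 hχinv hcyc
  let W : Γ → ℝ := fun γ => ‖χh γ‖ ^ 2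
  have hcl : ∀ t γ, χh (t⁻¹ * γ * t) = χh γ := by
    intro t γ
    obtain ⟨n, ρ, _, rfl⟩ := hχh
    have := Representation.char_conj ρ γ t⁻¹
    simpa using this
  have hW : ∀ t γ, W (t⁻¹ * γ * t) = W γ := by
    intro t γ
    show ‖χh (t⁻¹ * γ * t)‖ ^ 2 = ‖χh γ‖ ^ 2
    rw [hcl]
  have hW0 : ∀ γ (hγ : γ ∈ G), γ ∉ N → W γ = 0 := by
    intro γ hγ hγN
    have h1 := hind_off ⟨γ, hγ⟩ hγN
    have h2 : (χ : G → ℂ) ⟨γ, hγ⟩ = 0 := (mul_eq_zero.mp h1).resolve_left he0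
    show ‖χh γ‖ ^ 2 = 0
    have h3 := hχr ⟨γ, hγ⟩
    rw [show χh γ = _ from h3, h2]
    simp
  have hsumΓ : ∑ γ, W γ = (Nat.card Γ : ℝ) := sum_norm_eq hχh
  have hsumG : ∑ γ, (if γ ∈ G then W γ else 0) = (Nat.card G : ℝ) := by
    rw [← sum_sub_r G W, ← sum_norm_eq χ.2]
    refine Finset.sum_congr rfl fun g _ => ?_
    show ‖χh g‖ ^ 2 = _
    rw [hχr g]
  have hGN : ∑ γ, (if γ ∈ N then W γ else 0) = ∑ γ, (if γ ∈ G then W γ else 0) := by
    refine Finset.sum_congr rfl fun γ _ => ?_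
    by_cases h1 : γ ∈ N
    · rw [if_pos h1, if_pos (hNG h1)]
    · rw [if_neg h1]
      by_cases h10 : γ ∈ G
      · rw [if_pos h10, hW0 γ h10 h1]
      · rw [if_neg h10]
  have hsumOff : ∑ γ, (if γ ∉ G then W γ else 0) = (Nat.card Γ : ℝ) - Nat.card G := by
    rw [← hsumΓ, ← hsumG, ← Finset.sum_sub_distrib]
    refine Finset.sum_congr rfl fun γ _ => ?_
    by_cases h : γ ∈ G <;> simp [h]
  have hsumθ := sum_norm_eq θ.2
  have hWN : ∀ n : N, (e : ℝ) ^ 2 * W n = ((Nat.card G : ℝ) / Nat.card N) ^ 2 * ‖(θ : N → ℂ) n‖ ^ 2 := by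
    intro n
    have h1 := congrArg norm (hind_mem ⟨n, hNG n.2⟩ n.2)
    rw [norm_mul, norm_mul, Complex.norm_natCast, norm_div, Complex.norm_natCast, Complex.norm_natCast] at h1
    have h2 : (χ : G → ℂ) ⟨n, hNG n.2⟩ = χh n := (hχr ⟨n, hNG n.2⟩).symm
    rw [h2] at h1
    show (e : ℝ) ^ 2 * ‖χh n‖ ^ 2 = _
    rw [← mul_pow, h1, mul_pow]
  have hkey : (e : ℝ) ^ 2 * (Nat.card N : ℝ) = Nat.card G := by
    have h1 : (e : ℝ) ^ 2 * ∑ n : N, W n = ((Nat.card G : ℝ) / Nat.card N) ^ 2 * Nat.card N := by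
      have h0 : ((Nat.card G : ℝ) / Nat.card N) ^ 2 * Nat.card N =
          ((Nat.card G : ℝ) / Nat.card N) ^ 2 * ∑ n : N, ‖(θ : N → ℂ) n‖ ^ 2 := by rw [hsumθ]
      rw [h0, Finset.mul_sum, Finset.mul_sum]
      exact Finset.sum_congr rfl fun n _ => hWN n
    rw [sum_sub_r N W, hGN, hsumG] at h1
    field_simp at h1
    nlinarith
  have hkeyc : ((Nat.card G : ℂ) / Nat.card N) = (e : ℂ) ^ 2 := by
    have h1 : ((e : ℂ) ^ 2 * (Nat.card N : ℂ)) = Nat.card G := by exact_mod_cast hkey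
    rw [div_eq_iff hNc]
    exact h1.symm
  have hχN : ∀ n : N, χh n = e * (θ : N → ℂ) n := by
    intro n
    have h1 := hind_mem ⟨n, hNG n.2⟩ n.2
    have h2 : (χ : G → ℂ) ⟨n, hNG n.2⟩ = χh n := (hχr ⟨n, hNG n.2⟩).symm
    rw [h2, hkeyc] at h1
    apply mul_left_cancel₀ he0
    rw [h1]
    ring
  -- the complement
  obtain ⟨xb, hxb⟩ := hcyc.exists_generator
  obtain ⟨x, rfl⟩ := QuotientGroup.mk_surjective xb
  have hxG : x ∉ G := by
    intro hx
    apply hGlt
    rw [eq_top_iff]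
    intro γ _
    obtain ⟨k, hk⟩ := Subgroup.mem_zpowers_iff.mp (hxb (γ : Γ ⧸ G))
    have h1 : ((x : Γ ⧸ G)) = 1 := (QuotientGroup.eq_one_iff x).mpr hx
    rw [h1, one_zpow] at hk
    exact (QuotientGroup.eq_one_iff γ).mp hk.symm
  let H' : Subgroup Γ := N ⊔ Subgroup.zpowers x
  have hmemH : ∀ h ∈ H', ∃ n ∈ N, ∃ k : ℤ, h = n * x ^ k := by
    intro h hh
    have h1 : h ∈ (↑(N ⊔ Subgroup.zpowers x) : Set Γ) := hh
    rw [Subgroup.normal_mul] at h1
    obtain ⟨n, hn, y, hy, rfl⟩ := Set.mem_mul.mp h1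
    obtain ⟨k, rfl⟩ := Subgroup.mem_zpowers_iff.mp hy
    exact ⟨n, hn, k, rfl⟩
  have hNH : N ≤ H' := le_sup_left
  have hxH : x ∈ H' := (le_sup_right : Subgroup.zpowers x ≤ H') (Subgroup.mem_zpowers x)
  have h2 : ∀ h ∈ H', h ∈ G → h ∈ N := by
    intro h hh hhG
    obtain ⟨n, hn, k, rfl⟩ := hmemH h hh
    have h5 : x ^ k ∈ G := by
      have := G.mul_mem (G.inv_mem (hNG hn)) hhG
      simpa using this
    have h6 := hfrob x hxG (x ^ k) h5 (by
      have h7 : x * x ^ k * x⁻¹ * (x ^ k)⁻¹ = 1 := by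
        have h8 : Commute x (x ^ k) := (Commute.refl x).zpow_right k
        rw [h8.eq]
        group
      rw [h7]
      exact N.one_mem)
    exact N.mul_mem hn h6
  have h3 : ∀ γ : Γ, ∃ h ∈ H', γ⁻¹ * h ∈ G := by
    intro γ
    obtain ⟨k, hk⟩ := Subgroup.mem_zpowers_iff.mp (hxb (γ : Γ ⧸ G))
    refine ⟨x ^ k, H'.zpow_mem hxH k, ?_⟩
    rw [← QuotientGroup.eq, QuotientGroup.mk_zpow]
    exact hk.symm
  let f : H' →* Γ ⧸ G := (QuotientGroup.mk' G).comp H'.subtype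
  have hf : Function.Surjective f := by
    intro y
    obtain ⟨γ, rfl⟩ := QuotientGroup.mk_surjective y
    obtain ⟨h, hh, hg⟩ := h3 γ
    exact ⟨⟨h, hh⟩, (QuotientGroup.eq.mpr hg).symm⟩
  have hmemker : ∀ h : H', h ∈ f.ker ↔ (h : Γ) ∈ N := by
    intro h
    rw [MonoidHom.mem_ker]
    show ((h : Γ) : Γ ⧸ G) = 1 ↔ _
    rw [QuotientGroup.eq_one_iff]
    exact ⟨h2 _ h.2, fun h' => hNG h'⟩
  letI : Fintype H' := Fintype.ofFinite _
  letI : Fintype f.ker := Fintype.ofFinite _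
  have hcardker : Nat.card f.ker = Nat.card N := Nat.card_congr
    ⟨fun n => ⟨n.1.1, (hmemker n.1).mp n.2⟩, fun n => ⟨⟨n.1, hNH n.2⟩, (hmemker _).mpr n.2⟩,
      fun _ => rfl, fun _ => rfl⟩
  have hcardH : Nat.card H' = G.index * Nat.card N := by
    have h4 := Subgroup.card_eq_card_quotient_mul_card_subgroup f.ker
    rw [Nat.card_congr (QuotientGroup.quotientKerEquivOfSurjective f hf).toEquiv, hcardker] at h4
    exact h4
  have hcardΓ : G.index * Nat.card G = Nat.card Γ := Subgroup.index_mul_card G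
  have hc1 : Nat.card G * Nat.card H' = Nat.card Γ * Nat.card N := by
    rw [hcardH, ← hcardΓ]
    ring
  have hF := main_count G N H' hNG hNH h2 h3 hfrob hc1 W hW
  rw [hGN, hsumG, hsumOff, ← sum_sub_r H' W] at hF
  set u := G.index with hu
  have hu2 : 2 ≤ u := by
    have h1 : u ≠ 0 := Subgroup.index_ne_zero_of_finite
    have h4 : u ≠ 1 := fun h => hGlt (Subgroup.index_eq_one.mp h)
    omega
  have hprim := Complex.isPrimitiveRoot_exp u (by omega)
  let ζ : ℂˣ := Units.mk0 _ (hprim.ne_zero (by omega))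
  have hζord : orderOf ζ = u := by
    rw [← orderOf_units]
    exact hprim.eq_orderOf.symm
  have hord : orderOf ((x : Γ ⧸ G)) = u := by
    rw [orderOf_eq_card_of_forall_mem_zpowers hxb]
    rfl
  let ν₀ : Γ ⧸ G →* ℂˣ := monoidHomOfForallMemZpowers hxb (g' := ζ) (by rw [hζord, hord])
  have hν₀gen : ν₀ (x : Γ ⧸ G) = ζ := monoidHomOfForallMemZpowers_apply_gen hxb _
  have hν₀inj : ∀ y, ν₀ y = 1 → y = 1 := by
    intro y hy
    obtain ⟨k, rfl⟩ := Subgroup.mem_zpowers_iff.mp (hxb y)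
    rw [map_zpow, hν₀gen] at hy
    have h5 := orderOf_dvd_iff_zpow_eq_one.mpr hy
    rw [hζord, ← hord] at h5
    exact orderOf_dvd_iff_zpow_eq_one.mp h5
  let ν : H' →* ℂˣ := ν₀.comp f
  have hker : ∀ h, ν h = 1 ↔ h ∈ f.ker := by
    intro h
    constructor
    · intro h5
      exact MonoidHom.mem_ker.mpr (hν₀inj _ h5)
    · intro h5
      show ν₀ (f h) = 1
      rw [MonoidHom.mem_ker.mp h5, map_one]
  have hνu : ∀ h, ν h ^ u = 1 := by
    intro h
    show ν₀ (f h) ^ u = 1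
    rw [← map_pow]
    have h5 : (f h) ^ u = 1 := pow_card_eq_one'
    rw [h5, map_one]
  let gk : f.ker →* N :=
    { toFun := fun n => ⟨n.1.1, (hmemker n.1).mp n.2⟩
      map_one' := rfl
      map_mul' := fun _ _ => rfl }
  have hgk : Function.Surjective gk := fun n => ⟨⟨⟨n.1, hNH n.2⟩, (hmemker _).mpr n.2⟩, rfl⟩
  have hθ'irr : IsIrrCharacter f.ker (fun n => (θ : N → ℂ) (gk n)) := IsIrrCharacter.comp_surjective θ.2 gk hgk
  haveI := hcyc
  have hcycH : IsCyclic (H' ⧸ f.ker) :=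
    isCyclic_of_surjective _ (QuotientGroup.quotientKerEquivOfSurjective f hf).symm.surjective
  obtain ⟨θh, hθh, hθr⟩ := Cfsg.Agent.Lib.CharExt.char_ext_of_cyclic f.ker hθ'irr (by
    intro h n
    exact hinv (h : Γ) ⟨n.1.1, (hmemker n.1).mp n.2⟩) hcycH
  have hθ0 : IsIrrCharacter f.ker (fun n => θh n) := by
    convert hθ'irr using 1
    funext n
    exact hθr n
  have hψ : IsCharacter H' (fun h => χh h) := IsCharacter.res (IsIrrCharacter.isCharacter hχh) H'
  obtain ⟨a, ha1, ha2⟩ := stepH f.ker ν u (by omega) hker hνu (by rw [hcardker]; exact hcardH) hθh hθ0 hψ e (by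
    intro n
    rw [hθr n]
    exact hχN ⟨n.1.1, (hmemker n.1).mp n.2⟩)
  obtain ⟨b, hb⟩ := inner_self_nat hψ
  have hbs : ∑ h : H', W h = (b : ℝ) * Nat.card H' := by
    have h1 := classInner_self_eq (fun h : H' => χh h)
    rw [hb] at h1
    have h4 : (b : ℝ) = (Nat.card H' : ℝ)⁻¹ * ∑ g : H', ‖χh g‖ ^ 2 := by exact_mod_cast h1
    have hp : (Nat.card H' : ℝ) ≠ 0 := by exact_mod_cast Nat.card_pos.ne'
    rw [h4]
    field_simp
    rfl
  rw [hbs] at hF
  have hUpos : (0 : ℝ) < u := by exact_mod_cast (by omega : 0 < u)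
  have hcH : (Nat.card H' : ℝ) = u * Nat.card N := by exact_mod_cast hcardH
  have hcΓ : (Nat.card Γ : ℝ) = u * Nat.card G := by exact_mod_cast hcardΓ.symm
  have hcG : (Nat.card G : ℝ) = (e : ℝ) ^ 2 * Nat.card N := hkey.symm
  have hreal : (b : ℝ) * u = (e : ℝ) ^ 2 + u - 1 := by
    rw [hcH, hcΓ] at hF
    have h5 : (u : ℝ) * Nat.card G * Nat.card N ≠ 0 := by positivity
    apply mul_left_cancel₀ h5
    have h6 : (u : ℝ) * Nat.card G * ((b : ℝ) * (u * Nat.card N)) = u * Nat.card G * Nat.card G +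
        u * Nat.card N * (u * Nat.card G - Nat.card G) := hF
    have h7 : (u : ℝ) * Nat.card G * Nat.card G = u * Nat.card G * ((e : ℝ) ^ 2 * Nat.card N) := by
      rw [← hcG]
    linear_combination h6 + h7
  have hint : (b : ℤ) * u = (e : ℤ) ^ 2 + u - 1 := by exact_mod_cast hreal
  refine num u e hu2 a ha1 ?_ ⟨(b : ℤ) - 1, by linarith⟩
  have h8 : ∑ i ∈ Finset.range u, a i ^ 2 ≤ b := ha2 b hb
  have h9 : (∑ i ∈ Finset.range u, (a i : ℤ) ^ 2) ≤ b := by exact_mod_cast h8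
  have hu3 : (0 : ℤ) ≤ u := by positivity
  nlinarith

end main

end Cfsg.Agent.Lib.H3Ram
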