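import Mathlib

/-! A group of order 432 with a normal elementary abelian subgroup of order nine equal to its own centraliser
maps onto the general linear group of degree two over the field with three elements. -/

set_option autoImplicit false
set_option linter.unusedSimpArgs false
set_option linter.unusedVariables false
set_option linter.style.haveILetI false
set_option linter.unusedSectionVars false

namespace Cfsg.Agent.Lib.H7GL23

open Matrix

variable {G : Type*} [Group G]

/-- the vectors -/
abbrev V3 : Type := Fin 2 → ZMod 3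

/-- the parametrisation of the normal subgroup -/
def th (a b : G) (v : V3) : G := a ^ (v 0).val * b ^ (v 1).val

theorem pow_mod3 {a : G} (ha : a ^ 3 = 1) (n : ℕ) : a ^ (n % 3) = a ^ n := by
  conv_rhs => rw [← Nat.div_add_mod n 3, pow_add, pow_mul, ha, one_pow, one_mul]

theorem val_add_pow {a : G} (ha : a ^ 3 = 1) (x y : ZMod 3) : a ^ (x + y).val = a ^ x.val * a ^ y.val := by
  rw [← pow_add, ZMod.val_add, pow_mod3 ha]

section
variable {a b : G} (hab : a * b = b * a) (ha : a ^ 3 = 1) (hb : b ^ 3 = 1)
include hab ha hb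

theorem th_add (u v : V3) : th a b (u + v) = th a b u * th a b v := by
  have hc : Commute (b ^ (u 1).val) (a ^ (v 0).val) := (Commute.pow_pow (Commute.symm hab) _ _)
  simp only [th, Pi.add_apply]
  rw [val_add_pow ha, val_add_pow hb]
  calc a ^ (u 0).val * a ^ (v 0).val * (b ^ (u 1).val * b ^ (v 1).val)
      = a ^ (u 0).val * (a ^ (v 0).val * b ^ (u 1).val) * b ^ (v 1).val := by group
    _ = a ^ (u 0).val * (b ^ (u 1).val * a ^ (v 0).val) * b ^ (v 1).val := by rw [hc.eq]
    _ = _ := by group

theorem th_zero : th a b 0 = 1 := by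
  simp [th, ZMod.val_zero]

theorem th_nsmul (n : ℕ) (u : V3) : th a b (n • u) = th a b u ^ n := by
  induction n with
  | zero => simp [th, ZMod.val_zero]
  | succ n ih =>
    rw [succ_nsmul, th_add hab ha hb, ih, pow_succ]

theorem th_smul (x : ZMod 3) (u : V3) : th a b (x • u) = th a b u ^ x.val := by
  have h : x • u = x.val • u := by
    funext i
    simp only [Pi.smul_apply, smul_eq_mul, nsmul_eq_mul, ZMod.natCast_val, ZMod.cast_id', id_eq]
  rw [h, th_nsmul hab ha hb]

/-- the matrix of two vectors -/
def mat (u w : V3) : Matrix (Fin 2) (Fin 2) (ZMod 3) := Matrix.of ![![u 0, w 0], ![u 1, w 1]]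

omit hab ha hb in
theorem mat_mulVec (u w v : V3) : mat u w *ᵥ v = v 0 • u + v 1 • w := by
  funext i
  fin_cases i <;> simp [mat, mulVec, dotProduct, Fin.sum_univ_two, mul_comm] <;> ring

theorem conj_th {g : G} {u w : V3} (h1 : g * a * g⁻¹ = th a b u) (h2 : g * b * g⁻¹ = th a b w) (v : V3) :
    g * th a b v * g⁻¹ = th a b (mat u w *ᵥ v) := by
  rw [mat_mulVec, th_add hab ha hb, th_smul hab ha hb, th_smul hab ha hb, ← h1, ← h2, conj_pow, conj_pow]
  simp only [th]
  group

end

/-- the theorem -/
theorem main [Finite G] (a b : G) (hab : a * b = b * a) (ha : a ^ 3 = 1) (hb : b ^ 3 = 1)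
    (hinj : ∀ v : V3, th a b v = 1 → v = 0)
    (hnorm : ∀ g : G, ∃ u w : V3, g * a * g⁻¹ = th a b u ∧ g * b * g⁻¹ = th a b w)
    (hcent : ∀ g : G, g * a = a * g → g * b = b * g → ∃ v, g = th a b v)
    (hcard : Nat.card G = 432) :
    ∃ Φ : G →* GL (Fin 2) (ZMod 3), Function.Surjective Φ ∧ Nat.card Φ.ker = 9 := by
  classical
  have thinj : ∀ u v : V3, th a b u = th a b v → u = v := by
    intro u v h
    have h1 : th a b (u - v) = 1 := by
      have h2 := th_add hab ha hb (u - v) v
      rw [sub_add_cancel, h] at h2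
      exact (mul_eq_right.1 h2.symm)
    exact sub_eq_zero.1 (hinj _ h1)
  choose U W hU hW using hnorm
  let ψf : G → Matrix (Fin 2) (Fin 2) (ZMod 3) := fun g => mat (U g) (W g)
  have key : ∀ g v, g * th a b v * g⁻¹ = th a b (ψf g *ᵥ v) := fun g v => conj_th hab ha hb (hU g) (hW g) v
  have h1 : ψf 1 = 1 := by
    apply Matrix.mulVec_injective
    funext v
    apply thinj
    rw [← key, one_mulVec]
    simp
  have hmul : ∀ g h, ψf (g * h) = ψf g * ψf h := by
    intro g h
    apply Matrix.mulVec_injective
    funext v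
    apply thinj
    show th a b (ψf (g * h) *ᵥ v) = th a b ((ψf g * ψf h) *ᵥ v)
    rw [← key, ← mulVec_mulVec, ← key, ← key]
    group
  let ψ : G →* Matrix (Fin 2) (Fin 2) (ZMod 3) := { toFun := ψf, map_one' := h1, map_mul' := hmul }
  let Φ : G →* GL (Fin 2) (ZMod 3) := ψ.toHomUnits
  have hker : ∀ g, g ∈ Φ.ker ↔ ∃ v, g = th a b v := by
    intro g
    rw [MonoidHom.mem_ker]
    have e0 : Φ g = 1 ↔ ψf g = 1 := by
      constructor
      · intro e
        have := congrArg Units.val e
        simpa [Φ, ψ] using this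
      · intro e
        apply Units.ext
        simpa [Φ, ψ] using e
    rw [e0]
    constructor
    · intro e
      have ea : th a b ![1, 0] = a := by simp [th, ZMod.val_one, ZMod.val_zero]
      have eb : th a b ![0, 1] = b := by simp [th, ZMod.val_one, ZMod.val_zero]
      apply hcent g
      · have := key g ![1, 0]
        rw [e, one_mulVec, ea] at this
        exact mul_inv_eq_iff_eq_mul.1 this
      · have := key g ![0, 1]
        rw [e, one_mulVec, eb] at this
        exact mul_inv_eq_iff_eq_mul.1 this
    · rintro ⟨v, rfl⟩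
      apply Matrix.mulVec_injective
      funext x
      apply thinj
      rw [← key, one_mulVec]
      have hc : th a b v * th a b x = th a b x * th a b v := by
        rw [← th_add hab ha hb, ← th_add hab ha hb, add_comm]
      rw [hc, mul_inv_cancel_right]
  have hcardk : Nat.card Φ.ker = 9 := by
    have e : Nat.card Φ.ker = Nat.card V3 := by
      refine (Nat.card_congr (Equiv.ofBijective (fun v : V3 => (⟨th a b v, (hker _).2 ⟨v, rfl⟩⟩ : Φ.ker)) ⟨?_, ?_⟩)).symm
      · intro u v h
        exact thinj u v (congrArg Subtype.val h)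
      · rintro ⟨g, hg⟩
        obtain ⟨v, rfl⟩ := (hker g).1 hg
        exact ⟨v, rfl⟩
    rw [e, Nat.card_eq_fintype_card]
    simp [ZMod.card]
  refine ⟨Φ, ?_, hcardk⟩
  have h2 := Subgroup.card_mul_index Φ.ker
  rw [Subgroup.index_ker, hcardk, hcard] at h2
  have h3 : Nat.card Φ.range = 48 := by omega
  have h4 : Nat.card (GL (Fin 2) (ZMod 3)) = 48 := by
    rw [Matrix.card_GL_field]
    simp [Fin.prod_univ_two, ZMod.card]
  have h5 : Φ.range = ⊤ := Subgroup.eq_top_of_card_eq _ (by rw [h3, h4])
  exact MonoidHom.range_eq_top.1 h5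

end Cfsg.Agent.Lib.H7GL23
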