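import Mathlib

/-! A kernel model of the field with four elements and of the code of length six over it. -/

set_option autoImplicit false
set_option linter.unusedSimpArgs false
set_option linter.unusedVariables false
set_option maxRecDepth 100000

namespace Cfsg.Agent.Lib.H7Hx

/-- all below -/
def allB (f : ℕ → Bool) : ℕ → Bool
  | 0 => true
  | n + 1 => and (allB f n) (f n)

theorem allB_spec {f : ℕ → Bool} {n : ℕ} (h : allB f n = true) : ∀ i < n, f i = true := by
  induction n with
  | zero => intro i hi; omega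
  | succ n ih =>
    simp only [allB, Bool.and_eq_true] at h
    intro i hi
    rcases Nat.lt_succ_iff_lt_or_eq.1 hi with h1 | rfl
    · exact ih h.1 i h1
    · exact h.2

theorem allB_of {f : ℕ → Bool} {n : ℕ} (h : ∀ i < n, f i = true) : allB f n = true := by
  induction n with
  | zero => rfl
  | succ n ih =>
    simp only [allB, Bool.and_eq_true]
    exact ⟨ih (fun i hi => h i (by omega)), h n (by omega)⟩

/-- counting -/
def cntB (f : ℕ → Bool) : ℕ → ℕ
  | 0 => 0
  | n + 1 => Nat.add (cntB f n) (cond (f n) 1 0)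

theorem cntB_eq (f : ℕ → Bool) (n : ℕ) : ((Finset.range n).filter (fun i => f i = true)).card = cntB f n := by
  induction n with
  | zero => rfl
  | succ n ih =>
    rw [Finset.range_add_one, Finset.filter_insert]
    simp only [cntB]
    cases h : f n
    · simp only [Bool.false_eq_true, if_false, ih]
      rfl
    · simp only [if_true, cond_true]
      rw [Finset.card_insert_of_notMem (by simp), ih]

/-- multiplication -/
def mmul (a b : ℕ) : ℕ := Nat.mod (Nat.shiftRight 2625168384 (Nat.mul 2 (Nat.add (Nat.mul 4 a) b))) 4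
/-- addition -/
def madd (a b : ℕ) : ℕ := Nat.xor a b
/-- inverse -/
def minv (a : ℕ) : ℕ := Nat.mod (Nat.shiftRight 180 (Nat.mul 2 a)) 4
/-- the generators -/
def G (j i : ℕ) : ℕ := Nat.mod (Nat.shiftRight 63279381438 (Nat.mul 2 (Nat.add (Nat.mul 6 j) i))) 4
/-- the words -/
def wdt (t i : ℕ) : ℕ := madd (madd (mmul (Nat.mod t 4) (G 0 i)) (mmul (Nat.mod (Nat.div t 4) 4) (G 1 i))) (mmul (Nat.mod (Nat.div t 16) 4) (G 2 i))
/-- from the first three coordinates to the word -/
def abd (x : ℕ) : ℕ := Nat.mod (Nat.shiftRight 9245681982303409081903124844109406205000416784980871912067866575571165693356683524830740962615710220593090168910720 (Nat.mul 6 x)) 64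
/-- code of the first three coordinates -/
def code3 (x : ℕ → ℕ) : ℕ := Nat.add (x 0) (Nat.add (Nat.mul 4 (x 1)) (Nat.mul 16 (x 2)))
/-- being a word -/
def isW (x : ℕ → ℕ) : Bool := allB (fun i => Nat.beq (x i) (wdt (abd (code3 x)) i)) 6
/-- digits -/
def sd (sk i : ℕ) : ℕ := Nat.mod (Nat.shiftRight sk (Nat.mul 3 i)) 8
/-- the scalars -/
def cha (sk t i : ℕ) : ℕ := mmul (wdt t i) (minv (G 0 (sd sk i)))
/-- the test -/
def good (sk t : ℕ) : Bool :=
  allB (fun i => !(Nat.beq (wdt t i) 0)) 6 &&
  isW (fun i => mmul (cha sk t i) (G 1 (sd sk i))) && isW (fun i => mmul (cha sk t i) (G 2 (sd sk i)))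
/-- the count -/
def cnt (sk : ℕ) : ℕ := cntB (good sk) 64
/-- digits of a permutation -/
def key (σ : Equiv.Perm (Fin 6)) : ℕ :=
  (σ.symm 0).val + 8 * (σ.symm 1).val + 64 * (σ.symm 2).val + 512 * (σ.symm 3).val + 4096 * (σ.symm 4).val + 32768 * (σ.symm 5).val

theorem abd_check : allB (fun t => Nat.beq (abd (code3 (wdt t))) t) 64 = true := by decide +kernel

theorem G_check : allB (fun j => allB (fun i => !(Nat.beq (G j i) 0) && Nat.blt (G j i) 4) 6) 3 = true := by decide +kernel

theorem mm_check : allB (fun x => allB (fun y => !(Nat.beq (mmul (x + 1) (y + 1)) 0) && !(Nat.beq (minv (y + 1)) 0) &&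
    Nat.blt (minv (y + 1)) 4 && Nat.beq (mmul (mmul (x + 1) (minv (y + 1))) (y + 1)) (x + 1) &&
    Nat.beq (mmul (mmul (x + 1) (y + 1)) (minv (y + 1))) (x + 1) && !(Nat.beq (mmul (x + 1) (minv (y + 1))) 0)) 3) 3 = true := by decide +kernel

theorem cnt_check : ∀ σ : Equiv.Perm (Fin 6), cnt (key σ) = if Equiv.Perm.sign σ = 1 then 3 else 0 := by decide +kernel

theorem even_count : (Finset.univ.filter (fun σ : Equiv.Perm (Fin 6) => Equiv.Perm.sign σ = 1)).card = 360 := by decide +kernel

theorem const_check : allB (fun t => cond (good (key 1) t) (allB (fun i => Nat.beq (cha (key 1) t i) (cha (key 1) t 0)) 6) true) 64 = true := by decide +kernel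

end Cfsg.Agent.Lib.H7Hx
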