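import Cfsg.Agent.Lib.H7Hx
import Cfsg.Prelude.Def_SporadicCombinatorics

/-! Monomial automorphisms of the code of length six over a field with four elements. -/

set_option autoImplicit false
set_option linter.unusedSimpArgs false
set_option linter.unusedVariables false
set_option linter.unusedSectionVars false
set_option maxRecDepth 100000

namespace Cfsg.Agent.Lib.H7Hx
open Cfsg

section
variable {F : Type*} [Field F]

/-- the encoding -/
noncomputable def e (ω : F) (n : ℕ) : F := if n = 0 then 0 else if n = 1 then 1 else if n = 2 then ω else ω ^ 2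

theorem e0 (ω : F) : e ω 0 = 0 := by simp [e]
theorem e1 (ω : F) : e ω 1 = 1 := by simp [e]
theorem e2 (ω : F) : e ω 2 = ω := by simp [e]
theorem e3 (ω : F) : e ω 3 = ω ^ 2 := by simp [e]

variable {ω : F} (h2 : (1 : F) + 1 = 0) (hω : ω ^ 2 + ω + 1 = 0)
include h2 hω

theorem e_add {a b : ℕ} (ha : a < 4) (hb : b < 4) : e ω (madd a b) = e ω a + e ω b := by
  have h10 : (1 : F) ≠ 0 := one_ne_zero
  have m : ∀ (a b k : ℕ), madd a b = k → e ω k = e ω a + e ω b → e ω (madd a b) = e ω a + e ω b := by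
    intro a b k h1 h3
    rw [h1, h3]
  interval_cases a <;> interval_cases b <;>
    first
    | exact m _ _ 0 (by decide) (by simp only [e0, e1, e2, e3]; grind)
    | exact m _ _ 1 (by decide) (by simp only [e0, e1, e2, e3]; grind)
    | exact m _ _ 2 (by decide) (by simp only [e0, e1, e2, e3]; grind)
    | exact m _ _ 3 (by decide) (by simp only [e0, e1, e2, e3]; grind)

theorem e_mul {a b : ℕ} (ha : a < 4) (hb : b < 4) : e ω (mmul a b) = e ω a * e ω b := by
  have h10 : (1 : F) ≠ 0 := one_ne_zero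
  have m : ∀ (a b k : ℕ), mmul a b = k → e ω k = e ω a * e ω b → e ω (mmul a b) = e ω a * e ω b := by
    intro a b k h1 h3
    rw [h1, h3]
  interval_cases a <;> interval_cases b <;>
    first
    | exact m _ _ 0 (by decide) (by simp only [e0, e1, e2, e3]; grind)
    | exact m _ _ 1 (by decide) (by simp only [e0, e1, e2, e3]; grind)
    | exact m _ _ 2 (by decide) (by simp only [e0, e1, e2, e3]; grind)
    | exact m _ _ 3 (by decide) (by simp only [e0, e1, e2, e3]; grind)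

theorem e_inj {a b : ℕ} (ha : a < 4) (hb : b < 4) (h : e ω a = e ω b) : a = b := by
  have h10 : (1 : F) ≠ 0 := one_ne_zero
  have n1 : ω ≠ 0 := by
    intro h0
    rw [h0] at hω
    simp at hω
  have n2 : ω ≠ 1 := by
    intro h0
    rw [h0] at hω
    apply h10
    linear_combination hω - h2
  have n3 : ω ^ 2 ≠ 0 := pow_ne_zero _ n1
  have n4 : ω ^ 2 ≠ 1 := by
    intro h0
    apply n1
    linear_combination hω - h2 - h0
  have n5 : ω ^ 2 ≠ ω := by
    intro h0
    apply h10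
    linear_combination hω - h0 - ω * h2
  interval_cases a <;> interval_cases b <;> simp only [e0, e1, e2, e3] at h <;>
    first
    | rfl
    | exact absurd h h10
    | exact absurd h.symm h10
    | exact absurd h n1
    | exact absurd h.symm n1
    | exact absurd h n2
    | exact absurd h.symm n2
    | exact absurd h n3
    | exact absurd h.symm n3
    | exact absurd h n4
    | exact absurd h.symm n4
    | exact absurd h n5
    | exact absurd h.symm n5

theorem e_surj [Fintype F] [DecidableEq F] (hF : Fintype.card F = 4) (x : F) : ∃ a, a < 4 ∧ e ω a = x := by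
  have hinj : Set.InjOn (e ω) (Finset.range 4 : Finset ℕ) := by
    intro a ha b hb h
    exact e_inj h2 hω (by simpa using ha) (by simpa using hb) h
  have hc : ((Finset.range 4).image (e ω)).card = 4 := by
    rw [Finset.card_image_of_injOn hinj, Finset.card_range]
  have hu : (Finset.range 4).image (e ω) = Finset.univ := by
    apply Finset.eq_univ_of_card
    rw [hc, hF]
  have hx : x ∈ (Finset.range 4).image (e ω) := by
    rw [hu]
    exact Finset.mem_univ x
  obtain ⟨a, ha, h⟩ := Finset.mem_image.1 hx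
  exact ⟨a, Finset.mem_range.1 ha, h⟩

end

theorem mmul_lt (a b : ℕ) : mmul a b < 4 := Nat.mod_lt _ (by decide)
theorem minv_lt (a : ℕ) : minv a < 4 := Nat.mod_lt _ (by decide)
theorem G_lt (j i : ℕ) : G j i < 4 := Nat.mod_lt _ (by decide)

theorem madd_lt {a b : ℕ} (ha : a < 4) (hb : b < 4) : madd a b < 4 :=
  Nat.xor_lt_two_pow (n := 2) ha hb

theorem wdt_lt (t i : ℕ) : wdt t i < 4 := madd_lt (madd_lt (mmul_lt _ _) (mmul_lt _ _)) (mmul_lt _ _)

theorem G_ne {j i : ℕ} (hj : j < 3) (hi : i < 6) : G j i ≠ 0 := by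
  have h := allB_spec (allB_spec G_check j hj) i hi
  simp only [Bool.and_eq_true, Bool.not_eq_true'] at h
  intro e0
  rw [e0] at h
  exact absurd h.1 (by decide)

theorem mm_spec {x y : ℕ} (hx : x ≠ 0) (hx4 : x < 4) (hy : y ≠ 0) (hy4 : y < 4) :
    mmul x y ≠ 0 ∧ mmul (mmul x (minv y)) y = x ∧ mmul (mmul x y) (minv y) = x ∧ mmul x (minv y) ≠ 0 := by
  obtain ⟨a, rfl⟩ : ∃ a, x = a + 1 := ⟨x - 1, by omega⟩
  obtain ⟨b, rfl⟩ : ∃ b, y = b + 1 := ⟨y - 1, by omega⟩
  have h := allB_spec (allB_spec mm_check a (by omega)) b (by omega)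
  simp only [Bool.and_eq_true, Bool.not_eq_true'] at h
  obtain ⟨⟨⟨⟨⟨h1, h2⟩, h3⟩, h4⟩, h5⟩, h6⟩ := h
  refine ⟨?_, Nat.eq_of_beq_eq_true h4, Nat.eq_of_beq_eq_true h5, ?_⟩
  · intro e0
    rw [e0] at h1
    exact absurd h1 (by decide)
  · intro e0
    rw [e0] at h6
    exact absurd h6 (by decide)

theorem abd_spec {t : ℕ} (ht : t < 64) : abd (code3 (wdt t)) = t :=
  Nat.eq_of_beq_eq_true (allB_spec abd_check t ht)

theorem abd_lt (x : ℕ) : abd x < 64 := Nat.mod_lt _ (by decide)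

theorem isW_iff {x : ℕ → ℕ} : isW x = true ↔ ∃ t, t < 64 ∧ ∀ i, i < 6 → x i = wdt t i := by
  constructor
  · intro h
    exact ⟨abd (code3 x), abd_lt _, fun i hi => Nat.eq_of_beq_eq_true (allB_spec h i hi)⟩
  · rintro ⟨t, ht, h⟩
    have e1 : code3 x = code3 (wdt t) := by
      unfold code3
      rw [h 0 (by norm_num), h 1 (by norm_num), h 2 (by norm_num)]
    apply allB_of
    intro i hi
    rw [e1, abd_spec ht, h i hi]
    exact Nat.beq_refl _

theorem wdt_inj {t t' : ℕ} (ht : t < 64) (ht' : t' < 64) (h : ∀ i, i < 6 → wdt t i = wdt t' i) : t = t' := by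
  have e1 : code3 (wdt t) = code3 (wdt t') := by
    unfold code3
    rw [h 0 (by norm_num), h 1 (by norm_num), h 2 (by norm_num)]
  rw [← abd_spec ht, ← abd_spec ht', e1]

theorem sd_key (σ : Equiv.Perm (Fin 6)) (i : Fin 6) : sd (key σ) i.val = (σ.symm i).val := by
  have h0 := (σ.symm 0).2
  have h1 := (σ.symm 1).2
  have h2 := (σ.symm 2).2
  have h3 := (σ.symm 3).2
  have h4 := (σ.symm 4).2
  have h5 := (σ.symm 5).2
  unfold sd key
  have e : ∀ n s : ℕ, Nat.mod (Nat.shiftRight s (Nat.mul 3 n)) 8 = s / 2 ^ (3 * n) % 8 := by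
    intro n s
    show s >>> (3 * n) % 8 = _
    rw [Nat.shiftRight_eq_div_pow]
  rw [e]
  fin_cases i <;> simp only [Fin.zero_eta, Fin.mk_one, Fin.reduceFinMk, Nat.mul_zero, pow_zero, Nat.div_one, Fin.isValue] <;> norm_num <;> omega

section
variable {F : Type*} [Field F] [Fintype F] [DecidableEq F]

/-- the vectors -/
noncomputable def gv (ω : F) (j : ℕ) : Fin 6 → F := fun i => e ω (G j i)

theorem G0_val : ∀ i : Fin 6, G 0 i.val = (![2, 3, 3, 2, 3, 2] : Fin 6 → ℕ) i := by decide +kernel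
theorem G1_val : ∀ i : Fin 6, G 1 i.val = (![3, 2, 2, 3, 3, 2] : Fin 6 → ℕ) i := by decide +kernel
theorem G2_val : ∀ i : Fin 6, G 2 i.val = (![3, 2, 3, 2, 2, 3] : Fin 6 → ℕ) i := by decide +kernel

theorem gv0 (ω : F) : (![ω, ω ^ 2, ω ^ 2, ω, ω ^ 2, ω] : Fin 6 → F) = gv ω 0 := by
  funext i
  show _ = e ω (G 0 i.val)
  rw [G0_val i]
  fin_cases i <;> simp [e]

theorem gv1 (ω : F) : (![ω ^ 2, ω, ω, ω ^ 2, ω ^ 2, ω] : Fin 6 → F) = gv ω 1 := by
  funext i
  show _ = e ω (G 1 i.val)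
  rw [G1_val i]
  fin_cases i <;> simp [e]

theorem gv2 (ω : F) : (![ω ^ 2, ω, ω ^ 2, ω, ω, ω ^ 2] : Fin 6 → F) = gv ω 2 := by
  funext i
  show _ = e ω (G 2 i.val)
  rw [G2_val i]
  fin_cases i <;> simp [e]

variable {ω : F}

theorem char2 (hF : Fintype.card F = 4) : (1 : F) + 1 = 0 := by
  have h := card_nsmul_eq_zero (G := F) (x := (1 : F))
  rw [hF] at h
  have h4 : ((1 : F) + 1) * (1 + 1) = 0 := by
    have e4 : ((1 : F) + 1) * (1 + 1) = (4 : ℕ) • (1 : F) := by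
      simp only [nsmul_eq_mul, mul_one]
      norm_num
    rw [e4]
    exact h
  exact mul_self_eq_zero.1 h4

theorem e_wdt (h2 : (1 : F) + 1 = 0) (hω : ω ^ 2 + ω + 1 = 0) (t i : ℕ) :
    e ω (wdt t i) = e ω (t % 4) * e ω (G 0 i) + e ω (t / 4 % 4) * e ω (G 1 i) + e ω (t / 16 % 4) * e ω (G 2 i) := by
  show e ω (madd (madd (mmul (t % 4) (G 0 i)) (mmul (t / 4 % 4) (G 1 i))) (mmul (t / 16 % 4) (G 2 i))) = _
  rw [e_add h2 hω (madd_lt (mmul_lt _ _) (mmul_lt _ _)) (mmul_lt _ _), e_add h2 hω (mmul_lt _ _) (mmul_lt _ _),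
    e_mul h2 hω (Nat.mod_lt _ (by norm_num)) (G_lt _ _), e_mul h2 hω (Nat.mod_lt _ (by norm_num)) (G_lt _ _),
    e_mul h2 hω (Nat.mod_lt _ (by norm_num)) (G_lt _ _)]

theorem mem_hex (h2 : (1 : F) + 1 = 0) (hω : ω ^ 2 + ω + 1 = 0) (hF : Fintype.card F = 4) (x : Fin 6 → F) :
    x ∈ hexacode F ω ↔ ∃ t, t < 64 ∧ ∀ i : Fin 6, x i = e ω (wdt t i.val) := by
  unfold hexacode
  rw [gv0, gv1, gv2, Submodule.mem_span_triple]
  constructor
  · rintro ⟨p, q, r, rfl⟩
    obtain ⟨a, ha, rfl⟩ := e_surj h2 hω hF p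
    obtain ⟨b, hb, rfl⟩ := e_surj h2 hω hF q
    obtain ⟨d, hd, rfl⟩ := e_surj h2 hω hF r
    refine ⟨a + 4 * b + 16 * d, by omega, fun i => ?_⟩
    have e1 : (a + 4 * b + 16 * d) % 4 = a := by omega
    have e2 : (a + 4 * b + 16 * d) / 4 % 4 = b := by omega
    have e3 : (a + 4 * b + 16 * d) / 16 % 4 = d := by omega
    rw [e_wdt h2 hω, e1, e2, e3]
    rfl
  · rintro ⟨t, ht, h⟩
    refine ⟨e ω (t % 4), e ω (t / 4 % 4), e ω (t / 16 % 4), funext fun i => ?_⟩
    rw [h i, e_wdt h2 hω]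
    rfl

theorem P_of_gens {σ : Equiv.Perm (Fin 6)} {c : Fin 6 → Fˣ} (h : ∀ j, j < 3 → monomialMap σ c (gv ω j) ∈ hexacode F ω) :
    ∀ x ∈ hexacode F ω, monomialMap σ c x ∈ hexacode F ω := by
  intro x hx
  have hx' := hx
  unfold hexacode at hx'
  rw [gv0, gv1, gv2] at hx'
  induction hx' using Submodule.span_induction with
  | mem x hx1 =>
    simp only [Set.mem_insert_iff, Set.mem_singleton_iff] at hx1
    rcases hx1 with rfl | rfl | rfl
    · exact h 0 (by norm_num)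
    · exact h 1 (by norm_num)
    · exact h 2 (by norm_num)
  | zero =>
    have e1 : monomialMap σ c (0 : Fin 6 → F) = 0 := by
      funext i
      simp [monomialMap]
    rw [e1]
    exact Submodule.zero_mem _
  | add x y _ _ hx1 hy1 =>
    have e1 : monomialMap σ c (x + y) = monomialMap σ c x + monomialMap σ c y := by
      funext i
      simp [monomialMap, mul_add]
    rw [e1]
    exact Submodule.add_mem _ (hx1 (by
      unfold hexacode
      rw [gv0, gv1, gv2]
      assumption)) (hy1 (by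
      unfold hexacode
      rw [gv0, gv1, gv2]
      assumption))
  | smul r x _ hx1 =>
    have e1 : monomialMap σ c (r • x) = r • monomialMap σ c x := by
      funext i
      simp only [monomialMap, Pi.smul_apply, smul_eq_mul]
      ring
    rw [e1]
    exact Submodule.smul_mem _ _ (hx1 (by
      unfold hexacode
      rw [gv0, gv1, gv2]
      assumption))

theorem gv_mem {j : ℕ} (hj : j < 3) : gv ω j ∈ hexacode F ω := by
  unfold hexacode
  rw [gv0, gv1, gv2]
  apply Submodule.subset_span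
  interval_cases j <;> simp

/-- a unit from a code -/
noncomputable def un (ω : F) (k : ℕ) : Fˣ := if h : e ω k = 0 then 1 else Units.mk0 (e ω k) h

theorem un_val {k : ℕ} (hk : e ω k ≠ 0) : ((un ω k : Fˣ) : F) = e ω k := by
  simp [un, hk]

theorem e_ne (h2 : (1 : F) + 1 = 0) (hω : ω ^ 2 + ω + 1 = 0) {k : ℕ} (h0 : k ≠ 0) (h4 : k < 4) : e ω k ≠ 0 := by
  intro h
  rw [← e0 ω] at h
  exact h0 (e_inj h2 hω h4 (by norm_num) h)

theorem mono_gv (h2 : (1 : F) + 1 = 0) (hω : ω ^ 2 + ω + 1 = 0) {σ : Equiv.Perm (Fin 6)} {c : Fin 6 → Fˣ} {k : Fin 6 → ℕ}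
    (hk : ∀ i, k i < 4) (hc : ∀ i, ((c i : Fˣ) : F) = e ω (k i)) (j : ℕ) (i : Fin 6) :
    monomialMap σ c (gv ω j) i = e ω (mmul (k i) (G j (sd (key σ) i.val))) := by
  rw [e_mul h2 hω (hk i) (G_lt _ _), sd_key, ← hc i]
  rfl

/-- the blocks of solutions -/
theorem sd_lt (σ : Equiv.Perm (Fin 6)) (n : ℕ) (hn : n < 6) : sd (key σ) n < 6 := by
  have := sd_key σ ⟨n, hn⟩
  simp only at this
  rw [this]
  exact (σ.symm ⟨n, hn⟩).2

theorem G0_sd_ne (σ : Equiv.Perm (Fin 6)) (j : ℕ) (hj : j < 3) (n : ℕ) (hn : n < 6) : G j (sd (key σ) n) ≠ 0 :=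
  G_ne hj (sd_lt σ n hn)

theorem exists_t (h2 : (1 : F) + 1 = 0) (hω : ω ^ 2 + ω + 1 = 0) (hF : Fintype.card F = 4) {σ : Equiv.Perm (Fin 6)} {c : Fin 6 → Fˣ}
    (hP : ∀ x ∈ hexacode F ω, monomialMap σ c x ∈ hexacode F ω) :
    ∃ t, t < 64 ∧ good (key σ) t = true ∧ ∀ i : Fin 6, ((c i : Fˣ) : F) = e ω (cha (key σ) t i.val) := by
  have hex : ∀ i : Fin 6, ∃ a, a < 4 ∧ e ω a = ((c i : Fˣ) : F) := fun i => e_surj h2 hω hF _
  choose k hk4 hke using hex
  have hk0 : ∀ i, k i ≠ 0 := by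
    intro i h0
    have h1 := hke i
    rw [h0, e0] at h1
    exact (c i).ne_zero h1.symm
  have hgen : ∀ j, j < 3 → ∃ t, t < 64 ∧ ∀ i : Fin 6, mmul (k i) (G j (sd (key σ) i.val)) = wdt t i.val := by
    intro j hj
    obtain ⟨t, ht, h⟩ := (mem_hex h2 hω hF _).1 (hP _ (gv_mem hj))
    refine ⟨t, ht, fun i => ?_⟩
    have h3 := h i
    rw [mono_gv h2 hω hk4 (fun i => (hke i).symm) j i] at h3
    exact e_inj h2 hω (mmul_lt _ _) (wdt_lt _ _) h3
  obtain ⟨t, ht, h0⟩ := hgen 0 (by norm_num)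
  have hy : ∀ i : Fin 6, G 0 (sd (key σ) i.val) ≠ 0 := fun i => G0_sd_ne σ 0 (by norm_num) i.val i.2
  have hw : ∀ i : Fin 6, wdt t i.val ≠ 0 := by
    intro i
    rw [← h0 i]
    exact (mm_spec (hk0 i) (hk4 i) (hy i) (G_lt _ _)).1
  have hcha : ∀ i : Fin 6, cha (key σ) t i.val = k i := by
    intro i
    show mmul (wdt t i.val) (minv (G 0 (sd (key σ) i.val))) = k i
    rw [← h0 i]
    exact (mm_spec (hk0 i) (hk4 i) (hy i) (G_lt _ _)).2.2.1
  have hW : ∀ j, j < 3 → isW (fun i => mmul (cha (key σ) t i) (G j (sd (key σ) i))) = true := by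
    intro j hj
    obtain ⟨t', ht', h'⟩ := hgen j hj
    refine isW_iff.2 ⟨t', ht', fun n hn => ?_⟩
    have e1 := hcha ⟨n, hn⟩
    have e2 := h' ⟨n, hn⟩
    simp only at e1 e2
    show mmul (cha (key σ) t n) (G j (sd (key σ) n)) = _
    rw [e1, e2]
  refine ⟨t, ht, ?_, fun i => ?_⟩
  · simp only [good, Bool.and_eq_true]
    refine ⟨⟨?_, hW 1 (by norm_num)⟩, hW 2 (by norm_num)⟩
    apply allB_of
    intro n hn
    have e1 := hw ⟨n, hn⟩
    simp only at e1
    simp only [Bool.not_eq_true']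
    cases e2 : Nat.beq (wdt t n) 0
    · rfl
    · exact absurd (Nat.eq_of_beq_eq_true e2) e1
  · rw [hcha i]
    exact (hke i).symm

theorem fiber_card (h2 : (1 : F) + 1 = 0) (hω : ω ^ 2 + ω + 1 = 0) (hF : Fintype.card F = 4) (σ : Equiv.Perm (Fin 6)) :
    Nat.card {c : Fin 6 → Fˣ // ∀ x ∈ hexacode F ω, monomialMap σ c x ∈ hexacode F ω} = cnt (key σ) := by
  classical
  let W := (Finset.range 64).filter (fun t => good (key σ) t = true)
  have hWc : W.card = cnt (key σ) := cntB_eq _ _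
  have hy : ∀ j, j < 3 → ∀ i : Fin 6, G j (sd (key σ) i.val) ≠ 0 := fun j hj i => G0_sd_ne σ j hj i.val i.2
  have hspec : ∀ t, t ∈ W → t < 64 ∧ (∀ i : Fin 6, wdt t i.val ≠ 0) ∧
      isW (fun i => mmul (cha (key σ) t i) (G 1 (sd (key σ) i))) = true ∧
      isW (fun i => mmul (cha (key σ) t i) (G 2 (sd (key σ) i))) = true := by
    intro t ht
    obtain ⟨h1, h3⟩ := Finset.mem_filter.1 ht
    simp only [good, Bool.and_eq_true] at h3
    obtain ⟨⟨h4, h5⟩, h6⟩ := h3
    refine ⟨Finset.mem_range.1 h1, fun i => ?_, h5, h6⟩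
    have h7 := allB_spec h4 i.val i.2
    simp only [Bool.not_eq_true'] at h7
    intro h8
    rw [h8] at h7
    exact absurd h7 (by decide)
  have hcha0 : ∀ t, t ∈ W → ∀ i : Fin 6, cha (key σ) t i.val ≠ 0 := by
    intro t ht i
    exact (mm_spec ((hspec t ht).2.1 i) (wdt_lt _ _) (hy 0 (by norm_num) i) (G_lt _ _)).2.2.2
  have hf : ∀ t, t ∈ W → ∀ x ∈ hexacode F ω, monomialMap σ (fun i : Fin 6 => un ω (cha (key σ) t i.val)) x ∈ hexacode F ω := by
    intro t ht
    obtain ⟨ht64, hnz, hw1, hw2⟩ := hspec t ht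
    have hval : ∀ i : Fin 6, ((un ω (cha (key σ) t i.val) : Fˣ) : F) = e ω (cha (key σ) t i.val) := fun i =>
      un_val (e_ne h2 hω (hcha0 t ht i) (mmul_lt _ _))
    apply P_of_gens
    intro j hj
    rw [mem_hex h2 hω hF]
    have hm := mono_gv h2 hω (σ := σ) (c := fun i : Fin 6 => un ω (cha (key σ) t i.val)) (k := fun i : Fin 6 => cha (key σ) t i.val)
      (fun i => mmul_lt _ _) hval j
    interval_cases j
    · refine ⟨t, ht64, fun i => ?_⟩
      rw [hm i]
      show e ω (mmul (mmul (wdt t i.val) (minv (G 0 (sd (key σ) i.val)))) (G 0 (sd (key σ) i.val))) = _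
      rw [(mm_spec (hnz i) (wdt_lt _ _) (hy 0 (by norm_num) i) (G_lt _ _)).2.1]
    · obtain ⟨t', ht', h'⟩ := isW_iff.1 hw1
      refine ⟨t', ht', fun i => ?_⟩
      rw [hm i, h' i.val i.2]
    · obtain ⟨t', ht', h'⟩ := isW_iff.1 hw2
      refine ⟨t', ht', fun i => ?_⟩
      rw [hm i, h' i.val i.2]
  let f : ↥W → {c : Fin 6 → Fˣ // ∀ x ∈ hexacode F ω, monomialMap σ c x ∈ hexacode F ω} :=
    fun t => ⟨fun i : Fin 6 => un ω (cha (key σ) t.1 i.val), hf t.1 t.2⟩
  have hfb : Function.Bijective f := by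
    constructor
    · rintro ⟨t, ht⟩ ⟨t', ht'⟩ he
      apply Subtype.ext
      have he1 : (fun i : Fin 6 => un ω (cha (key σ) t i.val)) = (fun i : Fin 6 => un ω (cha (key σ) t' i.val)) := congrArg Subtype.val he
      refine wdt_inj (hspec t ht).1 (hspec t' ht').1 (fun n hn => ?_)
      have he2 := congrFun he1 ⟨n, hn⟩
      have he3 : ((un ω (cha (key σ) t n) : Fˣ) : F) = ((un ω (cha (key σ) t' n) : Fˣ) : F) := congrArg Units.val he2
      rw [un_val (e_ne h2 hω (hcha0 t ht ⟨n, hn⟩) (mmul_lt _ _)), un_val (e_ne h2 hω (hcha0 t' ht' ⟨n, hn⟩) (mmul_lt _ _))] at he3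
      have he4 := e_inj h2 hω (mmul_lt _ _) (mmul_lt _ _) he3
      have a1 := (mm_spec ((hspec t ht).2.1 ⟨n, hn⟩) (wdt_lt _ _) (hy 0 (by norm_num) ⟨n, hn⟩) (G_lt _ _)).2.1
      have a2 := (mm_spec ((hspec t' ht').2.1 ⟨n, hn⟩) (wdt_lt _ _) (hy 0 (by norm_num) ⟨n, hn⟩) (G_lt _ _)).2.1
      simp only at a1 a2
      have he5 : mmul (wdt t n) (minv (G 0 (sd (key σ) n))) = mmul (wdt t' n) (minv (G 0 (sd (key σ) n))) := he4
      rw [← a1, ← a2, he5]
    · rintro ⟨c, hc⟩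
      obtain ⟨t, ht, hg, hv⟩ := exists_t h2 hω hF hc
      refine ⟨⟨t, Finset.mem_filter.2 ⟨Finset.mem_range.2 ht, hg⟩⟩, ?_⟩
      apply Subtype.ext
      funext i
      apply Units.ext
      show ((un ω (cha (key σ) t i.val) : Fˣ) : F) = _
      rw [hv i]
      refine un_val (e_ne h2 hω (hcha0 t (Finset.mem_filter.2 ⟨Finset.mem_range.2 ht, hg⟩) i) (mmul_lt _ _))
  rw [← Nat.card_congr (Equiv.ofBijective f hfb), Nat.card_eq_fintype_card, Fintype.card_coe, hWc]

/-- the statement -/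
theorem hexacode_main (hF : Fintype.card F = 4) (hω : ω ^ 2 + ω + 1 = 0) :
    Nat.card {f : Equiv.Perm (Fin 6) × (Fin 6 → Fˣ) // (∀ x ∈ hexacode F ω, monomialMap f.1 f.2 x ∈ hexacode F ω)} = 1080 ∧
    (∀ c : Fin 6 → Fˣ, (∀ x ∈ hexacode F ω, monomialMap 1 c x ∈ hexacode F ω) → ∀ i j, c i = c j) ∧
    {σ : Equiv.Perm (Fin 6) | ∃ c : Fin 6 → Fˣ, (∀ x ∈ hexacode F ω, monomialMap σ c x ∈ hexacode F ω)} =
      (alternatingGroup (Fin 6) : Set (Equiv.Perm (Fin 6))) := by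
  have h2 := char2 hF
  refine ⟨?_, ?_, ?_⟩
  · rw [Nat.card_congr (Equiv.subtypeProdEquivSigmaSubtype (fun (σ : Equiv.Perm (Fin 6)) (c : Fin 6 → Fˣ) =>
      ∀ x ∈ hexacode F ω, monomialMap σ c x ∈ hexacode F ω)), Nat.card_sigma]
    have e1 : ∀ σ : Equiv.Perm (Fin 6), Nat.card {c : Fin 6 → Fˣ // ∀ x ∈ hexacode F ω, monomialMap σ c x ∈ hexacode F ω} =
        if Equiv.Perm.sign σ = 1 then 3 else 0 := fun σ => by
      rw [fiber_card h2 hω hF, cnt_check]
    rw [Finset.sum_congr rfl (fun σ _ => e1 σ), Finset.sum_ite, Finset.sum_const_zero, Finset.sum_const, even_count]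
    rfl
  · intro c hc i j
    obtain ⟨t, ht, hg, hv⟩ := exists_t h2 hω hF hc
    have hk := allB_spec const_check t ht
    rw [hg, cond_true] at hk
    have hc0 : ∀ i : Fin 6, ((c i : Fˣ) : F) = e ω (cha (key 1) t 0) := by
      intro i
      rw [hv i, Nat.eq_of_beq_eq_true (allB_spec hk i.val i.2)]
    apply Units.ext
    rw [hc0 i, hc0 j]
  · ext σ
    simp only [Set.mem_ofPred_eq, SetLike.mem_coe, Equiv.Perm.mem_alternatingGroup]
    have hcard := fiber_card h2 hω hF σ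
    rw [cnt_check] at hcard
    constructor
    · rintro ⟨c, hc⟩
      by_contra hs
      rw [if_neg hs] at hcard
      have hne : Nonempty {c : Fin 6 → Fˣ // ∀ x ∈ hexacode F ω, monomialMap σ c x ∈ hexacode F ω} := ⟨⟨c, hc⟩⟩
      have := Nat.card_pos (α := {c : Fin 6 → Fˣ // ∀ x ∈ hexacode F ω, monomialMap σ c x ∈ hexacode F ω})
      omega
    · intro hs
      rw [if_pos hs] at hcard
      have hpos : 0 < Nat.card {c : Fin 6 → Fˣ // ∀ x ∈ hexacode F ω, monomialMap σ c x ∈ hexacode F ω} := by omega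
      obtain ⟨⟨c, hc⟩⟩ := (Nat.card_pos_iff.1 hpos).1
      exact ⟨c, hc⟩

end

end Cfsg.Agent.Lib.H7Hx
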