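import Cfsg.Agent.Lib.H7M11X
import Cfsg.Agent.Lib.GolayFam

/-! The centraliser of an involution in the smallest Mathieu group is the general linear group of degree two over the field with three elements. -/

set_option autoImplicit false
set_option linter.unusedSimpArgs false
set_option linter.unusedVariables false
set_option linter.style.haveILetI false
set_option maxRecDepth 100000
open scoped Pointwise
open Cfsg

namespace Cfsg.Agent.Lib.H7M11X
open Cfsg.Agent.Lib
open scoped Pointwise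
open Matrix
open Cfsg.Agent.Lib.GolayBasic Cfsg.Agent.Lib.GolayCode Cfsg.Agent.Lib.GolayPerm Cfsg.Agent.Lib.GolayOrder Cfsg.Agent.Lib.GolayFacts Cfsg.Agent.Lib.GolayTools Cfsg.Agent.Lib.GolayChain Cfsg.Agent.Lib.GolayM23 Cfsg.Agent.Lib.GolayM12 Cfsg.Agent.Lib.GolayM11C Cfsg.Agent.Lib.H7GL23 Cfsg.Agent.Lib.GolayFam

/-- general theorem -/
theorem gl_of_lin {G P : Type*} [Group G] (act : G →* Equiv.Perm P) (lab : V3 → P) (hlab : Function.Injective lab)
    (hlin : ∀ g : G, ∃ M : Matrix (Fin 2) (Fin 2) (ZMod 3), ∀ v, act g (lab v) = lab (M *ᵥ v))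
    (hinj : ∀ g : G, (∀ v, act g (lab v) = lab v) → g = 1)
    (hcard : 48 ≤ Nat.card G) : Nonempty (G ≃* GL (Fin 2) (ZMod 3)) := by
  classical
  choose ψf key using hlin
  have h1 : ψf 1 = 1 := by
    apply Matrix.mulVec_injective
    funext v
    apply hlab
    rw [← key, Matrix.one_mulVec]
    simp
  have hmul : ∀ g h, ψf (g * h) = ψf g * ψf h := by
    intro g h
    apply Matrix.mulVec_injective
    funext v
    apply hlab
    show lab (ψf (g * h) *ᵥ v) = lab ((ψf g * ψf h) *ᵥ v)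
    rw [← key, ← Matrix.mulVec_mulVec, ← key, ← key, map_mul, Equiv.Perm.mul_apply]
  let ψ : G →* Matrix (Fin 2) (Fin 2) (ZMod 3) := { toFun := ψf, map_one' := h1, map_mul' := hmul }
  let Φ : G →* GL (Fin 2) (ZMod 3) := ψ.toHomUnits
  have hΦ : Function.Injective Φ := by
    rw [injective_iff_map_eq_one]
    intro g e
    apply hinj
    intro v
    have e1 : ψf g = 1 := by
      have := congrArg Units.val e
      simpa [Φ, ψ] using this
    rw [key, e1, Matrix.one_mulVec]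
  have h4 : Nat.card (GL (Fin 2) (ZMod 3)) = 48 := by
    rw [Matrix.card_GL_field]
    simp [Fin.prod_univ_two, ZMod.card]
  have hb : Function.Bijective Φ := hΦ.bijective_of_nat_card_le (by rw [h4]; exact hcard)
  exact ⟨MulEquiv.ofBijective Φ hb⟩

/-- index of a vector -/
def iv (v : V3) : ℕ := (v 0).val + 3 * (v 1).val

theorem iv_lt (v : V3) : iv v < 9 := by
  have h0 := ZMod.val_lt (v 0)
  have h1 := ZMod.val_lt (v 1)
  unfold iv
  omega

theorem iv_inj {v w : V3} (h : iv v = iv w) : v = w := by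
  have h0 := ZMod.val_lt (v 0)
  have h1 := ZMod.val_lt (v 1)
  have h2 := ZMod.val_lt (w 0)
  have h3 := ZMod.val_lt (w 1)
  unfold iv at h
  have e0 : (v 0).val = (w 0).val := by omega
  have e1 : (v 1).val = (w 1).val := by omega
  funext i
  fin_cases i
  · exact ZMod.val_injective 3 e0
  · exact ZMod.val_injective 3 e1

/-- the labelled points -/
def lab (v : V3) : GolayPt := ptOf (bet (iv v))

theorem bet_lt' {a : ℕ} (ha : a < 9) : bet a < 24 :=
  Nat.le_of_ble_eq_true (allBelow_spec bet_lt a ha)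

theorem idx_lab (u : V3) : idx (lab u) = bet (iv u) := idx_ptOf (bet_lt' (iv_lt u))

theorem lab_inj : Function.Injective lab := by
  intro v w h
  have h1 := congrArg idx h
  rw [idx_lab, idx_lab] at h1
  apply iv_inj
  have a := Nat.eq_of_beq_eq_true (allBelow_spec lam_bet _ (iv_lt v))
  have b := Nat.eq_of_beq_eq_true (allBelow_spec lam_bet _ (iv_lt w))
  calc iv v = lam (bet (iv v)) := a.symm
    _ = lam (bet (iv w)) := by rw [h1]
    _ = iv w := b

/-- the involution as a permutation -/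
noncomputable def X0 : Equiv.Perm GolayPt := permOf XC X_ok

theorem X0_rep : Rep X0 XC := rep_permOf _ _

theorem X0_mem : X0 ∈ F1 := hH11 _ _ X0_rep X_in

theorem beq_of_eq {a b : ℕ} (h : a = b) : Nat.beq a b = true := by
  subst h
  exact Nat.beq_refl a

theorem exists_conj {g : Equiv.Perm GolayPt} (hg : g ∈ F1) (h2 : g * g = 1) (hne : g ≠ 1) :
    ∃ c ∈ F1, c * g = X0 * c := by
  obtain ⟨pp, r, hf⟩ := allF1_spec invF_check hg
  have h3 : isInv pp = true := by
    have a1 : allBelow (fun i => Nat.beq (ap pp (ap pp i)) i) 24 = true := by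
      apply allBelow_of_forall
      intro i hi
      have e1 := r (ptOf i)
      have e2 := r (g (ptOf i))
      rw [idx_ptOf hi] at e1
      rw [e1] at e2
      have e3 : g (g (ptOf i)) = ptOf i := by
        have := congrArg (fun s : Equiv.Perm GolayPt => s (ptOf i)) h2
        simpa using this
      rw [e3, idx_ptOf hi] at e2
      exact beq_of_eq e2.symm
    have a2 : allBelow (fun i => Nat.beq (ap pp i) i) 24 = false := by
      by_contra hh
      rw [Bool.not_eq_false] at hh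
      apply hne
      apply Equiv.ext
      intro p
      apply idx_injective
      have := Nat.eq_of_beq_eq_true (allBelow_spec hh (idx p) (idx_lt p))
      rw [r p, this]
      rfl
    simp [isInv, a1, a2]
  simp only [invF, h3, cond_true, Bool.and_eq_true] at hf
  obtain ⟨⟨h4, h5⟩, h6⟩ := hf
  obtain ⟨c, rc⟩ : ∃ c, Rep c (lk cjT pp) := ⟨_, rep_permOf _ h4⟩
  refine ⟨c, hH11 _ _ rc h5, ?_⟩
  apply Equiv.ext
  intro p
  apply idx_injective
  have := Nat.eq_of_beq_eq_true (allBelow_spec h6 (idx p) (idx_lt p))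
  rw [Equiv.Perm.mul_apply, Equiv.Perm.mul_apply, rc (g p), r p, X0_rep (c p), rc p]
  exact this

/-- decoding -/
def dec (x : ℕ) : V3 := ![((x % 3 : ℕ) : ZMod 3), ((x / 3 : ℕ) : ZMod 3)]

theorem iv_mat {x y : ℕ} (hx : x < 9) (hy : y < 9) (v : V3) : iv (mat (dec x) (dec y) *ᵥ v) = cb x y (iv v) := by
  rw [mat_mulVec]
  exact cb_check (v 0) (v 1) ⟨x, hx⟩ ⟨y, hy⟩

theorem lin_of_comm {g : Equiv.Perm GolayPt} (hF : g ∈ F1) (hc : g * X0 = X0 * g) :
    ∃ M : Matrix (Fin 2) (Fin 2) (ZMod 3), (∀ v, g (lab v) = lab (M *ᵥ v)) ∧ ((∀ v, g (lab v) = lab v) → g = 1) := by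
  obtain ⟨pp, r, hf⟩ := allF1_spec linF_check hF
  have hcm : commX pp = true := by
    apply allBelow_of_forall
    intro i hi
    have e := congrArg (fun s : Equiv.Perm GolayPt => idx (s (ptOf i))) hc
    simp only [Equiv.Perm.mul_apply] at e
    rw [r, X0_rep, X0_rep, r, idx_ptOf hi] at e
    exact beq_of_eq e
  simp only [linF, hcm, cond_true, Bool.and_eq_true] at hf
  obtain ⟨⟨⟨hx, hy⟩, hall⟩, hfix⟩ := hf
  have hx' : lam (ap pp 4) < 9 := Nat.le_of_ble_eq_true hx
  have hy' : lam (ap pp 9) < 9 := Nat.le_of_ble_eq_true hy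
  refine ⟨mat (dec (lam (ap pp 4))) (dec (lam (ap pp 9))), ?_, ?_⟩
  · intro v
    apply idx_injective
    have e := Nat.eq_of_beq_eq_true (allBelow_spec hall (iv v) (iv_lt v))
    rw [r, idx_lab, idx_lab, iv_mat hx' hy']
    exact e
  · intro hv
    have e1 : ap pp 4 = 4 := by
      have := congrArg idx (hv ![1, 0])
      rw [r, idx_lab] at this
      have i1 : iv ![1, 0] = 1 := by decide
      rw [i1, bet_vals.2.1] at this
      exact this
    have e2 : ap pp 9 = 9 := by
      have := congrArg idx (hv ![0, 1])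
      rw [r, idx_lab] at this
      have i1 : iv ![0, 1] = 3 := by decide
      rw [i1, bet_vals.2.2] at this
      exact this
    rw [e1, e2] at hfix
    have h5 : allBelow (fun i => Nat.beq (ap pp i) i) 24 = true := hfix
    apply Equiv.ext
    intro p
    apply idx_injective
    have := Nat.eq_of_beq_eq_true (allBelow_spec h5 (idx p) (idx_lt p))
    rw [r, this]
    rfl

theorem el_mem {i : ℕ} (hi : i < 48) : ∃ h ∈ F1, h * X0 = X0 * h ∧ Rep h (el i) := by
  have h := allBelow_spec el_check i hi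
  simp only [elOK, Bool.and_eq_true] at h
  obtain ⟨⟨h1, h2⟩, h3⟩ := h
  obtain ⟨c, rc⟩ : ∃ c, Rep c (el i) := ⟨_, rep_permOf _ h1⟩
  refine ⟨c, hH11 _ _ rc h2, ?_, rc⟩
  apply Equiv.ext
  intro p
  apply idx_injective
  have := Nat.eq_of_beq_eq_true (allBelow_spec h3 (idx p) (idx_lt p))
  rw [Equiv.Perm.mul_apply, Equiv.Perm.mul_apply, rc (X0 p), X0_rep p, X0_rep (c p), rc p]
  exact this

theorem kk_of_rep {g : Equiv.Perm GolayPt} {i : ℕ} (r : Rep g (el i)) :
    kk i = idx (g (ptOf 4)) + 24 * idx (g (ptOf 9)) := by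
  rw [r, r, idx_ptOf (by norm_num), idx_ptOf (by norm_num)]
  rfl

theorem conj_in_F1 {w : Equiv.Perm GolayPt} (hw : w ∈ M24) {g : ↥M24}
    (hg : g ∈ MulAction.stabilizer M24 (w • GolayBasic.setOf D0) ⊓ MulAction.stabilizer M24 (w (ptOf 0))) :
    w⁻¹ * (g : Equiv.Perm GolayPt) * w ∈ F1 := by
  obtain ⟨a0, a1⟩ := hg
  have a0' : (g : Equiv.Perm GolayPt) • (w • GolayBasic.setOf D0) = w • GolayBasic.setOf D0 := a0
  have a1' : (g : Equiv.Perm GolayPt) (w (ptOf 0)) = w (ptOf 0) := a1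
  refine mem_F1.2 ⟨⟨M24.mul_mem (M24.mul_mem (M24.inv_mem hw) g.2) hw, ?_⟩, ?_⟩
  · refine MulAction.mem_stabilizer_iff.2 ?_
    rw [mul_smul, mul_smul, a0', inv_smul_smul]
  · simp [Equiv.Perm.mul_apply, a1']

/-- the core -/
theorem core {z : Equiv.Perm GolayPt} (hz : z ∈ M24)
    (x : ↥(MulAction.stabilizer M24 (z • GolayBasic.setOf D0) ⊓ MulAction.stabilizer M24 (z (ptOf 0))))
    (hxz : z⁻¹ * ((x.1 : ↥M24) : Equiv.Perm GolayPt) * z = X0) :
    Nonempty (↥(Subgroup.centralizer ({x} : Set ↥(MulAction.stabilizer M24 (z • GolayBasic.setOf D0) ⊓ MulAction.stabilizer M24 (z (ptOf 0))))) ≃* GL (Fin 2) (ZMod 3)) := by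
  classical
  let K := MulAction.stabilizer M24 (z • GolayBasic.setOf D0) ⊓ MulAction.stabilizer M24 (z (ptOf 0))
  let act : ↥(Subgroup.centralizer ({x} : Set ↥K)) →* Equiv.Perm GolayPt :=
    (M24.subtype).comp (K.subtype.comp (Subgroup.centralizer ({x} : Set ↥K)).subtype)
  have hcm : ∀ g : ↥(Subgroup.centralizer ({x} : Set ↥K)),
      (z⁻¹ * ((g.1.1 : ↥M24) : Equiv.Perm GolayPt) * z) * X0 = X0 * (z⁻¹ * ((g.1.1 : ↥M24) : Equiv.Perm GolayPt) * z) := by
    rintro ⟨g, hg⟩
    have h1 := Subgroup.mem_centralizer_iff.1 hg x (Set.mem_singleton x)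
    have h2 : ((x.1 : ↥M24) : Equiv.Perm GolayPt) * ((g.1 : ↥M24) : Equiv.Perm GolayPt) =
        ((g.1 : ↥M24) : Equiv.Perm GolayPt) * ((x.1 : ↥M24) : Equiv.Perm GolayPt) :=
      congrArg (fun t : ↥K => ((t.1 : ↥M24) : Equiv.Perm GolayPt)) h1
    rw [← hxz]
    calc (z⁻¹ * ((g.1 : ↥M24) : Equiv.Perm GolayPt) * z) * (z⁻¹ * ((x.1 : ↥M24) : Equiv.Perm GolayPt) * z)
        = z⁻¹ * (((g.1 : ↥M24) : Equiv.Perm GolayPt) * ((x.1 : ↥M24) : Equiv.Perm GolayPt)) * z := by group
      _ = z⁻¹ * (((x.1 : ↥M24) : Equiv.Perm GolayPt) * ((g.1 : ↥M24) : Equiv.Perm GolayPt)) * z := by rw [h2]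
      _ = _ := by group
  refine gl_of_lin act (fun v => z (lab v)) (z.injective.comp lab_inj) ?_ ?_ ?_
  · intro g
    obtain ⟨M, hM, -⟩ := lin_of_comm (conj_in_F1 hz g.1.2) (hcm g)
    refine ⟨M, fun v => ?_⟩
    have h3 := hM v
    show ((g.1.1 : ↥M24) : Equiv.Perm GolayPt) (z (lab v)) = z (lab (M *ᵥ v))
    rw [← h3]
    simp [Equiv.Perm.mul_apply]
  · intro g hv
    obtain ⟨M, -, h1⟩ := lin_of_comm (conj_in_F1 hz g.1.2) (hcm g)
    have h2 : z⁻¹ * ((g.1.1 : ↥M24) : Equiv.Perm GolayPt) * z = 1 := by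
      apply h1
      intro v
      have h3 : ((g.1.1 : ↥M24) : Equiv.Perm GolayPt) (z (lab v)) = z (lab v) := hv v
      simp [Equiv.Perm.mul_apply, h3]
    apply Subtype.ext
    apply Subtype.ext
    apply Subtype.ext
    show ((g.1.1 : ↥M24) : Equiv.Perm GolayPt) = 1
    have h4 : ((g.1.1 : ↥M24) : Equiv.Perm GolayPt) = z * (z⁻¹ * ((g.1.1 : ↥M24) : Equiv.Perm GolayPt) * z) * z⁻¹ := by group
    rw [h4, h2]
    group
  · have hm : ∀ i : Fin 48, ∃ g : ↥(Subgroup.centralizer ({x} : Set ↥K)), ∃ h, Rep h (el i.val) ∧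
        ((g.1.1 : ↥M24) : Equiv.Perm GolayPt) = z * h * z⁻¹ := by
      intro i
      obtain ⟨h, hF, hc, r⟩ := el_mem i.2
      obtain ⟨g, hg, e⟩ := conj_mem_flag hz hF
      refine ⟨⟨⟨g, hg⟩, ?_⟩, h, r, e⟩
      refine Subgroup.mem_centralizer_iff.2 ?_
      intro y hy
      rw [Set.mem_singleton_iff] at hy
      subst hy
      apply Subtype.ext
      apply Subtype.ext
      show ((y.1 : ↥M24) : Equiv.Perm GolayPt) * (g : Equiv.Perm GolayPt) = (g : Equiv.Perm GolayPt) * ((y.1 : ↥M24) : Equiv.Perm GolayPt)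
      rw [e]
      have e5 : ((y.1 : ↥M24) : Equiv.Perm GolayPt) = z * X0 * z⁻¹ := by
        rw [← hxz]
        group
      rw [e5]
      calc z * X0 * z⁻¹ * (z * h * z⁻¹) = z * (X0 * h) * z⁻¹ := by group
        _ = z * (h * X0) * z⁻¹ := by rw [hc]
        _ = _ := by group
    choose f h hr he using hm
    have hinj : Function.Injective f := by
      intro i j e
      have e1 := congrArg (fun t : ↥(Subgroup.centralizer ({x} : Set ↥K)) => ((t.1.1 : ↥M24) : Equiv.Perm GolayPt)) e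
      simp only [he] at e1
      have e2 : h i = h j := by
        have e3 := mul_right_cancel e1
        exact mul_left_cancel e3
      apply Fin.ext
      refine inj_of_mono kk_mono i.val i.2 j.val j.2 ?_
      rw [kk_of_rep (hr i), kk_of_rep (hr j), e2]
    have := Nat.card_le_card_of_injective f hinj
    simpa using this

/-- the theorem -/
theorem main (d : Finset GolayPt) (hd : d ∈ dodecads) (p : GolayPt) (hp : p ∈ d)
    (x : ↥(MulAction.stabilizer M24 d ⊓ MulAction.stabilizer M24 p)) (hx : orderOf x = 2) :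
    Nonempty (↥(Subgroup.centralizer ({x} : Set ↥(MulAction.stabilizer M24 d ⊓ MulAction.stabilizer M24 p))) ≃* GL (Fin 2) (ZMod 3)) := by
  obtain ⟨w, hw, e1, e2⟩ := exists_flag hd hp
  have hin : w⁻¹ * ((x.1 : ↥M24) : Equiv.Perm GolayPt) * w ∈ F1 := by
    subst e1 e2
    exact conj_in_F1 hw x.2
  have hsq : x * x = 1 := by
    have := pow_orderOf_eq_one x
    rw [hx, pow_two] at this
    exact this
  have hne : x ≠ 1 := by
    intro h
    rw [h, orderOf_one] at hx
    omega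
  have hsq' : ((x.1 : ↥M24) : Equiv.Perm GolayPt) * ((x.1 : ↥M24) : Equiv.Perm GolayPt) = 1 :=
    congrArg (fun t : ↥(MulAction.stabilizer M24 d ⊓ MulAction.stabilizer M24 p) => ((t.1 : ↥M24) : Equiv.Perm GolayPt)) hsq
  obtain ⟨c, hc, hce⟩ := exists_conj hin
    (by
      calc w⁻¹ * ((x.1 : ↥M24) : Equiv.Perm GolayPt) * w * (w⁻¹ * ((x.1 : ↥M24) : Equiv.Perm GolayPt) * w)
          = w⁻¹ * (((x.1 : ↥M24) : Equiv.Perm GolayPt) * ((x.1 : ↥M24) : Equiv.Perm GolayPt)) * w := by group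
        _ = 1 := by rw [hsq']; group)
    (by
      intro h
      apply hne
      apply Subtype.ext
      apply Subtype.ext
      show ((x.1 : ↥M24) : Equiv.Perm GolayPt) = 1
      have h4 : ((x.1 : ↥M24) : Equiv.Perm GolayPt) = w * (w⁻¹ * ((x.1 : ↥M24) : Equiv.Perm GolayPt) * w) * w⁻¹ := by group
      rw [h4, h]
      group)
  obtain ⟨hH, h0⟩ := mem_F1.1 hc
  obtain ⟨z, hzd⟩ : ∃ z, z = w * c⁻¹ := ⟨_, rfl⟩
  have hzM : z ∈ M24 := by
    rw [hzd]
    exact M24.mul_mem hw (M24.inv_mem hH.1)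
  have e3 : z • GolayBasic.setOf D0 = d := by
    have h2 : c⁻¹ • GolayBasic.setOf D0 = GolayBasic.setOf D0 := (H12.inv_mem hH).2
    rw [hzd, mul_smul, h2, e1]
  have e4 : z (ptOf 0) = p := by
    have h3 : c⁻¹ (ptOf 0) = ptOf 0 := by
      rw [Equiv.Perm.inv_eq_iff_eq]
      exact h0.symm
    rw [hzd, Equiv.Perm.mul_apply, h3, e2]
  have hxz : z⁻¹ * ((x.1 : ↥M24) : Equiv.Perm GolayPt) * z = X0 := by
    rw [hzd]
    calc (w * c⁻¹)⁻¹ * ((x.1 : ↥M24) : Equiv.Perm GolayPt) * (w * c⁻¹)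
        = c * (w⁻¹ * ((x.1 : ↥M24) : Equiv.Perm GolayPt) * w) * c⁻¹ := by group
      _ = X0 * c * c⁻¹ := by rw [hce]
      _ = X0 := by group
  subst e3 e4
  exact core hzM x hxz

end Cfsg.Agent.Lib.H7M11X
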