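import Mathlib
import Cfsg.Prelude.Def_SporadicB
import Cfsg.Prelude.Def_Classical

/-! Transvections in the isometry group of a non-singular quadratic form over the field with two elements: they form a
class of 3-transpositions generating the group as soon as the dimension is at least 5. -/

set_option autoImplicit false
set_option linter.unusedSimpArgs false
set_option linter.unusedVariables false
set_option linter.style.haveILetI false
set_option linter.unusedSectionVars false

namespace Cfsg.Agent.Lib.H7OrthF2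

open Matrix

variable {ι : Type} [Fintype ι] [DecidableEq ι]

/-- the polar form -/
def bB (Q : (ι → ZMod 2) → ZMod 2) (x y : ι → ZMod 2) : ZMod 2 := Q (x + y) + Q x + Q y

/-- a non-singular quadratic form in dimension at least 5 -/
structure QF (Q : (ι → ZMod 2) → ZMod 2) : Prop where
  zero : Q 0 = 0
  add_left : ∀ x y z, bB Q (x + y) z = bB Q x z + bB Q y z
  nondeg : ∀ v, v ≠ 0 → ∃ x, bB Q x v = 1
  dim : 5 ≤ Fintype.card ι

theorem two_cases (a : ZMod 2) : a = 0 ∨ a = 1 := by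
  revert a
  decide

theorem vv_add_self (x : ι → ZMod 2) : x + x = 0 := by
  funext i
  exact CharTwo.add_self_eq_zero _

theorem vv_eq_of_add {x y : ι → ZMod 2} (h : x + y = 0) : x = y := by
  funext i
  exact CharTwo.add_eq_zero.1 (congrFun h i)

section
variable {Q : (ι → ZMod 2) → ZMod 2} (hQ : QF Q)
include hQ

theorem om_symm (x y : ι → ZMod 2) : bB Q x y = bB Q y x := by
  unfold bB
  rw [add_comm x y]
  ring

theorem om_self (x : ι → ZMod 2) : bB Q x x = 0 := by
  unfold bB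
  rw [vv_add_self, hQ.zero, zero_add]
  exact CharTwo.add_self_eq_zero _

theorem om_add_left (x y z : ι → ZMod 2) : bB Q (x + y) z = bB Q x z + bB Q y z := hQ.add_left x y z

theorem om_add_right (x y z : ι → ZMod 2) : bB Q x (y + z) = bB Q x y + bB Q x z := by
  rw [om_symm hQ, om_add_left hQ, om_symm hQ y, om_symm hQ z]

theorem om_zero_left (z : ι → ZMod 2) : bB Q 0 z = 0 := by
  unfold bB
  rw [zero_add, hQ.zero, add_zero]
  exact CharTwo.add_self_eq_zero _

theorem om_smul_left (a : ZMod 2) (x y : ι → ZMod 2) : bB Q (a • x) y = a * bB Q x y := by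
  rcases two_cases a with rfl | rfl
  · rw [zero_smul, zero_mul, om_zero_left hQ]
  · rw [one_smul, one_mul]

theorem om_smul_right (a : ZMod 2) (x y : ι → ZMod 2) : bB Q x (a • y) = a * bB Q x y := by
  rw [om_symm hQ, om_smul_left hQ, om_symm hQ y]

theorem Q_add (x y : ι → ZMod 2) : Q (x + y) = bB Q x y + Q x + Q y := by
  unfold bB
  generalize Q (x + y) = a
  generalize Q x = b
  generalize Q y = c
  revert a b c
  decide

theorem om_pair {v w : ι → ZMod 2} (hv : v ≠ 0) (hw : w ≠ 0) : ∃ x, bB Q x v = 1 ∧ bB Q x w = 1 := by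
  obtain ⟨a, ha⟩ := hQ.nondeg v hv
  obtain ⟨b, hb⟩ := hQ.nondeg w hw
  rcases two_cases (bB Q a w) with h1 | h1
  · rcases two_cases (bB Q b v) with h2 | h2
    · refine ⟨a + b, ?_, ?_⟩
      · rw [om_add_left hQ, ha, h2, add_zero]
      · rw [om_add_left hQ, hb, h1, zero_add]
    · exact ⟨b, h2, hb⟩
  · exact ⟨a, ha, h1⟩

theorem Q_ne_zero {v : ι → ZMod 2} (hv : Q v = 1) : v ≠ 0 := by
  rintro rfl
  rw [hQ.zero] at hv
  exact zero_ne_one hv

/-- the form as a bilinear form -/
noncomputable def BF : LinearMap.BilinForm (ZMod 2) (ι → ZMod 2) :=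
  LinearMap.mk₂ (ZMod 2) (bB Q) (om_add_left hQ)
    (fun c x y => by rw [om_smul_left hQ]; rfl) (om_add_right hQ)
    (fun c x y => by rw [om_smul_right hQ]; rfl)

theorem BF_apply (x y : ι → ZMod 2) : BF hQ x y = bB Q x y := rfl

theorem BF_refl : (BF hQ).IsRefl := by
  intro x y h
  rw [BF_apply] at h ⊢
  rw [om_symm hQ]
  exact h

theorem BF_nondeg : (BF hQ).Nondegenerate := by
  have key : ∀ x, (∀ y, bB Q x y = 0) → x = 0 := by
    intro x h
    by_contra hx
    obtain ⟨y, hy⟩ := hQ.nondeg x hx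
    rw [om_symm hQ, h] at hy
    exact zero_ne_one hy
  constructor
  · intro x h
    exact key x h
  · intro y h
    apply key y
    intro x
    rw [om_symm hQ]
    exact h x

/-- two vectors orthogonal to given ones, not orthogonal to each other -/
theorem exists_z (a b : ι → ZMod 2) : ∃ z1 z2, bB Q z1 a = 0 ∧ bB Q z1 b = 0 ∧ bB Q z2 a = 0 ∧ bB Q z2 b = 0 ∧ bB Q z1 z2 = 1 := by
  classical
  by_contra hc
  push Not at hc
  let W : Submodule (ZMod 2) (ι → ZMod 2) := Submodule.span (ZMod 2) {a, b}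
  let T := (BF hQ).orthogonal W
  have hT : ∀ z ∈ T, bB Q z a = 0 ∧ bB Q z b = 0 := by
    intro z hz
    have h1 := (LinearMap.BilinForm.mem_orthogonal_iff.1 hz) a (Submodule.subset_span (by simp))
    have h2 := (LinearMap.BilinForm.mem_orthogonal_iff.1 hz) b (Submodule.subset_span (by simp))
    have h3 : bB Q a z = 0 := h1
    have h4 : bB Q b z = 0 := h2
    rw [om_symm hQ] at h3 h4
    exact ⟨h3, h4⟩
  have hiso : T ≤ (BF hQ).orthogonal T := by
    intro z hz
    refine LinearMap.BilinForm.mem_orthogonal_iff.2 ?_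
    intro y hy
    show bB Q y z = 0
    obtain ⟨h1, h2⟩ := hT z hz
    obtain ⟨h3, h4⟩ := hT y hy
    exact (two_cases _).resolve_right (hc y z h3 h4 h1 h2)
  have h5 := Submodule.finrank_mono hiso
  have h6 := LinearMap.BilinForm.finrank_orthogonal (BF_nondeg hQ) T
  have h7 := LinearMap.BilinForm.finrank_orthogonal (BF_nondeg hQ) W
  have h8 : Module.finrank (ZMod 2) W ≤ 2 := by
    have := finrank_span_finset_le_card (R := ZMod 2) ({a, b} : Finset (ι → ZMod 2))
    have h9 : (({a, b} : Finset (ι → ZMod 2)) : Set (ι → ZMod 2)) = {a, b} := by simp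
    rw [h9] at this
    exact this.trans Finset.card_le_two
  have h10 : Module.finrank (ZMod 2) (ι → ZMod 2) = Fintype.card ι := by simp
  have h11 := hQ.dim
  have h12 : Module.finrank (ZMod 2) T = Fintype.card ι - Module.finrank (ZMod 2) W := by
    rw [h7, h10]
  have h13 : Module.finrank (ZMod 2) ((BF hQ).orthogonal T) = Fintype.card ι - Module.finrank (ZMod 2) T := by
    rw [h6, h10]
  omega

theorem exists_Q1 (a b : ι → ZMod 2) : ∃ v, Q v = 1 ∧ bB Q v a = 0 ∧ bB Q v b = 0 := by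
  obtain ⟨z1, z2, h1, h2, h3, h4, h5⟩ := exists_z hQ a b
  rcases two_cases (Q z1) with e1 | e1
  · rcases two_cases (Q z2) with e2 | e2
    · refine ⟨z1 + z2, ?_, ?_, ?_⟩
      · rw [Q_add hQ, h5, e1, e2]
        decide
      · rw [om_add_left hQ, h1, h3, add_zero]
      · rw [om_add_left hQ, h2, h4, add_zero]
    · exact ⟨z2, e2, h3, h4⟩
  · exact ⟨z1, e1, h1, h2⟩

/-- a vector with prescribed products and value one -/
theorem exists_u {v w : ι → ZMod 2} (hv : v ≠ 0) (hw : w ≠ 0) : ∃ u, Q u = 1 ∧ bB Q u v = 1 ∧ bB Q u w = 1 := by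
  obtain ⟨u0, h1, h2⟩ := om_pair hQ hv hw
  obtain ⟨z1, z2, a1, a2, a3, a4, a5⟩ := exists_z hQ v w
  have hc : ∀ z, bB Q z v = 0 → bB Q z w = 0 → bB Q (u0 + z) v = 1 ∧ bB Q (u0 + z) w = 1 := by
    intro z e1 e2
    rw [om_add_left hQ, om_add_left hQ, h1, h2, e1, e2]
    exact ⟨rfl, rfl⟩
  rcases two_cases (Q u0) with e0 | e0
  · rcases two_cases (Q (u0 + z1)) with e1 | e1
    · rcases two_cases (Q (u0 + z2)) with e2 | e2
      · have e3 : bB Q (z1 + z2) v = 0 := by rw [om_add_left hQ, a1, a3, add_zero]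
        have e4 : bB Q (z1 + z2) w = 0 := by rw [om_add_left hQ, a2, a4, add_zero]
        refine ⟨u0 + (z1 + z2), ?_, hc _ e3 e4⟩
        rw [Q_add hQ] at e1 e2 ⊢
        rw [Q_add hQ z1 z2, om_add_right hQ, a5, e0]
        rw [e0] at e1 e2
        generalize bB Q u0 z1 = p at e1 ⊢
        generalize bB Q u0 z2 = q at e2 ⊢
        generalize Q z1 = r at e1 ⊢
        generalize Q z2 = s at e2 ⊢
        revert p q r s
        decide
      · exact ⟨_, e2, hc _ a3 a4⟩
    · exact ⟨_, e1, hc _ a1 a2⟩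
  · exact ⟨u0, e0, h1, h2⟩

end

/-- the group -/
abbrev GQ (Q : (ι → ZMod 2) → ZMod 2) : Type := ↥(Cfsg.isometryGroup (ZMod 2) Q)

/-- its matrices -/
def toM {Q : (ι → ZMod 2) → ZMod 2} (g : GQ Q) : Matrix ι ι (ZMod 2) := ((g : Matrix.GeneralLinearGroup ι (ZMod 2)) : Matrix ι ι (ZMod 2))

/-- the action -/
def ac {Q : (ι → ZMod 2) → ZMod 2} (g : GQ Q) (x : ι → ZMod 2) : ι → ZMod 2 := toM g *ᵥ x

section
variable {Q : (ι → ZMod 2) → ZMod 2}

theorem ac_mul (g h : GQ Q) (x : ι → ZMod 2) : ac (g * h) x = ac g (ac h x) := by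
  show (toM g * toM h) *ᵥ x = toM g *ᵥ (toM h *ᵥ x)
  rw [mulVec_mulVec]

theorem ac_one (x : ι → ZMod 2) : ac (1 : GQ Q) x = x := by
  show (1 : Matrix ι ι (ZMod 2)) *ᵥ x = x
  rw [one_mulVec]

theorem ac_inv_ac (g : GQ Q) (x : ι → ZMod 2) : ac g⁻¹ (ac g x) = x := by
  rw [← ac_mul, inv_mul_cancel, ac_one]

theorem ac_ac_inv (g : GQ Q) (x : ι → ZMod 2) : ac g (ac g⁻¹ x) = x := by
  rw [← ac_mul, mul_inv_cancel, ac_one]

theorem ac_add (g : GQ Q) (x y : ι → ZMod 2) : ac g (x + y) = ac g x + ac g y := mulVec_add _ _ _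

theorem ac_smul (g : GQ Q) (a : ZMod 2) (x : ι → ZMod 2) : ac g (a • x) = a • ac g x := mulVec_smul _ _ _

theorem Q_ac (g : GQ Q) (x : ι → ZMod 2) : Q (ac g x) = Q x := g.2 x x

theorem om_ac (g : GQ Q) (x y : ι → ZMod 2) : bB Q (ac g x) (ac g y) = bB Q x y := by
  unfold bB
  rw [← ac_add, Q_ac g, Q_ac g, Q_ac g]

theorem gg_ext {g h : GQ Q} (H : ∀ x, ac g x = ac h x) : g = h := by
  apply Subtype.ext
  apply Units.ext
  apply Matrix.mulVec_injective
  funext x
  exact H x

end

section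
variable {Q : (ι → ZMod 2) → ZMod 2} (hQ : QF Q)
include hQ

theorem ac_ne_zero (g : GQ Q) {x : ι → ZMod 2} (hx : x ≠ 0) : ac g x ≠ 0 := by
  intro h
  apply hx
  have h2 := ac_inv_ac g x
  rw [h] at h2
  rw [← h2]
  exact mulVec_zero _

end

/-- the linear map of a transvection -/
noncomputable def TL {Q : (ι → ZMod 2) → ZMod 2} (hQ : QF Q) (v : ι → ZMod 2) : (ι → ZMod 2) →ₗ[ZMod 2] (ι → ZMod 2) where
  toFun x := x + bB Q x v • v
  map_add' x y := by
    rw [om_add_left hQ, add_smul]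
    abel
  map_smul' c x := by
    rw [om_smul_left hQ, mul_smul, smul_add]
    rfl

/-- the matrix of a transvection -/
noncomputable def tvM {Q : (ι → ZMod 2) → ZMod 2} (hQ : QF Q) (v : ι → ZMod 2) : Matrix ι ι (ZMod 2) := LinearMap.toMatrix' (TL hQ v)

section
variable {Q : (ι → ZMod 2) → ZMod 2} (hQ : QF Q)

theorem tvM_apply (v x : ι → ZMod 2) : tvM hQ v *ᵥ x = x + bB Q x v • v := by
  unfold tvM
  rw [LinearMap.toMatrix'_mulVec]
  rfl

theorem tvM_tvM (v : ι → ZMod 2) : tvM hQ v * tvM hQ v = 1 := by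
  apply Matrix.mulVec_injective
  funext x
  rw [← mulVec_mulVec, tvM_apply, tvM_apply, one_mulVec, om_add_left hQ, om_smul_left hQ, om_self hQ, mul_zero, add_zero,
    add_assoc, vv_add_self, add_zero]

/-- a transvection -/
noncomputable def tv (v : ι → ZMod 2) (hv : Q v = 1) : GQ Q :=
  ⟨⟨tvM hQ v, tvM hQ v, tvM_tvM hQ v, tvM_tvM hQ v⟩, by
    intro u _
    show Q (tvM hQ v *ᵥ u) = Q u
    rw [tvM_apply]
    rcases two_cases (bB Q u v) with h | h
    · rw [h, zero_smul, add_zero]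
    · rw [h, one_smul, Q_add hQ, h, hv]
      generalize Q u = a
      revert a
      decide⟩

theorem tv_apply (v : ι → ZMod 2) (hv : Q v = 1) (x : ι → ZMod 2) : ac (tv hQ v hv) x = x + bB Q x v • v := tvM_apply hQ v x

theorem tv_congr {v w : ι → ZMod 2} (h : v = w) (hv : Q v = 1) (hw : Q w = 1) : tv hQ v hv = tv hQ w hw := by
  subst h
  rfl

theorem tv_tv (v : ι → ZMod 2) (hv : Q v = 1) : tv hQ v hv * tv hQ v hv = 1 := by
  apply gg_ext
  intro x
  rw [ac_mul, ac_one, tv_apply, tv_apply, om_add_left hQ, om_smul_left hQ, om_self hQ, mul_zero, add_zero, add_assoc,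
    vv_add_self, add_zero]

theorem tv_inv (v : ι → ZMod 2) (hv : Q v = 1) : (tv hQ v hv)⁻¹ = tv hQ v hv := inv_eq_of_mul_eq_one_left (tv_tv hQ v hv)

theorem conj_tv (g : GQ Q) (v : ι → ZMod 2) (hv : Q v = 1) (h' : Q (ac g v) = 1) :
    g * tv hQ v hv * g⁻¹ = tv hQ (ac g v) h' := by
  apply gg_ext
  intro x
  rw [ac_mul, ac_mul, tv_apply, tv_apply, ac_add, ac_ac_inv, ac_smul]
  congr 2
  rw [← om_ac g, ac_ac_inv]

theorem tv_ne_one (v : ι → ZMod 2) (hv : Q v = 1) : tv hQ v hv ≠ 1 := by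
  intro h
  obtain ⟨x, hx⟩ := hQ.nondeg v (Q_ne_zero hQ hv)
  have h1 := tv_apply hQ v hv x
  rw [h, ac_one, hx, one_smul] at h1
  apply Q_ne_zero hQ hv
  have h2 : x + v = x + 0 := by rw [← h1, add_zero]
  exact add_left_cancel h2

theorem order_tv (v : ι → ZMod 2) (hv : Q v = 1) : orderOf (tv hQ v hv) = 2 := by
  apply orderOf_eq_prime
  · rw [pow_two]; exact tv_tv hQ v hv
  · exact tv_ne_one hQ v hv

theorem rank_tv (v : ι → ZMod 2) (hv : Q v = 1) : (toM (tv hQ v hv) - 1).rank = 1 := by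
  have hv0 := Q_ne_zero hQ hv
  obtain ⟨x0, hx0⟩ := hQ.nondeg v hv0
  have key : ∀ x, (toM (tv hQ v hv) - 1) *ᵥ x = bB Q x v • v := by
    intro x
    rw [sub_mulVec, one_mulVec]
    show tvM hQ v *ᵥ x - x = _
    rw [tvM_apply, add_sub_cancel_left]
  have hmem : v ∈ LinearMap.range ((toM (tv hQ v hv) - 1).mulVecLin) := by
    refine ⟨x0, ?_⟩
    show (toM (tv hQ v hv) - 1) *ᵥ x0 = v
    rw [key, hx0, one_smul]
  show Module.finrank (ZMod 2) (LinearMap.range ((toM (tv hQ v hv) - 1).mulVecLin)) = 1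
  refine finrank_eq_one_iff'.2 ⟨⟨v, hmem⟩, fun e => hv0 (congrArg Subtype.val e), ?_⟩
  rintro ⟨w, x, rfl⟩
  refine ⟨bB Q x v, Subtype.ext ?_⟩
  exact (key x).symm

theorem eq_tv_of_rank {g : GQ Q} (h : (toM g - 1).rank = 1) : ∃ v, ∃ hv : Q v = 1, g = tv hQ v hv := by
  classical
  have h0 : Module.finrank (ZMod 2) (LinearMap.range ((toM g - 1).mulVecLin)) = 1 := h
  obtain ⟨⟨v, hvr⟩, hv0, hv⟩ := finrank_eq_one_iff'.1 h0
  have hv0' : v ≠ 0 := fun e => hv0 (Subtype.ext e)
  have hall : ∀ x, ∃ c : ZMod 2, ac g x = x + c • v := by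
    intro x
    obtain ⟨c, hc⟩ := hv ⟨(toM g - 1).mulVecLin x, LinearMap.mem_range_self _ x⟩
    refine ⟨c, ?_⟩
    have h2 : c • v = (toM g - 1) *ᵥ x := congrArg Subtype.val hc
    rw [h2, sub_mulVec, one_mulVec]
    show toM g *ᵥ x = x + (toM g *ᵥ x - x)
    abel
  choose a ha using hall
  obtain ⟨x0, hx0⟩ := LinearMap.mem_range.1 hvr
  have hx0' : ac g x0 = x0 + v := by
    have h3 : (toM g - 1) *ᵥ x0 = v := hx0
    rw [sub_mulVec, one_mulVec] at h3
    rw [← h3]
    show toM g *ᵥ x0 = x0 + (toM g *ᵥ x0 - x0)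
    abel
  have hrel : ∀ x y, a y * bB Q x v = a x * bB Q y v := by
    intro x y
    have h4 := om_ac g x y
    rw [ha x, ha y, om_add_left hQ, om_add_right hQ, om_add_right hQ, om_smul_left hQ, om_smul_right hQ, om_smul_right hQ,
      om_smul_left hQ, om_self hQ, om_symm hQ v y] at h4
    generalize bB Q x y = a0 at h4
    generalize a y = a1 at h4 ⊢
    generalize bB Q x v = a2 at h4 ⊢
    generalize a x = a3 at h4 ⊢
    generalize bB Q y v = a4 at h4 ⊢
    revert a0 a1 a2 a3 a4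
    decide
  have hax0 : a x0 = 1 := by
    have h8 := ha x0
    rw [hx0'] at h8
    have h9 := add_left_cancel h8
    rcases two_cases (a x0) with h10 | h10
    · rw [h10, zero_smul] at h9
      exact (hv0' h9).elim
    · exact h10
  obtain ⟨y1, hy1⟩ := hQ.nondeg v hv0'
  have hom : bB Q x0 v = 1 := by
    have h11 := hrel x0 y1
    rw [hax0, hy1, one_mul] at h11
    rcases two_cases (bB Q x0 v) with h12 | h12
    · rw [h12, mul_zero] at h11
      exact (zero_ne_one h11).elim
    · exact h12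
  have hay : ∀ y, a y = bB Q y v := by
    intro y
    have h11 := hrel x0 y
    rw [hax0, hom, one_mul, mul_one] at h11
    exact h11
  have hQv : Q v = 1 := by
    have h13 := Q_ac g x0
    rw [hx0', Q_add hQ, hom] at h13
    generalize Q x0 = p at h13
    generalize Q v = q at h13
    revert p q
    decide
  refine ⟨v, hQv, gg_ext ?_⟩
  intro x
  rw [tv_apply, ha x, hay x]

/-- the moved points -/
noncomputable def moved (g : GQ Q) : Finset (ι → ZMod 2) := by
  classical exact Finset.univ.filter (fun x => ac g x ≠ x)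

theorem mem_moved {g : GQ Q} {x : ι → ZMod 2} : x ∈ moved g ↔ ac g x ≠ x := by
  classical
  simp [moved]

include hQ

theorem om_fixed {g : GQ Q} {z : ι → ZMod 2} (hz : ac g z = z) (y : ι → ZMod 2) : bB Q z (ac g y + y) = 0 := by
  rw [om_add_right hQ]
  have h := om_ac g z y
  rw [hz] at h
  rw [h]
  exact CharTwo.add_self_eq_zero _

theorem Q_diff (g : GQ Q) (x : ι → ZMod 2) : Q (ac g x + x) = bB Q x (ac g x) := by
  rw [Q_add hQ, Q_ac g, om_symm hQ]
  generalize bB Q x (ac g x) = p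
  generalize Q x = q
  revert p q
  decide

theorem add_ne_zero_of_ne {a b : ι → ZMod 2} (h : a ≠ b) : a + b ≠ 0 := by
  intro e
  exact h (vv_eq_of_add e)

/-- the main step -/
theorem step {g : GQ Q} {x : ι → ZMod 2} (hx : bB Q x (ac g x) = 1) :
    ∃ hq : Q (ac g x + x) = 1, (moved (tv hQ (ac g x + x) hq * g)).card < (moved g).card := by
  have hne : ac g x ≠ x := by
    intro e
    rw [e, om_self hQ] at hx
    exact zero_ne_one hx
  refine ⟨by rw [Q_diff hQ, hx], ?_⟩
  apply Finset.card_lt_card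
  rw [Finset.ssubset_iff_of_subset]
  · refine ⟨x, mem_moved.2 hne, ?_⟩
    rw [mem_moved]
    push Not
    rw [ac_mul, tv_apply, om_add_right hQ, om_self hQ, zero_add, om_symm hQ, hx, one_smul, ← add_assoc,
      vv_add_self, zero_add]
  · intro z hz
    rw [mem_moved] at hz ⊢
    intro e
    apply hz
    rw [ac_mul, e, tv_apply, om_fixed hQ e, zero_smul, add_zero]

end

/-- the set of transvections -/
def DD (Q : (ι → ZMod 2) → ZMod 2) : Set (GQ Q) := {g | (toM g - 1).rank = 1}

section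
variable {Q : (ι → ZMod 2) → ZMod 2} (hQ : QF Q)
include hQ

theorem tv_mem (v : ι → ZMod 2) (hv : Q v = 1) : tv hQ v hv ∈ DD Q := rank_tv hQ v hv

/-- the product of four transvections -/
theorem siegel {v a b : ι → ZMod 2} (h1 : Q v = 1) (h2 : Q (v + a) = 1) (h3 : Q (b + v) = 1) (h4 : Q (b + v + a) = 1)
    (e1 : bB Q v a = 0) (e2 : bB Q v b = 0) (e3 : bB Q a b = 0) (y : ι → ZMod 2) :
    ac (tv hQ (b + v + a) h4 * (tv hQ (b + v) h3 * (tv hQ (v + a) h2 * tv hQ v h1))) y = y + bB Q y b • a + bB Q y a • b := by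
  have e1' : bB Q a v = 0 := by rw [om_symm hQ]; exact e1
  have e2' : bB Q b v = 0 := by rw [om_symm hQ]; exact e2
  have e3' : bB Q b a = 0 := by rw [om_symm hQ]; exact e3
  have s1 := om_self hQ v
  have s2 := om_self hQ a
  have s3 := om_self hQ b
  rw [ac_mul, ac_mul, ac_mul, tv_apply, tv_apply, tv_apply, tv_apply]
  simp only [om_add_left hQ, om_add_right hQ, om_smul_left hQ, e1, e2, e3, e1', e2', e3', s1, s2, s3, mul_zero, add_zero, zero_add]
  funext i
  simp only [Pi.add_apply, Pi.smul_apply, smul_eq_mul]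
  generalize bB Q y v = p
  generalize bB Q y a = q
  generalize bB Q y b = r
  generalize y i = y0
  generalize v i = v0
  generalize a i = a0
  generalize b i = b0
  revert p q r y0 v0 a0 b0
  decide

theorem mem_closure_all : ∀ m : ℕ, ∀ g : GQ Q, (moved g).card = m → g ∈ Subgroup.closure (DD Q) := by
  intro m
  induction m using Nat.strong_induction_on with
  | _ m ih =>
    intro g hg
    by_cases hg1 : g = 1
    · rw [hg1]
      exact one_mem _
    by_cases hex : ∃ x, bB Q x (ac g x) = 1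
    · obtain ⟨x, hx⟩ := hex
      obtain ⟨hq, h2⟩ := step hQ hx
      have h3 := ih _ (hg ▸ h2) _ rfl
      have h4 : g = tv hQ (ac g x + x) hq * (tv hQ (ac g x + x) hq * g) := by
        rw [← mul_assoc, tv_tv, one_mul]
      rw [h4]
      exact mul_mem (Subgroup.subset_closure (tv_mem hQ _ hq)) h3
    · push Not at hex
      have hex' : ∀ x, bB Q x (ac g x) = 0 := fun x => (two_cases _).resolve_right (hex x)
      obtain ⟨x1, hy⟩ : ∃ y, ac g y ≠ y := by
        by_contra hc
        push Not at hc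
        apply hg1
        apply gg_ext
        intro x
        rw [hc, ac_one]
      obtain ⟨a, hadef⟩ : ∃ a, a = ac g x1 + x1 := ⟨_, rfl⟩
      have ha0 : a ≠ 0 := by rw [hadef]; exact add_ne_zero_of_ne hQ hy
      obtain ⟨x2, hx2⟩ := hQ.nondeg a ha0
      obtain ⟨b, hbdef⟩ : ∃ b, b = ac g x2 + x2 := ⟨_, rfl⟩
      have hQa : Q a = 0 := by rw [hadef, Q_diff hQ, hex']
      have hQb : Q b = 0 := by rw [hbdef, Q_diff hQ, hex']
      have hQab : Q (a + b) = 0 := by
        have e : a + b = ac g (x1 + x2) + (x1 + x2) := by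
          rw [hadef, hbdef, ac_add]
          abel
        rw [e, Q_diff hQ, hex']
      have hab : bB Q a b = 0 := by
        have := Q_add hQ a b
        rw [hQab, hQa, hQb, add_zero, add_zero] at this
        exact this.symm
      have hgb : bB Q (ac g x1) b = 1 := by
        rw [hbdef, om_add_right hQ, om_ac]
        have e : bB Q x1 x2 + bB Q (ac g x1) x2 = bB Q a x2 := by
          rw [hadef, om_add_left hQ, add_comm]
        rw [e, om_symm hQ]
        exact hx2
      have hga : bB Q (ac g x1) a = 0 := by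
        rw [hadef, om_add_right hQ, om_self hQ, zero_add, om_symm hQ]
        exact hex' x1
      obtain ⟨v, h1, e1, e2⟩ := exists_Q1 hQ a b
      have h2 : Q (v + a) = 1 := by
        rw [Q_add hQ, e1, h1, hQa]
        decide
      have h3 : Q (b + v) = 1 := by
        rw [Q_add hQ, om_symm hQ, e2, h1, hQb]
        decide
      have h4 : Q (b + v + a) = 1 := by
        rw [Q_add hQ, h3, hQa, om_add_left hQ, om_symm hQ b, hab, e1]
        decide
      obtain ⟨s, hs⟩ : ∃ s, s = tv hQ (b + v + a) h4 * (tv hQ (b + v) h3 * (tv hQ (v + a) h2 * tv hQ v h1)) := ⟨_, rfl⟩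
      have hsy : ∀ y, ac s y = y + bB Q y b • a + bB Q y a • b := by
        intro y
        rw [hs]
        exact siegel hQ h1 h2 h3 h4 e1 e2 hab y
      have hlt : (moved (s * g)).card < (moved g).card := by
        apply Finset.card_lt_card
        rw [Finset.ssubset_iff_of_subset]
        · refine ⟨x1, mem_moved.2 hy, ?_⟩
          rw [mem_moved]
          push Not
          rw [ac_mul, hsy, hgb, hga, one_smul, zero_smul, add_zero, hadef, ← add_assoc, vv_add_self, zero_add]
        · intro z hz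
          rw [mem_moved] at hz ⊢
          intro e
          apply hz
          have f1 : bB Q z a = 0 := by rw [hadef]; exact om_fixed hQ e x1
          have f2 : bB Q z b = 0 := by rw [hbdef]; exact om_fixed hQ e x2
          rw [ac_mul, e, hsy, f1, f2, zero_smul, zero_smul, add_zero, add_zero]
      have h5 := ih _ (hg ▸ hlt) _ rfl
      have hsmem : s ∈ Subgroup.closure (DD Q) := by
        rw [hs]
        exact mul_mem (Subgroup.subset_closure (tv_mem hQ _ h4)) (mul_mem (Subgroup.subset_closure (tv_mem hQ _ h3))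
          (mul_mem (Subgroup.subset_closure (tv_mem hQ _ h2)) (Subgroup.subset_closure (tv_mem hQ _ h1))))
      have h6 : g = s⁻¹ * (s * g) := by group
      rw [h6]
      exact mul_mem (inv_mem hsmem) h5

theorem closure_top : Subgroup.closure (DD Q) = ⊤ := by
  rw [eq_top_iff]
  intro g _
  exact mem_closure_all hQ _ g rfl

theorem trans1 {v w : ι → ZMod 2} (hv : Q v = 1) (hw : Q w = 1) (h : bB Q v w = 1) : ∃ g : GQ Q, ac g v = w := by
  have hq : Q (v + w) = 1 := by
    rw [Q_add hQ, h, hv, hw]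
    decide
  refine ⟨tv hQ (v + w) hq, ?_⟩
  rw [tv_apply, om_add_right hQ, om_self hQ, zero_add, h, one_smul, ← add_assoc, vv_add_self, zero_add]

/-- transitivity on vectors of value one -/
theorem trans {v w : ι → ZMod 2} (hv : Q v = 1) (hw : Q w = 1) : ∃ g : GQ Q, ac g v = w := by
  obtain ⟨u, h0, h1, h2⟩ := exists_u hQ (Q_ne_zero hQ hv) (Q_ne_zero hQ hw)
  obtain ⟨g1, e1⟩ := trans1 hQ hv h0 (by rw [om_symm hQ]; exact h1)
  obtain ⟨g2, e2⟩ := trans1 hQ h0 hw h2
  refine ⟨g2 * g1, ?_⟩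
  rw [ac_mul, e1, e2]

theorem three (v w : ι → ZMod 2) (hv : Q v = 1) (hw : Q w = 1) :
    (tv hQ v hv * tv hQ w hw) ^ 2 = 1 ∨ (tv hQ v hv * tv hQ w hw) ^ 3 = 1 := by
  have q1 : Q (ac (tv hQ v hv) w) = 1 := (Q_ac _ _).trans hw
  have q2 : Q (ac (tv hQ w hw) v) = 1 := (Q_ac _ _).trans hv
  have h1 : tv hQ v hv * tv hQ w hw * tv hQ v hv = tv hQ (ac (tv hQ v hv) w) q1 := by
    have := conj_tv hQ (tv hQ v hv) w hw q1
    rwa [tv_inv] at this
  have h2 : tv hQ w hw * tv hQ v hv * tv hQ w hw = tv hQ (ac (tv hQ w hw) v) q2 := by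
    have := conj_tv hQ (tv hQ w hw) v hv q2
    rwa [tv_inv] at this
  rcases two_cases (bB Q w v) with h | h
  · left
    rw [pow_two]
    have e : tv hQ v hv * tv hQ w hw * tv hQ v hv = tv hQ w hw := by
      rw [h1]
      apply tv_congr
      rw [tv_apply, h, zero_smul, add_zero]
    calc tv hQ v hv * tv hQ w hw * (tv hQ v hv * tv hQ w hw) = (tv hQ v hv * tv hQ w hw * tv hQ v hv) * tv hQ w hw := by group
      _ = 1 := by rw [e, tv_tv]
  · right
    have h' : bB Q v w = 1 := by rw [om_symm hQ]; exact h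
    have q3 : Q (w + v) = 1 := by
      rw [Q_add hQ, h, hv, hw]
      decide
    have e1 : tv hQ v hv * tv hQ w hw * tv hQ v hv = tv hQ (w + v) q3 := by
      rw [h1]
      apply tv_congr
      rw [tv_apply, h, one_smul]
    have e2 : tv hQ w hw * tv hQ v hv * tv hQ w hw = tv hQ (w + v) q3 := by
      rw [h2]
      apply tv_congr
      rw [tv_apply, h', one_smul, add_comm]
    calc (tv hQ v hv * tv hQ w hw) ^ 3 = (tv hQ v hv * tv hQ w hw * tv hQ v hv) * (tv hQ w hw * tv hQ v hv * tv hQ w hw) := by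
          simp only [pow_succ, pow_zero, one_mul, mul_assoc]
      _ = 1 := by rw [e1, e2, tv_tv]

/-- the theorem -/
theorem main : Cfsg.IsThreeTranspositionClass (DD Q) := by
  refine ⟨⟨?_, ?_⟩, ?_, closure_top hQ⟩
  · intro d hd
    obtain ⟨v, hv, rfl⟩ := eq_tv_of_rank hQ hd
    exact order_tv hQ v hv
  · intro d hd e he
    obtain ⟨v, hv, rfl⟩ := eq_tv_of_rank hQ hd
    obtain ⟨w, hw, rfl⟩ := eq_tv_of_rank hQ he
    exact three hQ v w hv hw
  · obtain ⟨v0, hv0, -, -⟩ := exists_Q1 hQ 0 0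
    refine ⟨tv hQ v0 hv0, tv_mem hQ v0 hv0, ?_⟩
    ext g
    constructor
    · intro hg
      obtain ⟨v, hv, rfl⟩ := eq_tv_of_rank hQ hg
      obtain ⟨c, hc⟩ := trans hQ hv0 hv
      refine isConj_iff.2 ⟨c, ?_⟩
      rw [conj_tv hQ c v0 hv0 ((Q_ac _ _).trans hv0)]
      exact tv_congr hQ hc _ _
    · intro hg
      obtain ⟨c, rfl⟩ := isConj_iff.1 hg
      rw [conj_tv hQ c v0 hv0 ((Q_ac _ _).trans hv0)]
      exact tv_mem hQ _ _

end

end Cfsg.Agent.Lib.H7OrthF2
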