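import Cfsg.Agent.Lib.H7OrthF2

/-! The two standard forms over the field with two elements. -/

set_option autoImplicit false
set_option linter.unusedSimpArgs false
set_option linter.unusedVariables false

namespace Cfsg.Agent.Lib.H7OrthF2

theorem bB_plus (m : ℕ) (x y : Fin m ⊕ Fin m → ZMod 2) :
    bB (Cfsg.quadFormPlus m (ZMod 2)) x y = ∑ i : Fin m, (x (.inl i) * y (.inr i) + x (.inr i) * y (.inl i)) := by
  unfold bB Cfsg.quadFormPlus
  rw [← Finset.sum_add_distrib, ← Finset.sum_add_distrib]
  apply Finset.sum_congr rfl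
  intro i _
  simp only [Pi.add_apply]
  generalize x (.inl i) = a
  generalize x (.inr i) = b
  generalize y (.inl i) = c
  generalize y (.inr i) = d
  revert a b c d
  decide

theorem qf_plus (m : ℕ) (hm : 3 ≤ m) : QF (Cfsg.quadFormPlus m (ZMod 2)) where
  zero := by
    simp [Cfsg.quadFormPlus]
  add_left x y z := by
    rw [bB_plus, bB_plus, bB_plus, ← Finset.sum_add_distrib]
    apply Finset.sum_congr rfl
    intro i _
    simp only [Pi.add_apply]
    ring
  nondeg v hv := by
    obtain ⟨j, hj⟩ := Function.ne_iff.1 hv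
    have hj1 : v j = 1 := (two_cases _).resolve_left hj
    rcases j with i | i
    · refine ⟨Pi.single (Sum.inr i) 1, ?_⟩
      rw [bB_plus]
      simp [Pi.single_apply, hj1]
    · refine ⟨Pi.single (Sum.inl i) 1, ?_⟩
      rw [bB_plus]
      simp [Pi.single_apply, hj1]
  dim := by
    simp
    omega

theorem bB_minus (m : ℕ) (x y : (Fin m ⊕ Fin m) ⊕ Fin 2 → ZMod 2) :
    bB (Cfsg.quadFormMinus m (ZMod 2) 1 1) x y =
      (∑ i : Fin m, (x (.inl (.inl i)) * y (.inl (.inr i)) + x (.inl (.inr i)) * y (.inl (.inl i))))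
        + (x (.inr 0) * y (.inr 1) + x (.inr 1) * y (.inr 0)) := by
  unfold bB Cfsg.quadFormMinus
  have h : ∀ A B C D E F : ZMod 2, (A + D) + (B + E) + (C + F) = (A + B + C) + (D + E + F) := by decide
  rw [h, ← Finset.sum_add_distrib, ← Finset.sum_add_distrib]
  congr 1
  · apply Finset.sum_congr rfl
    intro i _
    simp only [Pi.add_apply]
    generalize x (.inl (.inl i)) = a
    generalize x (.inl (.inr i)) = b
    generalize y (.inl (.inl i)) = c
    generalize y (.inl (.inr i)) = d
    revert a b c d
    decide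
  · simp only [Pi.add_apply]
    generalize x (.inr 0) = a
    generalize x (.inr 1) = b
    generalize y (.inr 0) = c
    generalize y (.inr 1) = d
    revert a b c d
    decide

theorem qf_minus (m : ℕ) (hm : 2 ≤ m) : QF (Cfsg.quadFormMinus m (ZMod 2) 1 1) where
  zero := by
    simp [Cfsg.quadFormMinus]
  add_left x y z := by
    rw [bB_minus, bB_minus, bB_minus]
    have h : ∀ A B C D : ZMod 2, (A + B) + (C + D) = (A + C) + (B + D) := by decide
    rw [h, ← Finset.sum_add_distrib]
    congr 1
    · apply Finset.sum_congr rfl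
      intro i _
      simp only [Pi.add_apply]
      ring
    · simp only [Pi.add_apply]
      ring
  nondeg v hv := by
    obtain ⟨j, hj⟩ := Function.ne_iff.1 hv
    have hj1 : v j = 1 := (two_cases _).resolve_left hj
    rcases j with (i | i) | i
    · refine ⟨Pi.single (Sum.inl (Sum.inr i)) 1, ?_⟩
      rw [bB_minus]
      simp [Pi.single_apply, hj1]
    · refine ⟨Pi.single (Sum.inl (Sum.inl i)) 1, ?_⟩
      rw [bB_minus]
      simp [Pi.single_apply, hj1]
    · fin_cases i
      · refine ⟨Pi.single (Sum.inr 1) 1, ?_⟩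
        rw [bB_minus]
        simpa [Pi.single_apply] using hj1
      · refine ⟨Pi.single (Sum.inr 0) 1, ?_⟩
        rw [bB_minus]
        simpa [Pi.single_apply] using hj1
  dim := by
    simp
    omega

end Cfsg.Agent.Lib.H7OrthF2
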