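import Cfsg.Agent.Lib.H7Qt
import Cfsg.Prelude.Def_SporadicCombinatorics

/-! The quartets of a dodecad. -/

set_option autoImplicit false
set_option linter.unusedSimpArgs false
set_option linter.unusedVariables false
set_option linter.style.haveILetI false
set_option maxRecDepth 100000
open scoped Pointwise
open Cfsg

namespace Cfsg.Agent.Lib.H7QtG
open Cfsg.Agent.Lib
open scoped Pointwise
open Cfsg.Agent.Lib.GolayBasic Cfsg.Agent.Lib.GolayCode Cfsg.Agent.Lib.GolayPerm Cfsg.Agent.Lib.GolayOrder Cfsg.Agent.Lib.GolayFacts Cfsg.Agent.Lib.GolayChain Cfsg.Agent.Lib.GolayM12 Cfsg.Agent.Lib.GolayCount Cfsg.Agent.Lib.GolayTools Cfsg.Agent.Lib.GolayKit Cfsg.Agent.Lib.GolayForest Cfsg.Agent.Lib.GolayCoset Cfsg.Agent.Lib.GolayFam Cfsg.Agent.Lib.H7Qt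

/-- the basic dodecad -/
abbrev d0 : Finset GolayPt := GolayBasic.setOf D0

theorem D0_lt : D0 < 2 ^ 24 := by decide +kernel

theorem land_lt (a : ℕ) : Nat.land a D0 < 2 ^ 24 := Nat.and_lt_two_pow _ D0_lt

theorem setOf_Nland (a b : ℕ) : GolayBasic.setOf (Nat.land a b) = GolayBasic.setOf a ∩ GolayBasic.setOf b := setOf_land a b

theorem setOf_Nlor (a b : ℕ) : GolayBasic.setOf (Nat.lor a b) = GolayBasic.setOf a ∪ GolayBasic.setOf b := setOf_lor a b

theorem mem_hex_iff {m : ℕ} (hm : m < 2 ^ 24) : GolayBasic.setOf m ∈ hexadsOn d0 ↔ hexOK m = true := by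
  constructor
  · rintro ⟨hc, o, ho, e⟩
    obtain ⟨i, hi, rfl⟩ := mem_octads_iff.1 ho
    have e2 : GolayBasic.setOf (Nat.land (octAt i) D0) = GolayBasic.setOf m := by rw [setOf_Nland]; exact e
    have e3 : Nat.land (octAt i) D0 = m := setOf_injOn (land_lt _) hm e2
    have h1 : cond (Nat.beq (pc (Nat.land (octAt i) D0)) 6) (hexOK (Nat.land (octAt i) D0)) true = true :=
      allBelow_spec hex_comp i hi
    rw [e3] at h1
    have hp : pc m = 6 := by
      rw [← card_setOf]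
      exact hc
    have hb : Nat.beq (pc m) 6 = true := by rw [hp]; rfl
    rw [hb] at h1
    exact h1
  · intro h
    simp only [hexOK, Bool.and_eq_true] at h
    obtain ⟨h1, h2⟩ := h
    have hk : hexK m < 132 := by simpa [Nat.blt] using h1
    have hm2 : hexAt (hexK m) = m := Nat.eq_of_beq_eq_true h2
    have h3 := allBelow_spec hex_check _ hk
    simp only [hexC, Bool.and_eq_true] at h3
    obtain ⟨⟨⟨⟨⟨⟨a1, a2⟩, a3⟩, a4⟩, a5⟩, a6⟩, a7⟩ := h3
    rw [hm2] at a2 a7
    have b4 : hexW (hexK m) < 2 ^ 24 := by simpa [Nat.blt] using a4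
    refine ⟨?_, GolayBasic.setOf (hexW (hexK m)), ?_, ?_⟩
    · rw [card_setOf]
      exact Nat.eq_of_beq_eq_true a2
    · rw [setOf_mem_octads b4]
      exact ⟨(inCode_iff_synF b4).2 (Nat.eq_of_beq_eq_true a5), Nat.eq_of_beq_eq_true a6⟩
    · rw [← setOf_Nland, Nat.eq_of_beq_eq_true a7]

theorem tri_mask {t : Finset GolayPt} (h3 : t.card = 3) (hs : t ⊆ d0) : ∃ y, y < 220 ∧ t = GolayBasic.setOf (trD y) := by
  obtain ⟨h1, h2, _, h4⟩ := triE
  obtain ⟨i, hi, hU⟩ := h4 t h3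
  have e : Nat.land (triAt i) D0 = triAt i := by
    apply setOf_injOn (land_lt _) (h2 i hi)
    rw [setOf_Nland, ← hU]
    exact Finset.inter_eq_left.2 hs
  have h5 := PChain.allR_spec tri_comp i (Nat.zero_le _) hi
  have hb : Nat.beq (Nat.land (triAt i) D0) (triAt i) = true := by rw [e]; exact Nat.beq_refl _
  simp only [hb, cond_true] at h5
  obtain ⟨y, hy, hy2⟩ := anyBelow_spec h5
  exact ⟨y, hy, by rw [Nat.eq_of_beq_eq_true hy2]; exact hU⟩

theorem trD_lt' {z : ℕ} (hz : z < 220) : trD z < 2 ^ 24 := by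
  have := allBelow_spec trD_lt z hz
  simpa [Nat.blt] using this

theorem lor_lt {a c : ℕ} (ha : a < 2 ^ 24) (hc : c < 2 ^ 24) : Nat.lor a c < 2 ^ 24 := Nat.or_lt_two_pow ha hc

theorem compat_of_hex {a c : ℕ} (ha : a < 2 ^ 24) (hc : c < 2 ^ 24)
    (h : GolayBasic.setOf a ∪ GolayBasic.setOf c ∈ hexadsOn d0) : compat a c = true := by
  have hl := lor_lt ha hc
  rw [← setOf_Nlor] at h
  have h1 := (mem_hex_iff hl).1 h
  have h2 : pc (Nat.lor a c) = 6 := by
    rw [← card_setOf]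
    exact h.1
  simp only [compat, Bool.and_eq_true]
  exact ⟨h1, by rw [h2]; rfl⟩

theorem hex_of_compat {a c : ℕ} (ha : a < 2 ^ 24) (hc : c < 2 ^ 24) (h : compat a c = true) :
    GolayBasic.setOf a ∪ GolayBasic.setOf c ∈ hexadsOn d0 := by
  simp only [compat, Bool.and_eq_true] at h
  rw [← setOf_Nlor]
  exact (mem_hex_iff (lor_lt ha hc)).2 h.1

theorem EE_lt {i : ℕ} (hi : i < 220) {j : ℕ} (hj : j < 4) : EE i j < 2 ^ 24 := (tableOK_injT table_ok hi).1 j hj

theorem mem_tup_of_inE {i a : ℕ} (h : inE i a = true) : GolayBasic.setOf a ∈ tup 4 (EE i) := by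
  simp only [inE, Bool.or_eq_true] at h
  refine mem_tup.2 ?_
  rcases h with ((h | h) | h) | h
  · exact ⟨0, by norm_num, by rw [Nat.eq_of_beq_eq_true h]⟩
  · exact ⟨1, by norm_num, by rw [Nat.eq_of_beq_eq_true h]⟩
  · exact ⟨2, by norm_num, by rw [Nat.eq_of_beq_eq_true h]⟩
  · exact ⟨3, by norm_num, by rw [Nat.eq_of_beq_eq_true h]⟩

/-- the members of the table are quartets -/
theorem tup_mem {i : ℕ} (hi : i < 220) : tup 4 (EE i) ∈ quartets d0 := by
  have hT := tableOK_injT table_ok hi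
  have h := allBelow_spec q_check i hi
  simp only [qOK, Bool.and_eq_true] at h
  obtain ⟨h1, h2⟩ := h
  refine ⟨card_tup hT, ?_, ?_⟩
  · intro t ht
    obtain ⟨j, hj, rfl⟩ := mem_tup.1 ht
    have h3 := allBelow_spec h1 j hj
    simp only [Bool.and_eq_true] at h3
    constructor
    · rw [card_setOf]
      exact Nat.eq_of_beq_eq_true h3.1
    · have h4 : GolayBasic.setOf (Nat.land (EE i j) D0) = GolayBasic.setOf (EE i j) := by
        rw [Nat.eq_of_beq_eq_true h3.2]
      rw [setOf_Nland] at h4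
      exact Finset.inter_eq_left.1 h4
  · intro t ht u hu hne
    obtain ⟨j, hj, rfl⟩ := mem_tup.1 ht
    obtain ⟨l, hl, rfl⟩ := mem_tup.1 hu
    have hjl : j ≠ l := fun e => hne (by rw [e])
    have h3 := allBelow_spec (allBelow_spec h2 j hj) l hl
    have hb : Nat.beq j l = false := by
      rw [← Bool.not_eq_true, Nat.beq_eq]
      exact hjl
    rw [hb] at h3
    exact hex_of_compat (EE_lt hi hj) (EE_lt hi hl) h3

/-- a pair of triples determines a quartet -/
theorem pair_index {t u : Finset GolayPt} (h3 : t.card = 3) (h3' : u.card = 3) (hs : t ⊆ d0) (hs' : u ⊆ d0)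
    (hh : t ∪ u ∈ hexadsOn d0) :
    ∃ i, i < 220 ∧ t ∈ tup 4 (EE i) ∧ u ∈ tup 4 (EE i) ∧ ∀ Q ∈ quartets d0, t ∈ Q → u ∈ Q → Q = tup 4 (EE i) := by
  obtain ⟨y, hy, rfl⟩ := tri_mask h3 hs
  obtain ⟨y', hy', rfl⟩ := tri_mask h3' hs'
  have hc := compat_of_hex (trD_lt' hy) (trD_lt' hy') hh
  have h1 : pairOK y y' = true := allBelow_spec (allBelow_spec pair_check y hy) y' hy'
  simp only [pairOK, hc, cond_true] at h1
  obtain ⟨i, hi, h2⟩ := anyBelow_spec h1
  simp only [Bool.and_eq_true] at h2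
  obtain ⟨⟨h4, h5⟩, h6⟩ := h2
  refine ⟨i, hi, mem_tup_of_inE h4, mem_tup_of_inE h5, ?_⟩
  intro Q hQ ht hu
  apply Finset.eq_of_subset_of_card_le
  · intro c hc'
    by_cases e1 : c = GolayBasic.setOf (trD y)
    · rw [e1]; exact mem_tup_of_inE h4
    by_cases e2 : c = GolayBasic.setOf (trD y')
    · rw [e2]; exact mem_tup_of_inE h5
    obtain ⟨h7, h8⟩ := hQ.2.1 c hc'
    obtain ⟨z, hz, rfl⟩ := tri_mask h7 h8
    have h9 := hQ.2.2 _ hc' _ ht e1
    have h10 := hQ.2.2 _ hc' _ hu e2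
    have h11 := compat_of_hex (trD_lt' hz) (trD_lt' hy) h9
    have h12 := compat_of_hex (trD_lt' hz) (trD_lt' hy') h10
    have h13 := allBelow_spec h6 z hz
    rw [h11, h12] at h13
    exact mem_tup_of_inE h13
  · rw [card_tup (tableOK_injT table_ok hi), hQ.1]

theorem exists_pair {Q : Finset (Finset GolayPt)} (h : Q.card = 4) : ∃ t ∈ Q, ∃ u ∈ Q, t ≠ u :=
  Finset.one_lt_card.1 (by omega)

/-- the quartets of the basic dodecad -/
theorem mem_quartets_iff {Q : Finset (Finset GolayPt)} : Q ∈ quartets d0 ↔ ∃ i, i < 220 ∧ Q = tup 4 (EE i) := by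
  constructor
  · intro hQ
    obtain ⟨t, ht, u, hu, hne⟩ := exists_pair hQ.1
    obtain ⟨h1, h2⟩ := hQ.2.1 t ht
    obtain ⟨h3, h4⟩ := hQ.2.1 u hu
    obtain ⟨i, hi, -, -, h5⟩ := pair_index h1 h3 h2 h4 (hQ.2.2 t ht u hu hne)
    exact ⟨i, hi, h5 Q hQ ht hu⟩
  · rintro ⟨i, hi, rfl⟩
    exact tup_mem hi

/-! ### Transport -/

theorem smul_hex {g : Equiv.Perm GolayPt} (hg : g ∈ M24) {d h : Finset GolayPt} (hh : h ∈ hexadsOn d) :
    g • h ∈ hexadsOn (g • d) := by
  obtain ⟨h1, o, ho, e⟩ := hh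
  refine ⟨by rw [Finset.card_smul_finset]; exact h1, g • o, M24_smul_octad hg ho, ?_⟩
  rw [← Finset.smul_finset_inter, e]

theorem smul_quartet {g : Equiv.Perm GolayPt} (hg : g ∈ M24) {d : Finset GolayPt} {Q : Finset (Finset GolayPt)}
    (hQ : Q ∈ quartets d) : g • Q ∈ quartets (g • d) := by
  obtain ⟨h1, h2, h3⟩ := hQ
  refine ⟨by rw [Finset.card_smul_finset]; exact h1, ?_, ?_⟩
  · intro t ht
    obtain ⟨t', ht', rfl⟩ := Finset.mem_smul_finset.1 ht
    obtain ⟨a, b⟩ := h2 t' ht'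
    refine ⟨?_, ?_⟩
    · show (g • t').card = 3
      rw [Finset.card_smul_finset]
      exact a
    · exact Finset.smul_finset_subset_smul_finset_iff.2 b
  · intro t ht u hu hne
    obtain ⟨t', ht', rfl⟩ := Finset.mem_smul_finset.1 ht
    obtain ⟨u', hu', rfl⟩ := Finset.mem_smul_finset.1 hu
    have hne' : t' ≠ u' := fun h => hne (by rw [h])
    have h4 := smul_hex hg (h3 _ ht' _ hu' hne')
    show g • t' ∪ g • u' ∈ _
    rwa [← Finset.smul_finset_union]

theorem smul_quartet_iff {g : Equiv.Perm GolayPt} (hg : g ∈ M24) {d : Finset GolayPt} {Q : Finset (Finset GolayPt)} :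
    g • Q ∈ quartets (g • d) ↔ Q ∈ quartets d := by
  constructor
  · intro h
    have h2 := smul_quartet (M24.inv_mem hg) h
    rwa [inv_smul_smul, inv_smul_smul] at h2
  · exact smul_quartet hg

/-- the forest of the stabiliser of the dodecad -/
theorem gens0 : ∀ j < 3, ∃ g ∈ H12, Rep g (hG0 j) := by
  intro j hj
  have h1 := allBelow_spec gens0_check j hj
  simp only [Bool.and_eq_true] at h1
  have r := rep_permOf _ h1.1
  exact ⟨_, mem_H12_of_check _ _ r h1.2, r⟩

theorem hE : ∀ i < 220, InjT 4 (EE i) := fun i hi => tableOK_injT table_ok hi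

theorem move0 {i : ℕ} (hi : i < 220) : ∃ g ∈ H12, g • tup 4 (EE 0) = tup 4 (EE i) :=
  tup_forest (rt := fun _ => 0) gens0 hE forest0 i hi

/-- moving a dodecad and a quartet to the basic ones -/
theorem exists_frame {d : Finset GolayPt} (hd : d ∈ dodecads) {Q : Finset (Finset GolayPt)} (hQ : Q ∈ quartets d) :
    ∃ w ∈ M24, w • d0 = d ∧ w • tup 4 (EE 0) = Q := by
  obtain ⟨g, hg, rfl⟩ := exists_smul_D0 hd
  have h1 : g⁻¹ • Q ∈ quartets d0 := by
    have := smul_quartet (M24.inv_mem hg) hQ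
    rwa [inv_smul_smul] at this
  obtain ⟨i, hi, h2⟩ := mem_quartets_iff.1 h1
  obtain ⟨h, hh, h3⟩ := move0 hi
  refine ⟨g * h, M24.mul_mem hg hh.1, ?_, ?_⟩
  · rw [mul_smul]
    have : h • d0 = d0 := hh.2
    rw [this]
  · rw [mul_smul, h3, ← h2, smul_inv_smul]

/-- Two triples forming a hexad lie in a unique quartet. -/
theorem two_triples {d : Finset GolayPt} (hd : d ∈ dodecads) {t u : Finset GolayPt} (ht : t.card = 3) (hu : u.card = 3)
    (htu : Disjoint t u) (hh : t ∪ u ∈ hexadsOn d) : ∃! Q : Finset (Finset GolayPt), Q ∈ quartets d ∧ t ∈ Q ∧ u ∈ Q := by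
  obtain ⟨g, hg, rfl⟩ := exists_smul_D0 hd
  have h1 : g⁻¹ • (t ∪ u) ∈ hexadsOn d0 := by
    have := smul_hex (M24.inv_mem hg) hh
    rwa [inv_smul_smul] at this
  rw [Finset.smul_finset_union] at h1
  have hsub : g⁻¹ • t ∪ g⁻¹ • u ⊆ d0 := by
    obtain ⟨-, o, -, e⟩ := h1
    rw [← e]
    exact Finset.inter_subset_right
  obtain ⟨i, hi, a1, a2, a3⟩ := pair_index (t := g⁻¹ • t) (u := g⁻¹ • u) (by rw [Finset.card_smul_finset]; exact ht)
    (by rw [Finset.card_smul_finset]; exact hu) (Finset.union_subset_left hsub) (Finset.union_subset_right hsub) h1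
  refine ⟨g • tup 4 (EE i), ⟨smul_quartet hg (tup_mem hi), ?_, ?_⟩, ?_⟩
  · have := Finset.smul_mem_smul_finset (a := g) a1
    rwa [smul_inv_smul] at this
  · have := Finset.smul_mem_smul_finset (a := g) a2
    rwa [smul_inv_smul] at this
  · rintro Q ⟨hQ, b1, b2⟩
    have h2 : g⁻¹ • Q ∈ quartets d0 := by
      have := smul_quartet (M24.inv_mem hg) hQ
      rwa [inv_smul_smul] at this
    have h3 := a3 _ h2 (Finset.smul_mem_smul_finset b1) (Finset.smul_mem_smul_finset b2)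
    rw [← h3, smul_inv_smul]

theorem tup_inj {i j : ℕ} (hi : i < 220) (hj : j < 220) (h : tup 4 (EE i) = tup 4 (EE j)) : i = j :=
  tableOK_inj table_ok i hi j hj h

/-- the number of quartets and transitivity -/
theorem quartets_count {d : Finset GolayPt} (hd : d ∈ dodecads) :
    (quartets d).ncard = 220 ∧ ∀ Q ∈ quartets d, ∀ Q' ∈ quartets d, ∃ g : Equiv.Perm GolayPt, g ∈ M24 ∧ g • d = d ∧ g • Q = Q' := by
  classical
  constructor
  · obtain ⟨g, hg, rfl⟩ := exists_smul_D0 hd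
    have h1 : quartets (g • d0) = (fun i => g • tup 4 (EE i)) '' (Finset.range 220 : Set ℕ) := by
      ext Q
      constructor
      · intro hQ
        have h2 : g⁻¹ • Q ∈ quartets d0 := by
          have := smul_quartet (M24.inv_mem hg) hQ
          rwa [inv_smul_smul] at this
        obtain ⟨i, hi, h3⟩ := mem_quartets_iff.1 h2
        refine ⟨i, by simpa using hi, ?_⟩
        show g • tup 4 (EE i) = Q
        rw [← h3, smul_inv_smul]
      · rintro ⟨i, hi, rfl⟩
        exact smul_quartet hg (tup_mem (by simpa using hi))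
    rw [h1, Set.InjOn.ncard_image, Set.ncard_coe_finset, Finset.card_range]
    intro i hi j hj he
    exact tup_inj (by simpa using hi) (by simpa using hj) (smul_left_cancel g he)
  · intro Q hQ Q' hQ'
    obtain ⟨w, hw, h1, h2⟩ := exists_frame hd hQ
    obtain ⟨w', hw', h3, h4⟩ := exists_frame hd hQ'
    refine ⟨w' * w⁻¹, M24.mul_mem hw' (M24.inv_mem hw), ?_, ?_⟩
    · have e : w⁻¹ • d = d0 := by rw [← h1, inv_smul_smul]
      rw [mul_smul, e, h3]
    · have e : w⁻¹ • Q = tup 4 (EE 0) := by rw [← h2, inv_smul_smul]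
      rw [mul_smul, e, h4]

end Cfsg.Agent.Lib.H7QtG
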