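import Cfsg.Agent.Lib.H7QtG

/-! The orbits of the stabiliser of a quartet on the quartets of a dodecad. -/

set_option autoImplicit false
set_option linter.unusedSimpArgs false
set_option linter.unusedVariables false
set_option linter.style.haveILetI false
set_option maxRecDepth 100000
open scoped Pointwise
open Cfsg

namespace Cfsg.Agent.Lib.H7QtG
open Cfsg.Agent.Lib
open scoped Pointwise
open Cfsg.Agent.Lib.GolayBasic Cfsg.Agent.Lib.GolayCode Cfsg.Agent.Lib.GolayPerm Cfsg.Agent.Lib.GolayOrder Cfsg.Agent.Lib.GolayFacts Cfsg.Agent.Lib.GolayChain Cfsg.Agent.Lib.GolayM12 Cfsg.Agent.Lib.GolayCount Cfsg.Agent.Lib.GolayTools Cfsg.Agent.Lib.GolayKit Cfsg.Agent.Lib.GolayForest Cfsg.Agent.Lib.GolayCoset Cfsg.Agent.Lib.GolayFam Cfsg.Agent.Lib.H7Qt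

/-- the stabiliser of the basic quartet -/
noncomputable def K0 : Subgroup (Equiv.Perm GolayPt) := H12 ⊓ MulAction.stabilizer (Equiv.Perm GolayPt) (tup 4 (EE 0))

theorem gens1 : ∀ j < 3, ∃ g ∈ K0, Rep g (hG j) := by
  intro j hj
  have h1 := allBelow_spec gens_check j hj
  simp only [Bool.and_eq_true] at h1
  obtain ⟨⟨h2, h3⟩, h4⟩ := h1
  have r := rep_permOf _ h2
  exact ⟨_, ⟨mem_H12_of_check _ _ r h3, MulAction.mem_stabilizer_iff.2 (smul_tup r (hE 0 (by norm_num)) (hE 0 (by norm_num)) h4)⟩, r⟩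

theorem move1 {i : ℕ} (hi : i < 220) : ∃ g ∈ K0, g • tup 4 (EE (rt i)) = tup 4 (EE i) :=
  tup_forest gens1 hE forest1 i hi

theorem key_eq {i : ℕ} (hi : i < 220) : interInv phi (tup 4 (EE 0)) (tup 4 (EE i)) = ky i :=
  interInv_tup phi (hE 0 (by norm_num)) (hE i hi)

theorem rt_of_key {i j : ℕ} (hi : i < 220) (hj : j < 220) (h : ky i = ky j) : rt i = rt j := by
  have h1 := Nat.eq_of_beq_eq_true (allBelow_spec hrt i hi)
  have h2 := Nat.eq_of_beq_eq_true (allBelow_spec hrt j hj)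
  rw [h1, h2, h]

theorem move2 {i j : ℕ} (hi : i < 220) (hj : j < 220) (h : ky i = ky j) :
    ∃ k ∈ K0, k • tup 4 (EE i) = tup 4 (EE j) := by
  obtain ⟨g, hg, h1⟩ := move1 hi
  obtain ⟨g', hg', h2⟩ := move1 hj
  refine ⟨g' * g⁻¹, K0.mul_mem hg' (K0.inv_mem hg), ?_⟩
  rw [mul_smul, ← h1, inv_smul_smul, rt_of_key hi hj h, h2]

section
variable {d : Finset GolayPt} {Q : Finset (Finset GolayPt)} {w : Equiv.Perm GolayPt}

theorem fr_mem (hw : w ∈ M24) (h1 : w • d0 = d) {x : Finset (Finset GolayPt)} : x ∈ quartets d ↔ ∃ i, i < 220 ∧ x = w • tup 4 (EE i) := by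
  constructor
  · intro hx
    have h2 : w⁻¹ • x ∈ quartets d0 := by
      have := smul_quartet (M24.inv_mem hw) hx
      rwa [← h1, inv_smul_smul] at this
    obtain ⟨i, hi, h3⟩ := mem_quartets_iff.1 h2
    exact ⟨i, hi, by rw [← h3, smul_inv_smul]⟩
  · rintro ⟨i, hi, rfl⟩
    rw [← h1]
    exact smul_quartet hw (tup_mem hi)

theorem fr_key (h2 : w • tup 4 (EE 0) = Q) {i : ℕ} (hi : i < 220) : interInv phi Q (w • tup 4 (EE i)) = ky i := by
  rw [← h2, interInv_smul, key_eq hi]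

/-- the orbits -/
theorem orbit_eq (hw : w ∈ M24) (h1 : w • d0 = d) (h2 : w • tup 4 (EE 0) = Q) {a : Finset (Finset GolayPt)} (ha : a ∈ quartets d) :
    MulAction.orbit ↥(MulAction.stabilizer M24 d ⊓ MulAction.stabilizer M24 Q) a =
      {c | c ∈ quartets d ∧ interInv phi Q c = interInv phi Q a} := by
  ext c
  simp only [MulAction.mem_orbit_iff, Set.mem_ofPred_eq]
  constructor
  · rintro ⟨g, rfl⟩
    have hg1 : (g : ↥M24).1 ∈ M24 := (g : ↥M24).2
    have hg2 : (g : ↥M24).1 • d = d := MulAction.mem_stabilizer_iff.1 g.2.1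
    have hg3 : (g : ↥M24).1 • Q = Q := MulAction.mem_stabilizer_iff.1 g.2.2
    constructor
    · have := smul_quartet hg1 ha
      rwa [hg2] at this
    · have := interInv_smul phi (g : ↥M24).1 Q a
      rw [hg3] at this
      exact this
  · rintro ⟨hc, he⟩
    obtain ⟨i, hi, rfl⟩ := (fr_mem hw h1).1 ha
    obtain ⟨j, hj, rfl⟩ := (fr_mem hw h1).1 hc
    rw [fr_key h2 hi, fr_key h2 hj] at he
    obtain ⟨k, hk, h3⟩ := move2 hi hj he.symm
    have hkd : k • d0 = d0 := hk.1.2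
    have hkq : k • tup 4 (EE 0) = tup 4 (EE 0) := hk.2
    have hg : w * k * w⁻¹ ∈ M24 := M24.mul_mem (M24.mul_mem hw hk.1.1) (M24.inv_mem hw)
    have e1 : (w * k * w⁻¹) • d = d := by
      rw [← h1, mul_smul, mul_smul, inv_smul_smul, hkd]
    have e2 : (w * k * w⁻¹) • Q = Q := by
      rw [← h2, mul_smul, mul_smul, inv_smul_smul, hkq]
    refine ⟨⟨⟨w * k * w⁻¹, hg⟩, MulAction.mem_stabilizer_iff.2 e1, MulAction.mem_stabilizer_iff.2 e2⟩, ?_⟩
    show (w * k * w⁻¹) • (w • tup 4 (EE i)) = w • tup 4 (EE j)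
    rw [mul_smul, mul_smul, inv_smul_smul, h3]

theorem class_ncard (hw : w ∈ M24) (h1 : w • d0 = d) (h2 : w • tup 4 (EE 0) = Q) (t : ℕ) :
    {c | c ∈ quartets d ∧ interInv phi Q c = t}.ncard = countBelow (fun i => Nat.beq (ky i) t) 220 := by
  apply ncard_sep_enum (fun i => w • tup 4 (EE i)) (fun x => fr_mem hw h1)
  · intro i hi j hj he
    exact tup_inj hi hj (smul_left_cancel w he)
  · intro i hi
    show interInv phi Q (w • tup 4 (EE i)) = t ↔ _
    rw [fr_key h2 hi]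
    exact ⟨fun e => by rw [e]; exact Nat.beq_refl _, fun e => Nat.eq_of_beq_eq_true e⟩

theorem orbit_ncard (hw : w ∈ M24) (h1 : w • d0 = d) (h2 : w • tup 4 (EE 0) = Q) {i t : ℕ} (hi : i < 220) (ht : ky i = t) :
    (MulAction.orbit ↥(MulAction.stabilizer M24 d ⊓ MulAction.stabilizer M24 Q) (w • tup 4 (EE i))).ncard =
      countBelow (fun i => Nat.beq (ky i) t) 220 := by
  rw [orbit_eq hw h1 h2 ((fr_mem hw h1).2 ⟨i, hi, rfl⟩), fr_key h2 hi, ht]
  exact class_ncard hw h1 h2 t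

end

/-- the orbits of the stabiliser of a quartet -/
theorem quartet_orbits {d : Finset GolayPt} (hd : d ∈ dodecads) {Q : Finset (Finset GolayPt)} (hQ : Q ∈ quartets d) :
    ∃ X₁ ∈ quartets d, ∃ X₂ ∈ quartets d, ∃ X₃ ∈ quartets d, ∃ X₄ ∈ quartets d,
      (MulAction.orbit ↥(MulAction.stabilizer M24 d ⊓ MulAction.stabilizer M24 Q) X₁).ncard = 12 ∧
      (MulAction.orbit ↥(MulAction.stabilizer M24 d ⊓ MulAction.stabilizer M24 Q) X₂).ncard = 27 ∧
      (MulAction.orbit ↥(MulAction.stabilizer M24 d ⊓ MulAction.stabilizer M24 Q) X₃).ncard = 72 ∧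
      (MulAction.orbit ↥(MulAction.stabilizer M24 d ⊓ MulAction.stabilizer M24 Q) X₄).ncard = 108 ∧
      quartets d = {Q} ∪ MulAction.orbit ↥(MulAction.stabilizer M24 d ⊓ MulAction.stabilizer M24 Q) X₁ ∪
        MulAction.orbit ↥(MulAction.stabilizer M24 d ⊓ MulAction.stabilizer M24 Q) X₂ ∪
        MulAction.orbit ↥(MulAction.stabilizer M24 d ⊓ MulAction.stabilizer M24 Q) X₃ ∪
        MulAction.orbit ↥(MulAction.stabilizer M24 d ⊓ MulAction.stabilizer M24 Q) X₄ := by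
  classical
  obtain ⟨w, hw, h1, h2⟩ := exists_frame hd hQ
  obtain ⟨k1, k2, k3, k4, k0⟩ := hkv
  have m : ∀ i, i < 220 → w • tup 4 (EE i) ∈ quartets d := fun i hi => (fr_mem hw h1).2 ⟨i, hi, rfl⟩
  refine ⟨_, m 2 (by norm_num), _, m 1 (by norm_num), _, m 5 (by norm_num), _, m 7 (by norm_num),
    (orbit_ncard hw h1 h2 (by norm_num) k1).trans c1, (orbit_ncard hw h1 h2 (by norm_num) k2).trans c2,
    (orbit_ncard hw h1 h2 (by norm_num) k3).trans c3, (orbit_ncard hw h1 h2 (by norm_num) k4).trans c4, ?_⟩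
  have e1 := orbit_eq hw h1 h2 (m 2 (by norm_num))
  have e2 := orbit_eq hw h1 h2 (m 1 (by norm_num))
  have e3 := orbit_eq hw h1 h2 (m 5 (by norm_num))
  have e4 := orbit_eq hw h1 h2 (m 7 (by norm_num))
  rw [fr_key h2 (by norm_num), k1] at e1
  rw [fr_key h2 (by norm_num), k2] at e2
  rw [fr_key h2 (by norm_num), k3] at e3
  rw [fr_key h2 (by norm_num), k4] at e4
  ext x
  rw [Set.mem_union, Set.mem_union, Set.mem_union, Set.mem_union, e1, e2, e3, e4]
  simp only [Set.mem_singleton_iff, Set.mem_ofPred_eq]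
  constructor
  · intro hx
    obtain ⟨i, hi, rfl⟩ := (fr_mem hw h1).1 hx
    have hk := fr_key h2 hi
    rcases vals i hi with h | h | h | h | h
    · exact Or.inl (Or.inl (Or.inl (Or.inr ⟨hx, hk.trans h⟩)))
    · exact Or.inl (Or.inl (Or.inr ⟨hx, hk.trans h⟩))
    · exact Or.inl (Or.inr ⟨hx, hk.trans h⟩)
    · exact Or.inr ⟨hx, hk.trans h⟩
    · refine Or.inl (Or.inl (Or.inl (Or.inl ?_)))
      have : i = 0 := hself i hi (h.trans k0.symm)
      rw [this, h2]
  · rintro ((((rfl | ⟨h, -⟩) | ⟨h, -⟩) | ⟨h, -⟩) | ⟨h, -⟩)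
    · exact hQ
    · exact h
    · exact h
    · exact h
    · exact h

end Cfsg.Agent.Lib.H7QtG
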