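import Cfsg.Agent.Lib.H7QtK

/-! The stabiliser of a quartet: order, and the quotient by its normal subgroup of order nine. -/

set_option autoImplicit false
set_option linter.unusedSimpArgs false
set_option linter.unusedVariables false
set_option linter.style.haveILetI false
set_option maxRecDepth 100000
open scoped Pointwise
open Cfsg

namespace Cfsg.Agent.Lib.H7QtG
open Cfsg.Agent.Lib
open scoped Pointwise
open Cfsg.Agent.Lib.GolayBasic Cfsg.Agent.Lib.GolayCode Cfsg.Agent.Lib.GolayPerm Cfsg.Agent.Lib.GolayOrder Cfsg.Agent.Lib.GolayFacts Cfsg.Agent.Lib.GolayChain Cfsg.Agent.Lib.GolayM12 Cfsg.Agent.Lib.GolayCount Cfsg.Agent.Lib.GolayTools Cfsg.Agent.Lib.GolayKit Cfsg.Agent.Lib.GolayForest Cfsg.Agent.Lib.GolayCoset Cfsg.Agent.Lib.GolayFam Cfsg.Agent.Lib.H7Qt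

theorem card_K0 : Nat.card K0 = 432 := by
  classical
  have h := card_eq_mul_of_orbit' (G := Equiv.Perm GolayPt) H12 (tup 4 (EE 0)) ((Finset.range 220).image (fun i => tup 4 (EE i)))
    (fun g hg => by
      have h1 : g • d0 = d0 := hg.2
      have h2 := smul_quartet hg.1 (tup_mem (i := 0) (by norm_num))
      rw [h1] at h2
      obtain ⟨i, hi, h3⟩ := mem_quartets_iff.1 h2
      exact Finset.mem_image.2 ⟨i, Finset.mem_range.2 hi, h3.symm⟩)
    (fun y hy => by
      obtain ⟨i, hi, rfl⟩ := Finset.mem_image.1 hy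
      exact move0 (Finset.mem_range.1 hi))
  rw [Finset.card_image_of_injOn (fun i hi j hj he => tup_inj (Finset.mem_range.1 hi) (Finset.mem_range.1 hj) he), Finset.card_range, card_H12] at h
  have h2 : Nat.card ↥(H12 ⊓ MulAction.stabilizer (Equiv.Perm GolayPt) (tup 4 (EE 0))) = Nat.card K0 := rfl
  rw [h2] at h
  omega

theorem el_mem {i : ℕ} (hi : i < 432) : ∃ g ∈ K0, Rep g (el i) := by
  have h := allBelow_spec el_check i hi
  simp only [elOK, Bool.and_eq_true] at h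
  obtain ⟨⟨h1, h2⟩, h3⟩ := h
  have r := rep_permOf _ h1
  exact ⟨_, ⟨mem_H12_of_check _ _ r h2, MulAction.mem_stabilizer_iff.2 (smul_tup r (hE 0 (by norm_num)) (hE 0 (by norm_num)) h3)⟩, r⟩

theorem kk_of_rep {g : Equiv.Perm GolayPt} {i : ℕ} (r : Rep g (el i)) :
    kk i = 1 * idx (g (ptOf 0)) + 24 * idx (g (ptOf 1)) + 576 * idx (g (ptOf 2)) + 13824 * idx (g (ptOf 3)) := by
  rw [r, r, r, r, idx_ptOf (by norm_num), idx_ptOf (by norm_num), idx_ptOf (by norm_num), idx_ptOf (by norm_num)]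
  rfl

theorem exists_el {g : Equiv.Perm GolayPt} (hg : g ∈ K0) : ∃ i, i < 432 ∧ Rep g (el i) := by
  classical
  have hm : ∀ i, i < 432 → ∃ g ∈ K0, Rep g (el i) := fun i hi => el_mem hi
  choose! f hf hf2 using hm
  have hinj : Set.InjOn f (Finset.range 432 : Finset ℕ) := by
    intro i hi j hj he
    have hi' : i < 432 := by simpa using hi
    have hj' : j < 432 := by simpa using hj
    refine inj_of_mono kk_mono i hi' j hj' ?_
    rw [kk_of_rep (hf2 i hi'), kk_of_rep (hf2 j hj'), he]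
  have h1 : (f '' (Finset.range 432 : Finset ℕ)) ⊆ (K0 : Set (Equiv.Perm GolayPt)) := by
    rintro _ ⟨i, hi, rfl⟩
    exact hf i (by simpa using hi)
  have h2 : (K0 : Set (Equiv.Perm GolayPt)).ncard = 432 := by
    rw [← Nat.card_coe_set_eq]
    exact card_K0
  have h3 : (f '' (Finset.range 432 : Finset ℕ)).ncard = 432 := by
    rw [hinj.ncard_image, Set.ncard_coe_finset, Finset.card_range]
  have h4 := Set.eq_of_subset_of_ncard_le h1 (by rw [h2, h3]) (Set.toFinite _)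
  have h5 : g ∈ f '' (Finset.range 432 : Finset ℕ) := by
    rw [h4]
    exact hg
  obtain ⟨i, hi, rfl⟩ := h5
  have hi' : i < 432 := by simpa using hi
  exact ⟨i, hi', hf2 i hi'⟩

/-- the two elements -/
noncomputable def pA : Equiv.Perm GolayPt := permOf aC ab_check.1
/-- the two elements -/
noncomputable def pB : Equiv.Perm GolayPt := permOf bC ab_check.2.1

theorem rA : Rep pA aC := rep_permOf _ _
theorem rB : Rep pB bC := rep_permOf _ _

theorem pA_mem : pA ∈ K0 :=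
  ⟨mem_H12_of_check _ _ rA ab_check.2.2.1, MulAction.mem_stabilizer_iff.2 (smul_tup rA (hE 0 (by norm_num)) (hE 0 (by norm_num)) ab_check.2.2.2.2.1)⟩

theorem pB_mem : pB ∈ K0 :=
  ⟨mem_H12_of_check _ _ rB ab_check.2.2.2.1, MulAction.mem_stabilizer_iff.2 (smul_tup rB (hE 0 (by norm_num)) (hE 0 (by norm_num)) ab_check.2.2.2.2.2)⟩

/-- the two elements -/
noncomputable def ga : ↥K0 := ⟨pA, pA_mem⟩
/-- the two elements -/
noncomputable def gb : ↥K0 := ⟨pB, pB_mem⟩

open H7GL23 in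
theorem coe_th (v : V3) : ((th ga gb v : ↥K0) : Equiv.Perm GolayPt) = pA ^ (v 0).val * pB ^ (v 1).val := rfl

theorem rep_thC (x y : ℕ) : Rep (pA ^ x * pB ^ y) (thC x y) := Rep.mul (rep_pw rA x) (rep_pw rB y)

theorem allBelow_intro {f : ℕ → Bool} {n : ℕ} (h : ∀ i < n, f i = true) : allBelow f n = true := by
  induction n with
  | zero => rfl
  | succ n ih =>
    show and (allBelow f n) (f n) = true
    rw [ih (fun i hi => h i (by omega)), h n (by omega)]
    rfl

theorem commB_of_comm {g h : Equiv.Perm GolayPt} {x y : ℕ} (rg : Rep g x) (rh : Rep h y) (hc : g * h = h * g) : commB x y = true := by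
  apply allBelow_intro
  intro k hk
  have h1 := Rep.mul rg rh (ptOf k)
  have h2 := Rep.mul rh rg (ptOf k)
  rw [hc, h2, idx_ptOf hk, ap_mulP _ _ _ hk, ap_mulP _ _ _ hk] at h1
  rw [h1]
  exact Nat.beq_refl _

open H7GL23 in
theorem val_mk {x : ℕ} (hx : x < 3) : ((x : ℕ) : ZMod 3).val = x := by
  rw [ZMod.val_natCast, Nat.mod_eq_of_lt hx]

open H7GL23 in
theorem exists_phi : ∃ Φ : ↥K0 →* GL (Fin 2) (ZMod 3), Function.Surjective Φ ∧ Nat.card Φ.ker = 9 := by
  refine main ga gb ?_ ?_ ?_ ?_ ?_ ?_ card_K0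
  · apply Subtype.ext
    have h1 := Rep.mul rA rB
    rw [ab_comm] at h1
    exact h1.eq (Rep.mul rB rA)
  · apply Subtype.ext
    have h1 := rep_pw rA 3
    rw [a_cube] at h1
    exact h1.eq rep_one
  · apply Subtype.ext
    have h1 := rep_pw rB 3
    rw [b_cube] at h1
    exact h1.eq rep_one
  · intro v hv
    have hx : (v 0).val < 3 := ZMod.val_lt _
    have hy : (v 1).val < 3 := ZMod.val_lt _
    have h1 := rep_thC (v 0).val (v 1).val
    have h2 : pA ^ (v 0).val * pB ^ (v 1).val = 1 := congrArg Subtype.val hv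
    rw [h2] at h1
    rcases th_nz _ hx _ hy with ⟨h3, h4⟩ | ⟨k, hk, h3⟩
    · funext j
      fin_cases j
      · exact (ZMod.val_eq_zero _).1 h3
      · exact (ZMod.val_eq_zero _).1 h4
    · exfalso
      have h4 := h1 (ptOf k)
      rw [idx_ptOf hk] at h4
      simp only [Equiv.Perm.coe_one, id_eq, idx_ptOf hk] at h4
      exact h3 h4.symm
  · intro g
    obtain ⟨i, hi, r⟩ := exists_el g.2
    have h := allBelow_spec conj_check i hi
    simp only [conjOK, Bool.and_eq_true] at h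
    have e1 := Nat.eq_of_beq_eq_true h.1
    have e2 := Nat.eq_of_beq_eq_true h.2
    have p1 : tbl i % 3 < 3 := Nat.mod_lt _ (by norm_num)
    have p2 : tbl i / 3 % 3 < 3 := Nat.mod_lt _ (by norm_num)
    have p3 : tbl i / 9 % 3 < 3 := Nat.mod_lt _ (by norm_num)
    have p4 : tbl i / 27 % 3 < 3 := Nat.mod_lt _ (by norm_num)
    refine ⟨![((tbl i % 3 : ℕ) : ZMod 3), ((tbl i / 3 % 3 : ℕ) : ZMod 3)], ![((tbl i / 9 % 3 : ℕ) : ZMod 3), ((tbl i / 27 % 3 : ℕ) : ZMod 3)], ?_, ?_⟩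
    · apply mul_inv_eq_iff_eq_mul.2
      apply Subtype.ext
      show g.1 * pA = (pA ^ ((tbl i % 3 : ℕ) : ZMod 3).val * pB ^ ((tbl i / 3 % 3 : ℕ) : ZMod 3).val) * g.1
      rw [val_mk p1, val_mk p2]
      have h1 := Rep.mul r rA
      rw [e1] at h1
      exact h1.eq (Rep.mul (rep_thC _ _) r)
    · apply mul_inv_eq_iff_eq_mul.2
      apply Subtype.ext
      show g.1 * pB = (pA ^ ((tbl i / 9 % 3 : ℕ) : ZMod 3).val * pB ^ ((tbl i / 27 % 3 : ℕ) : ZMod 3).val) * g.1
      rw [val_mk p3, val_mk p4]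
      have h1 := Rep.mul r rB
      rw [e2] at h1
      exact h1.eq (Rep.mul (rep_thC _ _) r)
  · intro g h1 h2
    obtain ⟨i, hi, r⟩ := exists_el g.2
    have h := allBelow_spec cent_check i hi
    have c1 := commB_of_comm r rA (congrArg Subtype.val h1)
    have c2 := commB_of_comm r rB (congrArg Subtype.val h2)
    simp only [centOK, c1, c2, Bool.and_self, cond_true] at h
    have e := Nat.eq_of_beq_eq_true h
    have p1 : cz i % 3 < 3 := Nat.mod_lt _ (by norm_num)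
    have p2 : cz i / 3 % 3 < 3 := Nat.mod_lt _ (by norm_num)
    refine ⟨![((cz i % 3 : ℕ) : ZMod 3), ((cz i / 3 % 3 : ℕ) : ZMod 3)], ?_⟩
    apply Subtype.ext
    show g.1 = pA ^ ((cz i % 3 : ℕ) : ZMod 3).val * pB ^ ((cz i / 3 % 3 : ℕ) : ZMod 3).val
    rw [val_mk p1, val_mk p2]
    rw [e] at r
    exact r.eq (rep_thC _ _)

section
variable {d : Finset GolayPt} {Q : Finset (Finset GolayPt)} {w : Equiv.Perm GolayPt}

/-- the comparison with the basic stabiliser -/
noncomputable def conjE (hw : w ∈ M24) (h1 : w • d0 = d) (h2 : w • tup 4 (EE 0) = Q) :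
    ↥(MulAction.stabilizer M24 d ⊓ MulAction.stabilizer M24 Q) ≃* ↥K0 where
  toFun g := ⟨w⁻¹ * (g : ↥M24).1 * w, ⟨M24.mul_mem (M24.mul_mem (M24.inv_mem hw) (g : ↥M24).2) hw, by
      show (w⁻¹ * (g : ↥M24).1 * w) • d0 = d0
      have e : (g : ↥M24).1 • d = d := MulAction.mem_stabilizer_iff.1 g.2.1
      rw [mul_smul, mul_smul, h1, e, ← h1, inv_smul_smul]⟩, by
      apply MulAction.mem_stabilizer_iff.2
      have e : (g : ↥M24).1 • Q = Q := MulAction.mem_stabilizer_iff.1 g.2.2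
      rw [mul_smul, mul_smul, h2, e, ← h2, inv_smul_smul]⟩
  invFun k := ⟨⟨w * k.1 * w⁻¹, M24.mul_mem (M24.mul_mem hw k.2.1.1) (M24.inv_mem hw)⟩,
    MulAction.mem_stabilizer_iff.2 (by
      show (w * k.1 * w⁻¹) • d = d
      have e : k.1 • d0 = d0 := k.2.1.2
      rw [← h1, mul_smul, mul_smul, inv_smul_smul, e]),
    MulAction.mem_stabilizer_iff.2 (by
      show (w * k.1 * w⁻¹) • Q = Q
      have e : k.1 • tup 4 (EE 0) = tup 4 (EE 0) := MulAction.mem_stabilizer_iff.1 k.2.2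
      rw [← h2, mul_smul, mul_smul, inv_smul_smul, e])⟩
  left_inv g := by
    apply Subtype.ext
    apply Subtype.ext
    show w * (w⁻¹ * (g : ↥M24).1 * w) * w⁻¹ = (g : ↥M24).1
    group
  right_inv k := by
    apply Subtype.ext
    show w⁻¹ * (w * k.1 * w⁻¹) * w = k.1
    group
  map_mul' g h := by
    apply Subtype.ext
    show w⁻¹ * ((g : ↥M24).1 * (h : ↥M24).1) * w = (w⁻¹ * (g : ↥M24).1 * w) * (w⁻¹ * (h : ↥M24).1 * w)
    group

end

theorem exists_move_k {p : GolayPt} (hp : p ∈ d0) : ∃ g ∈ K0, g (ptOf 0) = p := by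
  have h1 := allBelow_spec trans_check (idx p) (idx_lt p)
  have hb : Nat.testBit D0 (idx p) = true := mem_setOf.1 hp
  rw [hb, cond_true] at h1
  obtain ⟨i, hi, h2⟩ := anyBelow_spec h1
  obtain ⟨g, hg, r⟩ := el_mem hi
  refine ⟨g, hg, ?_⟩
  apply idx_injective
  rw [r, idx_ptOf (by norm_num)]
  exact Nat.eq_of_beq_eq_true h2

/-- the structure of the stabiliser -/
theorem quartet_structure {d : Finset GolayPt} (hd : d ∈ dodecads) {Q : Finset (Finset GolayPt)} (hQ : Q ∈ quartets d) :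
    Nat.card ↥(MulAction.stabilizer M24 d ⊓ MulAction.stabilizer M24 Q) = 432 ∧
    (∃ (N : Subgroup ↥(MulAction.stabilizer M24 d ⊓ MulAction.stabilizer M24 Q)) (_ : N.Normal), Nat.card N = 9 ∧
      Nonempty (↥(MulAction.stabilizer M24 d ⊓ MulAction.stabilizer M24 Q) ⧸ N ≃* GL (Fin 2) (ZMod 3))) ∧
    ∀ p ∈ d, ∀ q ∈ d, ∃ g ∈ (MulAction.stabilizer M24 d ⊓ MulAction.stabilizer M24 Q), ((g : ↥M24) : Equiv.Perm GolayPt) p = q := by
  classical
  obtain ⟨w, hw, h1, h2⟩ := exists_frame hd hQ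
  let E := conjE hw h1 h2
  obtain ⟨Φ, hs, hk⟩ := exists_phi
  refine ⟨(Nat.card_congr E.toEquiv).trans card_K0, ⟨(Φ.comp E.toMonoidHom).ker, inferInstance, ?_, ?_⟩, ?_⟩
  · rw [← hk]
    refine Nat.card_congr (Equiv.subtypeEquiv E.toEquiv ?_)
    intro x
    exact Iff.rfl
  · have hs' : Function.Surjective (Φ.comp E.toMonoidHom) := hs.comp E.surjective
    exact ⟨QuotientGroup.quotientKerEquivOfSurjective _ hs'⟩
  · intro p hp q hq
    have hp' : w⁻¹ p ∈ d0 := by
      rw [← h1] at hp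
      obtain ⟨x, hx, rfl⟩ := Finset.mem_smul_finset.1 hp
      simpa using hx
    have hq' : w⁻¹ q ∈ d0 := by
      rw [← h1] at hq
      obtain ⟨x, hx, rfl⟩ := Finset.mem_smul_finset.1 hq
      simpa using hx
    obtain ⟨g, hg, e1⟩ := exists_move_k hp'
    obtain ⟨g', hg', e2⟩ := exists_move_k hq'
    have hk : g' * g⁻¹ ∈ K0 := K0.mul_mem hg' (K0.inv_mem hg)
    refine ⟨E.symm ⟨g' * g⁻¹, hk⟩, (E.symm ⟨g' * g⁻¹, hk⟩).2, ?_⟩
    show (w * (g' * g⁻¹) * w⁻¹) p = q
    simp only [Equiv.Perm.mul_apply]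
    have e3 : g⁻¹ (w⁻¹ p) = ptOf 0 := by rw [← e1]; simp
    rw [e3, e2]
    simp

end Cfsg.Agent.Lib.H7QtG
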