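import Mathlib
import Cfsg.Prelude.Def_SporadicB

/-! Transvections in the symplectic group over the field with two elements: a class of 3-transpositions generating
the group. -/

set_option autoImplicit false
set_option linter.unusedSimpArgs false
set_option linter.unusedVariables false
set_option linter.style.haveILetI false

namespace Cfsg.Agent.Lib.H7SympF2

open Matrix

variable {n : ℕ}

/-- the space -/
abbrev VV (n : ℕ) : Type := Fin n ⊕ Fin n → ZMod 2
/-- the matrices -/
abbrev MM (n : ℕ) : Type := Matrix (Fin n ⊕ Fin n) (Fin n ⊕ Fin n) (ZMod 2)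
/-- the form -/
abbrev JJ (n : ℕ) : MM n := Matrix.J (Fin n) (ZMod 2)
/-- the group -/
abbrev GG (n : ℕ) : Type := Matrix.symplecticGroup (Fin n) (ZMod 2)

/-- the alternating form -/
def om (x y : VV n) : ZMod 2 := x ⬝ᵥ (JJ n *ᵥ y)

theorem om_add_left (x y z : VV n) : om (x + y) z = om x z + om y z := by
  simp [om, add_dotProduct]

theorem om_add_right (x y z : VV n) : om x (y + z) = om x y + om x z := by
  simp [om, mulVec_add, dotProduct_add]

theorem om_smul_left (a : ZMod 2) (x y : VV n) : om (a • x) y = a * om x y := by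
  simp [om, smul_dotProduct]

theorem om_smul_right (a : ZMod 2) (x y : VV n) : om x (a • y) = a * om x y := by
  simp [om, mulVec_smul, dotProduct_smul]

theorem om_self (x : VV n) : om x x = 0 := by
  have h1 : ∀ i : Fin n, (JJ n *ᵥ x) (Sum.inl i) = - x (Sum.inr i) := by
    intro i
    simp [JJ, Matrix.J, fromBlocks_mulVec, mulVec_neg, neg_mulVec]
  have h2 : ∀ i : Fin n, (JJ n *ᵥ x) (Sum.inr i) = x (Sum.inl i) := by
    intro i
    simp [JJ, Matrix.J, fromBlocks_mulVec]
  simp only [om, dotProduct, Fintype.sum_sum_type, h1, h2]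
  rw [← Finset.sum_add_distrib]
  apply Finset.sum_eq_zero
  intro i _
  ring

theorem om_symm (x y : VV n) : om x y = om y x := by
  have h := om_self (x + y)
  rw [om_add_left, om_add_right, om_add_right, om_self, om_self, zero_add, add_zero] at h
  exact CharTwo.add_eq_zero.1 h

theorem vv_add_self (x : VV n) : x + x = 0 := by
  funext i
  exact CharTwo.add_self_eq_zero _

theorem vv_eq_of_add {x y : VV n} (h : x + y = 0) : x = y := by
  funext i
  exact CharTwo.add_eq_zero.1 (congrFun h i)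

theorem two_cases (a : ZMod 2) : a = 0 ∨ a = 1 := by
  revert a
  decide

theorem ne_zero_eq_one {a : ZMod 2} (h : a ≠ 0) : a = 1 := (two_cases a).resolve_left h

theorem om_nondeg {v : VV n} (hv : v ≠ 0) : ∃ x, om x v = 1 := by
  have h1 : JJ n *ᵥ v ≠ 0 := by
    intro h
    apply hv
    have h2 := congrArg (fun w => JJ n *ᵥ w) h
    simp only [mulVec_mulVec, mulVec_zero] at h2
    rw [J_squared] at h2
    simpa [neg_mulVec] using h2
  obtain ⟨i, hi⟩ := Function.ne_iff.1 h1
  refine ⟨Pi.single i 1, ?_⟩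
  simp only [om, single_one_dotProduct]
  exact ne_zero_eq_one hi

theorem om_pair {v w : VV n} (hv : v ≠ 0) (hw : w ≠ 0) : ∃ x, om x v = 1 ∧ om x w = 1 := by
  obtain ⟨a, ha⟩ := om_nondeg hv
  obtain ⟨b, hb⟩ := om_nondeg hw
  rcases two_cases (om a w) with h1 | h1
  · rcases two_cases (om b v) with h2 | h2
    · refine ⟨a + b, ?_, ?_⟩
      · rw [om_add_left, ha, h2, add_zero]
      · rw [om_add_left, hb, h1, zero_add]
    · exact ⟨b, h2, hb⟩
  · exact ⟨a, ha, h1⟩

theorem dot_mulVec (A : MM n) (x w : VV n) : (A *ᵥ x) ⬝ᵥ w = x ⬝ᵥ (Aᵀ *ᵥ w) := by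
  rw [dotProduct_mulVec, vecMul_transpose]

theorem sp_form (g : GG n) : (g : MM n)ᵀ * JJ n * (g : MM n) = JJ n := by
  have h := (SymplecticGroup.transpose_mem g.2)
  rw [SymplecticGroup.mem_iff, transpose_transpose] at h
  exact h

/-- the action -/
def ac (g : GG n) (x : VV n) : VV n := (g : MM n) *ᵥ x

theorem ac_mul (g h : GG n) (x : VV n) : ac (g * h) x = ac g (ac h x) := by
  show ((g : MM n) * (h : MM n)) *ᵥ x = (g : MM n) *ᵥ ((h : MM n) *ᵥ x)
  rw [mulVec_mulVec]

theorem ac_one (x : VV n) : ac (1 : GG n) x = x := by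
  show (1 : MM n) *ᵥ x = x
  rw [one_mulVec]

theorem ac_inv_ac (g : GG n) (x : VV n) : ac g⁻¹ (ac g x) = x := by
  rw [← ac_mul, inv_mul_cancel, ac_one]

theorem ac_ac_inv (g : GG n) (x : VV n) : ac g (ac g⁻¹ x) = x := by
  rw [← ac_mul, mul_inv_cancel, ac_one]

theorem ac_add (g : GG n) (x y : VV n) : ac g (x + y) = ac g x + ac g y := mulVec_add _ _ _

theorem ac_smul (g : GG n) (a : ZMod 2) (x : VV n) : ac g (a • x) = a • ac g x := mulVec_smul _ _ _

theorem ac_ne_zero (g : GG n) {x : VV n} (hx : x ≠ 0) : ac g x ≠ 0 := by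
  intro h
  apply hx
  have h2 := ac_inv_ac g x
  rw [h] at h2
  rw [← h2]
  exact mulVec_zero _

theorem om_ac (g : GG n) (x y : VV n) : om (ac g x) (ac g y) = om x y := by
  show ((g : MM n) *ᵥ x) ⬝ᵥ (JJ n *ᵥ ((g : MM n) *ᵥ y)) = x ⬝ᵥ (JJ n *ᵥ y)
  rw [dot_mulVec, mulVec_mulVec, mulVec_mulVec, sp_form]

theorem gg_ext {g h : GG n} (H : ∀ x, ac g x = ac h x) : g = h := by
  apply Subtype.ext
  apply Matrix.mulVec_injective
  funext x
  exact H x

/-- the matrix of a transvection -/
def tvM (v : VV n) : MM n := 1 + vecMulVec v (JJ n *ᵥ v)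

theorem tvM_apply (v x : VV n) : tvM v *ᵥ x = x + om x v • v := by
  unfold tvM
  rw [add_mulVec, one_mulVec, vecMulVec_mulVec]
  congr 1
  funext i
  have h : JJ n *ᵥ v ⬝ᵥ x = om x v := by
    unfold om
    rw [dotProduct_comm]
  simp only [Pi.smul_apply, smul_eq_mul, MulOpposite.smul_eq_mul_unop, MulOpposite.unop_op, h, mul_comm]
  try rfl

theorem mem_of_pres {A : MM n} (h : ∀ x y, om (A *ᵥ x) (A *ᵥ y) = om x y) :
    A ∈ Matrix.symplecticGroup (Fin n) (ZMod 2) := by
  have h1 : Aᵀ * JJ n * A = JJ n := by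
    ext i j
    have h2 := h (Pi.single i 1) (Pi.single j 1)
    simp only [om] at h2
    rw [dot_mulVec, mulVec_mulVec, mulVec_mulVec] at h2
    simpa [single_one_dotProduct, mulVec_single_one] using h2
  have h3 : Aᵀ ∈ Matrix.symplecticGroup (Fin n) (ZMod 2) := by
    rw [SymplecticGroup.mem_iff, transpose_transpose]
    exact h1
  have h4 := SymplecticGroup.transpose_mem h3
  rwa [transpose_transpose] at h4

theorem tv_pres (v x y : VV n) : om (tvM v *ᵥ x) (tvM v *ᵥ y) = om x y := by
  rw [tvM_apply, tvM_apply, om_add_left, om_add_right, om_add_right, om_smul_left, om_smul_right, om_smul_right,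
    om_smul_left, om_self, om_symm v y]
  generalize om x y = a
  generalize om y v = b
  generalize om x v = c
  revert a b c
  decide

/-- a transvection -/
def tv (v : VV n) : GG n := ⟨tvM v, mem_of_pres (tv_pres v)⟩

theorem tv_apply (v x : VV n) : ac (tv v) x = x + om x v • v := tvM_apply v x

theorem smul_add_smul_self (a : ZMod 2) (v : VV n) : a • v + a • v = 0 := vv_add_self _

theorem tv_tv (v : VV n) : tv v * tv v = 1 := by
  apply gg_ext
  intro x
  rw [ac_mul, ac_one, tv_apply, tv_apply, om_add_left, om_smul_left, om_self, mul_zero, add_zero, add_assoc,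
    smul_add_smul_self, add_zero]

theorem tv_inv (v : VV n) : (tv v)⁻¹ = tv v := inv_eq_of_mul_eq_one_left (tv_tv v)

theorem conj_tv (g : GG n) (v : VV n) : g * tv v * g⁻¹ = tv (ac g v) := by
  apply gg_ext
  intro x
  rw [ac_mul, ac_mul, tv_apply, tv_apply, ac_add, ac_ac_inv, ac_smul]
  congr 2
  rw [← om_ac g, ac_ac_inv]

theorem tv_ne_one {v : VV n} (hv : v ≠ 0) : tv v ≠ 1 := by
  intro h
  obtain ⟨x, hx⟩ := om_nondeg hv
  have h1 := tv_apply v x
  rw [h, ac_one, hx, one_smul] at h1
  apply hv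
  have h2 : x + v = x + 0 := by rw [← h1, add_zero]
  exact add_left_cancel h2

theorem order_tv {v : VV n} (hv : v ≠ 0) : orderOf (tv v) = 2 := by
  apply orderOf_eq_prime
  · rw [pow_two]; exact tv_tv v
  · exact tv_ne_one hv

theorem rank_tv {v : VV n} (hv : v ≠ 0) : (((tv v : GG n) : MM n) - 1).rank = 1 := by
  have h1 : JJ n *ᵥ v ≠ 0 := by
    intro h
    obtain ⟨x, hx⟩ := om_nondeg hv
    simp [om, h] at hx
  show (tvM v - 1).rank = 1
  have h2 : tvM v - 1 = vecMulVec v (JJ n *ᵥ v) := by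
    unfold tvM
    rw [add_sub_cancel_left]
  rw [h2]
  apply le_antisymm (Matrix.rank_vecMulVec_le _ _)
  by_contra hc
  have h3 : (vecMulVec v (JJ n *ᵥ v)).rank = 0 := by omega
  have h4 : Module.finrank (ZMod 2) (LinearMap.range (vecMulVec v (JJ n *ᵥ v)).mulVecLin) = 0 := h3
  rw [Submodule.finrank_eq_zero] at h4
  obtain ⟨x, hx⟩ := om_nondeg hv
  have h5 : (vecMulVec v (JJ n *ᵥ v)).mulVecLin x ∈ LinearMap.range (vecMulVec v (JJ n *ᵥ v)).mulVecLin :=
    LinearMap.mem_range_self _ x
  rw [h4, Submodule.mem_bot] at h5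
  have h6 : (vecMulVec v (JJ n *ᵥ v)) *ᵥ x = 0 := h5
  rw [← h2, sub_mulVec, one_mulVec, tvM_apply, hx, one_smul, add_sub_cancel_left] at h6
  exact hv h6

theorem eq_tv_of_rank {g : GG n} (h : ((g : MM n) - 1).rank = 1) : ∃ v, v ≠ 0 ∧ g = tv v := by
  classical
  have h0 : Module.finrank (ZMod 2) (LinearMap.range (((g : MM n) - 1).mulVecLin)) = 1 := h
  obtain ⟨⟨v, hvr⟩, hv0, hv⟩ := finrank_eq_one_iff'.1 h0
  have hv0' : v ≠ 0 := fun e => hv0 (Subtype.ext e)
  have hall : ∀ x, ∃ c : ZMod 2, ac g x = x + c • v := by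
    intro x
    obtain ⟨c, hc⟩ := hv ⟨((g : MM n) - 1).mulVecLin x, LinearMap.mem_range_self _ x⟩
    refine ⟨c, ?_⟩
    have h2 : c • v = ((g : MM n) - 1) *ᵥ x := congrArg Subtype.val hc
    rw [h2, sub_mulVec, one_mulVec]
    show (g : MM n) *ᵥ x = x + ((g : MM n) *ᵥ x - x)
    abel
  choose a ha using hall
  obtain ⟨x0, hx0⟩ := LinearMap.mem_range.1 hvr
  have hx0' : ac g x0 = x0 + v := by
    have h3 : ((g : MM n) - 1) *ᵥ x0 = v := hx0
    rw [sub_mulVec, one_mulVec] at h3
    rw [← h3]
    show (g : MM n) *ᵥ x0 = x0 + ((g : MM n) *ᵥ x0 - x0)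
    abel
  have hrel : ∀ x y, a y * om x v = a x * om y v := by
    intro x y
    have h4 := om_ac g x y
    rw [ha x, ha y, om_add_left, om_add_right, om_add_right, om_smul_left, om_smul_right, om_smul_right,
      om_smul_left, om_self, om_symm v y] at h4
    generalize om x y = a0 at h4
    generalize a y = a1 at h4 ⊢
    generalize om x v = a2 at h4 ⊢
    generalize a x = a3 at h4 ⊢
    generalize om y v = a4 at h4 ⊢
    revert a0 a1 a2 a3 a4
    decide
  have hax0 : a x0 = 1 := by
    have h8 := ha x0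
    rw [hx0'] at h8
    have h9 := add_left_cancel h8
    rcases two_cases (a x0) with h10 | h10
    · rw [h10, zero_smul] at h9
      exact (hv0' h9).elim
    · exact h10
  obtain ⟨y1, hy1⟩ := om_nondeg hv0'
  have hom : om x0 v = 1 := by
    have h11 := hrel x0 y1
    rw [hax0, hy1, one_mul] at h11
    rcases two_cases (om x0 v) with h12 | h12
    · rw [h12, mul_zero] at h11
      exact (zero_ne_one h11).elim
    · exact h12
  have hay : ∀ y, a y = om y v := by
    intro y
    have h11 := hrel x0 y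
    rw [hax0, hom, one_mul, mul_one] at h11
    exact h11
  refine ⟨v, hv0', gg_ext ?_⟩
  intro x
  rw [tv_apply, ha x, hay x]

/-- the moved points -/
noncomputable def moved (g : GG n) : Finset (VV n) := by
  classical exact Finset.univ.filter (fun x => ac g x ≠ x)

theorem mem_moved {g : GG n} {x : VV n} : x ∈ moved g ↔ ac g x ≠ x := by
  classical
  simp [moved]

theorem om_fixed {g : GG n} {z : VV n} (hz : ac g z = z) (y : VV n) : om z (ac g y + y) = 0 := by
  rw [om_add_right]
  have h := om_ac g z y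
  rw [hz] at h
  rw [h]
  exact CharTwo.add_self_eq_zero _

theorem add_ne_zero_of_ne {a b : VV n} (h : a ≠ b) : a + b ≠ 0 := by
  intro e
  exact h (vv_eq_of_add e)

theorem fixed_mono {g : GG n} {u : VV n} (y : VV n) (hu : u = ac g y + y) {z : VV n} (hz : ac g z = z) :
    ac (tv u * g) z = z := by
  rw [ac_mul, hz, tv_apply, hu, om_fixed hz, zero_smul, add_zero]

/-- the main step -/
theorem step {g : GG n} {x : VV n} (hx : om x (ac g x) = 1) :
    ac g x + x ≠ 0 ∧ (moved (tv (ac g x + x) * g)).card < (moved g).card := by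
  have hne : ac g x ≠ x := by
    intro e
    rw [e, om_self] at hx
    exact zero_ne_one hx
  refine ⟨add_ne_zero_of_ne hne, ?_⟩
  apply Finset.card_lt_card
  rw [Finset.ssubset_iff_of_subset]
  · refine ⟨x, mem_moved.2 hne, ?_⟩
    rw [mem_moved]
    push Not
    rw [ac_mul, tv_apply, om_add_right, om_self, zero_add, om_symm, hx, one_smul, ← add_assoc,
      vv_add_self, zero_add]
  · intro z hz
    rw [mem_moved] at hz ⊢
    intro e
    exact hz (fixed_mono x rfl e)

theorem moved_le {g : GG n} {u y : VV n} (hu : u = ac g y + y) : (moved (tv u * g)).card ≤ (moved g).card := by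
  apply Finset.card_le_card
  intro z hz
  rw [mem_moved] at hz ⊢
  intro e
  exact hz (fixed_mono y hu e)

/-- the set of transvections -/
def DD (n : ℕ) : Set (GG n) := {g | ((g : MM n) - 1).rank = 1}

theorem tv_mem {v : VV n} (hv : v ≠ 0) : tv v ∈ DD n := rank_tv hv

theorem mem_closure_all : ∀ m : ℕ, ∀ g : GG n, (moved g).card = m → g ∈ Subgroup.closure (DD n) := by
  intro m
  induction m using Nat.strong_induction_on with
  | _ m ih =>
    intro g hg
    by_cases hg1 : g = 1
    · rw [hg1]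
      exact one_mem _
    by_cases hex : ∃ x, om x (ac g x) = 1
    · obtain ⟨x, hx⟩ := hex
      obtain ⟨h1, h2⟩ := step hx
      have h3 := ih _ (hg ▸ h2) _ rfl
      have h4 : g = tv (ac g x + x) * (tv (ac g x + x) * g) := by
        rw [← mul_assoc, tv_tv, one_mul]
      rw [h4]
      exact mul_mem (Subgroup.subset_closure (tv_mem h1)) h3
    · push Not at hex
      have hex' : ∀ x, om x (ac g x) = 0 := fun x => (two_cases _).resolve_right (hex x)
      obtain ⟨y, hy⟩ : ∃ y, ac g y ≠ y := by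
        by_contra hc
        push Not at hc
        apply hg1
        apply gg_ext
        intro x
        rw [hc, ac_one]
      have hu : ac g y + y ≠ 0 := add_ne_zero_of_ne hy
      obtain ⟨u, hudef⟩ : ∃ u, u = ac g y + y := ⟨_, rfl⟩
      rw [← hudef] at hu
      obtain ⟨x, hx1, hx2⟩ := om_pair hu (ac_ne_zero g⁻¹ hu)
      have hx3 : om (ac g x) u = 1 := by
        rw [← om_ac g x, ac_ac_inv] at hx2
        exact hx2
      have hx4 : om x (ac (tv u * g) x) = 1 := by
        rw [ac_mul, tv_apply, om_add_right, hex', zero_add, om_smul_right, hx3, one_mul]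
        exact hx1
      obtain ⟨h1, h2⟩ := step hx4
      have h5 := moved_le (g := g) hudef
      have h3 := ih _ (lt_of_lt_of_le h2 (hg ▸ h5)) _ rfl
      obtain ⟨v, hvdef⟩ : ∃ v, v = ac (tv u * g) x + x := ⟨_, rfl⟩
      rw [← hvdef] at h1 h3
      have h4 : g = tv u * (tv v * (tv v * (tv u * g))) := by
        rw [← mul_assoc (tv v), tv_tv, one_mul, ← mul_assoc, tv_tv, one_mul]
      rw [h4]
      exact mul_mem (Subgroup.subset_closure (tv_mem hu)) (mul_mem (Subgroup.subset_closure (tv_mem h1)) h3)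

theorem closure_top : Subgroup.closure (DD n) = ⊤ := by
  rw [eq_top_iff]
  intro g _
  exact mem_closure_all _ g rfl

/-- transitivity on nonzero vectors -/
theorem trans {v w : VV n} (hv : v ≠ 0) (hw : w ≠ 0) : ∃ g : GG n, ac g v = w := by
  obtain ⟨u, h1, h2⟩ := om_pair hv hw
  have h1' : om v u = 1 := by rw [om_symm]; exact h1
  refine ⟨tv (u + w) * tv (v + u), ?_⟩
  have e1 : ac (tv (v + u)) v = u := by
    rw [tv_apply, om_add_right, om_self, zero_add, h1', one_smul, ← add_assoc, vv_add_self, zero_add]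
  have e2 : ac (tv (u + w)) u = w := by
    rw [tv_apply, om_add_right, om_self, zero_add, h2, one_smul, ← add_assoc, vv_add_self, zero_add]
  rw [ac_mul, e1, e2]

theorem three (v w : VV n) : (tv v * tv w) ^ 2 = 1 ∨ (tv v * tv w) ^ 3 = 1 := by
  have h1 : tv v * tv w * tv v = tv (ac (tv v) w) := by
    have := conj_tv (tv v) w
    rwa [tv_inv] at this
  have h2 : tv w * tv v * tv w = tv (ac (tv w) v) := by
    have := conj_tv (tv w) v
    rwa [tv_inv] at this
  rcases two_cases (om w v) with h | h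
  · left
    rw [pow_two]
    have e : tv v * tv w * tv v = tv w := by
      rw [h1, tv_apply, h, zero_smul, add_zero]
    calc tv v * tv w * (tv v * tv w) = (tv v * tv w * tv v) * tv w := by group
      _ = 1 := by rw [e, tv_tv]
  · right
    have h' : om v w = 1 := by rw [om_symm]; exact h
    have e1 : tv v * tv w * tv v = tv (w + v) := by
      rw [h1, tv_apply, h, one_smul]
    have e2 : tv w * tv v * tv w = tv (w + v) := by
      rw [h2, tv_apply, h', one_smul, add_comm]
    calc (tv v * tv w) ^ 3 = (tv v * tv w * tv v) * (tv w * tv v * tv w) := by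
          simp only [pow_succ, pow_zero, one_mul, mul_assoc]
      _ = 1 := by rw [e1, e2, tv_tv]

/-- the theorem -/
theorem main (hn : 1 ≤ n) : Cfsg.IsThreeTranspositionClass (DD n) := by
  refine ⟨⟨?_, ?_⟩, ?_, closure_top⟩
  · intro d hd
    obtain ⟨v, hv, rfl⟩ := eq_tv_of_rank hd
    exact order_tv hv
  · intro d hd e he
    obtain ⟨v, hv, rfl⟩ := eq_tv_of_rank hd
    obtain ⟨w, hw, rfl⟩ := eq_tv_of_rank he
    exact three v w
  · have he : (Pi.single (Sum.inl ⟨0, hn⟩) 1 : VV n) ≠ 0 := by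
      intro h
      have := congrFun h (Sum.inl ⟨0, hn⟩)
      simp at this
    refine ⟨tv _, tv_mem he, ?_⟩
    ext g
    constructor
    · intro hg
      obtain ⟨v, hv, rfl⟩ := eq_tv_of_rank hg
      obtain ⟨c, hc⟩ := trans he hv
      refine isConj_iff.2 ⟨c, ?_⟩
      rw [conj_tv, hc]
    · intro hg
      obtain ⟨c, rfl⟩ := isConj_iff.1 hg
      rw [conj_tv]
      exact tv_mem (ac_ne_zero c he)

end Cfsg.Agent.Lib.H7SympF2
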