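import Cfsg.Agent.Lib.H7Sy

/-! The structure of the stabiliser of a sextet. -/

set_option autoImplicit false
set_option linter.unusedSimpArgs false
set_option linter.unusedVariables false
set_option linter.style.haveILetI false
set_option maxRecDepth 100000
open scoped Pointwise
open Cfsg

namespace Cfsg.Agent.Lib.H7Sy
open Cfsg.Agent.Lib
open scoped Pointwise
open Cfsg.Agent.Lib.GolayBasic Cfsg.Agent.Lib.GolayCode Cfsg.Agent.Lib.GolayPerm Cfsg.Agent.Lib.GolayOrder Cfsg.Agent.Lib.GolayFacts Cfsg.Agent.Lib.GolayTools Cfsg.Agent.Lib.GolayCoset Cfsg.Agent.Lib.GolayFam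

/-- the basic sextet -/
noncomputable abbrev S0 : Finset (Finset GolayPt) := tup 6 E

theorem S0_mem : S0 ∈ sextets :=
  sxF_mem (s := s0) (Nat.le_of_ble_eq_true s0_ok.1) s0_ok.2

theorem hM : ∀ g ∈ M24, ∀ a ∈ sextets, g • a ∈ sextets := by
  rintro g hg a ⟨h6, h4, hu⟩
  refine ⟨by rw [Finset.card_smul_finset]; exact h6, ?_, ?_⟩
  · intro t ht
    obtain ⟨t', ht', rfl⟩ := Finset.mem_smul_finset.1 ht
    show (g • t').card = 4
    rw [Finset.card_smul_finset]
    exact h4 _ ht'
  · intro t ht u hu' hne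
    obtain ⟨t', ht', rfl⟩ := Finset.mem_smul_finset.1 ht
    obtain ⟨u', hu'', rfl⟩ := Finset.mem_smul_finset.1 hu'
    have hne' : t' ≠ u' := fun h => hne (by rw [h])
    have h1 := M24_smul_octad hg (hu _ ht' _ hu'' hne')
    show g • t' ∪ g • u' ∈ octads
    rwa [← Finset.smul_finset_union]

theorem exists_w {S : Finset (Finset GolayPt)} (hS : S ∈ sextets) : ∃ w ∈ M24, w • S0 = S := by
  classical
  obtain ⟨h6, h4, hu⟩ := id hS
  have hne : S.Nonempty := by
    rw [← Finset.card_pos, h6]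
    norm_num
  obtain ⟨t, ht⟩ := hne
  have ht4 := h4 t ht
  let e : Fin 4 ≃ t := (t.equivFinOfCardEq ht4).symm
  let y : ℕ → GolayPt := fun i => if h : i < 4 then ((e ⟨i, h⟩ : t) : GolayPt) else ptOf 0
  have hy : ∀ i < 4, ∀ j < i, y i ≠ y j := by
    intro i hi j hj he
    have hj' : j < 4 := by omega
    simp only [y, hi, hj', dif_pos] at he
    have h1 := e.injective (Subtype.ext he)
    simp only [Fin.mk.injEq] at h1
    omega
  have hx : ∀ i < 4, ∀ j < i, ptOf i ≠ ptOf j := by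
    intro i hi j hj he
    have h1 := congrArg idx he
    rw [idx_ptOf (by omega), idx_ptOf (by omega)] at h1
    omega
  obtain ⟨g, hg, hm⟩ := exists_move (fun i => ptOf i) y (k := 4) (by norm_num) hx hy
  obtain ⟨j0, hj0, hE⟩ := E_t0
  have h15 : g • GolayBasic.setOf 15 = t := by
    apply Finset.eq_of_subset_of_card_le
    · intro p hp
      obtain ⟨q, hq, rfl⟩ := Finset.mem_smul_finset.1 hp
      have hq' : (15 : ℕ).testBit (idx q) = true := mem_setOf.1 hq
      have hi : idx q < 4 := by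
        by_contra h
        rw [not_lt] at h
        have h2 := Nat.testBit_lt_two_pow (lt_of_lt_of_le (by norm_num : 15 < 2 ^ 4) (Nat.pow_le_pow_right (by norm_num) h))
        rw [h2] at hq'
        exact absurd hq' (by simp)
      have e1 := hm (idx q) hi
      simp only [ptOf_idx] at e1
      show g q ∈ t
      rw [e1]
      simp only [y, hi, dif_pos]
      exact (e _).2
    · rw [Finset.card_smul_finset, ht4, card_setOf]
      exact le_of_eq (by decide +kernel)
  refine ⟨g, hg, ?_⟩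
  have hmem : g • S0 ∈ sextets := hM g hg S0 S0_mem
  have ht' : t ∈ g • S0 := by
    rw [← h15]
    apply Finset.smul_mem_smul_finset
    exact mem_tup.2 ⟨j0, hj0, by rw [hE]⟩
  exact (sextet_exists_unique ht4).unique ⟨hmem, ht'⟩ ⟨hS, ht⟩

theorem stab_smul {S : Finset (Finset GolayPt)} {g : ↥M24} (hg : g ∈ MulAction.stabilizer M24 S) {t : Finset GolayPt} (ht : t ∈ S) :
    (g : Equiv.Perm GolayPt) • t ∈ S := by
  have e : (g : Equiv.Perm GolayPt) • S = S := MulAction.mem_stabilizer_iff.1 hg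
  have h1 := Finset.smul_mem_smul_finset (a := (g : Equiv.Perm GolayPt)) ht
  rwa [e] at h1

/-- the action on the tetrads -/
noncomputable def rho (S : Finset (Finset GolayPt)) : ↥(MulAction.stabilizer M24 S) →* Equiv.Perm ↥S where
  toFun g :=
    { toFun := fun t => ⟨((g.1 : ↥M24) : Equiv.Perm GolayPt) • t.1, stab_smul g.2 t.2⟩
      invFun := fun t => ⟨(((g⁻¹).1 : ↥M24) : Equiv.Perm GolayPt) • t.1, stab_smul (g⁻¹).2 t.2⟩
      left_inv := fun t => by
        apply Subtype.ext
        show ((g.1 : ↥M24) : Equiv.Perm GolayPt)⁻¹ • ((g.1 : ↥M24) : Equiv.Perm GolayPt) • t.1 = t.1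
        rw [inv_smul_smul]
      right_inv := fun t => by
        apply Subtype.ext
        show ((g.1 : ↥M24) : Equiv.Perm GolayPt) • ((g.1 : ↥M24) : Equiv.Perm GolayPt)⁻¹ • t.1 = t.1
        rw [smul_inv_smul] }
  map_one' := by
    apply Equiv.ext
    intro t
    apply Subtype.ext
    show (1 : Equiv.Perm GolayPt) • t.1 = t.1
    rw [one_smul]
  map_mul' a b := by
    apply Equiv.ext
    intro t
    apply Subtype.ext
    show (((a.1 : ↥M24) : Equiv.Perm GolayPt) * ((b.1 : ↥M24) : Equiv.Perm GolayPt)) • t.1 =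
      ((a.1 : ↥M24) : Equiv.Perm GolayPt) • ((b.1 : ↥M24) : Equiv.Perm GolayPt) • t.1
    rw [mul_smul]

theorem exists_ab : (∃ a ∈ M24, ∀ j < 6, a • GolayBasic.setOf (E j) = GolayBasic.setOf (E (aT j))) ∧
    (∃ b ∈ M24, ∀ j < 6, b • GolayBasic.setOf (E j) = GolayBasic.setOf (E (bT j))) := by
  have h := ab_check
  simp only [Bool.and_eq_true] at h
  obtain ⟨⟨⟨⟨⟨va, ma⟩, ca⟩, vb⟩, mb⟩, cb⟩ := h
  constructor
  · obtain ⟨a, ra⟩ : ∃ a, Rep a aC := ⟨_, rep_permOf _ va⟩
    refine ⟨a, mem_M24_of_check ra ma, fun j hj => ?_⟩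
    rw [smul_setOf ra, Nat.eq_of_beq_eq_true (allBelow_spec ca j hj)]
  · obtain ⟨b, rb⟩ : ∃ b, Rep b bC := ⟨_, rep_permOf _ vb⟩
    refine ⟨b, mem_M24_of_check rb mb, fun j hj => ?_⟩
    rw [smul_setOf rb, Nat.eq_of_beq_eq_true (allBelow_spec cb j hj)]

theorem rot_vals : ∀ j : Fin 6, ((finRotate 6 j : Fin 6) : ℕ) = aT j := by decide

theorem swp_vals : ∀ j : Fin 6, ((Equiv.swap (0 : Fin 6) (finRotate 6 0) j : Fin 6) : ℕ) = bT j := by decide

theorem rho_surj {w : Equiv.Perm GolayPt} (hw : w ∈ M24) : Function.Surjective (rho (w • S0)) := by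
  classical
  obtain ⟨⟨a, ha, ea⟩, ⟨b, hb, eb⟩⟩ := exists_ab
  have hL : ∀ i : Fin 6, w • GolayBasic.setOf (E i) ∈ w • S0 := fun i =>
    Finset.smul_mem_smul_finset (mem_tup.2 ⟨i, i.2, rfl⟩)
  let L : Fin 6 → ↥(w • S0) := fun i => ⟨w • GolayBasic.setOf (E i), hL i⟩
  have hLinj : Function.Injective L := by
    intro i j he
    have e1 : w • GolayBasic.setOf (E i) = w • GolayBasic.setOf (E j) := congrArg Subtype.val he
    have e2 := smul_left_cancel w e1
    have e3 := E_inj.2 i i.2 j j.2 (setOf_injOn (E_inj.1 i i.2) (E_inj.1 j j.2) e2)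
    exact Fin.ext e3
  have hcard : Fintype.card ↥(w • S0) = 6 := by
    rw [Fintype.card_coe, Finset.card_smul_finset]
    exact card_tup E_inj
  have hLbij : Function.Bijective L :=
    (Fintype.bijective_iff_injective_and_card L).2 ⟨hLinj, by simp [hcard]⟩
  let Λ : Fin 6 ≃ ↥(w • S0) := Equiv.ofBijective L hLbij
  have key : ∀ (c : Equiv.Perm GolayPt) (_ : c ∈ M24) (π : Equiv.Perm (Fin 6)),
      (∀ j : Fin 6, c • GolayBasic.setOf (E j) = GolayBasic.setOf (E (π j))) →
      ∃ g : ↥(MulAction.stabilizer M24 (w • S0)), rho (w • S0) g = Equiv.permCongr Λ π := by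
    intro c hc π he
    have hmem : w * c * w⁻¹ ∈ M24 := M24.mul_mem (M24.mul_mem hw hc) (M24.inv_mem hw)
    have hact : ∀ j : Fin 6, (w * c * w⁻¹) • (w • GolayBasic.setOf (E j)) = w • GolayBasic.setOf (E (π j)) := by
      intro j
      rw [mul_smul, mul_smul, inv_smul_smul, he]
    have hst : (⟨w * c * w⁻¹, hmem⟩ : ↥M24) ∈ MulAction.stabilizer M24 (w • S0) := by
      apply MulAction.mem_stabilizer_iff.2
      show (w * c * w⁻¹) • (w • S0) = w • S0
      apply Finset.eq_of_subset_of_card_le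
      · intro t ht
        obtain ⟨u, hu, rfl⟩ := Finset.mem_smul_finset.1 ht
        obtain ⟨u', hu', rfl⟩ := Finset.mem_smul_finset.1 hu
        obtain ⟨j, hj, rfl⟩ := mem_tup.1 hu'
        show (w * c * w⁻¹) • (w • GolayBasic.setOf (E j)) ∈ w • S0
        have h1 := hact ⟨j, hj⟩
        simp only at h1
        rw [h1]
        exact hL _
      · simp only [Finset.card_smul_finset, le_refl]
    refine ⟨⟨_, hst⟩, ?_⟩
    apply Equiv.ext
    intro t
    obtain ⟨i, rfl⟩ := hLbij.2 t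
    apply Subtype.ext
    have e1 : Equiv.permCongr Λ π (L i) = L (π i) := by
      show Λ (π (Λ.symm (Λ i))) = L (π i)
      rw [Λ.symm_apply_apply]
      rfl
    rw [e1]
    exact hact i
  let Ψ := Equiv.permCongrHom Λ
  have hcl : Subgroup.closure ({finRotate 6, Equiv.swap 0 (finRotate 6 0)} : Set (Equiv.Perm (Fin 6))) = ⊤ :=
    Equiv.Perm.closure_cycle_adjacent_swap isCycle_finRotate (support_finRotate) 0
  have hle : Subgroup.closure ({finRotate 6, Equiv.swap 0 (finRotate 6 0)} : Set (Equiv.Perm (Fin 6))) ≤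
      ((rho (w • S0)).range).comap Ψ.toMonoidHom := by
    rw [Subgroup.closure_le]
    rintro π (rfl | rfl)
    · obtain ⟨g, hg⟩ := key a ha (finRotate 6) (fun j => by
        rw [ea j j.2, ← rot_vals j])
      exact ⟨g, hg⟩
    · obtain ⟨g, hg⟩ := key b hb (Equiv.swap 0 (finRotate 6 0)) (fun j => by
        rw [eb j j.2, ← swp_vals j])
      exact ⟨g, hg⟩
  intro e
  have hin : Ψ.symm e ∈ Subgroup.closure ({finRotate 6, Equiv.swap 0 (finRotate 6 0)} : Set (Equiv.Perm (Fin 6))) := by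
    rw [hcl]
    trivial
  obtain ⟨g, hg⟩ := hle hin
  refine ⟨g, ?_⟩
  rw [hg]
  exact Ψ.apply_symm_apply e

theorem card_stab {S : Finset (Finset GolayPt)} (hS : S ∈ sextets) : Nat.card ↥(MulAction.stabilizer M24 S) = 138240 := by
  classical
  have hfin : sextets.Finite := Set.toFinite _
  have h := card_stab_of_orbit (G := ↥M24) S hfin.toFinset
    (fun g => hfin.mem_toFinset.2 (hM g.1 g.2 S hS))
    (fun y hy => by
      obtain ⟨w, hw, rfl⟩ := exists_w (hfin.mem_toFinset.1 hy)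
      obtain ⟨w', hw', rfl⟩ := exists_w hS
      refine ⟨⟨w * w'⁻¹, M24.mul_mem hw (M24.inv_mem hw')⟩, ?_⟩
      show (w * w'⁻¹) • (w' • S0) = w • S0
      rw [mul_smul, inv_smul_smul])
  rw [← Set.ncard_eq_toFinset_card _ hfin, sextets_ncard, card_M24] at h
  omega

theorem card_ker {w : Equiv.Perm GolayPt} (hw : w ∈ M24) : Nat.card (rho (w • S0)).ker = 192 := by
  have hS : w • S0 ∈ sextets := hM w hw S0 S0_mem
  have h := Subgroup.card_mul_index (rho (w • S0)).ker
  rw [Subgroup.index_ker, MonoidHom.range_eq_top.2 (rho_surj hw), Subgroup.card_top, card_stab hS] at h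
  have h2 : Nat.card (Equiv.Perm ↥(w • S0)) = 720 := by
    rw [Nat.card_eq_fintype_card, Fintype.card_perm, Fintype.card_coe, Finset.card_smul_finset, card_tup E_inj]
    rfl
  rw [h2] at h
  omega

theorem el_mem' {i : ℕ} (hi : i < 192) : ∃ h ∈ M24, (∀ j < 6, h • GolayBasic.setOf (E j) = GolayBasic.setOf (E j)) ∧ Rep h (el i) := by
  have h := allBelow_spec el_check i hi
  simp only [elOK, Bool.and_eq_true] at h
  obtain ⟨⟨⟨h1, h2⟩, h3⟩, h4⟩ := h
  obtain ⟨c, rc⟩ : ∃ c, Rep c (el i) := ⟨_, rep_permOf _ h1⟩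
  refine ⟨c, mem_M24_of_check rc h2, fun j hj => ?_, rc⟩
  rw [smul_setOf rc, Nat.eq_of_beq_eq_true (allBelow_spec h3 j hj)]

theorem ap_eq {g : Equiv.Perm GolayPt} {p q : ℕ} (r1 : Rep g p) (r2 : Rep g q) {x : ℕ} (hx : x < 24) : ap p x = ap q x := by
  have a := r1 (ptOf x)
  have b := r2 (ptOf x)
  rw [idx_ptOf hx] at a b
  rw [← a, ← b]

theorem el_inj {i j : ℕ} (hi : i < 192) (hj : j < 192) {g : Equiv.Perm GolayPt} (r1 : Rep g (el i)) (r2 : Rep g (el j)) : i = j := by
  have h1 := allBelow_spec el_check i hi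
  have h2 := allBelow_spec el_check j hj
  simp only [elOK, Bool.and_eq_true] at h1 h2
  have e : bk (el i) = bk (el j) := by
    unfold bk
    rw [ap_eq r1 r2 (x := 0) (by norm_num), ap_eq r1 r2 (x := 4) (by norm_num), ap_eq r1 r2 (x := 5) (by norm_num), ap_eq r1 r2 (x := 1) (by norm_num)]
  have a1 := Nat.eq_of_beq_eq_true h1.2
  have a2 := Nat.eq_of_beq_eq_true h2.2
  rw [← a1, ← a2, e]

theorem beq_of_eq {a b : ℕ} (h : a = b) : Nat.beq a b = true := by
  subst h
  exact Nat.beq_refl a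

theorem sq1_iff {g : Equiv.Perm GolayPt} {pp : ℕ} (r : Rep g pp) : sq1 pp = true ↔ g * g = 1 := by
  constructor
  · intro h
    apply Equiv.ext
    intro p
    apply idx_injective
    have h1 := Nat.eq_of_beq_eq_true (allBelow_spec h (idx p) (idx_lt p))
    rw [Equiv.Perm.mul_apply, r (g p), r p, h1]
    rfl
  · intro h2
    apply allBelow_of_forall
    intro i hi
    have e1 := r (ptOf i)
    have e2 := r (g (ptOf i))
    rw [idx_ptOf hi] at e1
    rw [e1] at e2
    have e3 : g (g (ptOf i)) = ptOf i := by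
      have := congrArg (fun s : Equiv.Perm GolayPt => s (ptOf i)) h2
      simpa using this
    rw [e3, idx_ptOf hi] at e2
    exact beq_of_eq e2.symm

theorem exists_N {w : Equiv.Perm GolayPt} (hw : w ∈ M24) :
    ∃ N : Subgroup ↥(MulAction.stabilizer M24 (w • S0)), N.Normal ∧ Nat.card N = 64 ∧ ∀ x ∈ N, x * x = 1 := by
  classical
  have hm : ∀ i : Fin 192, ∃ x : ↥(rho (w • S0)).ker, ∃ h, Rep h (el i.val) ∧
      (((x.1).1 : ↥M24) : Equiv.Perm GolayPt) = w * h * w⁻¹ := by
    intro i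
    obtain ⟨h, hM', hfix, r⟩ := el_mem' i.2
    have hmem : w * h * w⁻¹ ∈ M24 := M24.mul_mem (M24.mul_mem hw hM') (M24.inv_mem hw)
    have hact : ∀ t ∈ w • S0, (w * h * w⁻¹) • t = t := by
      intro t ht
      obtain ⟨u, hu, rfl⟩ := Finset.mem_smul_finset.1 ht
      obtain ⟨j, hj, rfl⟩ := mem_tup.1 hu
      rw [mul_smul, mul_smul, inv_smul_smul, hfix j hj]
    have hst : (⟨w * h * w⁻¹, hmem⟩ : ↥M24) ∈ MulAction.stabilizer M24 (w • S0) := by
      apply MulAction.mem_stabilizer_iff.2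
      show (w * h * w⁻¹) • (w • S0) = w • S0
      apply Finset.ext
      intro t
      rw [Finset.mem_smul_finset]
      constructor
      · rintro ⟨u, hu, rfl⟩
        rw [hact u hu]
        exact hu
      · intro ht
        exact ⟨t, ht, hact t ht⟩
    refine ⟨⟨⟨_, hst⟩, ?_⟩, h, r, rfl⟩
    rw [MonoidHom.mem_ker]
    apply Equiv.ext
    intro t
    apply Subtype.ext
    exact hact t.1 t.2
  choose F hh hr he using hm
  have hFinj : Function.Injective F := by
    intro i j e
    have e1 : (((F i).1.1 : ↥M24) : Equiv.Perm GolayPt) = (((F j).1.1 : ↥M24) : Equiv.Perm GolayPt) := by rw [e]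
    rw [he, he] at e1
    have e2 : hh i = hh j := mul_left_cancel (mul_right_cancel e1)
    apply Fin.ext
    refine el_inj i.2 j.2 (hr i) ?_
    rw [e2]
    exact hr j
  have hFb : Function.Bijective F :=
    hFinj.bijective_of_nat_card_le (by rw [card_ker hw]; simp)
  have hsq : ∀ i : Fin 192, ((F i).1 * (F i).1 = 1) ↔ hh i * hh i = 1 := by
    intro i
    constructor
    · intro e
      have e1 : (((F i).1.1 : ↥M24) : Equiv.Perm GolayPt) * (((F i).1.1 : ↥M24) : Equiv.Perm GolayPt) = 1 :=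
        congrArg (fun t : ↥(MulAction.stabilizer M24 (w • S0)) => ((t.1 : ↥M24) : Equiv.Perm GolayPt)) e
      rw [he] at e1
      have e2 : w * (hh i * hh i) * w⁻¹ = 1 := by
        rw [← e1]
        group
      have e3 : hh i * hh i = w⁻¹ * (w * (hh i * hh i) * w⁻¹) * w := by group
      rw [e3, e2]
      group
    · intro e
      apply Subtype.ext
      apply Subtype.ext
      show (((F i).1.1 : ↥M24) : Equiv.Perm GolayPt) * (((F i).1.1 : ↥M24) : Equiv.Perm GolayPt) = 1
      rw [he]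
      calc w * hh i * w⁻¹ * (w * hh i * w⁻¹) = w * (hh i * hh i) * w⁻¹ := by group
        _ = 1 := by rw [e]; group
  have hlt : ∀ i : Fin 192, ((F i).1 * (F i).1 = 1) ↔ i.val < 64 := by
    intro i
    rw [hsq, ← sq1_iff (hr i)]
    constructor
    · intro e
      by_contra h
      have h1 : i.val - 64 < 128 := by have := i.2; omega
      have h2 := allBelow_spec nsq_check _ h1
      have h3 : i.val - 64 + 64 = i.val := by omega
      simp only [h3, e] at h2
      exact absurd h2 (by simp)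
    · intro h
      exact allBelow_spec sq_check _ h
  have hcl : ∀ x y : ↥(MulAction.stabilizer M24 (w • S0)), x ∈ (rho (w • S0)).ker → x * x = 1 →
      y ∈ (rho (w • S0)).ker → y * y = 1 → (x * y) * (x * y) = 1 := by
    intro x y hx hx2 hy hy2
    obtain ⟨i, hi⟩ := hFb.2 ⟨x, hx⟩
    obtain ⟨j, hj⟩ := hFb.2 ⟨y, hy⟩
    have ex : (F i).1 = x := congrArg Subtype.val hi
    have ey : (F j).1 = y := congrArg Subtype.val hj
    have li : i.val < 64 := (hlt i).1 (by rw [ex]; exact hx2)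
    have lj : j.val < 64 := (hlt j).1 (by rw [ey]; exact hy2)
    have h1 := allBelow_spec (allBelow_spec mul_check i.val li) j.val lj
    have h2 := (sq1_iff ((hr i).mul (hr j))).1 h1
    apply Subtype.ext
    apply Subtype.ext
    show ((x.1 : ↥M24) : Equiv.Perm GolayPt) * ((y.1 : ↥M24) : Equiv.Perm GolayPt) * (((x.1 : ↥M24) : Equiv.Perm GolayPt) * ((y.1 : ↥M24) : Equiv.Perm GolayPt)) = 1
    rw [← ex, ← ey, he, he]
    calc w * hh i * w⁻¹ * (w * hh j * w⁻¹) * (w * hh i * w⁻¹ * (w * hh j * w⁻¹))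
        = w * (hh i * hh j * (hh i * hh j)) * w⁻¹ := by group
      _ = 1 := by rw [h2]; group
  let N : Subgroup ↥(MulAction.stabilizer M24 (w • S0)) :=
    { carrier := {x | x ∈ (rho (w • S0)).ker ∧ x * x = 1}
      one_mem' := ⟨(rho (w • S0)).ker.one_mem, by simp⟩
      mul_mem' := by
        rintro x y ⟨hx, hx2⟩ ⟨hy, hy2⟩
        exact ⟨(rho (w • S0)).ker.mul_mem hx hy, hcl x y hx hx2 hy hy2⟩
      inv_mem' := by
        rintro x ⟨hx, hx2⟩
        have e : x⁻¹ = x := inv_eq_of_mul_eq_one_left hx2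
        rw [e]
        exact ⟨hx, hx2⟩ }
  refine ⟨N, ⟨?_⟩, ?_, fun x hx => hx.2⟩
  · rintro x ⟨hx, hx2⟩ g
    refine ⟨(rho (w • S0)).normal_ker.conj_mem _ hx g, ?_⟩
    calc g * x * g⁻¹ * (g * x * g⁻¹) = g * (x * x) * g⁻¹ := by group
      _ = 1 := by rw [hx2]; group
  · let G : Fin 64 → ↥N := fun i => ⟨(F ⟨i.val, by have := i.2; omega⟩).1,
      ⟨(F ⟨i.val, by have := i.2; omega⟩).2, (hlt _).2 i.2⟩⟩
    have hG : Function.Bijective G := by
      constructor
      · intro i j e
        have e1 : (F ⟨i.val, by have := i.2; omega⟩).1 = (F ⟨j.val, by have := j.2; omega⟩).1 := by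
          have e0 := congrArg Subtype.val e
          exact e0
        have e3 := congrArg Fin.val (hFinj (Subtype.ext e1))
        exact Fin.ext e3
      · rintro ⟨x, hx, hx2⟩
        obtain ⟨i, hi⟩ := hFb.2 ⟨x, hx⟩
        have ex : (F i).1 = x := congrArg Subtype.val hi
        have li : i.val < 64 := (hlt i).1 (by rw [ex]; exact hx2)
        refine ⟨⟨i.val, li⟩, ?_⟩
        apply Subtype.ext
        exact ex
    have := Nat.card_congr (Equiv.ofBijective G hG)
    rw [← this]
    simp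

/-- the theorem -/
theorem sextet_structure (S : Finset (Finset GolayPt)) (hS : S ∈ sextets) :
    (∀ e : Equiv.Perm ↥S, ∃ g ∈ MulAction.stabilizer M24 S, ∀ t : ↥S, (g : Equiv.Perm GolayPt) • (t : Finset GolayPt) = ((e t : ↥S) : Finset GolayPt)) ∧
    Nat.card {g : ↥(MulAction.stabilizer M24 S) // ∀ t ∈ S, ((g : M24) : Equiv.Perm GolayPt) • t = t} = 192 ∧
    ∃ N : Subgroup ↥(MulAction.stabilizer M24 S), N.Normal ∧ Nat.card N = 64 ∧ ∀ x ∈ N, x * x = 1 := by
  classical
  obtain ⟨w, hw, rfl⟩ := exists_w hS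
  refine ⟨?_, ?_, exists_N hw⟩
  · intro e
    obtain ⟨g, hg⟩ := rho_surj hw e
    refine ⟨g.1, g.2, fun t => ?_⟩
    rw [← hg]
    rfl
  · rw [← card_ker hw]
    refine Nat.card_congr (Equiv.subtypeEquivRight (fun g => ?_))
    rw [MonoidHom.mem_ker]
    constructor
    · intro h
      apply Equiv.ext
      intro t
      apply Subtype.ext
      exact h t.1 t.2
    · intro h t ht
      have h1 := DFunLike.congr_fun h ⟨t, ht⟩
      exact congrArg Subtype.val h1

end Cfsg.Agent.Lib.H7Sy
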