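import Cfsg.Agent.Lib.H7Tz
import Cfsg.Agent.Lib.H7Tr

/-! The structure of the stabiliser of a trio: the conclusion. -/

set_option autoImplicit false
set_option linter.unusedSimpArgs false
set_option linter.unusedVariables false
set_option maxRecDepth 100000
open scoped Pointwise
open Cfsg

namespace Cfsg.Agent.Lib.H7Ty
open Cfsg.Agent.Lib
open scoped Pointwise
open Cfsg.Agent.Lib.GolayBasic Cfsg.Agent.Lib.GolayFam

theorem T0_eq : T0 = tup 3 (H7Tr.EE 0) := by
  unfold T0 tup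
  apply Finset.image_congr
  intro r hr
  have hr' : r < 3 := by simpa using hr
  have e : O r = H7Tr.EE 0 r := by
    interval_cases r <;> decide +kernel
  show GolayBasic.setOf (O r) = GolayBasic.setOf (H7Tr.EE 0 r)
  rw [e]

theorem trio_structure (T : Finset (Finset GolayPt)) (hT : T ∈ trios) :
    (∀ e : Equiv.Perm ↥T, ∃ g ∈ MulAction.stabilizer M24 T, ∀ o : ↥T, (g : Equiv.Perm GolayPt) • (o : Finset GolayPt) = ((e o : ↥T) : Finset GolayPt)) ∧
    ∃ (N : Subgroup ↥(MulAction.stabilizer M24 T)) (_ : N.Normal), Nat.card N = 64 ∧ (∀ x ∈ N, x * x = 1) ∧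
      Nonempty (↥(MulAction.stabilizer M24 T) ⧸ N ≃* GL (Fin 3) (ZMod 2) × Equiv.Perm (Fin 3)) :=
  trio_aux H7Tr.fam.hM (fun a ha => by
    rw [T0_eq]
    exact H7Tr.fam.htr a ha) Cfsg.Agent.S1557.result.2 T hT

end Cfsg.Agent.Lib.H7Ty
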