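import Cfsg.Agent.Lib.H7Ty

/-! The structure of the stabiliser of a trio. -/

set_option autoImplicit false
set_option linter.unusedSimpArgs false
set_option linter.unusedVariables false
set_option linter.style.haveILetI false
set_option maxRecDepth 100000
open scoped Pointwise
open Cfsg

namespace Cfsg.Agent.Lib.H7Ty
open Cfsg.Agent.Lib
open scoped Pointwise
open Matrix
open Cfsg.Agent.Lib.GolayBasic Cfsg.Agent.Lib.GolayCode Cfsg.Agent.Lib.GolayPerm Cfsg.Agent.Lib.GolayOrder Cfsg.Agent.Lib.GolayFacts Cfsg.Agent.Lib.GolayTools Cfsg.Agent.Lib.GolayCoset Cfsg.Agent.Lib.GolayFam Cfsg.Agent.Lib.GolayKit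

/-- vectors -/
abbrev V2 : Type := Fin 3 → ZMod 2

/-- index of a vector -/
def iv (v : V2) : ℕ := (v 0).val + 2 * (v 1).val + 4 * (v 2).val

/-- vector of an index -/
def vOf (m : ℕ) : V2 := ![((m % 2 : ℕ) : ZMod 2), ((m / 2 % 2 : ℕ) : ZMod 2), ((m / 4 % 2 : ℕ) : ZMod 2)]

theorem iv_vOf : ∀ m : Fin 8, iv (vOf m.val) = m.val := by decide +kernel

theorem iv_vOf' {m : ℕ} (hm : m < 8) : iv (vOf m) = m := iv_vOf ⟨m, hm⟩

theorem iv_lt (v : V2) : iv v < 8 := by
  have h0 := ZMod.val_lt (v 0)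
  have h1 := ZMod.val_lt (v 1)
  have h2 := ZMod.val_lt (v 2)
  unfold iv
  omega

theorem iv_inj {v w : V2} (h : iv v = iv w) : v = w := by
  have h0 := ZMod.val_lt (v 0)
  have h1 := ZMod.val_lt (v 1)
  have h2 := ZMod.val_lt (v 2)
  have h3 := ZMod.val_lt (w 0)
  have h4 := ZMod.val_lt (w 1)
  have h5 := ZMod.val_lt (w 2)
  unfold iv at h
  have e0 : (v 0).val = (w 0).val := by omega
  have e1 : (v 1).val = (w 1).val := by omega
  have e2 : (v 2).val = (w 2).val := by omega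
  funext i
  fin_cases i
  · exact ZMod.val_injective 2 e0
  · exact ZMod.val_injective 2 e1
  · exact ZMod.val_injective 2 e2

theorem iv_add : ∀ a b c d e f : ZMod 2, iv (![a, b, c] + ![d, e, f]) = Nat.xor (iv ![a, b, c]) (iv ![d, e, f]) := by decide +kernel

theorem vec_eta (v : V2) : v = ![v 0, v 1, v 2] := by
  funext i
  fin_cases i <;> rfl

theorem iv_add' (v w : V2) : iv (v + w) = Nat.xor (iv v) (iv w) := by
  rw [vec_eta v, vec_eta w]
  exact iv_add _ _ _ _ _ _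

theorem iv_zero : iv 0 = 0 := by decide +kernel

theorem self_add (v : V2) : v + v = 0 := by
  apply iv_inj
  rw [iv_add', iv_zero]
  show (iv v) ^^^ (iv v) = 0
  exact Nat.xor_self _

/-- the basic trio -/
noncomputable def T0 : Finset (Finset GolayPt) := tup 3 O

/-- labels -/
noncomputable def labN (n : ℕ) : Finset (Finset GolayPt) := if n = 0 then T0 else tup 6 (tt n)

/-- labels -/
noncomputable def lab (v : V2) : Finset (Finset GolayPt) := labN (iv v)

theorem labN_pos {n : ℕ} (h : n ≠ 0) : labN n = tup 6 (tt n) := if_neg h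

theorem labN_zero : labN 0 = T0 := if_pos rfl

theorem lab_zero : lab 0 = T0 := by
  rw [lab, iv_zero, labN_zero]

theorem sy_spec {n : ℕ} (h1 : 1 ≤ n) (h2 : n < 8) : sy n < 4096 ∧ isSx (sy n) = true ∧ refB (sy n) = true := by
  obtain ⟨k, rfl⟩ : ∃ k, n = k + 1 := ⟨n - 1, by omega⟩
  have H := allBelow_spec sy_check k (by omega)
  simp only [Bool.and_eq_true] at H
  exact ⟨Nat.le_of_ble_eq_true H.1.1, H.1.2, H.2⟩

theorem tt_inj {n : ℕ} (h1 : 1 ≤ n) (h2 : n < 8) : InjT 6 (tt n) := by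
  obtain ⟨hs, hx, hr⟩ := sy_spec h1 h2
  obtain ⟨a, b⟩ := class_sx hs hx
  refine ⟨fun j hj => (a j hj).1, ?_⟩
  intro i hi j hj he
  have b0 : cosE (sy n) 0 < cosE (sy n) 1 := b 0 (by norm_num)
  have b1 : cosE (sy n) 1 < cosE (sy n) 2 := b 1 (by norm_num)
  have b2 : cosE (sy n) 2 < cosE (sy n) 3 := b 2 (by norm_num)
  have b3 : cosE (sy n) 3 < cosE (sy n) 4 := b 3 (by norm_num)
  have b4 : cosE (sy n) 4 < cosE (sy n) 5 := b 4 (by norm_num)
  simp only [tt] at he
  interval_cases i <;> interval_cases j <;> first | rfl | omega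

theorem beq_false {a b : ℕ} (h : a ≠ b) : Nat.beq a b = false := by
  cases e : Nat.beq a b
  · rfl
  · exact absurd (Nat.eq_of_beq_eq_true e) h

theorem disj_spec {n m : ℕ} (hn : n < 7) (hm : m < 7) (hne : n ≠ m) {j : ℕ} (hj : j < 6) : tt (n + 1) 0 ≠ tt (m + 1) j := by
  have h := allBelow_spec (allBelow_spec disj_check n hn) m hm
  simp only [beq_false hne, cond_false] at h
  intro e
  have h3 := allBelow_spec h j hj
  rw [e, H7Sy.beq_of_eq rfl] at h3
  exact absurd h3 (by simp)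

theorem labN_inj {n m : ℕ} (hn : n < 8) (hm : m < 8) (h : labN n = labN m) : n = m := by
  by_cases n0 : n = 0
  · subst n0
    by_cases m0 : m = 0
    · exact m0.symm
    · exfalso
      rw [labN_zero, labN_pos m0] at h
      have c1 := card_tup (k := 3) O_inj
      have c2 := card_tup (tt_inj (n := m) (by omega) hm)
      have c3 : (tup 3 O).card = (tup 6 (tt m)).card := congrArg Finset.card h
      omega
  · by_cases m0 : m = 0
    · subst m0
      exfalso
      rw [labN_zero, labN_pos n0] at h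
      have c1 := card_tup (k := 3) O_inj
      have c2 := card_tup (tt_inj (n := n) (by omega) hn)
      have c3 : (tup 6 (tt n)).card = (tup 3 O).card := congrArg Finset.card h
      omega
    · by_contra hne
      rw [labN_pos n0, labN_pos m0] at h
      have h1 : GolayBasic.setOf (tt n 0) ∈ tup 6 (tt n) := mem_tup.2 ⟨0, by norm_num, rfl⟩
      rw [h] at h1
      obtain ⟨j, hj, e⟩ := mem_tup.1 h1
      have i1 := tt_inj (n := n) (by omega) hn
      have i2 := tt_inj (n := m) (by omega) hm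
      have e2 := setOf_injOn (i1.1 0 (by norm_num)) (i2.1 j hj) e
      obtain ⟨a, rfl⟩ : ∃ a, n = a + 1 := ⟨n - 1, by omega⟩
      obtain ⟨b, rfl⟩ : ∃ b, m = b + 1 := ⟨m - 1, by omega⟩
      exact disj_spec (n := a) (m := b) (by omega) (by omega) (by omega) hj e2

theorem lab_inj : Function.Injective lab := by
  intro v w h
  exact iv_inj (labN_inj (iv_lt v) (iv_lt w) h)

/-- refinement -/
def Ref (S T : Finset (Finset GolayPt)) : Prop := ∀ o ∈ T, ∃ t ∈ S, ∃ u ∈ S, t ∪ u = o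

theorem ref_smul {g : Equiv.Perm GolayPt} {S T : Finset (Finset GolayPt)} (h : Ref S T) : Ref (g • S) (g • T) := by
  intro o ho
  obtain ⟨o', ho', rfl⟩ := Finset.mem_smul_finset.1 ho
  obtain ⟨t, ht, u, hu, rfl⟩ := h o' ho'
  exact ⟨g • t, Finset.smul_mem_smul_finset ht, g • u, Finset.smul_mem_smul_finset hu, (Finset.smul_finset_union).symm⟩

theorem ref_of_B {s : ℕ} (h : refB s = true) : Ref (sxF s) T0 := by
  intro o ho
  obtain ⟨r, hr, rfl⟩ := mem_tup.1 ho
  obtain ⟨j, hj, h2⟩ := anyBelow_spec (allBelow_spec h r hr)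
  obtain ⟨l, hl, h3⟩ := anyBelow_spec h2
  refine ⟨_, mem_sxF.2 ⟨j, hj, rfl⟩, _, mem_sxF.2 ⟨l, hl, rfl⟩, ?_⟩
  rw [← setOf_lor]
  exact congrArg GolayBasic.setOf (Nat.eq_of_beq_eq_true h3)

theorem B_of_ref {s : ℕ} (hs : s < 4096) (hx : isSx s = true) (h : Ref (sxF s) T0) : refB s = true := by
  apply allBelow_of_forall
  intro r hr
  obtain ⟨t, ht, u, hu, e⟩ := h (GolayBasic.setOf (O r)) (mem_tup.2 ⟨r, hr, rfl⟩)
  obtain ⟨j, hj, rfl⟩ := mem_sxF.1 ht
  obtain ⟨l, hl, rfl⟩ := mem_sxF.1 hu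
  refine anyBelow_of hj (anyBelow_of hl ?_)
  rw [← setOf_lor] at e
  have m1 := ((class_sx hs hx).1 j hj).1
  have m2 := ((class_sx hs hx).1 l hl).1
  have e2 := setOf_injOn (Nat.or_lt_two_pow m1 m2) (O_inj.1 r hr) e
  exact H7Sy.beq_of_eq e2

theorem image_lab {h : Equiv.Perm GolayPt} (hh : h ∈ M24) (hT : h • T0 = T0) {n : ℕ} (n1 : 1 ≤ n) (n2 : n < 8) :
    ∃ m, 1 ≤ m ∧ m < 8 ∧ h • labN n = labN m := by
  obtain ⟨hs, hx, hr⟩ := sy_spec n1 n2
  have e0 : labN n = sxF (sy n) := by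
    rw [labN_pos (by omega)]
    rfl
  have mem0 : sxF (sy n) ∈ sextets := sxF_mem hs hx
  have mem1 : h • sxF (sy n) ∈ sextets := H7Sy.hM h hh _ mem0
  obtain ⟨s, hs', hx', he⟩ := mem_sextets_iff.1 mem1
  have r1 : Ref (h • sxF (sy n)) T0 := by
    have := ref_smul (g := h) (ref_of_B hr)
    rwa [hT] at this
  rw [he] at r1
  have hB := B_of_ref hs' hx' r1
  have h3 := PChain.allR_spec ref_check s (Nat.zero_le _) hs'
  simp only [hx', hB, Bool.and_self, cond_true] at h3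
  obtain ⟨k, hk, h4⟩ := anyBelow_spec h3
  refine ⟨k + 1, by omega, by omega, ?_⟩
  rw [e0, he, labN_pos (by omega)]
  have e5 := Nat.eq_of_beq_eq_true h4
  rw [← e5]
  rfl

theorem sum_exists {n m : ℕ} (n1 : 1 ≤ n) (n2 : n < 8) (m1 : 1 ≤ m) (m2 : m < 8) (hne : n ≠ m) :
    ∃ j, j < 6 ∧ ∃ l, l < 6 ∧ ∃ k, k < 6 ∧ Nat.xor (tt n j) (tt m l) = tt (Nat.xor n m) k := by
  obtain ⟨a, rfl⟩ : ∃ a, n = a + 1 := ⟨n - 1, by omega⟩
  obtain ⟨b, rfl⟩ : ∃ b, m = b + 1 := ⟨m - 1, by omega⟩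
  have h := allBelow_spec (allBelow_spec sumE_check a (by omega)) b (by omega)
  simp only [beq_false (show a ≠ b by omega), cond_false] at h
  obtain ⟨j, hj, h2⟩ := anyBelow_spec h
  obtain ⟨l, hl, h3⟩ := anyBelow_spec h2
  obtain ⟨k, hk, h4⟩ := anyBelow_spec h3
  exact ⟨j, hj, l, hl, k, hk, Nat.eq_of_beq_eq_true h4⟩

theorem sum_unique {n m k : ℕ} (n1 : 1 ≤ n) (n2 : n < 8) (m1 : 1 ≤ m) (m2 : m < 8) (k1 : 1 ≤ k) (k2 : k < 8) (hne : n ≠ m)
    {j l i : ℕ} (hj : j < 6) (hl : l < 6) (hi : i < 6) (e : Nat.xor (tt n j) (tt m l) = tt k i) : k = Nat.xor n m := by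
  obtain ⟨a, rfl⟩ : ∃ a, n = a + 1 := ⟨n - 1, by omega⟩
  obtain ⟨b, rfl⟩ : ∃ b, m = b + 1 := ⟨m - 1, by omega⟩
  obtain ⟨c, rfl⟩ : ∃ c, k = c + 1 := ⟨k - 1, by omega⟩
  have h := allBelow_spec (allBelow_spec sumC_check a (by omega)) b (by omega)
  simp only [beq_false (show a ≠ b by omega), cond_false] at h
  have h2 := allBelow_spec (allBelow_spec (allBelow_spec (allBelow_spec h j hj) l hl) c (by omega)) i hi
  simp only [e, H7Sy.beq_of_eq rfl, cond_true] at h2
  exact Nat.eq_of_beq_eq_true h2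

theorem smul_symm (h : Equiv.Perm GolayPt) (a b : Finset GolayPt) : h • symmDiff a b = symmDiff (h • a) (h • b) := by
  ext p
  obtain ⟨q, rfl⟩ := h.surjective p
  have this : ∀ s : Finset GolayPt, h q ∈ h • s ↔ q ∈ s := fun s => Finset.smul_mem_smul_finset_iff h
  simp only [Finset.mem_symmDiff, this]

theorem mem_labN {n : ℕ} (hn : n ≠ 0) {j : ℕ} (hj : j < 6) : GolayBasic.setOf (tt n j) ∈ labN n := by
  rw [labN_pos hn]
  exact mem_tup.2 ⟨j, hj, rfl⟩

theorem of_labN {n : ℕ} (hn : n ≠ 0) {t : Finset GolayPt} (ht : t ∈ labN n) : ∃ j, j < 6 ∧ t = GolayBasic.setOf (tt n j) := by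
  rw [labN_pos hn] at ht
  exact mem_tup.1 ht

theorem lin0 {h : Equiv.Perm GolayPt} (hh : h ∈ M24) (hT : h • T0 = T0) :
    ∃ M : Matrix (Fin 3) (Fin 3) (ZMod 2), ∀ v, h • lab v = lab (M *ᵥ v) := by
  classical
  have hex : ∀ v : V2, ∃ u : V2, h • lab v = lab u := by
    intro v
    by_cases hv : iv v = 0
    · refine ⟨v, ?_⟩
      show h • labN (iv v) = labN (iv v)
      rw [hv, labN_zero]
      exact hT
    · obtain ⟨m, m1, m2, e⟩ := image_lab hh hT (n := iv v) (by omega) (iv_lt v)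
      refine ⟨vOf m, ?_⟩
      show h • labN (iv v) = labN (iv (vOf m))
      rw [e, iv_vOf' m2]
  choose f hf using hex
  have hfinj : Function.Injective f := by
    intro a b e
    have e1 : h • lab a = h • lab b := by rw [hf, hf, e]
    exact lab_inj (smul_left_cancel h e1)
  have hf0 : f 0 = 0 := by
    apply lab_inj
    rw [← hf, lab_zero]
    exact hT
  have iv_ne : ∀ {x : V2}, x ≠ 0 → iv x ≠ 0 := fun {x} hx h0 => hx (iv_inj (h0.trans iv_zero.symm))
  have hadd : ∀ v w, f (v + w) = f v + f w := by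
    intro v w
    by_cases hv : v = 0
    · subst hv
      rw [hf0, zero_add, zero_add]
    by_cases hw : w = 0
    · subst hw
      rw [hf0, add_zero, add_zero]
    by_cases hvw : v = w
    · subst hvw
      rw [self_add v, hf0, self_add (f v)]
    have hvw0 : v + w ≠ 0 := by
      intro e
      apply hvw
      have e2 : iv (v + w) = 0 := by rw [e, iv_zero]
      rw [iv_add'] at e2
      have e3 : iv v = iv w := Nat.eq_of_xor_eq_zero e2
      exact iv_inj e3
    have i1 := iv_ne hv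
    have i2 := iv_ne hw
    have i3 : iv v ≠ iv w := fun e => hvw (iv_inj e)
    obtain ⟨j, hj, l, hl, k, hk, e⟩ := sum_exists (n := iv v) (m := iv w) (by omega) (iv_lt v) (by omega) (iv_lt w) i3
    have fv0 : f v ≠ 0 := fun e => hv (hfinj (e.trans hf0.symm))
    have fw0 : f w ≠ 0 := fun e => hw (hfinj (e.trans hf0.symm))
    have fvw0 : f (v + w) ≠ 0 := fun e => hvw0 (hfinj (e.trans hf0.symm))
    have t1 : h • GolayBasic.setOf (tt (iv v) j) ∈ labN (iv (f v)) := by
      have := Finset.smul_mem_smul_finset (a := h) (mem_labN i1 hj)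
      have e1 : h • labN (iv v) = labN (iv (f v)) := hf v
      rwa [e1] at this
    have t2 : h • GolayBasic.setOf (tt (iv w) l) ∈ labN (iv (f w)) := by
      have := Finset.smul_mem_smul_finset (a := h) (mem_labN i2 hl)
      have e1 : h • labN (iv w) = labN (iv (f w)) := hf w
      rwa [e1] at this
    have t3 : h • GolayBasic.setOf (tt (Nat.xor (iv v) (iv w)) k) ∈ labN (iv (f (v + w))) := by
      have i4 : Nat.xor (iv v) (iv w) ≠ 0 := by
        rw [← iv_add']
        exact iv_ne hvw0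
      have := Finset.smul_mem_smul_finset (a := h) (mem_labN i4 hk)
      have e1 : h • labN (Nat.xor (iv v) (iv w)) = labN (iv (f (v + w))) := by
        rw [← iv_add']
        exact hf (v + w)
      rwa [e1] at this
    have jv := iv_ne fv0
    have jw := iv_ne fw0
    have jvw := iv_ne fvw0
    obtain ⟨a, ha, ea⟩ := of_labN jv t1
    obtain ⟨b, hb, eb⟩ := of_labN jw t2
    obtain ⟨c, hc, ec⟩ := of_labN jvw t3
    have sd : GolayBasic.setOf (tt (Nat.xor (iv v) (iv w)) k) = symmDiff (GolayBasic.setOf (tt (iv v) j)) (GolayBasic.setOf (tt (iv w) l)) := by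
      rw [← setOf_xor, ← e]
      rfl
    rw [sd, smul_symm, ea, eb, ← setOf_xor] at ec
    have l1 := (tt_inj (n := iv (f v)) (by omega) (iv_lt _)).1 a ha
    have l2 := (tt_inj (n := iv (f w)) (by omega) (iv_lt _)).1 b hb
    have l3 := (tt_inj (n := iv (f (v + w))) (by omega) (iv_lt _)).1 c hc
    have e5 := setOf_injOn (Nat.xor_lt_two_pow l1 l2) l3 ec
    have i5 : iv (f v) ≠ iv (f w) := fun e => hvw (hfinj (iv_inj e))
    have e6 := sum_unique (n := iv (f v)) (m := iv (f w)) (k := iv (f (v + w))) (by omega) (iv_lt _) (by omega) (iv_lt _) (by omega) (iv_lt _) i5 ha hb hc e5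
    apply iv_inj
    rw [iv_add', e6]
  let L := AddMonoidHom.toZModLinearMap 2 (AddMonoidHom.mk' f hadd)
  refine ⟨LinearMap.toMatrix' L, fun v => ?_⟩
  rw [LinearMap.toMatrix'_mulVec]
  exact hf v

theorem hom_of_lin {G P : Type*} [Group G] [MulAction G P] (lb : V2 → P) (hlb : Function.Injective lb)
    (hlin : ∀ g : G, ∃ M : Matrix (Fin 3) (Fin 3) (ZMod 2), ∀ v, g • lb v = lb (M *ᵥ v)) :
    ∃ Φ : G →* GL (Fin 3) (ZMod 2), ∀ g v, g • lb v = lb ((Φ g : Matrix (Fin 3) (Fin 3) (ZMod 2)) *ᵥ v) := by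
  classical
  choose ψf key using hlin
  have h1 : ψf 1 = 1 := by
    apply Matrix.mulVec_injective
    funext v
    apply hlb
    rw [← key, Matrix.one_mulVec, one_smul]
  have hmul : ∀ g h, ψf (g * h) = ψf g * ψf h := by
    intro g h
    apply Matrix.mulVec_injective
    funext v
    apply hlb
    show lb (ψf (g * h) *ᵥ v) = lb ((ψf g * ψf h) *ᵥ v)
    rw [← key, ← Matrix.mulVec_mulVec, ← key, ← key, mul_smul]
  let ψ : G →* Matrix (Fin 3) (Fin 3) (ZMod 2) := { toFun := ψf, map_one' := h1, map_mul' := hmul }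
  refine ⟨ψ.toHomUnits, fun g v => ?_⟩
  exact key g v

theorem aa_lt (i k : ℕ) : aa i k < 8 := by
  unfold aa rom
  exact Nat.mod_lt _ (by decide)

theorem el_spec {i : ℕ} (hi : i < 1008) : ∃ h ∈ M24, Rep h (el i) ∧ h • T0 = T0 ∧
    h • labN 1 = labN (aa i 0) ∧ h • labN 2 = labN (aa i 1) ∧ h • labN 4 = labN (aa i 2) ∧
    aa i 0 ≠ 0 ∧ aa i 1 ≠ 0 ∧ aa i 2 ≠ 0 ∧
    h • GolayBasic.setOf (O 0) = GolayBasic.setOf (O (aa i 3)) ∧ h • GolayBasic.setOf (O 1) = GolayBasic.setOf (O (aa i 4)) ∧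
    aa i 3 < 3 ∧ aa i 4 < 3 := by
  have H := allBelow_spec el_check i hi
  simp only [elOK, Bool.and_eq_true] at H
  obtain ⟨⟨⟨⟨⟨⟨⟨⟨⟨⟨⟨⟨h1, h2⟩, h3⟩, h4⟩, h5⟩, h6⟩, h7⟩, h8⟩, h9⟩, h10⟩, h11⟩, h12⟩, h13⟩ := H
  obtain ⟨c, rc⟩ : ∃ c, Rep c (el i) := ⟨_, rep_permOf _ h1⟩
  have n0 : aa i 0 ≠ 0 := by
    have := Nat.le_of_ble_eq_true h7
    omega
  have n1 : aa i 1 ≠ 0 := by
    have := Nat.le_of_ble_eq_true h8
    omega
  have n2 : aa i 2 ≠ 0 := by
    have := Nat.le_of_ble_eq_true h9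
    omega
  refine ⟨c, mem_M24_of_check rc h2, rc, smul_tup rc O_inj O_inj h3, ?_, ?_, ?_, n0, n1, n2, ?_, ?_,
    Nat.le_of_ble_eq_true h12, Nat.le_of_ble_eq_true h13⟩
  · rw [labN_pos (by norm_num), labN_pos n0]
    exact smul_tup rc (tt_inj (by norm_num) (by norm_num)) (tt_inj (by omega) (aa_lt _ _)) h4
  · rw [labN_pos (by norm_num), labN_pos n1]
    exact smul_tup rc (tt_inj (by norm_num) (by norm_num)) (tt_inj (by omega) (aa_lt _ _)) h5
  · rw [labN_pos (by norm_num), labN_pos n2]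
    exact smul_tup rc (tt_inj (by norm_num) (by norm_num)) (tt_inj (by omega) (aa_lt _ _)) h6
  · rw [smul_setOf rc, Nat.eq_of_beq_eq_true h10]
  · rw [smul_setOf rc, Nat.eq_of_beq_eq_true h11]

theorem nl_spec {i : ℕ} (hi : i < 64) : ∃ h ∈ M24, Rep h (nl i) ∧ (∀ r < 3, h • GolayBasic.setOf (O r) = GolayBasic.setOf (O r)) ∧
    (∀ n, n ≠ 0 → n < 8 → h • labN n = labN n) ∧ h * h = 1 := by
  have H := allBelow_spec nl_check i hi
  simp only [nlOK, Bool.and_eq_true] at H
  obtain ⟨⟨⟨⟨h1, h2⟩, h3⟩, h4⟩, h5⟩ := H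
  obtain ⟨c, rc⟩ : ∃ c, Rep c (nl i) := ⟨_, rep_permOf _ h1⟩
  refine ⟨c, mem_M24_of_check rc h2, rc, fun r hr => ?_, fun n n0 n8 => ?_, (H7Sy.sq1_iff rc).1 h5⟩
  · rw [smul_setOf rc, Nat.eq_of_beq_eq_true (allBelow_spec h3 r hr)]
  · obtain ⟨k, rfl⟩ : ∃ k, n = k + 1 := ⟨n - 1, by omega⟩
    rw [labN_pos n0]
    exact smul_tup rc (tt_inj (by omega) n8) (tt_inj (by omega) n8) (allBelow_spec h4 k (by omega))

theorem fix_T0 {h : Equiv.Perm GolayPt} (hO : ∀ r < 3, h • GolayBasic.setOf (O r) = GolayBasic.setOf (O r)) : h • T0 = T0 := by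
  apply Finset.ext
  intro t
  rw [Finset.mem_smul_finset]
  constructor
  · rintro ⟨u, hu, rfl⟩
    obtain ⟨r, hr, rfl⟩ := mem_tup.1 hu
    rw [hO r hr]
    exact hu
  · intro ht
    obtain ⟨r, hr, rfl⟩ := mem_tup.1 ht
    exact ⟨_, ht, hO r hr⟩

theorem card_target : Nat.card (GL (Fin 3) (ZMod 2) × Equiv.Perm (Fin 3)) = 1008 := by
  rw [Nat.card_prod, Matrix.card_GL_field]
  have h6 : Nat.card (Equiv.Perm (Fin 3)) = 6 := by
    rw [Nat.card_eq_fintype_card, Fintype.card_perm, Fintype.card_fin]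
    rfl
  rw [h6]
  simp [Fin.prod_univ_three, ZMod.card]

/-- the main theorem, with the action on the trios given -/
theorem trio_aux (hM3 : ∀ g ∈ M24, ∀ a ∈ trios, g • a ∈ trios) (htr : ∀ a ∈ trios, ∃ g ∈ M24, g • T0 = a)
    (hc3795 : trios.ncard = 3795) (T : Finset (Finset GolayPt)) (hT : T ∈ trios) :
    (∀ e : Equiv.Perm ↥T, ∃ g ∈ MulAction.stabilizer M24 T, ∀ o : ↥T, (g : Equiv.Perm GolayPt) • (o : Finset GolayPt) = ((e o : ↥T) : Finset GolayPt)) ∧
    ∃ (N : Subgroup ↥(MulAction.stabilizer M24 T)) (_ : N.Normal), Nat.card N = 64 ∧ (∀ x ∈ N, x * x = 1) ∧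
      Nonempty (↥(MulAction.stabilizer M24 T) ⧸ N ≃* GL (Fin 3) (ZMod 2) × Equiv.Perm (Fin 3)) := by
  classical
  obtain ⟨w, hw, rfl⟩ := htr T hT
  have hcardG : Nat.card ↥(MulAction.stabilizer M24 (w • T0)) = 64512 := by
    have hfin : trios.Finite := Set.toFinite _
    have h := card_stab_of_orbit (G := ↥M24) (w • T0) hfin.toFinset
      (fun g => hfin.mem_toFinset.2 (hM3 g.1 g.2 _ hT))
      (fun y hy => by
        obtain ⟨u, hu, rfl⟩ := htr y (hfin.mem_toFinset.1 hy)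
        refine ⟨⟨u * w⁻¹, M24.mul_mem hu (M24.inv_mem hw)⟩, ?_⟩
        show (u * w⁻¹) • (w • T0) = u • T0
        rw [mul_smul, inv_smul_smul])
    rw [← Set.ncard_eq_toFinset_card _ hfin, hc3795, card_M24] at h
    omega
  have hlb : Function.Injective (fun v : V2 => w • lab v) := fun a b e => lab_inj (smul_left_cancel w e)
  have hlin : ∀ g : ↥(MulAction.stabilizer M24 (w • T0)), ∃ M : Matrix (Fin 3) (Fin 3) (ZMod 2),
      ∀ v, g • (fun v : V2 => w • lab v) v = (fun v : V2 => w • lab v) (M *ᵥ v) := by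
    intro g
    have hmemh : w⁻¹ * ((g.1 : ↥M24) : Equiv.Perm GolayPt) * w ∈ M24 := M24.mul_mem (M24.mul_mem (M24.inv_mem hw) g.1.2) hw
    have hgT : ((g.1 : ↥M24) : Equiv.Perm GolayPt) • (w • T0) = w • T0 := MulAction.mem_stabilizer_iff.1 g.2
    have hTh : (w⁻¹ * ((g.1 : ↥M24) : Equiv.Perm GolayPt) * w) • T0 = T0 := by
      rw [mul_smul, mul_smul, hgT, inv_smul_smul]
    obtain ⟨M, hMv⟩ := lin0 hmemh hTh
    refine ⟨M, fun v => ?_⟩
    show ((g.1 : ↥M24) : Equiv.Perm GolayPt) • (w • lab v) = w • lab (M *ᵥ v)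
    rw [← hMv v, mul_smul, mul_smul, smul_inv_smul]
  obtain ⟨Φ1, key1⟩ := hom_of_lin (G := ↥(MulAction.stabilizer M24 (w • T0))) _ hlb hlin
  have hcT : (w • T0).card = 3 := by
    rw [Finset.card_smul_finset]
    exact card_tup O_inj
  let eT : ↥(w • T0) ≃ Fin 3 := Finset.equivFinOfCardEq hcT
  let Φ2 : ↥(MulAction.stabilizer M24 (w • T0)) →* Equiv.Perm (Fin 3) :=
    (Equiv.permCongrHom eT).toMonoidHom.comp (H7Sy.rho (w • T0))
  let Φ : ↥(MulAction.stabilizer M24 (w • T0)) →* GL (Fin 3) (ZMod 2) × Equiv.Perm (Fin 3) := Φ1.prod Φ2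
  have hmk : ∀ (h : Equiv.Perm GolayPt), h ∈ M24 → h • T0 = T0 → ∃ g : ↥(MulAction.stabilizer M24 (w • T0)),
      ((g.1 : ↥M24) : Equiv.Perm GolayPt) = w * h * w⁻¹ := by
    intro h hM' hT'
    have hmem : w * h * w⁻¹ ∈ M24 := M24.mul_mem (M24.mul_mem hw hM') (M24.inv_mem hw)
    refine ⟨⟨⟨w * h * w⁻¹, hmem⟩, ?_⟩, rfl⟩
    apply MulAction.mem_stabilizer_iff.2
    show (w * h * w⁻¹) • (w • T0) = w • T0
    rw [mul_smul, mul_smul, inv_smul_smul, hT']
  -- the representatives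
  have hel : ∀ i : Fin 1008, ∃ g : ↥(MulAction.stabilizer M24 (w • T0)),
      g • (w • labN 1) = w • labN (aa i.val 0) ∧ g • (w • labN 2) = w • labN (aa i.val 1) ∧ g • (w • labN 4) = w • labN (aa i.val 2) ∧
      ((g.1 : ↥M24) : Equiv.Perm GolayPt) • (w • GolayBasic.setOf (O 0)) = w • GolayBasic.setOf (O (aa i.val 3)) ∧
      ((g.1 : ↥M24) : Equiv.Perm GolayPt) • (w • GolayBasic.setOf (O 1)) = w • GolayBasic.setOf (O (aa i.val 4)) := by
    intro i
    obtain ⟨h, hM', r, hT', a1, a2, a3, -, -, -, a4, a5, -, -⟩ := el_spec i.2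
    obtain ⟨g, hg⟩ := hmk h hM' hT'
    have hs : ∀ x : Finset (Finset GolayPt), g • (w • x) = w • (h • x) := by
      intro x
      show ((g.1 : ↥M24) : Equiv.Perm GolayPt) • (w • x) = w • (h • x)
      rw [hg, mul_smul, mul_smul, inv_smul_smul]
    have hs' : ∀ x : Finset GolayPt, ((g.1 : ↥M24) : Equiv.Perm GolayPt) • (w • x) = w • (h • x) := by
      intro x
      rw [hg, mul_smul, mul_smul, inv_smul_smul]
    refine ⟨g, ?_, ?_, ?_, ?_, ?_⟩
    · rw [hs, a1]
    · rw [hs, a2]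
    · rw [hs, a3]
    · rw [hs', a4]
    · rw [hs', a5]
  choose g g1 g2 g3 g4 g5 using hel
  have hlv : ∀ {n : ℕ}, n < 8 → lab (vOf n) = labN n := by
    intro n hn
    show labN (iv (vOf n)) = labN n
    rw [iv_vOf' hn]
  have hdist : ∀ i j : Fin 1008, Φ (g i) = Φ (g j) → i = j := by
    intro i j e
    have e1 : Φ1 (g i) = Φ1 (g j) := congrArg Prod.fst e
    have e2 : Φ2 (g i) = Φ2 (g j) := congrArg Prod.snd e
    have e3 : H7Sy.rho (w • T0) (g i) = H7Sy.rho (w • T0) (g j) := (Equiv.permCongrHom eT).injective e2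
    have lv : ∀ v : V2, (g i) • (w • lab v) = (g j) • (w • lab v) := by
      intro v
      have k1 := key1 (g i) v
      have k2 := key1 (g j) v
      rw [k1, k2, e1]
    have lo : ∀ t (ht : t ∈ w • T0), ((g i).1.1 : Equiv.Perm GolayPt) • t = ((g j).1.1 : Equiv.Perm GolayPt) • t := by
      intro t ht
      have h1 := DFunLike.congr_fun e3 (⟨t, ht⟩ : ↥(w • T0))
      exact congrArg Subtype.val h1
    have a1 : aa i.val 0 = aa j.val 0 := by
      have l1 := lv (vOf 1)
      rw [hlv (by norm_num), g1, g1] at l1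
      exact labN_inj (aa_lt _ _) (aa_lt _ _) (smul_left_cancel w l1)
    have a2 : aa i.val 1 = aa j.val 1 := by
      have l1 := lv (vOf 2)
      rw [hlv (by norm_num), g2, g2] at l1
      exact labN_inj (aa_lt _ _) (aa_lt _ _) (smul_left_cancel w l1)
    have a3 : aa i.val 2 = aa j.val 2 := by
      have l1 := lv (vOf 4)
      rw [hlv (by norm_num), g3, g3] at l1
      exact labN_inj (aa_lt _ _) (aa_lt _ _) (smul_left_cancel w l1)
    have spec : ∀ i : Fin 1008, aa i.val 3 < 3 ∧ aa i.val 4 < 3 := by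
      intro i
      obtain ⟨h, hM', r, hT', -, -, -, -, -, -, -, -, b1, b2⟩ := el_spec i.2
      exact ⟨b1, b2⟩
    have a4 : aa i.val 3 = aa j.val 3 := by
      have l1 := lo (w • GolayBasic.setOf (O 0)) (Finset.smul_mem_smul_finset (mem_tup.2 ⟨0, by norm_num, rfl⟩))
      rw [g4, g4] at l1
      have l2 := smul_left_cancel w l1
      have l3 := setOf_injOn (O_inj.1 _ (spec i).1) (O_inj.1 _ (spec j).1) l2
      exact O_inj.2 _ (spec i).1 _ (spec j).1 l3
    have a5 : aa i.val 4 = aa j.val 4 := by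
      have l1 := lo (w • GolayBasic.setOf (O 1)) (Finset.smul_mem_smul_finset (mem_tup.2 ⟨1, by norm_num, rfl⟩))
      rw [g5, g5] at l1
      have l2 := smul_left_cancel w l1
      have l3 := setOf_injOn (O_inj.1 _ (spec i).2) (O_inj.1 _ (spec j).2) l2
      exact O_inj.2 _ (spec i).2 _ (spec j).2 l3
    apply Fin.ext
    refine inj_of_mono kk_mono i.val i.2 j.val j.2 ?_
    unfold kk
    rw [a1, a2, a3, a4, a5]
  have hrange : Φ.range = ⊤ := by
    apply Subgroup.eq_top_of_le_card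
    rw [card_target]
    have hf : Function.Injective (fun i : Fin 1008 => (⟨Φ (g i), ⟨g i, rfl⟩⟩ : Φ.range)) := by
      intro i j e
      exact hdist i j (congrArg Subtype.val e)
    have := Nat.card_le_card_of_injective _ hf
    simpa using this
  have hs : Function.Surjective Φ := MonoidHom.range_eq_top.1 hrange
  have hcardk : Nat.card Φ.ker = 64 := by
    have h := Subgroup.card_mul_index Φ.ker
    rw [Subgroup.index_ker, hrange, Subgroup.card_top, hcardG, card_target] at h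
    omega
  -- the kernel
  have hm : ∀ i : Fin 64, ∃ x : ↥Φ.ker, ∃ h : Equiv.Perm GolayPt, Rep h (nl i.val) ∧ h * h = 1 ∧
      (((x.1).1 : ↥M24) : Equiv.Perm GolayPt) = w * h * w⁻¹ := by
    intro i
    obtain ⟨h, hM', r, hO, hL, hh⟩ := nl_spec i.2
    obtain ⟨g', hg'⟩ := hmk h hM' (fix_T0 hO)
    have hs' : ∀ x : Finset (Finset GolayPt), g' • (w • x) = w • (h • x) := by
      intro x
      show ((g'.1 : ↥M24) : Equiv.Perm GolayPt) • (w • x) = w • (h • x)
      rw [hg', mul_smul, mul_smul, inv_smul_smul]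
    have hs'' : ∀ x : Finset GolayPt, ((g'.1 : ↥M24) : Equiv.Perm GolayPt) • (w • x) = w • (h • x) := by
      intro x
      rw [hg', mul_smul, mul_smul, inv_smul_smul]
    have hker : g' ∈ Φ.ker := by
      rw [MonoidHom.mem_ker]
      apply Prod.ext
      · show Φ1 g' = 1
        have hfix : ∀ v : V2, h • lab v = lab v := by
          intro v
          show h • labN (iv v) = labN (iv v)
          by_cases h0 : iv v = 0
          · rw [h0, labN_zero]
            exact fix_T0 hO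
          · exact hL _ h0 (iv_lt v)
        apply Units.ext
        apply Matrix.mulVec_injective
        funext v
        rw [Units.val_one, Matrix.one_mulVec]
        apply hlb
        have k1 := key1 g' v
        have k2 : g' • (w • lab v) = w • lab v := by rw [hs', hfix]
        exact k1.symm.trans k2
      · show (Equiv.permCongrHom eT) (H7Sy.rho (w • T0) g') = 1
        have e1 : H7Sy.rho (w • T0) g' = 1 := by
          apply Equiv.ext
          intro t
          apply Subtype.ext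
          show ((g'.1 : ↥M24) : Equiv.Perm GolayPt) • t.1 = t.1
          obtain ⟨u, hu, eu⟩ := Finset.mem_smul_finset.1 t.2
          obtain ⟨r, hr, rfl⟩ := mem_tup.1 hu
          rw [← eu, hs'', hO r hr]
        rw [e1, map_one]
    exact ⟨⟨g', hker⟩, h, r, hh, hg'⟩
  choose F hh hr hsq he using hm
  have hFinj : Function.Injective F := by
    intro i j e
    have e1 : (((F i).1.1 : ↥M24) : Equiv.Perm GolayPt) = (((F j).1.1 : ↥M24) : Equiv.Perm GolayPt) := by rw [e]
    rw [he, he] at e1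
    have e2 : hh i = hh j := mul_left_cancel (mul_right_cancel e1)
    apply Fin.ext
    refine inj_of_mono (f := fun i => kn (nl i)) kn_mono i.val i.2 j.val j.2 ?_
    show kn (nl i.val) = kn (nl j.val)
    have r1 := hr i
    have r2 := hr j
    rw [e2] at r1
    unfold kn
    rw [H7Sy.ap_eq r1 r2 (x := 0) (by norm_num), H7Sy.ap_eq r1 r2 (x := 1) (by norm_num)]
  have hFb : Function.Bijective F :=
    hFinj.bijective_of_nat_card_le (by rw [hcardk]; simp)
  refine ⟨?_, Φ.ker, inferInstance, hcardk, ?_, ⟨QuotientGroup.quotientKerEquivOfSurjective Φ hs⟩⟩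
  · intro e
    obtain ⟨g', hg'⟩ := hs (1, (Equiv.permCongrHom eT) e)
    have e2 : Φ2 g' = (Equiv.permCongrHom eT) e := congrArg Prod.snd hg'
    have e3 : H7Sy.rho (w • T0) g' = e := (Equiv.permCongrHom eT).injective e2
    refine ⟨g'.1, g'.2, fun t => ?_⟩
    rw [← e3]
    rfl
  · intro x hx
    obtain ⟨i, hi⟩ := hFb.2 ⟨x, hx⟩
    have ex : (F i).1 = x := congrArg Subtype.val hi
    rw [← ex]
    apply Subtype.ext
    apply Subtype.ext
    show (((F i).1.1 : ↥M24) : Equiv.Perm GolayPt) * (((F i).1.1 : ↥M24) : Equiv.Perm GolayPt) = 1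
    rw [he]
    calc w * hh i * w⁻¹ * (w * hh i * w⁻¹) = w * (hh i * hh i) * w⁻¹ := by group
      _ = 1 := by rw [hsq i]; group

end Cfsg.Agent.Lib.H7Ty
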