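import Cfsg.Agent.Lib.H9CF2

/-! Local-to-global control of strong fusion and transfer: instances. -/

set_option linter.unusedSectionVars false
set_option linter.unusedVariables false

namespace Cfsg.Agent.Lib.H9CF

open Cfsg Subgroup Cfsg.Agent.Lib.PNilp
open scoped commutatorElement

variable {G : Type*} [Group G] [Finite G] {p : ℕ} [hp : Fact p.Prime]

theorem cg_self_of_mem {k : G} {H : Subgroup G} (hk : k ∈ H) : cg k H = H :=
  cg_eq_self_of_mem (Subgroup.le_normalizer hk)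

theorem sylow_of_le {R L H : Subgroup G} (hL : L ≤ H) (hRL : R ≤ L) (hR : ¬ p ∣ R.relIndex H) : ¬ p ∣ R.relIndex L := by
  intro h
  apply hR
  rw [← Subgroup.relIndex_mul_relIndex _ _ _ hRL hL]
  exact h.trans (Nat.dvd_mul_right _ _)

/-! ### Changing the Sylow subgroup in the definitions of control -/

theorem control_sylow {W : Subgroup G → Subgroup G} (hW : IsConjugacyFunctor p W) {H : Subgroup G}
    (h : ControlsStrongFusionIn p W H) {R : Subgroup G} (hRH : R ≤ H) (hRp : IsPGroup p R)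
    (hR : ¬ p ∣ R.relIndex H) (A : Set G) (x : G) (hx : x ∈ H) (hA : A ⊆ R)
    (hxA : (fun a => x * a * x⁻¹) '' A ⊆ R) :
    ∃ y ∈ H ⊓ NN (W R), ∀ a ∈ A, y * a * y⁻¹ = x * a * x⁻¹ := by
  obtain ⟨T, hTH, hTp, hT, hctl⟩ := h
  obtain ⟨k, hk, hkT⟩ := exists_conj_of_relIndex (p := p) H T R hTp hRp hTH hRH hT hR
  have hkT' : cg k T = R := hkT
  -- transport
  obtain ⟨z, hz, hzA⟩ := hctl ((fun a => k⁻¹ * a * k) '' A) (k⁻¹ * x * k)
    (H.mul_mem (H.mul_mem (H.inv_mem hk) hx) hk)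
    (by
      rintro _ ⟨a, ha, rfl⟩
      have := hA ha
      rw [← hkT', SetLike.mem_coe, mem_cg] at this
      exact this)
    (by
      rintro _ ⟨_, ⟨a, ha, rfl⟩, rfl⟩
      have := hxA ⟨a, ha, rfl⟩
      rw [← hkT', SetLike.mem_coe, mem_cg] at this
      have e : k⁻¹ * x * k * (k⁻¹ * a * k) * (k⁻¹ * x * k)⁻¹ = k⁻¹ * (x * a * x⁻¹) * k := by group
      simp only [e]
      exact this)
  refine ⟨k * z * k⁻¹, ⟨H.mul_mem (H.mul_mem hk hz.1) (H.inv_mem hk), ?_⟩, ?_⟩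
  · show k * z * k⁻¹ ∈ NN (W R)
    rw [← hkT', functor_cg W hW hTp, NN_cg, mem_cg]
    have : k⁻¹ * (k * z * k⁻¹) * k = z := by group
    rw [this]; exact hz.2
  · intro a ha
    have h1 := hzA (k⁻¹ * a * k) ⟨a, ha, rfl⟩
    have e1 : k * z * k⁻¹ * a * (k * z * k⁻¹)⁻¹ = k * (z * (k⁻¹ * a * k) * z⁻¹) * k⁻¹ := by group
    rw [e1, h1]
    group

theorem family_fusion_sylow {𝓦 : Set (Subgroup G → Subgroup G)} (h𝓦 : ∀ W ∈ 𝓦, IsConjugacyFunctor p W) {H : Subgroup G}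
    (h : FamilyControlsStrongFusionIn p 𝓦 H) {R : Subgroup G} (hRH : R ≤ H) (hRp : IsPGroup p R)
    (hR : ¬ p ∣ R.relIndex H) (A : Set G) (x : G) (hx : x ∈ H) (hA : A ⊆ R)
    (hxA : (fun a => x * a * x⁻¹) '' A ⊆ R) :
    ∃ (n : ℕ) (c : Fin (n + 1) → G), c 0 = 1 ∧
        (∀ i : Fin n, ∃ W ∈ 𝓦, c i.succ * (c i.castSucc)⁻¹ ∈ H ⊓ NN (W R)) ∧
        (∀ i : Fin (n + 1), (fun a => c i * a * (c i)⁻¹) '' A ⊆ R) ∧
        ∀ a ∈ A, c (Fin.last n) * a * (c (Fin.last n))⁻¹ = x * a * x⁻¹ := by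
  obtain ⟨T, hTH, hTp, hT, hctl⟩ := h
  obtain ⟨k, hk, hkT⟩ := exists_conj_of_relIndex (p := p) H T R hTp hRp hTH hRH hT hR
  have hkT' : cg k T = R := hkT
  obtain ⟨n, c, h0, hs, him, hl⟩ := hctl ((fun a => k⁻¹ * a * k) '' A) (k⁻¹ * x * k)
    (H.mul_mem (H.mul_mem (H.inv_mem hk) hx) hk)
    (by
      rintro _ ⟨a, ha, rfl⟩
      have := hA ha
      rw [← hkT', SetLike.mem_coe, mem_cg] at this
      exact this)
    (by
      rintro _ ⟨_, ⟨a, ha, rfl⟩, rfl⟩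
      have := hxA ⟨a, ha, rfl⟩
      rw [← hkT', SetLike.mem_coe, mem_cg] at this
      have e : k⁻¹ * x * k * (k⁻¹ * a * k) * (k⁻¹ * x * k)⁻¹ = k⁻¹ * (x * a * x⁻¹) * k := by group
      simp only [e]
      exact this)
  refine ⟨n, fun i => k * c i * k⁻¹, by simp [h0], ?_, ?_, ?_⟩
  · intro i
    obtain ⟨W, hW, h1, h2⟩ := hs i
    refine ⟨W, hW, ?_, ?_⟩
    · have e : k * c i.succ * k⁻¹ * (k * c i.castSucc * k⁻¹)⁻¹ = k * (c i.succ * (c i.castSucc)⁻¹) * k⁻¹ := by group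
      rw [e]
      exact H.mul_mem (H.mul_mem hk h1) (H.inv_mem hk)
    · show k * c i.succ * k⁻¹ * (k * c i.castSucc * k⁻¹)⁻¹ ∈ NN (W R)
      rw [← hkT', functor_cg W (h𝓦 W hW) hTp, NN_cg, mem_cg]
      have e : k⁻¹ * (k * c i.succ * k⁻¹ * (k * c i.castSucc * k⁻¹)⁻¹) * k = c i.succ * (c i.castSucc)⁻¹ := by group
      rw [e]; exact h2
  · rintro i _ ⟨a, ha, rfl⟩
    have := him i ⟨k⁻¹ * a * k, ⟨a, ha, rfl⟩, rfl⟩
    rw [← hkT', SetLike.mem_coe, mem_cg]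
    have e : k⁻¹ * (k * c i * k⁻¹ * a * (k * c i * k⁻¹)⁻¹) * k = c i * (k⁻¹ * a * k) * (c i)⁻¹ := by group
    simp only [e]
    exact this
  · intro a ha
    have h1 := hl (k⁻¹ * a * k) ⟨a, ha, rfl⟩
    have e1 : k * c (Fin.last n) * k⁻¹ * a * (k * c (Fin.last n) * k⁻¹)⁻¹ =
        k * (c (Fin.last n) * (k⁻¹ * a * k) * (c (Fin.last n))⁻¹) * k⁻¹ := by group
    simp only [e1, h1]
    group

theorem family_transfer_sylow {𝓦 : Set (Subgroup G → Subgroup G)} (h𝓦 : ∀ W ∈ 𝓦, IsConjugacyFunctor p W) {H : Subgroup G}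
    (h : FamilyControlsTransferIn p 𝓦 H) {R : Subgroup G} (hRH : R ≤ H) (hRp : IsPGroup p R)
    (hR : ¬ p ∣ R.relIndex H) :
    R ⊓ ⁅H, H⁆ = ⨆ W ∈ 𝓦, R ⊓ ⁅H ⊓ NN (W R), H ⊓ NN (W R)⁆ := by
  obtain ⟨T, hTH, hTp, hT, hctl⟩ := h
  obtain ⟨k, hk, hkT⟩ := exists_conj_of_relIndex (p := p) H T R hTp hRp hTH hRH hT hR
  have hkT' : cg k T = R := hkT
  have hH : cg k H = H := cg_self_of_mem hk
  have e1 : cg k (T ⊓ ⁅H, H⁆) = R ⊓ ⁅H, H⁆ := by
    rw [cg_inf, hkT']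
    congr 1
    show ⁅H, H⁆.map _ = _
    rw [Subgroup.map_commutator]
    exact congrArg₂ (fun a b : Subgroup G => ⁅a, b⁆) hH hH
  rw [← e1, hctl]
  show Subgroup.map _ _ = _
  simp only [Subgroup.map_iSup]
  apply iSup_congr
  intro W
  apply iSup_congr
  intro hW
  have e2 : (H ⊓ normalizer (W T : Set G)).map (MulAut.conj k).toMonoidHom = H ⊓ NN (W R) := by
    have : cg k (H ⊓ NN (W T)) = H ⊓ NN (W R) := by
      rw [cg_inf, hH, ← hkT', functor_cg W (h𝓦 W hW) hTp, NN_cg]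
    exact this
  have e3 : (T ⊓ ⁅H ⊓ normalizer (W T : Set G), H ⊓ normalizer (W T : Set G)⁆).map (MulAut.conj k).toMonoidHom =
      R ⊓ ⁅H ⊓ NN (W R), H ⊓ NN (W R)⁆ := by
    rw [Subgroup.map_inf _ _ _ (MulAut.conj k).injective, Subgroup.map_commutator, e2]
    congr 1
  exact e3

/-! ### The focal subgroup in a subgroup -/

theorem focal_in (L R Ψ : Subgroup G) (hRL : R ≤ L) (hRp : IsPGroup p R) (hR : ¬ p ∣ R.relIndex L)
    (h : ∀ b ∈ R, ∀ y ∈ L, y⁻¹ * b * y ∈ R → b⁻¹ * (y⁻¹ * b * y) ∈ Ψ) : R ⊓ ⁅L, L⁆ ≤ Ψ := by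
  have hp1 : IsPGroup p (R.subgroupOf L) := IsPGroup.comap_subtype hRp
  let Q : Sylow p L := hp1.toSylow hR
  have hQ : ((Q : Subgroup L)) = R.subgroupOf L := rfl
  have hfoc := Subgroup.commutator_inf_eq_focalSubgroup Q
  intro x hx
  obtain ⟨hxR, hxc⟩ := hx
  rw [← Subgroup.map_subtype_commutator] at hxc
  obtain ⟨x', hx', rfl⟩ := hxc
  have h1 : x' ∈ _root_.commutator L ⊓ (Q : Subgroup L) := by
    refine ⟨hx', ?_⟩
    show x' ∈ R.subgroupOf L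
    rw [Subgroup.mem_subgroupOf]
    exact hxR
  have h1' : x' ∈ (Q : Subgroup L) ⊓ ((⊤ : Subgroup L)) := ⟨h1.2, trivial⟩
  have h2 : x' ∈ (Q : Subgroup L).focalSubgroup := by
    have h3 := hfoc.le h1
    exact h3
  have h3 : (Q : Subgroup L).focalSubgroup ≤ Ψ.comap L.subtype := by
    rw [Subgroup.focalSubgroup_def, Subgroup.closure_le]
    rintro g ⟨hg, a, ha, u, rfl⟩
    have ha' : (a : G) ∈ R := ha
    have hg' : ((⁅a, u⁆ : L) : G) ∈ R := hg
    have e : ((⁅a, u⁆ : L) : G) = (a : G)⁻¹⁻¹ * ((u : G)⁻¹⁻¹ * (a : G)⁻¹ * (u : G)⁻¹) := by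
      simp [commutatorElement_def, mul_assoc]
    have h4 : (u : G)⁻¹⁻¹ * (a : G)⁻¹ * (u : G)⁻¹ ∈ R := by
      have e2 : (u : G)⁻¹⁻¹ * (a : G)⁻¹ * (u : G)⁻¹ = (a : G)⁻¹ * ((⁅a, u⁆ : L) : G) := by
        rw [e]; group
      rw [e2]
      exact R.mul_mem (R.inv_mem ha') hg'
    have h5 := h (a : G)⁻¹ (R.inv_mem ha') (u : G)⁻¹ (L.inv_mem u.2) h4
    rw [SetLike.mem_coe, Subgroup.mem_comap]
    show ((⁅a, u⁆ : L) : G) ∈ Ψ
    rw [e]
    exact h5
  exact h3 h2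

/-! ### Good predicates -/

/-- Good for transfer -/
def GoodT (Ψ : Subgroup G) (A : Set G) (g : G) : Prop := ∀ a ∈ A, a⁻¹ * (g⁻¹ * a * g) ∈ Ψ

theorem GoodT.one (Ψ : Subgroup G) (A : Set G) : GoodT Ψ A 1 := by
  intro a _
  simp

theorem GoodT.comp (Ψ : Subgroup G) (A : Set G) (g g' : G) (h : GoodT Ψ A g) (h' : GoodT Ψ (cj g A) g') :
    GoodT Ψ A (g * g') := by
  intro a ha
  have h1 := h a ha
  have h2 := h' (g⁻¹ * a * g) ⟨a, ha, rfl⟩
  have e : a⁻¹ * ((g * g')⁻¹ * a * (g * g')) = (a⁻¹ * (g⁻¹ * a * g)) * ((g⁻¹ * a * g)⁻¹ * (g'⁻¹ * (g⁻¹ * a * g) * g')) := by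
    group
  rw [e]
  exact Ψ.mul_mem h1 h2

theorem GoodT.mono (Ψ : Subgroup G) (A A' : Set G) (g : G) (h0 : A' ⊆ A) (h : GoodT Ψ A g) : GoodT Ψ A' g :=
  fun a ha => h a (h0 ha)

theorem GoodT.bot (Ψ : Subgroup G) (A : Set G) (g : G) (h : A ⊆ {1}) : GoodT Ψ A g := by
  intro a ha
  have := h ha
  rw [Set.mem_singleton_iff] at this
  rw [this]
  simp

theorem GoodT.local {𝓦 : Set (Subgroup G → Subgroup G)} (Ψ : Subgroup G) {H₀ R : Subgroup G}
    (hRH : R ≤ H₀) (hRp : IsPGroup p R) (hR : ¬ p ∣ R.relIndex H₀)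
    (hRW : ∀ W ∈ 𝓦, R ≤ NN (W R))
    (heq : R ⊓ ⁅H₀, H₀⁆ = ⨆ W ∈ 𝓦, R ⊓ ⁅H₀ ⊓ NN (W R), H₀ ⊓ NN (W R)⁆)
    (hA : ∀ W ∈ 𝓦, ∀ y ∈ H₀ ⊓ NN (W R), ∀ B : Set G, B ⊆ (R : Set G) → cj y B ⊆ (R : Set G) → GoodT Ψ B y)
    (x : G) (hx : x ∈ H₀) (B : Set G) (hB : B ⊆ (R : Set G)) (hxB : cj x B ⊆ (R : Set G)) : GoodT Ψ B x := by
  intro a ha
  have h1 : a⁻¹ * (x⁻¹ * a * x) ∈ R ⊓ ⁅H₀, H₀⁆ := by
    refine ⟨R.mul_mem (R.inv_mem (hB ha)) (hxB ⟨a, ha, rfl⟩), ?_⟩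
    have := Subgroup.commutator_mem_commutator (H₁ := H₀) (H₂ := H₀) (H₀.inv_mem (hRH (hB ha))) (H₀.inv_mem hx)
    have e : a⁻¹ * (x⁻¹ * a * x) = ⁅a⁻¹, x⁻¹⁆ := by
      simp [commutatorElement_def, mul_assoc]
    rw [e]
    exact this
  rw [heq] at h1
  have h2 : (⨆ W ∈ 𝓦, R ⊓ ⁅H₀ ⊓ NN (W R), H₀ ⊓ NN (W R)⁆) ≤ Ψ := by
    apply iSup_le
    intro W
    apply iSup_le
    intro hW
    apply focal_in (p := p) (H₀ ⊓ NN (W R)) R Ψ (le_inf hRH (hRW W hW)) hRp (sylow_of_le inf_le_left (le_inf hRH (hRW W hW)) hR)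
    intro b hb y hy hby
    have := hA W hW y hy {b} (by simpa using hb) (by
      rintro _ ⟨c, hc, rfl⟩
      rw [Set.mem_singleton_iff] at hc
      rw [hc]
      exact hby) b rfl
    exact this
  exact h2 h1

/-- The focal subgroup of `S` is controlled by a good predicate. -/
theorem inf_commutator_le_of_good (S : Sylow p G) (Ψ : Subgroup G)
    (h : ∀ (A : Set G) (g : G), A ⊆ (S : Set G) → cj g A ⊆ (S : Set G) → GoodT Ψ A g) :
    (S : Subgroup G) ⊓ ⁅(⊤ : Subgroup G), (⊤ : Subgroup G)⁆ ≤ Ψ := by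
  apply focal_in (p := p) ⊤ (S : Subgroup G) Ψ le_top S.2 (by
    rw [Subgroup.relIndex_top_right]; exact S.not_dvd_index)
  intro b hb y _ hby
  exact h {b} y (by
    intro c hc
    rw [Set.mem_singleton_iff] at hc
    rw [hc]
    exact hb) (by
    rintro _ ⟨c, hc, rfl⟩
    rw [Set.mem_singleton_iff] at hc
    rw [hc]
    exact hby) b rfl

/-- S1962 -/
theorem controlsTransfer_of_wellPlaced (S : Sylow p G) (W : Subgroup G → Subgroup G) (hW : IsConjugacyFunctor p W)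
    (hloc : ∀ T : Subgroup G, T ≠ ⊥ → IsWellPlaced p W (S : Subgroup G) T →
      ControlsTransferIn p W (NN T)) : ControlsTransferIn p W ⊤ := by
  refine ⟨S, le_top, S.2, by rw [Subgroup.relIndex_top_right]; exact S.not_dvd_index, ?_⟩
  set Ψ : Subgroup G := (S : Subgroup G) ⊓ ⁅(⊤ : Subgroup G) ⊓ NN (W S), (⊤ : Subgroup G) ⊓ NN (W S)⁆ with hΨ
  apply le_antisymm
  · apply inf_commutator_le_of_good S Ψ
    intro A g hA hg
    apply abstract_wellPlaced S W hW (GoodT Ψ) (GoodT.one Ψ) (GoodT.comp Ψ) (GoodT.bot Ψ) ?_ ?_ A g hA hg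
    · intro y hy B hB hyB a ha
      refine ⟨(S : Subgroup G).mul_mem ((S : Subgroup G).inv_mem (hB ha)) (hyB ⟨a, ha, rfl⟩), ?_⟩
      have hSN : (S : Subgroup G) ≤ NN (W S) := le_normalizer_functor W hW S.2
      have := Subgroup.commutator_mem_commutator (H₁ := (⊤ : Subgroup G) ⊓ NN (W S)) (H₂ := (⊤ : Subgroup G) ⊓ NN (W S))
        ⟨trivial, (NN (W S)).inv_mem (hSN (hB ha))⟩ ⟨trivial, (NN (W S)).inv_mem hy⟩
      have e : a⁻¹ * (y⁻¹ * a * y) = ⁅a⁻¹, y⁻¹⁆ := by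
        simp [commutatorElement_def, mul_assoc]
      rw [e]
      exact this
    · intro T hT hTw hA x hx B hB hxB
      have hTS := hTw.1
      have hsyl : ¬ p ∣ ((S : Subgroup G) ⊓ NN T).relIndex (NN T) := hTw.2 0
      have hRp : IsPGroup p ((S : Subgroup G) ⊓ NN T : Subgroup G) := S.2.to_le inf_le_left
      refine GoodT.local (𝓦 := {W}) Ψ inf_le_right hRp hsyl ?_ ?_ ?_ x hx B hB hxB
      · intro W' hW'
        rw [Set.mem_singleton_iff] at hW'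
        rw [hW']
        exact le_normalizer_functor W hW hRp
      · have h𝓦 : ∀ W' ∈ ({W} : Set (Subgroup G → Subgroup G)), IsConjugacyFunctor p W' := by
          intro W' hW'
          rw [Set.mem_singleton_iff] at hW'
          rw [hW']; exact hW
        apply family_transfer_sylow h𝓦 ?_ inf_le_right hRp hsyl
        obtain ⟨T', h1, h2, h3, h4⟩ := hloc T hT hTw
        refine ⟨T', h1, h2, h3, ?_⟩
        simp only [iSup_singleton]
        exact h4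
      · intro W' hW' y hy B' hB' hyB'
        rw [Set.mem_singleton_iff] at hW'
        rw [hW'] at hy
        exact hA y hy B' hB' hyB'
  · exact inf_le_inf_left _ (Subgroup.commutator_mono inf_le_left inf_le_left)

/-- S1960 -/
theorem familyControlsTransfer (S : Sylow p G) (𝓦 : Set (Subgroup G → Subgroup G)) (h𝓦 : ∀ W ∈ 𝓦, IsConjugacyFunctor p W)
    (hloc : ∀ T : Subgroup G, T ≤ (S : Subgroup G) → T ≠ ⊥ → ¬ p ∣ ((S : Subgroup G) ⊓ NN T).relIndex (NN T) →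
      FamilyControlsTransferIn p 𝓦 (NN T)) : FamilyControlsTransferIn p 𝓦 ⊤ := by
  refine ⟨S, le_top, S.2, by rw [Subgroup.relIndex_top_right]; exact S.not_dvd_index, ?_⟩
  set Ψ : Subgroup G := ⨆ W ∈ 𝓦, (S : Subgroup G) ⊓ ⁅(⊤ : Subgroup G) ⊓ NN (W S), (⊤ : Subgroup G) ⊓ NN (W S)⁆ with hΨ
  apply le_antisymm
  · apply inf_commutator_le_of_good S Ψ
    intro A g hA hg
    apply abstract_family S 𝓦 h𝓦 (GoodT Ψ) (GoodT.one Ψ) (GoodT.comp Ψ) (GoodT.mono Ψ) (GoodT.bot Ψ) ?_ ?_ A g hA hg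
    · intro W hW y hy B hB hyB a ha
      have hWf := h𝓦 W hW
      have h2 : (S : Subgroup G) ⊓ ⁅(⊤ : Subgroup G) ⊓ NN (W S), (⊤ : Subgroup G) ⊓ NN (W S)⁆ ≤ Ψ :=
        le_iSup₂_of_le W hW le_rfl
      apply h2
      refine ⟨(S : Subgroup G).mul_mem ((S : Subgroup G).inv_mem (hB ha)) (hyB ⟨a, ha, rfl⟩), ?_⟩
      have hSN : (S : Subgroup G) ≤ NN (W S) := le_normalizer_functor W hWf S.2
      have := Subgroup.commutator_mem_commutator (H₁ := (⊤ : Subgroup G) ⊓ NN (W S)) (H₂ := (⊤ : Subgroup G) ⊓ NN (W S))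
        ⟨trivial, (NN (W S)).inv_mem (hSN (hB ha))⟩ ⟨trivial, (NN (W S)).inv_mem hy⟩
      have e : a⁻¹ * (y⁻¹ * a * y) = ⁅a⁻¹, y⁻¹⁆ := by
        simp [commutatorElement_def, mul_assoc]
      rw [e]
      exact this
    · intro T hT hTS hsyl hA x hx B hB hxB
      have hRp : IsPGroup p ((S : Subgroup G) ⊓ NN T : Subgroup G) := S.2.to_le inf_le_left
      refine GoodT.local (𝓦 := 𝓦) Ψ inf_le_right hRp hsyl ?_ ?_ ?_ x hx B hB hxB
      · intro W' hW'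
        exact le_normalizer_functor W' (h𝓦 W' hW') hRp
      · exact family_transfer_sylow h𝓦 (hloc T hTS hT hsyl) inf_le_right hRp hsyl
      · intro W' hW' y hy B' hB' hyB'
        exact hA W' hW' y hy B' hB' hyB'
  · apply iSup_le
    intro W
    apply iSup_le
    intro _
    exact inf_le_inf_left _ (Subgroup.commutator_mono le_top le_top)

/-! ### Strong fusion -/

/-- S1961 -/
theorem controlsStrongFusion_of_wellPlaced (S : Sylow p G) (W : Subgroup G → Subgroup G) (hW : IsConjugacyFunctor p W)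
    (hloc : ∀ T : Subgroup G, T ≠ ⊥ → IsWellPlaced p W (S : Subgroup G) T →
      ControlsStrongFusionIn p W (NN T)) : ControlsStrongFusionIn p W ⊤ := by
  refine ⟨S, le_top, S.2, by rw [Subgroup.relIndex_top_right]; exact S.not_dvd_index, ?_⟩
  intro A h _ hA hhA
  let Good : Set G → G → Prop := fun A g => ∃ z ∈ NN (W S), ∀ a ∈ A, z⁻¹ * a * z = g⁻¹ * a * g
  have hmain : Good A h⁻¹ := by
    apply abstract_wellPlaced S W hW Good ?_ ?_ ?_ ?_ ?_ A h⁻¹ hA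
    · rintro _ ⟨a, ha, rfl⟩
      have := hhA ⟨a, ha, rfl⟩
      simpa using this
    · intro B
      exact ⟨1, one_mem _, by simp⟩
    · rintro B g g' ⟨z, hz, h1⟩ ⟨z', hz', h2⟩
      refine ⟨z * z', mul_mem hz hz', ?_⟩
      intro a ha
      have h3 := h1 a ha
      have h4 := h2 (g⁻¹ * a * g) ⟨a, ha, rfl⟩
      have e1 : (z * z')⁻¹ * a * (z * z') = z'⁻¹ * (z⁻¹ * a * z) * z' := by group
      have e2 : (g * g')⁻¹ * a * (g * g') = g'⁻¹ * (g⁻¹ * a * g) * g' := by group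
      rw [e1, e2, h3, h4]
    · intro B g hB
      refine ⟨1, one_mem _, ?_⟩
      intro a ha
      have := hB ha
      rw [Set.mem_singleton_iff] at this
      rw [this]
      simp
    · intro y hy B _ _
      exact ⟨y, hy, fun _ _ => rfl⟩
    · intro T hT hTw hAs x hx B hB hxB
      have hsyl : ¬ p ∣ ((S : Subgroup G) ⊓ NN T).relIndex (NN T) := hTw.2 0
      have hRp : IsPGroup p ((S : Subgroup G) ⊓ NN T : Subgroup G) := S.2.to_le inf_le_left
      obtain ⟨y, hy, hyB⟩ := control_sylow hW (hloc T hT hTw) inf_le_right hRp hsyl B x⁻¹ ((NN T).inv_mem hx) hB (by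
        rintro _ ⟨a, ha, rfl⟩
        have := hxB ⟨a, ha, rfl⟩
        simpa using this)
      have hag : ∀ a ∈ B, (y⁻¹)⁻¹ * a * y⁻¹ = x⁻¹ * a * x := by
        intro a ha
        have := hyB a ha
        simpa using this
      obtain ⟨z, hz, hzB⟩ := hAs y⁻¹ (inv_mem hy) B hB (by
        rintro _ ⟨a, ha, rfl⟩
        simp only
        rw [hag a ha]
        exact hxB ⟨a, ha, rfl⟩)
      refine ⟨z, hz, ?_⟩
      intro a ha
      rw [hzB a ha, hag a ha]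
  obtain ⟨z, hz, hzA⟩ := hmain
  refine ⟨z⁻¹, Subgroup.mem_inf.2 ⟨trivial, (NN (W S)).inv_mem hz⟩, ?_⟩
  intro a ha
  have := hzA a ha
  simpa using this

/-- A chain of conjugations in the normalizers. -/
def WStep (S : Sylow p G) (𝓦 : Set (Subgroup G → Subgroup G)) (A : Set G) (x : G) : Prop :=
  (∃ W ∈ 𝓦, x ∈ NN (W S)) ∧ A ⊆ (S : Set G) ∧ cj x A ⊆ (S : Set G)

/-- From chains to the form in the definition. -/
theorem WStep.toFin (S : Sylow p G) (𝓦 : Set (Subgroup G → Subgroup G)) {A : Set G} {g : G}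
    (h : SChain (WStep S 𝓦) A g) (hA : A ⊆ (S : Set G)) :
    ∃ (n : ℕ) (c : Fin (n + 1) → G), c 0 = 1 ∧
        (∀ i : Fin n, ∃ W ∈ 𝓦, c i.succ * (c i.castSucc)⁻¹ ∈ (⊤ : Subgroup G) ⊓ NN (W S)) ∧
        (∀ i : Fin (n + 1), (fun a => c i * a * (c i)⁻¹) '' A ⊆ (S : Subgroup G)) ∧
        ∀ a ∈ A, c (Fin.last n) * a * (c (Fin.last n))⁻¹ = g⁻¹ * a * g := by
  induction h with
  | nil A =>
    refine ⟨0, fun _ => 1, rfl, fun i => i.elim0, ?_, ?_⟩
    · rintro i _ ⟨a, ha, rfl⟩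
      have := hA ha
      simpa using this
    · intro a _
      simp
  | cons A x y hs hy ih =>
    obtain ⟨⟨W, hW, hx⟩, h1, h2⟩ := hs
    obtain ⟨n, c, h0, hst, him, hl⟩ := ih h2
    refine ⟨n + 1, Fin.cons 1 (fun i => c i * x⁻¹), rfl, ?_, ?_, ?_⟩
    · intro i
      refine Fin.cases ?_ (fun j => ?_) i
      · refine ⟨W, hW, trivial, ?_⟩
        show (Fin.cons 1 (fun i => c i * x⁻¹) : Fin (n + 2) → G) (Fin.succ 0) *
          ((Fin.cons 1 (fun i => c i * x⁻¹) : Fin (n + 2) → G) (Fin.castSucc 0))⁻¹ ∈ _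
        have e1 : (Fin.cons 1 (fun i => c i * x⁻¹) : Fin (n + 2) → G) (Fin.succ 0) = c 0 * x⁻¹ := rfl
        have e2 : (Fin.cons 1 (fun i => c i * x⁻¹) : Fin (n + 2) → G) (Fin.castSucc 0) = 1 := rfl
        rw [e1, e2, h0]
        simpa using inv_mem hx
      · obtain ⟨W', hW', h3, h4⟩ := hst j
        refine ⟨W', hW', trivial, ?_⟩
        have e1 : (Fin.cons 1 (fun i => c i * x⁻¹) : Fin (n + 2) → G) (Fin.succ j).succ = c j.succ * x⁻¹ := rfl
        have e2 : (Fin.cons 1 (fun i => c i * x⁻¹) : Fin (n + 2) → G) (Fin.succ j).castSucc = c j.castSucc * x⁻¹ := rfl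
        rw [e1, e2]
        have e3 : c j.succ * x⁻¹ * (c j.castSucc * x⁻¹)⁻¹ = c j.succ * (c j.castSucc)⁻¹ := by group
        rw [e3]
        exact h4
    · intro i
      refine Fin.cases ?_ (fun j => ?_) i
      · rintro _ ⟨a, ha, rfl⟩
        have := h1 ha
        simpa using this
      · rintro _ ⟨a, ha, rfl⟩
        have := him j ⟨x⁻¹ * a * x, ⟨a, ha, rfl⟩, rfl⟩
        have e1 : (Fin.cons 1 (fun i => c i * x⁻¹) : Fin (n + 2) → G) (Fin.succ j) = c j * x⁻¹ := rfl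
        simp only [e1]
        have e2 : c j * x⁻¹ * a * (c j * x⁻¹)⁻¹ = c j * (x⁻¹ * a * x) * (c j)⁻¹ := by group
        rw [e2]
        exact this
    · intro a ha
      have h3 := hl (x⁻¹ * a * x) ⟨a, ha, rfl⟩
      have e1 : (Fin.cons 1 (fun i => c i * x⁻¹) : Fin (n + 2) → G) (Fin.last (n + 1)) = c (Fin.last n) * x⁻¹ := rfl
      rw [e1]
      have e2 : c (Fin.last n) * x⁻¹ * a * (c (Fin.last n) * x⁻¹)⁻¹ = c (Fin.last n) * (x⁻¹ * a * x) * (c (Fin.last n))⁻¹ := by group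
      rw [e2, h3]
      group

theorem WStep.mono (S : Sylow p G) (𝓦 : Set (Subgroup G → Subgroup G)) : ∀ (A A' : Set G) (x : G), A' ⊆ A →
    WStep S 𝓦 A x → WStep S 𝓦 A' x := by
  rintro A A' x h ⟨h1, h2, h3⟩
  exact ⟨h1, h.trans h2, (cj_subset h).trans h3⟩

/-- S1959 -/
theorem familyControlsStrongFusion (S : Sylow p G) (𝓦 : Set (Subgroup G → Subgroup G)) (h𝓦 : ∀ W ∈ 𝓦, IsConjugacyFunctor p W)
    (hloc : ∀ T : Subgroup G, T ≤ (S : Subgroup G) → T ≠ ⊥ → ¬ p ∣ ((S : Subgroup G) ⊓ NN T).relIndex (NN T) →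
      FamilyControlsStrongFusionIn p 𝓦 (NN T)) : FamilyControlsStrongFusionIn p 𝓦 ⊤ := by
  refine ⟨S, le_top, S.2, by rw [Subgroup.relIndex_top_right]; exact S.not_dvd_index, ?_⟩
  intro A h _ hA hhA
  let Good : Set G → G → Prop := fun A g => ∃ g', SChain (WStep S 𝓦) A g' ∧ ∀ a ∈ A, g'⁻¹ * a * g' = g⁻¹ * a * g
  have hmain : Good A h⁻¹ := by
    apply abstract_family S 𝓦 h𝓦 Good ?_ ?_ ?_ ?_ ?_ ?_ A h⁻¹ hA
    · rintro _ ⟨a, ha, rfl⟩
      have := hhA ⟨a, ha, rfl⟩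
      simpa using this
    · intro B
      exact ⟨1, SChain.nil _, fun _ _ => rfl⟩
    · rintro B g g' ⟨z, hz, h1⟩ ⟨z', hz', h2⟩
      have hcj : cj z B = cj g B := by
        apply Set.image_congr
        exact h1
      refine ⟨z * z', hz.trans (hcj ▸ hz'), ?_⟩
      intro a ha
      have h3 := h1 a ha
      have h4 := h2 (g⁻¹ * a * g) ⟨a, ha, rfl⟩
      have e1 : (z * z')⁻¹ * a * (z * z') = z'⁻¹ * (z⁻¹ * a * z) * z' := by group
      have e2 : (g * g')⁻¹ * a * (g * g') = g'⁻¹ * (g⁻¹ * a * g) * g' := by group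
      rw [e1, e2, h3, h4]
    · rintro B B' g hBB ⟨z, hz, h1⟩
      exact ⟨z, hz.mono (WStep.mono S 𝓦) hBB, fun a ha => h1 a (hBB ha)⟩
    · intro B g hB
      refine ⟨1, SChain.nil _, ?_⟩
      intro a ha
      have := hB ha
      rw [Set.mem_singleton_iff] at this
      rw [this]
      simp
    · intro W hW y hy B hB hyB
      exact ⟨y, SChain.one ⟨⟨W, hW, hy⟩, hB, hyB⟩, fun _ _ => rfl⟩
    · intro T hT hTS hsyl hAs x hx B hB hxB
      have hRp : IsPGroup p ((S : Subgroup G) ⊓ NN T : Subgroup G) := S.2.to_le inf_le_left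
      obtain ⟨n, c, h0, hst, him, hl⟩ := family_fusion_sylow h𝓦 (hloc T hTS hT hsyl) inf_le_right hRp hsyl B x⁻¹
        ((NN T).inv_mem hx) hB (by
        rintro _ ⟨a, ha, rfl⟩
        have := hxB ⟨a, ha, rfl⟩
        simpa using this)
      -- induction along the chain
      have hall : ∀ i : Fin (n + 1), Good B (c i)⁻¹ := by
        intro i
        induction i using Fin.induction with
        | zero =>
          rw [h0, inv_one]
          exact ⟨1, SChain.nil _, fun _ _ => rfl⟩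
        | succ i ih =>
          obtain ⟨W, hW, h1, h2⟩ := hst i
          set y := c i.succ * (c i.castSucc)⁻¹ with hy
          have e : (c i.succ)⁻¹ = (c i.castSucc)⁻¹ * y⁻¹ := by
            rw [hy]; group
          rw [e]
          have hcj1 : cj (c i.castSucc)⁻¹ B ⊆ (((S : Subgroup G) ⊓ NN T : Subgroup G) : Set G) := by
            rintro _ ⟨a, ha, rfl⟩
            have := him i.castSucc ⟨a, ha, rfl⟩
            simpa using this
          have hcj2 : cj y⁻¹ (cj (c i.castSucc)⁻¹ B) ⊆ (((S : Subgroup G) ⊓ NN T : Subgroup G) : Set G) := by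
            rintro _ ⟨_, ⟨a, ha, rfl⟩, rfl⟩
            have := him i.succ ⟨a, ha, rfl⟩
            have e2 : y⁻¹⁻¹ * ((c i.castSucc)⁻¹⁻¹ * a * (c i.castSucc)⁻¹) * y⁻¹ = c i.succ * a * (c i.succ)⁻¹ := by
              rw [hy]; group
            simp only [e2]
            exact this
          -- compose
          obtain ⟨z, hz, h3⟩ := ih
          obtain ⟨z', hz', h4⟩ := hAs W hW y⁻¹ (Subgroup.inv_mem _ (Subgroup.mem_inf.2 ⟨h1, h2⟩)) _ hcj1 hcj2
          have hcj : cj z B = cj (c i.castSucc)⁻¹ B := by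
            apply Set.image_congr
            exact h3
          refine ⟨z * z', hz.trans (hcj ▸ hz'), ?_⟩
          intro a ha
          have h5 := h3 a ha
          have h6 := h4 ((c i.castSucc)⁻¹⁻¹ * a * (c i.castSucc)⁻¹) ⟨a, ha, rfl⟩
          have e1 : (z * z')⁻¹ * a * (z * z') = z'⁻¹ * (z⁻¹ * a * z) * z' := by group
          have e2 : ((c i.castSucc)⁻¹ * y⁻¹)⁻¹ * a * ((c i.castSucc)⁻¹ * y⁻¹) =
              y⁻¹⁻¹ * ((c i.castSucc)⁻¹⁻¹ * a * (c i.castSucc)⁻¹) * y⁻¹ := by group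
          rw [e1, e2, h5, h6]
      obtain ⟨z, hz, h3⟩ := hall (Fin.last n)
      refine ⟨z, hz, ?_⟩
      intro a ha
      rw [h3 a ha]
      have := hl a ha
      simpa using this
  obtain ⟨g', hg', hag⟩ := hmain
  obtain ⟨n, c, h0, hst, him, hl⟩ := WStep.toFin S 𝓦 hg' hA
  refine ⟨n, c, h0, hst, him, ?_⟩
  intro a ha
  rw [hl a ha, hag a ha]
  simp

end Cfsg.Agent.Lib.H9CF
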