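import Mathlib
import Cfsg.Agent.Lib.Comp3
import Cfsg.Agent.Lib.PNilp

set_option autoImplicit false
set_option linter.unusedSectionVars false

/-! Groups with `F*(X)` a `p`-group. -/

namespace Cfsg.Agent.Lib.H9PConstr

open Cfsg Cfsg.Agent.Lib.Comp Cfsg.Agent.Lib.Comp2 Cfsg.Agent.Lib.Comp3 Cfsg.Agent.Lib.H1Core
  Cfsg.Agent.Lib.PNilp Cfsg.Agent.Lib.H1Fit
open scoped commutatorElement

universe u v

variable {p : ℕ} [Fact p.Prime]

/-- `F*(X)` is a `p`-group. -/
def Pc (p : ℕ) (X : Type*) [Group X] : Prop := layer X = ⊥ ∧ pPrimeCore p X = ⊥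

theorem pc_iff {X : Type*} [Group X] [Finite X] :
    IsPGroup p (generalizedFittingSubgroup X) ↔ Pc p X := by
  constructor
  · intro h
    have hs : Group.IsSolvable (generalizedFittingSubgroup X) := by
      haveI := h.isNilpotent
      infer_instance
    refine ⟨?_, ?_⟩
    · rw [layer_eq_bot_iff]
      intro L hL
      apply comp_not_le_solvable hL hs
      exact (comp_le_layer hL).trans layer_le_Fstar
    · set R := pPrimeCore p X with hR
      have hRn : R.Normal := pPrimeCore_normal p X
      have hRc := pPrimeCore_coprime (G := X) p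
      have hcop : Nat.Coprime (Nat.card R) (Nat.card (generalizedFittingSubgroup X)) := by
        obtain ⟨k, hk⟩ := IsPGroup.iff_card.mp h
        rw [hk]
        exact Nat.Coprime.pow_right k hRc
      have hdisj : R ⊓ generalizedFittingSubgroup X = ⊥ := by
        exact (Subgroup.disjoint_def.mpr (fun {x} h1 h2 => by
          have h3 : orderOf x ∣ Nat.card R := by
            have := orderOf_dvd_natCard (⟨x, h1⟩ : R)
            rwa [Subgroup.orderOf_mk] at this
          have h4 : orderOf x ∣ Nat.card (generalizedFittingSubgroup X) := by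
            have := orderOf_dvd_natCard (⟨x, h2⟩ : generalizedFittingSubgroup X)
            rwa [Subgroup.orderOf_mk] at this
          exact orderOf_eq_one_iff.mp (Nat.eq_one_of_dvd_coprimes hcop h3 h4))).eq_bot
      have hcomm : R ≤ Subgroup.centralizer (generalizedFittingSubgroup X : Set X) := by
        intro r hr
        rw [Subgroup.mem_centralizer_iff]
        intro f hf
        exact (Subgroup.commute_of_normal_of_disjoint R _ hRn inferInstance
          (disjoint_iff.mpr hdisj) r f hr hf).eq.symm
      have h6 : R ≤ generalizedFittingSubgroup X := hcomm.trans centralizer_Fstar_le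
      rw [← le_bot_iff, ← hdisj]
      exact le_inf le_rfl h6
  · rintro ⟨h1, h2⟩
    unfold generalizedFittingSubgroup
    rw [h1, bot_sup_eq, fitting_eq_pCore_of_pPrimeCore_eq_bot p h2]
    exact pCore_isPGroup p

theorem Pc.of_equiv {A B : Type*} [Group A] [Group B] [Finite A] (e : A ≃* B) (h : Pc p B) : Pc p A := by
  refine ⟨layer_eq_bot_of_equiv e h.1, ?_⟩
  set R := pPrimeCore p A with hR
  have hRn : R.Normal := pPrimeCore_normal p A
  have hRc := pPrimeCore_coprime (G := A) p
  have h1 : R.map e.toMonoidHom ≤ pPrimeCore p B := by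
    apply le_pPrimeCore
    · exact hRn.map e.toMonoidHom e.surjective
    · rw [Subgroup.card_map_of_injective e.injective]
      exact hRc
  rw [h.2, le_bot_iff] at h1
  rw [← le_bot_iff]
  intro x hx
  have h2 : e x ∈ R.map e.toMonoidHom := ⟨x, hx, rfl⟩
  rw [h1, Subgroup.mem_bot] at h2
  rw [Subgroup.mem_bot]
  exact (map_eq_one_iff e e.injective).mp h2

/-- Normal subgroups. -/
theorem Pc.normal {X : Type*} [Group X] [Finite X] (N : Subgroup X) (hN : N.Normal) (h : Pc p X) : Pc p N := by
  refine ⟨?_, ?_⟩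
  · rw [layer_eq_bot_iff]
    intro L hL
    have h1 := isComponent_map hL (Subgroup.Normal.isSubnormal hN)
    exact (layer_eq_bot_iff.mp h.1) _ h1
  · set R := pPrimeCore p N with hR
    have hRc := pPrimeCore_coprime (G := N) p
    have h1 : R.map N.subtype ≤ pPrimeCore p X := by
      apply le_pPrimeCore
      · exact normal_map_of_char hN _ (pPrimeCore_char p)
      · rw [Subgroup.card_map_of_injective N.subtype_injective]
        exact hRc
    rw [h.2, le_bot_iff] at h1
    rw [← le_bot_iff]
    intro x hx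
    have h2 : (x : X) ∈ R.map N.subtype := ⟨x, hx, rfl⟩
    rw [h1, Subgroup.mem_bot] at h2
    rw [Subgroup.mem_bot]
    exact Subtype.ext h2

/-- Extensions by `p`-groups. -/
theorem Pc.ext {X : Type*} [Group X] [Finite X] (N : Subgroup X) (hN : N.Normal) (hq : IsPGroup p (X ⧸ N))
    (h : Pc p N) : Pc p X := by
  have hker : ∀ K : Subgroup X, K.map (QuotientGroup.mk' N) = ⊥ → K ≤ N := by
    intro K hK x hx
    have h2 : (QuotientGroup.mk' N) x ∈ K.map (QuotientGroup.mk' N) := ⟨x, hx, rfl⟩
    rw [hK, Subgroup.mem_bot] at h2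
    exact (QuotientGroup.eq_one_iff x).mp h2
  refine ⟨?_, ?_⟩
  · rw [layer_eq_bot_iff]
    intro L hL
    have hLN : L ≤ N := by
      apply hker
      have hnil : Group.IsNilpotent (L.map (QuotientGroup.mk' N)) :=
        (IsPGroup.to_subgroup hq _).isNilpotent
      apply eq_bot_of_le_commutator_of_isNilpotent _ _ hnil le_rfl
      rw [← Subgroup.map_commutator, qs_commutator_self hL.2]
    exact (layer_eq_bot_iff.mp h.1) _ (isComponent_subgroupOf hLN hL)
  · set R := pPrimeCore p X with hR
    have hRn : R.Normal := pPrimeCore_normal p X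
    have hRc := pPrimeCore_coprime (G := X) p
    have hRN : R ≤ N := by
      apply hker
      rw [← le_bot_iff]
      intro y hy
      obtain ⟨x, hx, rfl⟩ := hy
      obtain ⟨k, hk⟩ := hq (QuotientGroup.mk' N x)
      have h2 : orderOf (QuotientGroup.mk' N x) ∣ p ^ k := orderOf_dvd_of_pow_eq_one hk
      have h3 : orderOf (QuotientGroup.mk' N x) ∣ orderOf x := orderOf_map_dvd _ x
      have h4 : orderOf x ∣ Nat.card R := by
        have := orderOf_dvd_natCard (⟨x, hx⟩ : R)
        rwa [Subgroup.orderOf_mk] at this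
      have h5 : Nat.Coprime (p ^ k) (orderOf x) :=
        Nat.Coprime.pow_left k (Nat.Coprime.coprime_dvd_right h4 hRc.symm)
      rw [Subgroup.mem_bot]
      exact orderOf_eq_one_iff.mp (Nat.eq_one_of_dvd_coprimes h5 h2 h3)
    have h1 : R.subgroupOf N ≤ pPrimeCore p N := by
      apply le_pPrimeCore
      · exact Subgroup.Normal.subgroupOf hRn N
      · rw [Nat.card_congr (Subgroup.subgroupOfEquivOfLe hRN).toEquiv]
        exact hRc
    rw [h.2, le_bot_iff] at h1
    rw [← le_bot_iff]
    intro x hx
    have h2 : (⟨x, hRN hx⟩ : N) ∈ R.subgroupOf N := Subgroup.mem_subgroupOf.mpr hx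
    rw [h1, Subgroup.mem_bot] at h2
    rw [Subgroup.mem_bot]
    exact congrArg Subtype.val h2

/-- Normalizers of `p`-subgroups. -/
theorem Pc.normalizer {X : Type*} [Group X] [Finite X] (h : Pc p X) (P : Subgroup X) (hP : IsPGroup p P) :
    Pc p (Subgroup.normalizer (P : Set X)) := by
  have hF : generalizedFittingSubgroup X = pCore p X := by
    unfold generalizedFittingSubgroup
    rw [h.1, bot_sup_eq, fitting_eq_pCore_of_pPrimeCore_eq_bot p h.2]
  exact Fstar_normalizer_aux hF P hP

/-- Centralizers of `p`-subgroups. -/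
theorem Pc.centralizer {X : Type*} [Group X] [Finite X] (h : Pc p X) (P : Subgroup X) (hP : IsPGroup p P) :
    Pc p (Subgroup.centralizer (P : Set X)) := by
  have h1 := h.normalizer P hP
  set N := Subgroup.normalizer (P : Set X) with hN
  set C := Subgroup.centralizer (P : Set X) with hC
  have hCN : C ≤ N := Subgroup.centralizer_le_normalizer _
  have hn : (C.subgroupOf N).Normal := by
    constructor
    intro n hn g
    rw [Subgroup.mem_subgroupOf] at hn ⊢
    rw [hC, Subgroup.mem_centralizer_iff] at hn ⊢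
    intro y hy
    have h2 := (Subgroup.mem_normalizer_iff.mp g.2 ((g : X)⁻¹ * y * g)).mpr (by
      simpa [mul_assoc] using hy)
    have h3 := hn _ h2
    simp only [Subgroup.coe_mul, InvMemClass.coe_inv]
    have e : y = (g : X) * ((g : X)⁻¹ * y * g) * (g : X)⁻¹ := by group
    rw [e]
    calc (g : X) * ((g : X)⁻¹ * y * g) * (g : X)⁻¹ * ((g : X) * (n : X) * (g : X)⁻¹)
        = (g : X) * (((g : X)⁻¹ * y * g) * n) * (g : X)⁻¹ := by group
      _ = (g : X) * (n * ((g : X)⁻¹ * y * g)) * (g : X)⁻¹ := by rw [h3]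
      _ = _ := by group
  have h2 := Pc.normal (p := p) (C.subgroupOf N) hn h1
  exact Pc.of_equiv (Subgroup.subgroupOfEquivOfLe hCN).symm h2

section chain

variable {G : Type*} [Group G] [Finite G]

theorem centralizer_normalized {V W : Subgroup G} (hn : W ≤ Subgroup.normalizer (V : Set G)) :
    W ≤ Subgroup.normalizer (Subgroup.centralizer (V : Set G) : Set G) := by
  intro g hg
  rw [Subgroup.mem_normalizer_iff]
  have key : ∀ g ∈ W, ∀ x ∈ Subgroup.centralizer (V : Set G), g * x * g⁻¹ ∈ Subgroup.centralizer (V : Set G) := by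
    intro g hg x hx
    rw [Subgroup.mem_centralizer_iff] at hx ⊢
    intro v hv
    have h1 : g⁻¹ * v * g ∈ V := by
      have := (Subgroup.mem_normalizer_iff.mp (hn hg) (g⁻¹ * v * g)).mpr (by
        simpa [mul_assoc] using hv)
      exact this
    have h2 := hx _ h1
    calc v * (g * x * g⁻¹) = g * ((g⁻¹ * v * g) * x) * g⁻¹ := by group
      _ = g * (x * (g⁻¹ * v * g)) * g⁻¹ := by rw [h2]
      _ = g * x * g⁻¹ * v := by group
  intro x
  constructor
  · exact key g hg x
  · intro h
    have := key g⁻¹ (W.inv_mem hg) _ h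
    simpa [mul_assoc] using this

theorem step {V W : Subgroup G} (hVW : V ≤ W) (hW : IsPGroup p W)
    (hn : W ≤ Subgroup.normalizer (V : Set G)) (h : Pc p (Subgroup.centralizer (V : Set G))) :
    Pc p (Subgroup.centralizer (W : Set G)) := by
  set C := Subgroup.centralizer (V : Set G) with hC
  have hWC : W ≤ Subgroup.normalizer (C : Set G) := centralizer_normalized hn
  set Y := C ⊔ W with hY
  have hCY : C ≤ Y := le_sup_left
  have hWY : W ≤ Y := le_sup_right
  have hYN : Y ≤ Subgroup.normalizer (C : Set G) := sup_le Subgroup.le_normalizer hWC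
  set N₀ := C.subgroupOf Y with hN₀
  have hN₀n : N₀.Normal := by
    constructor
    intro n hn' g
    rw [Subgroup.mem_subgroupOf] at hn' ⊢
    exact (Subgroup.mem_normalizer_iff.mp (hYN g.2) n).mp hn'
  have hq : IsPGroup p (Y ⧸ N₀) := by
    intro q
    obtain ⟨y, rfl⟩ := QuotientGroup.mk_surjective q
    obtain ⟨k, hk, a, ha, hka⟩ := (Cfsg.Agent.Lib.H1Cop.mem_sup_iff hWC).mp y.2
    obtain ⟨j, hj⟩ := hW ⟨a, ha⟩
    refine ⟨j, ?_⟩
    have e : (y : Y ⧸ N₀) = ((⟨a, hWY ha⟩ : Y) : Y ⧸ N₀) := by
      rw [QuotientGroup.eq, hN₀, Subgroup.mem_subgroupOf]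
      have h1 : (y : G) = k * a := hka.symm
      have h2 : ((y⁻¹ * ⟨a, hWY ha⟩ : Y) : G) = a⁻¹ * k⁻¹ * a := by
        simp [h1]
      rw [h2]
      have := (Subgroup.mem_normalizer_iff.mp (hWC (W.inv_mem ha)) k⁻¹).mp (C.inv_mem hk)
      simpa using this
    rw [e, ← QuotientGroup.mk_pow]
    have h3 : (⟨a, hWY ha⟩ : Y) ^ p ^ j = 1 := by
      apply Subtype.ext
      have h4 := congrArg Subtype.val hj
      simpa using h4
    rw [h3]
    rfl
  have hN₀pc : Pc p N₀ := Pc.of_equiv (Subgroup.subgroupOfEquivOfLe hCY) h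
  have hYpc : Pc p Y := Pc.ext N₀ hN₀n hq hN₀pc
  set W' := W.subgroupOf Y with hW'
  have hW'p : IsPGroup p W' := hW.comap_of_injective Y.subtype Subtype.coe_injective
  have h1 := hYpc.centralizer W' hW'p
  let f : Subgroup.centralizer (W' : Set Y) →* Subgroup.centralizer (W : Set G) :=
    { toFun := fun c => ⟨c.1.1, by
        rw [Subgroup.mem_centralizer_iff]
        intro w hw
        have := (Subgroup.mem_centralizer_iff.mp c.2) ⟨w, hWY hw⟩ (Subgroup.mem_subgroupOf.mpr hw)
        exact congrArg Subtype.val this⟩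
      map_one' := rfl
      map_mul' := fun _ _ => rfl }
  have hf : Function.Bijective f := by
    constructor
    · intro a b hab
      apply Subtype.ext
      apply Subtype.ext
      have h2 : ((f a : Subgroup.centralizer (W : Set G)) : G) = f b := congrArg Subtype.val hab
      exact h2
    · rintro ⟨x, hx⟩
      have hxC : x ∈ C := by
        rw [hC, Subgroup.mem_centralizer_iff]
        intro v hv
        exact (Subgroup.mem_centralizer_iff.mp hx) v (hVW hv)
      refine ⟨⟨⟨x, hCY hxC⟩, ?_⟩, rfl⟩
      rw [Subgroup.mem_centralizer_iff]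
      intro w hw
      apply Subtype.ext
      exact (Subgroup.mem_centralizer_iff.mp hx) w.1 (Subgroup.mem_subgroupOf.mp hw)
  exact Pc.of_equiv (MulEquiv.ofBijective f hf).symm h1

theorem chain {U : Subgroup G} (hU : IsPGroup p U) :
    ∀ (n : ℕ) (V : Subgroup G), V ≤ U → Nat.card U - Nat.card V = n →
      Pc p (Subgroup.centralizer (V : Set G)) → Pc p (Subgroup.centralizer (U : Set G)) := by
  intro n
  induction n using Nat.strong_induction_on with
  | _ n ih =>
    intro V hVU hn h
    by_cases hVe : V = U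
    · rw [← hVe]; exact h
    · have hlt : V < U := lt_of_le_of_ne hVU hVe
      have h1 := lt_inf_normalizer (p := p) U V hU hlt
      set W := U ⊓ Subgroup.normalizer (V : Set G) with hW
      have hWU : W ≤ U := inf_le_left
      have hWp : IsPGroup p W := IsPGroup.to_le hU hWU
      have h2 := step h1.le hWp inf_le_right h
      have hcard : Nat.card V < Nat.card W :=
        lt_of_le_of_ne (Subgroup.card_le_of_le h1.le) (fun h3 => h1.ne (Subgroup.eq_of_le_of_card_ge h1.le h3.ge))
      have hcard2 : Nat.card W ≤ Nat.card U := Subgroup.card_le_of_le hWU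
      exact ih (Nat.card U - Nat.card W) (by omega) W hWU rfl h2

end chain

end Cfsg.Agent.Lib.H9PConstr
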