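import Cfsg.Agent.Lib.H9ZU
import Cfsg.Agent.Lib.H1Cop

/-!
# Invariant Sylow subgroups for an isolated involution
-/

set_option autoImplicit false
set_option linter.unusedVariables false
set_option linter.unusedSectionVars false
set_option linter.style.longLine false

open Cfsg Cfsg.Agent.Lib.H9ZS Cfsg.Agent.Lib.H1Cop

namespace Cfsg.Agent.Lib.H9ZV

variable {G : Type*} [Group G] [Finite G]

theorem mk_conj {z : G} (hzo : orderOf z = 2) (hiso : IsIsolatedInvolution z) (h : G) :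
    (QuotientGroup.mk' (oddCore G)) (z * h * z⁻¹) = QuotientGroup.mk' (oddCore G) h := by
  have h1 := zstar G z hzo (by
    intro g hg
    exact hiso.2 g (by simpa [commute_iff_eq] using hg)) h
  have h2 : (QuotientGroup.mk' (oddCore G)) (z * h * z⁻¹ * h⁻¹) = 1 := (QuotientGroup.eq_one_iff _).mpr h1
  rw [map_mul, map_inv, mul_inv_eq_one] at h2
  exact h2

theorem exists_invariant_sylow {z : G} (hz : IsIsolatedInvolution z) {p : ℕ} [Fact p.Prime] (hp : p ≠ 2)
    (Q : Subgroup G) (hQ : IsPGroup p Q) (hzQ : z ∈ Subgroup.normalizer (Q : Set G)) :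
    ∃ P : Sylow p G, Q ≤ (P : Subgroup G) ∧ z ∈ Subgroup.normalizer ((P : Subgroup G) : Set G) := by
  classical
  haveI : Fact (Nat.Prime 2) := ⟨Nat.prime_two⟩
  have hzo := hz.1
  set N := oddCore G with hN
  haveI hNn : N.Normal := Cfsg.Agent.Lib.H1Core.pPrimeCore_normal 2 G
  let π := QuotientGroup.mk' N
  obtain ⟨T, hT⟩ := (hQ.map π).exists_le_sylow
  set Y := (T : Subgroup (G ⧸ N)).comap π with hY
  have hQY : Q ≤ Y := fun q hq => hT ⟨q, hq, rfl⟩
  have hzY : z ∈ Subgroup.normalizer (Y : Set G) := by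
    rw [Subgroup.mem_normalizer_iff]
    intro h
    show π h ∈ (T : Subgroup (G ⧸ N)) ↔ π (z * h * z⁻¹) ∈ (T : Subgroup (G ⧸ N))
    rw [show π (z * h * z⁻¹) = π h from mk_conj hzo hz h]
  have hodd : ¬ 2 ∣ Nat.card Y := by
    intro hd
    obtain ⟨x, hx⟩ := exists_prime_orderOf_dvd_card' 2 hd
    have hxo : orderOf (x : G) = 2 := by
      rw [Subgroup.orderOf_coe]; exact hx
    have hxY : π (x : G) ∈ (T : Subgroup (G ⧸ N)) := x.2
    obtain ⟨k, hk⟩ := T.2 ⟨_, hxY⟩
    have h1 : (π (x : G)) ^ p ^ k = 1 := congrArg Subtype.val hk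
    have h2 : (π (x : G)) ^ 2 = 1 := by rw [← map_pow, ← hxo, pow_orderOf_eq_one, map_one]
    have hc : Nat.gcd 2 (p ^ k) = 1 := Nat.Coprime.pow_right k ((Nat.coprime_primes Nat.prime_two (Fact.out)).mpr (Ne.symm hp))
    have h3 : orderOf (π (x : G)) ∣ 1 := by
      rw [← hc]
      exact Nat.dvd_gcd (orderOf_dvd_of_pow_eq_one h2) (orderOf_dvd_of_pow_eq_one h1)
    have h4 : π (x : G) = 1 := orderOf_eq_one_iff.mp (Nat.dvd_one.mp h3)
    have h5 : (x : G) ∈ N := (QuotientGroup.eq_one_iff _).mp h4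
    have h6 := odd_order_of_mem_core h5
    rw [hxo] at h6
    exact absurd h6 (by decide)
  have hAK : Subgroup.zpowers z ≤ Subgroup.normalizer (Y : Set G) := Subgroup.zpowers_le.mpr hzY
  have hAQ : Subgroup.zpowers z ≤ Subgroup.normalizer (Q : Set G) := Subgroup.zpowers_le.mpr hzQ
  have hcop : (Nat.card (Subgroup.zpowers z)).Coprime (Nat.card Y) := by
    rw [Nat.card_zpowers, hzo]
    exact (Nat.Prime.coprime_iff_not_dvd Nat.prime_two).mpr hodd
  have hsolv : Group.IsSolvable (Subgroup.zpowers z) ∨ Group.IsSolvable Y := Or.inl inferInstance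
  obtain ⟨R, hR, hQR, hAR⟩ := exists_invariant_sylow_containing hAK hcop hsolv p hQY hQ hAQ
  obtain ⟨hRY, hRp, hRi⟩ := hR
  have hind : ¬ p ∣ R.index := by
    rw [← Subgroup.relIndex_mul_index hRY]
    intro hd
    rcases (Nat.Prime.dvd_mul (Fact.out)).mp hd with h | h
    · exact hRi h
    · rw [hY, Subgroup.index_comap_of_surjective _ (QuotientGroup.mk'_surjective N)] at h
      exact T.not_dvd_index h
  refine ⟨hRp.toSylow hind, ?_, ?_⟩
  · exact hQR
  · exact hAR (Subgroup.mem_zpowers z)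

end Cfsg.Agent.Lib.H9ZV
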