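import Cfsg.Agent.Lib.HeND
set_option autoImplicit false
set_option maxRecDepth 1000000
namespace Cfsg.Agent.Lib.HeND
open Cfsg.Agent.Lib.PChain Cfsg.Agent.Lib.PermChain Cfsg.Agent.Lib.PermChain2

theorem cL_0 : allR (letterY dD) 0 1 = true := by decide +kernel
theorem cL_1 : allR (letterY dD) 1 2 = true := by decide +kernel
theorem cL_2 : allR (letterY dD) 2 3 = true := by decide +kernel
theorem cL_3 : allR (letterY dD) 3 4 = true := by decide +kernel
theorem cL_4 : allR (letterY dD) 4 5 = true := by decide +kernel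
theorem cL_5 : allR (letterY dD) 5 6 = true := by decide +kernel
theorem cL_6 : allR (letterY dD) 6 7 = true := by decide +kernel
theorem cL_7 : allR (letterY dD) 7 8 = true := by decide +kernel
theorem cL_8 : allR (letterY dD) 8 9 = true := by decide +kernel
theorem cL_9 : allR (letterY dD) 9 10 = true := by decide +kernel
theorem cL : RangeOK (letterY dD) 0 10 := ((((((((((RangeOK.of_allR cL_0)).trans (RangeOK.of_allR cL_1)).trans (RangeOK.of_allR cL_2)).trans (RangeOK.of_allR cL_3)).trans (RangeOK.of_allR cL_4)).trans (RangeOK.of_allR cL_5)).trans (RangeOK.of_allR cL_6)).trans (RangeOK.of_allR cL_7)).trans (RangeOK.of_allR cL_8)).trans (RangeOK.of_allR cL_9)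
theorem cB : baseOK dD = true := by decide +kernel
theorem cN : numOK dD = true := by decide +kernel
theorem cS : shapeOK (cd dD) = true := by decide +kernel
theorem cH0_0 : allR (hwY dD 0) 2 3 = true := by decide +kernel
theorem cH0_1 : allR (hwY dD 0) 3 4 = true := by decide +kernel
theorem cH0 : RangeOK (hwY dD 0) 2 4 := ((RangeOK.of_allR cH0_0)).trans (RangeOK.of_allR cH0_1)
theorem cH1_0 : allR (hwY dD 1) 4 5 = true := by decide +kernel
theorem cH1_1 : allR (hwY dD 1) 5 6 = true := by decide +kernel
theorem cH1 : RangeOK (hwY dD 1) 4 6 := ((RangeOK.of_allR cH1_0)).trans (RangeOK.of_allR cH1_1)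
theorem cH : hwAll dD := by
  intro j hj
  have hj' : j < 3 := hj
  interval_cases j
  · exact cH0
  · exact cH1
  · exact RangeOK.nil _ _
theorem cV0_0 : allR (levelP (cd dD) 0) 0 512 = true := by decide +kernel
theorem cV0_1 : allR (levelP (cd dD) 0) 512 1024 = true := by decide +kernel
theorem cV0_2 : allR (levelP (cd dD) 0) 1024 1360 = true := by decide +kernel
theorem cV0 : RangeOK (levelP (cd dD) 0) 0 1360 := (((RangeOK.of_allR cV0_0)).trans (RangeOK.of_allR cV0_1)).trans (RangeOK.of_allR cV0_2)
theorem cV1_0 : allR (levelP (cd dD) 1) 1360 1366 = true := by decide +kernel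
theorem cV1 : RangeOK (levelP (cd dD) 1) 1360 1366 := (RangeOK.of_allR cV1_0)
theorem cV2_0 : allR (levelP (cd dD) 2) 1366 1486 = true := by decide +kernel
theorem cV2 : RangeOK (levelP (cd dD) 2) 1366 1486 := (RangeOK.of_allR cV2_0)
theorem cV : ∀ j, j < dD.k → RangeOK (levelP (cd dD) j) (dD.off j) (dD.off (j + 1)) := by
  intro j hj
  have hj' : j < 3 := hj
  interval_cases j
  · exact cV0
  · exact cV1
  · exact cV2
theorem gP0_0 : allR (presV dD gE 0) 0 256 = true := by decide +kernel
theorem gP0_1 : allR (presV dD gE 0) 256 512 = true := by decide +kernel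
theorem gP0_2 : allR (presV dD gE 0) 512 768 = true := by decide +kernel
theorem gP0_3 : allR (presV dD gE 0) 768 1024 = true := by decide +kernel
theorem gP0_4 : allR (presV dD gE 0) 1024 1280 = true := by decide +kernel
theorem gP0_5 : allR (presV dD gE 0) 1280 1536 = true := by decide +kernel
theorem gP0_6 : allR (presV dD gE 0) 1536 1792 = true := by decide +kernel
theorem gP0_7 : allR (presV dD gE 0) 1792 2048 = true := by decide +kernel
theorem gP0_8 : allR (presV dD gE 0) 2048 2304 = true := by decide +kernel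
theorem gP0_9 : allR (presV dD gE 0) 2304 2314 = true := by decide +kernel
theorem gP0 : RangeOK (presV dD gE 0) 0 2314 := ((((((((((RangeOK.of_allR gP0_0)).trans (RangeOK.of_allR gP0_1)).trans (RangeOK.of_allR gP0_2)).trans (RangeOK.of_allR gP0_3)).trans (RangeOK.of_allR gP0_4)).trans (RangeOK.of_allR gP0_5)).trans (RangeOK.of_allR gP0_6)).trans (RangeOK.of_allR gP0_7)).trans (RangeOK.of_allR gP0_8)).trans (RangeOK.of_allR gP0_9)
theorem gP1_0 : allR (presV dD gE 1) 0 256 = true := by decide +kernel
theorem gP1_1 : allR (presV dD gE 1) 256 512 = true := by decide +kernel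
theorem gP1_2 : allR (presV dD gE 1) 512 768 = true := by decide +kernel
theorem gP1_3 : allR (presV dD gE 1) 768 1024 = true := by decide +kernel
theorem gP1_4 : allR (presV dD gE 1) 1024 1280 = true := by decide +kernel
theorem gP1_5 : allR (presV dD gE 1) 1280 1536 = true := by decide +kernel
theorem gP1_6 : allR (presV dD gE 1) 1536 1792 = true := by decide +kernel
theorem gP1_7 : allR (presV dD gE 1) 1792 2048 = true := by decide +kernel
theorem gP1_8 : allR (presV dD gE 1) 2048 2304 = true := by decide +kernel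
theorem gP1_9 : allR (presV dD gE 1) 2304 2314 = true := by decide +kernel
theorem gP1 : RangeOK (presV dD gE 1) 0 2314 := ((((((((((RangeOK.of_allR gP1_0)).trans (RangeOK.of_allR gP1_1)).trans (RangeOK.of_allR gP1_2)).trans (RangeOK.of_allR gP1_3)).trans (RangeOK.of_allR gP1_4)).trans (RangeOK.of_allR gP1_5)).trans (RangeOK.of_allR gP1_6)).trans (RangeOK.of_allR gP1_7)).trans (RangeOK.of_allR gP1_8)).trans (RangeOK.of_allR gP1_9)
theorem gP : ∀ x, dD.lt 0 ≤ x → x < dD.lt 1 → RangeOK (presV dD gE x) 0 dD.N := by
  intro x h1 h2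
  have h1' : 0 ≤ x := h1
  have h2' : x < 2 := h2
  interval_cases x
  · exact gP0
  · exact gP1
theorem gS_0 : allR (setY dD gE) 0 109 = true := by decide +kernel
theorem gS : RangeOK (setY dD gE) 0 109 := (RangeOK.of_allR gS_0)
theorem gD_0 : allR (pointY dD gE) 0 2314 = true := by decide +kernel
theorem gD : RangeOK (pointY dD gE) 0 2314 := (RangeOK.of_allR gD_0)
theorem gG : GCert dD gE where
  pres := gP
  sets := gS
  points := gD

theorem cert : Cert dD where
  letters := cL
  base := cB
  hw := cH
  num := cN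
  shape := cS
  levels := cV
  faith := faith_of_graph cL cB gG


end Cfsg.Agent.Lib.HeND
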