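import Cfsg.Agent.Lib.HePD
set_option autoImplicit false
set_option maxRecDepth 1000000
namespace Cfsg.Agent.Lib.HePD
open Cfsg.Agent.Lib.PChain Cfsg.Agent.Lib.PermChain Cfsg.Agent.Lib.PermChain2

theorem cL_0 : allR (letterY dD) 0 1 = true := by decide +kernel
theorem cL_1 : allR (letterY dD) 1 2 = true := by decide +kernel
theorem cL_2 : allR (letterY dD) 2 3 = true := by decide +kernel
theorem cL_3 : allR (letterY dD) 3 4 = true := by decide +kernel
theorem cL_4 : allR (letterY dD) 4 5 = true := by decide +kernel
theorem cL_5 : allR (letterY dD) 5 6 = true := by decide +kernel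
theorem cL_6 : allR (letterY dD) 6 7 = true := by decide +kernel
theorem cL_7 : allR (letterY dD) 7 8 = true := by decide +kernel
theorem cL_8 : allR (letterY dD) 8 9 = true := by decide +kernel
theorem cL_9 : allR (letterY dD) 9 10 = true := by decide +kernel
theorem cL_10 : allR (letterY dD) 10 11 = true := by decide +kernel
theorem cL_11 : allR (letterY dD) 11 12 = true := by decide +kernel
theorem cL_12 : allR (letterY dD) 12 13 = true := by decide +kernel
theorem cL_13 : allR (letterY dD) 13 14 = true := by decide +kernel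
theorem cL_14 : allR (letterY dD) 14 15 = true := by decide +kernel
theorem cL_15 : allR (letterY dD) 15 16 = true := by decide +kernel
theorem cL_16 : allR (letterY dD) 16 17 = true := by decide +kernel
theorem cL_17 : allR (letterY dD) 17 18 = true := by decide +kernel
theorem cL_18 : allR (letterY dD) 18 19 = true := by decide +kernel
theorem cL_19 : allR (letterY dD) 19 20 = true := by decide +kernel
theorem cL : RangeOK (letterY dD) 0 20 := ((((((((((((((((((((RangeOK.of_allR cL_0)).trans (RangeOK.of_allR cL_1)).trans (RangeOK.of_allR cL_2)).trans (RangeOK.of_allR cL_3)).trans (RangeOK.of_allR cL_4)).trans (RangeOK.of_allR cL_5)).trans (RangeOK.of_allR cL_6)).trans (RangeOK.of_allR cL_7)).trans (RangeOK.of_allR cL_8)).trans (RangeOK.of_allR cL_9)).trans (RangeOK.of_allR cL_10)).trans (RangeOK.of_allR cL_11)).trans (RangeOK.of_allR cL_12)).trans (RangeOK.of_allR cL_13)).trans (RangeOK.of_allR cL_14)).trans (RangeOK.of_allR cL_15)).trans (RangeOK.of_allR cL_16)).trans (RangeOK.of_allR cL_17)).trans (RangeOK.of_allR cL_18)).trans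 (RangeOK.of_allR cL_19)
theorem cB : baseOK dD = true := by decide +kernel
theorem cN : numOK dD = true := by decide +kernel
theorem cS : shapeOK (cd dD) = true := by decide +kernel
theorem cH0_0 : allR (hwY dD 0) 2 3 = true := by decide +kernel
theorem cH0_1 : allR (hwY dD 0) 3 4 = true := by decide +kernel
theorem cH0 : RangeOK (hwY dD 0) 2 4 := ((RangeOK.of_allR cH0_0)).trans (RangeOK.of_allR cH0_1)
theorem cH1_0 : allR (hwY dD 1) 4 5 = true := by decide +kernel
theorem cH1_1 : allR (hwY dD 1) 5 6 = true := by decide +kernel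
theorem cH1 : RangeOK (hwY dD 1) 4 6 := ((RangeOK.of_allR cH1_0)).trans (RangeOK.of_allR cH1_1)
theorem cH2_0 : allR (hwY dD 2) 6 7 = true := by decide +kernel
theorem cH2_1 : allR (hwY dD 2) 7 8 = true := by decide +kernel
theorem cH2_2 : allR (hwY dD 2) 8 9 = true := by decide +kernel
theorem cH2 : RangeOK (hwY dD 2) 6 9 := (((RangeOK.of_allR cH2_0)).trans (RangeOK.of_allR cH2_1)).trans (RangeOK.of_allR cH2_2)
theorem cH3_0 : allR (hwY dD 3) 9 10 = true := by decide +kernel
theorem cH3_1 : allR (hwY dD 3) 10 11 = true := by decide +kernel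
theorem cH3 : RangeOK (hwY dD 3) 9 11 := ((RangeOK.of_allR cH3_0)).trans (RangeOK.of_allR cH3_1)
theorem cH : hwAll dD := by
  intro j hj
  have hj' : j < 5 := hj
  interval_cases j
  · exact cH0
  · exact cH1
  · exact cH2
  · exact cH3
  · exact RangeOK.nil _ _
theorem cV0_0 : allR (levelP (cd dD) 0) 0 256 = true := by decide +kernel
theorem cV0_1 : allR (levelP (cd dD) 0) 256 512 = true := by decide +kernel
theorem cV0_2 : allR (levelP (cd dD) 0) 512 768 = true := by decide +kernel
theorem cV0_3 : allR (levelP (cd dD) 0) 768 1024 = true := by decide +kernel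
theorem cV0_4 : allR (levelP (cd dD) 0) 1024 1280 = true := by decide +kernel
theorem cV0_5 : allR (levelP (cd dD) 0) 1280 1536 = true := by decide +kernel
theorem cV0_6 : allR (levelP (cd dD) 0) 1536 1792 = true := by decide +kernel
theorem cV0_7 : allR (levelP (cd dD) 0) 1792 2048 = true := by decide +kernel
theorem cV0_8 : allR (levelP (cd dD) 0) 2048 2058 = true := by decide +kernel
theorem cV0 : RangeOK (levelP (cd dD) 0) 0 2058 := (((((((((RangeOK.of_allR cV0_0)).trans (RangeOK.of_allR cV0_1)).trans (RangeOK.of_allR cV0_2)).trans (RangeOK.of_allR cV0_3)).trans (RangeOK.of_allR cV0_4)).trans (RangeOK.of_allR cV0_5)).trans (RangeOK.of_allR cV0_6)).trans (RangeOK.of_allR cV0_7)).trans (RangeOK.of_allR cV0_8)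
theorem cV1_0 : allR (levelP (cd dD) 1) 2058 2194 = true := by decide +kernel
theorem cV1 : RangeOK (levelP (cd dD) 1) 2058 2194 := (RangeOK.of_allR cV1_0)
theorem cV2_0 : allR (levelP (cd dD) 2) 2194 2230 = true := by decide +kernel
theorem cV2 : RangeOK (levelP (cd dD) 2) 2194 2230 := (RangeOK.of_allR cV2_0)
theorem cV3_0 : allR (levelP (cd dD) 3) 2230 2240 = true := by decide +kernel
theorem cV3 : RangeOK (levelP (cd dD) 3) 2230 2240 := (RangeOK.of_allR cV3_0)
theorem cV4_0 : allR (levelP (cd dD) 4) 2240 2280 = true := by decide +kernel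
theorem cV4 : RangeOK (levelP (cd dD) 4) 2240 2280 := (RangeOK.of_allR cV4_0)
theorem cV : ∀ j, j < dD.k → RangeOK (levelP (cd dD) j) (dD.off j) (dD.off (j + 1)) := by
  intro j hj
  have hj' : j < 5 := hj
  interval_cases j
  · exact cV0
  · exact cV1
  · exact cV2
  · exact cV3
  · exact cV4
theorem gP0_0 : allR (presV dD gE 0) 0 256 = true := by decide +kernel
theorem gP0_1 : allR (presV dD gE 0) 256 512 = true := by decide +kernel
theorem gP0_2 : allR (presV dD gE 0) 512 768 = true := by decide +kernel
theorem gP0_3 : allR (presV dD gE 0) 768 1024 = true := by decide +kernel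
theorem gP0_4 : allR (presV dD gE 0) 1024 1280 = true := by decide +kernel
theorem gP0_5 : allR (presV dD gE 0) 1280 1536 = true := by decide +kernel
theorem gP0_6 : allR (presV dD gE 0) 1536 1792 = true := by decide +kernel
theorem gP0_7 : allR (presV dD gE 0) 1792 2048 = true := by decide +kernel
theorem gP0_8 : allR (presV dD gE 0) 2048 2058 = true := by decide +kernel
theorem gP0 : RangeOK (presV dD gE 0) 0 2058 := (((((((((RangeOK.of_allR gP0_0)).trans (RangeOK.of_allR gP0_1)).trans (RangeOK.of_allR gP0_2)).trans (RangeOK.of_allR gP0_3)).trans (RangeOK.of_allR gP0_4)).trans (RangeOK.of_allR gP0_5)).trans (RangeOK.of_allR gP0_6)).trans (RangeOK.of_allR gP0_7)).trans (RangeOK.of_allR gP0_8)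
theorem gP1_0 : allR (presV dD gE 1) 0 256 = true := by decide +kernel
theorem gP1_1 : allR (presV dD gE 1) 256 512 = true := by decide +kernel
theorem gP1_2 : allR (presV dD gE 1) 512 768 = true := by decide +kernel
theorem gP1_3 : allR (presV dD gE 1) 768 1024 = true := by decide +kernel
theorem gP1_4 : allR (presV dD gE 1) 1024 1280 = true := by decide +kernel
theorem gP1_5 : allR (presV dD gE 1) 1280 1536 = true := by decide +kernel
theorem gP1_6 : allR (presV dD gE 1) 1536 1792 = true := by decide +kernel
theorem gP1_7 : allR (presV dD gE 1) 1792 2048 = true := by decide +kernel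
theorem gP1_8 : allR (presV dD gE 1) 2048 2058 = true := by decide +kernel
theorem gP1 : RangeOK (presV dD gE 1) 0 2058 := (((((((((RangeOK.of_allR gP1_0)).trans (RangeOK.of_allR gP1_1)).trans (RangeOK.of_allR gP1_2)).trans (RangeOK.of_allR gP1_3)).trans (RangeOK.of_allR gP1_4)).trans (RangeOK.of_allR gP1_5)).trans (RangeOK.of_allR gP1_6)).trans (RangeOK.of_allR gP1_7)).trans (RangeOK.of_allR gP1_8)
theorem gP : ∀ x, dD.lt 0 ≤ x → x < dD.lt 1 → RangeOK (presV dD gE x) 0 dD.N := by
  intro x h1 h2
  have h1' : 0 ≤ x := h1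
  have h2' : x < 2 := h2
  interval_cases x
  · exact gP0
  · exact gP1
theorem gS_0 : allR (setY dD gE) 0 71 = true := by decide +kernel
theorem gS : RangeOK (setY dD gE) 0 71 := (RangeOK.of_allR gS_0)
theorem gD_0 : allR (pointY dD gE) 0 2058 = true := by decide +kernel
theorem gD : RangeOK (pointY dD gE) 0 2058 := (RangeOK.of_allR gD_0)
theorem gG : GCert dD gE where
  pres := gP
  sets := gS
  points := gD

theorem cert : Cert dD where
  letters := cL
  base := cB
  hw := cH
  num := cN
  shape := cS
  levels := cV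
  faith := faith_of_graph cL cB gG

theorem sT : transOK dD = true := by decide +kernel
theorem sF : subOK dD sS = true := by decide +kernel
theorem sR : rootsOK dD sS = true := by decide +kernel
theorem sV : trivOK dD sS = true := by decide +kernel
theorem sD : divOK dD sS = true := by decide +kernel
theorem sP0_0 : allR (powY dD 7 0) 0 2048 = true := by decide +kernel
theorem sP0_1 : allR (powY dD 7 0) 2048 2058 = true := by decide +kernel
theorem sP0 : RangeOK (powY dD 7 0) 0 2058 := ((RangeOK.of_allR sP0_0)).trans (RangeOK.of_allR sP0_1)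
theorem sP1_0 : allR (powY dD 7 1) 0 2048 = true := by decide +kernel
theorem sP1_1 : allR (powY dD 7 1) 2048 2058 = true := by decide +kernel
theorem sP1 : RangeOK (powY dD 7 1) 0 2058 := ((RangeOK.of_allR sP1_0)).trans (RangeOK.of_allR sP1_1)
theorem sP : powOK dD 7 := by
  intro x h1 h2
  have h1' : 0 ≤ x := h1
  have h2' : x < 2 := h2
  interval_cases x
  · exact sP0
  · exact sP1

end Cfsg.Agent.Lib.HePD
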