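import Cfsg.Agent.Lib.FieldEmbed

set_option autoImplicit false

namespace Cfsg.Agent.Lib.Heart

open Matrix Cfsg

variable (α : Type) [Fintype α] [DecidableEq α] (F : Type*) [Field F]

/-- The sum of the coordinates. -/
def sumF : (α → F) →ₗ[F] F := ∑ i, LinearMap.proj i

variable {α F}

theorem sumF_apply (v : α → F) : sumF α F v = ∑ i, v i := by
  simp [sumF]

variable (α F)

/-- The even weight vectors. -/
def E : Submodule F (α → F) := LinearMap.ker (sumF α F)

variable {α F}

theorem mem_E {v : α → F} : v ∈ E α F ↔ ∑ i, v i = 0 := by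
  simp [E, sumF_apply]

/-- The permutation action on vectors. -/
def P (g : Equiv.Perm α) : (α → F) →ₗ[F] (α → F) := LinearMap.funLeft F F (⇑g⁻¹)

theorem P_apply (g : Equiv.Perm α) (v : α → F) (i : α) : P g v i = v (g⁻¹ i) := rfl

theorem P_one : (P (1 : Equiv.Perm α) : (α → F) →ₗ[F] (α → F)) = LinearMap.id :=
  LinearMap.ext fun _ => funext fun _ => rfl

theorem P_mul (g h : Equiv.Perm α) : (P (g * h) : (α → F) →ₗ[F] (α → F)) = P g ∘ₗ P h :=
  LinearMap.ext fun _ => funext fun _ => rfl

theorem sum_P (g : Equiv.Perm α) (v : α → F) : ∑ i, P g v i = ∑ i, v i := by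
  simp only [P_apply]
  exact Equiv.sum_comp g⁻¹ v

theorem P_mem (g : Equiv.Perm α) {v : α → F} (hv : v ∈ E α F) : P g v ∈ E α F := by
  rw [mem_E] at hv ⊢
  rw [sum_P, hv]

theorem dot_P (g : Equiv.Perm α) (u v : α → F) : (P g u) ⬝ᵥ (P g v) = u ⬝ᵥ v := by
  simp only [dotProduct, P_apply]
  exact Equiv.sum_comp g⁻¹ (fun i => u i * v i)

section char2

variable [CharP F 2]

theorem one_mem (hc : Even (Fintype.card α)) : (fun _ => 1 : α → F) ∈ E α F := by
  rw [mem_E]
  simp only [Finset.sum_const, Finset.card_univ, nsmul_eq_mul, mul_one]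
  obtain ⟨k, hk⟩ := hc
  rw [hk]
  push_cast
  rw [← two_mul, CharTwo.two_eq_zero, zero_mul]

theorem dot_self {v : α → F} (hv : v ∈ E α F) : v ⬝ᵥ v = 0 := by
  rw [mem_E] at hv
  have h1 : (∑ i, v i) ^ 2 = ∑ i, (v i) ^ 2 := sum_pow_char 2 _ _
  rw [hv] at h1
  simp only [dotProduct]
  have h2 : ∑ i, v i * v i = ∑ i, (v i) ^ 2 := Finset.sum_congr rfl fun i _ => by ring
  rw [h2, ← h1]
  simp

/-- Pair vectors. -/
def pr (i j : α) : α → F := Pi.single i 1 + Pi.single j 1

theorem pr_mem (i j : α) : (pr i j : α → F) ∈ E α F := by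
  rw [mem_E]
  simp only [pr, Pi.add_apply, Finset.sum_add_distrib, Finset.sum_pi_single', Finset.mem_univ, if_true]
  rw [← two_mul, CharTwo.two_eq_zero, zero_mul]

theorem dot_pr (v : α → F) (i j : α) : v ⬝ᵥ (pr i j) = v i + v j := by
  simp [pr, dotProduct_add]

theorem P_pr (g : Equiv.Perm α) (i j : α) : P g (pr i j) = (pr (g i) (g j) : α → F) := by
  ext k
  simp only [P_apply, pr, Pi.add_apply, Pi.single_apply, Equiv.Perm.inv_eq_iff_eq]

variable (hc : Even (Fintype.card α))

variable (F) in
/-- The all-ones vector as an element of `E`. -/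
def oneE : E α F := ⟨fun _ => 1, one_mem hc⟩

variable (F) in
/-- The subspace spanned by the all-ones vector. -/
def L : Submodule F (E α F) := F ∙ (oneE F hc)

theorem mem_L {x : E α F} : x ∈ L F hc ↔ ∃ c : F, c • oneE F hc = x := Submodule.mem_span_singleton

theorem val_L {x : E α F} (hx : x ∈ L F hc) : ∃ c : F, ∀ i, (x : α → F) i = c := by
  obtain ⟨c, rfl⟩ := (mem_L hc).1 hx
  exact ⟨c, fun i => by simp [oneE]⟩

theorem dot_L {x y : E α F} (hx : x ∈ L F hc) : (x : α → F) ⬝ᵥ (y : α → F) = 0 := by
  obtain ⟨c, hc'⟩ := val_L hc hx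
  simp only [dotProduct, hc']
  rw [← Finset.mul_sum, mem_E.1 y.2, mul_zero]

/-- The dot product on `E`. -/
def dotE : E α F →ₗ[F] E α F →ₗ[F] F :=
  LinearMap.mk₂ F (fun x y => (x : α → F) ⬝ᵥ (y : α → F))
    (fun x x' y => by simp [add_dotProduct])
    (fun c x y => by simp [smul_dotProduct])
    (fun x y y' => by simp [dotProduct_add])
    (fun c x y => by simp [dotProduct_smul])

theorem dotE_apply (x y : E α F) : dotE x y = (x : α → F) ⬝ᵥ (y : α → F) := rfl

theorem dot_comm' (x y : α → F) : x ⬝ᵥ y = y ⬝ᵥ x := dotProduct_comm x y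

variable (F) in
/-- The induced form on the heart. -/
noncomputable def B : LinearMap.BilinForm F (E α F ⧸ L F hc) :=
  ((L F hc).liftQ (((L F hc).liftQ dotE (fun x hx => by
      rw [LinearMap.mem_ker]
      ext y
      exact dot_L hc hx)).flip) (fun x hx => by
      rw [LinearMap.mem_ker]
      ext y
      show (y : α → F) ⬝ᵥ (x : α → F) = 0
      rw [dot_comm']
      exact dot_L hc hx)).flip

theorem B_mk (x y : E α F) : B F hc (Submodule.Quotient.mk x) (Submodule.Quotient.mk y) = (x : α → F) ⬝ᵥ (y : α → F) := rfl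

theorem B_alt : (B F hc : LinearMap.BilinForm F (E α F ⧸ L F hc)).IsAlt := by
  intro x
  induction x using Submodule.Quotient.induction_on with
  | H x =>
    rw [B_mk]
    exact dot_self x.2

theorem B_left (x : E α F ⧸ L F hc) (hx : ∀ y, B F hc x y = 0) : x = 0 := by
  induction x using Submodule.Quotient.induction_on with
  | H x =>
    rw [Submodule.Quotient.mk_eq_zero]
    have hpair : ∀ i j, (x : α → F) i + (x : α → F) j = 0 := by
      intro i j
      have := hx (Submodule.Quotient.mk ⟨pr i j, pr_mem i j⟩)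
      rw [B_mk] at this
      rw [← this]
      exact (dot_pr _ i j).symm
    by_cases hne : Nonempty α
    · obtain ⟨a⟩ := hne
      rw [mem_L]
      refine ⟨(x : α → F) a, ?_⟩
      apply Subtype.ext
      funext i
      have h1 := hpair i a
      have h2 : (x : α → F) i = (x : α → F) a := by
        rw [← sub_eq_zero, CharTwo.sub_eq_add]
        exact h1
      simp [oneE, h2]
    · haveI : IsEmpty α := not_nonempty_iff.1 hne
      have : x = 0 := by
        apply Subtype.ext
        funext i
        exact (IsEmpty.false i).elim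
      rw [this]
      exact Submodule.zero_mem _

theorem B_nondeg : (B F hc : LinearMap.BilinForm F (E α F ⧸ L F hc)).Nondegenerate := by
  refine ⟨B_left hc, fun y hy => B_left hc y fun x => ?_⟩
  rw [← (B_alt hc).neg_eq, hy, neg_zero]

/-- The restriction to `E` of the permutation action. -/
def PE (g : Equiv.Perm α) : E α F →ₗ[F] E α F := (P g).restrict (fun _ hv => P_mem g hv)

theorem PE_val (g : Equiv.Perm α) (x : E α F) : ((PE g x : E α F) : α → F) = P g x := rfl

theorem PE_L (g : Equiv.Perm α) : L F hc ≤ (L F hc).comap (PE g) := by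
  intro x hx
  obtain ⟨c, rfl⟩ := (mem_L hc).1 hx
  rw [Submodule.mem_comap, map_smul]
  have : PE g (oneE F hc : E α F) = oneE F hc := by
    apply Subtype.ext
    funext i
    rfl
  rw [this]
  exact Submodule.smul_mem _ _ (Submodule.mem_span_singleton_self _)

variable (F) in
/-- The action on the heart. -/
noncomputable def rho : Equiv.Perm α →* ((E α F ⧸ L F hc) →ₗ[F] (E α F ⧸ L F hc)) where
  toFun g := (L F hc).mapQ (L F hc) (PE g) (PE_L hc g)
  map_one' := by
    ext x
    show Submodule.Quotient.mk _ = Submodule.Quotient.mk x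
    congr 1
  map_mul' a b := by
    ext x
    show Submodule.Quotient.mk _ = Submodule.Quotient.mk _
    congr 1

theorem rho_mk (g : Equiv.Perm α) (x : E α F) : rho F hc g (Submodule.Quotient.mk x) = Submodule.Quotient.mk (PE g x) := rfl

theorem B_rho (g : Equiv.Perm α) (x y : E α F ⧸ L F hc) : B F hc (rho F hc g x) (rho F hc g y) = B F hc x y := by
  induction x using Submodule.Quotient.induction_on with
  | H x =>
    induction y using Submodule.Quotient.induction_on with
    | H y =>
      rw [rho_mk, rho_mk, B_mk, B_mk, PE_val, PE_val, dot_P]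

/-- The action is faithful once there are more than four points. -/
theorem rho_inj (h5 : 5 ≤ Fintype.card α) : Function.Injective (rho F hc : Equiv.Perm α →* ((E α F ⧸ L F hc) →ₗ[F] (E α F ⧸ L F hc))) := by
  intro g h hgh
  -- key relation
  have key : ∀ i j, (pr (g i) (g j) : α → F) = pr (h i) (h j) := by
    intro i j
    have h1 := congrArg (fun T : (E α F ⧸ L F hc) →ₗ[F] (E α F ⧸ L F hc) => T (Submodule.Quotient.mk ⟨pr i j, pr_mem i j⟩)) hgh
    simp only [rho_mk] at h1
    rw [Submodule.Quotient.eq] at h1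
    obtain ⟨c, hc'⟩ := val_L hc h1
    -- a point outside the four
    obtain ⟨k, hk⟩ : ∃ k : α, k ∉ ({g i, g j, h i, h j} : Finset α) := by
      by_contra hcon
      push Not at hcon
      have h2 : Finset.univ ⊆ ({g i, g j, h i, h j} : Finset α) := fun x _ => hcon x
      have h3 := Finset.card_le_card h2
      have h4 : ({g i, g j, h i, h j} : Finset α).card ≤ 4 := Finset.card_le_four
      rw [Finset.card_univ] at h3
      omega
    simp only [Finset.mem_insert, Finset.mem_singleton, not_or] at hk
    have e : ∀ t, (pr (g i) (g j) : α → F) t - pr (h i) (h j) t = c := fun t => by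
      rw [← hc' t]
      show _ = P g (pr i j : α → F) t - P h (pr i j : α → F) t
      rw [P_pr, P_pr]
    have hvalk : c = 0 := by
      rw [← e k]
      simp [pr, Pi.single_apply, hk.1, hk.2.1, hk.2.2.1, hk.2.2.2]
    funext t
    have h6 := e t
    rw [hvalk] at h6
    exact sub_eq_zero.1 h6
  have hone : (1 : F) ≠ 0 := one_ne_zero
  have hij : ∀ i j, i ≠ j → g i = h i ∨ g i = h j := by
    intro i j hne
    have h1 := congrFun (key i j) (g i)
    by_contra hcon
    push Not at hcon
    have hgne : g i ≠ g j := fun e => hne (g.injective e)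
    simp only [pr, Pi.add_apply, Pi.single_apply, if_true, if_neg hgne.symm] at h1
    simp only [if_neg hcon.1, if_neg hcon.2] at h1
    simp [hne] at h1
  apply Equiv.ext
  intro i
  by_contra hne
  -- two further points
  obtain ⟨j, hj⟩ : ∃ j, j ≠ i := by
    have : Nontrivial α := Fintype.one_lt_card_iff_nontrivial.1 (by omega)
    exact exists_ne i
  obtain ⟨k, hk⟩ : ∃ k, k ∉ ({i, j} : Finset α) := by
    by_contra hcon
    push Not at hcon
    have h2 : Finset.univ ⊆ ({i, j} : Finset α) := fun x _ => hcon x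
    have h3 := Finset.card_le_card h2
    have h4 : ({i, j} : Finset α).card ≤ 2 := Finset.card_le_two
    rw [Finset.card_univ] at h3
    omega
  simp only [Finset.mem_insert, Finset.mem_singleton, not_or] at hk
  have h1 := (hij i j hj.symm).resolve_left hne
  have h2 := (hij i k (Ne.symm hk.1)).resolve_left hne
  exact hk.2 (h.injective (h2.symm.trans h1))

theorem finrank_E [Nonempty α] : Module.finrank F (E α F) + 1 = Fintype.card α := by
  have h1 := LinearMap.finrank_range_add_finrank_ker (sumF α F)
  have h2 : LinearMap.range (sumF α F) = ⊤ := by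
    rw [LinearMap.range_eq_top]
    intro c
    obtain ⟨a⟩ := ‹Nonempty α›
    refine ⟨Pi.single a c, ?_⟩
    rw [sumF_apply]
    simp
  rw [h2, finrank_top, Module.finrank_self, Module.finrank_fintype_fun_eq_card] at h1
  have : LinearMap.ker (sumF α F) = E α F := rfl
  rw [this] at h1
  omega

theorem finrank_U [Nonempty α] : Module.finrank F (E α F ⧸ L F hc) + 2 = Fintype.card α := by
  have h1 := Submodule.finrank_quotient_add_finrank (L F hc)
  have h2 : Module.finrank F (L F hc) = 1 := by
    apply finrank_span_singleton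
    intro h0
    have := congrArg (fun x : E α F => (x : α → F) (Classical.arbitrary α)) h0
    simp [oneE] at this
  have h3 := finrank_E (α := α) (F := F)
  omega

/-- The symmetric group of even degree `2n` embeds in `Sp_{2n-2}` in characteristic two. -/
theorem embed_perm (n : ℕ) (hn : Fintype.card α = 2 * (n + 1)) (h5 : 5 ≤ Fintype.card α) :
    ∃ f : Equiv.Perm α →* ↥(Matrix.symplecticGroup (Fin n) F), Function.Injective f := by
  have hc : Even (Fintype.card α) := ⟨n + 1, by omega⟩
  haveI : Nonempty α := Fintype.card_pos_iff.1 (by omega)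
  haveI : FiniteDimensional F (E α F ⧸ L F hc) := inferInstance
  refine Cfsg.Agent.Lib.FieldEmbed.embed_sp n (B F hc) (B_alt hc) (B_nondeg hc) ?_ (rho F hc) (rho_inj hc h5) (B_rho hc)
  have := finrank_U (α := α) (F := F) hc
  omega

end char2

end Cfsg.Agent.Lib.Heart
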