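import Cfsg.Agent.Lib.Heart

set_option autoImplicit false

namespace Cfsg.Agent.Lib.HeartQ

open Matrix Cfsg Cfsg.Agent.Lib.Heart Cfsg.Agent.Lib.FieldEmbed

variable {F : Type*} [Field F] {N : ℕ}

/-- The second elementary symmetric function. -/
def Q0 (v : Fin N → F) : F := ∑ i, ∑ j, if i < j then v i * v j else 0

theorem Q0_eq_sum (v : Fin N → F) :
    Q0 v = ∑ p ∈ (Finset.univ : Finset (Fin N)).offDiag with p.1 < p.2, v p.1 * v p.2 := by
  classical
  unfold Q0
  rw [Finset.sum_filter, ← Finset.sum_product' (f := fun i j => if i < j then v i * v j else 0)]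
  rw [show (Finset.univ : Finset (Fin N)).offDiag = (Finset.univ ×ˢ Finset.univ).filter (fun p => p.1 ≠ p.2) from ?_]
  · rw [Finset.sum_filter]
    refine Finset.sum_congr rfl fun p _ => ?_
    by_cases h : p.1 = p.2
    · simp [h]
    · simp [h]
  · ext p
    simp [Finset.mem_offDiag]

theorem Q0_sym2 (v : Fin N → F) :
    Q0 v = ∑ z ∈ (Finset.univ : Finset (Fin N)).sym2 with ¬ z.IsDiag, Sym2.lift ⟨fun a b => v a * v b, fun a b => mul_comm _ _⟩ z := by
  rw [Q0_eq_sum, Finset.sum_sym2_filter_not_isDiag]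
  refine Finset.sum_congr rfl fun p _ => ?_
  simp

theorem Q0_perm (g : Equiv.Perm (Fin N)) (v : Fin N → F) : Q0 (P g v) = Q0 v := by
  classical
  rw [Q0_sym2, Q0_sym2]
  refine Finset.sum_bij' (fun z _ => Sym2.map (⇑g⁻¹) z) (fun z _ => Sym2.map (⇑g) z) ?_ ?_ ?_ ?_ ?_
  · intro z hz
    simp only [Finset.mem_filter] at hz ⊢
    refine ⟨by simp [Finset.mem_sym2_iff], ?_⟩
    rw [Sym2.isDiag_map g⁻¹.injective]
    exact hz.2
  · intro z hz
    simp only [Finset.mem_filter] at hz ⊢
    refine ⟨by simp [Finset.mem_sym2_iff], ?_⟩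
    rw [Sym2.isDiag_map g.injective]
    exact hz.2
  · intro z _
    simp [Sym2.map_map]
  · intro z _
    simp [Sym2.map_map]
  · intro z _
    induction z using Sym2.ind with
    | _ a b => simp [P_apply]

variable [CharP F 2]

theorem Q0_add (u v : Fin N → F) : Q0 (u + v) = Q0 u + Q0 v + (∑ i, u i) * (∑ i, v i) + u ⬝ᵥ v := by
  have h2 : (2 : F) = 0 := CharTwo.two_eq_zero
  have e1 : Q0 (u + v) = Q0 u + Q0 v + ∑ i, ∑ j, ((if i < j then u i * v j else 0) + if i < j then v i * u j else 0) := by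
    unfold Q0
    simp only [← Finset.sum_add_distrib]
    refine Finset.sum_congr rfl fun i _ => Finset.sum_congr rfl fun j _ => ?_
    split_ifs
    · simp only [Pi.add_apply]
      ring
    · simp
  have e2 : ∑ i, ∑ j, (if i < j then v i * u j else 0) = ∑ i, ∑ j, (if j < i then u i * v j else 0) := by
    rw [Finset.sum_comm]
    refine Finset.sum_congr rfl fun i _ => Finset.sum_congr rfl fun j _ => ?_
    split_ifs
    · ring
    · rfl
  have e3 : (∑ i, u i) * (∑ i, v i) = ∑ i, ∑ j, u i * v j := Finset.sum_mul_sum _ _ _ _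
  have e4 : ∑ i, ∑ j, u i * v j = ∑ i, ∑ j, ((if i < j then u i * v j else 0) + (if j < i then u i * v j else 0) + if i = j then u i * v j else 0) := by
    refine Finset.sum_congr rfl fun i _ => Finset.sum_congr rfl fun j _ => ?_
    rcases lt_trichotomy i j with h | h | h
    · simp [h, h.not_gt, h.ne]
    · simp [h]
    · simp [h, h.not_gt, h.ne']
  have e5 : ∑ i, ∑ j, (if i = j then u i * v j else 0) = u ⬝ᵥ v := by
    simp [dotProduct]
  rw [e1, e3, e4]
  simp only [Finset.sum_add_distrib]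
  rw [e2, e5]
  linear_combination (-(u ⬝ᵥ v)) * h2

theorem Q0_smul (c : F) (v : Fin N → F) : Q0 (c • v) = c ^ 2 * Q0 v := by
  unfold Q0
  simp only [Finset.mul_sum, Pi.smul_apply, smul_eq_mul]
  refine Finset.sum_congr rfl fun i _ => Finset.sum_congr rfl fun j _ => ?_
  split_ifs
  · ring
  · simp

theorem Q0_zero : Q0 (0 : Fin N → F) = 0 := by
  simp [Q0]

theorem Q0_add_E {u v : Fin N → F} (hu : u ∈ E (Fin N) F) (hv : v ∈ E (Fin N) F) : Q0 (u + v) = Q0 u + Q0 v + u ⬝ᵥ v := by
  rw [Q0_add, mem_E.1 hu, zero_mul, add_zero]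

omit [CharP F 2] in
theorem dot_L' {y : Fin N → F} (hy : y ∈ E (Fin N) F) (c : F) : (c • (fun _ => 1 : Fin N → F)) ⬝ᵥ y = 0 := by
  simp only [dotProduct, Pi.smul_apply, smul_eq_mul, mul_one]
  rw [← Finset.mul_sum, mem_E.1 hy, mul_zero]

section heart

variable (hc : Even (Fintype.card (Fin N))) (h1 : Q0 (fun _ => 1 : Fin N → F) = 0)

include h1 in
theorem Q0_L {x y : E (Fin N) F} (h : x - y ∈ L F hc) : Q0 (x : Fin N → F) = Q0 (y : Fin N → F) := by
  obtain ⟨c, hc'⟩ := (mem_L hc).1 h
  have e : (x : Fin N → F) = y + c • (fun _ => 1 : Fin N → F) := by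
    have := congrArg (fun z : E (Fin N) F => (z : Fin N → F)) hc'
    simp only [Submodule.coe_smul, Submodule.coe_sub] at this
    have h3 : (oneE F hc : Fin N → F) = fun _ => 1 := rfl
    rw [h3] at this
    rw [this]
    abel
  have h3 : (c • (fun _ => 1 : Fin N → F)) ∈ E (Fin N) F := Submodule.smul_mem _ _ (one_mem hc)
  rw [e, Q0_add_E y.2 h3, Q0_smul, h1, mul_zero, add_zero, dot_comm', dot_L' y.2 c, add_zero]

/-- The quadratic function on the heart. -/
noncomputable def Q1 (z : E (Fin N) F ⧸ L F hc) : F := Q0 ((Quotient.out z : E (Fin N) F) : Fin N → F)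

include h1 in
theorem Q1_mk (x : E (Fin N) F) : Q1 hc (Submodule.Quotient.mk x : E (Fin N) F ⧸ L F hc) = Q0 (x : Fin N → F) := by
  apply Q0_L hc h1
  rw [← Submodule.Quotient.eq]
  exact Quotient.out_eq _

include hc h1 in
/-- The symmetric group acts on the heart preserving the quadratic function; coordinates give an embedding in the isometry group. -/
theorem embed_heart (h5 : 5 ≤ Fintype.card (Fin N)) {κ : Type} [Fintype κ] [DecidableEq κ] (Q₂ : (κ → F) → F)
    (W₀ : (κ → F) →ₗ[F] (Fin N → F)) (hW₀ : ∀ u, W₀ u ∈ E (Fin N) F) (hQ : ∀ u, Q0 (W₀ u) = Q₂ u)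
    (hrad : ∀ u, (∀ s, Q₂ (u + s) = Q₂ s) → u = 0) (hdim : Fintype.card κ + 2 = N) :
    ∃ φ : Equiv.Perm (Fin N) →* ↥(isometryGroup F Q₂), Function.Injective φ := by
  classical
  haveI : Nonempty (Fin N) := Fintype.card_pos_iff.1 (by omega)
  let W₁ : (κ → F) →ₗ[F] E (Fin N) F := W₀.codRestrict _ hW₀
  let W : (κ → F) →ₗ[F] (E (Fin N) F ⧸ L F hc) := (L F hc).mkQ ∘ₗ W₁
  have hW : ∀ u, W u = Submodule.Quotient.mk (W₁ u) := fun _ => rfl
  have hQW : ∀ u, Q1 hc (W u) = Q₂ u := by
    intro u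
    rw [hW, Q1_mk hc h1]
    exact hQ u
  have hWinj : Function.Injective W := by
    rw [injective_iff_map_eq_zero]
    intro u hu
    apply hrad
    intro s
    rw [← hQW, ← hQW, map_add, hu, zero_add]
  have hdim' : Module.finrank F (κ → F) = Module.finrank F (E (Fin N) F ⧸ L F hc) := by
    have := finrank_U (α := Fin N) (F := F) hc
    rw [Module.finrank_fintype_fun_eq_card]
    simp only [Fintype.card_fin] at this
    omega
  let e₀ := LinearMap.linearEquivOfInjective W hWinj hdim'
  refine embed_orth (Q1 hc) Q₂ e₀.symm ?_ (rho F hc) (rho_inj hc h5) ?_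
  · intro x
    obtain ⟨u, rfl⟩ := e₀.surjective x
    rw [LinearEquiv.symm_apply_apply]
    exact (hQW u).symm
  · intro g z
    induction z using Submodule.Quotient.induction_on with
    | H x =>
      rw [rho_mk, Q1_mk hc h1, Q1_mk hc h1, PE_val, Q0_perm]

end heart

/-- The permutation action on the even weight vectors. -/
def rhoE : Equiv.Perm (Fin N) →* (E (Fin N) F →ₗ[F] E (Fin N) F) where
  toFun g := PE g
  map_one' := LinearMap.ext fun x => Subtype.ext (funext fun _ => rfl)
  map_mul' _ _ := LinearMap.ext fun x => Subtype.ext (funext fun _ => rfl)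

theorem rhoE_inj (h3 : 3 ≤ N) : Function.Injective (rhoE : Equiv.Perm (Fin N) →* (E (Fin N) F →ₗ[F] E (Fin N) F)) := by
  intro g h hgh
  have key : ∀ i j : Fin N, (pr (g i) (g j) : Fin N → F) = pr (h i) (h j) := by
    intro i j
    have h1 := congrArg (fun T : E (Fin N) F →ₗ[F] E (Fin N) F => ((T ⟨pr i j, pr_mem i j⟩ : E (Fin N) F) : Fin N → F)) hgh
    have e1 : ((rhoE g ⟨pr i j, pr_mem i j⟩ : E (Fin N) F) : Fin N → F) = P g (pr i j) := rfl
    have e2 : ((rhoE h ⟨pr i j, pr_mem i j⟩ : E (Fin N) F) : Fin N → F) = P h (pr i j) := rfl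
    simp only [e1, e2, P_pr] at h1
    exact h1
  have hij : ∀ i j, i ≠ j → g i = h i ∨ g i = h j := by
    intro i j hne
    have h1 := congrFun (key i j) (g i)
    by_contra hcon
    push Not at hcon
    have hgne : g i ≠ g j := fun e => hne (g.injective e)
    simp only [pr, Pi.add_apply, Pi.single_apply, if_true, if_neg hgne.symm] at h1
    simp only [if_neg hcon.1, if_neg hcon.2] at h1
    simp [hne] at h1
  apply Equiv.ext
  intro i
  by_contra hne
  haveI : Nontrivial (Fin N) := Fintype.one_lt_card_iff_nontrivial.1 (by simp; omega)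
  obtain ⟨j, hj⟩ := exists_ne i
  obtain ⟨k, hk⟩ : ∃ k, k ∉ ({i, j} : Finset (Fin N)) := by
    by_contra hcon
    push Not at hcon
    have h2 : Finset.univ ⊆ ({i, j} : Finset (Fin N)) := fun x _ => hcon x
    have h3' := Finset.card_le_card h2
    have h4 : ({i, j} : Finset (Fin N)).card ≤ 2 := Finset.card_le_two
    rw [Finset.card_univ, Fintype.card_fin] at h3'
    omega
  simp only [Finset.mem_insert, Finset.mem_singleton, not_or] at hk
  have h1 := (hij i j hj.symm).resolve_left hne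
  have h2 := (hij i k (Ne.symm hk.1)).resolve_left hne
  exact hk.2 (h.injective (h2.symm.trans h1))

/-- The embedding when there is no quotient (an odd number of points). -/
theorem embed_even (h3 : 3 ≤ N) {κ : Type} [Fintype κ] [DecidableEq κ] (Q₂ : (κ → F) → F)
    (W₀ : (κ → F) →ₗ[F] (Fin N → F)) (hW₀ : ∀ u, W₀ u ∈ E (Fin N) F) (hQ : ∀ u, Q0 (W₀ u) = Q₂ u)
    (hrad : ∀ u, (∀ s, Q₂ (u + s) = Q₂ s) → u = 0) (hdim : Fintype.card κ + 1 = N) :
    ∃ φ : Equiv.Perm (Fin N) →* ↥(isometryGroup F Q₂), Function.Injective φ := by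
  classical
  haveI : Nonempty (Fin N) := Fintype.card_pos_iff.1 (by simp; omega)
  let W : (κ → F) →ₗ[F] E (Fin N) F := W₀.codRestrict _ hW₀
  have hQW : ∀ u, Q0 ((W u : E (Fin N) F) : Fin N → F) = Q₂ u := hQ
  have hWinj : Function.Injective W := by
    rw [injective_iff_map_eq_zero]
    intro u hu
    apply hrad
    intro s
    rw [← hQW, ← hQW, map_add, hu, zero_add]
  have hdim' : Module.finrank F (κ → F) = Module.finrank F (E (Fin N) F) := by
    have := finrank_E (α := Fin N) (F := F)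
    rw [Module.finrank_fintype_fun_eq_card]
    simp only [Fintype.card_fin] at this
    omega
  let e₀ := LinearMap.linearEquivOfInjective W hWinj hdim'
  refine embed_orth (fun z : E (Fin N) F => Q0 (z : Fin N → F)) Q₂ e₀.symm ?_ rhoE (rhoE_inj h3) ?_
  · intro x
    obtain ⟨u, rfl⟩ := e₀.surjective x
    rw [LinearEquiv.symm_apply_apply]
    exact (hQW u).symm
  · intro g z
    show Q0 (P g (z : Fin N → F)) = _
    rw [Q0_perm]

omit [CharP F 2] in
theorem plus_add_inr {m : ℕ} (u : Fin m ⊕ Fin m → F) (i : Fin m) :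
    quadFormPlus m F (u + Pi.single (Sum.inr i) 1) = quadFormPlus m F u + u (Sum.inl i) := by
  classical
  unfold quadFormPlus
  have e : ∀ j, (u + Pi.single (Sum.inr i) 1 : Fin m ⊕ Fin m → F) (Sum.inl j) * (u + Pi.single (Sum.inr i) 1 : Fin m ⊕ Fin m → F) (Sum.inr j) = u (Sum.inl j) * u (Sum.inr j) + if j = i then u (Sum.inl j) else 0 := by
    intro j
    simp only [Pi.add_apply, Pi.single_apply, Sum.inl.injEq, reduceCtorEq, if_false, add_zero, Sum.inr.injEq]
    split_ifs <;> ring
  simp only [e, Finset.sum_add_distrib]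
  simp

omit [CharP F 2] in
theorem plus_add_inl {m : ℕ} (u : Fin m ⊕ Fin m → F) (i : Fin m) :
    quadFormPlus m F (u + Pi.single (Sum.inl i) 1) = quadFormPlus m F u + u (Sum.inr i) := by
  classical
  unfold quadFormPlus
  have e : ∀ j, (u + Pi.single (Sum.inl i) 1 : Fin m ⊕ Fin m → F) (Sum.inl j) * (u + Pi.single (Sum.inl i) 1 : Fin m ⊕ Fin m → F) (Sum.inr j) = u (Sum.inl j) * u (Sum.inr j) + if j = i then u (Sum.inr j) else 0 := by
    intro j
    simp only [Pi.add_apply, Pi.single_apply, Sum.inl.injEq, reduceCtorEq, if_false, add_zero, Sum.inr.injEq]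
    split_ifs <;> ring
  simp only [e, Finset.sum_add_distrib]
  simp

omit [CharP F 2] in
theorem plus_single_inr {m : ℕ} (i : Fin m) : quadFormPlus m F (Pi.single (Sum.inr i) 1) = 0 := by
  classical
  simp [quadFormPlus, Pi.single_apply]

omit [CharP F 2] in
theorem plus_single_inl {m : ℕ} (i : Fin m) : quadFormPlus m F (Pi.single (Sum.inl i) 1) = 0 := by
  classical
  simp [quadFormPlus, Pi.single_apply]

omit [CharP F 2] in
theorem plus_zero {m : ℕ} : quadFormPlus m F 0 = 0 := by
  simp [quadFormPlus]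

omit [CharP F 2] in
/-- The hyperbolic form has trivial radical. -/
theorem rad_plus {m : ℕ} (u : Fin m ⊕ Fin m → F) (h : ∀ s, quadFormPlus m F (u + s) = quadFormPlus m F s) : u = 0 := by
  have h0 := h 0
  rw [add_zero, plus_zero] at h0
  ext i
  rcases i with i | i
  · have h1 := h (Pi.single (Sum.inr i) 1)
    rw [plus_add_inr, plus_single_inr, h0, zero_add] at h1
    exact h1
  · have h1 := h (Pi.single (Sum.inl i) 1)
    rw [plus_add_inl, plus_single_inl, h0, zero_add] at h1
    exact h1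

theorem Q0_one_cast : Q0 (fun _ => 1 : Fin N → F) = ((∑ i : Fin N, ∑ j : Fin N, if i < j then 1 else 0 : ℕ) : F) := by
  unfold Q0
  push_cast
  refine Finset.sum_congr rfl fun i _ => Finset.sum_congr rfl fun j _ => ?_
  simp

end Cfsg.Agent.Lib.HeartQ
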