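import Cfsg.Agent.Lib.F4Iso
import Cfsg.Prelude.Def_SporadicCombinatorics

/-! The hexacode through the concrete field with four elements. -/

set_option autoImplicit false

namespace Cfsg.Agent.HexaCode

open Cfsg Cfsg.Agent.Lib.F4Sp Cfsg.Agent.F4Iso

/-- `ω²` -/
def w' : F4 := (3 : Fin 4)

/-- The generators in the concrete field. -/
def g1 : Fin 6 → F4 := ![w, w', w', w, w', w]
def g2 : Fin 6 → F4 := ![w', w, w, w', w', w]
def g3 : Fin 6 → F4 := ![w', w, w', w, w, w']

/-- The word with given coefficients. -/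
def hw (a : F4 × F4 × F4) : Fin 6 → F4 := fun i => a.1 * g1 i + a.2.1 * g2 i + a.2.2 * g3 i

/-- Weight of a word. -/
def wtH (a : F4 × F4 × F4) : ℕ := (Finset.univ.filter fun i => hw a i ≠ 0).card

theorem hw_inj : Function.Injective hw := by
  have : ∀ a b : F4 × F4 × F4, (∀ i, hw a i = hw b i) → a = b := by decide +kernel
  intro a b h
  exact this a b (fun i => congrFun h i)

theorem wt_cases : ∀ a : F4 × F4 × F4, a ≠ (0, 0, 0) → wtH a = 4 ∨ wtH a = 6 := by decide +kernel
theorem count4 : (Finset.univ.filter fun a : F4 × F4 × F4 => wtH a = 4).card = 45 := by decide +kernel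
theorem count6 : (Finset.univ.filter fun a : F4 × F4 × F4 => wtH a = 6).card = 18 := by decide +kernel

section
variable {F : Type*} [Field F] [Fintype F] (e : F4 ≃+* F) (ω : F)

/-- The word in the field `F`. -/
def hwF (a : F4 × F4 × F4) : Fin 6 → F := fun i => e (hw a i)

theorem hwF_inj : Function.Injective (hwF e) := by
  intro a b h
  apply hw_inj
  funext i
  exact e.injective (congrFun h i)

theorem mem_iff (he : e w = ω) (x : Fin 6 → F) : x ∈ hexacode F ω ↔ ∃ a, hwF e a = x := by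
  have hw2 : e w' = ω ^ 2 := by
    rw [← he, ← map_pow]
    congr 1
  have h1 : ∀ i, (![ω, ω ^ 2, ω ^ 2, ω, ω ^ 2, ω] : Fin 6 → F) i = e (g1 i) := by
    intro i; fin_cases i <;> simp [g1, he, hw2]
  have h2 : ∀ i, (![ω ^ 2, ω, ω, ω ^ 2, ω ^ 2, ω] : Fin 6 → F) i = e (g2 i) := by
    intro i; fin_cases i <;> simp [g2, he, hw2]
  have h3 : ∀ i, (![ω ^ 2, ω, ω ^ 2, ω, ω, ω ^ 2] : Fin 6 → F) i = e (g3 i) := by
    intro i; fin_cases i <;> simp [g3, he, hw2]
  unfold hexacode
  rw [Submodule.mem_span_insert]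
  constructor
  · rintro ⟨c1, z, hz, rfl⟩
    obtain ⟨c2, c3, rfl⟩ := Submodule.mem_span_pair.1 hz
    refine ⟨(e.symm c1, e.symm c2, e.symm c3), ?_⟩
    funext i
    simp only [hwF, hw, map_add, map_mul, RingEquiv.apply_symm_apply, Pi.add_apply, Pi.smul_apply,
      smul_eq_mul, h1, h2, h3]
    ring
  · rintro ⟨⟨a, b, c⟩, rfl⟩
    refine ⟨e a, _, Submodule.mem_span_pair.2 ⟨e b, e c, rfl⟩, ?_⟩
    funext i
    simp only [hwF, hw, map_add, map_mul, Pi.add_apply, Pi.smul_apply, smul_eq_mul, h1, h2, h3]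
    ring

theorem wt_eq [DecidableEq F] (a : F4 × F4 × F4) :
    (Finset.univ.filter fun i => hwF e a i ≠ 0).card = wtH a := by
  unfold wtH
  congr 1
  ext i
  simp [hwF]

end

end Cfsg.Agent.HexaCode
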