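import Mathlib

/-! Homomorphisms out of `A₄` and `S₄` from relations, via normal forms. -/

set_option autoImplicit false

namespace Cfsg.Agent.Lib.HomS4

section rel

variable {G : Type*} [Group G]

/-- Relations of `S₄`. -/
structure RelS4 (a b s t : G) : Prop where
  aa : a * a = 1
  bb : b * b = 1
  ba : b * a = a * b
  sss : s * s * s = 1
  tt : t * t = 1
  ts : t * s = s * s * t
  ta : t * a = b * t
  tb : t * b = a * t
  sa : s * a = a * b * s
  sb : s * b = a * s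

/-- Relations of `A₄`. -/
structure RelA4 (a b s : G) : Prop where
  aa : a * a = 1
  bb : b * b = 1
  ba : b * a = a * b
  sss : s * s * s = 1
  sa : s * a = a * b * s
  sb : s * b = a * s

/-- The word with exponents. -/
def W (a b s t : G) (c : Fin 2 × Fin 2 × Fin 3 × Fin 2) : G :=
  a ^ (c.1 : ℕ) * b ^ (c.2.1 : ℕ) * s ^ (c.2.2.1 : ℕ) * t ^ (c.2.2.2 : ℕ)

/-- Step for right multiplication by `a`. -/
def stepA (c : Fin 2 × Fin 2 × Fin 3 × Fin 2) : Fin 2 × Fin 2 × Fin 3 × Fin 2 :=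
  let v : Fin 2 × Fin 2 :=
    match c.2.2.2, c.2.2.1 with
    | 0, 0 => (1, 0)
    | 0, 1 => (1, 1)
    | 0, 2 => (0, 1)
    | 1, 0 => (0, 1)
    | 1, 1 => (1, 0)
    | 1, 2 => (1, 1)
  (c.1 + v.1, c.2.1 + v.2, c.2.2.1, c.2.2.2)

def stepB (c : Fin 2 × Fin 2 × Fin 3 × Fin 2) : Fin 2 × Fin 2 × Fin 3 × Fin 2 :=
  let v : Fin 2 × Fin 2 :=
    match c.2.2.2, c.2.2.1 with
    | 0, 0 => (0, 1)
    | 0, 1 => (1, 0)
    | 0, 2 => (1, 1)
    | 1, 0 => (1, 0)
    | 1, 1 => (1, 1)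
    | 1, 2 => (0, 1)
  (c.1 + v.1, c.2.1 + v.2, c.2.2.1, c.2.2.2)

def stepS (c : Fin 2 × Fin 2 × Fin 3 × Fin 2) : Fin 2 × Fin 2 × Fin 3 × Fin 2 :=
  (c.1, c.2.1, c.2.2.1 + (if c.2.2.2 = 0 then 1 else 2), c.2.2.2)

def stepT (c : Fin 2 × Fin 2 × Fin 3 × Fin 2) : Fin 2 × Fin 2 × Fin 3 × Fin 2 :=
  (c.1, c.2.1, c.2.2.1, c.2.2.2 + 1)

variable {a b s t : G}

namespace RelS4
variable (R : RelS4 a b s t)
include R

theorem aa' (x : G) : a * (a * x) = x := by rw [← mul_assoc, R.aa, one_mul]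
theorem bb' (x : G) : b * (b * x) = x := by rw [← mul_assoc, R.bb, one_mul]
theorem ba' (x : G) : b * (a * x) = a * (b * x) := by rw [← mul_assoc, R.ba, mul_assoc]
theorem sss' (x : G) : s * (s * (s * x)) = x := by
  rw [← mul_assoc, ← mul_assoc, R.sss, one_mul]
theorem ss1 : s * (s * s) = 1 := by rw [← mul_assoc, R.sss]
theorem tt' (x : G) : t * (t * x) = x := by rw [← mul_assoc, R.tt, one_mul]
theorem ts' (x : G) : t * (s * x) = s * (s * (t * x)) := by
  rw [← mul_assoc, R.ts, mul_assoc, mul_assoc]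
theorem ts1 : t * s = s * (s * t) := by rw [R.ts, mul_assoc]
theorem ta' (x : G) : t * (a * x) = b * (t * x) := by rw [← mul_assoc, R.ta, mul_assoc]
theorem tb' (x : G) : t * (b * x) = a * (t * x) := by rw [← mul_assoc, R.tb, mul_assoc]
theorem sa' (x : G) : s * (a * x) = a * (b * (s * x)) := by rw [← mul_assoc, R.sa, mul_assoc, mul_assoc]
theorem sa1 : s * a = a * (b * s) := by rw [R.sa, mul_assoc]
theorem sb' (x : G) : s * (b * x) = a * (s * x) := by rw [← mul_assoc, R.sb, mul_assoc]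

theorem W_a (c : Fin 2 × Fin 2 × Fin 3 × Fin 2) : W a b s t c * a = W a b s t (stepA c) := by
  obtain ⟨i, j, k, l⟩ := c
  fin_cases i <;> fin_cases j <;> fin_cases k <;> fin_cases l <;>
    simp only [W, stepA] <;> simp <;>
    simp only [pow_succ, pow_zero, one_mul, mul_one, mul_assoc, R.aa, R.bb, R.ba, R.aa', R.bb', R.ba', R.sss, R.sss', R.ss1, R.tt, R.tt', R.ts1, R.ts', R.ta, R.ta', R.tb, R.tb', R.sa1, R.sa', R.sb, R.sb']

theorem W_b (c : Fin 2 × Fin 2 × Fin 3 × Fin 2) : W a b s t c * b = W a b s t (stepB c) := by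
  obtain ⟨i, j, k, l⟩ := c
  fin_cases i <;> fin_cases j <;> fin_cases k <;> fin_cases l <;>
    simp only [W, stepB] <;> simp <;>
    simp only [pow_succ, pow_zero, one_mul, mul_one, mul_assoc, R.aa, R.bb, R.ba, R.aa', R.bb', R.ba', R.sss, R.sss', R.ss1, R.tt, R.tt', R.ts1, R.ts', R.ta, R.ta', R.tb, R.tb', R.sa1, R.sa', R.sb, R.sb']

theorem W_s (c : Fin 2 × Fin 2 × Fin 3 × Fin 2) : W a b s t c * s = W a b s t (stepS c) := by
  obtain ⟨i, j, k, l⟩ := c
  fin_cases i <;> fin_cases j <;> fin_cases k <;> fin_cases l <;>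
    simp only [W, stepS] <;> simp <;>
    simp only [pow_succ, pow_zero, one_mul, mul_one, mul_assoc, R.aa, R.bb, R.ba, R.aa', R.bb', R.ba', R.sss, R.sss', R.ss1, R.tt, R.tt', R.ts1, R.ts', R.ta, R.ta', R.tb, R.tb', R.sa1, R.sa', R.sb, R.sb']

theorem W_t (c : Fin 2 × Fin 2 × Fin 3 × Fin 2) : W a b s t c * t = W a b s t (stepT c) := by
  obtain ⟨i, j, k, l⟩ := c
  fin_cases i <;> fin_cases j <;> fin_cases k <;> fin_cases l <;>
    simp only [W, stepT] <;> simp <;>
    simp only [pow_succ, pow_zero, one_mul, mul_one, mul_assoc, R.aa, R.bb, R.ba, R.aa', R.bb', R.ba', R.sss, R.sss', R.ss1, R.tt, R.tt', R.ts1, R.ts', R.ta, R.ta', R.tb, R.tb', R.sa1, R.sa', R.sb, R.sb']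

end RelS4


/-- The word with exponents, `A₄` version. -/
def W3 (a b s : G) (c : Fin 2 × Fin 2 × Fin 3) : G :=
  a ^ (c.1 : ℕ) * b ^ (c.2.1 : ℕ) * s ^ (c.2.2 : ℕ)

def step3A (c : Fin 2 × Fin 2 × Fin 3) : Fin 2 × Fin 2 × Fin 3 :=
  let v : Fin 2 × Fin 2 :=
    match c.2.2 with
    | 0 => (1, 0)
    | 1 => (1, 1)
    | 2 => (0, 1)
  (c.1 + v.1, c.2.1 + v.2, c.2.2)

def step3B (c : Fin 2 × Fin 2 × Fin 3) : Fin 2 × Fin 2 × Fin 3 :=
  let v : Fin 2 × Fin 2 :=
    match c.2.2 with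
    | 0 => (0, 1)
    | 1 => (1, 0)
    | 2 => (1, 1)
  (c.1 + v.1, c.2.1 + v.2, c.2.2)

def step3S (c : Fin 2 × Fin 2 × Fin 3) : Fin 2 × Fin 2 × Fin 3 :=
  (c.1, c.2.1, c.2.2 + 1)

namespace RelA4
variable {a b s : G} (R : RelA4 a b s)
include R

theorem aa' (x : G) : a * (a * x) = x := by rw [← mul_assoc, R.aa, one_mul]
theorem bb' (x : G) : b * (b * x) = x := by rw [← mul_assoc, R.bb, one_mul]
theorem ba' (x : G) : b * (a * x) = a * (b * x) := by rw [← mul_assoc, R.ba, mul_assoc]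
theorem sss' (x : G) : s * (s * (s * x)) = x := by
  rw [← mul_assoc, ← mul_assoc, R.sss, one_mul]
theorem ss1 : s * (s * s) = 1 := by rw [← mul_assoc, R.sss]
theorem sa' (x : G) : s * (a * x) = a * (b * (s * x)) := by rw [← mul_assoc, R.sa, mul_assoc, mul_assoc]
theorem sa1 : s * a = a * (b * s) := by rw [R.sa, mul_assoc]
theorem sb' (x : G) : s * (b * x) = a * (s * x) := by rw [← mul_assoc, R.sb, mul_assoc]

theorem W_a (c : Fin 2 × Fin 2 × Fin 3) : W3 a b s c * a = W3 a b s (step3A c) := by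
  obtain ⟨i, j, k⟩ := c
  fin_cases i <;> fin_cases j <;> fin_cases k <;>
    simp only [W3, step3A] <;> simp <;>
    simp only [pow_succ, pow_zero, one_mul, mul_one, mul_assoc, R.aa, R.bb, R.ba, R.aa', R.bb', R.ba', R.sss, R.sss', R.ss1, R.sa1, R.sa', R.sb, R.sb']

theorem W_b (c : Fin 2 × Fin 2 × Fin 3) : W3 a b s c * b = W3 a b s (step3B c) := by
  obtain ⟨i, j, k⟩ := c
  fin_cases i <;> fin_cases j <;> fin_cases k <;>
    simp only [W3, step3B] <;> simp <;>
    simp only [pow_succ, pow_zero, one_mul, mul_one, mul_assoc, R.aa, R.bb, R.ba, R.aa', R.bb', R.ba', R.sss, R.sss', R.ss1, R.sa1, R.sa', R.sb, R.sb']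

theorem W_s (c : Fin 2 × Fin 2 × Fin 3) : W3 a b s c * s = W3 a b s (step3S c) := by
  obtain ⟨i, j, k⟩ := c
  fin_cases i <;> fin_cases j <;> fin_cases k <;>
    simp only [W3, step3S] <;> simp <;>
    simp only [pow_succ, pow_zero, one_mul, mul_one, mul_assoc, R.aa, R.bb, R.ba, R.aa', R.bb', R.ba', R.sss, R.sss', R.ss1, R.sa1, R.sa', R.sb, R.sb']

end RelA4

end rel

section concrete

/-- The standard generators of `S₄`. -/
def A₀ : Equiv.Perm (Fin 4) := Equiv.swap 0 1 * Equiv.swap 2 3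
def B₀ : Equiv.Perm (Fin 4) := Equiv.swap 0 2 * Equiv.swap 1 3
def S₀ : Equiv.Perm (Fin 4) := Equiv.swap 0 1 * Equiv.swap 1 2
def T₀ : Equiv.Perm (Fin 4) := Equiv.swap 1 2

theorem rel₀ : RelS4 A₀ B₀ S₀ T₀ where
  aa := by decide
  bb := by decide
  ba := by decide
  sss := by decide
  tt := by decide
  ts := by decide
  ta := by decide
  tb := by decide
  sa := by decide
  sb := by decide

theorem W₀_bij : Function.Bijective (W A₀ B₀ S₀ T₀) := by
  rw [Fintype.bijective_iff_injective_and_card]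
  constructor
  · decide +kernel
  · decide +kernel

noncomputable def E₀ : (Fin 2 × Fin 2 × Fin 3 × Fin 2) ≃ Equiv.Perm (Fin 4) :=
  Equiv.ofBijective _ W₀_bij

theorem E₀_apply (c) : E₀ c = W A₀ B₀ S₀ T₀ c := rfl

theorem comm₀ : ∀ x : Equiv.Perm (Fin 4), x ≠ 1 → ∃ g : Equiv.Perm (Fin 4),
    x * g * x⁻¹ * g⁻¹ = A₀ ∨ x * g * x⁻¹ * g⁻¹ = B₀ ∨ x * g * x⁻¹ * g⁻¹ = A₀ * B₀ := by
  decide +kernel

variable {G : Type*} [Group G] {a b s t : G}

/-- The homomorphism from `S₄` defined by relations. -/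
theorem exists_homS4 (R : RelS4 a b s t) : ∃ φ : Equiv.Perm (Fin 4) →* G,
    φ A₀ = a ∧ φ B₀ = b ∧ φ S₀ = s ∧ φ T₀ = t := by
  classical
  let f : Equiv.Perm (Fin 4) → G := fun x => W a b s t (E₀.symm x)
  have hf : ∀ c, f (W A₀ B₀ S₀ T₀ c) = W a b s t c := by
    intro c
    show W a b s t (E₀.symm (E₀ c)) = _
    rw [Equiv.symm_apply_apply]
  have hx : ∀ x, ∃ c, x = W A₀ B₀ S₀ T₀ c := fun x => ⟨E₀.symm x, (E₀.apply_symm_apply x).symm⟩
  have hA : ∀ x, f (x * A₀) = f x * a := by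
    intro x
    obtain ⟨c, rfl⟩ := hx x
    rw [rel₀.W_a, hf, hf, R.W_a]
  have hB : ∀ x, f (x * B₀) = f x * b := by
    intro x
    obtain ⟨c, rfl⟩ := hx x
    rw [rel₀.W_b, hf, hf, R.W_b]
  have hS : ∀ x, f (x * S₀) = f x * s := by
    intro x
    obtain ⟨c, rfl⟩ := hx x
    rw [rel₀.W_s, hf, hf, R.W_s]
  have hT : ∀ x, f (x * T₀) = f x * t := by
    intro x
    obtain ⟨c, rfl⟩ := hx x
    rw [rel₀.W_t, hf, hf, R.W_t]
  have hpow : ∀ (g₀ : Equiv.Perm (Fin 4)) (γ : G), (∀ x, f (x * g₀) = f x * γ) → ∀ (n : ℕ) x, f (x * g₀ ^ n) = f x * γ ^ n := by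
    intro g₀ γ h n
    induction n with
    | zero => intro x; simp
    | succ n ih =>
      intro x
      rw [pow_succ, ← mul_assoc, h, ih, pow_succ, mul_assoc]
  have hmul : ∀ x y, f (x * y) = f x * f y := by
    intro x y
    obtain ⟨c, rfl⟩ := hx y
    rw [hf]
    simp only [W]
    rw [← mul_assoc, ← mul_assoc, ← mul_assoc, hpow _ _ hT, hpow _ _ hS, hpow _ _ hB, hpow _ _ hA]
    simp only [mul_assoc]
  have h1 : f 1 = 1 := by
    have h2 := hf (0, 0, 0, 0)
    have h3 : W A₀ B₀ S₀ T₀ (0, 0, 0, 0) = 1 := by simp [W]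
    rw [h3] at h2
    rw [h2]
    simp [W]
  let φ : Equiv.Perm (Fin 4) →* G := { toFun := f, map_one' := h1, map_mul' := hmul }
  refine ⟨φ, ?_, ?_, ?_, ?_⟩
  · show f A₀ = a
    have := hA 1
    rw [one_mul, h1, one_mul] at this
    exact this
  · show f B₀ = b
    have := hB 1
    rw [one_mul, h1, one_mul] at this
    exact this
  · show f S₀ = s
    have := hS 1
    rw [one_mul, h1, one_mul] at this
    exact this
  · show f T₀ = t
    have := hT 1
    rw [one_mul, h1, one_mul] at this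
    exact this

/-- A copy of `S₄` from the relations. -/
theorem exists_S4 (R : RelS4 a b s t) (ha : a ≠ 1) (hb : b ≠ 1) (hab : a ≠ b) :
    ∃ H : Subgroup G, Nonempty (H ≃* Equiv.Perm (Fin 4)) := by
  obtain ⟨φ, h1, h2, -, -⟩ := exists_homS4 R
  have hinj : Function.Injective φ := by
    rw [injective_iff_map_eq_one]
    intro x hx
    by_contra hne
    obtain ⟨g, hg⟩ := comm₀ x hne
    have h3 : φ (x * g * x⁻¹ * g⁻¹) = 1 := by
      rw [map_mul, map_mul, map_mul, map_inv, hx]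
      simp
    rcases hg with h | h | h
    · rw [h, h1] at h3
      exact ha h3
    · rw [h, h2] at h3
      exact hb h3
    · rw [h, map_mul, h1, h2] at h3
      apply hab
      have h4 := R.bb
      calc a = a * (b * b) := by rw [h4, mul_one]
        _ = (a * b) * b := by rw [mul_assoc]
        _ = b := by rw [h3, one_mul]
  exact ⟨φ.range, ⟨(MonoidHom.ofInjective hinj).symm⟩⟩

end concrete

section concrete4

def A₁ : alternatingGroup (Fin 4) := ⟨A₀, by rw [Equiv.Perm.mem_alternatingGroup]; decide⟩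
def B₁ : alternatingGroup (Fin 4) := ⟨B₀, by rw [Equiv.Perm.mem_alternatingGroup]; decide⟩
def S₁ : alternatingGroup (Fin 4) := ⟨S₀, by rw [Equiv.Perm.mem_alternatingGroup]; decide⟩

theorem rel₁ : RelA4 A₁ B₁ S₁ where
  aa := by decide
  bb := by decide
  ba := by decide
  sss := by decide
  sa := by decide
  sb := by decide

theorem W₁_bij : Function.Bijective (W3 A₁ B₁ S₁) := by
  rw [Fintype.bijective_iff_injective_and_card]
  constructor
  · decide +kernel
  · decide +kernel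

noncomputable def E₁ : (Fin 2 × Fin 2 × Fin 3) ≃ alternatingGroup (Fin 4) :=
  Equiv.ofBijective _ W₁_bij

theorem comm₁ : ∀ x : alternatingGroup (Fin 4), x ≠ 1 → ∃ g : alternatingGroup (Fin 4),
    x * g * x⁻¹ * g⁻¹ = A₁ ∨ x * g * x⁻¹ * g⁻¹ = B₁ ∨ x * g * x⁻¹ * g⁻¹ = A₁ * B₁ := by
  decide +kernel

variable {G : Type*} [Group G] {a b s : G}

theorem exists_homA4 (R : RelA4 a b s) : ∃ φ : alternatingGroup (Fin 4) →* G,
    φ A₁ = a ∧ φ B₁ = b ∧ φ S₁ = s := by
  classical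
  let f : alternatingGroup (Fin 4) → G := fun x => W3 a b s (E₁.symm x)
  have hf : ∀ c, f (W3 A₁ B₁ S₁ c) = W3 a b s c := by
    intro c
    show W3 a b s (E₁.symm (E₁ c)) = _
    rw [Equiv.symm_apply_apply]
  have hx : ∀ x, ∃ c, x = W3 A₁ B₁ S₁ c := fun x => ⟨E₁.symm x, (E₁.apply_symm_apply x).symm⟩
  have hA : ∀ x, f (x * A₁) = f x * a := by
    intro x
    obtain ⟨c, rfl⟩ := hx x
    rw [rel₁.W_a, hf, hf, R.W_a]
  have hB : ∀ x, f (x * B₁) = f x * b := by
    intro x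
    obtain ⟨c, rfl⟩ := hx x
    rw [rel₁.W_b, hf, hf, R.W_b]
  have hS : ∀ x, f (x * S₁) = f x * s := by
    intro x
    obtain ⟨c, rfl⟩ := hx x
    rw [rel₁.W_s, hf, hf, R.W_s]
  have hpow : ∀ (g₀ : alternatingGroup (Fin 4)) (γ : G), (∀ x, f (x * g₀) = f x * γ) → ∀ (n : ℕ) x, f (x * g₀ ^ n) = f x * γ ^ n := by
    intro g₀ γ h n
    induction n with
    | zero => intro x; simp
    | succ n ih =>
      intro x
      rw [pow_succ, ← mul_assoc, h, ih, pow_succ, mul_assoc]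
  have hmul : ∀ x y, f (x * y) = f x * f y := by
    intro x y
    obtain ⟨c, rfl⟩ := hx y
    rw [hf]
    simp only [W3]
    rw [← mul_assoc, ← mul_assoc, hpow _ _ hS, hpow _ _ hB, hpow _ _ hA]
    simp only [mul_assoc]
  have h1 : f 1 = 1 := by
    have h2 := hf (0, 0, 0)
    have h3 : W3 A₁ B₁ S₁ (0, 0, 0) = 1 := by simp [W3]
    rw [h3] at h2
    rw [h2]
    simp [W3]
  let φ : alternatingGroup (Fin 4) →* G := { toFun := f, map_one' := h1, map_mul' := hmul }
  refine ⟨φ, ?_, ?_, ?_⟩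
  · show f A₁ = a
    have := hA 1
    rw [one_mul, h1, one_mul] at this
    exact this
  · show f B₁ = b
    have := hB 1
    rw [one_mul, h1, one_mul] at this
    exact this
  · show f S₁ = s
    have := hS 1
    rw [one_mul, h1, one_mul] at this
    exact this

/-- A copy of `A₄` from the relations. -/
theorem exists_A4 (R : RelA4 a b s) (ha : a ≠ 1) (hb : b ≠ 1) (hab : a ≠ b) :
    ∃ H : Subgroup G, Nonempty (H ≃* alternatingGroup (Fin 4)) := by
  obtain ⟨φ, h1, h2, -⟩ := exists_homA4 R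
  have hinj : Function.Injective φ := by
    rw [injective_iff_map_eq_one]
    intro x hx
    by_contra hne
    obtain ⟨g, hg⟩ := comm₁ x hne
    have h3 : φ (x * g * x⁻¹ * g⁻¹) = 1 := by
      rw [map_mul, map_mul, map_mul, map_inv, hx]
      simp
    rcases hg with h | h | h
    · rw [h, h1] at h3
      exact ha h3
    · rw [h, h2] at h3
      exact hb h3
    · rw [h, map_mul, h1, h2] at h3
      apply hab
      have h4 := R.bb
      calc a = a * (b * b) := by rw [h4, mul_one]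
        _ = (a * b) * b := by rw [mul_assoc]
        _ = b := by rw [h3, one_mul]
  exact ⟨φ.range, ⟨(MonoidHom.ofInjective hinj).symm⟩⟩

/-- Relations in a copy of `A₄`. -/
theorem relA4_of_iso {H : Subgroup G} (e : H ≃* alternatingGroup (Fin 4)) :
    ∃ a b s : G, RelA4 a b s ∧ a ≠ 1 ∧ b ≠ 1 ∧ a ≠ b ∧ s ^ 3 = 1 ∧ s ≠ 1 := by
  let φ : alternatingGroup (Fin 4) →* G := H.subtype.comp e.symm.toMonoidHom
  have hφ : Function.Injective φ := H.subtype_injective.comp e.symm.injective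
  have hne : ∀ x y : alternatingGroup (Fin 4), x ≠ y → φ x ≠ φ y := fun x y h h' => h (hφ h')
  refine ⟨φ A₁, φ B₁, φ S₁, ?_, ?_, ?_, ?_, ?_, ?_⟩
  · constructor
    · rw [← map_mul, rel₁.aa, map_one]
    · rw [← map_mul, rel₁.bb, map_one]
    · rw [← map_mul, rel₁.ba, map_mul]
    · rw [← map_mul, ← map_mul, rel₁.sss, map_one]
    · rw [← map_mul, rel₁.sa, map_mul, map_mul]
    · rw [← map_mul, rel₁.sb, map_mul]
  · rw [← map_one φ]
    exact hne _ _ (by decide)
  · rw [← map_one φ]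
    exact hne _ _ (by decide)
  · exact hne _ _ (by decide)
  · rw [← map_pow]
    have : S₁ ^ 3 = 1 := by decide
    rw [this, map_one]
  · rw [← map_one φ]
    exact hne _ _ (by decide)

end concrete4

end Cfsg.Agent.Lib.HomS4
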