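import Mathlib
import Cfsg.Agent.Lib.HomS4
import Cfsg.Agent.Lib.H1SL2Syl2

/-! Copies of `A₄`, `S₄` in `PSL₂` from explicit quaternion matrices. -/

set_option autoImplicit false

namespace Cfsg.Agent.Lib.PSL2Sub

open Matrix Cfsg.Agent.Lib.H1GL2 Cfsg.Agent.Lib.H1SL2 Cfsg.Agent.Lib.H1PSL2 Cfsg.Agent.Lib.HomS4

variable {F : Type*} [Field F]

/-- The quaternion `i`. -/
def Ui (a b : F) (h : a ^ 2 + b ^ 2 = -1) : SL2 F := mk a b b (-a) (by linear_combination -h)

/-- The quaternion `j`. -/
def Uj : SL2 F := mk 0 1 (-1) 0 (by ring)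

/-- The element `(-1 + i + j + k)/2`. -/
def Hh (a b e : F) (h : a ^ 2 + b ^ 2 = -1) (he : 2 * e = 1) : SL2 F :=
  mk (e * (-1 + a - b)) (e * (b + 1 + a)) (e * (b - 1 + a)) (e * (-1 - a + b)) (by
    have h4 : 4 * e ^ 2 = 1 := by linear_combination (2 * e + 1) * he
    grind)

/-- The element `(i - j)/r` with `r² = 2`. -/
def Tt (a b e r : F) (h : a ^ 2 + b ^ 2 = -1) (he : 2 * e = 1) (hr : r ^ 2 = 2) : SL2 F :=
  mk (e * r * a) (e * r * (b - 1)) (e * r * (b + 1)) (e * r * (-a)) (by
    have h4 : 4 * e ^ 2 = 1 := by linear_combination (2 * e + 1) * he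
    grind)

section
variable (a b e r : F) (h : a ^ 2 + b ^ 2 = -1) (he : 2 * e = 1) (hr : r ^ 2 = 2)

theorem ui_sq : Ui a b h * Ui a b h = mone := by
  apply sl_ext <;> simp [Ui, mone] <;> grind

theorem uj_sq : (Uj : SL2 F) * Uj = mone := by
  apply sl_ext <;> simp [Uj, mone]

theorem uj_ui : Uj * Ui a b h = mone * (Ui a b h * Uj) := by
  apply sl_ext <;> simp [Ui, Uj, mone]

theorem hh_ui : Hh a b e h he * Ui a b h = (Ui a b h * Uj) * Hh a b e h he := by
  apply sl_ext <;> simp [Ui, Uj, Hh] <;> grind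

theorem hh_uj : Hh a b e h he * Uj = Ui a b h * Hh a b e h he := by
  apply sl_ext <;> simp [Ui, Uj, Hh] <;> grind

theorem hh_cube : Hh a b e h he * Hh a b e h he * Hh a b e h he = 1 := by
  apply sl_ext <;> simp [Hh] <;> grind

theorem tt_sq : Tt a b e r h he hr * Tt a b e r h he hr = mone := by
  apply sl_ext <;> simp [Tt, mone] <;> grind

theorem tt_ui : Tt a b e r h he hr * Ui a b h = mone * (Uj * Tt a b e r h he hr) := by
  apply sl_ext <;> simp [Tt, Ui, Uj, mone] <;> grind

theorem tt_uj : Tt a b e r h he hr * Uj = mone * (Ui a b h * Tt a b e r h he hr) := by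
  apply sl_ext <;> simp [Tt, Ui, Uj, mone] <;> grind

theorem tt_hh : Tt a b e r h he hr * Hh a b e h he = Hh a b e h he * Hh a b e h he * Tt a b e r h he hr := by
  apply sl_ext <;> simp [Tt, Hh] <;> grind

end

section pi

theorem pi_mone_mul' (g : SL2 F) : pi (mone * g) = pi g := pi_mone_mul g

variable {u w H T : SL2 F}

/-- The `A₄` relations in `PSL₂` from quaternion relations. -/
theorem relA4_pi (hu : u * u = mone) (hw : w * w = mone) (hwu : w * u = mone * (u * w))
    (hHu : H * u = (u * w) * H) (hHw : H * w = u * H) (hH : H * H * H = 1) :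
    RelA4 (pi u) (pi w) (pi H) where
  aa := by rw [← map_mul, hu, pi_mone]
  bb := by rw [← map_mul, hw, pi_mone]
  ba := by rw [← map_mul, hwu, pi_mone_mul, map_mul]
  sss := by rw [← map_mul, ← map_mul, hH, map_one]
  sa := by rw [← map_mul, hHu, map_mul, map_mul]
  sb := by rw [← map_mul, hHw, map_mul]

/-- The `S₄` relations in `PSL₂`. -/
theorem relS4_pi (hu : u * u = mone) (hw : w * w = mone) (hwu : w * u = mone * (u * w))
    (hHu : H * u = (u * w) * H) (hHw : H * w = u * H) (hH : H * H * H = 1)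
    (hT : T * T = mone) (hTu : T * u = mone * (w * T)) (hTw : T * w = mone * (u * T))
    (hTH : T * H = H * H * T) :
    RelS4 (pi u) (pi w) (pi H) (pi T) where
  aa := by rw [← map_mul, hu, pi_mone]
  bb := by rw [← map_mul, hw, pi_mone]
  ba := by rw [← map_mul, hwu, pi_mone_mul, map_mul]
  sss := by rw [← map_mul, ← map_mul, hH, map_one]
  tt := by rw [← map_mul, hT, pi_mone]
  ts := by rw [← map_mul, hTH, map_mul, map_mul]
  ta := by rw [← map_mul, hTu, pi_mone_mul, map_mul]
  tb := by rw [← map_mul, hTw, pi_mone_mul, map_mul]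
  sa := by rw [← map_mul, hHu, map_mul, map_mul]
  sb := by rw [← map_mul, hHw, map_mul]

/-- Non-triviality in `PSL₂`. -/
theorem pi_ne_of_quat (h2 : (2 : F) ≠ 0) (hu : u * u = mone) (hw : w * w = mone) (hwu : w * u = mone * (u * w)) :
    pi u ≠ 1 ∧ pi w ≠ 1 ∧ pi u ≠ pi w := by
  have hm : (mone : SL2 F) ≠ 1 := by
    intro h
    have := congrArg (fun z : SL2 F => (z : M2 F) 0 0) h
    simp at this
    apply h2
    linear_combination -this
  have key : ∀ z : SL2 F, z * z = mone → pi z ≠ 1 := by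
    intro z hz h
    rcases (pi_eq_one_iff z).1 h with h1 | h1
    · rw [h1, one_mul] at hz
      exact hm hz.symm
    · rw [h1, mone_mul_mone] at hz
      exact hm hz.symm
  refine ⟨key u hu, key w hw, ?_⟩
  intro h
  have h3 : pi (u⁻¹ * w) = 1 := by rw [map_mul, map_inv, h, inv_mul_cancel]
  have h4 : w = u ∨ w = mone * u := by
    rcases (pi_eq_one_iff _).1 h3 with h5 | h5
    · left
      have : w = u * (u⁻¹ * w) := by group
      rw [this, h5, mul_one]
    · right
      have : w = u * (u⁻¹ * w) := by group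
      rw [this, h5, mone_comm]
  rcases h4 with rfl | rfl
  · rw [hu, mone_comm, mone_mul_mone] at hwu
    exact hm hwu
  · apply hm
    have e1 : (mone * u) * u = 1 := by rw [mul_assoc, hu, mone_mul_mone]
    have e2 : mone * (u * (mone * u)) = mone := by
      rw [← mul_assoc u, ← mone_comm u, mul_assoc mone u u, hu, mone_mul_mone, mul_one]
    rw [e1, e2] at hwu
    exact hwu.symm

end pi

variable [Fintype F]

/-- Solutions of `a² + b² = -1`. -/
theorem exists_sum_sq (hodd : Fintype.card F % 2 = 1) : ∃ a b : F, a ^ 2 + b ^ 2 = -1 := by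
  obtain ⟨a, b, hab⟩ := FiniteField.exists_root_sum_quadratic (R := F)
    (f := Polynomial.X ^ 2) (g := Polynomial.X ^ 2 + 1)
    (by simp) (by rw [Polynomial.degree_add_eq_left_of_degree_lt] <;> simp) hodd
  refine ⟨a, b, ?_⟩
  simp at hab
  linear_combination hab

theorem two_ne (hodd : Fintype.card F % 2 = 1) : (2 : F) ≠ 0 := by
  apply Ring.two_ne_zero
  intro h
  have := FiniteField.even_card_of_char_two h
  omega

/-- `PSL₂` contains `A₄` in odd characteristic. -/
theorem exists_A4_odd (hodd : Fintype.card F % 2 = 1) :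
    ∃ H : Subgroup (PSL2 F), Nonempty (H ≃* alternatingGroup (Fin 4)) := by
  obtain ⟨a, b, h⟩ := exists_sum_sq hodd
  have h2 := two_ne hodd
  have he : (2 : F) * 2⁻¹ = 1 := mul_inv_cancel₀ h2
  obtain ⟨h1, h3, h4⟩ := pi_ne_of_quat h2 (ui_sq a b h) uj_sq (uj_ui a b h)
  exact exists_A4 (relA4_pi (ui_sq a b h) uj_sq (uj_ui a b h) (hh_ui a b _ h he) (hh_uj a b _ h he) (hh_cube a b _ h he)) h1 h3 h4

/-- `PSL₂` contains `S₄` if `2` is a square in odd characteristic. -/
theorem exists_S4_odd (hodd : Fintype.card F % 2 = 1) {r : F} (hr : r ^ 2 = 2) :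
    ∃ H : Subgroup (PSL2 F), Nonempty (H ≃* Equiv.Perm (Fin 4)) := by
  obtain ⟨a, b, h⟩ := exists_sum_sq hodd
  have h2 := two_ne hodd
  have he : (2 : F) * 2⁻¹ = 1 := mul_inv_cancel₀ h2
  obtain ⟨h1, h3, h4⟩ := pi_ne_of_quat h2 (ui_sq a b h) uj_sq (uj_ui a b h)
  exact exists_S4 (relS4_pi (ui_sq a b h) uj_sq (uj_ui a b h) (hh_ui a b _ h he) (hh_uj a b _ h he) (hh_cube a b _ h he)
    (tt_sq a b _ r h he hr) (tt_ui a b _ r h he hr) (tt_uj a b _ r h he hr) (tt_hh a b _ r h he hr)) h1 h3 h4

/-- `π` is injective in characteristic two. -/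
theorem pi_inj_two (h2 : (2 : F) = 0) : Function.Injective (pi : SL2 F → PSL2 F) := by
  intro x y h
  have h3 : pi (x⁻¹ * y) = 1 := by rw [map_mul, map_inv, h, inv_mul_cancel]
  have hm := mone_eq_one_of_two h2
  have h4 : x⁻¹ * y = 1 := by
    rcases (pi_eq_one_iff _).1 h3 with h5 | h5
    · exact h5
    · rw [h5, hm]
  have : y = x * (x⁻¹ * y) := by group
  rw [this, h4, mul_one]

/-- Copy of `A₄` in characteristic two from a cube root of unity. -/
theorem exists_A4_two (h2 : (2 : F) = 0) {ω : F} (hω : ω ^ 2 + ω + 1 = 0) :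
    ∃ H : Subgroup (PSL2 F), Nonempty (H ≃* alternatingGroup (Fin 4)) := by
  have hω0 : ω ≠ 0 := by
    rintro rfl
    simp at hω
  have hω1 : ω ≠ 1 := by
    rintro rfl
    apply one_ne_zero (α := F)
    linear_combination hω - h2
  have hω3 : ω ^ 3 = 1 := by linear_combination (ω - 1) * hω
  let u : Fˣ := Units.mk0 ω hω0
  have hu : (u : F) = ω := rfl
  have hui : ((u⁻¹ : Fˣ) : F) = ω ^ 2 := by
    simp only [Units.val_inv_eq_inv_val, hu]
    exact (eq_inv_of_mul_eq_one_left (by linear_combination hω3)).symm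
  have hinj := pi_inj_two h2
  have haa : (tv 1 : SL2 F) * tv 1 = 1 := by
    rw [tv_mul, show (1 : F) + 1 = 2 by norm_num, h2, tv_zero]
  have hbb : (tv ω : SL2 F) * tv ω = 1 := by
    rw [tv_mul, show ω + ω = 2 * ω by ring, h2, zero_mul, tv_zero]
  have hba : (tv ω : SL2 F) * tv 1 = tv 1 * tv ω := by
    rw [tv_mul, tv_mul, add_comm]
  have hsss : dg u * dg u * dg u = 1 := by
    rw [← map_mul, ← map_mul]
    have : u * u * u = 1 := by
      apply Units.ext
      simp only [Units.val_mul, hu, Units.val_one]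
      linear_combination hω3
    rw [this, map_one]
  have hsa : dg u * tv 1 = tv 1 * tv ω * dg u := by
    apply sl_ext <;> simp [hu, hui] <;> grind
  have hsb : dg u * tv ω = tv 1 * dg u := by
    apply sl_ext <;> simp [hu, hui] <;> grind
  refine exists_A4 (a := pi (tv 1)) (b := pi (tv ω)) (s := pi (dg u)) ?_ ?_ ?_ ?_
  · constructor
    · rw [← map_mul, haa, map_one]
    · rw [← map_mul, hbb, map_one]
    · rw [← map_mul, hba, map_mul]
    · rw [← map_mul, ← map_mul, hsss, map_one]
    · rw [← map_mul, hsa, map_mul, map_mul]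
    · rw [← map_mul, hsb, map_mul]
  · rw [← map_one pi]
    intro h
    exact tv_ne_one (one_ne_zero) (hinj h)
  · rw [← map_one pi]
    intro h
    exact tv_ne_one hω0 (hinj h)
  · intro h
    have h3 := hinj h
    have := congrArg (fun z : SL2 F => (z : M2 F) 0 1) h3
    simp at this
    exact hω1 this.symm

/-- An `A₄` in characteristic two gives a cube root of unity. -/
theorem exists_root_of_rel (h2 : (2 : F) = 0) {a b s : SL2 F} (haa : a * a = 1) (hbb : b * b = 1)
    (hba : b * a = a * b) (hsss : s * s * s = 1) (hsb : s * b = a * s) (ha : a ≠ 1) (hs : s ≠ 1) :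
    ∃ l : F, l ^ 2 + l + 1 = 0 := by
  classical
  -- notation for the action
  have hact : ∀ (g h : SL2 F) (v : Fin 2 → F), ((g * h : SL2 F) : M2 F) *ᵥ v = (g : M2 F) *ᵥ ((h : M2 F) *ᵥ v) := by
    intro g h v
    rw [Matrix.SpecialLinearGroup.coe_mul, Matrix.mulVec_mulVec]
  have hone : ∀ v : Fin 2 → F, ((1 : SL2 F) : M2 F) *ᵥ v = v := by
    intro v
    rw [Matrix.SpecialLinearGroup.coe_one, Matrix.one_mulVec]
  have hadd : ∀ v : Fin 2 → F, v + v = 0 := by
    intro v
    funext i
    simp only [Pi.add_apply, Pi.zero_apply]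
    linear_combination (v i) * h2
  -- a vector moved by `a`
  obtain ⟨e, he⟩ : ∃ e : Fin 2 → F, (a : M2 F) *ᵥ e ≠ e := by
    by_contra hcon
    push Not at hcon
    apply ha
    apply Subtype.ext
    apply Matrix.mulVec_injective
    funext v
    rw [hcon v, Matrix.SpecialLinearGroup.coe_one, Matrix.one_mulVec]
  set v : Fin 2 → F := (a : M2 F) *ᵥ e + e with hv
  have hv0 : v ≠ 0 := by
    intro h
    apply he
    have h3 : (a : M2 F) *ᵥ e + e + e = e := by rw [← hv, h, zero_add]
    rw [add_assoc, hadd, add_zero] at h3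
    exact h3
  have hfix : (a : M2 F) *ᵥ v = v := by
    rw [hv, Matrix.mulVec_add, ← hact, haa, hone, add_comm]
  -- the fixed space of `a` is a line
  have hline : ∀ w : Fin 2 → F, (a : M2 F) *ᵥ w = w → ∃ c : F, w = c • v := by
    intro w hw
    have hΔ : v 0 * w 1 - v 1 * w 0 = 0 := by
      by_contra hne
      apply ha
      have e1 := congrFun hfix 0
      have e2 := congrFun hfix 1
      have e3 := congrFun hw 0
      have e4 := congrFun hw 1
      simp only [Matrix.mulVec, dotProduct, Fin.sum_univ_two] at e1 e2 e3 e4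
      have h1 : ((a : M2 F) 0 0 - 1) * (v 0 * w 1 - v 1 * w 0) = 0 := by
        linear_combination (w 1) * e1 - (v 1) * e3
      have h3 : ((a : M2 F) 0 1) * (v 0 * w 1 - v 1 * w 0) = 0 := by
        linear_combination (-(w 0)) * e1 + (v 0) * e3
      have h4 : ((a : M2 F) 1 0) * (v 0 * w 1 - v 1 * w 0) = 0 := by
        linear_combination (w 1) * e2 - (v 1) * e4
      have h5 : ((a : M2 F) 1 1 - 1) * (v 0 * w 1 - v 1 * w 0) = 0 := by
        linear_combination (-(w 0)) * e2 + (v 0) * e4
      apply sl_ext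
      · simpa using sub_eq_zero.1 ((mul_eq_zero.1 h1).resolve_right hne)
      · simpa using (mul_eq_zero.1 h3).resolve_right hne
      · simpa using (mul_eq_zero.1 h4).resolve_right hne
      · simpa using sub_eq_zero.1 ((mul_eq_zero.1 h5).resolve_right hne)
    have hne : v 0 ≠ 0 ∨ v 1 ≠ 0 := by
      by_contra hcon
      push Not at hcon
      apply hv0
      funext i
      fin_cases i
      · exact hcon.1
      · exact hcon.2
    rcases hne with h0 | h0
    · refine ⟨w 0 / v 0, ?_⟩
      funext i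
      fin_cases i
      · simp
        field_simp
      · simp
        field_simp
        linear_combination hΔ
    · refine ⟨w 1 / v 1, ?_⟩
      funext i
      fin_cases i
      · simp
        field_simp
        linear_combination -hΔ
      · simp
        field_simp
  -- `b` fixes `v`
  have hbv : (b : M2 F) *ᵥ v = v := by
    obtain ⟨μ, hμ⟩ := hline ((b : M2 F) *ᵥ v) (by rw [← hact, ← hba, hact, hfix])
    have h3 : (b : M2 F) *ᵥ ((b : M2 F) *ᵥ v) = v := by rw [← hact, hbb, hone]
    rw [hμ, Matrix.mulVec_smul, hμ, smul_smul] at h3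
    have h4 : (μ * μ - 1) • v = 0 := by rw [sub_smul, h3, one_smul, sub_self]
    have h5 : μ * μ - 1 = 0 := (smul_eq_zero.1 h4).resolve_right hv0
    have h6 : (μ - 1) ^ 2 = 0 := by linear_combination h5 + (1 - μ) * h2
    have h7 : μ = 1 := by
      have := pow_eq_zero_iff (two_ne_zero) |>.1 h6
      exact sub_eq_zero.1 this
    rw [hμ, h7, one_smul]
  -- `s` acts on the line
  obtain ⟨l, hl⟩ := hline ((s : M2 F) *ᵥ v) (by rw [← hact, ← hsb, hact, hbv])
  have hcube : l ^ 3 = 1 := by
    have h3 : (s : M2 F) *ᵥ ((s : M2 F) *ᵥ ((s : M2 F) *ᵥ v)) = v := by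
      rw [← hact, ← hact, hsss, hone]
    simp only [hl, Matrix.mulVec_smul, smul_smul] at h3
    have h4 : (l ^ 3 - 1) • v = 0 := by
      rw [sub_smul, one_smul, sub_eq_zero]
      convert h3 using 2
      ring
    have h5 := (smul_eq_zero.1 h4).resolve_right hv0
    linear_combination h5
  have hl1 : l ≠ 1 := by
    rintro rfl
    apply hs
    rw [one_smul] at hl
    -- the trace vanishes
    have hd := sl_det s
    have e1 := congrFun hl 0
    have e2 := congrFun hl 1
    simp only [Matrix.mulVec, dotProduct, Fin.sum_univ_two] at e1 e2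
    have ht : tr s = 0 := by
      have hdet0 : ((s : M2 F) 0 0 - 1) * ((s : M2 F) 1 1 - 1) - (s : M2 F) 0 1 * (s : M2 F) 1 0 = 0 := by
        have hne : v 0 ≠ 0 ∨ v 1 ≠ 0 := by
          by_contra hcon
          push Not at hcon
          apply hv0
          funext i
          fin_cases i
          · exact hcon.1
          · exact hcon.2
        rcases hne with h0 | h0
        · apply (mul_eq_zero.1 (?_ : _ * v 0 = 0)).resolve_right h0
          linear_combination ((s : M2 F) 1 1 - 1) * e1 - ((s : M2 F) 0 1) * e2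
        · apply (mul_eq_zero.1 (?_ : _ * v 1 = 0)).resolve_right h0
          linear_combination ((s : M2 F) 0 0 - 1) * e2 - ((s : M2 F) 1 0) * e1
      simp only [tr]
      linear_combination -hdet0 + hd + h2
    -- so `s² = 1`
    have hss : s * s = 1 := by
      simp only [tr] at ht
      apply sl_ext <;> simp only [sl_mul00, sl_mul01, sl_mul10, sl_mul11, sl_one00, sl_one01, sl_one10, sl_one11] <;> grind
    have h3 : s * s * s = s := by rw [hss, one_mul]
    rw [hsss] at h3
    exact h3.symm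
  refine ⟨l, ?_⟩
  have h3 : (l - 1) * (l ^ 2 + l + 1) = 0 := by linear_combination hcube
  exact (mul_eq_zero.1 h3).resolve_left (sub_ne_zero.2 hl1)

end Cfsg.Agent.Lib.PSL2Sub
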