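import Mathlib
import Cfsg.Agent.Lib.Icos
import Cfsg.Agent.Lib.PSL2Sub

/-! `A₅` in `PSL₂` through the icosians. -/

set_option autoImplicit false

namespace Cfsg.Agent.Lib.Icos

section field

open Matrix Cfsg.Agent.Lib.H1GL2 Cfsg.Agent.Lib.H1SL2 Cfsg.Agent.Lib.H1PSL2

variable {F : Type*} [Field F]

/-- Evaluation of `ℤ[φ]`. -/
def evA (Φ : F) (p : ZP) : F := (p.1 : F) + (p.2 : F) * Φ

variable {Φ : F}

theorem evA_mul (hΦ : Φ ^ 2 = Φ + 1) (p q : ZP) : evA Φ (amul p q) = evA Φ p * evA Φ q := by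
  simp only [evA, amul]
  push_cast
  linear_combination (-(p.2 : F) * (q.2 : F)) * hΦ

theorem evA_add (p q : ZP) : evA Φ (p + q) = evA Φ p + evA Φ q := by
  simp only [evA, Prod.fst_add, Prod.snd_add]
  push_cast
  ring

theorem evA_sub (p q : ZP) : evA Φ (p - q) = evA Φ p - evA Φ q := by
  simp only [evA, Prod.fst_sub, Prod.snd_sub]
  push_cast
  ring

theorem evA_zsmul (n : ℤ) (p : ZP) : evA Φ (n • p) = (n : F) * evA Φ p := by
  simp only [evA, Prod.smul_fst, Prod.smul_snd, smul_eq_mul]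
  push_cast
  ring

/-- Evaluated coordinates of the table. -/
def t0 (Φ : F) (x : alternatingGroup (Fin 5)) : F := evA Φ (tab x).1
def t1 (Φ : F) (x : alternatingGroup (Fin 5)) : F := evA Φ (tab x).2.1
def t2 (Φ : F) (x : alternatingGroup (Fin 5)) : F := evA Φ (tab x).2.2.1
def t3 (Φ : F) (x : alternatingGroup (Fin 5)) : F := evA Φ (tab x).2.2.2

theorem t_norm (hΦ : Φ ^ 2 = Φ + 1) (x : alternatingGroup (Fin 5)) :
    t0 Φ x ^ 2 + t1 Φ x ^ 2 + t2 Φ x ^ 2 + t3 Φ x ^ 2 = 4 := by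
  have h := congrArg (evA Φ) (tab_norm x)
  simp only [qnorm, evA_add, evA_mul hΦ] at h
  simp only [t0, t1, t2, t3]
  have h4 : evA Φ ((4 : ℤ), (0 : ℤ)) = 4 := by
    simp [evA]
  rw [h4] at h
  linear_combination h

variable {a b e : F}

/-- The element of `SL₂` attached to an element of `A₅`. -/
def gg (hΦ : Φ ^ 2 = Φ + 1) (hab : a ^ 2 + b ^ 2 = -1) (he : 2 * e = 1) (x : alternatingGroup (Fin 5)) : SL2 F :=
  mk (e * (t0 Φ x + t1 Φ x * a - t3 Φ x * b)) (e * (t1 Φ x * b + t2 Φ x + t3 Φ x * a))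
    (e * (t1 Φ x * b - t2 Φ x + t3 Φ x * a)) (e * (t0 Φ x - t1 Φ x * a + t3 Φ x * b)) (by
    have h4 : 4 * e ^ 2 = 1 := by linear_combination (2 * e + 1) * he
    have hn := t_norm hΦ x
    generalize t0 Φ x = A at *
    generalize t1 Φ x = B at *
    generalize t2 Φ x = C at *
    generalize t3 Φ x = D at *
    linear_combination e ^ 2 * hn + h4 + (- e ^ 2 * (B ^ 2 + D ^ 2)) * hab)

theorem product_aux (he : 2 * e = 1) (hab : a ^ 2 + b ^ 2 = -1) (A B C D A' B' C' D' R S T U : F) (c : F)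
    (h0 : A * A' - B * B' - C * C' - D * D' = c * R)
    (h1 : A * B' + B * A' + C * D' - D * C' = c * S)
    (h2 : A * C' - B * D' + C * A' + D * B' = c * T)
    (h3 : A * D' + B * C' - C * B' + D * A' = c * U) :
    (e * (A + B * a - D * b)) * (e * (A' + B' * a - D' * b)) + (e * (B * b + C + D * a)) * (e * (B' * b - C' + D' * a)) = e * e * c * (R + S * a - U * b) ∧
    (e * (A + B * a - D * b)) * (e * (B' * b + C' + D' * a)) + (e * (B * b + C + D * a)) * (e * (A' - B' * a + D' * b)) = e * e * c * (S * b + T + U * a) ∧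
    (e * (B * b - C + D * a)) * (e * (A' + B' * a - D' * b)) + (e * (A - B * a + D * b)) * (e * (B' * b - C' + D' * a)) = e * e * c * (S * b - T + U * a) ∧
    (e * (B * b - C + D * a)) * (e * (B' * b + C' + D' * a)) + (e * (A - B * a + D * b)) * (e * (A' - B' * a + D' * b)) = e * e * c * (R - S * a + U * b) := by
  refine ⟨?_, ?_, ?_, ?_⟩ <;> grind

theorem gg_mul (hΦ : Φ ^ 2 = Φ + 1) (hab : a ^ 2 + b ^ 2 = -1) (he : 2 * e = 1) (x y : alternatingGroup (Fin 5)) :
    gg hΦ hab he x * gg hΦ hab he y = gg hΦ hab he (x * y) ∨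
    gg hΦ hab he x * gg hΦ hab he y = mone * gg hΦ hab he (x * y) := by
  have hc : ∀ c : ℤ, qmul (tab x) (tab y) = c • tab (x * y : alternatingGroup (Fin 5)) →
      t0 Φ x * t0 Φ y - t1 Φ x * t1 Φ y - t2 Φ x * t2 Φ y - t3 Φ x * t3 Φ y = (c : F) * t0 Φ (x * y) ∧
      t0 Φ x * t1 Φ y + t1 Φ x * t0 Φ y + t2 Φ x * t3 Φ y - t3 Φ x * t2 Φ y = (c : F) * t1 Φ (x * y) ∧
      t0 Φ x * t2 Φ y - t1 Φ x * t3 Φ y + t2 Φ x * t0 Φ y + t3 Φ x * t1 Φ y = (c : F) * t2 Φ (x * y) ∧
      t0 Φ x * t3 Φ y + t1 Φ x * t2 Φ y - t2 Φ x * t1 Φ y + t3 Φ x * t0 Φ y = (c : F) * t3 Φ (x * y) := by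
    intro c h
    have h0 := congrArg (fun z : QP => evA Φ z.1) h
    have h1 := congrArg (fun z : QP => evA Φ z.2.1) h
    have h2 := congrArg (fun z : QP => evA Φ z.2.2.1) h
    have h3 := congrArg (fun z : QP => evA Φ z.2.2.2) h
    simp only [qmul, evA_add, evA_sub, evA_mul hΦ, Prod.smul_fst, Prod.smul_snd, evA_zsmul] at h0 h1 h2 h3
    exact ⟨h0, h1, h2, h3⟩
  have h2e : (2 : F) * e = 1 := he
  rcases tab_mul x y with h | h
  · left
    obtain ⟨h0, h1, h2, h3⟩ := hc 2 h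
    obtain ⟨e1, e2, e3, e4⟩ := product_aux he hab _ _ _ _ _ _ _ _ _ _ _ _ _ h0 h1 h2 h3
    apply sl_ext
    · simp only [sl_mul00, gg, mk00, mk01, mk10, mk11]
      rw [e1]
      push_cast
      linear_combination (e * (t0 Φ (x * y) + t1 Φ (x * y) * a - t3 Φ (x * y) * b)) * he
    · simp only [sl_mul01, gg, mk00, mk01, mk10, mk11]
      rw [e2]
      push_cast
      linear_combination (e * (t1 Φ (x * y) * b + t2 Φ (x * y) + t3 Φ (x * y) * a)) * he
    · simp only [sl_mul10, gg, mk00, mk01, mk10, mk11]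
      rw [e3]
      push_cast
      linear_combination (e * (t1 Φ (x * y) * b - t2 Φ (x * y) + t3 Φ (x * y) * a)) * he
    · simp only [sl_mul11, gg, mk00, mk01, mk10, mk11]
      rw [e4]
      push_cast
      linear_combination (e * (t0 Φ (x * y) - t1 Φ (x * y) * a + t3 Φ (x * y) * b)) * he
  · right
    obtain ⟨h0, h1, h2, h3⟩ := hc (-2) h
    obtain ⟨e1, e2, e3, e4⟩ := product_aux he hab _ _ _ _ _ _ _ _ _ _ _ _ _ h0 h1 h2 h3
    apply sl_ext
    · simp only [sl_mul00, gg, mk00, mk01, mk10, mk11, mone00, mone01, mone10, mone11]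
      rw [e1]
      push_cast
      linear_combination (-e * (t0 Φ (x * y) + t1 Φ (x * y) * a - t3 Φ (x * y) * b)) * he
    · simp only [sl_mul01, gg, mk00, mk01, mk10, mk11, mone00, mone01, mone10, mone11]
      rw [e2]
      push_cast
      linear_combination (-e * (t1 Φ (x * y) * b + t2 Φ (x * y) + t3 Φ (x * y) * a)) * he
    · simp only [sl_mul10, gg, mk00, mk01, mk10, mk11, mone00, mone01, mone10, mone11]
      rw [e3]
      push_cast
      linear_combination (-e * (t1 Φ (x * y) * b - t2 Φ (x * y) + t3 Φ (x * y) * a)) * he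
    · simp only [sl_mul11, gg, mk00, mk01, mk10, mk11, mone00, mone01, mone10, mone11]
      rw [e4]
      push_cast
      linear_combination (-e * (t0 Φ (x * y) - t1 Φ (x * y) * a + t3 Φ (x * y) * b)) * he

/-- The test element. -/
def x₁ : alternatingGroup (Fin 5) := ⟨Equiv.swap 2 3 * Equiv.swap 3 4, by rw [Equiv.Perm.mem_alternatingGroup]; decide⟩

theorem tab_x₁ : (tab x₁).2.2.1 = (-1, 0) := by decide +kernel

end field

section main

open Matrix Cfsg.Agent.Lib.H1GL2 Cfsg.Agent.Lib.H1SL2 Cfsg.Agent.Lib.H1PSL2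

variable {F : Type*} [Field F] [Fintype F]

/-- `A₅` in `PSL₂` from the golden ratio. -/
theorem exists_A5 {Φ a b : F} (h2 : (2 : F) ≠ 0) (hΦ : Φ ^ 2 = Φ + 1) (hab : a ^ 2 + b ^ 2 = -1) :
    ∃ H : Subgroup (PSL2 F), Nonempty (H ≃* alternatingGroup (Fin 5)) := by
  have he : (2 : F) * 2⁻¹ = 1 := mul_inv_cancel₀ h2
  let f : alternatingGroup (Fin 5) → PSL2 F := fun x => pi (gg hΦ hab he x)
  have hmul : ∀ x y, f (x * y) = f x * f y := by
    intro x y
    show pi (gg hΦ hab he (x * y)) = pi (gg hΦ hab he x) * pi (gg hΦ hab he y)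
    rw [← map_mul]
    rcases gg_mul hΦ hab he x y with h | h
    · rw [h]
    · rw [h, pi_mone_mul]
  let φ : alternatingGroup (Fin 5) →* PSL2 F := MonoidHom.mk' f hmul
  have hne : φ x₁ ≠ 1 := by
    intro h
    have h3 : gg hΦ hab he x₁ = 1 ∨ gg hΦ hab he x₁ = mone := (pi_eq_one_iff _).1 h
    have hsc : (gg hΦ hab he x₁ : M2 F) 0 1 = (gg hΦ hab he x₁ : M2 F) 1 0 := by
      rcases h3 with h4 | h4 <;> rw [h4] <;> simp [mone]
    simp only [gg, mk01, mk10] at hsc
    have h5 : t2 Φ x₁ = -1 := by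
      simp only [t2]
      rw [tab_x₁]
      simp [evA]
    rw [h5] at hsc
    apply h2
    have : (2 : F) * (2⁻¹ * (-1 : F)) = 0 := by linear_combination hsc
    have h6 : (2 : F) * 2⁻¹ = 1 := he
    have : (-1 : F) = 0 := by linear_combination this - (-1 : F) * h6
    simp at this
  haveI : IsSimpleGroup (alternatingGroup (Fin 5)) := alternatingGroup.isSimpleGroup (by simp)
  have hinj : Function.Injective φ := by
    rcases IsSimpleGroup.eq_bot_or_eq_top_of_normal φ.ker inferInstance with h | h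
    · exact (MonoidHom.ker_eq_bot_iff φ).1 h
    · exfalso
      apply hne
      have : x₁ ∈ φ.ker := by rw [h]; trivial
      exact this
  exact ⟨φ.range, ⟨(MonoidHom.ofInjective hinj).symm⟩⟩

end main

end Cfsg.Agent.Lib.Icos
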