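import Cfsg.Agent.Lib.BlockInfl

/-! Blocks and inflation from `G / D'` for a normal p-subgroup `D`. -/

set_option autoImplicit false
set_option linter.unusedVariables false
set_option linter.unusedSectionVars false

namespace Cfsg.Agent.Lib.InflD

open Cfsg Cfsg.Agent.Lib.IrrBasic Cfsg.Agent.Lib.LocRing Cfsg.Agent.Lib.CyclicWords Cfsg.Agent.Lib
open Cfsg.Agent.Lib.BlockCore Cfsg.Agent.Lib.BlockOrth Cfsg.Agent.Lib.BlockBrauer
open Cfsg.Agent.Lib.BlockFixed Cfsg.Agent.Lib.BlockDefect Cfsg.Agent.Lib.BlockInduce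
open Cfsg.Agent.Lib.BlockMain Cfsg.Agent.Lib.BlockMain2 Cfsg.Agent.Lib.BlockMain3
open Cfsg.Agent.Lib.BlockInfl Cfsg.Agent.Lib.BlockNorm
open scoped ComplexConjugate commutatorElement

section Cop

variable {D : Type*} [Group D] [Finite D]

lemma step (p : ℕ) [Fact p.Prime] (hD : IsPGroup p D) (φ : D →* D) (m : ℕ) (hm : Nat.Coprime p m)
    (hφm : ∀ d, φ^[m] d = d) (k : ℕ) (hk : 1 ≤ k)
    (h : ∀ d, φ d * d⁻¹ ∈ (⊤ : Subgroup D).lowerCentralSeries k) :
    ∀ d, φ d * d⁻¹ ∈ (⊤ : Subgroup D).lowerCentralSeries (k + 1) := by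
  have hLK : (⊤ : Subgroup D).lowerCentralSeries (k + 1) = ⁅(⊤ : Subgroup D).lowerCentralSeries k, ⊤⁆ := rfl
  haveI : ((⊤ : Subgroup D).lowerCentralSeries (k + 1)).Normal :=
    Subgroup.normal_of_characteristic _
  let π : D →* D ⧸ (⊤ : Subgroup D).lowerCentralSeries (k + 1) := QuotientGroup.mk' _
  have hπker : ∀ x, π x = 1 ↔ x ∈ (⊤ : Subgroup D).lowerCentralSeries (k + 1) := fun x => QuotientGroup.eq_one_iff x
  have hcen : ∀ x ∈ (⊤ : Subgroup D).lowerCentralSeries k, ∀ a, π x * π a = π a * π x := by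
    intro x hx a
    have h1 : ⁅x, a⁆ ∈ (⊤ : Subgroup D).lowerCentralSeries (k + 1) := by
      rw [hLK]
      exact Subgroup.commutator_mem_commutator hx (Subgroup.mem_top a)
    have h2 : π ⁅x, a⁆ = 1 := (hπker _).2 h1
    exact commutatorElement_eq_one_iff_mul_comm.1 (by rw [← map_commutatorElement]; exact h2)
  let f : D →* D ⧸ (⊤ : Subgroup D).lowerCentralSeries (k + 1) := MonoidHom.mk' (fun a => π (φ a * a⁻¹)) (by
    intro a b
    have e : φ (a * b) * (a * b)⁻¹ = φ a * (φ b * b⁻¹) * a⁻¹ := by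
      rw [map_mul]
      group
    have c := hcen _ (h b) a⁻¹
    rw [e]
    obtain ⟨n, hn⟩ : ∃ n, n = φ b * b⁻¹ := ⟨_, rfl⟩
    rw [← hn] at c ⊢
    rw [map_mul π (φ a * n) a⁻¹, map_mul π (φ a) n, map_mul π (φ a) a⁻¹, mul_assoc, c, mul_assoc])
  have hf : ∀ a, f a = π (φ a * a⁻¹) := fun a => rfl
  have hker : ∀ x ∈ commutator D, f x = 1 := by
    intro x hx
    have hle : commutator D ≤ f.ker := by
      rw [commutator_def, Subgroup.commutator_le]
      intro a _ b _
      rw [MonoidHom.mem_ker, map_commutatorElement]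
      apply commutatorElement_eq_one_iff_mul_comm.2
      rw [hf a, hf b]
      exact hcen _ (h a) _
    exact hle hx
  have hKle : (⊤ : Subgroup D).lowerCentralSeries k ≤ commutator D := by
    rw [← Subgroup.top_lowerCentralSeries_one]
    exact Subgroup.lowerCentralSeries_antitone _ hk
  have hfix : ∀ x ∈ (⊤ : Subgroup D).lowerCentralSeries k, π (φ x) = π x := by
    intro x hx
    have := hker x (hKle hx)
    rw [hf, map_mul, map_inv, mul_inv_eq_one] at this
    exact this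
  have hfφ : ∀ d, f (φ d) = f d := by
    intro d
    rw [hf, hf]
    have e : φ (φ d) * (φ d)⁻¹ = φ (φ d * d⁻¹) := by rw [map_mul, map_inv]
    rw [e]
    exact hfix _ (h d)
  have hiter : ∀ j d, f (φ^[j] d) = f d := by
    intro j d
    induction j with
    | zero => rfl
    | succ j ih => rw [Function.iterate_succ_apply', hfφ, ih]
  have hπφ : ∀ z, π (φ z) = f z * π z := by
    intro z
    rw [hf, map_mul, map_inv, inv_mul_cancel_right]
  have hpow : ∀ j d, π (φ^[j] d) = f d ^ j * π d := by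
    intro j d
    induction j with
    | zero => rw [Function.iterate_zero, id_eq, pow_zero, one_mul]
    | succ j ih =>
      rw [Function.iterate_succ_apply', hπφ, hiter, ih, pow_succ', mul_assoc]
  intro d
  have h1 : f d ^ m = 1 := by
    have := hpow m d
    rw [hφm] at this
    exact (mul_eq_right.1 this.symm)
  have hQ : IsPGroup p (D ⧸ (⊤ : Subgroup D).lowerCentralSeries (k + 1)) := hD.to_quotient _
  obtain ⟨s, hs⟩ := hQ (f d)
  have h2 : f d = 1 := by
    have h3 := orderOf_dvd_of_pow_eq_one h1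
    have h4 := orderOf_dvd_of_pow_eq_one hs
    have h5 : Nat.Coprime (p ^ s) m := Nat.Coprime.pow_left s hm
    exact orderOf_eq_one_iff.1 (Nat.eq_one_of_dvd_coprimes h5 h4 h3)
  rw [hf] at h2
  exact (hπker _).1 h2

lemma coprime_trivial (p : ℕ) [Fact p.Prime] (hD : IsPGroup p D) (φ : D →* D) (m : ℕ)
    (hm : Nat.Coprime p m) (hφm : ∀ d, φ^[m] d = d) (h1 : ∀ d, φ d * d⁻¹ ∈ commutator D) :
    ∀ d, φ d = d := by
  have hall : ∀ k, 1 ≤ k → ∀ d, φ d * d⁻¹ ∈ (⊤ : Subgroup D).lowerCentralSeries k := by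
    intro k hk
    induction k, hk using Nat.le_induction with
    | base =>
      rw [Subgroup.top_lowerCentralSeries_one]
      exact h1
    | succ k hk ih => exact step p hD φ m hm hφm k hk ih
  haveI : Group.IsNilpotent D := hD.isNilpotent
  obtain ⟨c, hc⟩ := Subgroup.nilpotent_iff_lowerCentralSeries.1 (inferInstance : Group.IsNilpotent D)
  intro d
  have h2 := hall (c + 1) (by omega) d
  have h3 : (⊤ : Subgroup D).lowerCentralSeries (c + 1) ≤ (⊤ : Subgroup D).lowerCentralSeries c :=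
    Subgroup.lowerCentralSeries_antitone _ (by omega)
  rw [hc] at h3
  have h4 := h3 h2
  rw [Subgroup.mem_bot, mul_inv_eq_one] at h4
  exact h4

end Cop

section Reg

variable {G : Type*} [Group G] [Fintype G] {M : Ideal AlgInt} [hMp : M.IsPrime] {p : ℕ}
variable (P : Subgroup G) [hPn : P.Normal] [Fintype (G ⧸ P)]

theorem eq_of_coset' (hp : p.Prime) (hP : IsPGroup p P)
    {g g' : G} (hg : ¬ p ∣ orderOf g) (hg' : ¬ p ∣ orderOf g')
    (hc : g ∈ Subgroup.centralizer (P : Set G)) (h : (g : G ⧸ P) = (g' : G ⧸ P)) : g = g' := by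
  have : Fact p.Prime := ⟨hp⟩
  have hu : g⁻¹ * g' ∈ P := QuotientGroup.eq.mp h
  have hcomm : Commute (g⁻¹ * g') g := Subgroup.mem_centralizer_iff.mp hc _ hu
  obtain ⟨n, hn⟩ := (hP ⟨_, hu⟩)
  have hord : ∃ j : ℕ, orderOf (g⁻¹ * g') = p ^ j := by
    have h1 : orderOf (⟨g⁻¹ * g', hu⟩ : P) ∣ p ^ n := orderOf_dvd_of_pow_eq_one hn
    obtain ⟨j, -, hj⟩ := (Nat.dvd_prime_pow hp).mp h1
    exact ⟨j, by rw [← hj, Subgroup.orderOf_mk]⟩
  have hg'eq : (g⁻¹ * g') * g = g' := by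
    have h1 := hcomm.eq
    rw [h1]
    group
  have h1 : IsPPart p g' (g⁻¹ * g') := ⟨g, hg'eq, hcomm, hord, hg⟩
  have h2 : IsPPart p g' 1 := ⟨g', one_mul _, Commute.one_left _, ⟨0, by simp⟩, hg'⟩
  have h3 := isPPart_unique hp h1 h2
  exact inv_mul_eq_one.mp h3

theorem cc_infl (hp : p.Prime) (hP : IsPGroup p P) (χ : IrrCharacter (G ⧸ P)) {y : G}
    (hy : ¬ p ∣ orderOf y) (hyc : y ∈ Subgroup.centralizer (P : Set G)) :
    centralChar (inflIrr P χ).1 y = centralChar χ.1 (y : G ⧸ P) := by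
  classical
  haveI hCn : (Subgroup.centralizer (P : Set G)).Normal := Subgroup.normal_centralizer
  have h1 : (Subgroup.centralizer ({y} : Set G)).index =
      (Subgroup.centralizer ({(y : G ⧸ P)} : Set (G ⧸ P))).index := by
    rw [← card_class_eq_index, ← card_class_eq_index]
    refine Finset.card_bij (fun x _ => (x : G ⧸ P)) ?_ ?_ ?_
    · intro x hx
      simp only [Finset.mem_filter, Finset.mem_univ, true_and] at hx ⊢
      obtain ⟨t, rfl⟩ := isConj_iff.mp hx
      exact isConj_iff.mpr ⟨(t : G ⧸ P), by simp⟩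
    · intro x hx x' hx' h
      simp only [Finset.mem_filter, Finset.mem_univ, true_and] at hx hx'
      obtain ⟨t, rfl⟩ := isConj_iff.mp hx
      obtain ⟨t', rfl⟩ := isConj_iff.mp hx'
      refine eq_of_coset' P hp hP ?_ ?_ (hCn.conj_mem y hyc t) h
      · rwa [orderOf_conj']
      · rwa [orderOf_conj']
    · intro q hq
      simp only [Finset.mem_filter, Finset.mem_univ, true_and] at hq
      obtain ⟨t, rfl⟩ := isConj_iff.mp hq
      obtain ⟨s, rfl⟩ := QuotientGroup.mk_surjective t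
      refine ⟨s * y * s⁻¹, ?_, by simp⟩
      simp only [Finset.mem_filter, Finset.mem_univ, true_and]
      exact isConj_iff.mpr ⟨s, rfl⟩
  rw [centralChar, centralChar, inflIrr_one, inflIrr_apply, h1]

theorem exists_infl' (hM : IsPModular p M) (hP : IsPGroup p P) {B : Set (IrrCharacter G)}
    (hB : IsPBlock M B) : ∃ χ : IrrCharacter (G ⧸ P), inflIrr P χ ∈ B := by
  classical
  by_contra hcon
  push Not at hcon
  have hL := blockCoeff_mem hM hB
  have hc : IsCentral (idemOf B hL) := isCentral_idemOf _ _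
  have h1 : qMap P (idemOf B hL) = 0 := by
    refine central_ext (isCentral_qMap P hc) (fun _ _ => by simp) fun χ => ?_
    rw [omegaA_qMap, omegaA_idemOf, if_neg (hcon χ), omegaA_zero]
  have h3 : (qMap P (idemOf B hL)).coeff ((1 : G) : G ⧸ P) = 0 := by rw [h1]; simp
  rw [coeff_qMap] at h3
  have h4 : (∑ g : G, if (g : G ⧸ P) = ((1 : G) : G ⧸ P) then (idemOf B hL).coeff g else 0) =
      (idemOf B hL).coeff 1 := by
    rw [Finset.sum_eq_single 1]
    · rw [if_pos rfl]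
    · intro g _ hg1
      by_cases hgP : (g : G ⧸ P) = ((1 : G) : G ⧸ P)
      · have hgm : g ∈ P := by
          have := QuotientGroup.eq.mp hgP.symm
          simpa using this
        have hsing : p ∣ orderOf g := by
          obtain ⟨n, hn⟩ := hP ⟨g, hgm⟩
          have h5 : orderOf (⟨g, hgm⟩ : P) ∣ p ^ n := orderOf_dvd_of_pow_eq_one hn
          obtain ⟨j, -, hj⟩ := (Nat.dvd_prime_pow hM.1).mp h5
          rw [Subgroup.orderOf_mk] at hj
          rw [hj]
          rcases j with _ | j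
          · exfalso
            apply hg1
            rw [pow_zero] at hj
            exact orderOf_eq_one_iff.1 hj
          · exact dvd_pow_self p (Nat.succ_ne_zero j)
        have : (idemOf B hL).coeff g = 0 := by
          apply Subtype.ext
          rw [coeff_idemOf, blockCoeff_eq_zero_of_singular hM hB hsing]
          rfl
        rw [this, ite_self]
      · rw [if_neg hgP]
    · simp
  have h5 : (idemOf B hL).coeff 1 = 0 := by
    rw [← h4]
    convert h3
  have h6 : blockCoeff B 1 = 0 := by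
    rw [← coeff_idemOf B hL 1, h5]
    rfl
  obtain ⟨χ, hχ⟩ := BlockDefect.IsPBlock.nonempty hB
  have h7 := sum_degree_sq_ne_zero hχ
  unfold blockCoeff at h6
  rcases mul_eq_zero.1 h6 with h8 | h8
  · have hcard : (Nat.card G : ℂ) ≠ 0 := by
      exact_mod_cast Nat.card_pos.ne'
    exact inv_ne_zero hcard h8
  · exact h7 h8

end Reg

section Main

variable {G : Type*} [Group G] [Fintype G]

lemma centralize_of_quot (p : ℕ) [Fact p.Prime] (D : Subgroup G) [hDn : D.Normal]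
    (hD : IsPGroup p D) {y : G} (hy : ¬ p ∣ orderOf y)
    (hq : (y : G ⧸ ⁅D, D⁆) ∈ Subgroup.centralizer
      ((D.map (QuotientGroup.mk' ⁅D, D⁆) : Subgroup (G ⧸ ⁅D, D⁆)) : Set (G ⧸ ⁅D, D⁆))) :
    y ∈ Subgroup.centralizer (D : Set G) := by
  let φ : D →* D := (MulAut.conjNormal y).toMonoidHom
  have hφ : ∀ d : D, ((φ d : D) : G) = y * d * y⁻¹ := fun d => MulAut.conjNormal_apply y d
  have hiter : ∀ (j : ℕ) (d : D), ((φ^[j] d : D) : G) = y ^ j * d * (y ^ j)⁻¹ := by
    intro j d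
    induction j with
    | zero => simp
    | succ j ih =>
      rw [Function.iterate_succ_apply', hφ, ih, pow_succ']
      group
  have hφm : ∀ d, φ^[orderOf y] d = d := by
    intro d
    apply Subtype.ext
    rw [hiter, pow_orderOf_eq_one]
    simp
  have hc : Nat.Coprime p (orderOf y) := (Nat.Prime.coprime_iff_not_dvd (Fact.out)).2 hy
  have h1 : ∀ d : D, φ d * d⁻¹ ∈ commutator D := by
    intro d
    have hm : ((d : G) : G ⧸ ⁅D, D⁆) ∈ D.map (QuotientGroup.mk' ⁅D, D⁆) :=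
      Subgroup.mem_map_of_mem _ d.2
    have hcm := Subgroup.mem_centralizer_iff.1 hq _ hm
    have h2 : y * d * y⁻¹ * (d : G)⁻¹ ∈ ⁅D, D⁆ := by
      have h3 : ((y * d * y⁻¹ * (d : G)⁻¹ : G) : G ⧸ ⁅D, D⁆) = 1 := by
        have e : ((y * d * y⁻¹ * (d : G)⁻¹ : G) : G ⧸ ⁅D, D⁆) =
            (y : G ⧸ ⁅D, D⁆) * ((d : G) : G ⧸ ⁅D, D⁆) * (y : G ⧸ ⁅D, D⁆)⁻¹ *
              ((d : G) : G ⧸ ⁅D, D⁆)⁻¹ := rfl
        rw [e, ← hcm]
        group
      exact (QuotientGroup.eq_one_iff _).1 h3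
    rw [← Subgroup.map_subtype_commutator] at h2
    obtain ⟨x, hx, hxe⟩ := Subgroup.mem_map.1 h2
    have : φ d * d⁻¹ = x := by
      apply Subtype.ext
      have e : ((φ d * d⁻¹ : D) : G) = y * d * y⁻¹ * (d : G)⁻¹ := by simp [hφ]
      rw [e]
      exact hxe.symm
    rw [this]
    exact hx
  have hall := coprime_trivial p hD φ (orderOf y) hc hφm h1
  rw [Subgroup.mem_centralizer_iff]
  intro d hd
  have := congrArg Subtype.val (hall ⟨d, hd⟩)
  rw [hφ] at this
  have h4 : y * d * y⁻¹ = d := this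
  exact (mul_inv_eq_iff_eq_mul.1 h4).symm

theorem s4964 (p : ℕ) [Fact p.Prime] (M : Ideal AlgInt) (hM : IsPModular p M) (D : Subgroup G)
    [hDn : D.Normal] (hD : IsPGroup p D) :
    (∀ χ ψ : IrrCharacter (G ⧸ ⁅D, D⁆), SameBlock M (χ : G ⧸ ⁅D, D⁆ → ℂ) (ψ : G ⧸ ⁅D, D⁆ → ℂ) ↔
      SameBlock M ((χ : G ⧸ ⁅D, D⁆ → ℂ) ∘ QuotientGroup.mk)
        ((ψ : G ⧸ ⁅D, D⁆ → ℂ) ∘ QuotientGroup.mk)) ∧
    ∀ B : Set (IrrCharacter G), IsPBlock M B →
      ∃ χ : IrrCharacter (G ⧸ ⁅D, D⁆), ∃ θ ∈ B,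
        (θ : G → ℂ) = (χ : G ⧸ ⁅D, D⁆ → ℂ) ∘ QuotientGroup.mk := by
  classical
  haveI : M.IsPrime := hM.2.1.isPrime
  haveI : Fintype (G ⧸ ⁅D, D⁆) := Fintype.ofFinite _
  have hPp : IsPGroup p ↥(⁅D, D⁆ : Subgroup G) := hD.to_le (Subgroup.commutator_le_left D D)
  refine ⟨fun χ ψ => ⟨sameBlock_infl _, fun h => sameBlock_of_regular hM fun q hq => ?_⟩, ?_⟩
  · obtain ⟨y, hy, rfl⟩ := exists_regular_lift _ hM.1 hq
    by_cases hyc : y ∈ Subgroup.centralizer (D : Set G)
    · have hyP : y ∈ Subgroup.centralizer ((⁅D, D⁆ : Subgroup G) : Set G) :=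
        Subgroup.centralizer_le (Subgroup.commutator_le_left D D) hyc
      rw [← cc_infl _ hM.1 hPp χ hy hyP, ← cc_infl _ hM.1 hPp ψ hy hyP]
      exact h y
    · have hnq : (y : G ⧸ ⁅D, D⁆) ∉ Subgroup.centralizer
          ((D.map (QuotientGroup.mk' ⁅D, D⁆) : Subgroup (G ⧸ ⁅D, D⁆)) : Set (G ⧸ ⁅D, D⁆)) :=
        fun hh => hyc (centralize_of_quot p D hD hy hh)
      haveI : (D.map (QuotientGroup.mk' ⁅D, D⁆)).Normal :=
        hDn.map _ (QuotientGroup.mk'_surjective _)
      have hDq : IsPGroup p ↥(D.map (QuotientGroup.mk' ⁅D, D⁆)) := hD.map _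
      exact memLocalIdeal_sub (centralChar_mem_of_not_centralizer hM hDq χ hnq)
        (centralChar_mem_of_not_centralizer hM hDq ψ hnq)
  · intro B hB
    obtain ⟨χ, hχ⟩ := exists_infl' _ hM hPp hB
    exact ⟨χ, inflIrr _ χ, hχ, rfl⟩

end Main

end Cfsg.Agent.Lib.InflD
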