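import Mathlib

/-! Irreducible endomorphisms of finite-dimensional spaces: the field generated and its centraliser. -/

set_option autoImplicit false

namespace Cfsg.Agent.Lib.IrrEnd

universe u v

variable {F : Type u} {V : Type v} [Field F] [AddCommGroup V] [Module F V]

/-- No invariant subspaces. -/
def Irr (f : Module.End F V) : Prop :=
  ∀ W : Submodule F V, W ≠ ⊥ → (∀ w ∈ W, f w ∈ W) → W = ⊤

theorem eq_zero_or_injective {f : Module.End F V} (h : Irr f) (g : Module.End F V) (hg : g * f = f * g) :
    g = 0 ∨ Function.Injective g := by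
  by_cases hk : LinearMap.ker g = ⊥
  · exact Or.inr (LinearMap.ker_eq_bot.1 hk)
  · left
    have h1 := h (LinearMap.ker g) hk (by
      intro w hw
      rw [LinearMap.mem_ker] at hw ⊢
      have := congrArg (fun z : Module.End F V => z w) hg
      simp only [Module.End.mul_apply, hw, map_zero] at this
      exact this)
    exact LinearMap.ker_eq_top.1 h1

theorem aeval_comm (f : Module.End F V) (p : Polynomial F) :
    Polynomial.aeval f p * f = f * Polynomial.aeval f p := by
  rw [← Polynomial.aeval_X (R := F) f]
  simp only [Polynomial.aeval_X]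
  have h1 : Polynomial.aeval f (p * Polynomial.X) = Polynomial.aeval f p * f := by
    rw [map_mul, Polynomial.aeval_X]
  have h2 : Polynomial.aeval f (Polynomial.X * p) = f * Polynomial.aeval f p := by
    rw [map_mul, Polynomial.aeval_X]
  rw [← h1, ← h2, mul_comm]

variable [FiniteDimensional F V]

theorem irr_minpoly {f : Module.End F V} (h : Irr f) [Nontrivial V] : Irreducible (minpoly F f) := by
  have hint : IsIntegral F f := Algebra.IsIntegral.isIntegral f
  have hm : minpoly F f ≠ 0 := minpoly.ne_zero hint
  refine ⟨minpoly.not_isUnit F f, ?_⟩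
  intro a b hab
  have h0 : Polynomial.aeval f a * Polynomial.aeval f b = 0 := by
    rw [← map_mul, ← hab, minpoly.aeval]
  have key : ∀ c d : Polynomial F, minpoly F f = c * d → Polynomial.aeval f d = 0 → IsUnit c := by
    intro c d h1 h2
    obtain ⟨e, he⟩ := minpoly.dvd F f h2
    have h3 : minpoly F f * (c * e - 1) = 0 := by
      have : minpoly F f * (c * e) = c * (minpoly F f * e) := by ring
      rw [mul_sub, this, ← he, ← h1, mul_one, sub_self]
    have h4 := (mul_eq_zero.1 h3).resolve_left hm
    exact IsUnit.of_mul_eq_one _ (sub_eq_zero.1 h4)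
  rcases eq_zero_or_injective h _ (aeval_comm f b) with hb | hb
  · exact Or.inl (key a b hab hb)
  · right
    have hsurj := (LinearMap.injective_iff_surjective).1 hb
    have ha : Polynomial.aeval f a = 0 := by
      ext w
      obtain ⟨u, rfl⟩ := hsurj w
      have := congrArg (fun z : Module.End F V => z u) h0
      simpa using this
    exact key b a (by rw [hab, mul_comm]) ha

/-- The field generated by an irreducible endomorphism. -/
theorem exists_field {f : Module.End F V} (h : Irr f) [Nontrivial V] :
    ∃ (E : Type u) (_ : Field E) (_ : Algebra F E) (ψ : E →ₐ[F] Module.End F V),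
      Function.Injective ψ ∧ (∀ e, ψ e * f = f * ψ e) ∧ (∀ g : Module.End F V, g * f = f * g → ∃ e, ψ e = g) ∧
      (∀ e, LinearMap.det (ψ e) = Algebra.norm F e) ∧ Module.Finite F E ∧
      (∀ v : V, v ≠ 0 → Function.Bijective (fun e : E => ψ e v)) := by
  classical
  haveI : Fact (Irreducible (minpoly F f)) := ⟨irr_minpoly h⟩
  let m := minpoly F f
  let E := AdjoinRoot m
  let ψ : E →ₐ[F] Module.End F V :=
    Ideal.Quotient.liftₐ (Ideal.span {m}) (Polynomial.aeval f) (by
      intro a ha
      obtain ⟨c, rfl⟩ := Ideal.mem_span_singleton'.1 ha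
      rw [map_mul, minpoly.aeval, mul_zero])
  have hψmk : ∀ p : Polynomial F, ψ (AdjoinRoot.mk m p) = Polynomial.aeval f p := fun p => rfl
  have hψinj : Function.Injective ψ := ψ.toRingHom.injective
  have hroot : ψ (AdjoinRoot.root m) = f := by
    have := hψmk Polynomial.X
    rwa [Polynomial.aeval_X, AdjoinRoot.mk_X] at this
  have hcomm : ∀ e, ψ e * f = f * ψ e := by
    intro e
    rw [← hroot, ← map_mul, ← map_mul, mul_comm]
  have hunit : ∀ e : E, e ≠ 0 → Function.Injective (ψ e) := by
    intro e he
    have h1 : ψ e⁻¹ * ψ e = 1 := by rw [← map_mul, inv_mul_cancel₀ he, map_one]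
    intro a b hab
    have := congrArg (ψ e⁻¹) hab
    have h2 : ∀ c, ψ e⁻¹ (ψ e c) = c := fun c => by
      have := congrArg (fun z : Module.End F V => z c) h1
      simpa using this
    rwa [h2, h2] at this
  have hbij : ∀ v : V, v ≠ 0 → Function.Bijective (fun e : E => ψ e v) := by
    intro v hv
    let L : E →ₗ[F] V := (LinearMap.applyₗ v).comp ψ.toLinearMap
    have hL : ∀ e, L e = ψ e v := fun e => rfl
    constructor
    · show Function.Injective L
      rw [injective_iff_map_eq_zero]
      intro e he
      by_contra hne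
      apply hv
      apply hunit e hne
      rw [← hL, he, map_zero]
    · show Function.Surjective L
      rw [← LinearMap.range_eq_top]
      apply h
      · intro hbot
        apply hv
        have : v ∈ LinearMap.range L := ⟨1, by rw [hL, map_one]; rfl⟩
        rw [hbot] at this
        simpa using this
      · rintro _ ⟨e, rfl⟩
        refine ⟨AdjoinRoot.root m * e, ?_⟩
        rw [hL, hL, map_mul, hroot]
        rfl
  obtain ⟨v, hv⟩ := exists_ne (0 : V)
  let ev : E ≃ₗ[F] V := LinearEquiv.ofBijective ((LinearMap.applyₗ v).comp ψ.toLinearMap) (hbij v hv)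
  have hev : ∀ e, ev e = ψ e v := fun e => rfl
  haveI hfin : Module.Finite F E := Module.Finite.equiv ev.symm
  refine ⟨E, inferInstance, inferInstance, ψ, hψinj, hcomm, ?_, ?_, hfin, hbij⟩
  · intro g hg
    obtain ⟨e, he⟩ := (hbij v hv).2 (g v)
    refine ⟨e, ?_⟩
    have h1 : (g - ψ e) * f = f * (g - ψ e) := by
      rw [sub_mul, mul_sub, hg, hcomm]
    rcases eq_zero_or_injective h _ h1 with h2 | h2
    · exact (sub_eq_zero.1 h2).symm
    · exfalso
      apply hv
      apply h2
      have : (g - ψ e) v = 0 := by
        simp only [LinearMap.sub_apply]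
        rw [sub_eq_zero]
        exact he.symm
      rw [this, map_zero]
  · intro e
    have h1 : ψ e = ev.toLinearMap ∘ₗ (LinearMap.mulLeft F e) ∘ₗ ev.symm.toLinearMap := by
      ext w
      obtain ⟨a, rfl⟩ := ev.surjective w
      show ψ e (ev a) = ev (e * ev.symm (ev a))
      rw [LinearEquiv.symm_apply_apply, hev, hev, map_mul]
      rfl
    rw [h1, LinearMap.det_conj, Algebra.norm_apply]
    rfl

end Cfsg.Agent.Lib.IrrEnd
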