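import Mathlib
import Cfsg.Prelude.Def_TwoFusion
import Cfsg.Agent.Lib.InvolSylow

/-!
# Isolated involutions

`Cfsg.IsIsolatedInvolution z`: `z` has order 2 and no other conjugate commutes with it.
-/

set_option autoImplicit false
set_option linter.unusedSectionVars false

namespace Cfsg.Agent.Lib.Isolated

open Cfsg.Agent.Lib.Invol Cfsg.Agent.Lib.InvolSylow

variable {G : Type*} [Group G]

/-- conjugation formula for the second involution. -/
lemma zpow_conj_y {x y : G} (hx : orderOf x = 2) (hy : orderOf y = 2) (j : ℤ) :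
    (x * y) ^ j * y * ((x * y) ^ j)⁻¹ = (x * y) ^ (2 * j - 1) * x := by
  have e := y_eq_zpow_x hx hy
  have e2 := zpow_conj hx hy j
  rw [zpow_neg_one] at e
  generalize x * y = a at e e2 ⊢
  have e3 : a ^ j * a⁻¹ = a⁻¹ * a ^ j := ((Commute.refl a).zpow_left j).inv_right.eq
  calc a ^ j * y * (a ^ j)⁻¹
      = (a ^ j * a⁻¹) * x * (a ^ j)⁻¹ := by
        conv_lhs => rw [e]
        simp only [mul_assoc]
    _ = a ^ (-1 : ℤ) * (a ^ j * x * (a ^ j)⁻¹) := by
        rw [e3, zpow_neg_one]; simp only [mul_assoc]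
    _ = a ^ (-1 : ℤ) * (a ^ (2 * j) * x) := by rw [e2]
    _ = a ^ (2 * j - 1) * x := by
        rw [← mul_assoc, ← zpow_add]; congr 2; omega

lemma order_two {z : G} (hz : Cfsg.IsIsolatedInvolution z) : orderOf z = 2 := hz.1

lemma conj_isolated {z : G} (hz : Cfsg.IsIsolatedInvolution z) (g : G) :
    Cfsg.IsIsolatedInvolution (g * z * g⁻¹) := by
  refine ⟨by rw [orderOf_conj']; exact hz.1, ?_⟩
  intro h hc
  set v := g * z * g⁻¹ with hv
  have h1 : Commute z ((g⁻¹ * h * g) * z * (g⁻¹ * h * g)⁻¹) := by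
    have e : (g⁻¹ * h * g) * z * (g⁻¹ * h * g)⁻¹ = g⁻¹ * (h * v * h⁻¹) * g := by
      rw [hv]; group
    rw [e]
    have hc' : v * (h * v * h⁻¹) = (h * v * h⁻¹) * v := hc
    show z * (g⁻¹ * (h * v * h⁻¹) * g) = (g⁻¹ * (h * v * h⁻¹) * g) * z
    have hz' : z = g⁻¹ * v * g := by rw [hv]; group
    rw [hz']
    calc g⁻¹ * v * g * (g⁻¹ * (h * v * h⁻¹) * g) = g⁻¹ * (v * (h * v * h⁻¹)) * g := by group
      _ = g⁻¹ * ((h * v * h⁻¹) * v) * g := by rw [hc']
      _ = g⁻¹ * (h * v * h⁻¹) * g * (g⁻¹ * v * g) := by group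
  have h2 := hz.2 _ h1
  have e : h * v * h⁻¹ = g * ((g⁻¹ * h * g) * z * (g⁻¹ * h * g)⁻¹) * g⁻¹ := by
    rw [hv]; group
  rw [e, h2]

variable [Finite G]

/-- The product of an isolated involution and a conjugate has odd order. -/
lemma odd_mul_conj {z : G} (hz : Cfsg.IsIsolatedInvolution z) (g : G) :
    Odd (orderOf (z * (g * z * g⁻¹))) := by
  by_contra hne
  rw [Nat.not_odd_iff_even] at hne
  have hzo := hz.1
  set v := g * z * g⁻¹ with hv
  have hvo : orderOf v = 2 := by rw [hv, orderOf_conj']; exact hzo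
  set a := z * v with ha
  have ht := orderOf_half' hne
  have hc := half_commute_left hzo hvo hne
  set t := a ^ (orderOf a / 2) with htdef
  -- w := t * z is a conjugate of z commuting with z
  obtain ⟨m, hm⟩ := hne
  have hk : orderOf a / 2 = m := by omega
  obtain ⟨c, hcw⟩ : ∃ c : G, c * z * c⁻¹ = t * z := by
    rcases Nat.even_or_odd' m with ⟨l, hl | hl⟩
    · refine ⟨a ^ (l : ℤ), ?_⟩
      rw [zpow_conj hzo hvo]
      congr 1
      rw [htdef, hk, hl, ← zpow_natCast]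
      congr 1
    · refine ⟨a ^ ((l + 1 : ℕ) : ℤ) * g, ?_⟩
      have e1 := zpow_conj_y hzo hvo ((l + 1 : ℕ) : ℤ)
      have e2 : (a ^ ((l + 1 : ℕ) : ℤ) * g) * z * (a ^ ((l + 1 : ℕ) : ℤ) * g)⁻¹ =
          a ^ ((l + 1 : ℕ) : ℤ) * v * (a ^ ((l + 1 : ℕ) : ℤ))⁻¹ := by
        rw [hv]; group
      rw [e2, e1]
      congr 1
      rw [htdef, hk, hl, ← zpow_natCast]
      congr 1
      push_cast; ring
  have hcomm : Commute z (c * z * c⁻¹) := by
    rw [hcw]
    show z * (t * z) = t * z * z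
    rw [← mul_assoc, hc.eq.symm]
  have h1 := hz.2 c hcomm
  rw [hcw] at h1
  have h2 : t = 1 := by simpa using h1
  exact ne_one_of_two ht h2

/-- In the dihedral group of an isolated involution and a conjugate: conjugating element. -/
lemma exists_zpowers_conj {z : G} (hz : Cfsg.IsIsolatedInvolution z) (g : G) :
    ∃ d ∈ Subgroup.zpowers (z * (g * z * g⁻¹)), d * z * d⁻¹ = g * z * g⁻¹ := by
  have hzo := hz.1
  set v := g * z * g⁻¹ with hv
  have hvo : orderOf v = 2 := by rw [hv, orderOf_conj']; exact hzo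
  obtain ⟨m, hm⟩ := odd_mul_conj hz g
  rw [← hv] at hm
  refine ⟨(z * v) ^ (m : ℤ), Subgroup.zpow_mem_zpowers _ _, ?_⟩
  rw [zpow_conj hzo hvo]
  conv_rhs => rw [y_eq_zpow_x hzo hvo]
  congr 1
  rw [zpow_eq_zpow_iff_modEq, hm, Int.modEq_iff_dvd]
  push_cast
  exact ⟨-1, by ring⟩

/-- An odd-order element inverted by `z`: relation between conjugates and squares. -/
lemma conj_of_inverted {z k : G} (hz : orderOf z = 2) (hk : z * k * z⁻¹ = k⁻¹) :
    k * z * k⁻¹ = k ^ 2 * z := by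
  have h1 : z * k = k⁻¹ * z := by
    rw [mul_inv_eq_iff_eq_mul] at hk; exact hk
  have h2 : z * k⁻¹ = k * z := by
    have := congrArg (fun w => w⁻¹) hk
    simp only [mul_inv_rev, inv_inv] at this
    rw [inv_eq_self hz] at this
    -- z * k⁻¹ * z = k
    calc z * k⁻¹ = z * k⁻¹ * z * z := by rw [mul_assoc _ z z, mul_self_eq_one hz, mul_one]
      _ = k * z := by rw [← mul_assoc] at this; rw [this]
  rw [mul_assoc, h2, ← mul_assoc, pow_two]

lemma odd_self_pow {k : G} (hk : Odd (orderOf k)) : ∃ m : ℕ, (k ^ 2) ^ (m + 1) = k ∧ 2 * m + 1 = orderOf k := by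
  obtain ⟨m, hm⟩ := hk
  refine ⟨m, ?_, hm.symm⟩
  rw [← pow_mul]
  have : 2 * (m + 1) = orderOf k + 1 := by omega
  rw [this, pow_succ, pow_orderOf_eq_one, one_mul]

/-- **Existence and uniqueness** of the odd-order element inverted by `z` in a coset of `C(z)`. -/
lemma existsUnique_inverted {z : G} (hz : Cfsg.IsIsolatedInvolution z) (g : G) :
    ∃! k : G, (Odd (orderOf k) ∧ z * k * z⁻¹ = k⁻¹) ∧ g⁻¹ * k ∈ Subgroup.centralizer ({z} : Set G) := by
  have hzo := hz.1
  set v := g * z * g⁻¹ with hv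
  have hvo : orderOf v = 2 := by rw [hv, orderOf_conj']; exact hzo
  set a := v * z with ha
  have haodd : Odd (orderOf a) := by
    have h1 := odd_mul_conj hz g
    rw [← hv] at h1
    have : a = (z * v)⁻¹ := by
      rw [ha, mul_inv_rev, inv_eq_self hzo, inv_eq_self hvo]
    rwa [this, orderOf_inv]
  -- z inverts a
  have hainv : z * a * z⁻¹ = a⁻¹ := by
    rw [ha, mul_inv_rev, inv_eq_self hzo, inv_eq_self hvo]
    simp [mul_assoc, mul_self_eq_one hzo]
  obtain ⟨m, hm1, hm2⟩ := odd_self_pow haodd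
  set k := a ^ (m + 1) with hk
  have hk2 : k ^ 2 = a := by
    rw [hk, ← pow_mul]
    have : (m + 1) * 2 = orderOf a + 1 := by omega
    rw [this, pow_succ, pow_orderOf_eq_one, one_mul]
  have hkinv : z * k * z⁻¹ = k⁻¹ := by
    rw [hk, ← conj_pow, hainv, inv_pow]
  have hkodd : Odd (orderOf k) := by
    have h1 : orderOf k ∣ orderOf a := by
      rw [hk]; exact orderOf_pow_dvd _
    exact Odd.of_dvd_nat haodd h1
  have hconj : k * z * k⁻¹ = v := by
    rw [conj_of_inverted hzo hkinv, hk2, ha, mul_assoc, mul_self_eq_one hzo, mul_one]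
  -- the key characterization
  have hmem : ∀ c : G, g⁻¹ * c ∈ Subgroup.centralizer ({z} : Set G) ↔ c * z * c⁻¹ = v := by
    intro c
    rw [Subgroup.mem_centralizer_singleton_iff]
    constructor
    · intro h
      have h1 : c * z * c⁻¹ = g * (g⁻¹ * c * z) * c⁻¹ := by group
      rw [h1, h, hv]; group
    · intro h
      have h1 : g⁻¹ * c * z = g⁻¹ * (c * z * c⁻¹) * c := by group
      rw [h1, h, hv]; group
  refine ⟨k, ⟨⟨hkodd, hkinv⟩, (hmem k).mpr hconj⟩, ?_⟩
  rintro k' ⟨⟨hk'odd, hk'inv⟩, hk'mem⟩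
  have h1 : k' * z * k'⁻¹ = v := (hmem k').mp hk'mem
  have h2 : k' ^ 2 = a := by
    rw [conj_of_inverted hzo hk'inv] at h1
    rw [ha, ← h1, mul_assoc, mul_self_eq_one hzo, mul_one]
  obtain ⟨m', hm'1, hm'2⟩ := odd_self_pow hk'odd
  -- orders agree
  have hord : orderOf a = orderOf k' := by
    rw [← h2, orderOf_pow]
    have hc : Nat.gcd (orderOf k') 2 = 1 := by
      rw [Nat.gcd_comm]; exact Nat.coprime_two_left.mpr hk'odd
    rw [hc, Nat.div_one]
  have hmm : m = m' := by omega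
  rw [← hm'1, h2, ← hmm]

end Cfsg.Agent.Lib.Isolated
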