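import Cfsg.Agent.Lib.Isolated
import Cfsg.Prelude.Def_TwoFusion

set_option autoImplicit false

namespace Cfsg.Agent.Lib.Isolated2

open Cfsg.Agent.Lib.Invol Cfsg.Agent.Lib.InvolSylow Cfsg.Agent.Lib.Isolated

variable {G : Type*} [Group G] [Finite G]

/-- An odd-order element inverting `c` forces `c * c = 1`. -/
lemma sq_eq_one_of_odd_inverts {w c : G} (hodd : Odd (orderOf w)) (hinv : w * c * w⁻¹ = c⁻¹) : c * c = 1 := by
  obtain ⟨m, hm, -⟩ := odd_self_pow hodd
  have h2 : (w ^ 2) * c * (w ^ 2)⁻¹ = c := by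
    calc (w ^ 2) * c * (w ^ 2)⁻¹ = w * (w * c * w⁻¹) * w⁻¹ := by
          simp only [pow_two, mul_inv_rev, mul_assoc]
      _ = w * c⁻¹ * w⁻¹ := by rw [hinv]
      _ = (w * c * w⁻¹)⁻¹ := by group
      _ = c := by rw [hinv, inv_inv]
  have h3 : Commute (w ^ 2) c := by
    show w ^ 2 * c = c * w ^ 2
    calc w ^ 2 * c = (w ^ 2) * c * (w ^ 2)⁻¹ * w ^ 2 := by group
      _ = c * w ^ 2 := by rw [h2]
  have h4 : Commute w c := by
    have := h3.pow_left (m + 1)
    rwa [hm] at this
  have h5 : c = c⁻¹ := by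
    rw [← hinv, h4.eq]; group
  calc c * c = c⁻¹ * c := by nth_rw 1 [h5]
    _ = 1 := by group

/-- product of two conjugates of an isolated involution has odd order. -/
lemma odd_mul_of_conj {z t t' : G} (hz : Cfsg.IsIsolatedInvolution z) (ht : IsConj z t) (ht' : IsConj z t') :
    Odd (orderOf (t * t')) := by
  obtain ⟨g, rfl⟩ := isConj_iff.mp ht
  obtain ⟨h, rfl⟩ := isConj_iff.mp ht'
  have hi := conj_isolated hz g
  have := odd_mul_conj hi (h * g⁻¹)
  have e : (h * g⁻¹) * (g * z * g⁻¹) * (h * g⁻¹)⁻¹ = h * z * h⁻¹ := by group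
  rwa [e] at this

lemma conj_mul_self {z t : G} (hz : orderOf z = 2) (ht : IsConj z t) : t * t = 1 := by
  obtain ⟨g, rfl⟩ := isConj_iff.mp ht
  calc g * z * g⁻¹ * (g * z * g⁻¹) = g * (z * z) * g⁻¹ := by group
    _ = 1 := by rw [mul_self_eq_one hz]; group

/-- elements inverted by `z` of odd order correspond to conjugates of `z`. -/
lemma inverted_iff_conj {z : G} (hz : Cfsg.IsIsolatedInvolution z) (k : G) :
    (Odd (orderOf k) ∧ z * k * z⁻¹ = k⁻¹) ↔ IsConj z (k * z) := by
  have hzo := hz.1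
  have hzz := mul_self_eq_one hzo
  have hzi := inv_eq_self hzo
  constructor
  · rintro ⟨hodd, hinv⟩
    obtain ⟨m, hm, hm2⟩ := odd_self_pow hodd
    set b := k ^ (m + 1) with hb
    have hb2 : b ^ 2 = k := by
      rw [hb, ← pow_mul, mul_comm, pow_mul]; exact hm
    have hbinv : z * b * z⁻¹ = b⁻¹ := by
      rw [hb, ← conj_pow, hinv, inv_pow]
    have := conj_of_inverted hzo hbinv
    rw [hb2] at this
    rw [← this]
    exact isConj_iff.mpr ⟨b, rfl⟩
  · intro h
    have hodd := odd_mul_of_conj hz h (IsConj.refl z)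
    have e : k * z * z = k := by rw [mul_assoc, hzz, mul_one]
    rw [e] at hodd
    refine ⟨hodd, ?_⟩
    have h2 := conj_mul_self hzo h
    -- (k z)(k z) = 1
    have h3 : k⁻¹ = z * k * z := by
      have : k * (z * k * z) = 1 := by rw [← h2]; group
      exact inv_eq_of_mul_eq_one_right this
    rw [h3, hzi]

/-- middle involution. -/
lemma exists_middle {z s t : G} (hz : Cfsg.IsIsolatedInvolution z) (hs : s * s = 1) (ht : IsConj z t)
    (hst : IsConj z (s * t * s)) : ∃ m : G, IsConj z m ∧ m * s = s * m ∧ m * t * m = s * t * s := by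
  have hsi : s⁻¹ = s := inv_eq_of_mul_eq_one_right hs
  have htt := conj_mul_self hz.1 ht
  have hti : t⁻¹ = t := inv_eq_of_mul_eq_one_right htt
  set t' := s * t * s with ht'
  have ht't' := conj_mul_self hz.1 hst
  have ht'i : t'⁻¹ = t' := inv_eq_of_mul_eq_one_right ht't'
  set a := t' * t with ha
  have hodd : Odd (orderOf a) := odd_mul_of_conj hz hst ht
  have htinv : t * a * t⁻¹ = a⁻¹ := by
    rw [ha, hti, mul_inv_rev, hti, ht'i]
    calc t * (t' * t) * t = t * t' * (t * t) := by group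
      _ = t * t' := by rw [htt, mul_one]
  have hsinv : s * a * s⁻¹ = a⁻¹ := by
    rw [ha, hsi, mul_inv_rev, hti, ht'i, ht']
    calc s * (s * t * s * t) * s = (s * s) * t * s * t * s := by group
      _ = t * (s * t * s) := by rw [hs]; group
  obtain ⟨m₀, hm₀, -⟩ := odd_self_pow hodd
  set b := a ^ (m₀ + 1) with hb
  have hb2 : b ^ 2 = a := by rw [hb, ← pow_mul, mul_comm, pow_mul]; exact hm₀
  have hbt : t * b * t⁻¹ = b⁻¹ := by rw [hb, ← conj_pow, htinv, inv_pow]
  have hbs : s * b * s⁻¹ = b⁻¹ := by rw [hb, ← conj_pow, hsinv, inv_pow]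
  have hbodd : Odd (orderOf b) := by
    have h1 : orderOf b ∣ orderOf a := by rw [hb]; exact orderOf_pow_dvd _
    exact Odd.of_dvd_nat hodd h1
  obtain ⟨m₁, hm₁, -⟩ := odd_self_pow hbodd
  set c := b ^ (m₁ + 1) with hc
  have hc2 : c ^ 2 = b := by rw [hc, ← pow_mul, mul_comm, pow_mul]; exact hm₁
  have hct : t * c * t⁻¹ = c⁻¹ := by rw [hc, ← conj_pow, hbt, inv_pow]
  have hto : orderOf t = 2 := by
    obtain ⟨g, rfl⟩ := isConj_iff.mp ht
    rw [orderOf_conj']; exact hz.1
  have hcm : c * t * c⁻¹ = b * t := by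
    rw [conj_of_inverted hto hct, hc2]
  refine ⟨b * t, ?_, ?_, ?_⟩
  · rw [← hcm]
    exact ht.trans (isConj_iff.mpr ⟨c, rfl⟩)
  · -- s commutes with b t
    have h1 : s * b = b⁻¹ * s := by
      rw [← hbs, hsi, mul_assoc (s * b) s s, hs, mul_one]
    have h3 : t' = a * t := by rw [ha, mul_assoc, htt, mul_one]
    calc b * t * s = (b * t * s * s⁻¹) * s := by group
      _ = s * (s * (b * t) * s) := by
        rw [hsi]
        calc b * t * s * s * s = (b * t) * s := by
              rw [mul_assoc (b * t * s) s s, hs, mul_one]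
          _ = (s * s) * (b * t) * s := by rw [hs, one_mul]
          _ = s * (s * (b * t) * s) := by group
      _ = s * (b * t) := by
        congr 1
        calc s * (b * t) * s = (s * b) * (t * s) := by group
          _ = b⁻¹ * s * (t * s) := by rw [h1]
          _ = b⁻¹ * (s * t * s) := by group
          _ = b⁻¹ * t' := rfl
          _ = b⁻¹ * (a * t) := by rw [← h3]
          _ = b⁻¹ * (b ^ 2 * t) := by rw [hb2]
          _ = b * t := by group
  · have h3 : t' = a * t := by rw [ha, mul_assoc, htt, mul_one]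
    have h4 : t * b * t = b⁻¹ := by rw [← hbt, hti]
    calc b * t * t * (b * t) = b * (t * t) * (b * t) := by group
      _ = b * (b * t) := by rw [htt]; group
      _ = b ^ 2 * t := by rw [pow_two, mul_assoc]
      _ = a * t := by rw [hb2]
      _ = t' := h3.symm

/-- uniqueness of the middle involution. -/
lemma middle_unique {z t m₁ m₂ : G} (hz : Cfsg.IsIsolatedInvolution z) (ht : IsConj z t) (h₁ : IsConj z m₁)
    (h₂ : IsConj z m₂) (h : m₁ * t * m₁ = m₂ * t * m₂) : m₁ = m₂ := by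
  have h11 := conj_mul_self hz.1 h₁
  have h22 := conj_mul_self hz.1 h₂
  have htt := conj_mul_self hz.1 ht
  have hi1 : m₁⁻¹ = m₁ := inv_eq_of_mul_eq_one_right h11
  have hi2 : m₂⁻¹ = m₂ := inv_eq_of_mul_eq_one_right h22
  have hit : t⁻¹ = t := inv_eq_of_mul_eq_one_right htt
  set c := m₁ * m₂ with hc
  have hcodd : Odd (orderOf c) := odd_mul_of_conj hz h₁ h₂
  have hct : t * c = c * t := by
    have : m₁ * (m₁ * t * m₁) * m₂ = m₁ * (m₂ * t * m₂) * m₂ := by rw [h]
    calc t * c = (m₁ * m₁) * t * m₁ * m₂ := by rw [h11, hc]; group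
      _ = m₁ * (m₁ * t * m₁) * m₂ := by group
      _ = m₁ * (m₂ * t * m₂) * m₂ := this
      _ = m₁ * m₂ * t * (m₂ * m₂) := by group
      _ = c * t := by rw [h22, mul_one]
  have hm₁c : m₁ * c * m₁⁻¹ = c⁻¹ := by
    rw [hc, hi1, mul_inv_rev, hi1, hi2]
    calc m₁ * (m₁ * m₂) * m₁ = (m₁ * m₁) * m₂ * m₁ := by group
      _ = m₂ * m₁ := by rw [h11, one_mul]
  set w := t * m₁ with hw
  have hwodd : Odd (orderOf w) := odd_mul_of_conj hz ht h₁
  have e0 : ∀ c t : G, t⁻¹ = t → t * c⁻¹ * t = (t * c * t)⁻¹ := by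
    intro c t h
    simp only [mul_inv_rev, h, mul_assoc]
  have hwinv : w * c * w⁻¹ = c⁻¹ := by
    rw [hw, mul_inv_rev, hit, hi1]
    calc t * m₁ * c * (m₁ * t) = t * (m₁ * c * m₁⁻¹) * t := by rw [hi1]; simp only [mul_assoc]
      _ = t * c⁻¹ * t := by rw [hm₁c]
      _ = (t * c * t)⁻¹ := e0 c t hit
      _ = (c * t * t)⁻¹ := by rw [hct]
      _ = c⁻¹ := by rw [mul_assoc, htt, mul_one]
  have hcc := sq_eq_one_of_odd_inverts hwodd hwinv
  have hc1 : c = 1 := by
    have hdvd : orderOf c ∣ 2 := orderOf_dvd_of_pow_eq_one (by rw [pow_two]; exact hcc)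
    have h1 : orderOf c ≤ 2 := Nat.le_of_dvd (by norm_num) hdvd
    have hc0 : orderOf c ≠ 2 := by
      intro h2
      rw [h2] at hcodd
      exact absurd hcodd (by decide)
    have : orderOf c = 1 := by
      have hpos : orderOf c ≠ 0 := by
        intro h0; rw [h0] at hcodd; exact absurd hcodd (by decide)
      omega
    exact orderOf_eq_one_iff.mp this
  calc m₁ = c * m₂⁻¹ := by rw [hc]; group
    _ = m₂ := by rw [hc1, one_mul, hi2]

end Cfsg.Agent.Lib.Isolated2
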