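import Cfsg.Agent.Lib.J3VD
set_option autoImplicit false
set_option maxRecDepth 1000000
namespace Cfsg.Agent.Lib.J3VD
open Cfsg.Agent.Lib.PChain Cfsg.Agent.Lib.PermChain Cfsg.Agent.Lib.PermChain2 Cfsg.Agent.Lib.PermChain6 Cfsg.Agent.Lib.F9Code Cfsg.Agent.Lib.F9Line

theorem cB : baseOK dD = true := by decide +kernel
theorem cN : numOK dD = true := by decide +kernel
theorem cS' : shapeOK (cd dD) = true := by decide +kernel
theorem cH0_0 : allR (hwY dD 0) 2 3 = true := by decide +kernel
theorem cH0_1 : allR (hwY dD 0) 3 4 = true := by decide +kernel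
theorem cH0 : RangeOK (hwY dD 0) 2 4 := ((RangeOK.of_allR cH0_0)).trans (RangeOK.of_allR cH0_1)
theorem cH : hwAll dD := by
  intro j hj
  have hj' : j < 2 := hj
  interval_cases j
  · exact cH0
  · exact RangeOK.nil _ _

end Cfsg.Agent.Lib.J3VD
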