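import Cfsg.Agent.Lib.J3VD
set_option autoImplicit false
set_option maxRecDepth 1000000
namespace Cfsg.Agent.Lib.J3VD
open Cfsg.Agent.Lib.PChain Cfsg.Agent.Lib.PermChain Cfsg.Agent.Lib.PermChain2 Cfsg.Agent.Lib.PermChain6 Cfsg.Agent.Lib.F9Code Cfsg.Agent.Lib.F9Line

open Cfsg.Spor Cfsg.Agent.F4Iso in
/-- entries -/
def jA (Z u v : F9) : Cfsg.Agent.Lib.F4Sp.F4 := j3A Cfsg.Agent.Lib.F4Sp.F4 w Z u v
open Cfsg.Spor Cfsg.Agent.F4Iso in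
/-- entries -/
def jE (Z u v : F9) : Cfsg.Agent.Lib.F4Sp.F4 := j3E Cfsg.Agent.Lib.F4Sp.F4 w Z u v
open Cfsg.Spor Cfsg.Agent.F4Iso in
/-- entries -/
def jD (Z u v : F9) : Cfsg.Agent.Lib.F4Sp.F4 := j3D Cfsg.Agent.Lib.F4Sp.F4 w Z u v
open Cfsg.Spor Cfsg.Agent.F4Iso in
/-- entries -/
def jB (Z u v : F9) : Cfsg.Agent.Lib.F4Sp.F4 := j3B Cfsg.Agent.Lib.F4Sp.F4  Z u v
open Cfsg.Spor Cfsg.Agent.F4Iso in
/-- entries -/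
def jC (Z u v : F9) : Cfsg.Agent.Lib.F4Sp.F4 := j3C Cfsg.Agent.Lib.F4Sp.F4  Z u v
open Cfsg.Spor Cfsg.Agent.F4Iso in
theorem gA' : ∀ Z u v : F9, jA Z u v = Cfsg.Agent.Lib.F4Sp.dig (prodW (gwT (0 * 9 + pos Z)) (pos v)) (pos u) := by decide +kernel
open Cfsg.Spor Cfsg.Agent.F4Iso in
theorem gA : ∀ Z u v : F9, j3A Cfsg.Agent.Lib.F4Sp.F4 w Z u v = Cfsg.Agent.Lib.F4Sp.dig (prodW (gwT (0 * 9 + pos Z)) (pos v)) (pos u) := gA'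
open Cfsg.Spor Cfsg.Agent.F4Iso in
theorem gE' : ∀ Z u v : F9, jE Z u v = Cfsg.Agent.Lib.F4Sp.dig (prodW (gwT (1 * 9 + pos Z)) (pos v)) (pos u) := by decide +kernel
open Cfsg.Spor Cfsg.Agent.F4Iso in
theorem gE : ∀ Z u v : F9, j3E Cfsg.Agent.Lib.F4Sp.F4 w Z u v = Cfsg.Agent.Lib.F4Sp.dig (prodW (gwT (1 * 9 + pos Z)) (pos v)) (pos u) := gE'
open Cfsg.Spor Cfsg.Agent.F4Iso in
theorem gD' : ∀ Z u v : F9, jD Z u v = Cfsg.Agent.Lib.F4Sp.dig (prodW (gwT (2 * 9 + pos Z)) (pos v)) (pos u) := by decide +kernel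
open Cfsg.Spor Cfsg.Agent.F4Iso in
theorem gD : ∀ Z u v : F9, j3D Cfsg.Agent.Lib.F4Sp.F4 w Z u v = Cfsg.Agent.Lib.F4Sp.dig (prodW (gwT (2 * 9 + pos Z)) (pos v)) (pos u) := gD'
open Cfsg.Spor Cfsg.Agent.F4Iso in
theorem gB' : ∀ Z u v : F9, Z ≠ 0 → jB Z u v = Cfsg.Agent.Lib.F4Sp.dig (prodW (gwT (3 * 9 + pos Z)) (pos v)) (pos u) := by decide +kernel
open Cfsg.Spor Cfsg.Agent.F4Iso in
theorem gB : ∀ Z u v : F9, Z ≠ 0 → j3B Cfsg.Agent.Lib.F4Sp.F4  Z u v = Cfsg.Agent.Lib.F4Sp.dig (prodW (gwT (3 * 9 + pos Z)) (pos v)) (pos u) := gB'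
open Cfsg.Spor Cfsg.Agent.F4Iso in
theorem gC' : ∀ Z u v : F9, Z ≠ 0 → jC Z u v = Cfsg.Agent.Lib.F4Sp.dig (prodW (gwT (4 * 9 + pos Z)) (pos v)) (pos u) := by decide +kernel
open Cfsg.Spor Cfsg.Agent.F4Iso in
theorem gC : ∀ Z u v : F9, Z ≠ 0 → j3C Cfsg.Agent.Lib.F4Sp.F4  Z u v = Cfsg.Agent.Lib.F4Sp.dig (prodW (gwT (4 * 9 + pos Z)) (pos v)) (pos u) := gC'
open Cfsg.Spor Cfsg.Agent.F4Iso in
theorem gS0' : ∀ u v : F9, jA (1, 0) u v = Cfsg.Agent.Lib.F4Sp.dig (cS 8 (pos v)) (pos u) := by decide +kernel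
open Cfsg.Spor Cfsg.Agent.F4Iso in
theorem gS0 : ∀ u v : F9, j3A Cfsg.Agent.Lib.F4Sp.F4 w (1, 0) u v = Cfsg.Agent.Lib.F4Sp.dig (cS 8 (pos v)) (pos u) := gS0'
open Cfsg.Spor Cfsg.Agent.F4Iso in
theorem gS1' : ∀ u v : F9, jA (0, 1) u v = Cfsg.Agent.Lib.F4Sp.dig (cS 10 (pos v)) (pos u) := by decide +kernel
open Cfsg.Spor Cfsg.Agent.F4Iso in
theorem gS1 : ∀ u v : F9, j3A Cfsg.Agent.Lib.F4Sp.F4 w (0, 1) u v = Cfsg.Agent.Lib.F4Sp.dig (cS 10 (pos v)) (pos u) := gS1'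
open Cfsg.Spor Cfsg.Agent.F4Iso in
theorem gS2' : ∀ u v : F9, jE (0, 0) u v = Cfsg.Agent.Lib.F4Sp.dig (cS 12 (pos v)) (pos u) := by decide +kernel
open Cfsg.Spor Cfsg.Agent.F4Iso in
theorem gS2 : ∀ u v : F9, j3E Cfsg.Agent.Lib.F4Sp.F4 w (0, 0) u v = Cfsg.Agent.Lib.F4Sp.dig (cS 12 (pos v)) (pos u) := gS2'
open Cfsg.Spor Cfsg.Agent.F4Iso in
theorem gS3' : ∀ u v : F9, jD (1, 0) u v = Cfsg.Agent.Lib.F4Sp.dig (cS 14 (pos v)) (pos u) := by decide +kernel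
open Cfsg.Spor Cfsg.Agent.F4Iso in
theorem gS3 : ∀ u v : F9, j3D Cfsg.Agent.Lib.F4Sp.F4 w (1, 0) u v = Cfsg.Agent.Lib.F4Sp.dig (cS 14 (pos v)) (pos u) := gS3'
open Cfsg.Spor Cfsg.Agent.F4Iso in
theorem gS4' : ∀ u v : F9, jD (0, 1) u v = Cfsg.Agent.Lib.F4Sp.dig (cS 16 (pos v)) (pos u) := by decide +kernel
open Cfsg.Spor Cfsg.Agent.F4Iso in
theorem gS4 : ∀ u v : F9, j3D Cfsg.Agent.Lib.F4Sp.F4 w (0, 1) u v = Cfsg.Agent.Lib.F4Sp.dig (cS 16 (pos v)) (pos u) := gS4'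
open Cfsg.Spor Cfsg.Agent.F4Iso in
theorem gS5' : ∀ u v : F9, jB (1, 1) u v = Cfsg.Agent.Lib.F4Sp.dig (cS 18 (pos v)) (pos u) := by decide +kernel
open Cfsg.Spor Cfsg.Agent.F4Iso in
theorem gS5 : ∀ u v : F9, j3B Cfsg.Agent.Lib.F4Sp.F4  (1, 1) u v = Cfsg.Agent.Lib.F4Sp.dig (cS 18 (pos v)) (pos u) := gS5'
open Cfsg.Spor Cfsg.Agent.F4Iso in
theorem gS6' : ∀ u v : F9, jC (1, 0) u v = Cfsg.Agent.Lib.F4Sp.dig (cS 20 (pos v)) (pos u) := by decide +kernel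
open Cfsg.Spor Cfsg.Agent.F4Iso in
theorem gS6 : ∀ u v : F9, j3C Cfsg.Agent.Lib.F4Sp.F4  (1, 0) u v = Cfsg.Agent.Lib.F4Sp.dig (cS 20 (pos v)) (pos u) := gS6'
theorem gOm : ∀ k, k < 9 → prodW womL k = Nat.mul 2 (idc k) := by decide +kernel


end Cfsg.Agent.Lib.J3VD
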