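import Cfsg.Agent.Lib.J3VD
set_option autoImplicit false
set_option maxRecDepth 1000000
namespace Cfsg.Agent.Lib.J3VD
open Cfsg.Agent.Lib.PChain Cfsg.Agent.Lib.PermChain Cfsg.Agent.Lib.PermChain2 Cfsg.Agent.Lib.PermChain6 Cfsg.Agent.Lib.F9Code Cfsg.Agent.Lib.F9Line

theorem cLV_0 : allR (lvY dD.N LV) 0 2048 = true := by decide +kernel
theorem cLV_1 : allR (lvY dD.N LV) 2048 4096 = true := by decide +kernel
theorem cLV_2 : allR (lvY dD.N LV) 4096 6144 = true := by decide +kernel
theorem cLV_3 : allR (lvY dD.N LV) 6144 8192 = true := by decide +kernel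
theorem cLV_4 : allR (lvY dD.N LV) 8192 10240 = true := by decide +kernel
theorem cLV_5 : allR (lvY dD.N LV) 10240 12288 = true := by decide +kernel
theorem cLV_6 : allR (lvY dD.N LV) 12288 14336 = true := by decide +kernel
theorem cLV_7 : allR (lvY dD.N LV) 14336 16384 = true := by decide +kernel
theorem cLV_8 : allR (lvY dD.N LV) 16384 18432 = true := by decide +kernel
theorem cLV_9 : allR (lvY dD.N LV) 18432 20480 = true := by decide +kernel
theorem cLV_10 : allR (lvY dD.N LV) 20480 22528 = true := by decide +kernel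
theorem cLV_11 : allR (lvY dD.N LV) 22528 23256 = true := by decide +kernel
theorem cLV : RangeOK (lvY dD.N LV) 0 23256 := ((((((((((((RangeOK.of_allR cLV_0)).trans (RangeOK.of_allR cLV_1)).trans (RangeOK.of_allR cLV_2)).trans (RangeOK.of_allR cLV_3)).trans (RangeOK.of_allR cLV_4)).trans (RangeOK.of_allR cLV_5)).trans (RangeOK.of_allR cLV_6)).trans (RangeOK.of_allR cLV_7)).trans (RangeOK.of_allR cLV_8)).trans (RangeOK.of_allR cLV_9)).trans (RangeOK.of_allR cLV_10)).trans (RangeOK.of_allR cLV_11)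

end Cfsg.Agent.Lib.J3VD
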