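import Cfsg.Agent.Lib.J3VD
set_option autoImplicit false
set_option maxRecDepth 1000000
namespace Cfsg.Agent.Lib.J3VD
open Cfsg.Agent.Lib.PChain Cfsg.Agent.Lib.PermChain Cfsg.Agent.Lib.PermChain2 Cfsg.Agent.Lib.PermChain6 Cfsg.Agent.Lib.F9Code Cfsg.Agent.Lib.F9Line

theorem cSift0 : sift (cd dD) dD.k 0 (dD.B.map (letter dD 8)) = true := by decide +kernel
theorem cSift1 : sift (cd dD) dD.k 0 (dD.B.map (letter dD 10)) = true := by decide +kernel
theorem cSift2 : sift (cd dD) dD.k 0 (dD.B.map (letter dD 12)) = true := by decide +kernel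
theorem cSift3 : sift (cd dD) dD.k 0 (dD.B.map (letter dD 14)) = true := by decide +kernel
theorem cSift4 : sift (cd dD) dD.k 0 (dD.B.map (letter dD 16)) = true := by decide +kernel
theorem cSift5 : sift (cd dD) dD.k 0 (dD.B.map (letter dD 18)) = true := by decide +kernel
theorem cSift6 : sift (cd dD) dD.k 0 (dD.B.map (letter dD 20)) = true := by decide +kernel
theorem cInv0 : ∀ k, k < 9 → app (cS 8) (cS 9 k) = idc k ∧ app (cS 9) (cS 8 k) = idc k := by decide +kernel
theorem cInv1 : ∀ k, k < 9 → app (cS 10) (cS 11 k) = idc k ∧ app (cS 11) (cS 10 k) = idc k := by decide +kernel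
theorem cInv2 : ∀ k, k < 9 → app (cS 12) (cS 13 k) = idc k ∧ app (cS 13) (cS 12 k) = idc k := by decide +kernel
theorem cInv3 : ∀ k, k < 9 → app (cS 14) (cS 15 k) = idc k ∧ app (cS 15) (cS 14 k) = idc k := by decide +kernel
theorem cInv4 : ∀ k, k < 9 → app (cS 16) (cS 17 k) = idc k ∧ app (cS 17) (cS 16 k) = idc k := by decide +kernel
theorem cInv5 : ∀ k, k < 9 → app (cS 18) (cS 19 k) = idc k ∧ app (cS 19) (cS 18 k) = idc k := by decide +kernel
theorem cInv6 : ∀ k, k < 9 → app (cS 20) (cS 20 k) = idc k ∧ app (cS 20) (cS 20 k) = idc k := by decide +kernel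

end Cfsg.Agent.Lib.J3VD
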