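import Cfsg.Agent.Lib.J3VD
set_option autoImplicit false
set_option maxRecDepth 1000000
namespace Cfsg.Agent.Lib.J3VD
open Cfsg.Agent.Lib.PChain Cfsg.Agent.Lib.PermChain Cfsg.Agent.Lib.PermChain2 Cfsg.Agent.Lib.PermChain6 Cfsg.Agent.Lib.F9Code Cfsg.Agent.Lib.F9Line

theorem sT : transOK dD = true := by decide +kernel
theorem sF : subOK dD sS = true := by decide +kernel
theorem sR : rootsOK dD sS = true := by decide +kernel
theorem sV : trivOK dD sS = true := by decide +kernel
theorem sD : divOKx dD sS 136 = true := by decide +kernel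
theorem sE : uniqOK sS 136 27 = true := by decide +kernel
/-- the word excluding a block -/
noncomputable def wEL : List ℕ := [0, 1, 1, 0]
theorem sE1 : wEL.all (fun z => or (and (Nat.ble (dD.lt 0) z) (Nat.blt z (dD.lt (0 + 1)))) (and (Nat.ble (dD.lt 0) (invW dD z)) (Nat.blt (invW dD z) (dD.lt (0 + 1))))) = true := by decide +kernel
theorem sE2 : sS.fo (walk dD 0 wEL) = 27 := by decide +kernel
theorem sE3 : sS.fo 2938 = 27 := by decide +kernel
theorem sE4 : sS.fo (walk dD 2938 wEL) ≠ 27 := by decide +kernel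
theorem sE5 : sS.fo (walk dD 2938 wEL) ≠ sS.fo 0 := by decide +kernel

end Cfsg.Agent.Lib.J3VD
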