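import Cfsg.Agent.Lib.J3VD
set_option autoImplicit false
set_option maxRecDepth 1000000
namespace Cfsg.Agent.Lib.J3VD
open Cfsg.Agent.Lib.PChain Cfsg.Agent.Lib.PermChain Cfsg.Agent.Lib.PermChain2 Cfsg.Agent.Lib.PermChain6 Cfsg.Agent.Lib.F9Code Cfsg.Agent.Lib.F9Line

theorem sP0_0 : allR (powY dD 19 0) 0 2048 = true := by decide +kernel
theorem sP0_1 : allR (powY dD 19 0) 2048 4096 = true := by decide +kernel
theorem sP0_2 : allR (powY dD 19 0) 4096 6144 = true := by decide +kernel
theorem sP0_3 : allR (powY dD 19 0) 6144 8192 = true := by decide +kernel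
theorem sP0_4 : allR (powY dD 19 0) 8192 10240 = true := by decide +kernel
theorem sP0_5 : allR (powY dD 19 0) 10240 12288 = true := by decide +kernel
theorem sP0_6 : allR (powY dD 19 0) 12288 14336 = true := by decide +kernel
theorem sP0_7 : allR (powY dD 19 0) 14336 16384 = true := by decide +kernel
theorem sP0_8 : allR (powY dD 19 0) 16384 18432 = true := by decide +kernel
theorem sP0_9 : allR (powY dD 19 0) 18432 20480 = true := by decide +kernel
theorem sP0_10 : allR (powY dD 19 0) 20480 22528 = true := by decide +kernel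
theorem sP0_11 : allR (powY dD 19 0) 22528 23256 = true := by decide +kernel
theorem sP0 : RangeOK (powY dD 19 0) 0 23256 := ((((((((((((RangeOK.of_allR sP0_0)).trans (RangeOK.of_allR sP0_1)).trans (RangeOK.of_allR sP0_2)).trans (RangeOK.of_allR sP0_3)).trans (RangeOK.of_allR sP0_4)).trans (RangeOK.of_allR sP0_5)).trans (RangeOK.of_allR sP0_6)).trans (RangeOK.of_allR sP0_7)).trans (RangeOK.of_allR sP0_8)).trans (RangeOK.of_allR sP0_9)).trans (RangeOK.of_allR sP0_10)).trans (RangeOK.of_allR sP0_11)
theorem sP1_0 : allR (powY dD 19 1) 0 2048 = true := by decide +kernel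
theorem sP1_1 : allR (powY dD 19 1) 2048 4096 = true := by decide +kernel
theorem sP1_2 : allR (powY dD 19 1) 4096 6144 = true := by decide +kernel
theorem sP1_3 : allR (powY dD 19 1) 6144 8192 = true := by decide +kernel
theorem sP1_4 : allR (powY dD 19 1) 8192 10240 = true := by decide +kernel
theorem sP1_5 : allR (powY dD 19 1) 10240 12288 = true := by decide +kernel
theorem sP1_6 : allR (powY dD 19 1) 12288 14336 = true := by decide +kernel
theorem sP1_7 : allR (powY dD 19 1) 14336 16384 = true := by decide +kernel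
theorem sP1_8 : allR (powY dD 19 1) 16384 18432 = true := by decide +kernel
theorem sP1_9 : allR (powY dD 19 1) 18432 20480 = true := by decide +kernel
theorem sP1_10 : allR (powY dD 19 1) 20480 22528 = true := by decide +kernel
theorem sP1_11 : allR (powY dD 19 1) 22528 23256 = true := by decide +kernel
theorem sP1 : RangeOK (powY dD 19 1) 0 23256 := ((((((((((((RangeOK.of_allR sP1_0)).trans (RangeOK.of_allR sP1_1)).trans (RangeOK.of_allR sP1_2)).trans (RangeOK.of_allR sP1_3)).trans (RangeOK.of_allR sP1_4)).trans (RangeOK.of_allR sP1_5)).trans (RangeOK.of_allR sP1_6)).trans (RangeOK.of_allR sP1_7)).trans (RangeOK.of_allR sP1_8)).trans (RangeOK.of_allR sP1_9)).trans (RangeOK.of_allR sP1_10)).trans (RangeOK.of_allR sP1_11)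
theorem sP : powOK dD 19 := by
  intro x h1 h2
  have h1' : 0 ≤ x := h1
  have h2' : x < 2 := h2
  interval_cases x
  · exact sP0
  · exact sP1

end Cfsg.Agent.Lib.J3VD
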