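import Cfsg.Agent.Lib.J3VD
set_option autoImplicit false
set_option maxRecDepth 1000000
namespace Cfsg.Agent.Lib.J3VD
open Cfsg.Agent.Lib.PChain Cfsg.Agent.Lib.PermChain Cfsg.Agent.Lib.PermChain2 Cfsg.Agent.Lib.PermChain6 Cfsg.Agent.Lib.F9Code Cfsg.Agent.Lib.F9Line

theorem fE : ∀ z : Cfsg.Spor.F9, ∃ b ∈ dD.B, b < dD.N ∧ LV b = 4 ^ pos z := by decide +kernel
theorem fU : ∃ b ∈ dD.B, b < dD.N ∧ LV b = 87381 := by decide +kernel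
theorem fZ : ∀ z : Cfsg.Spor.F9, vec9 87381 z ≠ 0 := by decide +kernel

end Cfsg.Agent.Lib.J3VD
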