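import Cfsg.Agent.Lib.J3VC

/-! The triple cover of the third Janko group over the concrete field with four elements. -/

set_option autoImplicit false
set_option linter.unusedSimpArgs false
set_option linter.unusedVariables false
set_option linter.style.haveILetI false
set_option maxRecDepth 100000

namespace Cfsg.Agent.Lib.J3VG

open Cfsg Cfsg.Spor Matrix Cfsg.Agent.Lib.F4Sp Cfsg.Agent.F4Iso Cfsg.Agent.Lib.F9Code Cfsg.Agent.Lib.F9Line
open Cfsg.Agent.Lib.PChain Cfsg.Agent.Lib.PermChain Cfsg.Agent.Lib.PermChain2 Cfsg.Agent.Lib.PermChain6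
open Cfsg.Agent.Lib.J3VD

theorem mat9_congr {a b : ℕ → ℕ} (h : ∀ k, k < 9 → a k = b k) : mat9 a = mat9 b := by
  ext u z
  simp only [mat9, Matrix.of_apply, h _ (pos_lt z)]

/-- the letter of the inverse -/
noncomputable def invS (j : ℕ) : ℕ := if j = 6 then 20 else 2 * j + 9

theorem cInvAll : ∀ j, j < 7 → ∀ k, k < 9 →
    app (cS (lS j)) (cS (invS j) k) = idc k ∧ app (cS (invS j)) (cS (lS j) k) = idc k := by
  intro j hj
  interval_cases j
  · exact cInv0
  · exact cInv1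
  · exact cInv2
  · exact cInv3
  · exact cInv4
  · exact cInv5
  · exact cInv6

/-- the basic matrices -/
noncomputable def gM (j : ℕ) : GL9 :=
  if h : j < 7 then
    ⟨mat9 (cS (lS j)), mat9 (cS (invS j)),
      by
        rw [mat9_mul]
        have e : mat9 (mmul (cS (lS j)) (cS (invS j))) = mat9 idc := mat9_congr (fun k hk => (cInvAll j h k hk).1)
        rw [e, mat9_idc],
      by
        rw [mat9_mul]
        have e : mat9 (mmul (cS (invS j)) (cS (lS j))) = mat9 idc := mat9_congr (fun k hk => (cInvAll j h k hk).2)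
        rw [e, mat9_idc]⟩
  else 1

theorem gM_val {j : ℕ} (h : j < 7) : (gM j : Matrix F9 F9 F4) = mat9 (cS (lS j)) := by
  unfold gM
  rw [dif_pos h]

/-- products of the basic matrices -/
noncomputable def pW : List ℕ → GL9
  | [] => 1
  | j :: l => gM j * pW l

theorem pW_val {l : List ℕ} (hl : ∀ j ∈ l, j < 7) : (pW l : Matrix F9 F9 F4) = mat9 (prodW l) := by
  induction l with
  | nil =>
    show (1 : Matrix F9 F9 F4) = mat9 idc
    exact mat9_idc.symm
  | cons j l ih =>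
    have h1 : (pW (j :: l) : Matrix F9 F9 F4) = (gM j : Matrix F9 F9 F4) * (pW l : Matrix F9 F9 F4) := rfl
    rw [h1, gM_val (hl j (by simp)), ih (fun i hi => hl i (by simp [hi])), mat9_mul]
    rfl

theorem lp_of_line {D : PD} {LV : ℕ → ℕ} {c : ℕ → ℕ} {x : ℕ} (hL : lettersOK D) (h : RangeOK (lineY D LV c x) 0 D.N)
    {g : GL9} (hg : (g : Matrix F9 F9 F4) = mat9 c) : LP D LV g (gp D x)⁻¹ := by
  intro p
  have h1 := h p (Nat.zero_le _) p.2
  simp only [lineY, seqL, Bool.or_eq_true] at h1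
  have e1 : (((gp D x)⁻¹ p : Fin D.N) : ℕ) = letter D x p := gp_inv_apply hL x p
  have e2 : F9Line.vL LV ((gp D x)⁻¹ p : Fin D.N) = vec9 (LV (letter D x p)) := by
    unfold F9Line.vL
    rw [e1]
  rw [hg, e2]
  have e3 : mat9 c *ᵥ F9Line.vL LV p = vec9 (app c (LV p)) := mat9_mulVec c (LV p)
  rw [e3]
  rcases h1 with h1 | h1 | h1
  · exact ⟨1, one_ne_zero, by rw [Nat.eq_of_beq_eq_true h1, one_smul]⟩
  · exact ⟨w, by decide, by rw [Nat.eq_of_beq_eq_true h1, vec9_mw]⟩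
  · exact ⟨w * w, by decide, by rw [Nat.eq_of_beq_eq_true h1, vec9_mw, vec9_mw, smul_smul]⟩

theorem hL : lettersOK dD := cL

theorem line_all : ∀ j, j < 7 → RangeOK (lineY dD LV (cS (lS j)) (lS j)) 0 dD.N := by
  intro j hj
  interval_cases j
  · exact cLine0
  · exact cLine1
  · exact cLine2
  · exact cLine3
  · exact cLine4
  · exact cLine5
  · exact cLine6

theorem lp_gM {j : ℕ} (hj : j < 7) : LP dD LV (gM j) (gp dD (lS j))⁻¹ :=
  lp_of_line hL (line_all j hj) (gM_val hj)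

theorem lp_gM' {j : ℕ} (hj : j < 7) : LP dD LV (gM j)⁻¹ (gp dD (lS j)) := by
  have := LP_inv (lp_gM hj)
  rwa [inv_inv] at this

theorem lp_word (l : List ℕ) (hl : ∀ x ∈ l, ∃ j, j < 7 ∧ x = lS j) : ∃ g : GL9, LP dD LV g (evW dD l) := by
  induction l with
  | nil => exact ⟨1, LP_one⟩
  | cons x l ih =>
    obtain ⟨g, hg⟩ := ih (fun i hi => hl i (by simp [hi]))
    obtain ⟨j, hj, rfl⟩ := hl x (by simp)
    exact ⟨(gM j)⁻¹ * g, LP_mul (lp_gM' hj) hg⟩

theorem gp_word {y : ℕ} {l : List ℕ} (h : RangeOK (fun p => Nat.beq (letter dD y p) (walk dD p l)) 0 dD.N) :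
    gp dD y = evW dD l := by
  have h2 : (gp dD y)⁻¹ = (evW dD l)⁻¹ := by
    ext p
    rw [gp_inv_apply hL, evW_inv_apply hL]
    exact Nat.eq_of_beq_eq_true (h p (Nat.zero_le _) p.2)
  exact inv_inj.1 h2

theorem gp0 : gp dD 0 = evW dD wxL := gp_word cWx
theorem gp1 : gp dD 1 = evW dD wyL := gp_word cWy

theorem wx_letters : ∀ x ∈ wxL, ∃ j, j < 7 ∧ x = lS j := by
  intro x hx
  have h : ∀ x ∈ wxL, ∃ j, j < 7 ∧ x = Nat.add (Nat.mul 2 j) 8 := by decide +kernel
  exact h x hx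

theorem wy_letters : ∀ x ∈ wyL, ∃ j, j < 7 ∧ x = lS j := by
  intro x hx
  have h : ∀ x ∈ wyL, ∃ j, j < 7 ∧ x = Nat.add (Nat.mul 2 j) 8 := by decide +kernel
  exact h x hx

theorem lt0 : dD.lt 0 = 0 := by decide +kernel
theorem lt1 : dD.lt 1 = 2 := by decide +kernel

theorem gen_cases {x : ℕ} (h1 : dD.lt 0 ≤ x) (h2 : x < dD.lt (0 + 1)) : x = 0 ∨ x = 1 := by
  have h2' : x < dD.lt 1 := h2
  rw [lt1] at h2'
  omega

theorem hK : ∀ τ ∈ KK dD 0, ∃ g : GL9, LP dD LV g τ := by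
  intro τ hτ
  induction hτ using Subgroup.closure_induction with
  | mem y hy =>
    obtain ⟨x, ⟨h1, h2⟩, rfl⟩ := hy
    rcases gen_cases h1 h2 with rfl | rfl
    · rw [gp0]
      exact lp_word _ wx_letters
    · rw [gp1]
      exact lp_word _ wy_letters
  | one => exact ⟨1, LP_one⟩
  | mul a b _ _ ha hb =>
    obtain ⟨g, hg⟩ := ha
    obtain ⟨g', hg'⟩ := hb
    exact ⟨g * g', LP_mul hg hg'⟩
  | inv a _ ha =>
    obtain ⟨g, hg⟩ := ha
    exact ⟨g⁻¹, LP_inv hg⟩

theorem hLV : ∀ p, p < dD.N → lvY dD.N LV p = true := fun p hp => cLV p (Nat.zero_le _) hp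

theorem frameD : Frame dD LV 87381 := ⟨fE, fU, fZ⟩

theorem cert : Cert dD where
  letters := hL
  base := cB
  hw := cH
  num := cN
  shape := cS'
  levels := cV
  faith := by
    intro g hg he
    obtain ⟨g', hg'⟩ := hK g hg
    exact faith_of_frame hLV frameD cB hg' he

theorem sift_all : ∀ j, j < 7 → sift (cd dD) dD.k 0 (dD.B.map (letter dD (lS j))) = true := by
  intro j hj
  interval_cases j
  · exact cSift0
  · exact cSift1
  · exact cSift2
  · exact cSift3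
  · exact cSift4
  · exact cSift5
  · exact cSift6

theorem gp_mem {j : ℕ} (hj : j < 7) : gp dD (lS j) ∈ KK dD 0 := by
  refine mem_of_sift cert hLV frameD (lp_gM' hj) hK ?_
  rw [enc_gp hL cB]
  exact sift_all j hj

/-- the group -/
abbrev Γ : Subgroup GL9 := threeJ3 F4 w

theorem gen_mem {g : GL9} (h : (g : Matrix F9 F9 F4) ∈ j3Gens F4 w) : g ∈ Γ :=
  Subgroup.subset_closure h

theorem gM_mem : ∀ j, j < 7 → gM j ∈ Γ := by
  intro j hj
  apply gen_mem
  rw [gM_val hj]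
  interval_cases j
  · refine Or.inl (Or.inl (Or.inl (Or.inl ⟨(1, 0), ?_⟩)))
    ext u v
    exact gS0 u v
  · refine Or.inl (Or.inl (Or.inl (Or.inl ⟨(0, 1), ?_⟩)))
    ext u v
    exact gS1 u v
  · refine Or.inl (Or.inl (Or.inl (Or.inr ⟨(0, 0), ?_⟩)))
    ext u v
    exact gS2 u v
  · refine Or.inl (Or.inl (Or.inr ⟨(1, 0), ?_⟩))
    ext u v
    exact gS3 u v
  · refine Or.inl (Or.inl (Or.inr ⟨(0, 1), ?_⟩))
    ext u v
    exact gS4 u v
  · refine Or.inl (Or.inr ⟨(1, 1), by decide, ?_⟩)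
    ext u v
    exact (gS5 u v).symm
  · refine Or.inr ⟨(1, 0), by decide, ?_⟩
    ext u v
    exact (gS6 u v).symm

theorem word_mem (l : List ℕ) (hl : ∀ x ∈ l, ∃ j, j < 7 ∧ x = lS j) :
    ∃ g ∈ Γ, LP dD LV g (evW dD l) := by
  induction l with
  | nil => exact ⟨1, one_mem _, LP_one⟩
  | cons x l ih =>
    obtain ⟨g, hg, hg'⟩ := ih (fun i hi => hl i (by simp [hi]))
    obtain ⟨j, hj, rfl⟩ := hl x (by simp)
    exact ⟨(gM j)⁻¹ * g, mul_mem (inv_mem (gM_mem j hj)) hg, LP_mul (lp_gM' hj) hg'⟩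

theorem down : ∀ σ ∈ KK dD 0, ∃ g ∈ Γ, LP dD LV g σ := by
  intro τ hτ
  induction hτ using Subgroup.closure_induction with
  | mem y hy =>
    obtain ⟨x, ⟨h1, h2⟩, rfl⟩ := hy
    rcases gen_cases h1 h2 with rfl | rfl
    · rw [gp0]
      exact word_mem _ wx_letters
    · rw [gp1]
      exact word_mem _ wy_letters
  | one => exact ⟨1, one_mem _, LP_one⟩
  | mul a b _ _ ha hb =>
    obtain ⟨g, hg, hg1⟩ := ha
    obtain ⟨g', hg', hg1'⟩ := hb
    exact ⟨g * g', mul_mem hg hg', LP_mul hg1 hg1'⟩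
  | inv a _ ha =>
    obtain ⟨g, hg, hg1⟩ := ha
    exact ⟨g⁻¹, inv_mem hg, LP_inv hg1⟩

theorem lp_pW (l : List ℕ) (hl : ∀ j ∈ l, j < 7) : ∃ σ ∈ KK dD 0, LP dD LV (pW l) σ := by
  induction l with
  | nil => exact ⟨1, one_mem _, LP_one⟩
  | cons j l ih =>
    obtain ⟨σ, hσ, h1⟩ := ih (fun i hi => hl i (by simp [hi]))
    have hj := hl j (by simp)
    exact ⟨(gp dD (lS j))⁻¹ * σ, mul_mem (inv_mem (gp_mem hj)) hσ, LP_mul (lp_gM hj) h1⟩

theorem gwT_lt : ∀ i, i < 45 → ∀ j ∈ gwT i, j < 7 := by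
  have h : ∀ i, i < 45 → (gwT i).all (fun j => Nat.blt j 7) = true := by decide +kernel
  intro i hi j hj
  have := (List.all_eq_true.1 (h i hi)) j hj
  simpa using this

theorem gen_up {g : GL9} {i : ℕ} (hi : i < 45) (h : (g : Matrix F9 F9 F4) = mat9 (prodW (gwT i))) :
    ∃ σ ∈ KK dD 0, LP dD LV g σ := by
  have h2 : g = pW (gwT i) := by
    apply Units.ext
    rw [h, pW_val (gwT_lt i hi)]
  rw [h2]
  exact lp_pW _ (gwT_lt i hi)

theorem up : ∀ g ∈ Γ, ∃ σ ∈ KK dD 0, LP dD LV g σ := by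
  intro g hg
  induction hg using Subgroup.closure_induction with
  | mem y hy =>
    rcases hy with ⟨⟨⟨⟨Z, hZ⟩ | ⟨Z, hZ⟩⟩ | ⟨Z, hZ⟩⟩ | ⟨Z, hZ0, hZ⟩⟩ | ⟨Z, hZ0, hZ⟩
    · refine gen_up (i := 0 * 9 + pos Z) (by have := pos_lt Z; omega) ?_
      rw [← hZ]
      ext u v
      exact gA Z u v
    · refine gen_up (i := 1 * 9 + pos Z) (by have := pos_lt Z; omega) ?_
      rw [← hZ]
      ext u v
      exact gE Z u v
    · refine gen_up (i := 2 * 9 + pos Z) (by have := pos_lt Z; omega) ?_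
      rw [← hZ]
      ext u v
      exact gD Z u v
    · refine gen_up (i := 3 * 9 + pos Z) (by have := pos_lt Z; omega) ?_
      rw [hZ]
      ext u v
      exact gB Z u v hZ0
    · refine gen_up (i := 4 * 9 + pos Z) (by have := pos_lt Z; omega) ?_
      rw [hZ]
      ext u v
      exact gC Z u v hZ0
  | one => exact ⟨1, one_mem _, LP_one⟩
  | mul a b _ _ ha hb =>
    obtain ⟨g, hg, hg1⟩ := ha
    obtain ⟨g', hg', hg1'⟩ := hb
    exact ⟨g * g', mul_mem hg hg', LP_mul hg1 hg1'⟩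
  | inv a _ ha =>
    obtain ⟨g, hg, hg1⟩ := ha
    exact ⟨g⁻¹, inv_mem hg, LP_inv hg1⟩


theorem pW_mem {P : Subgroup GL9} (h : ∀ j, j < 7 → gM j ∈ P) (l : List ℕ) (hl : ∀ j ∈ l, j < 7) : pW l ∈ P := by
  induction l with
  | nil => exact one_mem _
  | cons j l ih => exact mul_mem (h j (hl j (by simp))) (ih (fun i hi => hl i (by simp [hi])))

theorem gen_le {P : Subgroup GL9} (h : ∀ j, j < 7 → gM j ∈ P) {g : GL9} {i : ℕ} (hi : i < 45)
    (e : (g : Matrix F9 F9 F4) = mat9 (prodW (gwT i))) : g ∈ P := by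
  have h2 : g = pW (gwT i) := by
    apply Units.ext
    rw [e, pW_val (gwT_lt i hi)]
  rw [h2]
  exact pW_mem h _ (gwT_lt i hi)

/-- the group is generated by the seven basic matrices -/
theorem gamma_le {P : Subgroup GL9} (h : ∀ j, j < 7 → gM j ∈ P) : Γ ≤ P := by
  refine (Subgroup.closure_le _).2 ?_
  intro y hy
  rcases hy with ⟨⟨⟨⟨Z, hZ⟩ | ⟨Z, hZ⟩⟩ | ⟨Z, hZ⟩⟩ | ⟨Z, hZ0, hZ⟩⟩ | ⟨Z, hZ0, hZ⟩
  · refine gen_le h (i := 0 * 9 + pos Z) (by have := pos_lt Z; omega) ?_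
    rw [← hZ]
    ext u v
    exact gA Z u v
  · refine gen_le h (i := 1 * 9 + pos Z) (by have := pos_lt Z; omega) ?_
    rw [← hZ]
    ext u v
    exact gE Z u v
  · refine gen_le h (i := 2 * 9 + pos Z) (by have := pos_lt Z; omega) ?_
    rw [← hZ]
    ext u v
    exact gD Z u v
  · refine gen_le h (i := 3 * 9 + pos Z) (by have := pos_lt Z; omega) ?_
    rw [hZ]
    ext u v
    exact gB Z u v hZ0
  · refine gen_le h (i := 4 * 9 + pos Z) (by have := pos_lt Z; omega) ?_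
    rw [hZ]
    ext u v
    exact gC Z u v hZ0

theorem om : ∃ g ∈ Γ, (g : Matrix F9 F9 F4) = w • (1 : Matrix F9 F9 F4) := by
  have hl : ∀ j ∈ womL, j < 7 := by decide +kernel
  have h1 : ∀ j ∈ womL, gM j ∈ Γ := fun j hj => gM_mem j (hl j hj)
  have h2 : ∀ l : List ℕ, (∀ j ∈ l, gM j ∈ Γ) → pW l ∈ Γ := by
    intro l
    induction l with
    | nil => intro _; exact one_mem _
    | cons j l ih =>
      intro h
      exact mul_mem (h j (by simp)) (ih (fun i hi => h i (by simp [hi])))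
  refine ⟨pW womL, h2 _ h1, ?_⟩
  rw [pW_val hl, mat9_congr gOm]
  ext u z
  have : ∀ u z : F9, dig (Nat.mul 2 (idc (pos z))) (pos u) = (w • (1 : Matrix F9 F9 F4)) u z := by decide +kernel
  exact this u z

theorem link : Link dD LV 87381 Γ := ⟨cert, hLV, frameD, up, down, om⟩

theorem hk0 : 0 < dD.k := by decide +kernel
theorem hb0 : dD.B.getD 0 0 = 0 := by decide +kernel
theorem hlen : 0 < dD.B.length := by decide +kernel
theorem hN0 : 0 < dD.N := by decide +kernel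
theorem hN1 : 1 < dD.N := by decide +kernel

theorem card_K0 : Nat.card (KK dD 0) = 50232960 := by
  have h := (cert.card (r := 2) (j := 0) (by decide +kernel)).2
  rw [h]
  decide +kernel

theorem card_K1 : Nat.card (KK dD 1) = 2160 := by
  have h := (cert.card (r := 1) (j := 1) (by decide +kernel)).2
  rw [h]
  decide +kernel

theorem simple_K0 : IsSimpleGroup (KK dD 0) := by
  refine simple_ex (S := sS) (d0 := 136) (t0 := 27) (by decide +kernel) cert hk0 hb0 hlen hN0 sT sF sR sV sD sE hN1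
    (sE := 2938) (by decide +kernel) sE1 sE2 sE3 sE4 sE5 (p := 19) (e := 1) (by norm_num) ?_ ?_
  · rw [pow_one]
    exact sP
  · rw [card_K1]
    norm_num

theorem noncomm : ∃ a b : KK dD 0, a * b ≠ b * a := by
  by_contra hc
  push Not at hc
  have h1 : ∀ a b : KK dD 0, a * b = b * a := hc
  haveI := simple_K0
  haveI := finite_K0 cert
  have h2 : Nat.Prime (Nat.card (KK dD 0)) := by
    letI : CommGroup (KK dD 0) := { (inferInstance : Group (KK dD 0)) with mul_comm := h1 }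
    exact IsSimpleGroup.prime_card
  rw [card_K0] at h2
  norm_num at h2

theorem card_center' : Nat.card (Subgroup.center Γ) = 3 := card_center link simple_K0 noncomm

theorem card_Γ : Nat.card Γ = 150698880 := by
  rw [card_gamma link (finite_K0 cert), card_K0]

theorem quot : Nonempty (Γ ⧸ Subgroup.center Γ ≃* KK dD 0) := quot_iso link simple_K0 noncomm

end Cfsg.Agent.Lib.J3VG
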