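import Cfsg.Agent.Lib.J3VG

/-! Transfer of the facts on the triple cover from the concrete field to any field with four elements. -/

set_option autoImplicit false
set_option linter.unusedSimpArgs false
set_option linter.unusedVariables false
set_option linter.style.haveILetI false

namespace Cfsg.Agent.Lib.J3VT

open Cfsg Cfsg.Spor Matrix Cfsg.Agent.Lib.F4Sp Cfsg.Agent.F4Iso Cfsg.Agent.Lib.F9Code Cfsg.Agent.Lib.F9Line
open Cfsg.Agent.Lib.PermChain Cfsg.Agent.Lib.J3VD Cfsg.Agent.Lib.J3VG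

section
variable {G H : Type*} [Group G] [Group H]

theorem map_center (φ : G ≃* H) : (Subgroup.center G).map φ.toMonoidHom = Subgroup.center H := by
  ext x
  constructor
  · rintro ⟨y, hy, rfl⟩
    rw [Subgroup.mem_center_iff]
    intro z
    have hy' := Subgroup.mem_center_iff.1 hy (φ.symm z)
    have := congrArg φ hy'
    simpa using this
  · intro hx
    refine ⟨φ.symm x, ?_, by simp⟩
    show φ.symm x ∈ Subgroup.center G
    rw [Subgroup.mem_center_iff]
    intro z
    have hx' := Subgroup.mem_center_iff.1 hx (φ z)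
    apply φ.injective
    simpa using hx'

/-- the central quotients of isomorphic groups are isomorphic -/
noncomputable def quotCongr (φ : G ≃* H) : G ⧸ Subgroup.center G ≃* H ⧸ Subgroup.center H :=
  QuotientGroup.congr _ _ φ (map_center φ)

end

variable {F : Type*} [Field F] (e : F4 ≃+* F) {ω : F}

/-- the isomorphism of the general linear groups -/
noncomputable def Φ : GL F9 F4 ≃* GL F9 F := Units.mapEquiv (e.mapMatrix.toMulEquiv)

theorem Φ_val (g : GL F9 F4) : ((Φ e g : GL F9 F) : Matrix F9 F9 F) = e.mapMatrix (g : Matrix F9 F9 F4) := rfl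

theorem e_omegaPow (he : e w = ω) (n : ZMod 3) : omegaPow F ω n = e (omegaPow F4 w n) := by
  simp only [omegaPow, map_pow, he]

theorem eA (he : e w = ω) (Z : F9) : j3A F ω Z = e.mapMatrix (j3A F4 w Z) := by
  ext u v
  simp only [j3A, RingEquiv.mapMatrix_apply, Matrix.map_apply, Matrix.diagonal_apply]
  split_ifs with h
  · exact e_omegaPow e he _
  · simp

theorem eE (he : e w = ω) (Z : F9) : j3E F ω Z = e.mapMatrix (j3E F4 w Z) := by
  ext u v
  simp only [j3E, RingEquiv.mapMatrix_apply, Matrix.map_apply, Matrix.diagonal_apply]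
  split_ifs with h
  · exact e_omegaPow e he _
  · simp

theorem eLam (he : e w = ω) (Z z : F9) : j3Lam F ω Z z = e (j3Lam F4 w Z z) := by
  simp only [j3Lam]
  split_ifs <;> simp [he]

theorem eD (he : e w = ω) (Z : F9) : j3D F ω Z = e.mapMatrix (j3D F4 w Z) := by
  ext u v
  simp only [j3D, RingEquiv.mapMatrix_apply, Matrix.map_apply, Matrix.of_apply]
  split_ifs with h
  · exact eLam e he _ _
  · simp

theorem eB (Z : F9) : j3B F Z = e.mapMatrix (j3B F4 Z) := by
  ext u v
  simp only [j3B, RingEquiv.mapMatrix_apply, Matrix.map_apply, Matrix.of_apply]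
  split_ifs with h <;> simp

theorem eC (Z : F9) : j3C F Z = e.mapMatrix (j3C F4 Z) := by
  ext u v
  simp only [j3C, RingEquiv.mapMatrix_apply, Matrix.map_apply, Matrix.of_apply]
  split_ifs <;> simp

theorem gens_iff (he : e w = ω) (M : Matrix F9 F9 F4) : e.mapMatrix M ∈ j3Gens F ω ↔ M ∈ j3Gens F4 w := by
  have hi : Function.Injective (e.mapMatrix : Matrix F9 F9 F4 ≃+* Matrix F9 F9 F) := e.mapMatrix.injective
  simp only [j3Gens, Set.mem_union, Set.mem_range, Set.mem_ofPred_eq]
  have h1 : (∃ Z, j3A F ω Z = e.mapMatrix M) ↔ ∃ Z, j3A F4 w Z = M := by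
    simp only [eA e he, hi.eq_iff]
  have h2 : (∃ Z, j3E F ω Z = e.mapMatrix M) ↔ ∃ Z, j3E F4 w Z = M := by
    simp only [eE e he, hi.eq_iff]
  have h3 : (∃ Z, j3D F ω Z = e.mapMatrix M) ↔ ∃ Z, j3D F4 w Z = M := by
    simp only [eD e he, hi.eq_iff]
  have h4 : (∃ Z, Z ≠ 0 ∧ e.mapMatrix M = j3B F Z) ↔ ∃ Z, Z ≠ 0 ∧ M = j3B F4 Z := by
    simp only [eB e, hi.eq_iff]
  have h5 : (∃ Z, Z ≠ 0 ∧ e.mapMatrix M = j3C F Z) ↔ ∃ Z, Z ≠ 0 ∧ M = j3C F4 Z := by
    simp only [eC e, hi.eq_iff]
  rw [h1, h2, h3, h4, h5]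

theorem three_eq (he : e w = ω) : threeJ3 F ω = (threeJ3 F4 w).map (Φ e).toMonoidHom := by
  unfold threeJ3
  rw [MonoidHom.map_closure]
  congr 1
  ext g
  constructor
  · intro hg
    refine ⟨(Φ e).symm g, ?_, by simp⟩
    have h1 : ((g : GL F9 F) : Matrix F9 F9 F) = e.mapMatrix (((Φ e).symm g : GL F9 F4) : Matrix F9 F9 F4) := by
      rw [← Φ_val]
      simp
    have h2 : e.mapMatrix (((Φ e).symm g : GL F9 F4) : Matrix F9 F9 F4) ∈ j3Gens F ω := by
      rw [← h1]
      exact hg
    exact (gens_iff e he _).1 h2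
  · rintro ⟨h, hh, rfl⟩
    exact (gens_iff e he _).2 hh

/-- the triple covers are isomorphic -/
noncomputable def threeEquiv (he : e w = ω) : threeJ3 F4 w ≃* threeJ3 F ω :=
  ((Φ e).subgroupMap _).trans (MulEquiv.subgroupCongr (three_eq e he).symm)

theorem threeEquiv_val (he : e w = ω) (g : threeJ3 F4 w) :
    ((threeEquiv e he g : threeJ3 F ω) : GL F9 F) = Φ e (g : GL F9 F4) := rfl

end Cfsg.Agent.Lib.J3VT
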