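import Cfsg.Agent.Lib.J3VI
import Cfsg.Agent.Lib.J3VT

/-! Orbits on the lines of the natural module of the triple cover. -/

set_option autoImplicit false
set_option linter.unusedSimpArgs false
set_option linter.unusedVariables false

namespace Cfsg.Agent.Lib.J3VS

open Cfsg Cfsg.Spor Matrix Cfsg.Agent.Lib.F4Sp Cfsg.Agent.F4Iso Cfsg.Agent.Lib.F9Code Cfsg.Agent.Lib.F9Line
open Cfsg.Agent.Lib.PermChain Cfsg.Agent.Lib.PermChain2 Cfsg.Agent.Lib.J3VD Cfsg.Agent.Lib.J3VG Cfsg.Agent.Lib.J3VI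
open Cfsg.Agent.Lib.J3VT

theorem seqL_vec {a b : ℕ} (h : seqL a b = true) : ∃ c : F4, c ≠ 0 ∧ vec9 a = c • vec9 b := by
  simp only [seqL, Bool.or_eq_true] at h
  rcases h with h | h | h
  · exact ⟨1, one_ne_zero, by rw [Nat.eq_of_beq_eq_true h, one_smul]⟩
  · exact ⟨w, by decide, by rw [Nat.eq_of_beq_eq_true h, vec9_mw]⟩
  · exact ⟨w * w, by decide, by rw [Nat.eq_of_beq_eq_true h, vec9_mw, vec9_mw, smul_smul]⟩

theorem reach : ∀ i, i < 43605 → ∃ g ∈ Γ, ∃ c : F4, c ≠ 0 ∧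
    (g : Matrix F9 F9 F4) *ᵥ vec9 (isoT i) = c • vec9 (isoT 0) := by
  intro i
  induction i using Nat.strong_induction_on with
  | _ i ih =>
    intro hi
    have h := cIv i (Nat.zero_le _) hi
    simp only [ivY, Bool.or_eq_true, Bool.and_eq_true, Nat.beq_eq_true_eq, Nat.blt_eq] at h
    rcases h with h0 | ⟨h1, h2, h3⟩
    · have h00 : i = 0 := Nat.eq_of_beq_eq_true h0
      subst h00
      exact ⟨1, one_mem _, 1, one_ne_zero, by simp⟩
    · obtain ⟨g, hg, c, hc, e⟩ := ih _ h1 (h1.trans hi)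
      obtain ⟨c', hc', e'⟩ := seqL_vec h3
      have hm := gM_mem _ h2
      refine ⟨g * gM (ilT i), mul_mem hg hm, c * c', mul_ne_zero hc hc', ?_⟩
      show ((g : Matrix F9 F9 F4) * (gM (ilT i) : Matrix F9 F9 F4)) *ᵥ _ = _
      rw [← Matrix.mulVec_mulVec, gM_val h2, mat9_mulVec, e', Matrix.mulVec_smul, e, smul_smul, mul_comm]

theorem cube_mk : ∀ a b : Bool, (mk a b) ^ 3 = mk (a || b) false := by decide

theorem mk0 : ∀ a : Bool, mk a false = 0 → a = false := by decide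

theorem tN_bit (n k : ℕ) (hk : k < 9) :
    (tN n).testBit (2 * k) = (n.testBit (2 * k) || n.testBit (2 * k + 1)) := by
  show ((n ||| (n >>> 1)) &&& 87381).testBit (2 * k) = _
  rw [Nat.testBit_and, Nat.testBit_or, Nat.testBit_shiftRight, L_even k hk, Bool.and_true, Nat.add_comm 1]

theorem parX_bit (t : ℕ) : (parX t).testBit 0 =
    (t.testBit 0 ^^ (t.testBit 2 ^^ (t.testBit 4 ^^ (t.testBit 6 ^^ (t.testBit 8 ^^ (t.testBit 10 ^^ (t.testBit 12 ^^
      (t.testBit 14 ^^ t.testBit 16))))))))  := by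
  show (t ^^^ (t >>> 2 ^^^ (t >>> 4 ^^^ (t >>> 6 ^^^ (t >>> 8 ^^^ (t >>> 10 ^^^ (t >>> 12 ^^^
    (t >>> 14 ^^^ t >>> 16)))))))).testBit 0 = _
  simp only [Nat.testBit_xor, Nat.testBit_shiftRight, Nat.add_zero]

theorem isoB_of (n : ℕ) (h : ∑ z, (vec9 n z) ^ 3 = 0) : isoB n = true := by
  have term : ∀ k, (dig n k) ^ 3 = mk (n.testBit (2 * k) || n.testBit (2 * k + 1)) false := by
    intro k
    rw [dig_mk, cube_mk]
  rw [sum_F9] at h
  have e0 : (vec9 n (0, 0)) ^ 3 = mk ((tN n).testBit 0) false := by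
    rw [show (tN n).testBit 0 = _ from tN_bit n 0 (by norm_num)]; exact term 0
  have e1 : (vec9 n (0, 1)) ^ 3 = mk ((tN n).testBit 2) false := by
    rw [show (tN n).testBit 2 = _ from tN_bit n 1 (by norm_num)]; exact term 1
  have e2 : (vec9 n (0, 2)) ^ 3 = mk ((tN n).testBit 4) false := by
    rw [show (tN n).testBit 4 = _ from tN_bit n 2 (by norm_num)]; exact term 2
  have e3 : (vec9 n (1, 0)) ^ 3 = mk ((tN n).testBit 6) false := by
    rw [show (tN n).testBit 6 = _ from tN_bit n 3 (by norm_num)]; exact term 3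
  have e4 : (vec9 n (1, 1)) ^ 3 = mk ((tN n).testBit 8) false := by
    rw [show (tN n).testBit 8 = _ from tN_bit n 4 (by norm_num)]; exact term 4
  have e5 : (vec9 n (1, 2)) ^ 3 = mk ((tN n).testBit 10) false := by
    rw [show (tN n).testBit 10 = _ from tN_bit n 5 (by norm_num)]; exact term 5
  have e6 : (vec9 n (2, 0)) ^ 3 = mk ((tN n).testBit 12) false := by
    rw [show (tN n).testBit 12 = _ from tN_bit n 6 (by norm_num)]; exact term 6
  have e7 : (vec9 n (2, 1)) ^ 3 = mk ((tN n).testBit 14) false := by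
    rw [show (tN n).testBit 14 = _ from tN_bit n 7 (by norm_num)]; exact term 7
  have e8 : (vec9 n (2, 2)) ^ 3 = mk ((tN n).testBit 16) false := by
    rw [show (tN n).testBit 16 = _ from tN_bit n 8 (by norm_num)]; exact term 8
  rw [e0, e1, e2, e3, e4, e5, e6, e7, e8] at h
  simp only [← mk_add, Bool.xor_false] at h
  have h2 := mk0 _ h
  unfold isoB
  rw [parX_bit, h2]
  rfl

theorem card_V : Fintype.card V9 = 2 ^ 18 := by
  rw [Fintype.card_fun, card_F4]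
  rfl

theorem code (v : V9) : ∃ n, n < 2 ^ 18 ∧ vec9 n = v := by
  have hb : Function.Bijective (fun i : Fin (2 ^ 18) => vec9 i.1) := by
    rw [Fintype.bijective_iff_injective_and_card]
    refine ⟨?_, by rw [card_V, Fintype.card_fin]⟩
    intro a b h
    exact Fin.ext (vec9_inj a.2 b.2 h)
  obtain ⟨i, hi⟩ := hb.2 v
  exact ⟨i.1, i.2, hi⟩

theorem vec9_zero : vec9 0 = 0 := by
  funext z
  exact dig_zero _

theorem iso_reach (v : V9) (hv : v ≠ 0) (hi : ∑ z, v z ^ 3 = 0) :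
    ∃ g ∈ Γ, ∃ c : F4, c ≠ 0 ∧ (g : Matrix F9 F9 F4) *ᵥ v = c • vec9 (isoT 0) := by
  obtain ⟨n, hn, rfl⟩ := code v
  have hn0 : n ≠ 0 := by
    rintro rfl
    exact hv vec9_zero
  have hb := isoB_of n hi
  have h := cIx n (Nat.zero_le _) hn
  simp only [ixY, Bool.or_eq_true, Bool.and_eq_true, Nat.beq_eq_true_eq, Nat.blt_eq, hb, Bool.not_true] at h
  rcases h with h | h | ⟨h1, h2⟩
  · exact absurd (Nat.eq_of_beq_eq_true h) hn0
  · exact absurd h (by decide)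
  · obtain ⟨g, hg, c, hc, e⟩ := reach _ h1
    obtain ⟨c', hc', e'⟩ := seqL_vec h2
    refine ⟨g, hg, c' * c, mul_ne_zero hc' hc, ?_⟩
    rw [e', Matrix.mulVec_smul, e, smul_smul]

theorem iso_trans (v u : V9) (hv : v ≠ 0) (hu : u ≠ 0) (hi : ∑ z, v z ^ 3 = 0) (hj : ∑ z, u z ^ 3 = 0) :
    ∃ g ∈ Γ, ∃ c : F4, c ≠ 0 ∧ (g : Matrix F9 F9 F4) *ᵥ v = c • u := by
  obtain ⟨g1, h1, c1, hc1, e1⟩ := iso_reach v hv hi
  obtain ⟨g2, h2, c2, hc2, e2⟩ := iso_reach u hu hj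
  refine ⟨g2⁻¹ * g1, mul_mem (inv_mem h2) h1, c1 * c2⁻¹, mul_ne_zero hc1 (inv_ne_zero hc2), ?_⟩
  have e3 : vec9 (isoT 0) = c2⁻¹ • ((g2 : Matrix F9 F9 F4) *ᵥ u) := by
    rw [e2, smul_smul, inv_mul_cancel₀ hc2, one_smul]
  show (((g2⁻¹ : GL9) : Matrix F9 F9 F4) * (g1 : Matrix F9 F9 F4)) *ᵥ v = _
  rw [← Matrix.mulVec_mulVec, e1, e3, Matrix.mulVec_smul, Matrix.mulVec_smul, Matrix.mulVec_mulVec, smul_smul]
  have e4 : ((g2⁻¹ : GL9) : Matrix F9 F9 F4) * (g2 : Matrix F9 F9 F4) = 1 := by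
    rw [← Units.val_mul, inv_mul_cancel, Units.val_one]
  rw [e4, Matrix.one_mulVec]

section transfer
variable {F : Type} [Field F]

theorem map_vec (e : F4 ≃+* F) (g : GL F9 F4) (v : V9) :
    ((Φ e g : GL F9 F) : Matrix F9 F9 F) *ᵥ (fun z => e (v z)) =
      fun i => e (((g : Matrix F9 F9 F4) *ᵥ v) i) := by
  funext i
  simp only [Φ_val, Matrix.mulVec, dotProduct, map_sum, map_mul, RingEquiv.mapMatrix_apply, Matrix.map_apply]

theorem iso_trans_F (e : F4 ≃+* F) {ω : F} (he : e w = ω) (v u : F9 → F) (hv : v ≠ 0) (hu : u ≠ 0) (hi : ∑ z, v z ^ 3 = 0) (hj : ∑ z, u z ^ 3 = 0) :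
    ∃ g ∈ threeJ3 F ω, ∃ c : F, c ≠ 0 ∧ (g : Matrix F9 F9 F) *ᵥ v = c • u := by
  have back : ∀ x : F9 → F, x ≠ 0 → ∑ z, x z ^ 3 = 0 → (fun z => e.symm (x z)) ≠ (0 : V9) ∧
      ∑ z, (e.symm (x z)) ^ 3 = 0 := by
    intro x hx hs
    constructor
    · intro h0
      apply hx
      funext z
      have := congrFun h0 z
      simpa using this
    · have := congrArg e.symm hs
      simpa [map_sum, map_pow] using this
  obtain ⟨a1, a2⟩ := back v hv hi
  obtain ⟨b1, b2⟩ := back u hu hj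
  obtain ⟨g, hg, c, hc, h⟩ := iso_trans _ _ a1 b1 a2 b2
  refine ⟨Φ e g, ?_, e c, by simpa using hc, ?_⟩
  · rw [three_eq e he]
    exact ⟨g, hg, rfl⟩
  · have h1 := map_vec e g (fun z => e.symm (v z))
    have h2 : (fun z => e (e.symm (v z))) = v := by funext z; simp
    rw [h2, h] at h1
    rw [h1]
    funext z
    simp

theorem LV0 : LV 0 = 1 := by decide +kernel

/-- the vector of a line -/
noncomputable def vF (e : F4 ≃+* F) (p : ℕ) : F9 → F := fun z => e (F9Line.vL LV p z)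

theorem single_eq (e : F4 ≃+* F) : (Pi.single (0 : F9) (1 : F) : F9 → F) = vF e 0 := by
  funext u
  have h : F9Line.vL LV 0 u = (Pi.single (0 : F9) (1 : F4) : F9 → F4) u := by
    have h1 := vec9_single 0 u
    unfold F9Line.vL
    rw [LV0]
    exact h1
  simp only [vF]
  rw [h]
  by_cases hu : u = 0
  · subst hu
    simp
  · simp [Pi.single_apply, hu]

theorem image_line (e : F4 ≃+* F) {g : GL9} {σ : Equiv.Perm (Fin dD.N)} (h : LP dD LV g σ) (p : Fin dD.N) :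
    ∃ c : F, c ≠ 0 ∧ ((Φ e g : GL F9 F) : Matrix F9 F9 F) *ᵥ vF e p = c • vF e (σ p) := by
  obtain ⟨c, hc, h1⟩ := h p
  refine ⟨e c, by simpa using hc, ?_⟩
  have h2 := map_vec e g (F9Line.vL LV p)
  show ((Φ e g : GL F9 F) : Matrix F9 F9 F) *ᵥ (fun z => e (F9Line.vL LV p z)) = _
  rw [h2, h1]
  funext z
  simp [vF]

theorem N_pos : 0 < dD.N := hN0

theorem set_eq (e : F4 ≃+* F) {ω : F} (he : e w = ω) :
    {L : Submodule F (F9 → F) | ∃ g ∈ threeJ3 F ω, L = F ∙ ((g : Matrix F9 F9 F) *ᵥ (Pi.single (0 : F9) (1 : F) : F9 → F))}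
      = Set.range (fun p : Fin dD.N => (F ∙ vF e p : Submodule F (F9 → F))) := by
  ext L
  constructor
  · rintro ⟨g, hg, rfl⟩
    rw [three_eq e he] at hg
    obtain ⟨g0, hg0, rfl⟩ := hg
    obtain ⟨σ, -, hσ⟩ := up g0 hg0
    obtain ⟨c, hc, h⟩ := image_line e hσ ⟨0, N_pos⟩
    refine ⟨σ ⟨0, N_pos⟩, ?_⟩
    have h2 : ((((⟨0, N_pos⟩ : Fin dD.N) : ℕ))) = 0 := rfl
    rw [h2] at h
    show (F ∙ vF e (σ ⟨0, N_pos⟩) : Submodule F (F9 → F)) = _
    rw [single_eq e]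
    have h3 : ((Φ e g0 : GL F9 F) : Matrix F9 F9 F) *ᵥ vF e 0 = c • vF e (σ ⟨0, N_pos⟩) := h
    show _ = (F ∙ (((Φ e g0 : GL F9 F) : Matrix F9 F9 F) *ᵥ vF e 0) : Submodule F (F9 → F))
    rw [h3, Submodule.span_singleton_smul_eq (IsUnit.mk0 c hc)]
  · rintro ⟨p, rfl⟩
    haveI := pretrans cert hk0 hb0 hlen hN0 sT
    obtain ⟨σ, hσ⟩ := MulAction.exists_smul_eq (KK dD 0) (⟨0, N_pos⟩ : Fin dD.N) p
    obtain ⟨g0, hg0, hp⟩ := down σ.1 σ.2
    refine ⟨Φ e g0, ?_, ?_⟩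
    · rw [three_eq e he]
      exact ⟨g0, hg0, rfl⟩
    · obtain ⟨c, hc, h⟩ := image_line e hp ⟨0, N_pos⟩
      have h3 : ((Φ e g0 : GL F9 F) : Matrix F9 F9 F) *ᵥ vF e 0 = c • vF e (σ.1 ⟨0, N_pos⟩) := h
      have h4 : σ.1 ⟨0, N_pos⟩ = p := hσ
      rw [h4] at h3
      rw [single_eq e, h3, Submodule.span_singleton_smul_eq (IsUnit.mk0 c hc)]

theorem vF_inj (e : F4 ≃+* F) : Function.Injective (fun p : Fin dD.N => (F ∙ vF e p : Submodule F (F9 → F))) := by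
  intro p q h
  have h1 : vF e p ∈ (F ∙ vF e q : Submodule F (F9 → F)) := by
    have h2 : (F ∙ vF e p : Submodule F (F9 → F)) = (F ∙ vF e q : Submodule F (F9 → F)) := h
    rw [← h2]
    exact Submodule.mem_span_singleton_self _
  obtain ⟨a, ha⟩ := Submodule.mem_span_singleton.1 h1
  have h3 : F9Line.vL LV p = (e.symm a) • F9Line.vL LV q := by
    funext z
    have h4 := congrFun ha z
    apply e.injective
    simp only [vF, Pi.smul_apply, smul_eq_mul] at h4 ⊢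
    simp [h4]
  have hnz : ∀ r : Fin dD.N, F9Line.vL LV r ≠ 0 := by
    intro r h0
    have h5 := hLV r r.2
    simp only [lvY, Bool.and_eq_true, Nat.blt_eq] at h5
    obtain ⟨-, a1, a2, -⟩ := h5
    have h6 : LV r = 0 := by
      have h7 : vec9 (LV r) = vec9 0 := by rw [vec9_zero]; exact h0
      exact vec9_inj a1 (by norm_num) h7
    rw [h6] at a2
    exact absurd a2 (by decide +kernel)
  have hc : e.symm a ≠ 0 := by
    intro h0
    rw [h0, zero_smul] at h3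
    exact hnz p h3
  exact Fin.ext (line_inj hLV p.2 q.2 hc h3)

theorem ncard_lines (e : F4 ≃+* F) {ω : F} (he : e w = ω) :
    {L : Submodule F (F9 → F) | ∃ g ∈ threeJ3 F ω, L = F ∙ ((g : Matrix F9 F9 F) *ᵥ (Pi.single (0 : F9) (1 : F) : F9 → F))}.ncard
      = 23256 := by
  rw [set_eq e he, ← Set.image_univ, Set.ncard_image_of_injective _ (vF_inj e), Set.ncard_univ, Nat.card_fin]
  decide +kernel

end transfer

end Cfsg.Agent.Lib.J3VS
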