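import Cfsg.Agent.Lib.J3VT
import Cfsg.Prelude.Def_Classical
import Cfsg.Prelude.Def_Sporadic

/-! The triple cover inside the special unitary group. -/

set_option autoImplicit false
set_option linter.unusedSimpArgs false
set_option linter.unusedVariables false
set_option maxRecDepth 100000
set_option linter.style.haveILetI false

namespace Cfsg.Agent.Lib.J3VU

open Cfsg Cfsg.Spor Matrix Cfsg.Agent.Lib.F4Sp Cfsg.Agent.F4Iso Cfsg.Agent.Lib.F9Code Cfsg.Agent.Lib.F9Line
open Cfsg.Agent.Lib.PermChain Cfsg.Agent.Lib.PermChain2 Cfsg.Agent.Lib.J3VD Cfsg.Agent.Lib.J3VG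
open Cfsg.Agent.Lib.J3VT

/-- the form is preserved -/
def presF (g : GL9) : Prop :=
  ∀ u v : V9, ∑ z, ((g : Matrix F9 F9 F4) *ᵥ u) z * (((g : Matrix F9 F9 F4) *ᵥ v) z) ^ 2 = ∑ z, u z * (v z) ^ 2

/-- the unitary group, on the indices of the field with nine elements -/
def PF : Subgroup GL9 where
  carrier := {g | presF g}
  mul_mem' := by
    intro a b ha hb u v
    show ∑ z, (((a : Matrix F9 F9 F4) * (b : Matrix F9 F9 F4)) *ᵥ u) z * ((((a : Matrix F9 F9 F4) * (b : Matrix F9 F9 F4)) *ᵥ v) z) ^ 2 = _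
    rw [← Matrix.mulVec_mulVec, ← Matrix.mulVec_mulVec, ha, hb]
  one_mem' := by
    intro u v
    simp
  inv_mem' := by
    intro a ha u v
    have h := ha (((a⁻¹ : GL9) : Matrix F9 F9 F4) *ᵥ u) (((a⁻¹ : GL9) : Matrix F9 F9 F4) *ᵥ v)
    have e : (a : Matrix F9 F9 F4) * ((a⁻¹ : GL9) : Matrix F9 F9 F4) = 1 := by
      rw [← Units.val_mul, mul_inv_cancel, Units.val_one]
    rw [Matrix.mulVec_mulVec, Matrix.mulVec_mulVec, e, Matrix.one_mulVec, Matrix.one_mulVec] at h
    exact h.symm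

theorem frob_sq (s : Finset F9) (f : F9 → F4) : (∑ b ∈ s, f b) ^ 2 = ∑ b ∈ s, (f b) ^ 2 := by
  have h1 : ∀ a : F4, frob a = a ^ 2 := fun a => (sq a).symm
  rw [← h1, map_sum]
  simp only [h1]

theorem pres_of_unitary {M : Matrix F9 F9 F4}
    (hM : ∀ a b : F9, ∑ z, M z a * (M z b) ^ 2 = if a = b then 1 else 0) (u v : V9) :
    ∑ z, (M *ᵥ u) z * ((M *ᵥ v) z) ^ 2 = ∑ z, u z * (v z) ^ 2 := by
  have h1 : ∀ z, ((M *ᵥ v) z) ^ 2 = ∑ b, (M z b) ^ 2 * (v b) ^ 2 := by
    intro z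
    show (∑ b, M z b * v b) ^ 2 = _
    rw [frob_sq]
    simp only [mul_pow]
  have h2 : ∀ z, (M *ᵥ u) z = ∑ a, M z a * u a := fun z => rfl
  calc ∑ z, (M *ᵥ u) z * ((M *ᵥ v) z) ^ 2
      = ∑ z, ∑ a, ∑ b, (M z a * u a) * ((M z b) ^ 2 * (v b) ^ 2) := by
        refine Finset.sum_congr rfl fun z _ => ?_
        rw [h1, h2, Finset.sum_mul_sum]
    _ = ∑ a, ∑ b, ∑ z, (M z a * u a) * ((M z b) ^ 2 * (v b) ^ 2) := by
        rw [Finset.sum_comm]
        refine Finset.sum_congr rfl fun a _ => ?_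
        rw [Finset.sum_comm]
    _ = ∑ a, ∑ b, (u a * (v b) ^ 2) * (if a = b then 1 else 0) := by
        refine Finset.sum_congr rfl fun a _ => Finset.sum_congr rfl fun b _ => ?_
        rw [← hM a b, Finset.mul_sum]
        refine Finset.sum_congr rfl fun z _ => ?_
        ring
    _ = ∑ a, u a * (v a) ^ 2 := by
        refine Finset.sum_congr rfl fun a _ => ?_
        simp

/-- the check on the columns -/
def uniC (c : ℕ → ℕ) (a b : F9) : F4 :=
  ∑ z, dig (c (pos a)) (pos z) * (dig (c (pos b)) (pos z)) ^ 2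

theorem uni_all : ∀ j, j < 7 → ∀ a b : F9, uniC (cS (lS j)) a b = if a = b then 1 else 0 := by
  decide +kernel

theorem gM_pres {j : ℕ} (hj : j < 7) : gM j ∈ PF := by
  intro u v
  rw [gM_val hj]
  exact pres_of_unitary (fun a b => uni_all j hj a b) u v

theorem gamma_pres : Γ ≤ PF := gamma_le (fun j hj => gM_pres hj)

theorem pow9 : ∀ c : F4, c ≠ 0 → c ^ 9 = 1 := by decide

theorem card_F9 : Fintype.card F9 = 9 := by decide

theorem det_scal {g : GL9} (h : IsScal g) : (g : Matrix F9 F9 F4).det = 1 := by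
  obtain ⟨c, hc, e⟩ := h
  rw [e, Matrix.det_smul, Matrix.det_one, mul_one, card_F9]
  exact pow9 c hc

/-- the determinant -/
noncomputable def detH : GL9 →* F4 where
  toFun g := (g : Matrix F9 F9 F4).det
  map_one' := Matrix.det_one
  map_mul' a b := Matrix.det_mul _ _

section gen
variable {D : PD} {LV : ℕ → ℕ} {U : ℕ} {G : Subgroup GL9}

/-- the determinant on the group -/
noncomputable def dG (G : Subgroup GL9) : G →* F4 := detH.comp G.subtype

theorem detH_val (g : GL9) : detH g = (g : Matrix F9 F9 F4).det := by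
  simp only [detH, MonoidHom.coe_mk, OneHom.coe_mk]

theorem dG_val (g : G) : dG G g = ((g : GL9) : Matrix F9 F9 F4).det := by
  have h1 : dG G g = detH g.1 := by
    unfold dG
    exact MonoidHom.comp_apply _ _ _
  rw [h1, detH_val]

theorem ker_le_gen (hL : Link D LV U G) : (phi hL).ker ≤ (dG G).ker := by
  intro g hg
  rw [MonoidHom.mem_ker]
  rw [dG_val, det_scal ((ker_iff hL g).1 hg)]

theorem dG_trivial (hL : Link D LV U G) (hS : IsSimpleGroup (KK D 0)) (hnc : ∃ a b : KK D 0, a * b ≠ b * a) (g : G) :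
    dG G g = 1 := by
  have hN : (((dG G).ker).map (phi hL)).Normal := Subgroup.Normal.map inferInstance _ (phi_surj hL)
  rcases IsSimpleGroup.eq_bot_or_eq_top_of_normal _ hN with h | h
  · exfalso
    obtain ⟨a, b, hab⟩ := hnc
    apply hab
    obtain ⟨x, rfl⟩ := phi_surj hL a
    obtain ⟨y, rfl⟩ := phi_surj hL b
    have h1 : x * y * x⁻¹ * y⁻¹ ∈ (dG G).ker := by
      rw [MonoidHom.mem_ker]
      have ex : dG G x * dG G x⁻¹ = 1 := by rw [← map_mul, mul_inv_cancel, map_one]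
      have ey : dG G y * dG G y⁻¹ = 1 := by rw [← map_mul, mul_inv_cancel, map_one]
      rw [map_mul, map_mul, map_mul]
      calc dG G x * dG G y * dG G x⁻¹ * dG G y⁻¹ = (dG G x * dG G x⁻¹) * (dG G y * dG G y⁻¹) := by ring
        _ = 1 := by rw [ex, ey, one_mul]
    have h2 : phi hL (x * y * x⁻¹ * y⁻¹) ∈ ((dG G).ker).map (phi hL) := ⟨_, h1, rfl⟩
    rw [h] at h2
    have h3 : phi hL (x * y * x⁻¹ * y⁻¹) = 1 := h2
    simp only [map_mul, map_inv] at h3
    have h4 := mul_inv_eq_one.1 h3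
    exact mul_inv_eq_iff_eq_mul.1 h4
  · have h2 : phi hL g ∈ ((dG G).ker).map (phi hL) := by
      rw [h]
      trivial
    obtain ⟨k, hk, e⟩ := h2
    have h3 : g * k⁻¹ ∈ (phi hL).ker := by
      rw [MonoidHom.mem_ker, map_mul, map_inv, e, mul_inv_cancel]
    have h4 := ker_le_gen hL h3
    have hk' : dG G k = 1 := hk
    have h4' : dG G (g * k⁻¹) = 1 := h4
    have h5 : g = (g * k⁻¹) * k := by group
    rw [h5, map_mul, h4', hk', one_mul]

end gen

theorem det_gamma (g : GL9) (hg : g ∈ Γ) : (g : Matrix F9 F9 F4).det = 1 := by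
  have h := dG_trivial link simple_K0 noncomm (⟨g, hg⟩ : Γ)
  rw [dG_val] at h
  exact h

/-- an enumeration of the field with nine elements -/
noncomputable def ε : F9 ≃ Fin 9 := Fintype.equivFinOfCardEq card_F9

/-- the isomorphism from matrices on `Fin 9` -/
noncomputable def θ : GL (Fin 9) F4 ≃* GL9 :=
  Units.mapEquiv (Matrix.reindexAlgEquiv F4 F4 ε.symm).toMulEquiv

theorem θ_val (s : GL (Fin 9) F4) : ((θ s : GL9) : Matrix F9 F9 F4) =
    (s : Matrix (Fin 9) (Fin 9) F4).submatrix ε ε := rfl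

/-- from the unitary group to the matrices on the field with nine elements -/
noncomputable def τ : SU 9 F4 2 →* GL9 :=
  θ.toMonoidHom.comp ((Matrix.SpecialLinearGroup.toGL).comp (SU 9 F4 2).subtype)

theorem τ_val (s : SU 9 F4 2) : ((τ s : GL9) : Matrix F9 F9 F4) =
    (s.1.1 : Matrix (Fin 9) (Fin 9) F4).submatrix ε ε := rfl

theorem τ_inj : Function.Injective τ := by
  intro a b h
  apply Subtype.ext
  apply Subtype.ext
  have h1 := congrArg (fun g : GL9 => (g : Matrix F9 F9 F4)) h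
  simp only [τ_val] at h1
  ext i j
  have h2 := congrFun (congrFun h1 (ε.symm i)) (ε.symm j)
  simpa using h2

theorem τ_surj (g : GL9) (hg : g ∈ Γ) : ∃ s : SU 9 F4 2, τ s = g := by
  have hdet := det_gamma g hg
  have hp : presF g := gamma_pres hg
  let M : Matrix (Fin 9) (Fin 9) F4 := (g : Matrix F9 F9 F4).submatrix ε.symm ε.symm
  have hM : M.det = 1 := by
    show ((g : Matrix F9 F9 F4).submatrix ε.symm ε.symm).det = 1
    rw [Matrix.det_submatrix_equiv_self, hdet]
  let S : Matrix.SpecialLinearGroup (Fin 9) F4 := ⟨M, hM⟩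
  have hS : S ∈ SU 9 F4 2 := by
    intro u v
    show hermForm 9 F4 2 (M *ᵥ u) (M *ᵥ v) = hermForm 9 F4 2 u v
    have e1 : ∀ x : Fin 9 → F4, M *ᵥ x = ((g : Matrix F9 F9 F4) *ᵥ (x ∘ ε)) ∘ ε.symm := by
      intro x
      exact Matrix.submatrix_mulVec_equiv _ _ _ _
    unfold hermForm
    rw [e1, e1]
    have e2 := Equiv.sum_comp ε.symm (fun z => ((g : Matrix F9 F9 F4) *ᵥ (u ∘ ε)) z * (((g : Matrix F9 F9 F4) *ᵥ (v ∘ ε)) z) ^ 2)
    have e3 := Equiv.sum_comp ε (fun i => u i * (v i) ^ 2)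
    simp only [Function.comp_apply]
    rw [e2, hp, ← e3]
    rfl
  refine ⟨⟨S, hS⟩, ?_⟩
  apply Units.ext
  rw [τ_val]
  ext i j
  show (g : Matrix F9 F9 F4) (ε.symm (ε i)) (ε.symm (ε j)) = _
  simp

/-- the subgroup -/
noncomputable def H : Subgroup (SU 9 F4 2) := Γ.comap τ

/-- the subgroup is the triple cover -/
noncomputable def ρ : H ≃* Γ :=
  MulEquiv.ofBijective
    (MonoidHom.mk' (fun s => (⟨τ s.1, s.2⟩ : Γ)) (by
      intro a b
      apply Subtype.ext
      exact map_mul τ a.1 b.1))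
    (by
      constructor
      · intro a b h
        apply Subtype.ext
        apply τ_inj
        exact congrArg Subtype.val h
      · rintro ⟨g, hg⟩
        obtain ⟨s, hs⟩ := τ_surj g hg
        have hs' : s ∈ H := by
          show τ s ∈ Γ
          rw [hs]
          exact hg
        exact ⟨⟨s, hs'⟩, Subtype.ext hs⟩)

theorem main : ∃ (F : Type) (_ : Field F) (_ : Fintype F), Fintype.card F = 4 ∧
    ∃ H : Subgroup (Cfsg.SU 9 F 2), Nat.card (Subgroup.center H) = 3 ∧ Cfsg.IsJ3 (H ⧸ Subgroup.center H) := by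
  refine ⟨F4, inferInstance, inferInstance, card_F4, H, ?_, ?_⟩
  · rw [← card_center']
    exact Nat.card_congr (Subgroup.centerCongr ρ).toEquiv
  · obtain ⟨q⟩ := quot
    let ψ : H ⧸ Subgroup.center H ≃* KK dD 0 := (quotCongr ρ).trans q
    haveI := simple_K0
    refine ⟨ψ.isSimpleGroup, ?_⟩
    rw [← card_K0]
    exact Nat.card_congr ψ.toEquiv

end Cfsg.Agent.Lib.J3VU
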