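import Cfsg.Agent.Lib.J3VD
set_option autoImplicit false
set_option maxRecDepth 1000000
namespace Cfsg.Agent.Lib.J3VD
open Cfsg.Agent.Lib.PChain Cfsg.Agent.Lib.PermChain Cfsg.Agent.Lib.PermChain2 Cfsg.Agent.Lib.PermChain6 Cfsg.Agent.Lib.F9Code Cfsg.Agent.Lib.F9Line

theorem cV0_0 : allR (levelP (cd dD) 0) 0 256 = true := by decide +kernel
theorem cV0_1 : allR (levelP (cd dD) 0) 256 512 = true := by decide +kernel
theorem cV0_2 : allR (levelP (cd dD) 0) 512 768 = true := by decide +kernel
theorem cV0_3 : allR (levelP (cd dD) 0) 768 1024 = true := by decide +kernel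
theorem cV0_4 : allR (levelP (cd dD) 0) 1024 1280 = true := by decide +kernel
theorem cV0_5 : allR (levelP (cd dD) 0) 1280 1536 = true := by decide +kernel
theorem cV0_6 : allR (levelP (cd dD) 0) 1536 1792 = true := by decide +kernel
theorem cV0_7 : allR (levelP (cd dD) 0) 1792 2048 = true := by decide +kernel
theorem cV0_8 : allR (levelP (cd dD) 0) 2048 2304 = true := by decide +kernel
theorem cV0_9 : allR (levelP (cd dD) 0) 2304 2560 = true := by decide +kernel
theorem cV0_10 : allR (levelP (cd dD) 0) 2560 2816 = true := by decide +kernel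
theorem cV0_11 : allR (levelP (cd dD) 0) 2816 3072 = true := by decide +kernel
theorem cV0_12 : allR (levelP (cd dD) 0) 3072 3328 = true := by decide +kernel
theorem cV0_13 : allR (levelP (cd dD) 0) 3328 3584 = true := by decide +kernel
theorem cV0_14 : allR (levelP (cd dD) 0) 3584 3840 = true := by decide +kernel
theorem cV0_15 : allR (levelP (cd dD) 0) 3840 4096 = true := by decide +kernel
theorem cV0_16 : allR (levelP (cd dD) 0) 4096 4352 = true := by decide +kernel
theorem cV0_17 : allR (levelP (cd dD) 0) 4352 4608 = true := by decide +kernel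
theorem cV0_18 : allR (levelP (cd dD) 0) 4608 4864 = true := by decide +kernel
theorem cV0_19 : allR (levelP (cd dD) 0) 4864 5120 = true := by decide +kernel
theorem cV0_20 : allR (levelP (cd dD) 0) 5120 5376 = true := by decide +kernel
theorem cV0_21 : allR (levelP (cd dD) 0) 5376 5632 = true := by decide +kernel
theorem cV0_22 : allR (levelP (cd dD) 0) 5632 5888 = true := by decide +kernel
theorem cV0_23 : allR (levelP (cd dD) 0) 5888 6144 = true := by decide +kernel
theorem cV0_24 : allR (levelP (cd dD) 0) 6144 6400 = true := by decide +kernel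
theorem cV0_25 : allR (levelP (cd dD) 0) 6400 6656 = true := by decide +kernel
theorem cV0_26 : allR (levelP (cd dD) 0) 6656 6912 = true := by decide +kernel
theorem cV0_27 : allR (levelP (cd dD) 0) 6912 7168 = true := by decide +kernel
theorem cV0_28 : allR (levelP (cd dD) 0) 7168 7424 = true := by decide +kernel
theorem cV0_29 : allR (levelP (cd dD) 0) 7424 7680 = true := by decide +kernel

end Cfsg.Agent.Lib.J3VD
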