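import Cfsg.Agent.Lib.J3VD
set_option autoImplicit false
set_option maxRecDepth 1000000
namespace Cfsg.Agent.Lib.J3VD
open Cfsg.Agent.Lib.PChain Cfsg.Agent.Lib.PermChain Cfsg.Agent.Lib.PermChain2 Cfsg.Agent.Lib.PermChain6 Cfsg.Agent.Lib.F9Code Cfsg.Agent.Lib.F9Line

theorem cV0_30 : allR (levelP (cd dD) 0) 7680 7936 = true := by decide +kernel
theorem cV0_31 : allR (levelP (cd dD) 0) 7936 8192 = true := by decide +kernel
theorem cV0_32 : allR (levelP (cd dD) 0) 8192 8448 = true := by decide +kernel
theorem cV0_33 : allR (levelP (cd dD) 0) 8448 8704 = true := by decide +kernel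
theorem cV0_34 : allR (levelP (cd dD) 0) 8704 8960 = true := by decide +kernel
theorem cV0_35 : allR (levelP (cd dD) 0) 8960 9216 = true := by decide +kernel
theorem cV0_36 : allR (levelP (cd dD) 0) 9216 9472 = true := by decide +kernel
theorem cV0_37 : allR (levelP (cd dD) 0) 9472 9728 = true := by decide +kernel
theorem cV0_38 : allR (levelP (cd dD) 0) 9728 9984 = true := by decide +kernel
theorem cV0_39 : allR (levelP (cd dD) 0) 9984 10240 = true := by decide +kernel
theorem cV0_40 : allR (levelP (cd dD) 0) 10240 10496 = true := by decide +kernel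
theorem cV0_41 : allR (levelP (cd dD) 0) 10496 10752 = true := by decide +kernel
theorem cV0_42 : allR (levelP (cd dD) 0) 10752 11008 = true := by decide +kernel
theorem cV0_43 : allR (levelP (cd dD) 0) 11008 11264 = true := by decide +kernel
theorem cV0_44 : allR (levelP (cd dD) 0) 11264 11520 = true := by decide +kernel
theorem cV0_45 : allR (levelP (cd dD) 0) 11520 11776 = true := by decide +kernel
theorem cV0_46 : allR (levelP (cd dD) 0) 11776 12032 = true := by decide +kernel
theorem cV0_47 : allR (levelP (cd dD) 0) 12032 12288 = true := by decide +kernel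
theorem cV0_48 : allR (levelP (cd dD) 0) 12288 12544 = true := by decide +kernel
theorem cV0_49 : allR (levelP (cd dD) 0) 12544 12800 = true := by decide +kernel
theorem cV0_50 : allR (levelP (cd dD) 0) 12800 13056 = true := by decide +kernel
theorem cV0_51 : allR (levelP (cd dD) 0) 13056 13312 = true := by decide +kernel
theorem cV0_52 : allR (levelP (cd dD) 0) 13312 13568 = true := by decide +kernel
theorem cV0_53 : allR (levelP (cd dD) 0) 13568 13824 = true := by decide +kernel
theorem cV0_54 : allR (levelP (cd dD) 0) 13824 14080 = true := by decide +kernel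
theorem cV0_55 : allR (levelP (cd dD) 0) 14080 14336 = true := by decide +kernel
theorem cV0_56 : allR (levelP (cd dD) 0) 14336 14592 = true := by decide +kernel
theorem cV0_57 : allR (levelP (cd dD) 0) 14592 14848 = true := by decide +kernel
theorem cV0_58 : allR (levelP (cd dD) 0) 14848 15104 = true := by decide +kernel
theorem cV0_59 : allR (levelP (cd dD) 0) 15104 15360 = true := by decide +kernel

end Cfsg.Agent.Lib.J3VD
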