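import Cfsg.Agent.Lib.J3VD
set_option autoImplicit false
set_option maxRecDepth 1000000
namespace Cfsg.Agent.Lib.J3VD
open Cfsg.Agent.Lib.PChain Cfsg.Agent.Lib.PermChain Cfsg.Agent.Lib.PermChain2 Cfsg.Agent.Lib.PermChain6 Cfsg.Agent.Lib.F9Code Cfsg.Agent.Lib.F9Line

theorem cV0_60 : allR (levelP (cd dD) 0) 15360 15616 = true := by decide +kernel
theorem cV0_61 : allR (levelP (cd dD) 0) 15616 15872 = true := by decide +kernel
theorem cV0_62 : allR (levelP (cd dD) 0) 15872 16128 = true := by decide +kernel
theorem cV0_63 : allR (levelP (cd dD) 0) 16128 16384 = true := by decide +kernel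
theorem cV0_64 : allR (levelP (cd dD) 0) 16384 16640 = true := by decide +kernel
theorem cV0_65 : allR (levelP (cd dD) 0) 16640 16896 = true := by decide +kernel
theorem cV0_66 : allR (levelP (cd dD) 0) 16896 17152 = true := by decide +kernel
theorem cV0_67 : allR (levelP (cd dD) 0) 17152 17408 = true := by decide +kernel
theorem cV0_68 : allR (levelP (cd dD) 0) 17408 17664 = true := by decide +kernel
theorem cV0_69 : allR (levelP (cd dD) 0) 17664 17920 = true := by decide +kernel
theorem cV0_70 : allR (levelP (cd dD) 0) 17920 18176 = true := by decide +kernel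
theorem cV0_71 : allR (levelP (cd dD) 0) 18176 18432 = true := by decide +kernel
theorem cV0_72 : allR (levelP (cd dD) 0) 18432 18688 = true := by decide +kernel
theorem cV0_73 : allR (levelP (cd dD) 0) 18688 18944 = true := by decide +kernel
theorem cV0_74 : allR (levelP (cd dD) 0) 18944 19200 = true := by decide +kernel
theorem cV0_75 : allR (levelP (cd dD) 0) 19200 19456 = true := by decide +kernel
theorem cV0_76 : allR (levelP (cd dD) 0) 19456 19712 = true := by decide +kernel
theorem cV0_77 : allR (levelP (cd dD) 0) 19712 19968 = true := by decide +kernel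
theorem cV0_78 : allR (levelP (cd dD) 0) 19968 20224 = true := by decide +kernel
theorem cV0_79 : allR (levelP (cd dD) 0) 20224 20480 = true := by decide +kernel
theorem cV0_80 : allR (levelP (cd dD) 0) 20480 20736 = true := by decide +kernel
theorem cV0_81 : allR (levelP (cd dD) 0) 20736 20992 = true := by decide +kernel
theorem cV0_82 : allR (levelP (cd dD) 0) 20992 21248 = true := by decide +kernel
theorem cV0_83 : allR (levelP (cd dD) 0) 21248 21504 = true := by decide +kernel
theorem cV0_84 : allR (levelP (cd dD) 0) 21504 21760 = true := by decide +kernel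
theorem cV0_85 : allR (levelP (cd dD) 0) 21760 22016 = true := by decide +kernel
theorem cV0_86 : allR (levelP (cd dD) 0) 22016 22272 = true := by decide +kernel
theorem cV0_87 : allR (levelP (cd dD) 0) 22272 22528 = true := by decide +kernel
theorem cV0_88 : allR (levelP (cd dD) 0) 22528 22784 = true := by decide +kernel
theorem cV0_89 : allR (levelP (cd dD) 0) 22784 23040 = true := by decide +kernel
theorem cV0_90 : allR (levelP (cd dD) 0) 23040 23256 = true := by decide +kernel

end Cfsg.Agent.Lib.J3VD
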