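import Mathlib

/-! Coprime action of a single automorphism on a finite commutative group, and the
class count of a split extension by an abelian coprime normal subgroup. -/

set_option autoImplicit false

namespace Cfsg.Agent.Lib.KGV

theorem comm_uniq {A : Type*} [CommGroup A] [Finite A] (τ : MulAut A) (n : ℕ)
    (hn : n.Coprime (Nat.card A)) (hτ : τ ^ n = 1) (c b : A) (hc : τ c = c)
    (hb : c = b * (τ b)⁻¹) : c = 1 := by
  have hfix : ∀ m : ℕ, (τ ^ m) c = c := by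
    intro m
    induction m with
    | zero => simp
    | succ m ih => rw [pow_succ, MulAut.mul_apply, hc, ih]
  have key : ∀ m : ℕ, b * ((τ ^ m) b)⁻¹ = c ^ m := by
    intro m
    induction m with
    | zero => simp
    | succ m ih =>
      have h1 : (τ ^ m) c = (τ ^ m) b * ((τ ^ (m + 1)) b)⁻¹ := by
        conv_lhs => rw [hb]
        rw [map_mul, map_inv, pow_succ, MulAut.mul_apply]
      rw [hfix] at h1
      rw [pow_succ c, ← ih, h1]
      group
  have h1 := key n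
  rw [hτ] at h1
  simp only [MulAut.one_apply, mul_inv_cancel] at h1
  have h2 : c ^ Nat.card A = 1 := pow_card_eq_one'
  have h3 := orderOf_dvd_of_pow_eq_one h1.symm
  have h4 := orderOf_dvd_of_pow_eq_one h2
  have := Nat.eq_one_of_dvd_coprimes hn h3 h4
  exact orderOf_eq_one_iff.mp this

theorem comm_decomp {A : Type*} [CommGroup A] [Finite A] (τ : MulAut A) (n : ℕ)
    (hn : n.Coprime (Nat.card A)) (hτ : τ ^ n = 1) (u : A) :
    ∃ c b : A, τ c = c ∧ u = c * (b * (τ b)⁻¹) := by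
  let ψ : A →* A := (MonoidHom.id A) / (τ : A ≃* A).toMonoidHom
  have hψ : ∀ b, ψ b = b * (τ b)⁻¹ := fun b => by
    simp [ψ, div_eq_mul_inv]
  have hker : ∀ c, c ∈ ψ.ker ↔ τ c = c := fun c => by
    rw [MonoidHom.mem_ker, hψ, mul_inv_eq_one]
    exact eq_comm
  have hdis : Disjoint ψ.ker ψ.range := by
    rw [Subgroup.disjoint_def]
    intro c hc hc2
    obtain ⟨b, hb⟩ := hc2
    exact comm_uniq τ n hn hτ c b ((hker c).mp hc) (by rw [← hb, hψ])
  have hcard : Nat.card ψ.ker * Nat.card ψ.range = Nat.card A := by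
    rw [← Subgroup.index_ker, Subgroup.card_mul_index]
  have hc := Subgroup.isComplement'_of_card_mul_and_disjoint hcard hdis
  obtain ⟨⟨c, r⟩, hcr⟩ := hc.2 u
  obtain ⟨b, hb⟩ := r.2
  refine ⟨c.1, b, (hker c.1).mp c.2, ?_⟩
  rw [← hψ, hb]
  exact hcr.symm

section main

variable {X : Type*} [Group X] [Finite X] (V : Subgroup X) [hVn : V.Normal]
  (hab : ∀ a ∈ V, ∀ b ∈ V, a * b = b * a) (G : Subgroup X)
  (hGV : Subgroup.IsComplement' V G) (hcop : (Nat.card V).Coprime (Nat.card G))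

include hab hGV hcop

/-- conj by `g ∈ G` on the abelian coprime `V`: every element of `V` decomposes. -/
theorem sub_decomp (g : X) (hg : g ∈ G) (u : X) (hu : u ∈ V) :
    ∃ c ∈ V, ∃ b ∈ V, g * c * g⁻¹ = c ∧ u = c * (b * (g * b * g⁻¹)⁻¹) := by
  letI : CommGroup V := { (inferInstance : Group V) with
    mul_comm := fun a b => Subtype.ext (hab a a.2 b b.2) }
  let τ : MulAut V := MulAut.conjNormal g
  have hτv : ∀ a : V, ((τ a : V) : X) = g * a * g⁻¹ := fun a => MulAut.conjNormal_apply g a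
  have hn : (orderOf g).Coprime (Nat.card V) :=
    (hcop.coprime_dvd_right (by
      have := orderOf_dvd_natCard (⟨g, hg⟩ : G)
      rwa [Subgroup.orderOf_mk] at this)).symm
  have hτ : τ ^ orderOf g = 1 := by
    show (MulAut.conjNormal g) ^ orderOf g = 1
    rw [← map_pow, pow_orderOf_eq_one, map_one]
  obtain ⟨c, b, hc, hub⟩ := comm_decomp τ _ hn hτ ⟨u, hu⟩
  refine ⟨c.1, c.2, b.1, b.2, ?_, ?_⟩
  · rw [← hτv, hc]
  · have := congrArg Subtype.val hub
    simp only [Subgroup.coe_mul, InvMemClass.coe_inv, hτv] at this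
    exact this

theorem sub_uniq (g : X) (hg : g ∈ G) (c : X) (hcV : c ∈ V) (b : X) (hb : b ∈ V)
    (hc : g * c * g⁻¹ = c) (h : c = b * (g * b * g⁻¹)⁻¹) : c = 1 := by
  letI : CommGroup V := { (inferInstance : Group V) with
    mul_comm := fun a b => Subtype.ext (hab a a.2 b b.2) }
  let τ : MulAut V := MulAut.conjNormal g
  have hτv : ∀ a : V, ((τ a : V) : X) = g * a * g⁻¹ := fun a => MulAut.conjNormal_apply g a
  have hn : (orderOf g).Coprime (Nat.card V) :=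
    (hcop.coprime_dvd_right (by
      have := orderOf_dvd_natCard (⟨g, hg⟩ : G)
      rwa [Subgroup.orderOf_mk] at this)).symm
  have hτ : τ ^ orderOf g = 1 := by
    show (MulAut.conjNormal g) ^ orderOf g = 1
    rw [← map_pow, pow_orderOf_eq_one, map_one]
  have := comm_uniq τ _ hn hτ ⟨c, hcV⟩ ⟨b, hb⟩ (Subtype.ext (by rw [hτv]; exact hc))
    (Subtype.ext (by
      simp only [Subgroup.coe_mul, InvMemClass.coe_inv, hτv]
      exact h))
  exact congrArg Subtype.val this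

theorem s4956 (S : Finset X) (hSV : ∀ s ∈ S, s ∈ V)
    (hrep : ∀ v ∈ V, ∃! s, s ∈ S ∧ ∃ g ∈ G, g * v * g⁻¹ = s) :
    Nat.card (ConjClasses X) =
      ∑ s ∈ S, Nat.card (ConjClasses ↥(G ⊓ Subgroup.centralizer ({s} : Set X))) := by
  classical
  let C : S → Subgroup X := fun s => G ⊓ Subgroup.centralizer ({s.1} : Set X)
  have hCmem : ∀ (s : S) (a : X), a ∈ C s ↔ a ∈ G ∧ a * s.1 * a⁻¹ = s.1 := by
    intro s a
    simp only [C, Subgroup.mem_inf, Subgroup.mem_centralizer_iff, Set.mem_singleton_iff,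
      forall_eq, mul_inv_eq_iff_eq_mul]
    constructor
    · rintro ⟨h1, h2⟩
      exact ⟨h1, h2.symm⟩
    · rintro ⟨h1, h2⟩
      exact ⟨h1, h2.symm⟩
  let f : (Σ s : S, ConjClasses (C s)) → ConjClasses X := fun t =>
    Quotient.lift (fun g : C t.1 => ConjClasses.mk (t.1.1 * (g : X))) (by
      intro g g' h
      obtain ⟨a, ha⟩ := isConj_iff.mp h
      apply ConjClasses.mk_eq_mk_iff_isConj.mpr
      rw [isConj_iff]
      refine ⟨(a : X), ?_⟩
      have ha2 := ((hCmem t.1 a).mp a.2).2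
      have ha3 : (a : X) * g * (a : X)⁻¹ = g' := by
        have := congrArg Subtype.val ha
        simpa using this
      calc (a : X) * (t.1.1 * g) * (a : X)⁻¹
          = ((a : X) * t.1.1 * (a : X)⁻¹) * ((a : X) * g * (a : X)⁻¹) := by group
        _ = _ := by rw [ha2, ha3]) t.2
  have hf : ∀ (s : S) (g : C s), f ⟨s, ConjClasses.mk g⟩ = ConjClasses.mk (s.1 * (g : X)) :=
    fun _ _ => rfl
  have hinj : Function.Injective f := by
    rintro ⟨s, c⟩ ⟨s', c'⟩ h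
    obtain ⟨g, rfl⟩ := ConjClasses.mk_surjective c
    obtain ⟨g', rfl⟩ := ConjClasses.mk_surjective c'
    rw [hf, hf, ConjClasses.mk_eq_mk_iff_isConj, isConj_iff] at h
    obtain ⟨t, ht⟩ := h
    obtain ⟨⟨b, a⟩, hba⟩ := hGV.2 t
    have hba' : (b : X) * (a : X) = t := hba
    have hsV := hSV s.1 s.2
    have hs'V := hSV s'.1 s'.2
    have hg := ((hCmem s g).mp g.2).1
    have hg' := ((hCmem s' g').mp g'.2).1
    have hgc := ((hCmem s' g').mp g'.2).2
    have hgs := ((hCmem s g).mp g.2).2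
    set s₁ := (a : X) * s.1 * (a : X)⁻¹ with hs₁
    set g₁ := (a : X) * g * (a : X)⁻¹ with hg₁
    have hs₁V : s₁ ∈ V := hVn.conj_mem _ hsV _
    have hg₁G : g₁ ∈ G := G.mul_mem (G.mul_mem a.2 hg) (G.inv_mem a.2)
    have hσb : g₁ * b * g₁⁻¹ ∈ V := hVn.conj_mem _ b.2 _
    -- compute the conjugate
    have hcomp : t * (s.1 * g) * t⁻¹ = (s₁ * (b * (g₁ * b * g₁⁻¹)⁻¹)) * g₁ := by
      have hcomm : (b : X) * s₁ = s₁ * b := hab _ b.2 _ hs₁V
      rw [← hba']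
      calc (b : X) * a * (s.1 * g) * ((b : X) * a)⁻¹
          = (b : X) * s₁ * (g₁ * (b : X)⁻¹) := by
            rw [hs₁, hg₁]; group
        _ = s₁ * b * (g₁ * (b : X)⁻¹) := by rw [hcomm]
        _ = _ := by group
    rw [hcomp] at ht
    have hv1 : s₁ * (b * (g₁ * b * g₁⁻¹)⁻¹) ∈ V :=
      V.mul_mem hs₁V (V.mul_mem b.2 (V.inv_mem hσb))
    have huniq := hGV.1 (a₁ := (⟨_, hv1⟩, ⟨g₁, hg₁G⟩)) (a₂ := (⟨s'.1, hs'V⟩, ⟨g', hg'⟩)) ht
    have hs'eq : s₁ * (b * (g₁ * b * g₁⁻¹)⁻¹) = s'.1 := by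
      simpa using congrArg (fun p : V × G => (p.1 : X)) huniq
    have hg'eq : g₁ = g' := by
      simpa using congrArg (fun p : V × G => (p.2 : X)) huniq
    -- `s₁⁻¹ s'` is fixed and in the commutator image
    have hfix1 : g₁ * s₁ * g₁⁻¹ = s₁ := by
      rw [hs₁, hg₁]
      calc (a : X) * g * (a : X)⁻¹ * ((a : X) * s.1 * (a : X)⁻¹) * ((a : X) * g * (a : X)⁻¹)⁻¹
          = (a : X) * (g * s.1 * (g : X)⁻¹) * (a : X)⁻¹ := by group
        _ = _ := by rw [hgs]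
    have hfix2 : g₁ * s'.1 * g₁⁻¹ = s'.1 := by rw [hg'eq]; exact hgc
    have hd : s₁⁻¹ * s'.1 = b * (g₁ * b * g₁⁻¹)⁻¹ := by
      rw [← hs'eq]; group
    have hdV : s₁⁻¹ * s'.1 ∈ V := V.mul_mem (V.inv_mem hs₁V) hs'V
    have hdfix : g₁ * (s₁⁻¹ * s'.1) * g₁⁻¹ = s₁⁻¹ * s'.1 := by
      calc g₁ * (s₁⁻¹ * s'.1) * g₁⁻¹ = (g₁ * s₁ * g₁⁻¹)⁻¹ * (g₁ * s'.1 * g₁⁻¹) := by group
        _ = _ := by rw [hfix1, hfix2]
    have hd1 := sub_uniq V hab G hGV hcop g₁ hg₁G _ hdV b b.2 hdfix hd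
    have hs₁eq : s₁ = s'.1 := by
      have := mul_left_cancel (a := s₁⁻¹) (b := s'.1) (c := s₁) (by rw [hd1, inv_mul_cancel])
      exact this.symm
    have hss : s = s' := by
      obtain ⟨s0, -, h0⟩ := hrep s.1 hsV
      apply Subtype.ext
      rw [h0 s.1 ⟨s.2, 1, G.one_mem, by simp⟩, h0 s'.1 ⟨s'.2, a, a.2, hs₁eq⟩]
    subst hss
    congr 1
    rw [ConjClasses.mk_eq_mk_iff_isConj, isConj_iff]
    refine ⟨⟨a, (hCmem s a).mpr ⟨a.2, hs₁eq⟩⟩, Subtype.ext ?_⟩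
    simpa using hg'eq
  have hsurj : Function.Surjective f := by
    intro c
    obtain ⟨x, rfl⟩ := ConjClasses.mk_surjective c
    obtain ⟨⟨u, g⟩, hug⟩ := hGV.2 x
    have hug' : (u : X) * (g : X) = x := hug
    obtain ⟨c0, hc0, b, hb, hfix, hu⟩ := sub_decomp V hab G hGV hcop g g.2 u u.2
    obtain ⟨s, ⟨hsS, a, ha, hac⟩, -⟩ := hrep c0 hc0
    have hsV := hSV s hsS
    let h0 : X := a * g * a⁻¹
    have hh0G : h0 ∈ G := G.mul_mem (G.mul_mem ha g.2) (G.inv_mem ha)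
    have hh0c : h0 * s * h0⁻¹ = s := by
      rw [← hac]
      calc a * g * a⁻¹ * (a * c0 * a⁻¹) * (a * g * a⁻¹)⁻¹
          = a * ((g : X) * c0 * (g : X)⁻¹) * a⁻¹ := by group
        _ = _ := by rw [hfix]
    refine ⟨⟨⟨s, hsS⟩, ConjClasses.mk ⟨h0, (hCmem ⟨s, hsS⟩ h0).mpr ⟨hh0G, hh0c⟩⟩⟩, ?_⟩
    rw [hf, ConjClasses.mk_eq_mk_iff_isConj, isConj_iff]
    refine ⟨b * a⁻¹, ?_⟩
    show b * a⁻¹ * (s * h0) * (b * a⁻¹)⁻¹ = x
    have hcomm : b * c0 = c0 * b := hab _ hb _ hc0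
    rw [← hug', hu, ← hac]
    show b * a⁻¹ * (a * c0 * a⁻¹ * (a * g * a⁻¹)) * (b * a⁻¹)⁻¹ = _
    calc b * a⁻¹ * (a * c0 * a⁻¹ * (a * g * a⁻¹)) * (b * a⁻¹)⁻¹
        = (b * c0) * ((g : X) * b⁻¹) := by group
      _ = c0 * b * ((g : X) * b⁻¹) := by rw [hcomm]
      _ = _ := by group
  rw [Nat.card_congr (Equiv.ofBijective f ⟨hinj, hsurj⟩).symm, Nat.card_sigma]
  exact Finset.sum_coe_sort S (fun s => Nat.card (ConjClasses ↥(G ⊓ Subgroup.centralizer ({s} : Set X))))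

end main

end Cfsg.Agent.Lib.KGV
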