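import Cfsg.Agent.Lib.BlockE6
import Cfsg.Agent.Lib.BlockAM
import Cfsg.Agent.Lib.KGV
import Cfsg.Agent.Lib.BlockCov

/-! Second orthogonality plus the arithmetic-geometric mean on Galois columns. -/

set_option autoImplicit false

namespace Cfsg.Agent.Lib.KGV

open Cfsg Cfsg.Agent.Lib.IrrBasic Cfsg.Agent.Lib.LocRing Cfsg.Agent.Lib Cfsg.Agent.Lib.BlockPair
open Cfsg.Agent.Lib.BlockQuot Cfsg.Agent.Lib.BlockNorm Cfsg.Agent.Lib.BlockMain2
open Cfsg.Agent.Lib.BlockMain3 Cfsg.Agent.Lib.CharBasic Cfsg.Agent.Lib.CharOrth Cfsg.Agent.Lib.CharAlg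
open Cfsg.Agent.Lib.BlockOku
open scoped ComplexConjugate
open Polynomial

universe u

theorem galois_weights (X : Type u) [Group X] [Fintype X] :
    ∃ (Γ : Type) (_ : Fintype Γ) (k : Γ → ℕ), Nonempty Γ ∧ (∀ γ, (k γ).Coprime (Nat.card X)) ∧
      ∀ χ : X → ℂ, IsCharacter X χ → ∀ g, χ g ≠ 0 →
        (Fintype.card Γ : ℝ) ≤ ∑ γ, ‖χ (g ^ k γ)‖ ^ 2 := by
  classical
  have : NeZero (Nat.card X) := ⟨Nat.card_pos.ne'⟩
  obtain ⟨ξ, Γ, _, k, hξ, hk, ⟨γ₀, hγ₀⟩, hint, hne, -, -⟩ := CharGal.norm_package (Nat.card X)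
  refine ⟨Γ, inferInstance, k, ⟨γ₀⟩, hk, ?_⟩
  intro χ hχ g h0
  obtain ⟨n, ρ, rfl⟩ := id hχ
  obtain ⟨x, hx⟩ := CharGal.exists_poly_char ξ hξ ρ g
  have hx1 : aeval ξ x = ρ.character g := by simpa using hx 1
  obtain ⟨z, hz⟩ := hint x (by rw [hx1]; exact IsCharacter.isIntegral hχ g)
  have hne' := hne x (by rw [hx1]; exact h0)
  have hpos : ∀ γ, 0 < ‖aeval (ξ ^ k γ) x‖ ^ 2 := by
    intro γ
    have := norm_pos_iff.mpr (hne' γ)
    positivity
  have hz0 : z ≠ 0 := by
    rintro rfl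
    rw [Int.cast_zero] at hz
    obtain ⟨γ, _, hγ⟩ := Finset.prod_eq_zero_iff.mp hz
    exact hne' γ hγ
  have hz1 : (1 : ℝ) ≤ ‖(z : ℂ)‖ := by
    rw [Complex.norm_intCast]
    exact_mod_cast Int.one_le_abs hz0
  have hprod : (1 : ℝ) ≤ ∏ γ, ‖aeval (ξ ^ k γ) x‖ ^ 2 := by
    rw [Finset.prod_pow, ← norm_prod, hz]
    exact one_le_pow₀ hz1
  have hlog : 0 ≤ ∑ γ, Real.log (‖aeval (ξ ^ k γ) x‖ ^ 2) := by
    rw [← Real.log_prod (fun γ _ => (hpos γ).ne')]
    exact Real.log_nonneg hprod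
  have hsum : ∑ γ, Real.log (‖aeval (ξ ^ k γ) x‖ ^ 2) ≤
      ∑ γ, (‖aeval (ξ ^ k γ) x‖ ^ 2 - 1) :=
    Finset.sum_le_sum (fun γ _ => Real.log_le_sub_one_of_pos (hpos γ))
  rw [Finset.sum_sub_distrib] at hsum
  simp only [Finset.sum_const, Finset.card_univ, nsmul_eq_mul, mul_one] at hsum
  simp only [← hx]
  linarith

theorem card_conj_congr {A B : Type*} [Group A] [Group B] (e : A ≃* B) :
    Nat.card (ConjClasses A) = Nat.card (ConjClasses B) := by
  refine Nat.card_congr (Equiv.ofBijective (ConjClasses.map e.toMonoidHom)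
    ⟨?_, ConjClasses.map_surjective e.surjective⟩)
  have : Function.LeftInverse (ConjClasses.map e.symm.toMonoidHom)
      (ConjClasses.map e.toMonoidHom) := by
    intro c
    obtain ⟨a, rfl⟩ := ConjClasses.mk_surjective c
    show ConjClasses.mk (e.symm (e a)) = _
    rw [e.symm_apply_apply]
  exact this.injective

theorem card_centralizer_eq {X : Type u} [Group X] [Finite X] (V : Subgroup X)
    (hab : ∀ a ∈ V, ∀ b ∈ V, a * b = b * a) (G : Subgroup X)
    (hGV : Subgroup.IsComplement' V G) (v : X) (hv : v ∈ V) :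
    Nat.card (Subgroup.centralizer ({v} : Set X)) =
      Nat.card ↥(G ⊓ Subgroup.centralizer ({v} : Set X)) * Nat.card V := by
  classical
  have hVC : ∀ u ∈ V, u ∈ Subgroup.centralizer ({v} : Set X) := fun u hu => by
    rw [Subgroup.mem_centralizer_singleton_iff]
    exact hab u hu v hv
  let f : ↥V × ↥(G ⊓ Subgroup.centralizer ({v} : Set X)) → Subgroup.centralizer ({v} : Set X) :=
    fun q => ⟨q.1.1 * q.2.1, Subgroup.mul_mem _ (hVC _ q.1.2) (Subgroup.mem_inf.mp q.2.2).2⟩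
  have hinj : Function.Injective f := by
    intro a b h
    have h1 : a.1.1 * a.2.1 = b.1.1 * b.2.1 := congrArg Subtype.val h
    have := hGV.1 (a₁ := (a.1, ⟨a.2.1, (Subgroup.mem_inf.mp a.2.2).1⟩))
      (a₂ := (b.1, ⟨b.2.1, (Subgroup.mem_inf.mp b.2.2).1⟩)) h1
    refine Prod.ext ?_ (Subtype.ext ?_)
    · exact congrArg (fun p : ↥V × ↥G => p.1) this
    · exact congrArg (fun p : ↥V × ↥G => (p.2 : X)) this
  have hsurj : Function.Surjective f := by
    intro x
    obtain ⟨⟨u, g⟩, hug⟩ := hGV.2 x.1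
    have hug' : (u : X) * (g : X) = x.1 := hug
    have hgc : (g : X) ∈ Subgroup.centralizer ({v} : Set X) := by
      have : (g : X) = (u : X)⁻¹ * x.1 := by rw [← hug']; group
      rw [this]
      exact Subgroup.mul_mem _ (Subgroup.inv_mem _ (hVC _ u.2)) x.2
    exact ⟨(u, ⟨g, Subgroup.mem_inf.mpr ⟨g.2, hgc⟩⟩), Subtype.ext hug'⟩
  rw [← Nat.card_congr (Equiv.ofBijective f ⟨hinj, hsurj⟩), Nat.card_prod, mul_comm]

theorem s4955 {X : Type u} [Group X] [Fintype X] (p : ℕ) [hpf : Fact p.Prime] (V : Subgroup X)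
    [hVn : V.Normal] (hVp : IsPGroup p V) (hidx : ¬ p ∣ V.index)
    (hab : ∀ a ∈ V, ∀ b ∈ V, a * b = b * a) (G : Subgroup X)
    (hGV : Subgroup.IsComplement' V G) (v : X) (hv : v ∈ V) :
    Nat.card (ConjClasses X) + Nat.card G ≤
      Nat.card ↥(G ⊓ Subgroup.centralizer ({v} : Set X)) * Nat.card V +
        Nat.card (ConjClasses G) := by
  classical
  haveI : Fintype V := Fintype.ofFinite _
  haveI : Fintype (IrrCharacter X) := Fintype.ofFinite _
  haveI : Fintype (IrrCharacter (X ⧸ V)) := Fintype.ofFinite _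
  have hC := card_centralizer_eq V hab G hGV v hv
  let P : IrrCharacter X → Prop := fun χ => ∀ n ∈ V, χ.1 n = χ.1 1
  let T : Finset (IrrCharacter X) := Finset.univ.filter P
  let N : Finset (IrrCharacter X) := Finset.univ.filter (fun χ => ¬ P χ)
  -- the kernel part
  have hTcard : T.card = Nat.card (ConjClasses G) := by
    have h1 : T = Finset.univ.image (inflIrr V) := by
      ext χ
      simp only [T, P, Finset.mem_filter, Finset.mem_univ, true_and, Finset.mem_image]
      constructor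
      · intro h
        obtain ⟨ψ, hψ⟩ := exists_deflate V χ h
        exact ⟨ψ, Subtype.ext hψ.symm⟩
      · rintro ⟨ψ, rfl⟩ n hn
        rw [inflIrr_apply, inflIrr_apply]
        have : ((n : X) : X ⧸ V) = ((1 : X) : X ⧸ V) := by
          rw [QuotientGroup.eq]
          simpa using hn
        rw [this]
    have hinj : Function.Injective (inflIrr V) := by
      intro a b h
      apply Subtype.ext
      funext q
      obtain ⟨x, rfl⟩ := QuotientGroup.mk_surjective q
      have := congrArg (fun c : IrrCharacter X => c.1 x) h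
      simpa only [inflIrr_apply] using this
    rw [h1, Finset.card_image_of_injective _ hinj, Finset.card_univ, ← Nat.card_eq_fintype_card,
      card_irr]
    let φ : G →* X ⧸ V := (QuotientGroup.mk' V).comp G.subtype
    have hφ : Function.Bijective φ := by
      constructor
      · intro a b h
        have h1 : (a : X)⁻¹ * b ∈ V := QuotientGroup.eq.mp h
        have h3 : (a : X)⁻¹ * b ∈ G := G.mul_mem (G.inv_mem a.2) b.2
        have h2 := hGV.1 (a₁ := (⟨_, h1⟩, 1)) (a₂ := (1, ⟨_, h3⟩)) (by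
          show (a : X)⁻¹ * b * ((1 : G) : X) = ((1 : V) : X) * ((a : X)⁻¹ * b)
          simp)
        have h4 : (a : X)⁻¹ * b = 1 := by
          simpa using congrArg (fun p : ↥V × ↥G => (p.1 : X)) h2
        apply Subtype.ext
        exact (inv_mul_eq_one.mp h4)
      · intro q
        obtain ⟨x, rfl⟩ := QuotientGroup.mk_surjective q
        obtain ⟨⟨u, g⟩, hug⟩ := hGV.2 x
        have hug' : (u : X) * (g : X) = x := hug
        refine ⟨g, ?_⟩
        show ((g : X) : X ⧸ V) = (x : X ⧸ V)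
        rw [QuotientGroup.eq, ← hug']
        have : (g : X)⁻¹ * ((u : X) * g) = (g : X)⁻¹ * u * (g : X)⁻¹⁻¹ := by group
        rw [this]
        exact hVn.conj_mem _ u.2 _
    exact (card_conj_congr (MulEquiv.ofBijective φ hφ)).symm
  have hTsum : ∑ χ ∈ T, ‖χ.1 1‖ ^ 2 = (Nat.card G : ℝ) := by
    have h1 := sum_degree_sq_ker V
    have h2 : {χ : IrrCharacter X | ∀ n ∈ V, χ.1 n = χ.1 1} = (T : Set (IrrCharacter X)) := by
      ext χ
      simp [T, P]
    rw [h2, finsum_mem_coe_finset, hGV.symm.index_eq_card] at h1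
    apply Complex.ofReal_injective
    rw [Complex.ofReal_sum]
    simp only [Complex.ofReal_natCast]
    rw [← h1]
    refine Finset.sum_congr rfl fun χ _ => ?_
    exact (norm_val_sq χ.1 1).symm
  -- second orthogonality
  obtain ⟨Γ, _, k, hΓ, hk, hw⟩ := galois_weights X
  have horth : ∀ γ, ∑ χ : IrrCharacter X, ‖χ.1 (v ^ k γ)‖ ^ 2 =
      (Nat.card (Subgroup.centralizer ({v} : Set X)) : ℝ) := by
    intro γ
    have h1 := sum_irr_val_mul_conj (v ^ k γ) (v ^ k γ)
    rw [if_pos (IsConj.refl _), centralizer_pow_eq (hk γ)] at h1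
    apply Complex.ofReal_injective
    rw [Complex.ofReal_sum]
    simp only [Complex.ofReal_natCast]
    rw [← h1]
    refine Finset.sum_congr rfl fun χ _ => ?_
    exact (norm_val_sq χ.1 _).symm
  have hvmem : ∀ γ, v ^ k γ ∈ V := fun γ => V.pow_mem hv _
  have hNpart : ∀ γ, ∑ χ ∈ N, ‖χ.1 (v ^ k γ)‖ ^ 2 =
      (Nat.card (Subgroup.centralizer ({v} : Set X)) : ℝ) - (Nat.card G : ℝ) := by
    intro γ
    have h1 := Finset.sum_filter_add_sum_filter_not (Finset.univ : Finset (IrrCharacter X)) P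
      (fun χ => ‖χ.1 (v ^ k γ)‖ ^ 2)
    rw [horth γ] at h1
    have h2 : ∑ χ ∈ T, ‖χ.1 (v ^ k γ)‖ ^ 2 = (Nat.card G : ℝ) := by
      rw [← hTsum]
      refine Finset.sum_congr rfl fun χ hχ => ?_
      rw [(Finset.mem_filter.mp hχ).2 _ (hvmem γ)]
    rw [← h2, ← h1]
    ring
  -- nonvanishing
  obtain ⟨M, hM⟩ := exists_isPModular hpf.out
  haveI : M.IsPrime := hM.2.1.isPrime
  have hnz : ∀ χ : IrrCharacter X, χ.1 v ≠ 0 := by
    intro χ h0
    have hd := ito_forward (p := p) V hab hidx χ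
    obtain ⟨e, he⟩ := hVp ⟨v, hv⟩
    have he' : v ^ p ^ e = 1 := by simpa using congrArg Subtype.val he
    have h1 := val_pow_sub_mem hM χ v e
    rw [h0, he', zero_pow (pow_ne_zero e hpf.out.ne_zero), zero_sub] at h1
    have h2 : MemLocalIdeal M (χ.1 1) := by
      have := memLocalIdeal_mul_right h1 (intCast_mem_locRing (-1))
      simpa using this
    rw [val_one_eq_charDegree] at h2
    exact natCast_notMem_locIdeal hM hd h2
  have hΓ0 : (0 : ℝ) < Fintype.card Γ := by
    have := Fintype.card_pos_iff.mpr hΓ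
    exact_mod_cast this
  have hmain : (N.card : ℝ) * Fintype.card Γ ≤
      ((Nat.card (Subgroup.centralizer ({v} : Set X)) : ℝ) - (Nat.card G : ℝ)) * Fintype.card Γ := by
    have h1 : ∑ γ, ∑ χ ∈ N, ‖χ.1 (v ^ k γ)‖ ^ 2 =
        ((Nat.card (Subgroup.centralizer ({v} : Set X)) : ℝ) - (Nat.card G : ℝ)) * Fintype.card Γ := by
      simp only [hNpart]
      rw [Finset.sum_const, nsmul_eq_mul, Finset.card_univ, mul_comm]
    rw [← h1, Finset.sum_comm, ← nsmul_eq_mul, ← Finset.sum_const]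
    exact Finset.sum_le_sum fun χ _ => hw χ.1 (IsIrrCharacter.isCharacter χ.2) v (hnz χ)
  have hN := le_of_mul_le_mul_right hmain hΓ0
  have hcardsplit : T.card + N.card = Nat.card (ConjClasses X) := by
    rw [← card_irr, Nat.card_eq_fintype_card, ← Finset.card_univ]
    exact Finset.card_filter_add_card_filter_not _
  rw [hC] at hN
  have hN' : (N.card : ℝ) + (Nat.card G : ℝ) ≤
      ((Nat.card ↥(G ⊓ Subgroup.centralizer ({v} : Set X)) * Nat.card V : ℕ) : ℝ) := by
    push_cast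
    push_cast at hN
    linarith
  have hN'' : N.card + Nat.card G ≤ Nat.card ↥(G ⊓ Subgroup.centralizer ({v} : Set X)) * Nat.card V := by
    exact_mod_cast hN'
  omega

end Cfsg.Agent.Lib.KGV
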