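import Mathlib
import Cfsg.Prelude.Def_ConjugacyFunctors
import Cfsg.Agent.Lib.KInf

set_option autoImplicit false
set_option linter.style.haveILetI false
set_option linter.unusedSectionVars false

/-! The K-sequence of a subgroup. -/

namespace Cfsg.Agent.Lib.KInf2

open Cfsg Cfsg.Agent.Lib.KInf
open scoped commutatorElement

section Transport

universe u

variable {P : Type u} [Group P]

theorem map_center (Q : Subgroup P) (X : Subgroup ↥Q) :
    (X ⊓ Subgroup.centralizer (X : Set ↥Q)).map Q.subtype =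
      X.map Q.subtype ⊓ Subgroup.centralizer ((X.map Q.subtype : Subgroup P) : Set P) := by
  ext x
  constructor
  · rintro ⟨y, hy, rfl⟩
    obtain ⟨hy1, hy2⟩ := Subgroup.mem_inf.mp hy
    refine Subgroup.mem_inf.mpr ⟨⟨y, hy1, rfl⟩, ?_⟩
    rw [Subgroup.mem_centralizer_iff]
    rintro _ ⟨z, hz, rfl⟩
    have := Subgroup.mem_centralizer_iff.mp hy2 z hz
    exact congrArg Subtype.val this
  · intro hx
    obtain ⟨hx1, hx2⟩ := Subgroup.mem_inf.mp hx
    obtain ⟨y, hy, rfl⟩ := hx1
    refine ⟨y, Subgroup.mem_inf.mpr ⟨hy, ?_⟩, rfl⟩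
    rw [Subgroup.mem_centralizer_iff]
    intro z hz
    apply Subtype.ext
    exact Subgroup.mem_centralizer_iff.mp hx2 _ ⟨z, hz, rfl⟩

theorem mem_class_two_iff {B : Subgroup P} : B ∈ classTwoSubgroups P ↔ ⁅⁅B, B⁆, B⁆ = ⊥ :=
  Subgroup.commutator_eq_bot_iff_le_centralizer.symm

theorem mem_upper_iff {B Q : Subgroup P} : B ∈ kUpperStarFamily Q ↔
    ⁅⁅B, B⁆, B⁆ = ⊥ ∧ ⁅B, Q⁆ ≤ B ⊓ Subgroup.centralizer (B : Set P) := by
  unfold kUpperStarFamily
  rw [Set.mem_ofPred_eq, mem_class_two_iff]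

theorem mem_lower_iff {B Q : Subgroup P} : B ∈ kLowerStarFamily Q ↔
    ⁅⁅B, B⁆, B⁆ = ⊥ ∧ ⁅B, Q⁆ ≤ B ∧ ∀ A : Subgroup P, ⁅⁅A, A⁆, A⁆ = ⊥ → A ≤ Q → ⁅A, B⁆ ≤ A →
      ⁅B, ⁅A, A⁆⁆ = ⊥ → ⁅⁅B ⊓ Subgroup.centralizer (B : Set P), A⁆, A⁆ = ⊥ →
        ⁅B, A⁆ ≤ B ⊓ Subgroup.centralizer (B : Set P) := by
  unfold kLowerStarFamily
  simp only [Set.mem_ofPred_eq, mem_class_two_iff, Subgroup.le_normalizer_iff_commutator_le_left]

theorem upper_map_iff (Q : Subgroup P) (B R : Subgroup ↥Q) :
    B ∈ kUpperStarFamily R ↔ B.map Q.subtype ∈ kUpperStarFamily (R.map Q.subtype) := by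
  have hinj := Subgroup.subtype_injective Q
  rw [mem_upper_iff, mem_upper_iff]
  simp only [← Subgroup.map_commutator, ← map_center,
    Subgroup.map_le_map_iff_of_injective hinj, Subgroup.map_eq_bot_iff_of_injective _ hinj]

theorem lower_map_iff (Q : Subgroup P) (B R : Subgroup ↥Q) :
    B ∈ kLowerStarFamily R ↔ B.map Q.subtype ∈ kLowerStarFamily (R.map Q.subtype) := by
  have hinj := Subgroup.subtype_injective Q
  rw [mem_lower_iff, mem_lower_iff]
  simp only [← Subgroup.map_commutator, ← map_center,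
    Subgroup.map_le_map_iff_of_injective hinj, Subgroup.map_eq_bot_iff_of_injective _ hinj]
  refine and_congr_right fun _ => and_congr_right fun _ => ?_
  constructor
  · intro h A h1 h2 h3 h4 h5
    have hAQ : A ≤ Q := h2.trans (Subgroup.map_subtype_le _)
    obtain ⟨A', rfl⟩ : ∃ A' : Subgroup ↥Q, A'.map Q.subtype = A :=
      ⟨A.subgroupOf Q, Subgroup.map_subgroupOf_eq_of_le hAQ⟩
    simp only [← Subgroup.map_commutator, ← map_center,
      Subgroup.map_le_map_iff_of_injective hinj, Subgroup.map_eq_bot_iff_of_injective _ hinj] at h1 h2 h3 h4 h5 ⊢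
    exact h A' h1 h2 h3 h4 h5
  · intro h A' h1 h2 h3 h4 h5
    have := h (A'.map Q.subtype) (by
        simp only [← Subgroup.map_commutator, Subgroup.map_eq_bot_iff_of_injective _ hinj]
        exact h1)
      (by simpa only [Subgroup.map_le_map_iff_of_injective hinj] using h2)
      (by
        simp only [← Subgroup.map_commutator, Subgroup.map_le_map_iff_of_injective hinj]
        exact h3)
      (by
        simp only [← Subgroup.map_commutator, Subgroup.map_eq_bot_iff_of_injective _ hinj]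
        exact h4)
      (by
        simp only [← map_center, ← Subgroup.map_commutator, Subgroup.map_eq_bot_iff_of_injective _ hinj]
        exact h5)
    simpa only [← map_center, ← Subgroup.map_commutator, Subgroup.map_le_map_iff_of_injective hinj] using this

theorem map_sSup_lower (Q : Subgroup P) (R : Subgroup ↥Q) :
    (sSup (kLowerStarFamily R)).map Q.subtype =
      sSup {B | B ∈ kLowerStarFamily (R.map Q.subtype) ∧ B ≤ Q} := by
  apply le_antisymm
  · rw [Subgroup.map_le_iff_le_comap]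
    refine sSup_le fun B hB => ?_
    rw [← Subgroup.map_le_iff_le_comap]
    exact le_sSup ⟨(lower_map_iff Q B R).1 hB, Subgroup.map_subtype_le _⟩
  · refine sSup_le ?_
    rintro B ⟨hB, hBQ⟩
    have h1 : (B.subgroupOf Q).map Q.subtype = B := Subgroup.map_subgroupOf_eq_of_le hBQ
    rw [← h1]
    refine Subgroup.map_mono (le_sSup ?_)
    rw [lower_map_iff, h1]
    exact hB

theorem map_sSup_upper (Q : Subgroup P) (R : Subgroup ↥Q) :
    (sSup (kUpperStarFamily R)).map Q.subtype =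
      sSup {B | B ∈ kUpperStarFamily (R.map Q.subtype) ∧ B ≤ Q} := by
  apply le_antisymm
  · rw [Subgroup.map_le_iff_le_comap]
    refine sSup_le fun B hB => ?_
    rw [← Subgroup.map_le_iff_le_comap]
    exact le_sSup ⟨(upper_map_iff Q B R).1 hB, Subgroup.map_subtype_le _⟩
  · refine sSup_le ?_
    rintro B ⟨hB, hBQ⟩
    have h1 : (B.subgroupOf Q).map Q.subtype = B := Subgroup.map_subgroupOf_eq_of_le hBQ
    rw [← h1]
    refine Subgroup.map_mono (le_sSup ?_)
    rw [upper_map_iff, h1]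
    exact hB

theorem even_map (Q : Subgroup P) (n : ℕ) :
    (kSeqEven ↥Q n).map Q.subtype =
      sSup {B | B ∈ kLowerStarFamily ((kSeqOdd ↥Q n).map Q.subtype) ∧ B ≤ Q} :=
  map_sSup_lower Q _

theorem odd_map (Q : Subgroup P) (n : ℕ) :
    (kSeqOdd ↥Q (n + 1)).map Q.subtype =
      sSup {B | B ∈ kUpperStarFamily ((kSeqEven ↥Q n).map Q.subtype) ∧ B ≤ Q} :=
  map_sSup_upper Q _

theorem odd_map_zero (Q : Subgroup P) : (kSeqOdd ↥Q 0).map Q.subtype = Q := by
  show (⊤ : Subgroup ↥Q).map Q.subtype = Q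
  rw [← MonoidHom.range_eq_map, Subgroup.range_subtype]

variable [Finite P]

theorem main_transport (Q : Subgroup P) (hQ : ∀ n : ℕ, kSeqEven P n ≤ Q ∧ kSeqOdd P (n + 1) ≤ Q) :
    (kInfLower ↥Q).map Q.subtype = kInfLower P ∧ (kInfUpper ↥Q).map Q.subtype = kInfUpper P := by
  -- the comparison with the sequence of `P`
  have hA1 : ∀ n, (kSeqOdd ↥Q n).map Q.subtype ≤ kSeqOdd P n →
      kSeqEven P n ≤ (kSeqEven ↥Q n).map Q.subtype := by
    intro n h
    rw [even_map]
    refine sSup_le fun B hB => le_sSup ⟨lower_anti h hB, ?_⟩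
    exact (le_sSup hB).trans (hQ n).1
  have hA : ∀ n, (kSeqOdd ↥Q n).map Q.subtype ≤ kSeqOdd P n := by
    intro n
    induction n with
    | zero => exact le_top
    | succ n ih =>
      rw [odd_map]
      refine sSup_le ?_
      rintro B ⟨hB, -⟩
      exact le_sSup (upper_anti (hA1 n ih) hB)
  obtain ⟨N, hN⟩ := kSeq_stable (P := P)
  obtain ⟨M, hM⟩ := kSeq_stable (P := ↥Q)
  have hUN : kInfUpper P = kSeqOdd P N := (hN N le_rfl).2.symm
  have hUN' : kInfUpper P = kSeqOdd P (N + 1) := (hN (N + 1) (Nat.le_succ N)).2.symm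
  have hDN : kInfLower P = kSeqEven P N := (hN N le_rfl).1.symm
  have hUQ : kInfUpper P ≤ Q := by rw [hUN']; exact (hQ N).2
  have hB1 : ∀ n, kInfUpper P ≤ (kSeqOdd ↥Q n).map Q.subtype →
      (kSeqEven ↥Q n).map Q.subtype ≤ kInfLower P := by
    intro n h
    rw [even_map]
    refine sSup_le ?_
    rintro B ⟨hB, -⟩
    rw [hDN]
    rw [hUN] at h
    exact le_sSup (lower_anti h hB)
  have hB : ∀ n, kInfUpper P ≤ (kSeqOdd ↥Q n).map Q.subtype := by
    intro n
    induction n with
    | zero => rw [odd_map_zero]; exact hUQ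
    | succ n ih =>
      rw [odd_map]
      have h1 := hB1 n ih
      rw [hUN']
      show sSup (kUpperStarFamily (kSeqEven P N)) ≤ _
      refine sSup_le fun B hB' => le_sSup ⟨?_, ?_⟩
      · rw [hDN] at h1
        exact upper_anti h1 hB'
      · exact (le_sSup hB').trans (hQ N).2
  set m := max N M with hm
  have hmN : N ≤ m := le_max_left _ _
  have hmM : M ≤ m := le_max_right _ _
  constructor
  · rw [← (hM m hmM).1]
    apply le_antisymm (hB1 m (hB m))
    rw [← (hN m hmN).1]
    exact hA1 m (hA m)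
  · rw [← (hM (m + 1) (hmM.trans (Nat.le_succ m))).2]
    apply le_antisymm _ (hB _)
    rw [← (hN (m + 1) (hmN.trans (Nat.le_succ m))).2]
    exact hA _

end Transport

end Cfsg.Agent.Lib.KInf2
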