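import Mathlib
import Cfsg.Prelude.Def_PLocal
import Cfsg.Prelude.Def_Local
import Cfsg.Prelude.Def_Transfer
import Cfsg.Agent.Lib.H1Trace
import Cfsg.Agent.Lib.LCop
import Cfsg.Agent.Lib.H1Core
import Cfsg.Agent.Lib.PGrp
import Cfsg.Agent.Lib.PNilp
import Cfsg.Agent.Lib.PQuad2
import Cfsg.Agent.Lib.PGlaub

set_option autoImplicit false
set_option linter.unusedSectionVars false
set_option linter.unusedVariables false
set_option linter.style.haveILetI false

namespace Cfsg.Agent.Lib.LFF

open Subgroup Cfsg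
open scoped Pointwise commutatorElement

variable {G : Type*} [Group G] [Finite G] {p : ℕ} [hp : Fact p.Prime]

theorem mem_of_zpow {S : Subgroup G} {g : G} {n : ℤ} (hg : g ^ p = 1) (hn : ¬ (p : ℤ) ∣ n)
    (h : g ^ n ∈ S) : g ∈ S := by
  have hc : IsCoprime n (p : ℤ) := by
    have hpz : Prime (p : ℤ) := Nat.prime_iff_prime_int.1 hp.out
    exact ((Prime.coprime_iff_not_dvd hpz).2 hn).symm
  obtain ⟨a, b, hab⟩ := hc
  have e : g = (g ^ n) ^ a := by
    have e1 : g ^ (a * n + b * (p : ℤ)) = g := by rw [hab, zpow_one]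
    have e2 : g ^ (b * (p : ℤ)) = 1 := by
      rw [mul_comm, zpow_mul, zpow_natCast, hg, one_zpow]
    rw [zpow_add, e2, mul_one, mul_comm a n, zpow_mul] at e1
    exact e1.symm
  rw [e]
  exact S.zpow_mem h a

theorem exists_hyper (A : Subgroup G) (hA : A ≠ ⊥) (hApg : IsPGroup p A) :
    ∃ B : Subgroup G, B ≤ A ∧ B.relIndex A = p := by
  classical
  haveI hnt : Nontrivial A := (Subgroup.nontrivial_iff_ne_bot A).2 hA
  obtain ⟨M, hM⟩ : ∃ M : Subgroup A, IsCoatom M := by
    obtain h | ⟨M, hM, -⟩ := eq_top_or_exists_le_coatom (⊥ : Subgroup A)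
    · exact absurd h bot_ne_top
    · exact ⟨M, hM⟩
  obtain ⟨-, h1, -⟩ := Cfsg.Agent.Lib.PGrp.coatom_index_of_isPGroup hApg hM
  refine ⟨M.map A.subtype, map_subtype_le _, ?_⟩
  have e : (M.map A.subtype).subgroupOf A = M := by
    ext x
    simp [Subgroup.mem_subgroupOf]
  rw [Subgroup.relIndex, e, h1]

theorem mem_C_of_le {H : Subgroup G} {u : G} (h : H ≤ centralizer ({u} : Set G)) :
    u ∈ centralizer (H : Set G) := by
  rw [Subgroup.mem_centralizer_iff]
  intro b hb
  exact (Subgroup.mem_centralizer_singleton_iff.1 (h hb))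

theorem le_C_of_mem {H : Subgroup G} {u : G} (h : u ∈ centralizer (H : Set G)) :
    H ≤ centralizer ({u} : Set G) := by
  intro b hb
  rw [Subgroup.mem_centralizer_singleton_iff]
  exact (Subgroup.mem_centralizer_iff.1 h) b hb

/-- Generation by centralizers of hyperplanes. -/
theorem gen_hyper (A K : Subgroup G) (hAab : ∀ a ∈ A, ∀ b ∈ A, a * b = b * a) (hAp : ∀ a ∈ A, a ^ p = 1)
    (hA : A ≠ ⊥) (hAK : A ≤ normalizer (K : Set G)) (hK : ¬ p ∣ Nat.card K) (R : Subgroup G)
    (hR : ∀ B : Subgroup G, B ≤ A → B.relIndex A = p → K ⊓ centralizer (B : Set G) ≤ R) : K ≤ R := by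
  classical
  by_contra hcon
  have hApg : IsPGroup p A := by
    intro a
    exact ⟨1, by rw [pow_one]; exact Subtype.ext (by simpa using hAp a a.2)⟩
  -- a maximal `D`
  have hne : ({D : Subgroup G | D ≤ A ∧ ¬ K ⊓ centralizer (D : Set G) ≤ R}).Nonempty := by
    refine ⟨⊥, bot_le, ?_⟩
    have : centralizer ((⊥ : Subgroup G) : Set G) = ⊤ := by simp
    rw [this, inf_top_eq]
    exact hcon
  obtain ⟨D, ⟨hDA, hD⟩, hDmax⟩ := Set.exists_max_image _ (fun D : Subgroup G => Nat.card D)
    (Set.toFinite _) hne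
  have hbig : ∀ D' : Subgroup G, D ≤ D' → D' ≤ A → D' ≠ D → K ⊓ centralizer (D' : Set G) ≤ R := by
    intro D' h1 h2 h3
    by_contra h4
    have h5 := hDmax D' ⟨h2, h4⟩
    exact h3 (Subgroup.eq_of_le_of_card_ge h1 h5).symm
  have hDA' : D ≠ A := by
    intro e
    obtain ⟨B, hB, hBi⟩ := exists_hyper A hA hApg
    apply hD
    rw [e]
    intro x hx
    exact hR B hB hBi ⟨hx.1, Subgroup.centralizer_le hB hx.2⟩
  obtain ⟨x, hxA, hxD⟩ := SetLike.not_le_iff_exists.1 (fun h => hDA' (le_antisymm hDA h))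
  have hx1 : x ≠ 1 := fun h => hxD (h ▸ D.one_mem)
  have hxp : x ^ p = 1 := hAp x hxA
  -- commuting elements of `A`
  have hcomm : ∀ {a}, a ∈ A → ∀ T : Subgroup G, T ≤ A → a ∈ normalizer (T : Set G) := by
    intro a ha T hT
    apply Cfsg.Agent.Lib.PGlaub.mem_normalizer_of_conj_mem
    intro d hd
    have : a * d * a⁻¹ = d := by
      rw [hAab a ha d (hT hd)]; group
    rwa [this]
  set D₁ := D ⊔ zpowers x with hD₁
  have hD₁A : D₁ ≤ A := sup_le hDA ((zpowers_le).2 hxA)
  have hxcard : Nat.card (zpowers x) = p := by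
    rw [Nat.card_zpowers]
    exact orderOf_eq_prime hxp hx1
  have hinf : D ⊓ zpowers x = ⊥ := by
    rw [eq_bot_iff]
    rintro u ⟨hu, hu'⟩
    obtain ⟨n, rfl⟩ := mem_zpowers_iff.1 hu'
    by_cases hn : (p : ℤ) ∣ n
    · obtain ⟨k, rfl⟩ := hn
      rw [zpow_mul, zpow_natCast, hxp, one_zpow]
      exact one_mem _
    · exact absurd (mem_of_zpow hxp hn hu) hxD
  have hD₁card : Nat.card D₁ = Nat.card D * p := by
    have h1 := Cfsg.Agent.Lib.PQuad.card_sup_mul_inf_of_normalizes D (zpowers x)
      (fun d hd => hcomm (hDA hd) _ ((zpowers_le).2 hxA))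
    rw [hinf, Subgroup.card_bot, mul_one, hxcard] at h1
    exact h1
  by_cases hD₁e : D₁ = A
  · -- index `p`
    apply hD
    apply hR D hDA
    rw [← hD₁e]
    have h1 := Cfsg.Agent.Lib.PNilp.card_mul_relIndex' D D₁ le_sup_left
    rw [hD₁card] at h1
    exact Nat.eq_of_mul_eq_mul_left Nat.card_pos h1
  · obtain ⟨y, hyA, hyD⟩ := SetLike.not_le_iff_exists.1 (fun h => hD₁e (le_antisymm hD₁A h))
    have hyp : y ^ p = 1 := hAp y hyA
    set A' := zpowers x ⊔ zpowers y with hA'
    have hA'A : A' ≤ A := sup_le ((zpowers_le).2 hxA) ((zpowers_le).2 hyA)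
    have hmem : ∀ a ∈ A', ∃ m n : ℤ, a = x ^ m * y ^ n := by
      intro a ha
      have hN : zpowers y ≤ normalizer ((zpowers x : Subgroup G) : Set G) := by
        rw [zpowers_le]
        exact hcomm hyA _ ((zpowers_le).2 hxA)
      have h1 : ((zpowers x ⊔ zpowers y : Subgroup G) : Set G) = (zpowers x : Set G) * (zpowers y : Set G) :=
        Subgroup.coe_mul_of_right_le_normalizer_left _ _ hN
      have h2 : a ∈ ((zpowers x ⊔ zpowers y : Subgroup G) : Set G) := ha
      rw [h1] at h2
      obtain ⟨u, hu, v, hv, rfl⟩ := Set.mem_mul.1 h2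
      obtain ⟨m, rfl⟩ := mem_zpowers_iff.1 hu
      obtain ⟨n, rfl⟩ := mem_zpowers_iff.1 hv
      exact ⟨m, n, rfl⟩
    -- elements of `A'` outside `D`
    have hout : ∀ a ∈ A', a ≠ 1 → a ∉ D := by
      intro a ha ha1 haD
      obtain ⟨m, n, rfl⟩ := hmem a ha
      have hm : (p : ℤ) ∣ n := by
        by_contra hn
        apply hyD
        apply mem_of_zpow hyp hn
        have : y ^ n = (x ^ m)⁻¹ * (x ^ m * y ^ n) := by group
        rw [this]
        exact D₁.mul_mem (D₁.inv_mem (D₁.zpow_mem ((le_sup_right : zpowers x ≤ D₁) (mem_zpowers x)) m))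
          ((le_sup_left : D ≤ D₁) haD)
      obtain ⟨k, rfl⟩ := hm
      have e : y ^ ((p : ℤ) * k) = 1 := by rw [zpow_mul, zpow_natCast, hyp, one_zpow]
      rw [e, mul_one] at haD ha1
      by_cases hn : (p : ℤ) ∣ m
      · obtain ⟨k', rfl⟩ := hn
        apply ha1
        rw [zpow_mul, zpow_natCast, hxp, one_zpow]
      · exact hxD (mem_of_zpow hxp hn haD)
    haveI hAc : IsMulCommutative A' := ⟨⟨fun a b => Subtype.ext (hAab a (hA'A a.2) b (hA'A b.2))⟩⟩
    have hA'pg : IsPGroup p A' := hApg.to_le hA'A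
    have hncyc : ¬ IsCyclic A' := by
      intro hc
      obtain ⟨g, hg⟩ := IsCyclic.exists_generator (α := A')
      have hg1 : (g : G) ^ p = 1 := hAp _ (hA'A g.2)
      have hxg := hg ⟨x, (le_sup_left : zpowers x ≤ A') (mem_zpowers x)⟩
      have hyg := hg ⟨y, (le_sup_right : zpowers y ≤ A') (mem_zpowers y)⟩
      obtain ⟨i, hi⟩ := mem_zpowers_iff.1 hxg
      obtain ⟨j, hj⟩ := mem_zpowers_iff.1 hyg
      have hi' : (g : G) ^ i = x := by simpa using congrArg Subtype.val hi
      have hj' : (g : G) ^ j = y := by simpa using congrArg Subtype.val hj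
      by_cases hn : (p : ℤ) ∣ i
      · obtain ⟨k, rfl⟩ := hn
        apply hx1
        rw [← hi', zpow_mul, zpow_natCast, hg1, one_zpow]
      · have h1 : (g : G) ∈ zpowers x := mem_of_zpow hg1 hn (by rw [hi']; exact mem_zpowers x)
        apply hyD
        rw [← hj']
        exact D₁.zpow_mem ((le_sup_right : zpowers x ≤ D₁) h1) j
    set Y := K ⊓ centralizer (D : Set G) with hY
    have hYK : Y ≤ K := inf_le_left
    have hcop : (Nat.card A').Coprime (Nat.card Y) := by
      obtain ⟨k, hk⟩ := IsPGroup.iff_card.1 hA'pg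
      rw [hk]
      apply Nat.Coprime.pow_left
      rw [Nat.Prime.coprime_iff_not_dvd hp.out]
      intro h
      exact hK (h.trans (Subgroup.card_dvd_of_le hYK))
    have hnY : A' ≤ normalizer (Y : Set G) := by
      intro a ha
      apply Cfsg.Agent.Lib.PGlaub.mem_normalizer_of_conj_mem
      intro u hu
      refine Subgroup.mem_inf.2 ⟨?_, ?_⟩
      · exact (Subgroup.mem_normalizer_iff.1 (hAK (hA'A ha)) u).1 hu.1
      · rw [Subgroup.mem_centralizer_iff]
        intro d hd
        have e1 : d * a = a * d := hAab d (hDA hd) a (hA'A ha)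
        have e2 : d * u = u * d := (Subgroup.mem_centralizer_iff.1 hu.2) d hd
        calc d * (a * u * a⁻¹) = (d * a) * u * a⁻¹ := by group
          _ = a * (d * u) * a⁻¹ := by rw [e1]; group
          _ = a * u * (d * a⁻¹) := by rw [e2]; group
          _ = a * u * a⁻¹ * d := by
            have : d * a⁻¹ = a⁻¹ * d := by
              calc d * a⁻¹ = a⁻¹ * (a * d) * a⁻¹ := by group
                _ = a⁻¹ * (d * a) * a⁻¹ := by rw [e1]
                _ = a⁻¹ * d := by group
            rw [this]; group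
    have hgen := Cfsg.Agent.Lib.H1Trace.iSup_centralizer_eq A' Y hncyc hnY hcop
    apply hD
    refine le_trans (le_of_eq hgen.symm) ?_
    apply iSup₂_le
    rintro a ⟨ha, ha1⟩
    intro u hu
    have hdef : D ⊔ zpowers a ≠ D := by
      intro e
      apply hout a ha ha1
      rw [← e]
      exact (le_sup_right : zpowers a ≤ D ⊔ zpowers a) (mem_zpowers a)
    apply hbig (D ⊔ zpowers a) le_sup_left (sup_le hDA ((zpowers_le).2 (hA'A ha))) hdef
    refine Subgroup.mem_inf.2 ⟨hu.1.1, mem_C_of_le (sup_le (le_C_of_mem hu.1.2) ?_)⟩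
    rw [zpowers_le, Subgroup.mem_centralizer_singleton_iff]
    exact (Subgroup.mem_centralizer_singleton_iff.1 hu.2).symm

/-! ### The setting of failure of factorization -/

/-- The standing hypotheses. -/
structure FF (p : ℕ) (V H K : Subgroup G) : Prop where
  hV : IsElementaryAbelian p V
  hHV : H ≤ normalizer (V : Set G)
  hf : H ⊓ centralizer (V : Set G) = ⊥
  hKH : K ≤ H
  hKn : H ≤ normalizer (K : Set G)
  hK : ¬ p ∣ Nat.card K
  hs : H ⊓ centralizer (K : Set G) ≤ K

theorem ff_of {V H : Subgroup G} (hV : IsElementaryAbelian p V) (hHV : H ≤ normalizer (V : Set G))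
    (hf : H ⊓ centralizer (V : Set G) = ⊥)
    (hS1 : centralizer (pPrimeCore p ↥H : Set ↥H) ≤ pPrimeCore p ↥H) :
    FF p V H ((pPrimeCore p ↥H).map H.subtype) := by
  refine ⟨hV, hHV, hf, map_subtype_le _, ?_, ?_, ?_⟩
  · intro h hh
    apply Cfsg.Agent.Lib.PGlaub.mem_normalizer_of_conj_mem
    rintro _ ⟨k, hk, rfl⟩
    refine ⟨⟨h, hh⟩ * k * (⟨h, hh⟩ : ↥H)⁻¹, ?_, by simp⟩
    exact (Cfsg.Agent.Lib.H1Core.pPrimeCore_normal p ↥H).conj_mem k hk _
  · rw [Nat.card_congr (Subgroup.equivMapOfInjective _ _ H.subtype_injective).symm.toEquiv]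
    intro h
    have := Cfsg.Agent.Lib.H1Core.pPrimeCore_coprime (G := ↥H) p
    exact (Nat.Prime.coprime_iff_not_dvd hp.out).1 this.symm h
  · rintro x ⟨hxH, hxC⟩
    refine ⟨⟨x, hxH⟩, hS1 ?_, rfl⟩
    rw [Subgroup.mem_centralizer_iff]
    intro k hk
    apply Subtype.ext
    exact (Subgroup.mem_centralizer_iff.1 hxC) _ ⟨k, hk, rfl⟩

/-- The value of the offender. -/
noncomputable def Val (V A : Subgroup G) : ℕ :=
  Nat.card A * Nat.card ↥(V ⊓ centralizer (A : Set G))

section
variable {V H K : Subgroup G} (hF : FF p V H K)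
include hF

theorem eq_one_of_mem {h : G} (hh : h ∈ H) (hc : h ∈ centralizer (V : Set G)) : h = 1 := by
  have : h ∈ H ⊓ centralizer (V : Set G) := ⟨hh, hc⟩
  rw [hF.hf] at this
  simpa using this

theorem best_comm {A : Subgroup G} (hAH : A ≤ H) (hA : IsBestOffenderOn p V A) :
    ∀ a ∈ A, ∀ b ∈ A, a * b = b * a := by
  intro a ha b hb
  have h1 : ⁅a, b⁆ ∈ ⁅A, A⁆ := commutator_mem_commutator ha hb
  have h2 : ⁅a, b⁆ ∈ A := by
    rw [commutatorElement_def]
    exact A.mul_mem (A.mul_mem (A.mul_mem ha hb) (A.inv_mem ha)) (A.inv_mem hb)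
  have h3 := eq_one_of_mem hF (hAH h2) (hA.2.1 h1)
  rwa [commutatorElement_eq_one_iff_mul_comm] at h3

theorem best_pow {A : Subgroup G} (hAH : A ≤ H) (hA : IsBestOffenderOn p V A) :
    ∀ a ∈ A, a ^ p = 1 := by
  intro a ha
  exact eq_one_of_mem hF (hAH (A.pow_mem ha p)) (hA.2.2 a ha)

theorem best_pg {A : Subgroup G} (hAH : A ≤ H) (hA : IsBestOffenderOn p V A) : IsPGroup p A := by
  intro a
  exact ⟨1, by rw [pow_one]; exact Subtype.ext (by simpa using best_pow hF hAH hA a a.2)⟩

theorem V_pg : IsPGroup p V := by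
  intro a
  exact ⟨1, by rw [pow_one]; exact Subtype.ext (by simpa using hF.hV.2 a a.2)⟩

theorem best_of_val {A B : Subgroup G} (hB : B ≤ A) (hA : IsBestOffenderOn p V A)
    (h : Val V B = Val V A) : IsBestOffenderOn p V B := by
  refine ⟨?_, (commutator_mono hB hB).trans hA.2.1, fun a ha => hA.2.2 a (hB ha)⟩
  intro D hD
  have := hA.1 D (hD.trans hB)
  change Val V D ≤ Val V B
  rw [h]
  exact this

/-- The key step: a hyperplane moving fixed points of `K` is again best. -/
theorem val_hyper {A B : Subgroup G} (hAH : A ≤ H) (hA : IsBestOffenderOn p V A) (hB : B ≤ A)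
    (hBi : B.relIndex A = p) (hY : ¬ K ⊓ centralizer (B : Set G) ≤ centralizer (A : Set G)) :
    Val V B = Val V A := by
  classical
  have hcomm := best_comm hF hAH hA
  -- `C_V(A)` is properly contained in `C_V(B)`
  have hlt : ¬ V ⊓ centralizer (B : Set G) ≤ centralizer (A : Set G) := by
    intro hW
    obtain ⟨y, hy, hyA⟩ := SetLike.not_le_iff_exists.1 hY
    obtain ⟨a, ha, hya⟩ : ∃ a ∈ A, a * y ≠ y * a := by
      by_contra h
      push Not at h
      exact hyA (Subgroup.mem_centralizer_iff.2 h)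
    set z := y * a * y⁻¹ * a⁻¹ with hz
    have hz1 : z ≠ 1 := by
      intro h
      apply hya
      have : y * a = a * y := by
        calc y * a = (y * a * y⁻¹ * a⁻¹) * (a * y) := by group
          _ = a * y := by rw [← hz, h, one_mul]
      exact this.symm
    have hyH : y ∈ H := hF.hKH hy.1
    have haH : a ∈ H := hAH ha
    have hzK : z ∈ K := by
      have h1 : a * y⁻¹ * a⁻¹ ∈ K :=
        (Subgroup.mem_normalizer_iff.1 (hF.hKn haH) y⁻¹).1 (K.inv_mem hy.1)
      have : z = y * (a * y⁻¹ * a⁻¹) := by rw [hz]; group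
      rw [this]
      exact K.mul_mem hy.1 h1
    have hzH : z ∈ H := hF.hKH hzK
    have hzB : ∀ b ∈ B, z * b = b * z := by
      intro b hb
      have e1 : y * b = b * y := ((Subgroup.mem_centralizer_iff.1 hy.2) b hb).symm
      have e2 : a * b = b * a := hcomm a ha b (hB hb)
      have e1' : y⁻¹ * b = b * y⁻¹ := by
        calc y⁻¹ * b = y⁻¹ * (b * y) * y⁻¹ := by group
          _ = y⁻¹ * (y * b) * y⁻¹ := by rw [e1]
          _ = b * y⁻¹ := by group
      have e2' : a⁻¹ * b = b * a⁻¹ := by
        calc a⁻¹ * b = a⁻¹ * (b * a) * a⁻¹ := by group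
          _ = a⁻¹ * (a * b) * a⁻¹ := by rw [e2]
          _ = b * a⁻¹ := by group
      rw [hz]
      simp only [mul_assoc]
      rw [e2', ← mul_assoc y⁻¹, e1', mul_assoc b, ← mul_assoc a, e2, mul_assoc b, ← mul_assoc y, e1,
        mul_assoc b]
    have hzC : V ⊓ centralizer (B : Set G) ≤ centralizer (zpowers z : Set G) := by
      intro w hw
      apply mem_C_of_le
      rw [zpowers_le, Subgroup.mem_centralizer_singleton_iff]
      -- `y⁻¹ w y` lies in `C_V(B)`
      have hw' : y⁻¹ * w * y ∈ V ⊓ centralizer (B : Set G) := by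
        refine Subgroup.mem_inf.2 ⟨?_, ?_⟩
        · have := (Subgroup.mem_normalizer_iff.1 (hF.hHV hyH) (y⁻¹ * w * y)).2
          apply this
          have e : y * (y⁻¹ * w * y) * y⁻¹ = w := by group
          rw [e]; exact hw.1
        · rw [Subgroup.mem_centralizer_iff]
          intro b hb
          have e1 : b * y = y * b := (Subgroup.mem_centralizer_iff.1 hy.2) b hb
          have e2 : b * w = w * b := (Subgroup.mem_centralizer_iff.1 hw.2) b hb
          have e1' : b * y⁻¹ = y⁻¹ * b := by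
            calc b * y⁻¹ = y⁻¹ * (y * b) * y⁻¹ := by group
              _ = y⁻¹ * (b * y) * y⁻¹ := by rw [e1]
              _ = y⁻¹ * b := by group
          calc b * (y⁻¹ * w * y) = (b * y⁻¹) * w * y := by group
            _ = y⁻¹ * (b * w) * y := by rw [e1']; group
            _ = y⁻¹ * w * (b * y) := by rw [e2]; group
            _ = y⁻¹ * w * y * b := by rw [e1]; group
      have c1 : a * w = w * a := (Subgroup.mem_centralizer_iff.1 (hW hw)) a ha
      have c2 : a * (y⁻¹ * w * y) = (y⁻¹ * w * y) * a := (Subgroup.mem_centralizer_iff.1 (hW hw')) a ha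
      have c1' : a⁻¹ * w = w * a⁻¹ := by
        calc a⁻¹ * w = a⁻¹ * (w * a) * a⁻¹ := by group
          _ = a⁻¹ * (a * w) * a⁻¹ := by rw [c1]
          _ = w * a⁻¹ := by group
      rw [hz]
      symm
      calc w * (y * a * y⁻¹ * a⁻¹) = y * (y⁻¹ * w * y) * a * y⁻¹ * a⁻¹ := by group
        _ = y * (a * (y⁻¹ * w * y)) * y⁻¹ * a⁻¹ := by
          rw [c2]; group
        _ = y * a * y⁻¹ * (w * a⁻¹) := by group
        _ = y * a * y⁻¹ * a⁻¹ * w := by rw [← c1']; group
    have hzcard : ¬ p ∣ Nat.card (zpowers z) := by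
      intro h
      apply hF.hK
      exact h.trans (Subgroup.card_dvd_of_le ((zpowers_le).2 hzK))
    have hBpg : IsPGroup p B := (best_pg hF hAH hA).to_le hB
    have h1 := Cfsg.Agent.Lib.LCop.axb V (zpowers z) B (V_pg hF) hBpg hzcard
      ((zpowers_le).2 (hF.hHV hzH)) (hB.trans (hAH.trans hF.hHV))
      (by
        intro u hu b hb
        obtain ⟨n, rfl⟩ := mem_zpowers_iff.1 hu
        exact (Commute.zpow_left (hzB b hb) n))
      hzC
    apply hz1
    apply eq_one_of_mem hF hzH
    apply mem_C_of_le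
    intro v hv
    have := h1 hv
    rw [Subgroup.mem_centralizer_iff] at this
    rw [Subgroup.mem_centralizer_singleton_iff]
    exact (this z (mem_zpowers z)).symm
  -- numbers
  have hle1 : V ⊓ centralizer (A : Set G) ≤ V ⊓ centralizer (B : Set G) :=
    inf_le_inf_left _ (Subgroup.centralizer_le hB)
  have hne : V ⊓ centralizer (A : Set G) ≠ V ⊓ centralizer (B : Set G) := by
    intro e
    apply hlt
    rw [← e]
    exact inf_le_right
  have hgt : p * Nat.card ↥(V ⊓ centralizer (A : Set G)) ≤ Nat.card ↥(V ⊓ centralizer (B : Set G)) := by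
    have h1 := Cfsg.Agent.Lib.PNilp.card_mul_relIndex' _ _ hle1
    have hpg : IsPGroup p ↥(V ⊓ centralizer (B : Set G)) := (V_pg hF).to_le inf_le_left
    obtain ⟨k, hk⟩ := IsPGroup.iff_card.1 hpg
    have hdvd : (V ⊓ centralizer (A : Set G)).relIndex (V ⊓ centralizer (B : Set G)) ∣ p ^ k := by
      rw [← hk, ← h1]
      exact dvd_mul_left _ _
    obtain ⟨m, -, hm⟩ := (Nat.dvd_prime_pow hp.out).1 hdvd
    rw [← h1, mul_comm p]
    apply Nat.mul_le_mul_left
    cases m with
    | zero =>
      exfalso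
      rw [pow_zero] at hm
      rw [hm, mul_one] at h1
      exact hne (Subgroup.eq_of_le_of_card_ge hle1 h1.ge)
    | succ m =>
      rw [hm, pow_succ]
      exact Nat.le_mul_of_pos_left _ (pow_pos hp.out.pos _)
  have hcardA : Nat.card A = Nat.card B * p := by
    have := Cfsg.Agent.Lib.PNilp.card_mul_relIndex' B A hB
    rw [hBi] at this
    exact this.symm
  apply le_antisymm (hA.1 B hB)
  rw [hcardA, mul_assoc]
  exact Nat.mul_le_mul_left _ hgt

theorem exists_good {A : Subgroup G} (hAH : A ≤ H) (hA : IsBestOffenderOn p V A) (hA1 : A ≠ ⊥) :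
    ∃ B : Subgroup G, B ≤ A ∧ B.relIndex A = p ∧ ¬ K ⊓ centralizer (B : Set G) ≤ centralizer (A : Set G) := by
  classical
  by_contra hcon
  push Not at hcon
  have h1 : K ≤ centralizer (A : Set G) := gen_hyper A K (best_comm hF hAH hA) (best_pow hF hAH hA) hA1
    (hAH.trans hF.hKn) hF.hK _ (fun B hB hBi => hcon B hB hBi)
  have h2 : A ≤ K := by
    intro a ha
    apply hF.hs
    refine Subgroup.mem_inf.2 ⟨hAH ha, ?_⟩
    rw [Subgroup.mem_centralizer_iff]
    intro k hk
    exact (Subgroup.mem_centralizer_iff.1 (h1 hk) a ha).symm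
  -- a `p`-group inside a `p'`-group
  apply hA1
  rw [eq_bot_iff]
  intro a ha
  have hap := best_pow hF hAH hA a ha
  by_contra hne
  have hne' : a ≠ 1 := fun h => hne (h ▸ one_mem _)
  have h3 : orderOf a = p := orderOf_eq_prime hap hne'
  apply hF.hK
  rw [← h3]
  exact Subgroup.orderOf_dvd_natCard K (h2 ha)

/-- S0610: a nontrivial best offender has `|A| |C_V(A)| = |V|`. -/
theorem val_eq {A : Subgroup G} (hAH : A ≤ H) (hA : IsBestOffenderOn p V A) (hA1 : A ≠ ⊥) :
    Val V A = Nat.card V := by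
  induction' hn : Nat.card A using Nat.strong_induction_on with n ih generalizing A
  obtain ⟨B, hB, hBi, hY⟩ := exists_good hF hAH hA hA1
  have hv := val_hyper hF hAH hA hB hBi hY
  rw [← hv]
  by_cases hB1 : B = ⊥
  · rw [hB1]
    unfold Val
    have : centralizer ((⊥ : Subgroup G) : Set G) = ⊤ := by simp
    rw [this, inf_top_eq, Subgroup.card_bot, one_mul]
  · have hlt : Nat.card B < n := by
      have := Cfsg.Agent.Lib.PNilp.card_mul_relIndex' B A hB
      rw [hBi, hn] at this
      rw [← this]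
      have h2 := hp.out.two_le
      have h3 : 0 < Nat.card B := Nat.card_pos
      nlinarith
    exact ih _ hlt (hB.trans hAH) (best_of_val hF hB hA hv) hB1 rfl

theorem ne_bot_comm {B : Subgroup G} (hBH : B ≤ H) (hB : B ≠ ⊥) : ⁅V, B⁆ ≠ ⊥ := by
  intro h
  apply hB
  rw [eq_bot_iff]
  intro b hb
  have : b = 1 := by
    apply eq_one_of_mem hF (hBH hb)
    rw [Subgroup.mem_centralizer_iff]
    intro v hv
    have h1 : ⁅v, b⁆ ∈ ⁅V, B⁆ := commutator_mem_commutator hv hb
    rw [h] at h1
    have h2 : ⁅v, b⁆ = 1 := by simpa using h1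
    rwa [commutatorElement_eq_one_iff_mul_comm] at h2
  rw [this]; exact one_mem _

theorem card_comm_zpowers {a : G} (ha : a ∈ H) :
    Nat.card ↥⁅V, zpowers a⁆ * Nat.card ↥(V ⊓ centralizer (zpowers a : Set G)) = Nat.card V := by
  classical
  have hVc : ∀ u ∈ V, ∀ v ∈ V, u * v = v * u := by
    intro u hu v hv
    have := hF.hV.1.is_comm.comm (⟨u, hu⟩ : V) ⟨v, hv⟩
    exact congrArg Subtype.val this
  have haN := hF.hHV ha
  have hconj : ∀ v ∈ V, a * v * a⁻¹ ∈ V := fun v hv => (Subgroup.mem_normalizer_iff.1 haN v).1 hv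
  -- the commutator map
  let f : ↥V →* ↥V :=
    { toFun := fun v => ⟨v * (a * (v : G)⁻¹ * a⁻¹), V.mul_mem v.2 (hconj _ (V.inv_mem v.2))⟩
      map_one' := by apply Subtype.ext; simp
      map_mul' := by
        intro u v
        apply Subtype.ext
        have e : a * ((u : G) * v)⁻¹ * a⁻¹ = (a * (u : G)⁻¹ * a⁻¹) * (a * (v : G)⁻¹ * a⁻¹) := by
          rw [hVc u u.2 v v.2]; group
        simp only [Subgroup.coe_mul, e]
        have c := hVc _ v.2 _ (hconj _ (V.inv_mem u.2))
        calc (u : G) * v * ((a * (u : G)⁻¹ * a⁻¹) * (a * (v : G)⁻¹ * a⁻¹))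
            = u * (v * (a * (u : G)⁻¹ * a⁻¹)) * (a * (v : G)⁻¹ * a⁻¹) := by group
          _ = u * ((a * (u : G)⁻¹ * a⁻¹) * v) * (a * (v : G)⁻¹ * a⁻¹) := by rw [c]
          _ = _ := by group }
  have hfv : ∀ v : ↥V, ((f v : ↥V) : G) = ⁅(v : G), a⁆ := by
    intro v
    rw [commutatorElement_def]
    change (v : G) * (a * (v : G)⁻¹ * a⁻¹) = _
    group
  have hrange : ⁅V, zpowers a⁆ = f.range.map V.subtype := by
    apply le_antisymm
    · rw [Subgroup.commutator_le]
      intro v hv b hb
      -- first the `a`-invariance of the range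
      have hinv : ∀ w ∈ f.range.map V.subtype, a * w * a⁻¹ ∈ f.range.map V.subtype := by
        rintro _ ⟨_, ⟨u, rfl⟩, rfl⟩
        refine ⟨f ⟨a * u * a⁻¹, hconj _ u.2⟩, ⟨_, rfl⟩, ?_⟩
        change ((f _ : ↥V) : G) = _
        rw [hfv]
        change _ = a * ((f u : ↥V) : G) * a⁻¹
        rw [hfv]
        simp only [commutatorElement_def]
        group
      have key : ∀ (n : ℕ) (v : G), v ∈ V → ⁅v, a ^ n⁆ ∈ f.range.map V.subtype := by
        intro n
        induction n with
        | zero => intro v _; simp [commutatorElement_def, one_mem]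
        | succ n ih =>
          intro v hv
          have e : ⁅v, a ^ (n + 1)⁆ = ⁅v, a⁆ * (a * ⁅v, a ^ n⁆ * a⁻¹) := by
            simp only [commutatorElement_def, pow_succ']
            group
          rw [e]
          refine (f.range.map V.subtype).mul_mem ⟨f ⟨v, hv⟩, ⟨_, rfl⟩, hfv ⟨v, hv⟩⟩ (hinv _ (ih v hv))
      obtain ⟨m, rfl⟩ := mem_zpowers_iff.1 hb
      have hfin : ∃ n : ℕ, a ^ m = a ^ n := by
        have hpos : 0 < orderOf a := orderOf_pos a
        refine ⟨(m % (orderOf a : ℤ)).toNat, ?_⟩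
        rw [← zpow_natCast, Int.toNat_of_nonneg (Int.emod_nonneg _ (by exact_mod_cast hpos.ne'))]
        exact (zpow_mod_orderOf a m).symm
      obtain ⟨n, hn⟩ := hfin
      rw [hn]
      exact key n v hv
    · rintro _ ⟨_, ⟨u, rfl⟩, rfl⟩
      change ((f u : ↥V) : G) ∈ _
      rw [hfv]
      exact commutator_mem_commutator u.2 (mem_zpowers a)
  have hker : Nat.card f.ker = Nat.card ↥(V ⊓ centralizer (zpowers a : Set G)) := by
    have e : f.ker.map V.subtype = V ⊓ centralizer (zpowers a : Set G) := by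
      ext x
      constructor
      · rintro ⟨u, hu, rfl⟩
        refine Subgroup.mem_inf.2 ⟨u.2, mem_C_of_le ?_⟩
        rw [zpowers_le, Subgroup.mem_centralizer_singleton_iff]
        have h1 : ((f u : ↥V) : G) = 1 := by
          rw [MonoidHom.mem_ker.1 hu]; rfl
        rw [hfv, commutatorElement_eq_one_iff_mul_comm] at h1
        exact h1.symm
      · intro hx
        have hx1 := (Subgroup.mem_inf.1 hx).1
        have hx2 := (Subgroup.mem_inf.1 hx).2
        refine ⟨⟨x, hx1⟩, ?_, rfl⟩
        refine MonoidHom.mem_ker.2 ?_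
        apply Subtype.ext
        rw [hfv]
        have h1 := le_C_of_mem hx2 (mem_zpowers a)
        rw [Subgroup.mem_centralizer_singleton_iff] at h1
        change ⁅x, a⁆ = 1
        rw [commutatorElement_eq_one_iff_mul_comm]
        exact h1.symm
    rw [← e]
    exact (Nat.card_congr (Subgroup.equivMapOfInjective _ _ V.subtype_injective).toEquiv)
  have hcardr : Nat.card ↥⁅V, zpowers a⁆ = Nat.card f.range := by
    rw [hrange]
    exact (Nat.card_congr (Subgroup.equivMapOfInjective _ _ V.subtype_injective).toEquiv).symm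
  rw [hcardr, ← hker, ← Subgroup.index_ker, mul_comm]
  exact Subgroup.card_mul_index _

/-- S0611 core. -/
theorem minimal_card {A : Subgroup G} (hAH : A ≤ H) (hA : IsBestOffenderOn p V A) (hAV : ⁅V, A⁆ ≠ ⊥)
    (hmin : ∀ B : Subgroup G, B ≤ A → IsBestOffenderOn p V B → ⁅V, B⁆ ≠ ⊥ → B = A) :
    Nat.card A = p ∧ Nat.card ↥(⁅V, A⁆) = p ∧ (V ⊓ centralizer (A : Set G)).relIndex V = p := by
  have hA1 : A ≠ ⊥ := by
    rintro rfl
    apply hAV
    rw [eq_bot_iff, Subgroup.commutator_le]
    intro v _ b hb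
    have : b = 1 := by simpa using hb
    simp [this, commutatorElement_def]
  obtain ⟨B, hB, hBi, hY⟩ := exists_good hF hAH hA hA1
  have hv := val_hyper hF hAH hA hB hBi hY
  have hbest := best_of_val hF hB hA hv
  have hB1 : B = ⊥ := by
    by_contra hne
    have e := hmin B hB hbest (ne_bot_comm hF (hB.trans hAH) hne)
    rw [e, Subgroup.relIndex_self] at hBi
    exact hp.out.one_lt.ne hBi
  have hcard : Nat.card A = p := by
    have := Cfsg.Agent.Lib.PNilp.card_mul_relIndex' B A hB
    rw [hB1] at this hBi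
    rw [Subgroup.card_bot, one_mul, hBi] at this
    exact this.symm
  have hval := val_eq hF hAH hA hA1
  unfold Val at hval
  rw [hcard] at hval
  have hrel : (V ⊓ centralizer (A : Set G)).relIndex V = p := by
    have h1 := Cfsg.Agent.Lib.PNilp.card_mul_relIndex' _ _ (inf_le_left : V ⊓ centralizer (A : Set G) ≤ V)
    rw [mul_comm] at hval
    rw [← hval] at h1
    exact Nat.eq_of_mul_eq_mul_left Nat.card_pos h1
  refine ⟨hcard, ?_, hrel⟩
  -- `A` is cyclic
  obtain ⟨a, ha⟩ : ∃ a ∈ A, a ≠ 1 := by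
    by_contra hcon
    push Not at hcon
    exact hA1 ((Subgroup.eq_bot_iff_forall A).2 hcon)
  obtain ⟨ha, ha1⟩ := ha
  have hza : zpowers a = A := by
    apply Subgroup.eq_of_le_of_card_ge ((zpowers_le).2 ha)
    rw [hcard, Nat.card_zpowers]
    exact (orderOf_eq_prime (best_pow hF hAH hA a ha) ha1).ge
  have h2 := card_comm_zpowers hF (hAH ha)
  rw [hza] at h2
  rw [← hval] at h2
  exact Nat.eq_of_mul_eq_mul_right Nat.card_pos h2

/-- Best offenders are generated by their transvections. -/
theorem gen_trans {A : Subgroup G} (hAH : A ≤ H) (hA : IsBestOffenderOn p V A) (hA1 : A ≠ ⊥)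
    (C : Subgroup G) (hC : ∀ a ∈ A, a ≠ 1 → IsBestOffenderOn p V (zpowers a) → a ∈ C) : A ≤ C := by
  classical
  induction' hn : Nat.card A using Nat.strong_induction_on with n ih generalizing A
  obtain ⟨B, hB, hBi, hY⟩ := exists_good hF hAH hA hA1
  have hv := val_hyper hF hAH hA hB hBi hY
  have hbest := best_of_val hF hB hA hv
  have hcardA : Nat.card A = Nat.card B * p := by
    have := Cfsg.Agent.Lib.PNilp.card_mul_relIndex' B A hB
    rw [hBi] at this
    exact this.symm
  by_cases hB1 : B = ⊥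
  · -- `A` has prime order
    rw [hB1, Subgroup.card_bot, one_mul] at hcardA
    intro x hx
    by_cases hx1 : x = 1
    · rw [hx1]; exact one_mem _
    · have hza : zpowers x = A := by
        apply Subgroup.eq_of_le_of_card_ge ((zpowers_le).2 hx)
        rw [hcardA, Nat.card_zpowers]
        exact (orderOf_eq_prime (best_pow hF hAH hA x hx) hx1).ge
      exact hC x hx hx1 (hza ▸ hA)
  have hlt : ∀ B' : Subgroup G, B' ≤ A → B'.relIndex A = p → Nat.card B' < n := by
    intro B' hB' hBi'
    have := Cfsg.Agent.Lib.PNilp.card_mul_relIndex' B' A hB'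
    rw [hBi', hn] at this
    rw [← this]
    have h2 := hp.out.two_le
    have h3 : 0 < Nat.card B' := Nat.card_pos
    nlinarith
  have hBC : B ≤ C := ih _ (hlt B hB hBi) (hB.trans hAH) hbest hB1
    (fun a ha ha1 hb => hC a (hB ha) ha1 hb) rfl
  by_contra hcon
  -- no other good hyperplane
  have hother : ∀ B' : Subgroup G, B' ≤ A → B'.relIndex A = p → B' ≠ B →
      K ⊓ centralizer (B' : Set G) ≤ centralizer (A : Set G) := by
    intro B' hB' hBi' hne
    by_contra hY'
    have hv' := val_hyper hF hAH hA hB' hBi' hY'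
    have hbest' := best_of_val hF hB' hA hv'
    have hB'1 : B' ≠ ⊥ := by
      intro e
      rw [e] at hBi'
      have h1 := Cfsg.Agent.Lib.PNilp.card_mul_relIndex' ⊥ A (bot_le : (⊥ : Subgroup G) ≤ A)
      rw [hBi', Subgroup.card_bot, one_mul, hcardA] at h1
      have h2 : Nat.card B = 1 := by
        have h3 : p * 1 = Nat.card B * p := by rw [mul_one]; exact h1
        have h4 : p * 1 = p * Nat.card B := by rw [h3, mul_comm]
        exact (Nat.eq_of_mul_eq_mul_left hp.out.pos h4).symm
      exact hB1 (Subgroup.card_eq_one.1 h2)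
    have hB'C : B' ≤ C := ih _ (hlt B' hB' hBi') (hB'.trans hAH) hbest' hB'1
      (fun a ha ha1 hb => hC a (hB' ha) ha1 hb) rfl
    apply hcon
    -- `B ⊔ B' = A`
    have hcardB' : Nat.card A = Nat.card B' * p := by
      have := Cfsg.Agent.Lib.PNilp.card_mul_relIndex' B' A hB'
      rw [hBi'] at this
      exact this.symm
    have hBB' : Nat.card B' = Nat.card B := by
      rw [hcardA] at hcardB'
      exact (Nat.eq_of_mul_eq_mul_right hp.out.pos hcardB').symm
    have hnle : ¬ B' ≤ B := fun h => hne (Subgroup.eq_of_le_of_card_ge h hBB'.ge)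
    have hsup : B ⊔ B' = A := by
      have hle : B ⊔ B' ≤ A := sup_le hB hB'
      have h1 := Cfsg.Agent.Lib.PNilp.card_mul_relIndex' B (B ⊔ B') le_sup_left
      have h2 := Cfsg.Agent.Lib.PNilp.card_mul_relIndex' (B ⊔ B') A hle
      rw [← h1, mul_assoc, hcardA] at h2
      have h3 : B.relIndex (B ⊔ B') * (B ⊔ B').relIndex A = p :=
        Nat.eq_of_mul_eq_mul_left Nat.card_pos h2
      have h4 : B.relIndex (B ⊔ B') ≠ 1 := by
        intro h5
        rw [Subgroup.relIndex_eq_one] at h5
        exact hnle (le_sup_right.trans h5)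
      have h5 := (Nat.dvd_prime hp.out).1 (Dvd.intro _ h3)
      have h6 : (B ⊔ B').relIndex A = 1 := by
        rcases h5 with h5 | h5
        · exact absurd h5 h4
        · rw [h5] at h3
          exact Nat.eq_of_mul_eq_mul_left hp.out.pos (by rw [h3, mul_one])
      rw [Subgroup.relIndex_eq_one] at h6
      exact le_antisymm hle h6
    rw [← hsup]
    exact sup_le hBC hB'C
  -- so `K` centralizes `B`
  have h1 : K ≤ centralizer (B : Set G) := gen_hyper A K (best_comm hF hAH hA) (best_pow hF hAH hA) hA1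
    (hAH.trans hF.hKn) hF.hK _ (by
      intro B' hB' hBi' x hx
      by_cases e : B' = B
      · rw [e] at hx; exact hx.2
      · exact Subgroup.centralizer_le hB (hother B' hB' hBi' e hx))
  apply hB1
  rw [eq_bot_iff]
  intro a ha
  by_contra hne
  have hne' : a ≠ 1 := fun h => hne (h ▸ one_mem _)
  have h3 : orderOf a = p := orderOf_eq_prime (best_pow hF hAH hA a (hB ha)) hne'
  have h4 : a ∈ K := by
    apply hF.hs
    refine Subgroup.mem_inf.2 ⟨hAH (hB ha), ?_⟩
    rw [Subgroup.mem_centralizer_iff]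
    intro k hk
    exact (Subgroup.mem_centralizer_iff.1 (h1 hk) a ha).symm
  apply hF.hK
  rw [← h3]
  exact Subgroup.orderOf_dvd_natCard K h4

/-- A family of transvections spanning any stage. -/
theorem exists_family {A : Subgroup G} (hAH : A ≤ H) (hA : IsBestOffenderOn p V A) (hA1 : A ≠ ⊥) :
    ∀ (m : ℕ) (C : Subgroup G) (k : ℕ) (a : Fin k → G), Nat.card A - Nat.card C ≤ m → C ≤ A →
      (∀ i, a i ∈ A ∧ a i ≠ 1 ∧ IsBestOffenderOn p V (zpowers (a i))) →
      iSupIndep (fun i => zpowers (a i)) → ⨆ i, zpowers (a i) = C →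
      ∃ (k' : ℕ) (a' : Fin k' → G), (∀ i, a' i ∈ A ∧ a' i ≠ 1 ∧ IsBestOffenderOn p V (zpowers (a' i))) ∧
        iSupIndep (fun i => zpowers (a' i)) ∧ ⨆ i, zpowers (a' i) = A := by
  classical
  intro m
  induction m with
  | zero =>
    intro C k a hm hCA h1 h2 h3
    refine ⟨k, a, h1, h2, ?_⟩
    rw [h3]
    apply Subgroup.eq_of_le_of_card_ge hCA
    omega
  | succ m ih =>
    intro C k a hm hCA h1 h2 h3
    by_cases hCe : C = A
    · exact ⟨k, a, h1, h2, h3.trans hCe⟩
    -- a new transvection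
    obtain ⟨x, hxA, hx1, hxb, hxC⟩ : ∃ x ∈ A, x ≠ 1 ∧ IsBestOffenderOn p V (zpowers x) ∧ x ∉ C := by
      by_contra hcon
      push Not at hcon
      exact hCe (le_antisymm hCA (gen_trans hF hAH hA hA1 C hcon))
    have hxp : x ^ p = 1 := best_pow hF hAH hA x hxA
    have hcomm := best_comm hF hAH hA
    have hNC : ∀ T : Subgroup G, T ≤ A → ∀ {b}, b ∈ A → b ∈ normalizer (T : Set G) := by
      intro T hT b hb
      apply Cfsg.Agent.Lib.PGlaub.mem_normalizer_of_conj_mem
      intro d hd
      have : b * d * b⁻¹ = d := by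
        rw [hcomm b hb d (hT hd)]; group
      rwa [this]
    have hdisj : ∀ u ∈ C, ∀ n : ℤ, u * x ^ n ∈ C → x ^ n = 1 := by
      intro u hu n h
      have h1 : x ^ n ∈ C := by
        have : x ^ n = u⁻¹ * (u * x ^ n) := by group
        rw [this]
        exact C.mul_mem (C.inv_mem hu) h
      by_cases hn : (p : ℤ) ∣ n
      · obtain ⟨k', rfl⟩ := hn
        rw [zpow_mul, zpow_natCast, hxp, one_zpow]
      · exact absurd (mem_of_zpow hxp hn h1) hxC
    have hinfC : C ⊓ zpowers x = ⊥ := by
      rw [eq_bot_iff]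
      rintro u ⟨hu, hu'⟩
      obtain ⟨n, rfl⟩ := mem_zpowers_iff.1 hu'
      have := hdisj 1 C.one_mem n (by simpa using hu)
      rw [this]; exact one_mem _
    set a' : Fin (k + 1) → G := Fin.snoc a x with ha'
    have hlast : a' (Fin.last k) = x := by simp [ha']
    have hcast : ∀ i : Fin k, a' i.castSucc = a i := by
      intro i; simp [ha']
    have hsup : ⨆ i, zpowers (a' i) = C ⊔ zpowers x := by
      apply le_antisymm
      · apply iSup_le
        intro i
        refine Fin.lastCases ?_ (fun j => ?_) i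
        · rw [hlast]; exact le_sup_right
        · rw [hcast, ← h3]
          exact (le_iSup (fun i => zpowers (a i)) j).trans le_sup_left
      · apply sup_le
        · rw [← h3]
          apply iSup_le
          intro j
          rw [← hcast]
          exact le_iSup (fun i => zpowers (a' i)) j.castSucc
        · rw [← hlast]
          exact le_iSup (fun i => zpowers (a' i)) (Fin.last k)
    have hind : iSupIndep (fun i => zpowers (a' i)) := by
      intro i
      refine Fin.lastCases ?_ (fun j => ?_) i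
      · -- the last one
        rw [disjoint_iff, eq_bot_iff]
        rintro u ⟨hu, hu'⟩
        have hle : (⨆ j, ⨆ (_ : j ≠ Fin.last k), zpowers (a' j)) ≤ C := by
          apply iSup₂_le
          intro j hj
          obtain ⟨j₀, rfl⟩ := Fin.exists_castSucc_eq.2 hj
          rw [hcast, ← h3]
          exact le_iSup (fun i => zpowers (a i)) j₀
        have h4 : u ∈ C := hle hu'
        have h5 : u ∈ zpowers x := by
          have := hu
          simpa [hlast] using this
        have h6 : u ∈ C ⊓ zpowers x := ⟨h4, h5⟩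
        rw [hinfC] at h6
        exact h6
      · -- an old one
        rw [disjoint_iff, eq_bot_iff]
        rintro u ⟨hu, hu'⟩
        have hu0 : u ∈ zpowers (a j) := by
          have := hu
          simpa [hcast] using this
        set D := ⨆ j₁, ⨆ (_ : j₁ ≠ j), zpowers (a j₁) with hD
        have hDC : D ≤ C := by
          rw [← h3]
          exact iSup₂_le (fun j₁ _ => le_iSup (fun i => zpowers (a i)) j₁)
        have hle : (⨆ j₂, ⨆ (_ : j₂ ≠ j.castSucc), zpowers (a' j₂)) ≤ D ⊔ zpowers x := by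
          apply iSup₂_le
          intro j₂ hj₂
          refine Fin.lastCases ?_ (fun j₃ => ?_) j₂ hj₂
          · intro _
            rw [hlast]; exact le_sup_right
          · intro hj₃
            rw [hcast]
            have : j₃ ≠ j := fun e => hj₃ (by rw [e])
            exact (le_iSup₂ (f := fun (j₁ : Fin k) (_ : j₁ ≠ j) => zpowers (a j₁)) j₃ this).trans le_sup_left
        have hu2 : u ∈ D ⊔ zpowers x := hle hu'
        have hNx : zpowers x ≤ normalizer (D : Set G) := by
          rw [zpowers_le]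
          exact hNC D (hDC.trans hCA) hxA
        have h1' : ((D ⊔ zpowers x : Subgroup G) : Set G) = (D : Set G) * (zpowers x : Set G) :=
          Subgroup.coe_mul_of_right_le_normalizer_left _ _ hNx
        have h2' : u ∈ ((D ⊔ zpowers x : Subgroup G) : Set G) := hu2
        rw [h1'] at h2'
        obtain ⟨c, hc, z, hz, rfl⟩ := Set.mem_mul.1 h2'
        obtain ⟨n, rfl⟩ := mem_zpowers_iff.1 hz
        have huC : c * x ^ n ∈ C := by
          rw [← h3]
          exact (le_iSup (fun i => zpowers (a i)) j) hu0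
        have e := hdisj c (hDC hc) n huC
        rw [e, mul_one] at hu0 ⊢
        have h7 := h2 j
        rw [disjoint_iff] at h7
        have h8 : c ∈ zpowers (a j) ⊓ D := ⟨hu0, hc⟩
        change c ∈ zpowers (a j) ⊓ _ at h8
        rw [h7] at h8
        exact h8
    refine ih (C ⊔ zpowers x) (k + 1) a' ?_ (sup_le hCA ((zpowers_le).2 hxA)) ?_ hind hsup
    · have hx : Nat.card ↥(C ⊔ zpowers x) > Nat.card C := by
        apply Cfsg.Agent.Lib.PNilp.card_lt_of_lt'
        refine lt_of_le_of_ne le_sup_left ?_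
        intro e
        apply hxC
        rw [e]
        exact (le_sup_right : zpowers x ≤ C ⊔ zpowers x) (mem_zpowers x)
      omega
    · intro i
      refine Fin.lastCases ?_ (fun j => ?_) i
      · rw [hlast]; exact ⟨hxA, hx1, hxb⟩
      · rw [hcast]; exact h1 j

/-- The minimal-offender property of a transvection. -/
theorem minimal_zpowers {a : G} (haH : a ∈ H) (ha1 : a ≠ 1) (hb : IsBestOffenderOn p V (zpowers a)) :
    ⁅V, zpowers a⁆ ≠ ⊥ ∧ ∀ C : Subgroup G, C ≤ zpowers a → IsBestOffenderOn p V C → ⁅V, C⁆ ≠ ⊥ → C = zpowers a := by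
  have haHz : zpowers a ≤ H := (zpowers_le).2 haH
  refine ⟨ne_bot_comm hF haHz (by simpa using ha1), ?_⟩
  intro C hC _ hCV
  have hap := best_pow hF haHz hb a (mem_zpowers a)
  have hcard : Nat.card (zpowers a) = p := by
    rw [Nat.card_zpowers]; exact orderOf_eq_prime hap ha1
  have hd : Nat.card C ∣ p := hcard ▸ Subgroup.card_dvd_of_le hC
  rcases (Nat.dvd_prime hp.out).1 hd with h | h
  · exfalso
    apply hCV
    rw [Subgroup.card_eq_one.1 h, eq_bot_iff, Subgroup.commutator_le]
    intro v _ b hb'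
    have : b = 1 := by simpa using hb'
    simp [this, commutatorElement_def]
  · exact Subgroup.eq_of_le_of_card_ge hC (by rw [hcard, h])

end

end Cfsg.Agent.Lib.LFF
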