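import Mathlib
import Cfsg.Prelude.Def_Transfer
import Cfsg.Prelude.Def_Local
import Cfsg.Prelude.Def_KGroupFacts
import Cfsg.Agent.Lib.LdCl6
import Cfsg.Agent.Lib.LExtraPlus

set_option autoImplicit false
set_option linter.unusedSectionVars false
set_option linter.unusedVariables false
set_option linter.style.haveILetI false

namespace Cfsg.Agent.Lib.LGriess

open Subgroup Cfsg

variable {Q : Type*} [Group Q] [Finite Q]

/-- The numerical facts on an extraspecial 2-group. -/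
structure Z2 (z : Q) : Prop where
  ne : z ≠ 1
  sq : z * z = 1
  cen : ∀ y, z * y = y * z
  comm : ∀ x y : Q, x * y = y * x ∨ x * y = z * (y * x)
  sq' : ∀ x : Q, x * x = 1 ∨ x * x = z
  inv : ∀ c : Q, (∀ y, c * y = y * c) → c = 1 ∨ c = z

theorem exists_z2 (hQ : IsExtraspecial 2 Q) : ∃ z : Q, Z2 z := by
  obtain ⟨z', hz'⟩ : ∃ z' : center Q, z' ≠ 1 := by
    haveI : Nontrivial (center Q) := by
      rw [← Finite.one_lt_card_iff_nontrivial, hQ.2]; norm_num
    exact exists_ne 1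
  have hz1 : (z' : Q) ≠ 1 := fun h => hz' (Subtype.ext h)
  have hzc : (z' : Q) ∈ center Q := z'.2
  have hcen : ∀ y, (z' : Q) * y = y * z' := fun y => ((Subgroup.mem_center_iff.1 hzc) y).symm
  have hu : ∀ c ∈ center Q, c = 1 ∨ c = (z' : Q) := by
    intro c hc
    by_cases h : c = 1
    · exact Or.inl h
    · exact Or.inr (Cfsg.Agent.Lib.LdCl6.center_unique hQ hc hzc h hz1)
  refine ⟨z', hz1, ?_, hcen, ?_, ?_, ?_⟩
  · have := Cfsg.Agent.Lib.LExtraPlus.center_sq hQ hzc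
    rwa [sq] at this
  · intro x y
    have h := hu _ (Cfsg.Agent.Lib.LdCl6.comm_mem_center hQ x y)
    rcases h with h | h
    · left
      have : x * y * x⁻¹ * y⁻¹ * (y * x) = y * x := by rw [h, one_mul]
      calc x * y = x * y * x⁻¹ * y⁻¹ * (y * x) := by group
        _ = y * x := this
    · right
      calc x * y = x * y * x⁻¹ * y⁻¹ * (y * x) := by group
        _ = z' * (y * x) := by rw [h]
  · intro x
    have h := hu _ (Cfsg.Agent.Lib.LExtraPlus.sq_mem hQ x)
    rwa [sq] at h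
  · intro c hc
    exact hu c (Subgroup.mem_center_iff.2 (fun y => (hc y).symm))

open Classical in
/-- Transvection by an element of order four. -/
noncomputable def tvFun (x y : Q) : Q := if x * y = y * x then y else y * x

theorem tvFun_pos {x y : Q} (h : x * y = y * x) : tvFun x y = y := if_pos h
theorem tvFun_neg {x y : Q} (h : ¬ x * y = y * x) : tvFun x y = y * x := if_neg h

section
variable {z : Q} (hz : Z2 z)
include hz

theorem noncomm {x y : Q} (h : ¬ x * y = y * x) : x * y = z * (y * x) :=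
  (hz.comm x y).resolve_left h

theorem tv_mul {x : Q} (hx : x * x = z) (y w : Q) : tvFun x (y * w) = tvFun x y * tvFun x w := by
  by_cases h1 : x * y = y * x <;> by_cases h2 : x * w = w * x
  · have : x * (y * w) = y * w * x := by
      rw [← mul_assoc, h1, mul_assoc, h2, mul_assoc]
    rw [tvFun_pos this, tvFun_pos h1, tvFun_pos h2]
  · have : ¬ x * (y * w) = y * w * x := by
      intro h
      apply h2
      have : y * (x * w) = y * (w * x) := by
        rw [← mul_assoc, ← h1, mul_assoc, h, mul_assoc]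
      exact mul_left_cancel this
    rw [tvFun_neg this, tvFun_pos h1, tvFun_neg h2, mul_assoc]
  · have : ¬ x * (y * w) = y * w * x := by
      intro h
      apply h1
      have : x * y * w = y * x * w := by
        rw [mul_assoc, h, mul_assoc, mul_assoc, h2]
      exact mul_right_cancel this
    rw [tvFun_neg this, tvFun_neg h1, tvFun_pos h2, mul_assoc, mul_assoc, h2]
  · have e1 := noncomm hz h1
    have e2 := noncomm hz h2
    have : x * (y * w) = y * w * x := by
      calc x * (y * w) = (x * y) * w := by rw [mul_assoc]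
        _ = z * (y * x) * w := by rw [e1]
        _ = z * y * (x * w) := by simp only [mul_assoc]
        _ = z * y * (z * (w * x)) := by rw [e2]
        _ = (z * y * z) * (w * x) := by simp only [mul_assoc]
        _ = (z * z) * y * (w * x) := by rw [mul_assoc z y z, ← hz.cen y]; simp only [mul_assoc]
        _ = y * w * x := by rw [hz.sq, one_mul, mul_assoc]
    rw [tvFun_pos this, tvFun_neg h1, tvFun_neg h2]
    calc y * w = y * w * (z * z) := by rw [hz.sq, mul_one]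
      _ = y * (w * z) * z := by simp only [mul_assoc]
      _ = y * (z * w) * z := by rw [hz.cen w]
      _ = y * (z * w * (x * x)) := by rw [hx]; simp only [mul_assoc]
      _ = y * ((z * (w * x)) * x) := by simp only [mul_assoc]
      _ = y * ((x * w) * x) := by rw [e2]
      _ = y * x * (w * x) := by simp only [mul_assoc]

theorem tv_tv {x : Q} (hx : x * x = z) (y : Q) : tvFun x (tvFun x y) = x * y * x⁻¹ := by
  by_cases h1 : x * y = y * x
  · rw [tvFun_pos h1, tvFun_pos h1, h1, mul_inv_cancel_right]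
  · rw [tvFun_neg h1]
    have h2 : ¬ x * (y * x) = y * x * x := by
      intro h
      apply h1
      rw [← mul_assoc] at h
      exact mul_right_cancel h
    rw [tvFun_neg h2, noncomm hz h1, mul_assoc y x x, hx]
    calc y * z = z * y := (hz.cen y).symm
      _ = z * (y * x) * x⁻¹ := by group

theorem tv_inj {x : Q} (hx : x * x = z) : Function.Injective (tvFun x : Q → Q) := by
  intro a b h
  have := congrArg (tvFun x) h
  rw [tv_tv hz hx, tv_tv hz hx] at this
  simpa using this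

/-- The transvection as an automorphism. -/
noncomputable def tv {x : Q} (hx : x * x = z) : MulAut Q :=
  MulEquiv.ofBijective (MonoidHom.mk' (tvFun x) (tv_mul hz hx))
    ⟨tv_inj hz hx, Finite.injective_iff_surjective.1 (tv_inj hz hx)⟩

theorem tv_apply {x : Q} (hx : x * x = z) (y : Q) : tv hz hx y = tvFun x y := rfl

theorem tv_sq {x : Q} (hx : x * x = z) : tv hz hx * tv hz hx = MulAut.conj x := by
  ext y
  rw [MulAut.mul_apply, tv_apply, tv_apply, tv_tv hz hx, MulAut.conj_apply]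

theorem tv_comm {x y : Q} (hx : x * x = z) (hy : y * y = z) (hxy : x * y = y * x) :
    tv hz hx * tv hz hy = tv hz hy * tv hz hx := by
  ext w
  rw [MulAut.mul_apply, MulAut.mul_apply, tv_apply, tv_apply, tv_apply, tv_apply]
  by_cases h1 : x * w = w * x <;> by_cases h2 : y * w = w * y
  · rw [tvFun_pos h2, tvFun_pos h1, tvFun_pos h2]
  · rw [tvFun_neg h2, tvFun_pos h1, tvFun_neg h2]
    have : x * (w * y) = w * y * x := by
      rw [← mul_assoc, h1, mul_assoc, hxy, mul_assoc]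
    rw [tvFun_pos this]
  · rw [tvFun_pos h2, tvFun_neg h1]
    have : y * (w * x) = w * x * y := by
      rw [← mul_assoc, h2, mul_assoc, ← hxy, mul_assoc]
    rw [tvFun_pos this]
  · rw [tvFun_neg h2, tvFun_neg h1]
    have e1 : ¬ x * (w * y) = w * y * x := by
      intro h
      apply h1
      have : x * w * y = w * x * y := by
        rw [mul_assoc, h, mul_assoc, mul_assoc, hxy]
      exact mul_right_cancel this
    have e2 : ¬ y * (w * x) = w * x * y := by
      intro h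
      apply h2
      have : y * w * x = w * y * x := by
        rw [mul_assoc, h, mul_assoc, mul_assoc, hxy]
      exact mul_right_cancel this
    rw [tvFun_neg e1, tvFun_neg e2, mul_assoc, mul_assoc, hxy]

theorem not_central {x : Q} (hx : x * x = z) : ¬ ∀ y, x * y = y * x := by
  intro h
  rcases hz.inv x h with h1 | h1
  · rw [h1, one_mul] at hx; exact hz.ne hx.symm
  · rw [h1, hz.sq] at hx; exact hz.ne hx.symm

end

theorem mul_conj (s : MulAut Q) (a : Q) : s * MulAut.conj a = MulAut.conj (s a) * s := by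
  ext y
  simp [MulAut.mul_apply, MulAut.conj_apply, map_mul]

theorem central_of_conj {w : Q} (h : MulAut.conj w = 1) (y : Q) : w * y = y * w := by
  have := congrArg (fun f : MulAut Q => f y) h
  simp only [MulAut.conj_apply, MulAut.one_apply] at this
  calc w * y = w * y * w⁻¹ * w := by group
    _ = y * w := by rw [this]

theorem ab1 {A : Type*} [Group A] (hab : ∀ a b : A, a * b = b * a) (a d y : A) :
    (a⁻¹ * d⁻¹) * (d⁻¹ * (a * y)⁻¹)⁻¹ = y := by
  letI : CommGroup A := { (inferInstance : Group A) with mul_comm := hab }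
  simp only [mul_inv_rev, inv_inv]
  have : a⁻¹ * d⁻¹ * (a * y * d) = (a⁻¹ * a) * (d⁻¹ * d) * y := by ac_rfl
  rw [this]; simp

theorem ab2 {A : Type*} [Group A] (hab : ∀ a b : A, a * b = b * a) (a d x y : A) :
    (a⁻¹ * (d * x)⁻¹) * (d⁻¹ * (a * y)⁻¹)⁻¹ = x⁻¹ * y := by
  letI : CommGroup A := { (inferInstance : Group A) with mul_comm := hab }
  simp only [mul_inv_rev, inv_inv]
  have : a⁻¹ * (x⁻¹ * d⁻¹) * (a * y * d) = (a⁻¹ * a) * (d⁻¹ * d) * (x⁻¹ * y) := by ac_rfl
  rw [this]; simp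

section
variable {z : Q} (hz : Z2 z) {L : Subgroup (MulAut Q)} (hc : (Inn Q).IsComplement' L)
include hz hc

theorem eq_one_of_mem {w : Q} {l : MulAut Q} (hl : l ∈ L) (h : l = MulAut.conj w) : l = 1 := by
  have hd := hc.disjoint
  exact Subgroup.disjoint_def.1 hd ⟨w, h.symm⟩ hl

theorem exists_factor (s : MulAut Q) : ∃ c : Q, ∃ l ∈ L, s = MulAut.conj c * l := by
  have hb := hc
  obtain ⟨⟨⟨a, ha⟩, ⟨b, hb'⟩⟩, h⟩ := hb.2 s
  obtain ⟨c, rfl⟩ := ha
  exact ⟨c, b, hb', h.symm⟩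

/-- Claim 1: the inner part does not commute with `x`. -/
theorem claim1 {x : Q} (hx : x * x = z) {c : Q} {l : MulAut Q} (hl : l ∈ L)
    (h : tv hz hx = MulAut.conj c * l) : ¬ c * x = x * c := by
  intro hcx
  have hl' : l = MulAut.conj c⁻¹ * tv hz hx := by
    rw [h, map_inv, inv_mul_cancel_left]
  have hsc : tv hz hx c⁻¹ = c⁻¹ := by
    rw [tv_apply]
    apply tvFun_pos
    calc x * c⁻¹ = c⁻¹ * (c * x) * c⁻¹ := by group
      _ = c⁻¹ * (x * c) * c⁻¹ := by rw [hcx]
      _ = c⁻¹ * x := by group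
  have h2 : l * l = MulAut.conj (c⁻¹ * c⁻¹ * x) := by
    calc l * l = MulAut.conj c⁻¹ * (tv hz hx * MulAut.conj c⁻¹) * tv hz hx := by
          rw [hl']; simp only [mul_assoc]
      _ = MulAut.conj c⁻¹ * (MulAut.conj c⁻¹ * tv hz hx) * tv hz hx := by
          rw [mul_conj, hsc]
      _ = MulAut.conj c⁻¹ * MulAut.conj c⁻¹ * (tv hz hx * tv hz hx) := by
          simp only [mul_assoc]
      _ = _ := by rw [tv_sq, map_mul, map_mul]
  have h3 := eq_one_of_mem hz hc (L.mul_mem hl hl) h2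
  rw [h3] at h2
  have h4 := central_of_conj h2.symm
  -- `c * c` is central
  have h5 : ∀ y, (c * c) * y = y * (c * c) := by
    intro y
    rcases hz.sq' c with h6 | h6
    · rw [h6]; simp
    · rw [h6]; exact hz.cen y
  apply not_central hz hx
  intro y
  have e : x = (c * c) * (c⁻¹ * c⁻¹ * x) := by group
  rw [e]
  calc c * c * (c⁻¹ * c⁻¹ * x) * y = c * c * ((c⁻¹ * c⁻¹ * x) * y) := by rw [mul_assoc]
    _ = c * c * (y * (c⁻¹ * c⁻¹ * x)) := by rw [h4]
    _ = (c * c * y) * (c⁻¹ * c⁻¹ * x) := by simp only [mul_assoc]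
    _ = (y * (c * c)) * (c⁻¹ * c⁻¹ * x) := by rw [h5]
    _ = y * (c * c * (c⁻¹ * c⁻¹ * x)) := by rw [mul_assoc]

/-- Claim 2. -/
theorem claim2 {x y : Q} (hx : x * x = z) (hy : y * y = z) (hxy : x * y = y * x)
    (hne : ¬ ∀ s, (x⁻¹ * y) * s = s * (x⁻¹ * y))
    {c d : Q} {l m : MulAut Q} (hl : l ∈ L) (hm : m ∈ L)
    (h1 : tv hz hx = MulAut.conj c * l) (h2 : tv hz hy = MulAut.conj d * m) :
    y * c = c * y := by
  by_contra hyc
  have hl' : l = MulAut.conj c⁻¹ * tv hz hx := by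
    rw [h1, map_inv, inv_mul_cancel_left]
  have hm' : m = MulAut.conj d⁻¹ * tv hz hy := by
    rw [h2, map_inv, inv_mul_cancel_left]
  have e1 : l * m = MulAut.conj (c⁻¹ * tv hz hx d⁻¹) * (tv hz hx * tv hz hy) := by
    calc l * m = MulAut.conj c⁻¹ * (tv hz hx * MulAut.conj d⁻¹) * tv hz hy := by
          rw [hl', hm']; simp only [mul_assoc]
      _ = _ := by rw [mul_conj, map_mul]; simp only [mul_assoc]
  have e2 : m * l = MulAut.conj (d⁻¹ * tv hz hy c⁻¹) * (tv hz hx * tv hz hy) := by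
    calc m * l = MulAut.conj d⁻¹ * (tv hz hy * MulAut.conj c⁻¹) * tv hz hx := by
          rw [hl', hm']; simp only [mul_assoc]
      _ = _ := by
          rw [mul_conj, map_mul, tv_comm hz hx hy hxy]; simp only [mul_assoc]
  have e3 : (l * m) * (m * l)⁻¹ = MulAut.conj
      ((c⁻¹ * tv hz hx d⁻¹) * (d⁻¹ * tv hz hy c⁻¹)⁻¹) := by
    have gen : ∀ A B S : MulAut Q, (A * S) * (B * S)⁻¹ = A * B⁻¹ := by
      intro A B S; group
    rw [e1, e2, gen, map_mul MulAut.conj _ _⁻¹, map_inv MulAut.conj]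
  have e4 := eq_one_of_mem hz hc
    (L.mul_mem (L.mul_mem hl hm) (L.inv_mem (L.mul_mem hm hl))) e3
  rw [e4] at e3
  have e5 := central_of_conj e3.symm
  set w := (c⁻¹ * tv hz hx d⁻¹) * (d⁻¹ * tv hz hy c⁻¹)⁻¹ with hw
  -- pass to the quotient
  have hwc : w ∈ center Q := Subgroup.mem_center_iff.2 (fun s => (e5 s).symm)
  let π : Q →* Q ⧸ center Q := QuotientGroup.mk' (center Q)
  have hπ : ∀ a, a ∈ center Q ↔ π a = 1 := by
    intro a
    exact (QuotientGroup.eq_one_iff a).symm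
  have hab : ∀ a b : Q ⧸ center Q, a * b = b * a := by
    intro a b
    induction a using QuotientGroup.induction_on with
    | H a =>
      induction b using QuotientGroup.induction_on with
      | H b =>
        rcases hz.comm a b with h | h
        · change π a * π b = π b * π a
          rw [← map_mul, ← map_mul, h]
        · change π a * π b = π b * π a
          have hzc : π z = 1 := (hπ z).1 (Subgroup.mem_center_iff.2 (fun s => (hz.cen s).symm))
          rw [← map_mul, ← map_mul, h, map_mul, hzc, one_mul]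
  have hτ : tv hz hy c⁻¹ = (c * y)⁻¹ := by
    rw [map_inv, tv_apply, tvFun_neg hyc]
  have hπw : π w = 1 := (hπ w).1 hwc
  by_cases hxd : x * d = d * x
  · have hσ : tv hz hx d⁻¹ = d⁻¹ := by
      rw [map_inv, tv_apply, tvFun_pos hxd]
    rw [hw, hσ, hτ] at hπw
    have e6 : π y = 1 := by
      rw [← hπw]
      simp only [map_mul, map_inv]
      exact (ab1 hab (π c) (π d) (π y)).symm.trans (by simp only [map_mul, map_inv])
    exact not_central hz hy (fun s => (Subgroup.mem_center_iff.1 ((hπ y).2 e6) s).symm)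
  · have hσ : tv hz hx d⁻¹ = (d * x)⁻¹ := by
      rw [map_inv, tv_apply, tvFun_neg hxd]
    rw [hw, hσ, hτ] at hπw
    have e6 : π (x⁻¹ * y) = 1 := by
      rw [← hπw]
      simp only [map_mul, map_inv]
      exact (ab2 hab (π c) (π d) (π x) (π y)).symm.trans (by simp only [map_mul, map_inv])
    exact hne (fun s => (Subgroup.mem_center_iff.1 ((hπ _).2 e6) s).symm)

/-- The contradiction from four commuting classes. -/
theorem no_four {x₁ x₂ x₃ : Q} (h1 : x₁ * x₁ = z) (h2 : x₂ * x₂ = z) (h3 : x₃ * x₃ = z)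
    (h12 : x₁ * x₂ = x₂ * x₁) (h13 : x₁ * x₃ = x₃ * x₁) (h23 : x₂ * x₃ = x₃ * x₂)
    (n12 : ¬ ∀ s, (x₁⁻¹ * x₂) * s = s * (x₁⁻¹ * x₂))
    (n13 : ¬ ∀ s, (x₁⁻¹ * x₃) * s = s * (x₁⁻¹ * x₃))
    (n23 : ¬ ∀ s, (x₂⁻¹ * x₃) * s = s * (x₂⁻¹ * x₃)) : False := by
  set x₄ := x₁ * x₂ * x₃ with hx₄
  have h4 : x₄ * x₄ = z := by
    calc x₄ * x₄ = (x₁ * x₁) * (x₂ * x₂) * (x₃ * x₃) := by
          rw [hx₄]
          calc x₁ * x₂ * x₃ * (x₁ * x₂ * x₃) = x₁ * (x₂ * (x₃ * x₁) * x₂) * x₃ := by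
                simp only [mul_assoc]
            _ = x₁ * (x₂ * (x₁ * x₃) * x₂) * x₃ := by rw [h13]
            _ = x₁ * ((x₂ * x₁) * (x₃ * x₂)) * x₃ := by simp only [mul_assoc]
            _ = x₁ * ((x₁ * x₂) * (x₂ * x₃)) * x₃ := by rw [h12, h23]
            _ = _ := by simp only [mul_assoc]
      _ = z := by rw [h1, h2, h3, hz.sq, one_mul]
  have h14 : x₁ * x₄ = x₄ * x₁ := by
    rw [hx₄]
    calc x₁ * (x₁ * x₂ * x₃) = x₁ * x₁ * x₂ * x₃ := by simp only [mul_assoc]
      _ = x₁ * (x₁ * x₂) * x₃ := by simp only [mul_assoc]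
      _ = x₁ * (x₂ * x₁) * x₃ := by rw [h12]
      _ = x₁ * x₂ * (x₁ * x₃) := by simp only [mul_assoc]
      _ = x₁ * x₂ * (x₃ * x₁) := by rw [h13]
      _ = _ := by simp only [mul_assoc]
  have n14 : ¬ ∀ s, (x₁⁻¹ * x₄) * s = s * (x₁⁻¹ * x₄) := by
    intro h
    apply n23
    have e : x₁⁻¹ * x₄ = x₂ * x₃ := by rw [hx₄]; group
    rw [e] at h
    have e2 : x₂⁻¹ * x₃ = (x₂⁻¹ * x₂⁻¹) * (x₂ * x₃) := by group
    have hc2 : ∀ s, (x₂⁻¹ * x₂⁻¹) * s = s * (x₂⁻¹ * x₂⁻¹) := by
      have e3 : x₂⁻¹ * x₂⁻¹ = z⁻¹ := by rw [← h2]; group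
      have e4 : z⁻¹ = z := inv_eq_of_mul_eq_one_left hz.sq
      rw [e3, e4]
      exact hz.cen
    intro s
    rw [e2, mul_assoc, h s, ← mul_assoc, hc2 s, mul_assoc]
  obtain ⟨c₁, l₁, hl₁, e₁⟩ := exists_factor hz hc (tv hz h1)
  obtain ⟨c₂, l₂, hl₂, e₂⟩ := exists_factor hz hc (tv hz h2)
  obtain ⟨c₃, l₃, hl₃, e₃⟩ := exists_factor hz hc (tv hz h3)
  obtain ⟨c₄, l₄, hl₄, e₄⟩ := exists_factor hz hc (tv hz h4)
  have k2 := claim2 hz hc h1 h2 h12 n12 hl₁ hl₂ e₁ e₂
  have k3 := claim2 hz hc h1 h3 h13 n13 hl₁ hl₃ e₁ e₃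
  have k4 := claim2 hz hc h1 h4 h14 n14 hl₁ hl₄ e₁ e₄
  apply claim1 hz hc h1 hl₁ e₁
  -- `c₁` commutes with `x₂, x₃, x₄`, hence with `x₁`
  have e : x₁ = x₄ * x₃⁻¹ * x₂⁻¹ := by rw [hx₄]; group
  have c₃i : x₃⁻¹ * c₁ = c₁ * x₃⁻¹ := by
    calc x₃⁻¹ * c₁ = x₃⁻¹ * (c₁ * x₃) * x₃⁻¹ := by group
      _ = x₃⁻¹ * (x₃ * c₁) * x₃⁻¹ := by rw [k3]
      _ = _ := by group
  have c₂i : x₂⁻¹ * c₁ = c₁ * x₂⁻¹ := by
    calc x₂⁻¹ * c₁ = x₂⁻¹ * (c₁ * x₂) * x₂⁻¹ := by group
      _ = x₂⁻¹ * (x₂ * c₁) * x₂⁻¹ := by rw [k2]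
      _ = _ := by group
  rw [e]
  calc c₁ * (x₄ * x₃⁻¹ * x₂⁻¹) = (c₁ * x₄) * x₃⁻¹ * x₂⁻¹ := by simp only [mul_assoc]
    _ = (x₄ * c₁) * x₃⁻¹ * x₂⁻¹ := by rw [k4]
    _ = x₄ * (c₁ * x₃⁻¹) * x₂⁻¹ := by simp only [mul_assoc]
    _ = x₄ * (x₃⁻¹ * c₁) * x₂⁻¹ := by rw [c₃i]
    _ = x₄ * x₃⁻¹ * (c₁ * x₂⁻¹) := by simp only [mul_assoc]
    _ = x₄ * x₃⁻¹ * (x₂⁻¹ * c₁) := by rw [c₂i]
    _ = _ := by simp only [mul_assoc]

end

theorem exists_mem_notMem (H : Subgroup Q) (S : Finset Q) (h : S.card < Nat.card H) :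
    ∃ r ∈ H, r ∉ S := by
  classical
  by_contra hcon
  push Not at hcon
  have : Nat.card H ≤ S.card := by
    have hinj : Function.Injective (fun r : H => (⟨r.1, hcon r.1 r.2⟩ : S)) := by
      intro a b hab
      exact Subtype.ext (congrArg (fun t : S => (t : Q)) hab)
    have := Nat.card_le_card_of_injective _ hinj
    simpa using this
  omega

theorem half' (hQ : IsExtraspecial 2 Q) (H : Subgroup Q) (y : Q) :
    Nat.card H ≤ 2 * Nat.card ↥(H ⊓ centralizer ({y} : Set Q)) := by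
  by_cases h : H ≤ centralizer ({y} : Set Q)
  · rw [inf_eq_left.2 h]; omega
  · rw [Cfsg.Agent.Lib.LExtraPlus.half hQ H y h]

section
variable {z : Q} (hz : Z2 z)
include hz

theorem mem_C {x y : Q} : y ∈ centralizer ({x} : Set Q) ↔ x * y = y * x := by
  rw [Subgroup.mem_centralizer_singleton_iff]
  exact eq_comm

theorem exists_first (hbig : 3 ≤ Nat.card Q) : ∃ x : Q, x * x = z := by
  classical
  by_contra hcon
  push Not at hcon
  have hs : ∀ x : Q, x * x = 1 := fun x => (hz.sq' x).resolve_right (hcon x)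
  have hab : ∀ a b : Q, a * b = b * a := by
    intro a b
    have h1 : a * b * (a * b) = 1 := hs _
    calc a * b = a * b * (b * a * (b * a)) := by rw [hs (b * a), mul_one]
      _ = (a * (b * b) * a) * (b * a) := by simp only [mul_assoc]
      _ = b * a := by rw [hs b, mul_one, hs a, one_mul]
  -- an abelian group has every element central, so only two elements
  have : Nat.card Q ≤ 2 := by
    have hsub : (Set.univ : Set Q) ⊆ (({1, z} : Finset Q) : Set Q) := by
      intro c _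
      rcases hz.inv c (fun y => hab c y) with h | h <;> simp [h]
    have h1 := exists_mem_notMem (⊤ : Subgroup Q) ({1, z} : Finset Q)
    by_contra h2
    obtain ⟨r, -, hr⟩ := h1 (by
      rw [Subgroup.card_top]
      have : ({1, z} : Finset Q).card ≤ 2 := Finset.card_le_two
      omega)
    exact hr (hsub (Set.mem_univ r))
  omega

theorem sq_or {r x : Q} (hx : x * x = z) (hr : x * r = r * x) :
    r * r = z ∨ (r * x) * (r * x) = z := by
  rcases hz.sq' r with h | h
  · right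
    calc r * x * (r * x) = r * (x * r) * x := by simp only [mul_assoc]
      _ = r * (r * x) * x := by rw [hr]
      _ = (r * r) * (x * x) := by simp only [mul_assoc]
      _ = z := by rw [h, hx, one_mul]
  · exact Or.inl h

/-- The triple needed by `no_four`. -/
theorem noncentral_of {x y : Q} (h1 : y ≠ x) (h2 : y ≠ z * x) :
    ¬ ∀ s, (x⁻¹ * y) * s = s * (x⁻¹ * y) := by
  intro h
  rcases hz.inv _ h with e | e
  · apply h1
    calc y = x * (x⁻¹ * y) := by group
      _ = x := by rw [e, mul_one]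
  · apply h2
    calc y = x * (x⁻¹ * y) := by group
      _ = x * z := by rw [e]
      _ = z * x := (hz.cen x).symm

/-- The triple needed by `no_four`. -/
theorem exists_triple (hQ : IsExtraspecial 2 Q) (hbig : 64 ≤ Nat.card Q) :
    ∃ x₁ x₂ x₃ : Q, x₁ * x₁ = z ∧ x₂ * x₂ = z ∧ x₃ * x₃ = z ∧
      x₁ * x₂ = x₂ * x₁ ∧ x₁ * x₃ = x₃ * x₁ ∧ x₂ * x₃ = x₃ * x₂ ∧
      (¬ ∀ s, (x₁⁻¹ * x₂) * s = s * (x₁⁻¹ * x₂)) ∧
      (¬ ∀ s, (x₁⁻¹ * x₃) * s = s * (x₁⁻¹ * x₃)) ∧
      (¬ ∀ s, (x₂⁻¹ * x₃) * s = s * (x₂⁻¹ * x₃)) := by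
  classical
  obtain ⟨x₁, h1⟩ := exists_first hz (by omega)
  -- the second element
  have c1 : 32 ≤ Nat.card ↥(centralizer ({x₁} : Set Q)) := by
    have := half' hQ ⊤ x₁
    rw [Subgroup.card_top, top_inf_eq] at this
    omega
  obtain ⟨r, hr, hrS⟩ := exists_mem_notMem (centralizer ({x₁} : Set Q))
    ({1, z, x₁, z * x₁} : Finset Q) (by
      have : ({1, z, x₁, z * x₁} : Finset Q).card ≤ 4 := Finset.card_le_four
      omega)
  simp only [Finset.mem_insert, Finset.mem_singleton, not_or] at hrS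
  obtain ⟨hr1, hrz, hrx, hrzx⟩ := hrS
  have hr' : x₁ * r = r * x₁ := mem_C hz |>.1 hr
  obtain ⟨x₂, h2, h12, n2x, n2zx⟩ : ∃ x₂ : Q, x₂ * x₂ = z ∧ x₁ * x₂ = x₂ * x₁ ∧ x₂ ≠ x₁ ∧
      x₂ ≠ z * x₁ := by
    rcases sq_or hz h1 hr' with h | h
    · exact ⟨r, h, hr', hrx, hrzx⟩
    · refine ⟨r * x₁, h, ?_, ?_, ?_⟩
      · rw [← mul_assoc, hr']
      · intro e; exact hr1 (by simpa using e)
      · intro e; exact hrz (mul_right_cancel e)
  -- the third element
  have c2 : 16 ≤ Nat.card ↥(centralizer ({x₁} : Set Q) ⊓ centralizer ({x₂} : Set Q)) := by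
    have := half' hQ (centralizer ({x₁} : Set Q)) x₂
    omega
  obtain ⟨t, ht, htS⟩ := exists_mem_notMem
    (centralizer ({x₁} : Set Q) ⊓ centralizer ({x₂} : Set Q))
    (({x₁, z * x₁, x₂, z * x₂} : Finset Q) ∪ ({1, z, x₂ * x₁⁻¹, z * (x₂ * x₁⁻¹)} : Finset Q)) (by
      have e1 : ({x₁, z * x₁, x₂, z * x₂} : Finset Q).card ≤ 4 := Finset.card_le_four
      have e2 : ({1, z, x₂ * x₁⁻¹, z * (x₂ * x₁⁻¹)} : Finset Q).card ≤ 4 := Finset.card_le_four
      have e3 := Finset.card_union_le ({x₁, z * x₁, x₂, z * x₂} : Finset Q)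
        ({1, z, x₂ * x₁⁻¹, z * (x₂ * x₁⁻¹)} : Finset Q)
      omega)
  simp only [Finset.mem_union, Finset.mem_insert, Finset.mem_singleton, not_or] at htS
  obtain ⟨⟨t1, t2, t3, t4⟩, t5, t6, t7, t8⟩ := htS
  have ht1 : x₁ * t = t * x₁ := mem_C hz |>.1 ht.1
  have ht2 : x₂ * t = t * x₂ := mem_C hz |>.1 ht.2
  obtain ⟨x₃, h3, h13, h23, a1, a2, a3, a4⟩ : ∃ x₃ : Q, x₃ * x₃ = z ∧ x₁ * x₃ = x₃ * x₁ ∧
      x₂ * x₃ = x₃ * x₂ ∧ x₃ ≠ x₁ ∧ x₃ ≠ z * x₁ ∧ x₃ ≠ x₂ ∧ x₃ ≠ z * x₂ := by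
    rcases sq_or hz h1 ht1 with h | h
    · exact ⟨t, h, ht1, ht2, t1, t2, t3, t4⟩
    · refine ⟨t * x₁, h, ?_, ?_, ?_, ?_, ?_, ?_⟩
      · rw [← mul_assoc, ht1]
      · calc x₂ * (t * x₁) = (x₂ * t) * x₁ := by rw [mul_assoc]
          _ = t * x₂ * x₁ := by rw [ht2]
          _ = t * (x₂ * x₁) := by rw [mul_assoc]
          _ = t * (x₁ * x₂) := by rw [h12]
          _ = _ := by rw [mul_assoc]
      · intro e; exact t5 (by simpa using e)
      · intro e; exact t6 (mul_right_cancel e)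
      · intro e
        apply t7
        calc t = t * x₁ * x₁⁻¹ := by group
          _ = _ := by rw [e]
      · intro e
        apply t8
        calc t = t * x₁ * x₁⁻¹ := by group
          _ = z * x₂ * x₁⁻¹ := by rw [e]
          _ = _ := by rw [mul_assoc]
  exact ⟨x₁, x₂, x₃, h1, h2, h3, h12, h13, h23, noncentral_of hz n2x n2zx,
    noncentral_of hz a1 a2, noncentral_of hz a3 a4⟩

end

theorem griess (hQ : IsExtraspecial 2 Q) (hbig : 64 ≤ Nat.card Q) (L : Subgroup (MulAut Q)) :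
    ¬ (Inn Q).IsComplement' L := by
  intro hc
  obtain ⟨z, hz⟩ := exists_z2 hQ
  obtain ⟨x₁, x₂, x₃, h1, h2, h3, h12, h13, h23, n12, n13, n23⟩ := exists_triple hz hQ hbig
  exact no_four hz hc h1 h2 h3 h12 h13 h23 n12 n13 n23

end Cfsg.Agent.Lib.LGriess
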