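import Mathlib
import Cfsg.Prelude.Def_PLocal
import Cfsg.Agent.Lib.PMin4

set_option autoImplicit false
set_option linter.unusedSectionVars false
set_option linter.unusedVariables false
set_option linter.style.haveILetI false

/-!
# Minimal counterexamples to normal `p`-complement theorems, relative to a class of groups
-/

namespace Cfsg.Agent.Lib.LNpcC

open Subgroup Cfsg Cfsg.Agent.Lib.PQuad Cfsg.Agent.Lib.PNilp Cfsg.Agent.Lib.H1Core Cfsg.Agent.Lib.PQA Cfsg.Agent.Lib.PZJ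
open scoped commutatorElement

universe u

section Steps

variable {p : ℕ} [Fact p.Prime] {ι : Type}

variable {Q L : ι → ∀ (G : Type u) [Group G], Subgroup G → Subgroup G}

variable {G : Type u} [Group G] [Finite G]

variable {𝒞 : ∀ (X : Type u) [Group X], Prop}

/-- The induction hypothesis. -/
def IndHypC (𝒞 : ∀ (X : Type u) [Group X], Prop) (p : ℕ) [Fact p.Prime] (L : ι → ∀ (G : Type u) [Group G], Subgroup G → Subgroup G) (G : Type u) [Group G] : Prop :=
  ∀ (X : Type u) [Group X] [Finite X], Nat.card X < Nat.card G → 𝒞 X → ∀ S : Sylow p X,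
    (∀ i, HasNormalPComplement p ↥(L i X (S : Subgroup X))) → HasNormalPComplement p X

/-- Closure properties of the class of groups. -/
structure ClassC (𝒞 : ∀ (X : Type u) [Group X], Prop) : Prop where
  sub : ∀ (X : Type u) [Group X] (H : Subgroup X), 𝒞 X → 𝒞 ↥H
  quot : ∀ (X : Type u) [Group X] (N : Subgroup X) [N.Normal], 𝒞 X → 𝒞 (X ⧸ N)

theorem stepC_i (h𝒞 : ClassC 𝒞) (hG : 𝒞 G) (hL : LocalAxioms p Q L) (P : Sylow p G) (IH : IndHypC 𝒞 p L G)
    (hyp : ∀ i, HasNormalPComplement p ↥(L i G (P : Subgroup G))) (H : Subgroup G)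
    (hPH : (P : Subgroup G) ≤ H) (hne : H ≠ ⊤) : HasNormalPComplement p ↥H := by
  have hcard : Nat.card ↥H < Nat.card G := by
    have := card_lt_of_lt' (lt_top_iff_ne_top.2 hne)
    rwa [Subgroup.card_top] at this
  refine IH ↥H hcard (h𝒞.sub G H hG) (P.subtype hPH) (fun i => ?_)
  have h1 := hL.L_sub i G H ((P.subtype hPH : Sylow p ↥H) : Subgroup ↥H)
  have h2 : (((P.subtype hPH : Sylow p ↥H) : Subgroup ↥H)).map H.subtype = (P : Subgroup G) := by
    rw [P.coe_subtype hPH, subgroupOf_map_subtype]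
    exact inf_eq_left.2 hPH
  rw [h2] at h1
  exact npc_map_subtype_le H _ _ h1 (hyp i)

theorem stepC_ii (h𝒞 : ClassC 𝒞) (hG : 𝒞 G) (hL : LocalAxioms p Q L) (P : Sylow p G) (IH : IndHypC 𝒞 p L G)
    (hyp : ∀ i, HasNormalPComplement p ↥(L i G (P : Subgroup G))) (hnot : ¬ HasNormalPComplement p G) :
    pPrimeCore p G = ⊥ := by
  by_contra hO
  haveI hOn : (pPrimeCore p G).Normal := pPrimeCore_normal p G
  have hsurj := QuotientGroup.mk'_surjective (pPrimeCore p G)
  have hcard : Nat.card (G ⧸ pPrimeCore p G) < Nat.card G := by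
    have h1 := Subgroup.card_eq_card_quotient_mul_card_subgroup (pPrimeCore p G)
    have h2 : 1 < Nat.card (pPrimeCore p G) := by
      rw [Nat.one_lt_iff_ne_zero_and_ne_one]
      exact ⟨Nat.card_pos.ne', fun h => hO ((Subgroup.eq_bot_iff_card _).2 h)⟩
    have h3 : 0 < Nat.card (G ⧸ pPrimeCore p G) := Nat.card_pos
    rw [h1]
    nlinarith
  apply hnot
  refine npc_of_quot (pPrimeCore p G) (pPrimeCore_coprime p) (IH _ hcard (h𝒞.quot G _ hG) (P.mapSurjective hsurj) (fun i => ?_))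
  have h1 := hL.L_quot i G (P : Subgroup G) P.2
  have h2 : HasNormalPComplement p ↥((L i G (P : Subgroup G)).map (QuotientGroup.mk' (pPrimeCore p G))) :=
    npc_of_surjective _ (MonoidHom.subgroupMap_surjective _ _) (hyp i)
  exact npc_le _ _ h1 h2

theorem stepC_iii (h𝒞 : ClassC 𝒞) (hG : 𝒞 G) (hL : LocalAxioms p Q L) (P : Sylow p G) (IH : IndHypC 𝒞 p L G)
    (hyp : ∀ i, HasNormalPComplement p ↥(L i G (P : Subgroup G))) (hnot : ¬ HasNormalPComplement p G) :
    pCore p G ≠ ⊥ := by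
  classical
  have hi := stepC_i h𝒞 hG hL P IH hyp
  let 𝒳 : Set (Subgroup G) := {Q₀ | Q₀ ≤ (P : Subgroup G) ∧ Q₀ ≠ ⊥ ∧
    ¬ HasNormalPComplement p ↥(normalizer (Q₀ : Set G))}
  have hne𝒳 : 𝒳.Nonempty := by
    by_contra hemp
    apply hnot
    apply hasNormalPComplement_of_local
    intro Q₀ hQ₀ hne
    obtain ⟨S, hS⟩ := hQ₀.exists_le_sylow
    obtain ⟨y, hy⟩ := MulAction.exists_smul_eq G S P
    by_contra hQ
    apply hemp
    refine ⟨Q₀.map (MulAut.conj y).toMonoidHom, ?_, ?_, fun h => hQ (npc_normalizer_conj Q₀ y h)⟩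
    · rw [← hy, coe_smul_sylow]
      exact Subgroup.map_mono hS
    · intro h
      rw [Subgroup.map_eq_bot_iff_of_injective _ (MulAut.conj y).injective] at h
      exact hne h
  obtain ⟨Q₀, ⟨hQP, hQne, hQnpc⟩, hmax⟩ :=
    Set.exists_max_image 𝒳 (fun U => Nat.card ↥((P : Subgroup G) ⊓ normalizer (U : Set G))) (Set.toFinite 𝒳) hne𝒳
  set H := normalizer (Q₀ : Set G) with hH
  set Tg := (P : Subgroup G) ⊓ H with hTg
  let T' : Subgroup ↥H := (P : Subgroup G).comap H.subtype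
  have hT'map : T'.map H.subtype = Tg := by
    rw [Subgroup.map_comap_eq, range_subtype, inf_comm]
  have hT'p : IsPGroup p T' := IsPGroup.comap_subtype P.2
  have hQTg : Q₀ ≤ Tg := le_inf hQP le_normalizer
  have hTgne : Tg ≠ ⊥ := by
    intro h; apply hQne; rw [eq_bot_iff, ← h]; exact hQTg
  have hTgp : IsPGroup p Tg := P.2.to_le inf_le_left
  -- Claim 1: `T'` is Sylow in `H`
  have hsyl : ∃ R : Sylow p ↥H, (R : Subgroup ↥H) = T' := by
    by_contra hsyl
    obtain ⟨R, hR⟩ := hT'p.exists_le_sylow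
    have hlt : T' < (R : Subgroup ↥H) := by
      refine lt_of_le_of_ne hR ?_
      intro h
      exact hsyl ⟨R, h.symm⟩
    have hR₁p : IsPGroup p ((R : Subgroup ↥H).map H.subtype) := R.2.map _
    obtain ⟨S, hS⟩ := hR₁p.exists_le_sylow
    obtain ⟨y, hy⟩ := MulAction.exists_smul_eq G S P
    have hmapP : ((R : Subgroup ↥H).map H.subtype).map (MulAut.conj y).toMonoidHom ≤ (P : Subgroup G) := by
      rw [← hy, coe_smul_sylow]
      exact Subgroup.map_mono hS
    have hQR : Q₀ ≤ (R : Subgroup ↥H).map H.subtype := by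
      calc Q₀ ≤ Tg := hQTg
        _ = T'.map H.subtype := hT'map.symm
        _ ≤ _ := Subgroup.map_mono hlt.le
    have hQ'mem : Q₀.map (MulAut.conj y).toMonoidHom ∈ 𝒳 := by
      refine ⟨(Subgroup.map_mono hQR).trans hmapP, ?_, fun h => hQnpc (npc_normalizer_conj Q₀ y h)⟩
      intro h
      rw [Subgroup.map_eq_bot_iff_of_injective _ (MulAut.conj y).injective] at h
      exact hQne h
    have h1 := hmax _ hQ'mem
    have h2 : ((R : Subgroup ↥H).map H.subtype).map (MulAut.conj y).toMonoidHom ≤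
        (P : Subgroup G) ⊓ normalizer ((Q₀.map (MulAut.conj y).toMonoidHom : Subgroup G) : Set G) := by
      refine le_inf hmapP ?_
      rintro _ ⟨_, ⟨r, hr, rfl⟩, rfl⟩
      refine Cfsg.Agent.Lib.PGlaub.mem_normalizer_of_conj_mem ?_
      rintro _ ⟨q, hq, rfl⟩
      refine ⟨r * q * (r : G)⁻¹, (mem_normalizer_iff.1 r.2 q).1 hq, ?_⟩
      simp [mul_assoc]
    have h3 := Subgroup.card_le_of_le h2
    rw [Subgroup.card_map_of_injective (MulAut.conj y).injective, Subgroup.card_map_of_injective H.subtype_injective] at h3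
    have h4 : Nat.card Tg < Nat.card (R : Subgroup ↥H) := by
      rw [← hT'map, Subgroup.card_map_of_injective H.subtype_injective]
      exact card_lt_of_lt' hlt
    exact absurd h1 (not_le.2 (lt_of_lt_of_le h4 h3))
  obtain ⟨R, hR⟩ := hsyl
  -- Claim 2: `H = G`
  have htop : H = ⊤ := by
    by_contra htop
    have hcard : Nat.card ↥H < Nat.card G := by
      have := card_lt_of_lt' (lt_top_iff_ne_top.2 htop)
      rwa [Subgroup.card_top] at this
    have h1 : ¬ ∀ i, HasNormalPComplement p ↥(L i ↥H (R : Subgroup ↥H)) := fun h => hQnpc (IH ↥H hcard (h𝒞.sub G H hG) R h)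
    push Not at h1
    obtain ⟨i, hi'⟩ := h1
    rw [hR] at hi'
    have hQ₂ : Q i G Tg = (Q i ↥H T').map H.subtype := by
      rw [← hT'map]
      exact hL.Q_map i ↥H G H.subtype T' (fun x _ hx => Subtype.ext hx)
    have hQ₂mem : Q i G Tg ∈ 𝒳 := by
      refine ⟨(hL.Q_le i G Tg).trans inf_le_left, hL.Q_ne i G Tg hTgp hTgne, ?_⟩
      intro hnpc
      apply hi'
      refine npc_map_subtype_le H _ _ ?_ hnpc
      rw [hQ₂]
      rintro _ ⟨x, hx, rfl⟩
      refine Cfsg.Agent.Lib.PGlaub.mem_normalizer_of_conj_mem ?_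
      rintro _ ⟨k, hk, rfl⟩
      have := (mem_normalizer_iff.1 (hL.L_le i ↥H T' hx) k).1 hk
      exact ⟨_, this, rfl⟩
    by_cases hTP : Tg = (P : Subgroup G)
    · have hPH : (P : Subgroup G) ≤ H := by rw [← hTP]; exact inf_le_right
      exact hQnpc (hi H hPH htop)
    · have hlt : Tg < (P : Subgroup G) := lt_of_le_of_ne inf_le_left hTP
      obtain ⟨x, hxP, hxT, hxN⟩ := exists_normalizing_elt P.2 hlt
      have hN2 := hL.normalizer_le_Q i Tg
      have hlt2 : Tg < (P : Subgroup G) ⊓ normalizer ((Q i G Tg : Subgroup G) : Set G) := by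
        refine (SetLike.lt_iff_le_and_exists).2 ⟨le_inf inf_le_left (le_normalizer.trans hN2), x,
          mem_inf.2 ⟨hxP, hN2 hxN⟩, hxT⟩
      have h5 := hmax _ hQ₂mem
      exact absurd h5 (not_le.2 (card_lt_of_lt' hlt2))
  intro hD
  have hQnorm : Q₀.Normal := normalizer_eq_top_iff.1 htop
  have hle := le_pCore hQnorm (P.2.to_le hQP)
  rw [hD] at hle
  exact hQne (le_bot_iff.1 hle)

theorem stepC_iv (h𝒞 : ClassC 𝒞) (hG : 𝒞 G) (hL : LocalAxioms p Q L) (P : Sylow p G) (IH : IndHypC 𝒞 p L G)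
    (hyp : ∀ i, HasNormalPComplement p ↥(L i G (P : Subgroup G))) (hD : pCore p G ≠ ⊥) :
    HasNormalPComplement p (G ⧸ pCore p G) := by
  classical
  have hi := stepC_i h𝒞 hG hL P IH hyp
  haveI hDn : (pCore p G).Normal := pCore_normal p G
  have hsurj := QuotientGroup.mk'_surjective (pCore p G)
  have hcard : Nat.card (G ⧸ pCore p G) < Nat.card G := by
    have h1 := Subgroup.card_eq_card_quotient_mul_card_subgroup (pCore p G)
    have h2 : 1 < Nat.card (pCore p G) := by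
      rw [Nat.one_lt_iff_ne_zero_and_ne_one]
      exact ⟨Nat.card_pos.ne', fun h => hD ((Subgroup.eq_bot_iff_card _).2 h)⟩
    have h3 : 0 < Nat.card (G ⧸ pCore p G) := Nat.card_pos
    rw [h1]
    nlinarith
  let Pb : Sylow p (G ⧸ pCore p G) := P.mapSurjective hsurj
  by_cases hbar : (Pb : Subgroup (G ⧸ pCore p G)) = ⊥
  · exact npc_of_sylow_bot Pb hbar
  refine IH _ hcard (h𝒞.quot G _ hG) Pb (fun i => ?_)
  set Y := (L i (G ⧸ pCore p G) (Pb : Subgroup (G ⧸ pCore p G))).comap (QuotientGroup.mk' (pCore p G)) with hY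
  have hPY : (P : Subgroup G) ≤ Y := by
    intro x hx
    exact hL.T_le i _ _ Pb.2 (⟨x, hx, rfl⟩ : QuotientGroup.mk' (pCore p G) x ∈ (P : Subgroup G).map _)
  have hYne : Y ≠ ⊤ := by
    intro h
    apply hL.L_ne_top i _ (Pb : Subgroup (G ⧸ pCore p G)) Pb.2 hbar pCore_quot_self
    rw [eq_top_iff]
    intro y _
    obtain ⟨x, rfl⟩ := hsurj y
    have : x ∈ Y := by rw [h]; exact mem_top x
    exact this
  have hnpc := hi Y hPY hYne
  refine npc_of_surjective (MonoidHom.codRestrict ((QuotientGroup.mk' (pCore p G)).comp Y.subtype) _ (fun x => x.2)) ?_ hnpc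
  rintro ⟨y, hy⟩
  obtain ⟨x, rfl⟩ := hsurj y
  exact ⟨⟨x, hy⟩, rfl⟩


end Steps

section Structure

variable {p : ℕ} [Fact p.Prime] {G : Type u} [Group G] [Finite G]

/-- Step (v) of the minimal counterexample: `G` is stable and `O_p(G)` contains its centralizer. -/
theorem stepC_v (P : Sylow p G)
    (hi : ∀ H : Subgroup G, (P : Subgroup G) ≤ H → H ≠ ⊤ → HasNormalPComplement p ↥H)
    (hO : pPrimeCore p G = ⊥) (hbar : HasNormalPComplement p (G ⧸ pCore p G)) :
    centralizer (pCore p G : Set G) ≤ pCore p G ∧ ∃ K : Subgroup G, K.Normal ∧ pCore p G ≤ K ∧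
      (∀ x ∈ K, ∀ y ∈ K, ⁅x, y⁆ ∈ pCore p G) ∧ (∀ x ∈ K, ∃ m : ℕ, Nat.Coprime m p ∧ x ^ m ∈ pCore p G) ∧
      (∀ g : G, ∃ n : ℕ, g ^ (p ^ n) ∈ K) := by
  classical
  haveI hDn : (pCore p G).Normal := pCore_normal p G
  have hDp : IsPGroup p (pCore p G) := pCore_isPGroup p
  have hDP : pCore p G ≤ (P : Subgroup G) := pCore_le_sylow p P
  rw [hasNormalPComplement_iff] at hbar
  obtain ⟨Nb, hNbn, hNbc, hNbq⟩ := hbar
  haveI := hNbn
  have hsurj := QuotientGroup.mk'_surjective (pCore p G)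
  set π := QuotientGroup.mk' (pCore p G) with hπ
  have hker : ∀ x : G, π x = 1 ↔ x ∈ pCore p G := fun x => by
    rw [hπ, QuotientGroup.mk'_apply, QuotientGroup.eq_one_iff]
  let K : Subgroup G := Nb.comap π
  haveI hKn : K.Normal := Subgroup.Normal.comap hNbn π
  have hDK : pCore p G ≤ K := by
    intro x hx
    rw [mem_comap, (hker x).2 hx]
    exact one_mem _
  have hNbpow : ∀ y ∈ Nb, y ^ Nat.card Nb = 1 := fun y hy => by
    have := pow_card_eq_one' (x := (⟨y, hy⟩ : Nb))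
    exact congrArg Subtype.val this
  have hKp : ∀ x ∈ K, ∃ m : ℕ, Nat.Coprime m p ∧ x ^ m ∈ pCore p G := by
    intro x hx
    refine ⟨Nat.card Nb, hNbc, (hker _).1 ?_⟩
    rw [map_pow]
    exact hNbpow _ hx
  have hGK : ∀ g : G, ∃ n : ℕ, g ^ (p ^ n) ∈ K := by
    intro g
    obtain ⟨n, hn⟩ := (isPGroup_iff_pow_pow_eq_one.1 hNbq) (π g : (G ⧸ pCore p G) ⧸ Nb)
    refine ⟨n, ?_⟩
    rw [← QuotientGroup.mk_pow, QuotientGroup.eq_one_iff] at hn
    rw [mem_comap, map_pow]
    exact hn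
  -- `C_G(D) ≤ D`
  have hrel : (pCore p G).relIndex K = Nat.card Nb := by
    have h3 := Subgroup.relIndex_ker (K := K) π
    have h4 : K.map π = Nb := Subgroup.map_comap_eq_self_of_surjective hsurj _
    rw [h4, hπ, QuotientGroup.ker_mk'] at h3
    exact h3
  have hGKq : IsPGroup p (G ⧸ K) := by
    rw [isPGroup_iff_pow_pow_eq_one]
    intro y
    obtain ⟨g, rfl⟩ := QuotientGroup.mk_surjective y
    obtain ⟨n, hn⟩ := hGK g
    refine ⟨n, ?_⟩
    rw [← QuotientGroup.mk_pow, QuotientGroup.eq_one_iff]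
    exact hn
  have hsol : IsPSolvable p G := isPSolvable_of_series (pCore p G) K hDK hDp (by rw [hrel]; exact hNbc) hGKq
  have hc : centralizer (pCore p G : Set G) ≤ pCore p G :=
    Cfsg.Agent.Lib.PSolv.centralizer_le_of_isPSolvable hO (Cfsg.Agent.Lib.PSolv.isPSolvable_subgroup hsol _)
  refine ⟨hc, ?_⟩
  -- the image of `P`
  let Pb : Sylow p (G ⧸ pCore p G) := P.mapSurjective hsurj
  have hPbcoe : (Pb : Subgroup (G ⧸ pCore p G)) = (P : Subgroup G).map π := rfl
  have hinter : ∀ y ∈ (Pb : Subgroup (G ⧸ pCore p G)), y ∈ Nb → y = 1 := by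
    intro y hy hyN
    obtain ⟨k, hk⟩ := (isPGroup_iff_pow_pow_eq_one.1 Pb.2) ⟨y, hy⟩
    exact eq_one_of_pow_of_coprime hNbc (hNbpow y hyN) (congrArg Subtype.val hk)
  have hPbinf : ∀ Yb : Subgroup (G ⧸ pCore p G), Yb ≤ Nb → (Pb : Subgroup (G ⧸ pCore p G)) ⊓ Yb = ⊥ := by
    intro Yb hYb
    rw [eq_bot_iff]
    intro y hy
    exact mem_bot.2 (hinter y (mem_inf.1 hy).1 (hYb (mem_inf.1 hy).2))
  have hPbN : (Pb : Subgroup (G ⧸ pCore p G)) ≤ normalizer ((Nb : Subgroup _) : Set (G ⧸ pCore p G)) := by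
    rw [normalizer_eq_top_iff.2 hNbn]; exact le_top
  -- no proper invariant subgroup
  have hnoproper : ∀ Yb : Subgroup (G ⧸ pCore p G), Yb ≤ Nb →
      (Pb : Subgroup (G ⧸ pCore p G)) ≤ normalizer (Yb : Set (G ⧸ pCore p G)) → Yb ≠ Nb → Yb = ⊥ := by
    intro Yb hYbN hPYb hne
    let Y : Subgroup G := Yb.comap π
    let X : Subgroup G := Y ⊔ (P : Subgroup G)
    have hPX : (P : Subgroup G) ≤ X := le_sup_right
    have hXne : X ≠ ⊤ := by
      intro hX
      have h1 : Yb ⊔ (Pb : Subgroup (G ⧸ pCore p G)) = ⊤ := by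
        have h2 := congrArg (Subgroup.map π) hX
        rw [Subgroup.map_sup, Subgroup.map_comap_eq_self_of_surjective hsurj, ← MonoidHom.range_eq_map,
          MonoidHom.range_eq_top.2 hsurj] at h2
        exact h2
      have h3 := Cfsg.Agent.Lib.PQuad.card_sup_mul_inf_of_normalizes _ _ hPYb
      have h4 := Cfsg.Agent.Lib.PQuad.card_sup_mul_inf_of_normalizes _ _ hPbN
      rw [hPbinf Yb hYbN, sup_comm, h1] at h3
      rw [hPbinf Nb le_rfl, sup_eq_top_of_isPGroup_quotient Pb Nb hNbq] at h4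
      have h5 : Nat.card Pb * Nat.card Yb = Nat.card Pb * Nat.card Nb := by
        change _ = (Nat.card ↥(Pb : Subgroup (G ⧸ pCore p G))) * Nat.card Nb
        rw [← h3, ← h4]
      have h6 : Nat.card Yb = Nat.card Nb := Nat.eq_of_mul_eq_mul_left Nat.card_pos h5
      exact hne (Subgroup.eq_of_le_of_card_ge hYbN h6.ge)
    have hnpc := hi X hPX hXne
    rw [hasNormalPComplement_iff] at hnpc
    obtain ⟨X₀, hX₀n, hX₀c, hX₀q⟩ := hnpc
    haveI := hX₀n
    have hDX : pCore p G ≤ X := hDP.trans hPX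
    have hX₀pow : ∀ y ∈ X₀, y ^ Nat.card X₀ = 1 := fun y hy => by
      have := pow_card_eq_one' (x := (⟨y, hy⟩ : X₀))
      exact congrArg Subtype.val this
    have hcop1 : ∀ c ∈ X₀, ((c : ↥X) : G) ∈ pCore p G → c = 1 := by
      intro c hc1 hc2
      obtain ⟨k, hk⟩ := (isPGroup_iff_pow_pow_eq_one.1 hDp) ⟨c, hc2⟩
      have hk' : ((c : ↥X) : G) ^ (p ^ k) = 1 := congrArg Subtype.val hk
      exact eq_one_of_pow_of_coprime hX₀c (hX₀pow c hc1) (Subtype.ext hk')
    have hX₀bot : X₀ = ⊥ := by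
      rw [eq_bot_iff]
      intro x hx
      have hxC : ((x : ↥X) : G) ∈ centralizer (pCore p G : Set G) := by
        rw [mem_centralizer_iff]
        intro d hd
        have hd' : d ∈ X := hDX hd
        have h1 : x * (⟨d, hd'⟩ : ↥X) * x⁻¹ * (⟨d, hd'⟩ : ↥X)⁻¹ ∈ X₀ := by
          have := hX₀n.conj_mem _ (inv_mem hx) (⟨d, hd'⟩ : ↥X)
          have e : x * (⟨d, hd'⟩ : ↥X) * x⁻¹ * (⟨d, hd'⟩ : ↥X)⁻¹ =
              x * ((⟨d, hd'⟩ : ↥X) * x⁻¹ * (⟨d, hd'⟩ : ↥X)⁻¹) := by group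
          rw [e]
          exact mul_mem hx this
        have h2 : ((x * (⟨d, hd'⟩ : ↥X) * x⁻¹ * (⟨d, hd'⟩ : ↥X)⁻¹ : ↥X) : G) ∈ pCore p G := by
          have : ((x * (⟨d, hd'⟩ : ↥X) * x⁻¹ * (⟨d, hd'⟩ : ↥X)⁻¹ : ↥X) : G) =
              ((x : ↥X) : G) * d * ((x : ↥X) : G)⁻¹ * d⁻¹ := rfl
          rw [this]
          exact mul_mem (hDn.conj_mem d hd _) (inv_mem hd)
        have h3 := hcop1 _ h1 h2
        have h4 : ((x : ↥X) : G) * d * ((x : ↥X) : G)⁻¹ * d⁻¹ = 1 := congrArg Subtype.val h3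
        have h5 : ((x : ↥X) : G) * d * ((x : ↥X) : G)⁻¹ = d := mul_inv_eq_one.1 h4
        calc d * ((x : ↥X) : G) = (((x : ↥X) : G) * d * ((x : ↥X) : G)⁻¹) * ((x : ↥X) : G) := by rw [h5]
          _ = _ := by group
      exact mem_bot.2 (hcop1 x hx (hc hxC))
    have hXp : IsPGroup p ↥X := by
      rw [isPGroup_iff_pow_pow_eq_one]
      intro x
      obtain ⟨k, hk⟩ := (isPGroup_iff_pow_pow_eq_one.1 hX₀q) (x : ↥X ⧸ X₀)
      refine ⟨k, ?_⟩
      rw [← QuotientGroup.mk_pow, QuotientGroup.eq_one_iff, hX₀bot, mem_bot] at hk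
      exact hk
    rw [eq_bot_iff]
    intro y hy
    obtain ⟨x, rfl⟩ := hsurj y
    have hxX : x ∈ X := (le_sup_left : Y ≤ X) hy
    obtain ⟨k, hk⟩ := (isPGroup_iff_pow_pow_eq_one.1 hXp) ⟨x, hxX⟩
    have hk' : x ^ (p ^ k) = 1 := congrArg Subtype.val hk
    refine mem_bot.2 (eq_one_of_pow_of_coprime (k := k) hNbc (hNbpow _ (hYbN hy)) ?_)
    rw [← map_pow, hk', map_one]
  -- the complement is abelian
  have habelian : ∀ x ∈ Nb, ∀ y ∈ Nb, x * y = y * x := by
    by_cases hNbot : Nb = ⊥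
    · intro x hx y hy
      rw [hNbot, mem_bot] at hx hy
      rw [hx, hy]
    have hcard1 : Nat.card Nb ≠ 1 := fun h => hNbot ((Subgroup.eq_bot_iff_card _).2 h)
    obtain ⟨q, hq, hqd⟩ := Nat.exists_prime_and_dvd hcard1
    haveI : Fact q.Prime := ⟨hq⟩
    have hcop : (Nat.card (Pb : Subgroup (G ⧸ pCore p G))).Coprime (Nat.card Nb) := by
      obtain ⟨k, hk⟩ := IsPGroup.iff_card.1 Pb.2
      rw [hk]
      exact Nat.Coprime.pow_left k hNbc.symm
    haveI : Group.IsNilpotent ↥(Pb : Subgroup (G ⧸ pCore p G)) := Pb.2.isNilpotent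
    obtain ⟨R, ⟨hRN, hRq, hRi⟩, hPR⟩ := Cfsg.Agent.Lib.H1Cop.exists_invariant_sylow hPbN hcop
      (Or.inl inferInstance) q
    have hRne : R ≠ ⊥ := by
      rintro rfl
      apply hRi
      rw [Subgroup.relIndex_bot_left]
      exact hqd
    have hReq : R = Nb := by
      by_contra h
      exact hRne (hnoproper R hRN hPR h)
    have hNq : IsPGroup q Nb := by rw [← hReq]; exact hRq
    haveI hNnt : Nontrivial ↥Nb := (Subgroup.nontrivial_iff_ne_bot Nb).2 hNbot
    have hcen : Nontrivial (center ↥Nb) := hNq.center_nontrivial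
    obtain ⟨z, hz⟩ := exists_ne (1 : center ↥Nb)
    let Zb : Subgroup (G ⧸ pCore p G) := Nb ⊓ centralizer (Nb : Set (G ⧸ pCore p G))
    haveI : (centralizer (Nb : Set (G ⧸ pCore p G))).Normal := Subgroup.normal_centralizer
    have hZbn : Zb.Normal := inferInstance
    have hZbne : Zb ≠ ⊥ := by
      intro hb
      apply hz
      have h1 : ((z : ↥Nb) : G ⧸ pCore p G) ∈ Zb := by
        refine mem_inf.2 ⟨(z : ↥Nb).2, ?_⟩
        rw [mem_centralizer_iff]
        intro j hj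
        have := (mem_center_iff.1 z.2) ⟨j, hj⟩
        exact congrArg Subtype.val this
      rw [hb, mem_bot] at h1
      exact Subtype.ext (Subtype.ext h1)
    have hZbeq : Zb = Nb := by
      by_contra h
      refine hZbne (hnoproper Zb inf_le_left ?_ h)
      rw [normalizer_eq_top_iff.2 hZbn]; exact le_top
    intro x hx y hy
    have hy' : y ∈ Zb := by rw [hZbeq]; exact hy
    exact ((mem_centralizer_iff.1 (mem_inf.1 hy').2) x hx).symm ▸ rfl
  have hab : ∀ x ∈ K, ∀ y ∈ K, ⁅x, y⁆ ∈ pCore p G := by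
    intro x hx y hy
    apply (hker _).1
    rw [map_commutatorElement, commutatorElement_eq_one_iff_mul_comm]
    exact habelian _ hx _ hy
  exact ⟨K, hKn, hDK, hab, hKp, hGK⟩


end Structure

section Main

variable {p : ℕ} [Fact p.Prime] {ι : Type}
variable {Q L : ι → ∀ (G : Type u) [Group G], Subgroup G → Subgroup G}
variable {𝒞 : ∀ (X : Type u) [Group X], Prop}

/-- **The general normal `p`-complement theorem** via local functors, relative to a class. -/
theorem npc_main_C (h𝒞 : ClassC 𝒞) (hL : LocalAxioms p Q L)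
    (F : ∀ (G : Type u) [Group G] [Finite G] (P : Sylow p G), 𝒞 G → pPrimeCore p G = ⊥ →
      centralizer (pCore p G : Set G) ≤ pCore p G →
      (∃ K : Subgroup G, K.Normal ∧ pCore p G ≤ K ∧
      (∀ x ∈ K, ∀ y ∈ K, ⁅x, y⁆ ∈ pCore p G) ∧ (∀ x ∈ K, ∃ m : ℕ, Nat.Coprime m p ∧ x ^ m ∈ pCore p G) ∧
      (∀ g : G, ∃ n : ℕ, g ^ (p ^ n) ∈ K)) →
      (∀ i, HasNormalPComplement p ↥(L i G (P : Subgroup G))) → HasNormalPComplement p G) :
    ∀ (G : Type u) [Group G] [Finite G] (P : Sylow p G), 𝒞 G →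
      (∀ i, HasNormalPComplement p ↥(L i G (P : Subgroup G))) → HasNormalPComplement p G := by
  have key : ∀ n : ℕ, ∀ (G : Type u) [Group G] [Finite G], Nat.card G = n → ∀ (P : Sylow p G), 𝒞 G →
      (∀ i, HasNormalPComplement p ↥(L i G (P : Subgroup G))) → HasNormalPComplement p G := by
    intro n
    induction n using Nat.strong_induction_on with
    | _ n ih =>
      intro G _ _ hG P hGC hyp
      by_contra hnot
      have IH : IndHypC 𝒞 p L G := by
        intro X _ _ hX hXC S hS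
        exact ih (Nat.card X) (by rw [← hG]; exact hX) X rfl S hXC hS
      have hi := stepC_i h𝒞 hGC hL P IH hyp
      have hO := stepC_ii h𝒞 hGC hL P IH hyp hnot
      have hD := stepC_iii h𝒞 hGC hL P IH hyp hnot
      have hbar := stepC_iv h𝒞 hGC hL P IH hyp hD
      obtain ⟨hc, hst⟩ := stepC_v P hi hO hbar
      exact hnot (F G P hGC hO hc hst hyp)
  exact fun G _ _ P hGC hyp => key _ G rfl P hGC hyp

end Main

end Cfsg.Agent.Lib.LNpcC
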