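import Mathlib
import Cfsg.Agent.Lib.LNpcC1
import Cfsg.Agent.Lib.LOff3

/-! Thompson's normal `p`-complement theorem with the abelian Thompson subgroup, for `S₄`-free groups at `p = 2`. -/

set_option autoImplicit false
set_option linter.unusedSectionVars false
set_option linter.unusedVariables false
set_option linter.style.haveILetI false

namespace Cfsg.Agent.Lib.LNpcC

open Subgroup Cfsg Cfsg.Agent.Lib.PQuad Cfsg.Agent.Lib.PNilp Cfsg.Agent.Lib.H1Core Cfsg.Agent.Lib.PQA Cfsg.Agent.Lib.PZJ
open scoped commutatorElement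

universe u

section Rep

variable {p : ℕ} [Fact p.Prime] {G : Type u} [Group G] [Finite G]

/-- Replacement by an abelian normal subgroup, any prime. -/
theorem replacement_ab (P : Subgroup G) (hP : IsPGroup p P) (B₁ : Subgroup G) (hB₁P : B₁ ≤ P)
    (hn : P ≤ normalizer (B₁ : Set G)) (hB₁ : IsMulCommutative B₁) (A : Subgroup G) (hAP : A ≤ P) (hA : IsMulCommutative A)
    (hnot : ¬ B₁ ≤ normalizer (A : Set G)) :
    ∃ A' : Subgroup G, A' ≤ P ∧ Nat.card A' = Nat.card A ∧ IsMulCommutative A' ∧ A ⊓ B₁ < A' ⊓ B₁ ∧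
      A' ≤ normalizer (A : Set G) := by
  classical
  set A₀ : Subgroup P := A.comap P.subtype with hA₀
  set B₀ : Subgroup P := B₁.comap P.subtype with hB₀
  haveI hB₀n : B₀.Normal := (Subgroup.normal_subgroupOf_iff_le_normalizer hB₁P).2 hn
  have hA₀ab : IsMulCommutative A₀ := isMulComm_comap hA _ P.subtype_injective
  have hB₀ab : IsMulCommutative B₀ := isMulComm_comap hB₁ _ P.subtype_injective
  have hBA₀ : ⁅B₀, B₀⁆ ≤ A₀ := by
    refine le_trans ?_ (bot_le : (⊥ : Subgroup P) ≤ A₀)
    rw [commutator_le]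
    intro x hx y hy
    rw [mem_bot, commutatorElement_eq_one_iff_mul_comm]
    exact comm_of_isMulComm hB₀ab hx hy
  have hnot₀ : ¬ B₀ ≤ normalizer (A₀ : Set P) := by
    intro h
    apply hnot
    intro b hb
    refine Cfsg.Agent.Lib.PGlaub.mem_normalizer_of_conj_mem (fun k hk => ?_)
    have h1 : (⟨b, hB₁P hb⟩ : P) ∈ normalizer (A₀ : Set P) := h hb
    have h2 : (⟨k, hAP hk⟩ : P) ∈ A₀ := hk
    have h3 := (mem_normalizer_iff.1 h1 _).1 h2
    exact h3
  obtain ⟨b, hb, hbN, hbA⟩ := exists_b hP B₀ A₀ hnot₀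
  obtain ⟨h1, h2, -, h4, -, -, h6, -, -, -⟩ :=
    Cfsg.Agent.Lib.PGlaub.glauberman_replacement hP B₀ (fun _ => hB₀ab) A₀ hA₀ab hBA₀ hnot₀ b hb hbN hbA
  set A₁ := Cfsg.Agent.Lib.PGlaub.Astar A₀ b with hA₁
  have hcard : ∀ V : Subgroup P, Nat.card ↥(V.map P.subtype) = Nat.card V := card_map_subtype P
  refine ⟨A₁.map P.subtype, map_subtype_le _, ?_, isMulComm_map ‹_› _, ?_, ?_⟩
  · rw [hcard, h1, hA₀, card_comap_subtype P A hAP]
  · obtain ⟨hle, y, hy, hyn⟩ := (SetLike.lt_iff_le_and_exists).1 h4
    refine (SetLike.lt_iff_le_and_exists).2 ⟨?_, (y : G), ?_, ?_⟩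
    · intro x hx
      obtain ⟨hx1, hx2⟩ := mem_inf.1 hx
      have h5 : (⟨x, hAP hx1⟩ : P) ∈ A₀ ⊓ B₀ := mem_inf.2 ⟨hx1, hx2⟩
      have h7 := hle h5
      exact mem_inf.2 ⟨⟨_, (mem_inf.1 h7).1, rfl⟩, hx2⟩
    · exact mem_inf.2 ⟨⟨_, (mem_inf.1 hy).1, rfl⟩, (mem_inf.1 hy).2⟩
    · intro h
      exact hyn (mem_inf.2 ⟨(mem_inf.1 h).1, (mem_inf.1 hy).2⟩)
  · rintro _ ⟨x, hx, rfl⟩
    refine Cfsg.Agent.Lib.PGlaub.mem_normalizer_of_conj_mem (fun k hk => ?_)
    have h1 : x ∈ normalizer (A₀ : Set P) := h6 hx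
    have h2 : (⟨k, hAP hk⟩ : P) ∈ A₀ := hk
    have h3 := (mem_normalizer_iff.1 h1 _).1 h2
    exact h3

/-- Passage to `Ω₁` for an abelian normal `2`-subgroup. -/
theorem offender_main (P : Sylow 2 G) [Fact (Nat.Prime 2)] (B : Subgroup G) [hBn : B.Normal]
    (hBab : ∀ x ∈ B, ∀ y ∈ B, x * y = y * x) (hBP : B ≤ (P : Subgroup G))
    (hred : ∀ R : Subgroup G, R.Normal → R ≤ (P : Subgroup G) ⊔ centralizer (B : Set G) → R ≤ centralizer (B : Set G))
    (K : Subgroup G) [hKn : K.Normal] (hKab : ∀ x ∈ K, ∀ y ∈ K, ⁅x, y⁆ ∈ centralizer (B : Set G))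
    (hKodd : ∀ x ∈ K, ∃ m : ℕ, Nat.Coprime m 2 ∧ x ^ m ∈ centralizer (B : Set G)) (hPK : (P : Subgroup G) ⊔ K = ⊤)
    (A : Subgroup G) (hA : A ∈ FamA (P : Subgroup G)) (hAB : B ≤ normalizer (A : Set G))
    (hnot : ¬ A ≤ centralizer (B : Set G)) :
    Cfsg.Involves (Equiv.Perm (Fin 4)) G := by
  classical
  let V : Subgroup G :=
    { carrier := {v | v ∈ B ∧ v * v = 1}
      one_mem' := ⟨one_mem _, by simp⟩
      mul_mem' := by
        rintro v w ⟨hv, hv'⟩ ⟨hw, hw'⟩
        refine ⟨mul_mem hv hw, ?_⟩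
        have e : v * w * (v * w) = v * (w * v) * w := by group
        rw [e, hBab w hw v hv]
        have e2 : v * (v * w) * w = (v * v) * (w * w) := by group
        rw [e2, hv', hw', one_mul]
      inv_mem' := by
        rintro v ⟨hv, hv'⟩
        refine ⟨inv_mem hv, ?_⟩
        rw [← mul_inv_rev, hv', inv_one] }
  haveI hVn : V.Normal := by
    refine ⟨?_⟩
    rintro v ⟨hv, hv'⟩ g
    refine ⟨hBn.conj_mem v hv g, ?_⟩
    have e : g * v * g⁻¹ * (g * v * g⁻¹) = g * (v * v) * g⁻¹ := by group
    rw [e, hv']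
    group
  have hVB : V ≤ B := fun v hv => hv.1
  -- centralizers agree
  have hodd : ∀ y : G, y ∈ centralizer (V : Set G) → ∀ m : ℕ, Nat.Coprime m 2 → y ^ m = 1 →
      y ∈ centralizer (B : Set G) := by
    intro y hy m hm hym
    have hkey : ∀ e : ℕ, ∀ v ∈ B, v ^ (2 ^ e) = 1 → y * v * y⁻¹ = v := by
      intro e
      induction e with
      | zero =>
        intro v hv hv1
        have : v = 1 := by simpa using hv1
        rw [this]
        group
      | succ e ih =>
        intro v hv hv1
        have h2 : y * (v * v) * y⁻¹ = v * v := by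
          apply ih _ (mul_mem hv hv)
          rw [← pow_two, ← pow_mul, ← pow_succ', hv1]
        set s := y * v * y⁻¹ * v⁻¹ with hs
        have hyv : y * v * y⁻¹ ∈ B := hBn.conj_mem v hv y
        have hsB : s ∈ B := mul_mem hyv (inv_mem hv)
        have hs2 : s * s = 1 := by
          have e1 : s * s = (y * v * y⁻¹) * (v⁻¹ * (y * v * y⁻¹)) * v⁻¹ := by rw [hs]; group
          rw [e1, hBab _ (inv_mem hv) _ hyv]
          have e2 : y * v * y⁻¹ * (y * v * y⁻¹ * v⁻¹) * v⁻¹ = (y * (v * v) * y⁻¹) * (v⁻¹ * v⁻¹) := by group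
          rw [e2, h2]
          group
        have hsV : s ∈ V := ⟨hsB, hs2⟩
        have hys : y * s * y⁻¹ = s := by
          have := (mem_centralizer_iff.1 hy) s hsV
          rw [← this]
          group
        have hyv' : y * v * y⁻¹ = s * v := by rw [hs]; group
        have hpow : ∀ k : ℕ, y ^ k * v * (y ^ k)⁻¹ = s ^ k * v := by
          intro k
          induction k with
          | zero => simp
          | succ k ih2 =>
            have e : y ^ (k + 1) * v * (y ^ (k + 1))⁻¹ = y * (y ^ k * v * (y ^ k)⁻¹) * y⁻¹ := by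
              rw [pow_succ']
              group
            rw [e, ih2]
            have e2 : y * (s ^ k * v) * y⁻¹ = (y * s * y⁻¹) ^ k * (y * v * y⁻¹) := by
              rw [conj_pow]
              group
            rw [e2, hys, hyv', pow_succ]
            group
        have h3 := hpow m
        rw [hym] at h3
        have h4 : s ^ m = 1 := by
          have : 1 * v * (1 : G)⁻¹ = v := by group
          rw [this] at h3
          exact mul_eq_right.1 h3.symm
        have h5 : s ^ 2 = 1 := by rw [pow_two]; exact hs2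
        have h6 := Nat.dvd_gcd (orderOf_dvd_of_pow_eq_one h4) (orderOf_dvd_of_pow_eq_one h5)
        rw [hm] at h6
        have h7 : s = 1 := orderOf_eq_one_iff.1 (Nat.dvd_one.1 h6)
        exact mul_inv_eq_one.1 h7
    rw [mem_centralizer_iff]
    intro v hv
    obtain ⟨e, he⟩ := (isPGroup_iff_pow_pow_eq_one.1 (P.2.to_le hBP)) ⟨v, hv⟩
    have he' : v ^ (2 ^ e) = 1 := congrArg Subtype.val he
    have h1 := hkey e v hv he'
    calc v * y = (y * v * y⁻¹) * y := by rw [h1]
      _ = _ := by group
  have hCeq : centralizer (V : Set G) = centralizer (B : Set G) := by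
    apply le_antisymm
    · haveI hCBn : (centralizer (B : Set G)).Normal := Subgroup.normal_centralizer
      haveI hCVn : (centralizer (V : Set G)).Normal := Subgroup.normal_centralizer
      apply hred _ hCVn
      -- image in the quotient is a normal `2`-subgroup
      set π := QuotientGroup.mk' (centralizer (B : Set G)) with hπ
      have hsurj := QuotientGroup.mk'_surjective (centralizer (B : Set G))
      let Rb : Subgroup (G ⧸ centralizer (B : Set G)) := (centralizer (V : Set G)).map π
      haveI hRbn : Rb.Normal := Subgroup.Normal.map hCVn π hsurj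
      have hRbp : IsPGroup 2 Rb := by
        rw [isPGroup_iff_pow_pow_eq_one]
        rintro ⟨_, r, hr, rfl⟩
        obtain ⟨k, m, hm, hord⟩ := Nat.exists_eq_two_pow_mul_odd (n := orderOf r) (orderOf_pos r).ne'
        refine ⟨k, Subtype.ext ?_⟩
        have h1 : (r ^ (2 ^ k)) ^ m = 1 := by rw [← pow_mul, ← hord, pow_orderOf_eq_one]
        have h2 := hodd _ (pow_mem hr _) m (Nat.Coprime.symm (Nat.coprime_two_left.2 hm)) h1
        show π r ^ (2 ^ k) = 1
        rw [← map_pow, hπ, QuotientGroup.mk'_apply, QuotientGroup.eq_one_iff]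
        exact h2
      let Pb : Sylow 2 (G ⧸ centralizer (B : Set G)) := P.mapSurjective hsurj
      have hRP : Rb ≤ (Pb : Subgroup _) := hRbp.le_sylow_of_normal Pb
      intro r hr
      have h1 : π r ∈ (P : Subgroup G).map π := hRP ⟨r, hr, rfl⟩
      obtain ⟨t, ht, hte⟩ := h1
      have h2 : t⁻¹ * r ∈ centralizer (B : Set G) := by
        rw [← QuotientGroup.eq_one_iff (N := centralizer (B : Set G)), QuotientGroup.mk_mul, QuotientGroup.mk_inv]
        have h3 : ((t : G) : G ⧸ centralizer (B : Set G)) = π r := hte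
        rw [h3]
        exact inv_mul_cancel _
      have e : r = t * (t⁻¹ * r) := by group
      rw [e]
      exact mul_mem_sup ht h2
    · exact centralizer_le hVB
  have hPK' := hPK
  rw [← hCeq] at hred hKab hKodd hnot
  exact Cfsg.Agent.Lib.LOff.offender_elem (P : Subgroup G) P.2 V
    (fun v hv w hw => hBab v hv.1 w hw.1) (fun v hv => hv.2) (hVB.trans hBP) hred K hKab hKodd hPK A hA
    (hVB.trans hAB) hnot

end Rep

section Thompson

variable {p : ℕ} [Fact p.Prime]

/-- The two local functors of Thompson's theorem. -/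
def thAQ : Bool → ∀ (G : Type u) [Group G], Subgroup G → Subgroup G
  | true, _, _, T => thompsonSubgroupAOf T
  | false, G, _, T => T ⊓ centralizer (T : Set G)

def thAL : Bool → ∀ (G : Type u) [Group G], Subgroup G → Subgroup G
  | true, _, _, T => normalizer ((thompsonSubgroupAOf T : Subgroup _) : Set _)
  | false, G, _, T => centralizer (((T ⊓ centralizer (T : Set G) : Subgroup G)) : Set G)

theorem thompsonAOf_ne_bot {G : Type u} [Group G] [Finite G] {T : Subgroup G} (hT : IsPGroup p T) (hne : T ≠ ⊥) :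
    thompsonSubgroupAOf T ≠ ⊥ := by
  intro h
  have h1 := centerThompsonAOf_ne_bot hT hne
  apply h1
  rw [centerThompsonAOf, h, bot_inf_eq]

theorem thA_axioms : LocalAxioms p (thAQ.{u}) (thAL.{u}) := by
  have hA := localAxioms_normalizer (p := p) (ι := Unit) (Q := fun _ G _ T => thompsonSubgroupAOf T)
    (fun _ G _ T => map_subtype_le _)
    (fun _ G H _ _ f T h => thompsonAOf_map f T h)
    (fun _ G _ _ T hT hne => thompsonAOf_ne_bot hT hne)
  refine ⟨?_, ?_, ?_, ?_, ?_, ?_, ?_, ?_⟩
  · rintro (_ | _) G _ T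
    · exact inf_le_left
    · exact map_subtype_le _
  · rintro (_ | _) G H _ _ f T hf
    · exact inf_centralizer_map f T hf
    · exact thompsonAOf_map f T hf
  · rintro (_ | _) G _ _ T hT hne
    · exact center_ne_bot hT hne
    · exact thompsonAOf_ne_bot hT hne
  · rintro (_ | _) G _ T
    · exact centralizer_le_normalizer _
    · exact le_rfl
  · rintro (_ | _) G _ _ T hT
    · intro t ht
      show t ∈ centralizer _
      rw [mem_centralizer_iff]
      intro z hz
      exact (mem_centralizer_iff.1 (mem_inf.1 hz).2) t ht |>.symm ▸ rfl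
    · exact hA.T_le () G T hT
  · rintro (_ | _) G _ _ H T
    · rintro _ ⟨x, hx, rfl⟩
      show _ ∈ centralizer _
      rw [mem_centralizer_iff]
      have h1 := inf_centralizer_map H.subtype T (fun x _ h => Subtype.ext h)
      rintro z hz
      rw [SetLike.mem_coe, h1] at hz
      obtain ⟨z', hz', rfl⟩ := hz
      have := (mem_centralizer_iff.1 hx) z' hz'
      exact congrArg Subtype.val this
    · exact hA.L_sub () G H T
  · rintro (_ | _) G _ _ T hT
    · intro y hy
      haveI hOn : (pPrimeCore p G).Normal := pPrimeCore_normal p G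
      have hsurj := QuotientGroup.mk'_surjective (pPrimeCore p G)
      have hinj : ∀ x ∈ T, QuotientGroup.mk' (pPrimeCore p G) x = 1 → x = 1 := by
        intro x hx h1
        have hxO : x ∈ pPrimeCore p G := by
          rwa [QuotientGroup.mk'_apply, QuotientGroup.eq_one_iff] at h1
        exact Cfsg.Agent.Lib.PJ.eq_one_of_mem_pPrimeCore hT hx hxO
      have hmap := inf_centralizer_map (QuotientGroup.mk' (pPrimeCore p G)) T hinj
      obtain ⟨g, rfl⟩ := hsurj y
      have hZp : IsPGroup p ↥(T ⊓ centralizer (T : Set G)) := hT.to_le inf_le_left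
      have hy' : (QuotientGroup.mk' (pPrimeCore p G)) g ∈ centralizer
          (((T.map (QuotientGroup.mk' (pPrimeCore p G))) ⊓ centralizer (((T.map (QuotientGroup.mk' (pPrimeCore p G))) : Subgroup _) : Set _) : Subgroup _) : Set _) := hy
      obtain ⟨o, ho, c, hc, rfl⟩ := Cfsg.Agent.Lib.PJ.exists_mul_centralizer (p := p) _ hZp g (by
        intro x hx
        apply (QuotientGroup.eq_one_iff _).1
        have h1 := (mem_centralizer_iff.1 hy') (QuotientGroup.mk' (pPrimeCore p G) x) (by
          rw [SetLike.mem_coe, hmap]; exact ⟨x, hx, rfl⟩)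
        change QuotientGroup.mk' (pPrimeCore p G) (g * x * g⁻¹ * x⁻¹) = 1
        rw [map_mul, map_mul, map_mul, map_inv, map_inv, ← h1]
        group)
      refine ⟨c, hc, ?_⟩
      rw [map_mul]
      have h6 : QuotientGroup.mk' (pPrimeCore p G) o = 1 := by
        rw [QuotientGroup.mk'_apply, QuotientGroup.eq_one_iff]; exact ho
      rw [h6, one_mul]
    · exact hA.L_quot () G T hT
  · rintro (_ | _) G _ _ T hT hne hD htop
    · have h1 : (T ⊓ centralizer (T : Set G)).Normal := by
        refine ⟨fun z hz g => ?_⟩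
        have hg : g ∈ centralizer (((T ⊓ centralizer (T : Set G) : Subgroup G)) : Set G) := by
          have := htop
          change centralizer _ = ⊤ at this
          rw [this]; exact mem_top g
        have h2 := (mem_centralizer_iff.1 hg) z hz
        rw [← h2]
        group
        exact hz
      have h2 := le_pCore h1 (hT.to_le inf_le_left)
      rw [hD, le_bot_iff] at h2
      exact center_ne_bot hT hne h2
    · exact hA.L_ne_top () G T hT hne hD htop


/-- The final step. -/
theorem final_F {G : Type u} [Group G] [Finite G] (P : Sylow p G)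
    (hS : p ≠ 2 ∨ ¬ Cfsg.Involves (Equiv.Perm (Fin 4)) G)
    (hO : pPrimeCore p G = ⊥) (hc : centralizer (pCore p G : Set G) ≤ pCore p G)
    (hK : ∃ K : Subgroup G, K.Normal ∧ pCore p G ≤ K ∧
      (∀ x ∈ K, ∀ y ∈ K, ⁅x, y⁆ ∈ pCore p G) ∧ (∀ x ∈ K, ∃ m : ℕ, Nat.Coprime m p ∧ x ^ m ∈ pCore p G) ∧
      (∀ g : G, ∃ n : ℕ, g ^ (p ^ n) ∈ K))
    (hN' : HasNormalPComplement p ↥(normalizer (thompsonSubgroupAOf (P : Subgroup G) : Set G)))
    (hC' : HasNormalPComplement p ↥(centralizer (((P : Subgroup G) ⊓ centralizer ((P : Subgroup G) : Set G) : Subgroup G) : Set G))) :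
    HasNormalPComplement p G := by
  classical
  haveI hDn : (pCore p G).Normal := pCore_normal p G
  have hDP := pCore_le_sylow p P
  set W := (P : Subgroup G) ⊓ centralizer ((P : Subgroup G) : Set G) with hW
  have hWP : W ≤ (P : Subgroup G) ⊓ centralizer ((P : Subgroup G) : Set G) := le_rfl
  have hWD : W ≤ pCore p G := by
    intro w hw
    apply hc
    rw [mem_centralizer_iff]
    intro d hd
    exact (mem_centralizer_iff.1 (mem_inf.1 (hWP hw)).2) d (hDP hd)
  have hWC : W ≤ centralizer (pCore p G : Set G) := by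
    intro w hw
    rw [mem_centralizer_iff]
    intro d hd
    exact (mem_centralizer_iff.1 (mem_inf.1 (hWP hw)).2) d (hDP hd)
  haveI hCn : (centralizer (pCore p G : Set G)).Normal := Subgroup.normal_centralizer
  set B : Subgroup G := normalClosure (W : Set G) with hB
  haveI hBn : B.Normal := normalClosure_normal
  have hBD : B ≤ pCore p G := normalClosure_le_normal hWD
  have hBC : B ≤ centralizer (pCore p G : Set G) := normalClosure_le_normal hWC
  have hBab : ∀ x ∈ B, ∀ y ∈ B, x * y = y * x := fun x hx y hy =>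
    ((mem_centralizer_iff.1 (hBC hx)) y (hBD hy)).symm
  have hBp : IsPGroup p B := (pCore_isPGroup p).to_le hBD
  have hBab' : IsMulCommutative B := isMulComm_of_forall hBab
  have hF := fun (A : Subgroup G) (hA : A ∈ FamA (P : Subgroup G)) => hA.1
  have hWc : ∀ A ∈ FamA (P : Subgroup G), W ≤ centralizer (A : Set G) := by
    intro A hA w hw
    exact centralizer_le (show (A : Set G) ⊆ (P : Subgroup G) from hA.1) (mem_inf.1 (hWP hw)).2
  have hrep : ∀ A ∈ FamA (P : Subgroup G), ¬ B ≤ normalizer (A : Set G) →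
      ∃ A' ∈ FamA (P : Subgroup G), A ⊓ B < A' ⊓ B ∧ A' ≤ normalizer (A : Set G) := by
    intro A hA hnot
    obtain ⟨A', h1, h2, h3, h4, h5⟩ := replacement_ab (P : Subgroup G) P.2 B (hBD.trans hDP)
      (by rw [normalizer_eq_top_iff.2 hBn]; exact le_top) hBab' A hA.1 hA.2.1 hnot
    refine ⟨A', ⟨h1, h3, fun U hU hUa => ?_⟩, h4, h5⟩
    rw [h2]
    exact hA.2.2 U hU hUa
  have hresC : ∀ x ∈ centralizer (B : Set G), Nat.Coprime (orderOf x) p → x ∈ centralizer (W : Set G) :=
    fun x hx hxc => centralizer_le (show (W : Set G) ⊆ B from subset_normalClosure) hx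
  haveI hCBn : (centralizer (B : Set G)).Normal := Subgroup.normal_centralizer
  have hall : ∀ A ∈ FamA (P : Subgroup G), B ≤ centralizer (A : Set G) := by
    obtain ⟨K, hKn, hDK, hab, hKp, hGK⟩ := hK
    haveI := hKn
    by_cases hp : p = 2
    · have hSf : ¬ Cfsg.Involves (Equiv.Perm (Fin 4)) G := hS.resolve_left (fun h => h hp)
      -- `R` normal in `P C(B)` centralizes `B`
      have hred : ∀ R : Subgroup G, R.Normal → R ≤ (P : Subgroup G) ⊔ centralizer (B : Set G) → R ≤ centralizer (B : Set G) := by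
        intro R hRn hR r hr
        have hB' : B ≤ centralizer ({r} : Set G) := by
          rw [hB, normalClosure, closure_le]
          intro z hz
          obtain ⟨w, hw, hwz⟩ := Group.mem_conjugatesOfSet_iff.1 hz
          obtain ⟨g, rfl⟩ := isConj_iff.1 hwz
          rw [SetLike.mem_coe, mem_centralizer_iff]
          intro y hy
          have hy' : y = r := hy
          subst hy'
          have hr' : g⁻¹ * y * g ∈ (P : Subgroup G) ⊔ centralizer (B : Set G) := by
            apply hR
            have := hRn.conj_mem y hr g⁻¹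
            simpa using this
          obtain ⟨t, ht, c, hc', hte⟩ := Subgroup.mem_sup_of_normal_right.1 hr'
          have hwB : w ∈ B := subset_normalClosure hw
          have h1 : t * w = w * t := (mem_centralizer_iff.1 (mem_inf.1 (hWP hw)).2) t ht
          have h2 : w * c = c * w := (mem_centralizer_iff.1 hc') w hwB
          have h3 : (g⁻¹ * y * g) * w = w * (g⁻¹ * y * g) := by
            rw [← hte, mul_assoc, ← h2, ← mul_assoc, h1, mul_assoc]
          calc y * (g * w * g⁻¹) = g * ((g⁻¹ * y * g) * w) * g⁻¹ := by group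
            _ = g * (w * (g⁻¹ * y * g)) * g⁻¹ := by rw [h3]
            _ = _ := by group
        rw [mem_centralizer_iff]
        intro z hz
        exact ((mem_centralizer_iff.1 (hB' hz)) r rfl).symm ▸ rfl
      have hDC : pCore p G ≤ centralizer (B : Set G) :=
        hred _ hDn (hDP.trans le_sup_left)
      have hq : IsPGroup p (G ⧸ K) := by
        rw [isPGroup_iff_pow_pow_eq_one]
        intro y
        obtain ⟨g, rfl⟩ := QuotientGroup.mk_surjective y
        obtain ⟨n, hn⟩ := hGK g
        refine ⟨n, ?_⟩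
        rw [← QuotientGroup.mk_pow, QuotientGroup.eq_one_iff]
        exact hn
      have hPK := sup_eq_top_of_isPGroup_quotient P K hq
      have hsame : ∀ A ∈ FamA (P : Subgroup G), B ≤ normalizer (A : Set G) → A ≤ centralizer (B : Set G) := by
        intro A hA hAN
        by_contra hnot
        subst hp
        exact hSf (offender_main P B hBab (hBD.trans hDP) hred K
          (fun x hx y hy => hDC (hab x hx y hy))
          (fun x hx => by
            obtain ⟨m, hm, hxm⟩ := hKp x hx
            exact ⟨m, hm, hDC hxm⟩) hPK A hA hAN hnot)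
      exact core_step2 P (FamA (P : Subgroup G)) hF (famA_conj (P : Subgroup G)) W hWc B le_rfl
        (fun A hA x hx hxc => famA_mem _ A hA x (hDP (hBD hx)) hxc) hrep
        (centralizer (B : Set G)) (centralizer (B : Set G)) le_rfl ⟨0, by simp⟩ hresC hsame
    · have hst := stab_of_structure hp K hDK hab hKp hGK
      obtain ⟨M, hMn, hCM, hidx, hM⟩ := hst B hBn hBp
      haveI := hMn
      exact core_step2 P (FamA (P : Subgroup G)) hF (famA_conj (P : Subgroup G)) W hWc B le_rfl
        (fun A hA x hx hxc => famA_mem _ A hA x (hDP (hBD hx)) hxc) hrep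
        (centralizer (B : Set G)) M hCM hidx hresC
        (fun A hA hAN => hM A (P.2.to_le hA.1) (quadratic_of_normalizes hA.2.1 hAN))
  have hfac := core_step3 P (FamA (P : Subgroup G)) hF (famA_conj (P : Subgroup G)) B hall
  rw [thompsonAOf_eq] at hN'
  have hPN : (P : Subgroup G) ≤ normalizer ((sSup (FamA (P : Subgroup G)) : Subgroup G) : Set G) := by
    intro n hn
    refine mem_normalizer_sSup _ P (famA_conj (P : Subgroup G)) n (fun A hA => ?_)
    rintro _ ⟨a, ha, rfl⟩
    exact mul_mem (mul_mem hn (hA.1 ha)) (inv_mem hn)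
  have hNp := isPGroup_of_npc_overgroup hc _ (hDP.trans hPN) hN'
  have hNP : normalizer ((sSup (FamA (P : Subgroup G)) : Subgroup G) : Set G) ≤ (P : Subgroup G) :=
    (P.3 hNp hPN).le
  have hCle : centralizer (B : Set G) ≤ centralizer (W : Set G) :=
    centralizer_le (subset_normalClosure)
  have hCnpc : HasNormalPComplement p ↥(centralizer (B : Set G)) := npc_le _ _ hCle hC'
  have hCp := isPGroup_of_npc_normal hO (centralizer (B : Set G)) hCnpc
  have hCD := le_pCore hCBn hCp
  have htop : (P : Subgroup G) = ⊤ := by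
    rw [eq_top_iff]
    intro g _
    obtain ⟨n, hn, c, hcc, rfl⟩ := hfac g
    exact mul_mem (hNP hn) (hDP (hCD hcc))
  rw [hasNormalPComplement_iff]
  refine ⟨⊥, Subgroup.normal_bot, ?_, ?_⟩
  · simp
  · rw [isPGroup_iff_pow_pow_eq_one]
    intro y
    obtain ⟨x, rfl⟩ := QuotientGroup.mk_surjective y
    have hx : x ∈ (P : Subgroup G) := by rw [htop]; exact mem_top x
    obtain ⟨k, hk⟩ := (isPGroup_iff_pow_pow_eq_one.1 P.2) ⟨x, hx⟩
    refine ⟨k, ?_⟩
    have hk' : x ^ (p ^ k) = 1 := congrArg Subtype.val hk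
    rw [← QuotientGroup.mk_pow, hk']
    rfl

/-- The class of groups of the theorem. -/
def classS4 (p : ℕ) (X : Type u) [Group X] : Prop := p ≠ 2 ∨ ¬ Cfsg.Involves (Equiv.Perm (Fin 4)) X

theorem classC_S4 (p : ℕ) : ClassC (classS4.{u} p) := by
  refine ⟨?_, ?_⟩
  · intro X _ H hX
    refine hX.imp id (fun h h' => h ?_)
    exact Cfsg.Agent.Lib.LQd.involves_of_surj H (MonoidHom.id _) Function.surjective_id h'
  · intro X _ N _ hX
    refine hX.imp id (fun h h' => h ?_)
    refine Cfsg.Agent.Lib.LQd.involves_of_surj ⊤ ((QuotientGroup.mk' N).comp (⊤ : Subgroup X).subtype) ?_ h'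
    intro y
    obtain ⟨x, rfl⟩ := QuotientGroup.mk'_surjective N y
    exact ⟨⟨x, mem_top x⟩, rfl⟩

/-- **Thompson's normal `p`-complement theorem**, abelian version, `S₄`-free at `p = 2`. -/
theorem thompson_npc_S4 {G : Type u} [Group G] [Finite G] (P : Sylow p G)
    (hS : p ≠ 2 ∨ ¬ Cfsg.Involves (Equiv.Perm (Fin 4)) G)
    (hC : HasNormalPComplement p ↥(centralizer (((P : Subgroup G) ⊓ centralizer ((P : Subgroup G) : Set G) : Subgroup G) : Set G)))
    (hN : HasNormalPComplement p ↥(normalizer (thompsonSubgroupAOf (P : Subgroup G) : Set G))) :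
    HasNormalPComplement p G := by
  refine npc_main_C (ι := Bool) (Q := thAQ) (L := thAL) (classC_S4 p) thA_axioms ?_ G P hS (fun i => ?_)
  · intro G _ _ P hGC hO hc hst hyp
    exact final_F P hGC hO hc hst (hyp true) (hyp false)
  · cases i
    · exact hC
    · exact hN

end Thompson

end Cfsg.Agent.Lib.LNpcC
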