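import Mathlib
import Cfsg.Prelude.Def_PLocal
import Cfsg.Agent.Lib.PMin6
import Cfsg.Agent.Lib.PStab
import Cfsg.Agent.S0029

set_option autoImplicit false
set_option linter.unusedSectionVars false
set_option linter.unusedVariables false
set_option linter.style.haveILetI false

/-!
# The stable normal closure `W(S)`: quadratic elements and its ZJ-theorem
-/

namespace Cfsg.Agent.Lib.PZJ

open Subgroup Cfsg Cfsg.Agent.Lib.PQuad Cfsg.Agent.Lib.PNilp Cfsg.Agent.Lib.H1Core Cfsg.Agent.Lib.PStab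
open scoped commutatorElement

universe u

section Quad

variable {H : Type u} [Group H] {p : ℕ} [Fact p.Prime]

/-- `IsPStableOn` in `M`-form. -/
theorem stabM_of_pStableOn [Finite H] (V : Subgroup H) [V.Normal] (hst : IsPStableOn p V) :
    ∃ M : Subgroup H, M.Normal ∧ centralizer (V : Set H) ≤ M ∧
      (∃ k : ℕ, (centralizer (V : Set H)).relIndex M = p ^ k) ∧
      ∀ a : H, ⁅⁅V, zpowers a⁆, zpowers a⁆ = ⊥ → a ∈ M := by
  haveI hCn : (centralizer (V : Set H)).Normal := Subgroup.normal_centralizer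
  haveI hDn : (pCore p (H ⧸ centralizer (V : Set H))).Normal := pCore_normal p _
  refine ⟨(pCore p (H ⧸ centralizer (V : Set H))).comap (QuotientGroup.mk' _), Subgroup.Normal.comap inferInstance _, ?_, ?_, ?_⟩
  · intro x hx
    have : (QuotientGroup.mk' (centralizer (V : Set H))) x = 1 := by
      rw [QuotientGroup.mk'_apply, QuotientGroup.eq_one_iff]
      exact hx
    rw [Subgroup.mem_comap, this]
    exact one_mem _
  · have h1 : (centralizer (V : Set H)).relIndex ((pCore p (H ⧸ centralizer (V : Set H))).comap (QuotientGroup.mk' _)) =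
        Nat.card (pCore p (H ⧸ centralizer (V : Set H))) := by
      have h2 := Subgroup.relIndex_ker (K := (pCore p (H ⧸ centralizer (V : Set H))).comap (QuotientGroup.mk' _))
        (QuotientGroup.mk' (centralizer (V : Set H)))
      rw [QuotientGroup.ker_mk', Subgroup.map_comap_eq_self_of_surjective (QuotientGroup.mk'_surjective _)] at h2
      exact h2
    rw [h1]
    exact IsPGroup.iff_card.1 (pCore_isPGroup p)
  · intro a ha
    exact hst a ha

/-- Quadratic action is invariant under conjugation when `V` is normal. -/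
theorem quad_conj [Finite H] (V : Subgroup H) [hV : V.Normal] (a g : H) (h : ⁅⁅V, zpowers a⁆, zpowers a⁆ = ⊥) :
    ⁅⁅V, zpowers (g * a * g⁻¹)⁆, zpowers (g * a * g⁻¹)⁆ = ⊥ := by
  have h1 := congrArg (Subgroup.map (MulAut.conj g).toMonoidHom) h
  rw [Subgroup.map_bot, Subgroup.map_commutator, Subgroup.map_commutator] at h1
  have h2 : V.map (MulAut.conj g).toMonoidHom = V := by
    ext x
    rw [mem_map_conj]
    constructor
    · intro hx
      have := hV.conj_mem _ hx g
      simpa [mul_assoc] using this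
    · intro hx
      have := hV.conj_mem _ hx g⁻¹
      simpa using this
  have h3 : (zpowers a).map (MulAut.conj g).toMonoidHom = zpowers (g * a * g⁻¹) := by
    rw [MonoidHom.map_zpowers]
    simp
  rwa [h2, h3] at h1

/-- Commutators with an element are unchanged by a factor centralizing `V`. -/
theorem comm_zpow_of_centralizer [Finite H] (V : Subgroup H) [hV : V.Normal] (c t : H)
    (hc : c ∈ centralizer (V : Set H)) (u : H) (hu : u ∈ V) (z : ℤ) : ⁅u, t ^ z⁆ = ⁅u, (c * t) ^ z⁆ := by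
  haveI hCn : (centralizer (V : Set H)).Normal := Subgroup.normal_centralizer
  have h1 : (QuotientGroup.mk' (centralizer (V : Set H))) ((c * t) ^ z) =
      (QuotientGroup.mk' (centralizer (V : Set H))) (t ^ z) := by
    rw [map_zpow, map_zpow, map_mul]
    have : (QuotientGroup.mk' (centralizer (V : Set H))) c = 1 := by
      rw [QuotientGroup.mk'_apply, QuotientGroup.eq_one_iff]; exact hc
    rw [this, one_mul]
  have h2 : (c * t) ^ z * (t ^ z)⁻¹ ∈ centralizer (V : Set H) := by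
    rw [← QuotientGroup.eq_one_iff, ← QuotientGroup.mk'_apply, map_mul, map_inv, h1, mul_inv_cancel]
  set cz := (c * t) ^ z * (t ^ z)⁻¹ with hcz
  have h3 : (c * t) ^ z = cz * t ^ z := by rw [hcz]; group
  rw [h3, commutatorElement_def, commutatorElement_def]
  have hu1 : u⁻¹ ∈ V := inv_mem hu
  have hu2 : t ^ z * u⁻¹ * (t ^ z)⁻¹ ∈ V := hV.conj_mem _ hu1 _
  have e1 : u * cz = cz * u := ((mem_centralizer_iff.1 h2) u hu)
  have e2 : (t ^ z * u⁻¹ * (t ^ z)⁻¹) * cz = cz * (t ^ z * u⁻¹ * (t ^ z)⁻¹) := (mem_centralizer_iff.1 h2) _ hu2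
  calc u * t ^ z * u⁻¹ * (t ^ z)⁻¹ = u * (t ^ z * u⁻¹ * (t ^ z)⁻¹) := by group
    _ = u * (t ^ z * u⁻¹ * (t ^ z)⁻¹) * cz * cz⁻¹ := by group
    _ = u * (cz * (t ^ z * u⁻¹ * (t ^ z)⁻¹)) * cz⁻¹ := by rw [mul_assoc u, e2]
    _ = _ := by group

/-- Quadratic action is unchanged by a factor centralizing `V`. -/
theorem quad_of_mul_central [Finite H] (V : Subgroup H) [hV : V.Normal] (c t : H)
    (hc : c ∈ centralizer (V : Set H)) (h : ⁅⁅V, zpowers (c * t)⁆, zpowers (c * t)⁆ = ⊥) :
    ⁅⁅V, zpowers t⁆, zpowers t⁆ = ⊥ := by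
  have h1 : ⁅V, zpowers t⁆ ≤ ⁅V, zpowers (c * t)⁆ := by
    rw [commutator_le]
    rintro v hv _ ⟨z, rfl⟩
    simp only
    rw [comm_zpow_of_centralizer V c t hc v hv z]
    exact Subgroup.commutator_mem_commutator hv ⟨z, rfl⟩
  have h2 : ⁅V, zpowers (c * t)⁆ ≤ V := commutator_le_left _ _
  rw [eq_bot_iff, commutator_le]
  rintro y hy _ ⟨z, rfl⟩
  simp only
  rw [comm_zpow_of_centralizer V c t hc y (h2 (h1 hy)) z, ← h]
  exact Subgroup.commutator_mem_commutator (h1 hy) ⟨z, rfl⟩

end Quad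

section Closure

variable {S : Type u} [Group S] [Finite S] {p : ℕ} [Fact p.Prime]

theorem closure_mem_fam : stableNormalClosure p S ∈ Fam p S := by
  refine ⟨omegaOne_le_closure, ?_⟩
  intro H _ τ hτ
  have hinj : Function.Injective τ := hτ.1
  refine ⟨?_⟩
  rintro _ ⟨w, hw, rfl⟩ g
  have hall : ∀ W' ∈ Fam p S, ∃ y ∈ W', τ y = g * τ w * g⁻¹ := by
    intro W' hW'
    have h1 : τ w ∈ W'.map τ := ⟨w, (Subgroup.mem_sInf.1 hw) W' hW', rfl⟩
    haveI := hW'.2 H τ hτ
    obtain ⟨y, hy, hye⟩ := (hW'.2 H τ hτ).conj_mem _ h1 g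
    exact ⟨y, hy, hye⟩
  obtain ⟨y, hy, hye⟩ := hall _ (omegaCenter_mem_fam ())
  refine ⟨y, Subgroup.mem_sInf.2 (fun W' hW' => ?_), hye⟩
  obtain ⟨y', hy', hye'⟩ := hall W' hW'
  have : y' = y := hinj (hye'.trans hye.symm)
  rwa [← this]

/-- The elements acting quadratically on `W(S)`. -/
def quadSet (p : ℕ) (S : Type u) [Group S] : Set S :=
  {x | ⁅⁅stableNormalClosure p S, zpowers x⁆, zpowers x⁆ = ⊥}

/-- The key step: the centralizer of the quadratic elements in `W(S)` is in the family. -/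
theorem centralizer_quad_mem_fam :
    stableNormalClosure p S ⊓ centralizer (quadSet p S) ∈ Fam p S := by
  classical
  refine ⟨le_inf omegaOne_le_closure ?_, ?_⟩
  · rw [omegaOne, closure_le]
    rintro x ⟨hx, -⟩
    rw [SetLike.mem_coe, mem_centralizer_iff]
    intro y _
    exact (Subgroup.mem_center_iff.1 hx) y
  intro H _ τ hτ
  have hinj : Function.Injective τ := hτ.1
  haveI hVn : ((stableNormalClosure p S).map τ).Normal := closure_mem_fam.2 H τ hτ
  obtain ⟨-, hfin, ⟨P, hP⟩, -, -, h6⟩ := hτ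
  haveI := hfin
  set V := (stableNormalClosure p S).map τ with hV
  have hVle : V ≤ (omegaCenterThompson p S).map τ := Subgroup.map_mono (sInf_le (omegaCenter_mem_fam ()))
  obtain ⟨M, hMn, hCM, hidx, hM⟩ := stabM_of_pStableOn V (h6 V hVle)
  haveI := hMn
  haveI hCn : (centralizer (V : Set H)).Normal := Subgroup.normal_centralizer
  have hqτ : ∀ x : S, x ∈ quadSet p S → ⁅⁅V, zpowers (τ x)⁆, zpowers (τ x)⁆ = ⊥ := by
    intro x hx
    have h1 : zpowers (τ x) = (zpowers x).map τ := (MonoidHom.map_zpowers τ x).symm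
    rw [h1, hV, ← Subgroup.map_commutator, ← Subgroup.map_commutator, hx, Subgroup.map_bot]
  have hqτ' : ∀ x : S, ⁅⁅V, zpowers (τ x)⁆, zpowers (τ x)⁆ = ⊥ → x ∈ quadSet p S := by
    intro x hx
    have h1 : zpowers (τ x) = (zpowers x).map τ := (MonoidHom.map_zpowers τ x).symm
    rw [h1, hV, ← Subgroup.map_commutator, ← Subgroup.map_commutator,
      Subgroup.map_eq_bot_iff_of_injective _ hinj] at hx
    exact hx
  refine ⟨?_⟩
  rintro _ ⟨w, hw, rfl⟩ g
  obtain ⟨hw1, hw2⟩ := mem_inf.1 hw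
  obtain ⟨w', hw', hwe⟩ := hVn.conj_mem (τ w) ⟨w, hw1, rfl⟩ g
  refine ⟨w', mem_inf.2 ⟨hw', ?_⟩, hwe⟩
  rw [mem_centralizer_iff]
  intro x hx
  have hax : g⁻¹ * τ x * g⁻¹⁻¹ ∈ M := hM _ (quad_conj V (τ x) g⁻¹ (hqτ x hx))
  obtain ⟨c, hc, t, ht, hat⟩ := exists_factor P M (centralizer (V : Set H)) hCM hidx _ hax
  have htr : t ∈ τ.range := by
    rw [← hP]; exact ht
  obtain ⟨x', rfl⟩ := htr
  have hqa := quad_conj V (τ x) g⁻¹ (hqτ x hx)
  rw [hat] at hqa
  have hx' : x' ∈ quadSet p S := hqτ' x' (quad_of_mul_central V c _ hc hqa)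
  have h1 : x' * w = w * x' := (mem_centralizer_iff.1 hw2) x' hx'
  have h2 : τ w * c = c * τ w := (mem_centralizer_iff.1 hc) _ ⟨w, hw1, rfl⟩
  have h3 : τ x' * τ w = τ w * τ x' := by rw [← map_mul, ← map_mul, h1]
  have h4 : (c * τ x') * τ w = τ w * (c * τ x') := by
    calc (c * τ x') * τ w = c * (τ x' * τ w) := by group
      _ = c * (τ w * τ x') := by rw [h3]
      _ = (c * τ w) * τ x' := by group
      _ = (τ w * c) * τ x' := by rw [h2]
      _ = _ := by group
  have h5 : τ x = g * (c * τ x') * g⁻¹ := by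
    rw [← hat]; group
  apply hinj
  rw [map_mul, map_mul, hwe, h5]
  calc g * (c * τ x') * g⁻¹ * (g * τ w * g⁻¹) = g * ((c * τ x') * τ w) * g⁻¹ := by group
    _ = g * (τ w * (c * τ x')) * g⁻¹ := by rw [h4]
    _ = _ := by group

/-- **S0623**: an element acting quadratically on `W(S)` centralizes it. -/
theorem quad_centralizes (x : S) (hq : ⁅⁅stableNormalClosure p S, zpowers x⁆, zpowers x⁆ = ⊥) :
    ⁅stableNormalClosure p S, zpowers x⁆ = ⊥ := by
  have h1 : stableNormalClosure p S ≤ stableNormalClosure p S ⊓ centralizer (quadSet p S) :=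
    sInf_le centralizer_quad_mem_fam
  rw [eq_bot_iff, commutator_le]
  rintro w hw _ ⟨z, rfl⟩
  have h2 : x * w = w * x := (mem_centralizer_iff.1 (mem_inf.1 (h1 hw)).2) x hq
  rw [mem_bot, commutatorElement_eq_one_iff_mul_comm]
  exact ((show Commute x w from h2).zpow_left z).symm

end Closure

end Cfsg.Agent.Lib.PZJ
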