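import Mathlib
import Cfsg.Prelude.Def_PLocal
import Cfsg.Agent.Lib.PW
import Cfsg.Agent.Lib.FGSBasic

set_option autoImplicit false
set_option linter.unusedSectionVars false
set_option linter.unusedVariables false
set_option linter.style.haveILetI false

/-!
# The ZJ-theorem for `W(S)`
-/

namespace Cfsg.Agent.Lib.PZJ

open Subgroup Cfsg Cfsg.Agent.Lib.PQuad Cfsg.Agent.Lib.PNilp Cfsg.Agent.Lib.H1Core Cfsg.Agent.Lib.PStab
open scoped commutatorElement

universe u

section RepElem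

variable {S : Type*} [Group S] [Finite S] {p : ℕ} [Fact p.Prime]

open Cfsg.Agent.Lib.PGlaub in
theorem astar_pow_elem (hS : IsPGroup p S) {A B : Subgroup S} [hBn : B.Normal] {b : S}
    (hA : IsMulCommutative A)
    (hbN : b ∈ normalizer ((normalizer (A : Set S)) : Set S)) (hBA : ⁅B, B⁆ ≤ A) (hb : b ∈ B)
    (hB2 : p = 2 → IsMulCommutative B) {e : ℕ} (he : ∀ a ∈ A, a ^ e = 1) (heB : ∀ x ∈ B, x ^ e = 1) :
    ∀ x ∈ Astar A b, x ^ e = 1 := by
  intro x hx
  have hcomm := astar_comm hS hA hbN hBA hb hB2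
  rw [astar_eq_closure hS hA hbN hBA hb hB2] at hx
  have hcomm' : ∀ x ∈ closure ((Dd A b : Set S) ∪ {g : S | ∃ a ∈ A, g = a * b⁻¹ * a⁻¹ * b}),
      ∀ y ∈ closure ((Dd A b : Set S) ∪ {g : S | ∃ a ∈ A, g = a * b⁻¹ * a⁻¹ * b}), x * y = y * x := by
    rw [← astar_eq_closure hS hA hbN hBA hb hB2]
    exact hcomm
  induction hx using closure_induction with
  | mem x hx =>
    rcases hx with hx | ⟨a, ha, rfl⟩
    · exact he x (mem_inf.1 hx).1
    · apply heB
      exact mul_mem (hBn.conj_mem _ (inv_mem hb) a) hb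
  | one => simp
  | mul x y hx' hy' hx hy =>
    rw [(show Commute x y from hcomm' x hx' y hy').mul_pow, hx, hy, one_mul]
  | inv x _ hx =>
    rw [inv_pow, hx, inv_one]

open Cfsg.Agent.Lib.PGlaub in
/-- Replacement for an elementary abelian normal subgroup, any prime. -/
theorem exists_replacement_elem (hS : IsPGroup p S) (B : Subgroup S) [B.Normal] (hBe : IsElementaryAbelian p B)
    (A : Subgroup S) (hA : IsElementaryAbelian p A) (hnot : ¬ B ≤ normalizer (A : Set S)) :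
    ∃ A' : Subgroup S, Nat.card A' = Nat.card A ∧ IsElementaryAbelian p A' ∧
      A ⊓ B < A' ⊓ B ∧ A' ≤ normalizer (A : Set S) ∧
      (∀ D : Subgroup S, D.Normal → A ≤ D → A' ≤ D) := by
  obtain ⟨b, hb, hbN, hbA⟩ := exists_b hS B A hnot
  have hB2 : p = 2 → IsMulCommutative B := fun _ => hBe.1
  have hBA : ⁅B, B⁆ ≤ A := by
    refine le_trans ?_ (bot_le : (⊥ : Subgroup S) ≤ A)
    rw [commutator_le]
    intro x hx y hy
    rw [mem_bot, commutatorElement_eq_one_iff_mul_comm]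
    exact comm_of_isMulComm hBe.1 hx hy
  obtain ⟨h1, h2, h3, h4, h5, -, h7, -, -, -⟩ :=
    glauberman_replacement hS B hB2 A hA.1 hBA hnot b hb hbN hbA
  refine ⟨Astar A b, h1, ⟨h2, astar_pow_elem hS hA.1 hbN hBA hb hB2 hA.2 hBe.2⟩, h4, h7, ?_⟩
  intro D hD hAD
  refine sup_le (inf_le_left.trans hAD) ?_
  rw [Ww, closure_le]
  rintro _ ⟨a, ha, rfl⟩
  have h1 : a ∈ D := hAD ha
  have h2 : b⁻¹ * a⁻¹ * b ∈ D := by
    have := hD.conj_mem a⁻¹ (inv_mem h1) b⁻¹
    simpa using this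
  have : a * b⁻¹ * a⁻¹ * b = a * (b⁻¹ * a⁻¹ * b) := by group
  show a * b⁻¹ * a⁻¹ * b ∈ D
  rw [this]
  exact mul_mem h1 h2

end RepElem

section RepG

variable {G : Type*} [Group G] [Finite G] {p : ℕ} [Fact p.Prime]

theorem replacement_G_elem (P : Subgroup G) (hP : IsPGroup p P) (B₁ : Subgroup G) (hB₁P : B₁ ≤ P)
    (hn : P ≤ normalizer (B₁ : Set G)) (hB₁e : IsElementaryAbelian p B₁) (A : Subgroup G) (hAP : A ≤ P)
    (hA : IsElementaryAbelian p A) (hnot : ¬ B₁ ≤ normalizer (A : Set G)) :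
    ∃ A' : Subgroup G, A' ≤ P ∧ Nat.card A' = Nat.card A ∧ IsElementaryAbelian p A' ∧ A ⊓ B₁ < A' ⊓ B₁ ∧
      A' ≤ normalizer (A : Set G) := by
  classical
  set A₀ : Subgroup P := A.comap P.subtype with hA₀
  set B₀ : Subgroup P := B₁.comap P.subtype with hB₀
  haveI hB₀n : B₀.Normal := (Subgroup.normal_subgroupOf_iff_le_normalizer hB₁P).2 hn
  have hA₀ab : IsElementaryAbelian p A₀ := isElementaryAbelian_comap hA _ P.subtype_injective
  have hB₀e : IsElementaryAbelian p B₀ := isElementaryAbelian_comap hB₁e _ P.subtype_injective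
  have hnot₀ : ¬ B₀ ≤ normalizer (A₀ : Set P) := by
    intro h
    apply hnot
    intro b hb
    refine Cfsg.Agent.Lib.PGlaub.mem_normalizer_of_conj_mem (fun k hk => ?_)
    have h1 : (⟨b, hB₁P hb⟩ : P) ∈ normalizer (A₀ : Set P) := h hb
    have h2 : (⟨k, hAP hk⟩ : P) ∈ A₀ := hk
    have h3 := (mem_normalizer_iff.1 h1 _).1 h2
    exact h3
  obtain ⟨A₁, h1, h2, h4, h6, -⟩ := exists_replacement_elem hP B₀ hB₀e A₀ hA₀ab hnot₀
  have hcard : ∀ V : Subgroup P, Nat.card ↥(V.map P.subtype) = Nat.card V := card_map_subtype P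
  refine ⟨A₁.map P.subtype, map_subtype_le _, ?_, isElementaryAbelian_map' h2 _, ?_, ?_⟩
  · rw [hcard, h1, hA₀, card_comap_subtype P A hAP]
  · obtain ⟨hle, y, hy, hyn⟩ := (SetLike.lt_iff_le_and_exists).1 h4
    refine (SetLike.lt_iff_le_and_exists).2 ⟨?_, (y : G), ?_, ?_⟩
    · intro x hx
      obtain ⟨hx1, hx2⟩ := mem_inf.1 hx
      have h5 : (⟨x, hAP hx1⟩ : P) ∈ A₀ ⊓ B₀ := mem_inf.2 ⟨hx1, hx2⟩
      have h7 := hle h5
      exact mem_inf.2 ⟨⟨_, (mem_inf.1 h7).1, rfl⟩, hx2⟩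
    · exact mem_inf.2 ⟨⟨_, (mem_inf.1 hy).1, rfl⟩, (mem_inf.1 hy).2⟩
    · intro h
      exact hyn (mem_inf.2 ⟨(mem_inf.1 h).1, (mem_inf.1 hy).2⟩)
  · rintro _ ⟨x, hx, rfl⟩
    refine Cfsg.Agent.Lib.PGlaub.mem_normalizer_of_conj_mem (fun k hk => ?_)
    have h1 : x ∈ normalizer (A₀ : Set P) := h6 hx
    have h2 : (⟨k, hAP hk⟩ : P) ∈ A₀ := hk
    have h3 := (mem_normalizer_iff.1 h1 _).1 h2
    exact h3

end RepG

section ZJW

variable {G : Type u} [Group G] [Finite G] {p : ℕ} [Fact p.Prime]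

/-- `W(S)` as a subgroup of `G`. -/
abbrev Wg (p : ℕ) (S : Subgroup G) : Subgroup G := (stableNormalClosure p ↥S).map S.subtype

theorem wg_props (S : Sylow p G) :
    Wg p (S : Subgroup G) ≤ sSup (FamE p (S : Subgroup G)) ⊓ centralizer ((sSup (FamE p (S : Subgroup G)) : Subgroup G) : Set G) ∧
      IsElementaryAbelian p (Wg p (S : Subgroup G)) := by
  have h1 : Wg p (S : Subgroup G) ≤ omegaOne p (centerThompsonOf p (S : Subgroup G)) := by
    rw [← omegaCenterThompson_map]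
    exact Subgroup.map_mono (sInf_le (omegaCenter_mem_fam ()))
  have h2 : omegaOne p (centerThompsonOf p (S : Subgroup G)) ≤ centerThompsonOf p (S : Subgroup G) := by
    rw [omegaOne, closure_le]
    exact fun x hx => hx.1
  have h3 : IsElementaryAbelian p (omegaOne p (centerThompsonOf p (S : Subgroup G))) :=
    Cfsg.Agent.Lib.PJ.omegaOne_elementary (Cfsg.Agent.Lib.PJ.isMulComm_inf_centralizer _)
  refine ⟨?_, Cfsg.Agent.Lib.PQuad.isElementaryAbelian_mono h3 h1⟩
  rw [← centerThompsonOf_eq]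
  exact h1.trans h2

theorem wg_normalizer (S : Subgroup G) : normalizer (S : Set G) ≤ normalizer (Wg p S : Set G) := by
  haveI : (stableNormalClosure p ↥S).Characteristic := closure_characteristic
  exact Cfsg.Agent.Lib.H1Cop2.normalizer_le_normalizer_map_of_characteristic _

theorem wg_commute (S : Sylow p G) (hWD : Wg p (S : Subgroup G) ≤ pCore p G) (g : G) (x : G)
    (hx : x ∈ (Wg p (S : Subgroup G)).map (MulAut.conj g).toMonoidHom) (w : G) (hw : w ∈ Wg p (S : Subgroup G)) :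
    w * x = x * w := by
  classical
  haveI hDn : (pCore p G).Normal := pCore_normal p G
  have hDS := pCore_le_sylow p S
  set A := (Wg p (S : Subgroup G)).map (MulAut.conj g).toMonoidHom with hA
  obtain ⟨hW1, hW2⟩ := wg_props S
  have hAab : IsMulCommutative A := isMulComm_map hW2.1 _
  have hAD : A ≤ pCore p G := by
    rintro _ ⟨y, hy, rfl⟩
    exact hDn.conj_mem y (hWD hy) g
  have hxS : x ∈ (S : Subgroup G) := hDS (hAD hx)
  -- `D` normalizes `A`
  have hDA : ∀ d ∈ pCore p G, ∀ a ∈ A, d * a * d⁻¹ ∈ A := by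
    rintro d hd _ ⟨y, hy, rfl⟩
    have h1 : g⁻¹ * d * g ∈ (S : Subgroup G) := by
      have := hDn.conj_mem d hd g⁻¹
      simpa using hDS this
    have h2 := (mem_normalizer_iff.1 (wg_normalizer (p := p) (S : Subgroup G) (Subgroup.le_normalizer h1)) y).1 hy
    refine ⟨_, h2, ?_⟩
    simp
    group
  have hcommA : ⁅Wg p (S : Subgroup G), zpowers x⁆ ≤ A := by
    rw [commutator_le]
    rintro w' hw' _ ⟨z, rfl⟩
    simp only
    rw [commutatorElement_def]
    have hz : x ^ z ∈ A := zpow_mem hx z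
    exact mul_mem (hDA w' (hWD hw') _ hz) (inv_mem hz)
  have hquad : ⁅⁅Wg p (S : Subgroup G), zpowers x⁆, zpowers x⁆ = ⊥ := by
    rw [eq_bot_iff, commutator_le]
    rintro y hy _ ⟨z, rfl⟩
    simp only
    rw [mem_bot, commutatorElement_eq_one_iff_mul_comm]
    exact comm_of_isMulComm hAab (hcommA hy) (zpow_mem hx z)
  -- transport to `S`
  let x₀ : ↥(S : Subgroup G) := ⟨x, hxS⟩
  have hzp : (zpowers x₀).map (S : Subgroup G).subtype = zpowers x := MonoidHom.map_zpowers _ _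
  have hq₀ : ⁅⁅stableNormalClosure p ↥(S : Subgroup G), zpowers x₀⁆, zpowers x₀⁆ = ⊥ := by
    rw [← Subgroup.map_eq_bot_iff_of_injective _ (S : Subgroup G).subtype_injective, Subgroup.map_commutator,
      Subgroup.map_commutator, hzp]
    exact hquad
  have hc₀ := quad_centralizes x₀ hq₀
  obtain ⟨w₀, hw₀, rfl⟩ := hw
  have h3 : ⁅w₀, x₀⁆ ∈ ⁅stableNormalClosure p ↥(S : Subgroup G), zpowers x₀⁆ :=
    Subgroup.commutator_mem_commutator hw₀ (mem_zpowers x₀)
  rw [hc₀, mem_bot, commutatorElement_eq_one_iff_mul_comm] at h3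
  exact congrArg Subtype.val h3

/-- **The ZJ-theorem for `W(S)`.** -/
theorem zj_W (S : Sylow p G)
    (hst : ∀ B₁ : Subgroup G, B₁.Normal → B₁ ≤ pCore p G → IsElementaryAbelian p B₁ → ∃ M, StabOn p B₁ M)
    (hWD : Wg p (S : Subgroup G) ≤ pCore p G)
    (hWN : normalizer ((sSup (FamE p (S : Subgroup G)) : Subgroup G) : Set G) ≤ normalizer (Wg p (S : Subgroup G) : Set G)) :
    (Wg p (S : Subgroup G)).Normal := by
  classical
  haveI hDn : (pCore p G).Normal := pCore_normal p G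
  have hDS := pCore_le_sylow p S
  obtain ⟨hW1, hW2⟩ := wg_props S
  set W := Wg p (S : Subgroup G) with hWdef
  set V : Subgroup G := normalClosure (W : Set G) with hV
  haveI hVn : V.Normal := normalClosure_normal
  have hVD : V ≤ pCore p G := normalClosure_le_normal hWD
  -- all conjugates commute
  have hcomm : ∀ a ∈ Group.conjugatesOfSet (W : Set G), ∀ b ∈ Group.conjugatesOfSet (W : Set G), a * b = b * a := by
    intro a ha b hb
    obtain ⟨w₁, hw₁, hwa⟩ := Group.mem_conjugatesOfSet_iff.1 ha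
    obtain ⟨g₁, rfl⟩ := isConj_iff.1 hwa
    obtain ⟨w₂, hw₂, hwb⟩ := Group.mem_conjugatesOfSet_iff.1 hb
    obtain ⟨g₂, rfl⟩ := isConj_iff.1 hwb
    have h1 : g₁⁻¹ * (g₂ * w₂ * g₂⁻¹) * g₁ ∈ W.map (MulAut.conj (g₁⁻¹ * g₂)).toMonoidHom :=
      ⟨w₂, hw₂, by simp [mul_assoc]⟩
    have h2 := wg_commute S hWD (g₁⁻¹ * g₂) _ h1 w₁ hw₁
    calc g₁ * w₁ * g₁⁻¹ * (g₂ * w₂ * g₂⁻¹) = g₁ * (w₁ * (g₁⁻¹ * (g₂ * w₂ * g₂⁻¹) * g₁)) * g₁⁻¹ := by group
      _ = g₁ * ((g₁⁻¹ * (g₂ * w₂ * g₂⁻¹) * g₁) * w₁) * g₁⁻¹ := by rw [h2]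
      _ = _ := by group
  have hVC : V ≤ centralizer (V : Set G) := by
    rw [hV, normalClosure, closure_le, centralizer_closure]
    intro a ha
    rw [SetLike.mem_coe, mem_centralizer_iff]
    intro b hb
    exact hcomm b hb a ha
  have hVab : IsMulCommutative V := isMulComm_of_forall (fun x hx y hy => (mem_centralizer_iff.1 (hVC hy)) x hx)
  have hVexp : ∀ x ∈ V, x ^ p = 1 := by
    intro x hx
    rw [hV, normalClosure] at hx
    induction hx using closure_induction with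
    | mem x hx =>
      obtain ⟨w₁, hw₁, hwa⟩ := Group.mem_conjugatesOfSet_iff.1 hx
      obtain ⟨g₁, rfl⟩ := isConj_iff.1 hwa
      rw [conj_pow, hW2.2 w₁ hw₁]
      simp
    | one => simp
    | mul x y hx hy ihx ihy =>
      have h1 : Commute x y := comm_of_isMulComm hVab hx hy
      rw [h1.mul_pow, ihx, ihy, one_mul]
    | inv x _ ihx => rw [inv_pow, ihx, inv_one]
  have hVe : IsElementaryAbelian p V := ⟨hVab, hVexp⟩
  obtain ⟨M, hMn, hCM, hidx, hM⟩ := hst V hVn hVD hVe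
  haveI := hMn
  haveI hCVn : (centralizer (V : Set G)).Normal := Subgroup.normal_centralizer
  have hF := fun (A : Subgroup G) (hA : A ∈ FamE p (S : Subgroup G)) => hA.1
  have hW : ∀ A ∈ FamE p (S : Subgroup G), W ≤ centralizer (A : Set G) := by
    intro A hA w hw
    exact centralizer_le (show (A : Set G) ⊆ (sSup (FamE p (S : Subgroup G)) : Subgroup G) from le_sSup hA) (mem_inf.1 (hW1 hw)).2
  have hWV : W ≤ V := fun x hx => subset_normalClosure hx
  have hall := core_step2 S (FamE p (S : Subgroup G)) hF (famE_conj (S : Subgroup G)) W hW V le_rfl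
    (fun A hA x hx hxc => famE_mem _ A hA x (hDS (hVD hx)) hxc (hVexp x hx))
    (by
      intro A hA hnot
      obtain ⟨A', h1, h2, h3, h4, h5⟩ := replacement_G_elem (S : Subgroup G) S.2 V
        (hVD.trans hDS) (le_normalizer_of_normal.trans (le_of_eq rfl)) hVe A hA.1 hA.2.1 hnot
      refine ⟨A', ⟨h1, h3, fun U hU hUa => ?_⟩, h4, h5⟩
      rw [h2]
      exact hA.2.2 U hU hUa)
    (centralizer (V : Set G)) M hCM hidx
    (fun x hx hxc => centralizer_le (show (W : Set G) ⊆ V from hWV) hx)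
    (fun A hA hAN => hM A (S.2.to_le hA.1) (quadratic_of_normalizes hA.2.1.1 hAN))
  have hfac := core_step3 S (FamE p (S : Subgroup G)) hF (famE_conj (S : Subgroup G)) V hall
  refine ⟨fun x hx g => ?_⟩
  obtain ⟨n, hn, c, hc, rfl⟩ := hfac g
  have h1 : x * c = c * x := (mem_centralizer_iff.1 hc) x (hWV hx)
  have e : n * c * x * (n * c)⁻¹ = n * x * n⁻¹ := by
    have : c * x * c⁻¹ = x := by rw [← h1]; group
    calc n * c * x * (n * c)⁻¹ = n * (c * x * c⁻¹) * n⁻¹ := by group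
      _ = _ := by rw [this]
  rw [e]
  exact (mem_normalizer_iff.1 (hWN hn) x).1 hx

end ZJW

end Cfsg.Agent.Lib.PZJ
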