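import Mathlib
import Cfsg.Prelude.Def_PLocal
import Cfsg.Agent.Lib.PW2

set_option autoImplicit false
set_option linter.unusedSectionVars false
set_option linter.unusedVariables false
set_option linter.style.haveILetI false

/-!
# `W(S)` in action-`p`-stable groups and Thompson's theorem with `W(S)`
-/

namespace Cfsg.Agent.Lib.PZJ

open Subgroup Cfsg Cfsg.Agent.Lib.PQuad Cfsg.Agent.Lib.PNilp Cfsg.Agent.Lib.H1Core Cfsg.Agent.Lib.PStab
open scoped commutatorElement

universe u

section Sec

variable {G : Type u} [Group G] [Finite G] {p : ℕ} [Fact p.Prime]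

theorem sectionKernel_normal (K N : Subgroup G) [N.Normal] [K.Normal] : (sectionKernel K N).Normal := by
  unfold sectionKernel
  haveI : (K.map (QuotientGroup.mk' N)).Normal := Subgroup.Normal.map inferInstance _ (QuotientGroup.mk'_surjective N)
  haveI : (centralizer ((K.map (QuotientGroup.mk' N) : Subgroup (G ⧸ N)) : Set (G ⧸ N))).Normal :=
    Subgroup.normal_centralizer
  exact Subgroup.Normal.comap inferInstance _

theorem mem_sectionKernel_comm (K N : Subgroup G) [N.Normal] {a k : G} (ha : a ∈ sectionKernel K N) (hk : k ∈ K) :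
    a * k * a⁻¹ * k⁻¹ ∈ N := by
  have h1 := (mem_centralizer_iff.1 ha) (QuotientGroup.mk' N k) ⟨k, hk, rfl⟩
  rw [← QuotientGroup.eq_one_iff]
  change QuotientGroup.mk' N (a * k * a⁻¹ * k⁻¹) = 1
  rw [map_mul, map_mul, map_mul, map_inv, map_inv, ← h1]
  group

theorem sectionKernel_isPGroup (hc : centralizer (pCore p G : Set G) ≤ pCore p G) :
    IsPGroup p (sectionKernel (pCore p G) ((frattini ↥(pCore p G)).map (pCore p G).subtype)) := by
  classical
  haveI hDn : (pCore p G).Normal := pCore_normal p G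
  have hDp : IsPGroup p (pCore p G) := pCore_isPGroup p
  rw [isPGroup_iff_pow_pow_eq_one]
  rintro ⟨y, hy⟩
  obtain ⟨u, v, hu, hv, rfl, ⟨k, hk⟩, hvc⟩ := Cfsg.Agent.Lib.FGSBasic.exists_p_decomp p y
  have hvK : v ∈ sectionKernel (pCore p G) ((frattini ↥(pCore p G)).map (pCore p G).subtype) :=
    (zpowers_le.2 hy) hv
  have hcen : zpowers v ≤ centralizer (pCore p G : Set G) := by
    refine Cfsg.Agent.S0029.result (zpowers v) (pCore p G) (by rw [normalizer_eq_top_iff.2 hDn]; exact le_top) ?_ ?_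
    · rw [Nat.card_zpowers]
      obtain ⟨n, hn⟩ := IsPGroup.iff_card.1 (hDp.to_subgroup (frattini ↥(pCore p G)))
      rw [hn]
      exact Nat.Coprime.pow_right _ hvc
    · intro a ha k hk
      exact mem_sectionKernel_comm _ _ ((zpowers_le.2 hvK) ha) hk
  have hvD : v ∈ pCore p G := hc (hcen (mem_zpowers v))
  have hv1 : v = 1 := by
    obtain ⟨n, hn⟩ := (isPGroup_iff_pow_pow_eq_one.1 hDp) ⟨v, hvD⟩
    have hn' : v ^ (p ^ n) = 1 := congrArg Subtype.val hn
    have h1 := orderOf_dvd_of_pow_eq_one hn'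
    have h2 : Nat.Coprime (orderOf v) (p ^ n) := Nat.Coprime.pow_right _ hvc
    exact orderOf_eq_one_iff.1 (Nat.Coprime.eq_one_of_dvd h2 h1)
  refine ⟨k, Subtype.ext ?_⟩
  show (u * v) ^ p ^ k = 1
  rw [hv1, mul_one, ← hk]
  exact pow_orderOf_eq_one u

/-- Elements acting quadratically on `O_p(G)/Φ(O_p(G))` lie in `O_p(G)` if `C(O_p(G)) ≤ O_p(G)` and the action on the
section is `p`-stable. -/
theorem mem_pCore_of_section (hc : centralizer (pCore p G : Set G) ≤ pCore p G)
    (hsec : IsPStableOnSection p (pCore p G) ((frattini ↥(pCore p G)).map (pCore p G).subtype)) (x : G)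
    (hq : ⁅⁅pCore p G, zpowers x⁆, zpowers x⁆ = ⊥) : x ∈ pCore p G := by
  classical
  haveI hDn : (pCore p G).Normal := pCore_normal p G
  obtain ⟨D', hn, hKD', ⟨k, hk⟩, hx⟩ := hsec x (by rw [hq]; exact bot_le)
  haveI hKn := sectionKernel_normal (pCore p G) ((frattini ↥(pCore p G)).map (pCore p G).subtype)
  have hKp := sectionKernel_isPGroup hc
  have hD'p : IsPGroup p D' := by
    rw [isPGroup_iff_pow_pow_eq_one]
    rintro ⟨y, hy⟩
    have h1 : y ^ (p ^ k) ∈ sectionKernel (pCore p G) ((frattini ↥(pCore p G)).map (pCore p G).subtype) :=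
      Cfsg.Agent.Lib.PZJ.pow_mem_of_relIndex _ D' k hk y hy
    obtain ⟨l, hl⟩ := (isPGroup_iff_pow_pow_eq_one.1 hKp) ⟨_, h1⟩
    have hl' : (y ^ (p ^ k)) ^ (p ^ l) = 1 := congrArg Subtype.val hl
    refine ⟨k + l, Subtype.ext ?_⟩
    show y ^ p ^ (k + l) = 1
    rw [pow_add, pow_mul, hl']
  exact le_pCore hn hD'p hx

/-- `W(S) ≤ O_p(G)` under the section hypothesis. -/
theorem wg_le_pCore (hc : centralizer (pCore p G : Set G) ≤ pCore p G)
    (hsec : IsPStableOnSection p (pCore p G) ((frattini ↥(pCore p G)).map (pCore p G).subtype))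
    (S : Sylow p G) : Wg p (S : Subgroup G) ≤ pCore p G := by
  classical
  intro x hx
  apply mem_pCore_of_section hc hsec
  have hDS := pCore_le_sylow p S
  obtain ⟨hW1, hW2⟩ := wg_props S
  have hN := wg_normalizer (p := p) (S : Subgroup G)
  have hcomm : ⁅pCore p G, zpowers x⁆ ≤ Wg p (S : Subgroup G) := by
    rw [commutator_le]
    rintro d hd _ ⟨z, rfl⟩
    simp only
    rw [commutatorElement_def]
    have hz : x ^ z ∈ Wg p (S : Subgroup G) := zpow_mem hx z
    exact mul_mem ((mem_normalizer_iff.1 (hN (Subgroup.le_normalizer (hDS hd))) _).1 hz) (inv_mem hz)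
  rw [eq_bot_iff, commutator_le]
  rintro y hy _ ⟨z, rfl⟩
  simp only
  rw [mem_bot, commutatorElement_eq_one_iff_mul_comm]
  exact comm_of_isMulComm hW2.1 (hcomm hy) (zpow_mem hx z)

/-- Stable embeddings into a subgroup of `G` containing a Sylow subgroup. -/
theorem isStableEmbedding_inclusion (hc : centralizer (pCore p G : Set G) ≤ pCore p G) (S : Sylow p G)
    (K : Subgroup G) (hSK : (S : Subgroup G) ≤ K)
    (hJ : K ≤ normalizer (thompsonSubgroupOf p (S : Subgroup G) : Set G))
    (hst : ∀ (V : Subgroup K) [V.Normal], V.map K.subtype ≤ (omegaCenterThompson p ↥(S : Subgroup G)).map (S : Subgroup G).subtype →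
      IsPStableOn p V) :
    IsStableEmbedding p (Subgroup.inclusion hSK) := by
  classical
  haveI hDn : (pCore p G).Normal := pCore_normal p G
  have hDS := pCore_le_sylow p S
  have hmap : ∀ U : Subgroup ↥(S : Subgroup G), (U.map (Subgroup.inclusion hSK)).map K.subtype = U.map (S : Subgroup G).subtype := by
    intro U
    rw [Subgroup.map_map]
    rfl
  refine ⟨Subgroup.inclusion_injective hSK, inferInstance, ⟨S.subtype hSK, ?_⟩, ?_, ?_, ?_⟩
  · rw [S.coe_subtype hSK, Subgroup.inclusion_range]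
  · have hle : (pCore p G).subgroupOf K ≤ pCore p ↥K := by
      refine le_pCore (Subgroup.Normal.subgroupOf inferInstance K) ?_
      exact IsPGroup.comap_subtype (pCore_isPGroup p) 
    intro y hy
    have hyG : (y : G) ∈ centralizer (pCore p G : Set G) := by
      rw [mem_centralizer_iff]
      intro d hd
      have h1 := (mem_centralizer_iff.1 hy) ⟨d, hSK (hDS hd)⟩ (hle (Subgroup.mem_subgroupOf.2 hd))
      exact congrArg Subtype.val h1
    exact hle (Subgroup.mem_subgroupOf.2 (hc hyG))
  · have h1 : (thompsonSubgroup p ↥(S : Subgroup G)).map (Subgroup.inclusion hSK) =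
        (thompsonSubgroupOf p (S : Subgroup G)).subgroupOf K := by
      apply Subgroup.map_injective K.subtype_injective
      rw [hmap, subgroupOf_map_subtype]
      refine (inf_eq_left.2 ?_).symm
      exact (map_subtype_le _).trans hSK
    rw [h1]
    refine ⟨?_⟩
    intro j hj k
    exact Subgroup.mem_subgroupOf.2 ((mem_normalizer_iff.1 (hJ k.2) _).1 (Subgroup.mem_subgroupOf.1 hj))
  · intro V _ hV
    refine hst V ?_
    rw [← hmap]
    exact Subgroup.map_mono hV

/-- `W(S)` image is normal under a stable embedding. -/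
theorem normalizer_J_le_normalizer_W (hc : centralizer (pCore p G : Set G) ≤ pCore p G) (S : Sylow p G)
    (hst : ∀ (V : Subgroup ↥(normalizer (thompsonSubgroupOf p (S : Subgroup G) : Set G))) [V.Normal],
      V.map (normalizer (thompsonSubgroupOf p (S : Subgroup G) : Set G)).subtype ≤
          (omegaCenterThompson p ↥(S : Subgroup G)).map (S : Subgroup G).subtype → IsPStableOn p V) :
    normalizer (thompsonSubgroupOf p (S : Subgroup G) : Set G) ≤ normalizer (Wg p (S : Subgroup G) : Set G) := by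
  classical
  have hSN : (S : Subgroup G) ≤ normalizer (thompsonSubgroupOf p (S : Subgroup G) : Set G) := by
    intro n hn
    rw [thompsonOf_eq_sSup]
    refine mem_normalizer_sSup _ S (famE_conj (S : Subgroup G)) n (fun A hA => ?_)
    rintro _ ⟨a, ha, rfl⟩
    exact mul_mem (mul_mem hn (hA.1 ha)) (inv_mem hn)
  have hemb := isStableEmbedding_inclusion hc S _ hSN le_rfl hst
  have hnorm := (closure_mem_fam (p := p) (S := ↥(S : Subgroup G))).2 _ _ hemb
  intro n hn
  refine Cfsg.Agent.Lib.PGlaub.mem_normalizer_of_conj_mem ?_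
  rintro _ ⟨w, hw, rfl⟩
  have h1 := hnorm.conj_mem (Subgroup.inclusion hSN w) ⟨w, hw, rfl⟩ ⟨n, hn⟩
  obtain ⟨w', hw', he⟩ := h1
  refine ⟨w', hw', ?_⟩
  have := congrArg Subtype.val he
  exact this

/-- The `W(S)` ZJ-theorem for action-`p`-stable groups: S0624. -/
theorem wg_normal_of_action (hst : IsActionPStable p G) (hc : centralizer (pCore p G : Set G) ≤ pCore p G)
    (S : Sylow p G) : (Wg p (S : Subgroup G)).Normal := by
  classical
  refine zj_W S ?_ (wg_le_pCore hc hst.2.1 S) ?_
  · intro B₁ hB₁ _ hB₁e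
    haveI := hB₁
    obtain ⟨M, hMn, hCM, hidx, hM⟩ := stabM_of_pStableOn B₁ (hst.1 B₁ hB₁e)
    refine ⟨M, hMn, hCM, hidx, ?_⟩
    intro A hA hq a ha
    apply hM
    have hz : zpowers a ≤ A := zpowers_le.2 ha
    rw [eq_bot_iff, ← hq]
    exact Subgroup.commutator_mono (Subgroup.commutator_mono le_rfl hz) hz
  · rw [← thompsonOf_eq_sSup]
    exact normalizer_J_le_normalizer_W hc S (hst.2.2 S)

end Sec

end Cfsg.Agent.Lib.PZJ
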