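import Mathlib
import Cfsg.Prelude.Def_PLocal
import Cfsg.Agent.Lib.PW3

set_option autoImplicit false
set_option linter.unusedSectionVars false
set_option linter.unusedVariables false
set_option linter.style.haveILetI false

/-!
# Thompson's normal `p`-complement theorem with `W(S)`
-/

namespace Cfsg.Agent.Lib.PZJ

open Subgroup Cfsg Cfsg.Agent.Lib.PQuad Cfsg.Agent.Lib.PNilp Cfsg.Agent.Lib.H1Core Cfsg.Agent.Lib.PStab
  Cfsg.Agent.Lib.PQA
open scoped commutatorElement

universe u

section S1

variable {G : Type u} [Group G] [Finite G] {p : ℕ} [Fact p.Prime]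

/-- From the `M`-form to `p`-stability for an elementary abelian normal subgroup. -/
theorem pStableOn_of_stabOn (V : Subgroup G) [hV : V.Normal] (hVe : IsElementaryAbelian p V) (M : Subgroup G)
    (hM : StabOn p V M) : IsPStableOn p V := by
  classical
  obtain ⟨hMn, hCM, ⟨k, hk⟩, hMA⟩ := hM
  haveI := hMn
  haveI hCn : (centralizer (V : Set G)).Normal := Subgroup.normal_centralizer
  intro a ha
  have hpow : a ^ p ∈ centralizer (V : Set G) := by
    refine stability_pow V ⁅V, zpowers a⁆ a ?_ ?_ p ?_
    · rw [mem_centralizer_iff]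
      intro e he
      have h1 : ⁅e, a⁆ ∈ ⁅⁅V, zpowers a⁆, zpowers a⁆ := Subgroup.commutator_mem_commutator he (mem_zpowers a)
      rw [ha, mem_bot, commutatorElement_eq_one_iff_mul_comm] at h1
      exact h1
    · intro b hb
      have h1 : ⁅b, a⁆ ∈ ⁅V, zpowers a⁆ := Subgroup.commutator_mem_commutator hb (mem_zpowers a)
      have h4 : a * b * a⁻¹ * b⁻¹ = ⁅b, a⁆⁻¹ := by
        rw [commutatorElement_inv, commutatorElement_def]
      rw [h4]
      exact inv_mem h1
    · intro e he
      have : ⁅V, zpowers a⁆ ≤ V := by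
        rw [commutator_le]
        rintro x hx _ ⟨z, rfl⟩
        simp only
        have e2 : ⁅x, a ^ z⁆ = x * (a ^ z * x⁻¹ * (a ^ z)⁻¹) := by
          rw [commutatorElement_def]; group
        rw [e2]
        exact mul_mem hx (hV.conj_mem x⁻¹ (inv_mem hx) (a ^ z))
      exact hVe.2 e (this he)
  obtain ⟨u, w, hu, hw, hae, ⟨l, hl⟩, hwc⟩ := Cfsg.Agent.Lib.FGSBasic.exists_p_decomp p a
  have hwC : w ∈ centralizer (V : Set G) := by
    rw [← QuotientGroup.eq_one_iff (N := centralizer (V : Set G))]
    have h1 : ((w : G) : G ⧸ centralizer (V : Set G)) ^ (orderOf w) = 1 := by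
      rw [← QuotientGroup.mk_pow, pow_orderOf_eq_one]; rfl
    have h2 : ((w : G) : G ⧸ centralizer (V : Set G)) ^ (p ^ 1) = 1 := by
      obtain ⟨j, rfl⟩ := hw
      rw [← QuotientGroup.mk_pow, QuotientGroup.eq_one_iff, pow_one]
      simp only
      rw [← zpow_natCast, zpow_comm, zpow_natCast]
      exact zpow_mem hpow j
    exact Cfsg.Agent.Lib.PZJ.eq_one_of_pow_of_coprime hwc h1 h2
  have huM : u ∈ M := by
    have hz : zpowers u ≤ zpowers a := zpowers_le.2 hu
    have h1 : IsPGroup p (zpowers u) := by
      rw [IsPGroup.iff_card, Nat.card_zpowers]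
      exact ⟨l, hl⟩
    refine hMA (zpowers u) h1 ?_ (mem_zpowers u)
    rw [eq_bot_iff, ← ha]
    exact Subgroup.commutator_mono (Subgroup.commutator_mono le_rfl hz) hz
  have haM : a ∈ M := by
    rw [← hae]
    exact mul_mem huM (hCM hwC)
  have hMb : IsPGroup p ↥(M.map (QuotientGroup.mk' (centralizer (V : Set G)))) := by
    rw [IsPGroup.iff_card]
    refine ⟨k, ?_⟩
    rw [← hk]
    have h2 := Subgroup.relIndex_ker (K := M) (QuotientGroup.mk' (centralizer (V : Set G)))
    rw [QuotientGroup.ker_mk'] at h2
    exact h2.symm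
  have hMbn : (M.map (QuotientGroup.mk' (centralizer (V : Set G)))).Normal :=
    Subgroup.Normal.map hMn _ (QuotientGroup.mk'_surjective _)
  exact le_pCore hMbn hMb ⟨a, haM, rfl⟩

theorem isStableEmbedding_subtype (hc : centralizer (pCore p G : Set G) ≤ pCore p G) (S : Sylow p G)
    (hJ : (thompsonSubgroupOf p (S : Subgroup G)).Normal)
    (hst : ∀ (V : Subgroup G) [V.Normal], V ≤ (omegaCenterThompson p ↥(S : Subgroup G)).map (S : Subgroup G).subtype →
      IsPStableOn p V) :
    IsStableEmbedding p (S : Subgroup G).subtype := by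
  refine ⟨(S : Subgroup G).subtype_injective, inferInstance, ⟨S, ?_⟩, hc, hJ, hst⟩
  rw [range_subtype]

theorem omegaCenterThompson_elementary (S : Type*) [Group S] [Finite S] (hS : IsPGroup p S) :
    IsElementaryAbelian p (omegaCenterThompson p S) :=
  Cfsg.Agent.Lib.PJ.omegaOne_elementary (Cfsg.Agent.Lib.PJ.isMulComm_inf_centralizer _)

/-- The case analysis for the normality of `W(S)`. -/
theorem wg_normal_of_stab (hO : pPrimeCore p G = ⊥) (hc : centralizer (pCore p G : Set G) ≤ pCore p G) (hst : Stab p G)
    (S : Sylow p G) (hi : ∀ H : Subgroup G, (S : Subgroup G) ≤ H → H ≠ ⊤ → HasNormalPComplement p ↥H) :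
    (Wg p (S : Subgroup G)).Normal := by
  classical
  have hDS := pCore_le_sylow p S
  have hSN : (S : Subgroup G) ≤ normalizer (thompsonSubgroupOf p (S : Subgroup G) : Set G) := by
    intro n hn
    rw [thompsonOf_eq_sSup]
    refine mem_normalizer_sSup _ S (famE_conj (S : Subgroup G)) n (fun A hA => ?_)
    rintro _ ⟨a, ha, rfl⟩
    exact mul_mem (mul_mem hn (hA.1 ha)) (inv_mem hn)
  by_cases hJ : normalizer (thompsonSubgroupOf p (S : Subgroup G) : Set G) = ⊤
  · have hJn : (thompsonSubgroupOf p (S : Subgroup G)).Normal := normalizer_eq_top_iff.1 hJ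
    refine (closure_mem_fam (p := p) (S := ↥(S : Subgroup G))).2 G _ (isStableEmbedding_subtype hc S hJn ?_)
    intro V hV hVle
    have hVe : IsElementaryAbelian p V := Cfsg.Agent.Lib.PQuad.isElementaryAbelian_mono
      (isElementaryAbelian_map' (omegaCenterThompson_elementary _ S.2) _) hVle
    have hVp : IsPGroup p V := S.2.to_le (hVle.trans (map_subtype_le _))
    obtain ⟨M, hM⟩ := hst V hV hVp
    exact pStableOn_of_stabOn V hVe M hM
  · have hnpc := hi _ hSN hJ
    have hNp := isPGroup_of_npc_overgroup hc _ (hDS.trans hSN) hnpc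
    have hNP : normalizer (thompsonSubgroupOf p (S : Subgroup G) : Set G) ≤ (S : Subgroup G) :=
      (S.3 hNp hSN).le
    obtain ⟨hW1, hW2⟩ := wg_props S
    have hWS : Wg p (S : Subgroup G) ≤ (S : Subgroup G) := map_subtype_le _
    have hSW : (S : Subgroup G) ≤ normalizer (Wg p (S : Subgroup G) : Set G) :=
      Subgroup.le_normalizer.trans (wg_normalizer (p := p) (S : Subgroup G))
    refine zj_W S ?_ (le_pCore_of_abelian hc hst S _ hW2.1 hWS hSW) ?_
    · intro B₁ hB₁ hB₁D _
      exact hst B₁ hB₁ ((pCore_isPGroup p).to_le hB₁D)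
    · rw [← thompsonOf_eq_sSup]
      exact hNP.trans hSW

end S1

section Main

variable {p : ℕ} [Fact p.Prime] {ι : Type}
variable {Q L : ι → ∀ (G : Type u) [Group G], Subgroup G → Subgroup G}

/-- **The general normal `p`-complement theorem** via local functors; `F` sees the inductive information. -/
theorem npc_main' (hp : p ≠ 2) (hL : LocalAxioms p Q L)
    (F : ∀ (G : Type u) [Group G] [Finite G] (P : Sylow p G), pPrimeCore p G = ⊥ →
      centralizer (pCore p G : Set G) ≤ pCore p G → Stab p G →
      (∀ H : Subgroup G, (P : Subgroup G) ≤ H → H ≠ ⊤ → HasNormalPComplement p ↥H) →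
      (∀ i, HasNormalPComplement p ↥(L i G (P : Subgroup G))) → HasNormalPComplement p G) :
    ∀ (G : Type u) [Group G] [Finite G] (P : Sylow p G),
      (∀ i, HasNormalPComplement p ↥(L i G (P : Subgroup G))) → HasNormalPComplement p G := by
  have key : ∀ n : ℕ, ∀ (G : Type u) [Group G] [Finite G], Nat.card G = n → ∀ (P : Sylow p G),
      (∀ i, HasNormalPComplement p ↥(L i G (P : Subgroup G))) → HasNormalPComplement p G := by
    intro n
    induction n using Nat.strong_induction_on with
    | _ n ih =>
      intro G _ _ hG P hyp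
      by_contra hnot
      have IH : IndHyp p L G := by
        intro X _ _ hX S hS
        exact ih (Nat.card X) (by rw [← hG]; exact hX) X rfl S hS
      have hi := step_i hL P IH hyp
      have hO := step_ii hL P IH hyp hnot
      have hD := step_iii hL P IH hyp hnot
      have hbar := step_iv hL P IH hyp hD
      obtain ⟨hc, hst⟩ := step_v hp P hi hO hbar
      exact hnot (F G P hO hc hst hi hyp)
  exact fun G _ _ P hyp => key _ G rfl P hyp

theorem wg_axioms : LocalAxioms (ι := Unit) p (fun _ G _ T => Wg p T) (fun _ G _ T => normalizer ((Wg p T : Subgroup G) : Set G)) := by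
  refine localAxioms_normalizer (p := p) (ι := Unit) (Q := fun _ G _ T => Wg p T)
    (fun _ G _ T => map_subtype_le _) ?_ ?_
  · intro _ G H _ _ f T h
    show (stableNormalClosure p ↥(T.map f)).map (T.map f).subtype = ((stableNormalClosure p ↥T).map T.subtype).map f
    rw [← closure_map_equiv (equivMapOfInj f T h), Subgroup.map_map, Subgroup.map_map]
    rfl
  · intro _ G _ _ T hT hne h
    have hnt : Nontrivial T := (Subgroup.nontrivial_iff_ne_bot T).2 hne
    have h1 := (stable_closure_props (p := p) hT).2.2.2.1 hnt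
    apply h1
    exact (Subgroup.map_eq_bot_iff_of_injective _ T.subtype_injective).1 h

/-- **Thompson's normal `p`-complement theorem in the form with `W(S)`**: S0628. -/
theorem thompson_npc_W (hp : p ≠ 2) {G : Type u} [Group G] [Finite G] (P : Sylow p G)
    (hN : HasNormalPComplement p ↥(normalizer (Wg p (P : Subgroup G) : Set G))) :
    HasNormalPComplement p G := by
  refine npc_main' (ι := Unit) hp wg_axioms ?_ G P (fun _ => hN)
  intro G _ _ P hO hc hst hi hyp
  exact npc_of_normalizer_top (wg_normal_of_stab hO hc hst P hi) (hyp ())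

end Main

end Cfsg.Agent.Lib.PZJ
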