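import Mathlib
import Cfsg.Agent.Lib.PW4
import Cfsg.Agent.Lib.LQd5
import Cfsg.Agent.Lib.LQuad6
import Cfsg.Agent.Lib.LZJD

/-! Absence of `Qd(p)` in `p`-soluble groups and in groups with abelian Sylow `2`-subgroups; action stability. -/

set_option autoImplicit false
set_option linter.unusedSectionVars false
set_option linter.unusedVariables false
set_option linter.style.haveILetI false

namespace Cfsg.Agent.Lib.LSt

open Subgroup Cfsg Cfsg.Agent.Lib.LDick Cfsg.Agent.Lib.PZJ Cfsg.Agent.Lib.H1Core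
open scoped commutatorElement

universe u

variable {p : ℕ} [Fact p.Prime]

/-- The diagonal element `diag(2, 2⁻¹)`. -/
def dd (p : ℕ) [Fact p.Prime] (hp : 5 ≤ p) : SL2 (ZMod p) :=
  ⟨!![2, 0; 0, 2⁻¹], by
    haveI : Fact (2 < p) := ⟨by omega⟩
    have h2 : (2 : ZMod p) ≠ 0 := by
      intro h
      have h3 : ((2 : ℕ) : ZMod p) = 0 := by exact_mod_cast h
      rw [ZMod.natCast_eq_zero_iff] at h3
      have := Nat.le_of_dvd (by norm_num) h3
      omega
    simp [Matrix.det_fin_two, h2]⟩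

theorem two_ne (hp : 5 ≤ p) : (2 : ZMod p) ≠ 0 := by
  intro h
  have h3 : ((2 : ℕ) : ZMod p) = 0 := by exact_mod_cast h
  rw [ZMod.natCast_eq_zero_iff] at h3
  have := Nat.le_of_dvd (by norm_num) h3
  omega

theorem three_ne (hp : 5 ≤ p) : (3 : ZMod p) ≠ 0 := by
  intro h
  have h3 : ((3 : ℕ) : ZMod p) = 0 := by exact_mod_cast h
  rw [ZMod.natCast_eq_zero_iff] at h3
  have := Nat.le_of_dvd (by norm_num) h3
  omega

theorem dd_pow (hp : 5 ≤ p) (n : ℕ) : ((dd p hp) ^ n) 0 0 = 2 ^ n ∧ ((dd p hp) ^ n) 0 1 = 0 ∧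
    ((dd p hp) ^ n) 1 0 = 0 ∧ ((dd p hp) ^ n) 1 1 = (2⁻¹) ^ n := by
  induction n with
  | zero => simp
  | succ n ih =>
    obtain ⟨h1, h2, h3, h4⟩ := ih
    rw [pow_succ]
    have d00 : (dd p hp) 0 0 = 2 := rfl
    have d01 : (dd p hp) 0 1 = 0 := rfl
    have d10 : (dd p hp) 1 0 = 0 := rfl
    have d11 : (dd p hp) 1 1 = 2⁻¹ := rfl
    simp [h1, h2, h3, h4, d00, d01, d10, d11, pow_succ]

theorem dd_pow_card (hp : 5 ≤ p) : (dd p hp) ^ (p - 1) = 1 := by
  obtain ⟨h1, h2, h3, h4⟩ := dd_pow hp (p - 1)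
  have h5 := ZMod.pow_card_sub_one_eq_one (two_ne hp)
  have h6 := ZMod.pow_card_sub_one_eq_one (inv_ne_zero (two_ne hp))
  apply sl_ext
  · rw [h1, h5]; simp
  · rw [h2]; simp
  · rw [h3]; simp
  · rw [h4, h6]; simp

theorem dd_e12 (hp : 5 ≤ p) (t : ZMod p) : dd p hp * e12 t * (dd p hp)⁻¹ = e12 (4 * t) := by
  have d00 : (dd p hp) 0 0 = 2 := rfl
  have d01 : (dd p hp) 0 1 = 0 := rfl
  have d10 : (dd p hp) 1 0 = 0 := rfl
  have d11 : (dd p hp) 1 1 = 2⁻¹ := rfl
  have h2 := two_ne hp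
  apply sl_ext <;> simp [d00, d01, d10, d11, h2]
  ring

theorem dd_e21 (hp : 5 ≤ p) (t : ZMod p) : dd p hp * e21 t * (dd p hp)⁻¹ = e21 (2⁻¹ * 2⁻¹ * t) := by
  have d00 : (dd p hp) 0 0 = 2 := rfl
  have d01 : (dd p hp) 0 1 = 0 := rfl
  have d10 : (dd p hp) 1 0 = 0 := rfl
  have d11 : (dd p hp) 1 1 = 2⁻¹ := rfl
  have h2 := two_ne hp
  apply sl_ext <;> simp [d00, d01, d10, d11, h2]
  ring

theorem e12_one_mem (H : Subgroup (SL2 (ZMod p))) (c : ZMod p) (hc : c ≠ 0) (h : e12 c ∈ H) : e12 1 ∈ H := by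
  have h1 := H.pow_mem h (c⁻¹).val
  rw [e12_pow, ZMod.natCast_zmod_val, inv_mul_cancel₀ hc] at h1
  exact h1

theorem e21_one_mem (H : Subgroup (SL2 (ZMod p))) (c : ZMod p) (hc : c ≠ 0) (h : e21 c ∈ H) : e21 1 ∈ H := by
  have h1 := H.pow_mem h (c⁻¹).val
  rw [e21_pow, ZMod.natCast_zmod_val, inv_mul_cancel₀ hc] at h1
  exact h1

theorem sl2_top_of_index (hp : 5 ≤ p) (H : Subgroup (SL2 (ZMod p))) [hH : H.Normal]
    (h : (∃ m : ℕ, H.index = p ^ m) ∨ H.index.Coprime p) : H = ⊤ := by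
  classical
  have hk : ∀ a : ZMod p, ∃ n : ℕ, (n : ZMod p) = a := fun a => ⟨a.val, ZMod.natCast_zmod_val a⟩
  have hcard : Nat.card (SL2 (ZMod p) ⧸ H) = H.index := rfl
  have hmem : ∀ g : SL2 (ZMod p), g ^ Nat.card (SL2 (ZMod p) ⧸ H) ∈ H := by
    intro g
    rw [← QuotientGroup.eq_one_iff, QuotientGroup.mk_pow, pow_card_eq_one']
  rcases h with ⟨m, hm⟩ | hc
  · -- `dd` lies in `H`
    have h1 : dd p hp ∈ H := by
      have h2 := hmem (dd p hp)
      rw [hcard, hm] at h2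
      have h3 : (dd p hp : SL2 (ZMod p) ⧸ H) ^ (p - 1) = 1 := by
        rw [← QuotientGroup.mk_pow, dd_pow_card hp]; rfl
      have h4 : (dd p hp : SL2 (ZMod p) ⧸ H) ^ (p ^ m) = 1 := by
        rw [← QuotientGroup.mk_pow, QuotientGroup.eq_one_iff]; exact h2
      have h5 := Nat.dvd_gcd (orderOf_dvd_of_pow_eq_one h3) (orderOf_dvd_of_pow_eq_one h4)
      have h6 : Nat.gcd (p - 1) (p ^ m) = 1 := by
        apply Nat.Coprime.pow_right
        have hpp : p.Prime := Fact.out
        exact (Nat.coprime_of_lt_prime (by omega) (by omega) hpp).symm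
      rw [h6] at h5
      have h7 := orderOf_eq_one_iff.1 (Nat.dvd_one.1 h5)
      exact (QuotientGroup.eq_one_iff _).1 h7
    refine sl2_gen hk H ?_ ?_
    · refine e12_one_mem H 3 (three_ne hp) ?_
      have h2 : e12 (3 : ZMod p) = dd p hp * (e12 1 * (dd p hp)⁻¹ * (e12 1)⁻¹) := by
        have h3 := dd_e12 hp 1
        have e : dd p hp * (e12 1 * (dd p hp)⁻¹ * (e12 1)⁻¹) = (dd p hp * e12 1 * (dd p hp)⁻¹) * (e12 1)⁻¹ := by group
        rw [e, h3, e12_inv, e12_add]
        congr 1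
        ring
      rw [h2]
      exact mul_mem h1 (hH.conj_mem _ (inv_mem h1) _)
    · refine e21_one_mem H (2⁻¹ * 2⁻¹ - 1) ?_ ?_
      · intro h0
        have h2 := two_ne hp
        have h3 : (2⁻¹ * 2⁻¹ - 1 : ZMod p) * (2 * 2) = 1 - 4 := by
          field_simp
          ring
        rw [h0, zero_mul] at h3
        have h4 : (3 : ZMod p) = 0 := by linear_combination h3
        exact three_ne hp h4
      · have h2 : e21 (2⁻¹ * 2⁻¹ - 1 : ZMod p) = dd p hp * (e21 1 * (dd p hp)⁻¹ * (e21 1)⁻¹) := by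
          have h3 := dd_e21 hp 1
          have e : dd p hp * (e21 1 * (dd p hp)⁻¹ * (e21 1)⁻¹) = (dd p hp * e21 1 * (dd p hp)⁻¹) * (e21 1)⁻¹ := by group
          rw [e, h3, e21_inv, e21_add]
          congr 1
          ring
        rw [h2]
        exact mul_mem h1 (hH.conj_mem _ (inv_mem h1) _)
  · have hel : ∀ g : SL2 (ZMod p), g ^ p = 1 → g ∈ H := by
      intro g hg
      have h2 := hmem g
      have h3 : (g : SL2 (ZMod p) ⧸ H) ^ p = 1 := by
        rw [← QuotientGroup.mk_pow, hg]; rfl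
      have h4 : (g : SL2 (ZMod p) ⧸ H) ^ Nat.card (SL2 (ZMod p) ⧸ H) = 1 := pow_card_eq_one'
      have h5 := Nat.dvd_gcd (orderOf_dvd_of_pow_eq_one h3) (orderOf_dvd_of_pow_eq_one h4)
      rw [hcard, Nat.gcd_comm, hc] at h5
      have h7 := orderOf_eq_one_iff.1 (Nat.dvd_one.1 h5)
      exact (QuotientGroup.eq_one_iff _).1 h7
    refine sl2_gen hk H (hel _ ?_) (hel _ ?_)
    · rw [e12_pow]; simp
    · rw [e21_pow]; simp

theorem sl2_not_pSolvable (hp : 5 ≤ p) : ¬ IsPSolvable p (SL2 (ZMod p)) := by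
  rintro ⟨n, H, h0, hl, hm, hn, hi⟩
  have key : ∀ i : Fin (n + 1), H i = ⊤ := by
    intro i
    refine Fin.reverseInduction (motive := fun i => H i = ⊤) hl ?_ i
    intro j hj
    haveI := hn j.castSucc
    have h1 := hi j
    rw [hj, Subgroup.relIndex_top_right] at h1
    exact sl2_top_of_index hp _ h1
  have h1 := key 0
  rw [h0] at h1
  have h2 : e12 (1 : ZMod p) ∈ (⊥ : Subgroup (SL2 (ZMod p))) := by rw [h1]; exact mem_top _
  rw [mem_bot] at h2
  have h3 : e12 (1 : ZMod p) = e12 0 := by rw [h2]; simp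
  exact one_ne_zero (e12_injective h3)

theorem sl2_commutator_top (hp : 5 ≤ p) : commutator (SL2 (ZMod p)) = ⊤ := by
  have hk : ∀ a : ZMod p, ∃ n : ℕ, (n : ZMod p) = a := fun a => ⟨a.val, ZMod.natCast_zmod_val a⟩
  refine sl2_gen hk _ ?_ ?_
  · refine e12_one_mem _ 3 (three_ne hp) ?_
    have h2 : e12 (3 : ZMod p) = ⁅dd p hp, e12 1⁆ := by
      have h3 := dd_e12 hp 1
      rw [commutatorElement_def, h3, e12_inv, e12_add]
      congr 1
      ring
    rw [h2]
    exact Subgroup.commutator_mem_commutator (mem_top _) (mem_top _)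
  · refine e21_one_mem _ (2⁻¹ * 2⁻¹ - 1) ?_ ?_
    · intro h0
      have h2 := two_ne hp
      have h3 : (2⁻¹ * 2⁻¹ - 1 : ZMod p) * (2 * 2) = 1 - 4 := by
        field_simp
        ring
      rw [h0, zero_mul] at h3
      have h4 : (3 : ZMod p) = 0 := by linear_combination h3
      exact three_ne hp h4
    · have h2 : e21 (2⁻¹ * 2⁻¹ - 1 : ZMod p) = ⁅dd p hp, e21 1⁆ := by
        have h3 := dd_e21 hp 1
        rw [commutatorElement_def, h3, e21_inv, e21_add]
        congr 1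
        ring
      rw [h2]
      exact Subgroup.commutator_mem_commutator (mem_top _) (mem_top _)

theorem sl2_not_solvable (hp : 5 ≤ p) : ¬ Group.IsSolvable (SL2 (ZMod p)) := by
  intro h
  haveI : Nontrivial (SL2 (ZMod p)) := by
    refine ⟨⟨e12 1, 1, ?_⟩⟩
    intro h3
    have h4 : e12 (1 : ZMod p) = e12 0 := by rw [h3]; simp
    exact one_ne_zero (e12_injective h4)
  have h1 := Group.IsSolvable.commutator_lt_top_of_nontrivial (SL2 (ZMod p))
  rw [sl2_commutator_top hp] at h1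
  exact lt_irrefl _ h1

variable {G : Type u} [Group G] [Finite G]

theorem not_involves_qd_of_solvable (hp : 5 ≤ p) (h : Group.IsSolvable G) : ¬ Involves ↥(qd p) G := by
  intro hi
  obtain ⟨K, R, hR, ⟨e⟩⟩ := Cfsg.Agent.Lib.LQd.involves_sl2_of_qd hi
  apply sl2_not_solvable hp
  haveI := hR
  have h1 : Group.IsSolvable ↥K := inferInstance
  have h2 : Group.IsSolvable (↥K ⧸ R.subgroupOf K) := inferInstance
  exact solvable_of_surjective (f := e.toMonoidHom) e.surjective

theorem not_involves_qd_of_pSolvable (hp : 5 ≤ p) (h : IsPSolvable p G) : ¬ Involves ↥(qd p) G := by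
  intro hi
  obtain ⟨K, R, hR, ⟨e⟩⟩ := Cfsg.Agent.Lib.LQd.involves_sl2_of_qd hi
  apply sl2_not_pSolvable hp
  haveI := hR
  have h1 : IsPSolvable p ↥K := Cfsg.Agent.Lib.PSolv.isPSolvable_subgroup h K
  have h2 := Cfsg.Agent.Lib.PSolv.isPSolvable_of_surjective (QuotientGroup.mk' (R.subgroupOf K))
    (QuotientGroup.mk'_surjective _) h1
  exact Cfsg.Agent.Lib.PSolv.isPSolvable_of_surjective e.toMonoidHom e.surjective h2

theorem not_involves_qd_of_sylow_two (hp : p ≠ 2) (hab : ∀ T : Sylow 2 G, IsMulCommutative T) :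
    ¬ Involves ↥(qd p) G := by
  classical
  haveI : Fact (Nat.Prime 2) := ⟨Nat.prime_two⟩
  intro hi
  obtain ⟨K, R, hR, ⟨e⟩⟩ := Cfsg.Agent.Lib.LQd.involves_sl2_of_qd hi
  obtain ⟨T₀⟩ : Nonempty (Sylow 2 G) := inferInstance
  refine Cfsg.Agent.Lib.LQuad.sylow2_not_comm hp ⊤ K R le_top hR e (T₀.subtype le_top) ?_
  rw [T₀.coe_subtype le_top]
  exact isMulComm_comap (hab T₀) _ (⊤ : Subgroup G).subtype_injective

theorem not_involves_quot (h : ¬ Involves ↥(qd p) G) (N : Subgroup G) [N.Normal] :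
    ¬ Involves ↥(qd p) (G ⧸ N) := by
  intro h'
  apply h
  refine Cfsg.Agent.Lib.LQd.involves_of_surj ⊤ ((QuotientGroup.mk' N).comp (⊤ : Subgroup G).subtype) ?_ h'
  intro y
  obtain ⟨x, rfl⟩ := QuotientGroup.mk'_surjective N y
  exact ⟨⟨x, mem_top x⟩, rfl⟩

theorem not_involves_sub (h : ¬ Involves ↥(qd p) G) (H : Subgroup G) : ¬ Involves ↥(qd p) ↥H := fun h' =>
  h (Cfsg.Agent.Lib.LQd.involves_of_surj H (MonoidHom.id H) Function.surjective_id h')

theorem pStableOn_of_free (hp : p ≠ 2) (h : ¬ Involves ↥(qd p) G) (V : Subgroup G) [hVn : V.Normal]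
    (hV : IsElementaryAbelian p V) : IsPStableOn p V := by
  have hst := Cfsg.Agent.Lib.LQd.npstable_of_not_involves hp h
  have hVp : IsPGroup p V := by
    rw [isPGroup_iff_pow_pow_eq_one]
    intro x
    exact ⟨1, Subtype.ext (by simpa using hV.2 x x.2)⟩
  obtain ⟨M, hM⟩ := Cfsg.Agent.Lib.LZJD.stab_of_normalizerPStable hst V hVn hVp
  exact pStableOn_of_stabOn V hV M hM

theorem action_pStable_of_free (hp : p ≠ 2) (h : ¬ Involves ↥(qd p) G) : IsActionPStable p G := by
  classical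
  refine ⟨fun V _ hV => pStableOn_of_free hp h V hV, ?_, ?_⟩
  · -- the section `O_p(G)/Φ(O_p(G))`
    set D := pCore p G with hD
    have hDp : IsPGroup p D := pCore_isPGroup p
    haveI hDn : D.Normal := pCore_normal p G
    set N := (frattini ↥D).map D.subtype with hN
    intro a ha
    set π := QuotientGroup.mk' N with hπ
    have hsurj := QuotientGroup.mk'_surjective N
    have hker : ∀ x : G, π x = 1 ↔ x ∈ N := fun x => by
      rw [hπ, QuotientGroup.mk'_apply, QuotientGroup.eq_one_iff]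
    set Kb : Subgroup (G ⧸ N) := D.map π with hKb
    haveI hKbn : Kb.Normal := Subgroup.Normal.map hDn π hsurj
    have hKbe : IsElementaryAbelian p Kb := by
      refine ⟨isMulComm_of_forall ?_, ?_⟩
      · rintro _ ⟨x, hx, rfl⟩ _ ⟨y, hy, rfl⟩
        rw [← map_mul, ← map_mul]
        have h1 : ⁅(⟨x, hx⟩ : ↥D), (⟨y, hy⟩ : ↥D)⁆ ∈ frattini ↥D :=
          Cfsg.Agent.Lib.PGrp.commutator_le_frattini hDp (Subgroup.commutator_mem_commutator (mem_top _) (mem_top _))
        have h2 : ⁅x, y⁆ ∈ N := ⟨_, h1, rfl⟩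
        have h3 := (hker _).2 h2
        rw [map_commutatorElement, commutatorElement_eq_one_iff_mul_comm] at h3
        rw [map_mul, map_mul, h3]
      · rintro _ ⟨x, hx, rfl⟩
        rw [← map_pow]
        exact (hker _).2 (Cfsg.Agent.Lib.PGrp.pow_mem_frattini_map D hDp x hx)
    have hstab := pStableOn_of_free hp (not_involves_quot h N) Kb hKbe
    have hq : ⁅⁅Kb, zpowers (π a)⁆, zpowers (π a)⁆ = ⊥ := by
      have e1 : zpowers (π a) = (zpowers a).map π := (MonoidHom.map_zpowers π a).symm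
      rw [hKb, e1, ← Subgroup.map_commutator, ← Subgroup.map_commutator, eq_bot_iff]
      rintro _ ⟨z, hz, rfl⟩
      exact (hker z).2 (ha hz)
    have h1 := hstab (π a) hq
    set C := centralizer (Kb : Set (G ⧸ N)) with hC
    haveI hCn : C.Normal := Subgroup.normal_centralizer
    set ρ := QuotientGroup.mk' C with hρ
    have hρs := QuotientGroup.mk'_surjective C
    let O := pCore p ((G ⧸ N) ⧸ C)
    haveI hOn : O.Normal := pCore_normal p _
    let E : Subgroup G := (O.comap ρ).comap π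
    have hsk : sectionKernel (pCore p G) N = C.comap π := rfl
    refine ⟨E, ?_, ?_, ?_, ?_⟩
    · exact Subgroup.Normal.comap (Subgroup.Normal.comap hOn ρ) π
    · rw [hsk]
      intro x hx
      show ρ (π x) ∈ O
      have : ρ (π x) = 1 := by
        rw [hρ, QuotientGroup.mk'_apply, QuotientGroup.eq_one_iff]
        exact hx
      rw [this]
      exact one_mem _
    · rw [hsk, Subgroup.relIndex_comap, Subgroup.map_comap_eq_self_of_surjective hsurj]
      have h2 := Subgroup.relIndex_ker (K := O.comap ρ) ρ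
      rw [hρ, QuotientGroup.ker_mk', ← hρ, Subgroup.map_comap_eq_self_of_surjective hρs] at h2
      rw [h2]
      obtain ⟨k, hk⟩ := IsPGroup.iff_card.1 (pCore_isPGroup p : IsPGroup p (pCore p ((G ⧸ N) ⧸ C)))
      exact ⟨k, hk⟩
    · exact h1
  · intro S V _ hV
    refine pStableOn_of_free hp (not_involves_sub h _) V ?_
    have h1 : IsElementaryAbelian p ((omegaCenterThompson p ↥(S : Subgroup G)).map (S : Subgroup G).subtype) :=
      isElementaryAbelian_map' (omegaCenterThompson_elementary _ S.2) _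
    have h2 := Cfsg.Agent.Lib.PQuad.isElementaryAbelian_mono h1 hV
    have h3 := isElementaryAbelian_comap h2 _ (normalizer (thompsonSubgroupOf p (S : Subgroup G) : Set G)).subtype_injective
    rwa [Subgroup.comap_map_eq_self_of_injective (normalizer (thompsonSubgroupOf p (S : Subgroup G) : Set G)).subtype_injective] at h3

end Cfsg.Agent.Lib.LSt
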