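import Mathlib
import Cfsg.Agent.Lib.LSt1

/-! `W(S)` in a `p`-soluble group, `p ≥ 5`, and Thompson factorization in soluble groups. -/

set_option autoImplicit false
set_option linter.unusedSectionVars false
set_option linter.unusedVariables false
set_option linter.style.haveILetI false

namespace Cfsg.Agent.Lib.LSt

open Subgroup Cfsg Cfsg.Agent.Lib.LDick Cfsg.Agent.Lib.PZJ Cfsg.Agent.Lib.H1Core
open scoped commutatorElement

universe u

variable {p : ℕ} [Fact p.Prime] {G : Type u} [Group G] [Finite G]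

theorem normalizer_W_supplement (hp : 5 ≤ p) (hsep : IsPSolvable p G) (S : Sylow p G) :
    pPrimeCore p G ⊔ normalizer (((stableNormalClosure p ↥(S : Subgroup G)).map (S : Subgroup G).subtype) : Set G) = ⊤ := by
  classical
  set O := pPrimeCore p G with hO
  haveI hOn : O.Normal := pPrimeCore_normal p G
  set π := QuotientGroup.mk' O with hπ
  have hsurj := QuotientGroup.mk'_surjective O
  have hker : ∀ x : G, π x = 1 ↔ x ∈ O := fun x => by
    rw [hπ, QuotientGroup.mk'_apply, QuotientGroup.eq_one_iff]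
  have hsol : IsPSolvable p (G ⧸ O) := Cfsg.Agent.Lib.PSolv.isPSolvable_of_surjective π hsurj hsep
  have hObar : pPrimeCore p (G ⧸ O) = ⊥ := Cfsg.Agent.Lib.PJ.pPrimeCore_quot
  have hc : centralizer (pCore p (G ⧸ O) : Set (G ⧸ O)) ≤ pCore p (G ⧸ O) :=
    Cfsg.Agent.Lib.PSolv.centralizer_le_of_isPSolvable hObar (Cfsg.Agent.Lib.PSolv.isPSolvable_subgroup hsol _)
  have hst := action_pStable_of_free (p := p) (by omega) (not_involves_qd_of_pSolvable hp hsol)
  let Sb : Sylow p (G ⧸ O) := S.mapSurjective hsurj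
  have hWn := wg_normal_of_action hst hc Sb
  have hinj : ∀ x ∈ (S : Subgroup G), π x = 1 → x = 1 := by
    intro x hx h1
    exact Cfsg.Agent.Lib.PJ.eq_one_of_mem_pPrimeCore S.2 hx ((hker x).1 h1)
  have hmap : Wg p (Sb : Subgroup (G ⧸ O)) = (Wg p (S : Subgroup G)).map π :=
    wg_axioms.Q_map () G (G ⧸ O) π (S : Subgroup G) hinj
  rw [hmap] at hWn
  set X : Subgroup G := (stableNormalClosure p ↥(S : Subgroup G)).map (S : Subgroup G).subtype with hX
  have hXW : X = Wg p (S : Subgroup G) := rfl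
  have hXp : IsPGroup p X := S.2.to_le (map_subtype_le _)
  rw [eq_top_iff]
  intro g _
  obtain ⟨o, ho, n, hn, rfl⟩ := Cfsg.Agent.Lib.PJ.exists_mul_normalizer O (pPrimeCore_coprime p) X hXp g (by
    intro x hx
    have h1 : π x ∈ X.map π := ⟨x, hx, rfl⟩
    have h2 := hWn.conj_mem (π x) (by rw [← hXW]; exact h1) (π g)
    rw [← hXW] at h2
    obtain ⟨x', hx', he⟩ := h2
    have h3 : g * x * g⁻¹ * x'⁻¹ ∈ O := by
      apply (hker _).1
      rw [map_mul, map_mul, map_mul, map_inv, map_inv, he]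
      group
    have e : g * x * g⁻¹ = (g * x * g⁻¹ * x'⁻¹) * x' := by group
    rw [e]
    exact mul_mem_sup h3 hx')
  exact mul_mem_sup ho hn

theorem thompson_factorization_solvable (hp : p ≠ 2) (hs : Group.IsSolvable G)
    (h3 : p = 3 → ∀ T : Sylow 2 G, IsMulCommutative T)
    (hF : ∀ N : Subgroup G, N.Normal → Nat.Coprime (Nat.card N) p → N = ⊥) (P : Sylow p G) (g : G) :
    ∃ a ∈ normalizer (thompsonSubgroupOf p (P : Subgroup G) : Set G),
      ∃ c ∈ centralizer {x : G | x ∈ (P : Subgroup G) ∧ (∀ y ∈ (P : Subgroup G), x * y = y * x) ∧ x ^ p = 1}, g = a * c := by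
  classical
  have hpp : p.Prime := Fact.out
  have hfree : ¬ Involves ↥(qd p) G := by
    by_cases h3' : p = 3
    · exact not_involves_qd_of_sylow_two hp (h3 h3')
    · refine not_involves_qd_of_solvable ?_ hs
      have h2 := hpp.two_le
      have h4 : p ≠ 4 := by
        rintro rfl
        exact absurd hpp (by norm_num)
      omega
  have hst := Cfsg.Agent.Lib.LZJD.stab_of_normalizerPStable (Cfsg.Agent.Lib.LQd.npstable_of_not_involves hp hfree)
  have hO : pPrimeCore p G = ⊥ := hF _ (pPrimeCore_normal p G) (pPrimeCore_coprime p)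
  have hc : centralizer (pCore p G : Set G) ≤ pCore p G := by
    have h1 := Cfsg.Agent.Lib.H1Fit.fitting_eq_pCore_of_pPrimeCore_eq_bot (G := G) p hO
    rw [← h1]
    exact Cfsg.Agent.Lib.H1Fit.centralizer_fitting_le
  set S₀ : Set G := {x : G | x ∈ (P : Subgroup G) ∧ (∀ y ∈ (P : Subgroup G), x * y = y * x) ∧ x ^ p = 1} with hS₀
  have hWP : closure S₀ ≤ (P : Subgroup G) ⊓ centralizer ((P : Subgroup G) : Set G) := by
    rw [closure_le]
    rintro x ⟨h1, h2, -⟩
    refine mem_inf.2 ⟨h1, ?_⟩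
    rw [mem_centralizer_iff]
    intro y hy
    exact (h2 y hy).symm
  obtain ⟨n, hn, c, hc', rfl⟩ := thompson_factorization hp P hc (closure S₀) hWP
    (fun B₁ hB₁ hB₁D hB₁e => hst B₁ hB₁ ((pCore_isPGroup p).to_le hB₁D)) g
  refine ⟨n, ?_, c, ?_, rfl⟩
  · rw [thompsonOf_eq_sSup]
    exact hn
  · have hsub : S₀ ⊆ ((normalClosure ((closure S₀ : Subgroup G) : Set G) : Subgroup G) : Set G) :=
      fun x hx => subset_normalClosure (Subgroup.subset_closure hx)
    exact centralizer_le hsub hc'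

end Cfsg.Agent.Lib.LSt
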