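import Mathlib
import Cfsg.Agent.Lib.LSt1

/-! Quadratic elements in `p`-soluble groups: `p = 3`. -/

set_option autoImplicit false
set_option linter.unusedSectionVars false
set_option linter.unusedVariables false
set_option linter.style.haveILetI false

namespace Cfsg.Agent.Lib.LSt

open Subgroup Cfsg Cfsg.Agent.Lib.LDick Cfsg.Agent.Lib.PZJ Cfsg.Agent.Lib.H1Core
open scoped commutatorElement

universe u

variable {p : ℕ} [Fact p.Prime] {G : Type*} [Group G] [Finite G]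

theorem five_le_of_ne (hp : p ≠ 2) (h3 : p ≠ 3) : 5 ≤ p := by
  have hpp : p.Prime := Fact.out
  have h2 := hpp.two_le
  have h4 : p ≠ 4 := by
    rintro rfl
    exact absurd hpp (by norm_num)
  omega

/-- A section `SL₂(p)` in a subgroup `H'` which is `p`-soluble forces `p = 3`. -/
theorem eq_three_of_section (hp : p ≠ 2) (H' K L : Subgroup G) (hKH : K ≤ H') (hL : (L.subgroupOf K).Normal)
    (e : (K ⧸ L.subgroupOf K) ≃* SL2 (ZMod p)) (hsep : IsPSolvable p ↥H') : p = 3 := by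
  by_contra h3
  apply sl2_not_pSolvable (five_le_of_ne hp h3)
  haveI := hL
  have h1 : IsPSolvable p ↥K := Cfsg.Agent.Lib.PSolv.isPSolvable_comap (Subgroup.inclusion hKH)
    (Subgroup.inclusion_injective hKH) hsep
  have h2 := Cfsg.Agent.Lib.PSolv.isPSolvable_of_surjective (QuotientGroup.mk' (L.subgroupOf K))
    (QuotientGroup.mk'_surjective _) h1
  exact Cfsg.Agent.Lib.PSolv.isPSolvable_of_surjective e.toMonoidHom e.surjective h2

theorem quad_sep (hp : p ≠ 2) (V H : Subgroup G) (hV : IsElementaryAbelian p V)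
    (hHV : H ≤ normalizer (V : Set G)) (hf : H ⊓ centralizer (V : Set G) = ⊥) (hsep : IsPSolvable p H) (a : G)
    (haH : a ∈ H) (hq : ⁅⁅V, zpowers a⁆, zpowers a⁆ = ⊥) (hna : a ∉ (pCore p H).map H.subtype) :
    p = 3 ∧ ∃ (K L : Subgroup G) (hL : (L.subgroupOf K).Normal), K ≤ H ∧
      Nonempty ((K ⧸ L.subgroupOf K) ≃* Matrix.SpecialLinearGroup (Fin 2) (ZMod 3)) := by
  obtain ⟨K, L, hL, hKH, ⟨e⟩⟩ := Cfsg.Agent.Lib.LQuad.section_of_not_core hp V H hV hHV hf a haH hq hna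
  have h3 := eq_three_of_section hp H K L hKH hL e hsep
  subst h3
  exact ⟨rfl, K, L, hL, hKH, ⟨e⟩⟩

theorem two_quad (hp : p ≠ 2) (V H : Subgroup G) (hV : IsElementaryAbelian p V)
    (hHV : H ≤ normalizer (V : Set G)) (hf : H ⊓ centralizer (V : Set G) = ⊥) (a : G) (haH : a ∈ H)
    (hq : ⁅⁅V, zpowers a⁆, zpowers a⁆ = ⊥) (Q : Subgroup G) (hQH : Q ≤ H) (hQn : H ≤ normalizer (Q : Set G))
    (hQ : (Nat.card Q).Coprime p) (hQa : ⁅Q, zpowers a⁆ ≠ ⊥) :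
    p = 3 ∧ ∃ (K L : Subgroup G) (hL : (L.subgroupOf K).Normal), K ≤ H ∧
      Nonempty ((K ⧸ L.subgroupOf K) ≃* Matrix.SpecialLinearGroup (Fin 2) (ZMod 3)) := by
  classical
  have qa := fun v hv => Cfsg.Agent.Lib.LQuad.quad_elt (V := V) hq (v := v) hv
  have hap : a ^ p = 1 := Cfsg.Agent.Lib.LQuad.quad_pow V H hV hHV hf a haH qa
  have hQconj : ∀ h ∈ H, ∀ q ∈ Q, h * q * h⁻¹ ∈ Q := fun h hh q hq' => (mem_normalizer_iff.1 (hQn hh) q).1 hq'
  have haz : ∀ z : ℤ, a ^ z ∈ H := fun z => zpow_mem haH z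
  let H' : Subgroup G :=
    { carrier := {x | ∃ q ∈ Q, ∃ z : ℤ, x = q * a ^ z}
      one_mem' := ⟨1, one_mem _, 0, by simp⟩
      mul_mem' := by
        rintro _ _ ⟨q, hq', z, rfl⟩ ⟨r, hr, w, rfl⟩
        refine ⟨q * (a ^ z * r * (a ^ z)⁻¹), mul_mem hq' (hQconj _ (haz z) r hr), z + w, ?_⟩
        rw [zpow_add]
        group
      inv_mem' := by
        rintro _ ⟨q, hq', z, rfl⟩
        refine ⟨a ^ (-z) * q⁻¹ * (a ^ (-z))⁻¹, hQconj _ (haz _) _ (inv_mem hq'), -z, ?_⟩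
        group }
  have hH'H : H' ≤ H := by
    rintro _ ⟨q, hq', z, rfl⟩
    exact mul_mem (hQH hq') (haz z)
  have hQH' : Q ≤ H' := fun q hq' => ⟨q, hq', 0, by simp⟩
  have haH' : a ∈ H' := ⟨1, one_mem _, 1, by simp⟩
  have hf' : H' ⊓ centralizer (V : Set G) = ⊥ := by
    rw [eq_bot_iff, ← hf]
    exact inf_le_inf_right _ hH'H
  let K₀ : Subgroup ↥H' := Q.comap H'.subtype
  haveI hK₀n : K₀.Normal := by
    refine ⟨fun n hn g => ?_⟩
    exact hQconj _ (hH'H g.2) _ hn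
  have hK₀card : Nat.card K₀ = Nat.card Q := by
    have h1 : K₀.map H'.subtype = Q := by
      rw [Subgroup.map_comap_eq, range_subtype]
      exact inf_eq_right.2 hQH'
    rw [← h1, Subgroup.card_map_of_injective H'.subtype_injective]
  have hsep : IsPSolvable p ↥H' := by
    refine isPSolvable_of_series (⊥ : Subgroup ↥H') K₀ bot_le IsPGroup.of_bot ?_ ?_
    · rw [Subgroup.relIndex_bot_left, hK₀card]
      exact hQ
    · rw [isPGroup_iff_pow_pow_eq_one]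
      intro y
      obtain ⟨⟨x, q, hq', z, rfl⟩, rfl⟩ := QuotientGroup.mk_surjective y
      refine ⟨1, ?_⟩
      have hazH' : a ^ z ∈ H' := zpow_mem haH' z
      have e1 : ((⟨q * a ^ z, ⟨q, hq', z, rfl⟩⟩ : ↥H') : ↥H' ⧸ K₀) = ((⟨a ^ z, hazH'⟩ : ↥H') : ↥H' ⧸ K₀) := by
        rw [QuotientGroup.eq]
        show (q * a ^ z)⁻¹ * a ^ z ∈ Q
        have e : (q * a ^ z)⁻¹ * a ^ z = a ^ (-z) * q⁻¹ * (a ^ (-z))⁻¹ := by group
        rw [e]
        exact hQconj _ (haz _) _ (inv_mem hq')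
      rw [e1, pow_one, ← QuotientGroup.mk_pow]
      have e2 : (⟨a ^ z, hazH'⟩ : ↥H') ^ p = 1 := by
        apply Subtype.ext
        show (a ^ z) ^ p = 1
        rw [← zpow_natCast, ← zpow_mul, mul_comm, zpow_mul, zpow_natCast, hap, one_zpow]
      rw [e2]
      rfl
  have hna : a ∉ (pCore p ↥H').map H'.subtype := by
    rintro ⟨d, hd, hde⟩
    apply hQa
    rw [eq_bot_iff, commutator_le]
    intro q hq' y hy
    obtain ⟨z, rfl⟩ := mem_zpowers_iff.1 hy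
    have hdz : d ^ z ∈ pCore p ↥H' := zpow_mem hd z
    have hdz' : ((d ^ z : ↥H') : G) = a ^ z := by
      rw [← hde]
      rfl
    rw [mem_bot]
    have hqH' : (⟨q, hQH' hq'⟩ : ↥H') ∈ K₀ := hq'
    have h1 : ⁅(⟨q, hQH' hq'⟩ : ↥H'), d ^ z⁆ ∈ K₀ := by
      rw [commutatorElement_def]
      have e : (⟨q, hQH' hq'⟩ : ↥H') * d ^ z * (⟨q, hQH' hq'⟩ : ↥H')⁻¹ * (d ^ z)⁻¹ =
          (⟨q, hQH' hq'⟩ : ↥H') * (d ^ z * (⟨q, hQH' hq'⟩ : ↥H')⁻¹ * (d ^ z)⁻¹) := by group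
      rw [e]
      exact mul_mem hqH' (hK₀n.conj_mem _ (inv_mem hqH') (d ^ z))
    have h2 : ⁅(⟨q, hQH' hq'⟩ : ↥H'), d ^ z⁆ ∈ pCore p ↥H' := by
      rw [commutatorElement_def]
      have hDn : (pCore p ↥H').Normal := pCore_normal p _
      have h3 := hDn.conj_mem _ (inv_mem hdz) (⟨q, hQH' hq'⟩ : ↥H')
      have e : (⟨q, hQH' hq'⟩ : ↥H') * d ^ z * (⟨q, hQH' hq'⟩ : ↥H')⁻¹ * (d ^ z)⁻¹ =
          ((⟨q, hQH' hq'⟩ : ↥H') * d ^ z * (⟨q, hQH' hq'⟩ : ↥H')⁻¹) * (d ^ z)⁻¹ := rfl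
      rw [e]
      exact mul_mem (hDn.conj_mem _ hdz _) (inv_mem hdz)
    obtain ⟨k, hk⟩ := (isPGroup_iff_pow_pow_eq_one.1 (pCore_isPGroup p : IsPGroup p (pCore p ↥H'))) ⟨_, h2⟩
    have hk' : (⁅(⟨q, hQH' hq'⟩ : ↥H'), d ^ z⁆) ^ (p ^ k) = 1 := congrArg Subtype.val hk
    have hm : (⟨_, h1⟩ : K₀) ^ Nat.card K₀ = 1 := pow_card_eq_one'
    have hm' : (⁅(⟨q, hQH' hq'⟩ : ↥H'), d ^ z⁆) ^ Nat.card K₀ = 1 := congrArg Subtype.val hm
    have h4 : Nat.Coprime (Nat.card K₀) p := by rw [hK₀card]; exact hQ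
    have h5 := eq_one_of_pow_of_coprime h4 hm' hk'
    have h6 : (⁅q, a ^ z⁆ : G) = ((⁅(⟨q, hQH' hq'⟩ : ↥H'), d ^ z⁆ : ↥H') : G) := by
      rw [commutatorElement_def, commutatorElement_def]
      simp only [Subgroup.coe_mul, Subgroup.coe_inv]
      rw [hdz']
    rw [h6, h5]
    rfl
  obtain ⟨K, L, hL, hKH, ⟨e⟩⟩ := Cfsg.Agent.Lib.LQuad.section_of_not_core hp V H' hV (hH'H.trans hHV) hf' a haH' hq hna
  have h3 := eq_three_of_section hp H' K L hKH hL e hsep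
  subst h3
  exact ⟨rfl, K, L, hL, hKH.trans hH'H, ⟨e⟩⟩

end Cfsg.Agent.Lib.LSt
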