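import Mathlib

set_option autoImplicit false
set_option linter.unusedSectionVars false
set_option linter.unusedVariables false
set_option linter.style.haveILetI false

/-! Orbit-product arguments for abelian groups with quadratic automorphism groups. -/

namespace Cfsg.Agent.Lib.LWC

open Subgroup

section Orbits

open scoped Classical in
theorem prod_mem_of_orbits {X E M : Type*} [Group E] [MulAction E X] [CommMonoid M]
    (f : X → M) (R : Submonoid M) :
    ∀ (n : ℕ) (F : Finset X), F.card = n → (∀ e : E, ∀ ω ∈ F, e • ω ∈ F) →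
      (∀ ω ∈ F, ∏ ξ ∈ F.filter (fun ξ => ∃ e : E, e • ω = ξ), f ξ ∈ R) → ∏ ω ∈ F, f ω ∈ R := by
  intro n
  induction n using Nat.strong_induction_on with
  | _ n ih =>
    intro F hn hinv h
    by_cases hF : F.Nonempty
    · obtain ⟨ω, hω⟩ := hF
      have hsplit := Finset.prod_filter_mul_prod_filter_not F (fun ξ => ∃ e : E, e • ω = ξ) f
      rw [← hsplit]
      refine mul_mem (h ω hω) ?_
      have hωO : ω ∈ F.filter (fun ξ => ∃ e : E, e • ω = ξ) :=
        Finset.mem_filter.2 ⟨hω, 1, one_smul _ _⟩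
      have hlt : (F.filter (fun ξ => ¬ ∃ e : E, e • ω = ξ)).card < n := by
        rw [← hn]
        apply Finset.card_lt_card
        refine ⟨Finset.filter_subset _ _, fun hsub => ?_⟩
        have := hsub hω
        exact (Finset.mem_filter.1 this).2 ⟨1, one_smul _ _⟩
      refine ih _ hlt _ rfl ?_ ?_
      · intro e ξ hξ
        obtain ⟨h1, h2⟩ := Finset.mem_filter.1 hξ
        refine Finset.mem_filter.2 ⟨hinv e ξ h1, ?_⟩
        rintro ⟨e', he'⟩
        apply h2
        refine ⟨e⁻¹ * e', ?_⟩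
        rw [mul_smul, he', inv_smul_smul]
      · intro ξ hξ
        obtain ⟨h1, h2⟩ := Finset.mem_filter.1 hξ
        have heq : (F.filter (fun ξ => ¬ ∃ e : E, e • ω = ξ)).filter (fun ξ' => ∃ e : E, e • ξ = ξ') =
            F.filter (fun ξ' => ∃ e : E, e • ξ = ξ') := by
          ext ξ'
          simp only [Finset.mem_filter]
          constructor
          · rintro ⟨⟨a, _⟩, b⟩
            exact ⟨a, b⟩
          · rintro ⟨a, e, he⟩
            refine ⟨⟨a, ?_⟩, e, he⟩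
            rintro ⟨e', he'⟩
            apply h2
            refine ⟨e⁻¹ * e', ?_⟩
            rw [mul_smul, he', ← he, inv_smul_smul]
        rw [heq]
        exact h ξ h1
    · rw [Finset.not_nonempty_iff_eq_empty] at hF
      subst hF
      simp [one_mem]

end Orbits

section Abstract

variable {V : Type*} [CommGroup V] [Finite V]

/-- Quadratic action. -/
def Quad (A : Subgroup (MulAut V)) : Prop := ∀ a ∈ A, ∀ a' ∈ A, ∀ v : V, a' (a v / v) = a v / v

/-- The commutator map on an orbit. -/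
def orbHom (A : Subgroup (MulAut V)) (hq : Quad A) (ω : V) : ↥A →* V where
  toFun a := a.1 ω / ω
  map_one' := by simp
  map_mul' a a' := by
    have h1 := hq a'.1 a'.2 a.1 a.2 ω
    rw [map_div] at h1
    have h3 : a.1 (a'.1 ω) = (a'.1 ω / ω) * a.1 ω := by
      rw [← h1]; simp
    show (a.1 * a'.1) ω / ω = a.1 ω / ω * (a'.1 ω / ω)
    rw [MulAut.mul_apply, h3, mul_div_assoc, mul_comm]

open scoped Classical in
theorem prod_orbit (A : Subgroup (MulAut V)) (hq : Quad A) (ω : V) (F : Finset V)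
    (hinv : ∀ e : ↥A, ∀ ω ∈ F, e • ω ∈ F) (hω : ω ∈ F) [Fintype ↥(orbHom A hq ω).range] :
    ∏ ξ ∈ F.filter (fun ξ => ∃ e : ↥A, e • ω = ξ), ξ =
      ω ^ (Fintype.card ↥(orbHom A hq ω).range) * ∏ c : ↥(orbHom A hq ω).range, (c : V) := by
  have himg : F.filter (fun ξ => ∃ e : ↥A, e • ω = ξ) =
      (Finset.univ : Finset ↥(orbHom A hq ω).range).image (fun c : ↥(orbHom A hq ω).range => ω * (c : V)) := by
    ext ξ
    simp only [Finset.mem_filter, Finset.mem_image, Finset.mem_univ, true_and]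
    constructor
    · rintro ⟨_, e, rfl⟩
      refine ⟨⟨orbHom A hq ω e, ⟨e, rfl⟩⟩, ?_⟩
      show ω * (e.1 ω / ω) = e • ω
      rw [mul_div_cancel]
      rfl
    · rintro ⟨⟨c, e, rfl⟩, rfl⟩
      have : ω * (orbHom A hq ω e) = e • ω := by
        show ω * (e.1 ω / ω) = e • ω
        rw [mul_div_cancel]
        rfl
      simp only
      rw [this]
      exact ⟨hinv e ω hω, e, rfl⟩
  rw [himg, Finset.prod_image]
  · rw [Finset.prod_mul_distrib, Finset.prod_const, Finset.card_univ]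
  · intro c _ c' _ h
    exact Subtype.ext (mul_left_cancel h)

theorem prodB_odd {p : ℕ} [Fact p.Prime] (hV : IsPGroup p V) (hp : p ≠ 2) (B : Subgroup V) [Fintype ↥B] :
    ∏ c : ↥B, (c : V) = 1 := by
  set P := ∏ c : ↥B, (c : V) with hP
  have h1 : P = P⁻¹ := by
    rw [hP, ← Finset.prod_inv_distrib]
    exact (Equiv.prod_comp (Equiv.inv ↥B) (fun c : ↥B => ((c : V)))).symm.trans (by simp)
  have h2 : P * P = 1 := by
    nth_rewrite 2 [h1]
    exact mul_inv_cancel P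
  obtain ⟨k, hk⟩ := (IsPGroup.iff_orderOf.1 hV) P
  have h3 : orderOf P ∣ 2 := orderOf_dvd_of_pow_eq_one (by rw [sq, h2])
  rw [hk] at h3
  rcases k with _ | k
  · rw [pow_zero] at hk
    exact orderOf_eq_one_iff.1 hk
  · exfalso
    have h4 : p ∣ 2 := (dvd_pow_self p (Nat.succ_ne_zero k)).trans h3
    have := (Nat.prime_dvd_prime_iff_eq (Fact.out : p.Prime) Nat.prime_two).1 h4
    exact hp this

theorem prodB_two (hV : IsPGroup 2 V) (B : Subgroup V) [Fintype ↥B] (h4 : 4 ≤ Nat.card ↥B) :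
    ∃ u : V, u ^ 2 = ∏ c : ↥B, (c : V) := by
  classical
  haveI : Fact (Nat.Prime 2) := ⟨Nat.prime_two⟩
  have hB : IsPGroup 2 ↥B := hV.to_subgroup B
  obtain ⟨k, hk⟩ := IsPGroup.iff_card.1 hB
  have hk2 : 2 ≤ k := by
    by_contra hlt
    have : k ≤ 1 := by omega
    have : 2 ^ k ≤ 2 ^ 1 := Nat.pow_le_pow_right (by norm_num) this
    rw [hk] at h4
    omega
  obtain ⟨l, rfl⟩ : ∃ l, k = l + 2 := ⟨k - 2, by omega⟩
  obtain ⟨K, hK⟩ := Sylow.exists_subgroup_card_pow_prime (G := ↥B) 2 (n := l + 1) (by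
    rw [hk]; exact pow_dvd_pow 2 (by omega))
  have hidx : K.index = 2 := by
    have h := K.card_mul_index
    rw [hK, hk] at h
    have : 2 ^ (l + 1) * K.index = 2 ^ (l + 1) * 2 := by rw [h]; ring
    exact Nat.eq_of_mul_eq_mul_left (by positivity) this
  obtain ⟨v, hv⟩ : ∃ v : ↥B, v ∉ K := by
    by_contra hcon
    push Not at hcon
    have : K = ⊤ := eq_top_iff.2 (fun x _ => hcon x)
    rw [this, index_top] at hidx
    omega
  have hsplit := Finset.prod_filter_mul_prod_filter_not (Finset.univ : Finset ↥B) (· ∈ K) (fun c : ↥B => (c : V))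
  have hprod2 : ∏ c ∈ (Finset.univ : Finset ↥B).filter (fun c => ¬ c ∈ K), (c : V) =
      ∏ c ∈ (Finset.univ : Finset ↥B).filter (· ∈ K), ((v : V) * (c : V)) := by
    symm
    refine Finset.prod_bij (fun c _ => v * c) ?_ ?_ ?_ ?_
    · intro c hc
      have hc' := (Finset.mem_filter.1 hc).2
      refine Finset.mem_filter.2 ⟨Finset.mem_univ _, fun h => hv ?_⟩
      have := (Subgroup.mul_mem_iff_of_index_two hidx).1 h
      exact this.2 hc'
    · intro c _ c' _ h
      exact mul_left_cancel h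
    · intro c hc
      have hc' := (Finset.mem_filter.1 hc).2
      refine ⟨v⁻¹ * c, Finset.mem_filter.2 ⟨Finset.mem_univ _, ?_⟩, by group⟩
      have h2 := (Subgroup.mul_mem_iff_of_index_two hidx (a := v⁻¹) (b := c))
      apply h2.2
      constructor
      · intro h; exact absurd (by simpa using K.inv_mem h) hv
      · intro h; exact absurd h hc'
    · intro c _
      rfl
  have hcardK : ((Finset.univ : Finset ↥B).filter (· ∈ K)).card = 2 ^ (l + 1) := by
    rw [← hK, Nat.card_eq_fintype_card, Fintype.card_subtype]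
  refine ⟨(∏ c ∈ (Finset.univ : Finset ↥B).filter (· ∈ K), (c : V)) * (v : V) ^ (2 ^ l), ?_⟩
  rw [← hsplit, hprod2, Finset.prod_mul_distrib, Finset.prod_const, hcardK, mul_pow, sq, ← pow_mul]
  rw [pow_succ 2 l]
  ac_rfl

theorem exists_all_of_frattini {p : ℕ} [Fact p.Prime] (hV : IsPGroup p V) (x : V)
    (h : ∀ v : V, ∃ k ∈ zpowers x, ∃ u : V, v = k * u ^ p) : ∀ v : V, v ∈ zpowers x := by
  obtain ⟨N, hN⟩ := IsPGroup.iff_card.1 hV
  have h1 : ∀ m : ℕ, ∀ v : V, ∃ k ∈ zpowers x, ∃ u : V, v = k * u ^ (p ^ m) := by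
    intro m
    induction m with
    | zero =>
      intro v
      exact ⟨1, one_mem _, v, by simp⟩
    | succ m ih =>
      intro v
      obtain ⟨k, hk, u, hu⟩ := ih v
      obtain ⟨k', hk', u', hu'⟩ := h u
      refine ⟨k * k' ^ (p ^ m), mul_mem hk (pow_mem hk' _), u', ?_⟩
      rw [hu, hu', mul_pow, ← pow_mul, pow_succ p m, mul_comm (p ^ m) p, mul_assoc]
  intro v
  obtain ⟨k, hk, u, hu⟩ := h1 N v
  have : u ^ p ^ N = 1 := by
    rw [← hN]
    exact pow_card_eq_one'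
  rw [this, mul_one] at hu
  rw [hu]
  exact hk

open scoped Classical in
/-- The main orbit-product theorem. -/
theorem opb {p : ℕ} [Fact p.Prime] (hV : IsPGroup p V) (𝔑 A : Subgroup (MulAut V)) (hAN : A ≤ 𝔑)
    (hq : Quad A) (x : V) (hgen : closure {v | ∃ n ∈ 𝔑, n x = v} = ⊤) (hfix : ∀ a ∈ A, a x = x)
    (hmov : ∀ n ∈ 𝔑, n x ≠ x → ∃ a ∈ A, a (n x) ≠ n x)
    (hcond : p ≠ 2 ∨ ∀ n ∈ 𝔑, n x ≠ x → 4 ≤ Nat.card ↥(orbHom A hq (n x)).range) :
    ∀ a ∈ A, ∀ v : V, a v = v := by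
  haveI := Fintype.ofFinite V
  set Ω : Finset V := Finset.univ.filter (fun v => ∃ n ∈ 𝔑, n x = v) with hΩ
  have hxΩ : x ∈ Ω := Finset.mem_filter.2 ⟨Finset.mem_univ _, 1, one_mem _, rfl⟩
  have hmemΩ : ∀ {v : V}, v ∈ Ω ↔ ∃ n ∈ 𝔑, n x = v := by
    intro v
    simp [hΩ]
  set R : Submonoid V := ((powMonoidHom p : V →* V).range).toSubmonoid with hR
  have hRpow : ∀ {w : V}, w ∈ R ↔ ∃ u : V, u ^ p = w := by
    intro w
    show w ∈ (powMonoidHom p : V →* V).range ↔ _
    rw [MonoidHom.mem_range]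
    rfl
  set F : Finset V := Ω.erase x with hF
  have hFinv : ∀ e : ↥A, ∀ ω ∈ F, e • ω ∈ F := by
    intro e ω hω
    obtain ⟨h1, h2⟩ := Finset.mem_erase.1 hω
    obtain ⟨n, hn, rfl⟩ := hmemΩ.1 h2
    refine Finset.mem_erase.2 ⟨?_, hmemΩ.2 ⟨e.1 * n, mul_mem (hAN e.2) hn, rfl⟩⟩
    intro h
    apply h1
    have h3 : e.1 (n x) = e.1 x := by
      rw [hfix e.1 e.2]
      exact h
    exact e.1.injective h3
  have hprodF : ∏ ω ∈ F, ω ∈ R := by
    refine prod_mem_of_orbits (E := ↥A) (fun ω : V => ω) R _ F rfl hFinv ?_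
    intro ω hω
    haveI : Fintype ↥(orbHom A hq ω).range := Fintype.ofFinite _
    rw [prod_orbit A hq ω F hFinv hω]
    obtain ⟨h1, h2⟩ := Finset.mem_erase.1 hω
    obtain ⟨n, hn, hnx⟩ := hmemΩ.1 h2
    have hh : n x ≠ x := by rw [hnx]; exact h1
    obtain ⟨a, ha, ha2⟩ := hmov n hn hh
    rw [hnx] at ha2
    have hB1 : ∃ c ∈ (orbHom A hq ω).range, c ≠ 1 := by
      refine ⟨orbHom A hq ω ⟨a, ha⟩, ⟨_, rfl⟩, ?_⟩
      show a ω / ω ≠ 1
      rwa [Ne, div_eq_one]
    have hBp : IsPGroup p ↥(orbHom A hq ω).range := hV.to_subgroup _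
    obtain ⟨m, hm⟩ := IsPGroup.iff_card.1 hBp
    have hm0 : m ≠ 0 := by
      rintro rfl
      rw [pow_zero, Subgroup.card_eq_one] at hm
      obtain ⟨c, hc, hc1⟩ := hB1
      rw [hm] at hc
      exact hc1 ((Subgroup.mem_bot).1 hc)
    refine mul_mem ?_ ?_
    · apply hRpow.2
      rw [← Nat.card_eq_fintype_card, hm]
      refine ⟨ω ^ (p ^ (m - 1)), ?_⟩
      rw [← pow_mul]
      congr 1
      obtain ⟨m', rfl⟩ := Nat.exists_eq_succ_of_ne_zero hm0
      simp [pow_succ, mul_comm]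
    · rcases eq_or_ne p 2 with h2p | h2p
      · have hcard : 4 ≤ Nat.card ↥(orbHom A hq ω).range := by
          rcases hcond with h | h
          · exact absurd h2p h
          · have := h n hn hh
            rw [hnx] at this
            exact this
        subst h2p
        obtain ⟨u, hu⟩ := prodB_two hV _ hcard
        exact hRpow.2 ⟨u, hu⟩
      · rw [prodB_odd hV h2p]
        exact one_mem _
  have hw : ∏ ω ∈ Ω, ω = x * ∏ ω ∈ F, ω := (Finset.mul_prod_erase Ω (fun ω => ω) hxΩ).symm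
  obtain ⟨u₀, hu₀⟩ := hRpow.1 hprodF
  have hinvar : ∀ n ∈ 𝔑, n (∏ ω ∈ Ω, ω) = ∏ ω ∈ Ω, ω := by
    intro n hn
    rw [map_prod]
    refine Finset.prod_bij (fun ω _ => n ω) ?_ ?_ ?_ ?_
    · intro ω hω
      obtain ⟨m, hm, rfl⟩ := hmemΩ.1 hω
      exact hmemΩ.2 ⟨n * m, mul_mem hn hm, rfl⟩
    · intro a _ b _ h
      exact n.injective h
    · intro ω hω
      obtain ⟨m, hm, rfl⟩ := hmemΩ.1 hω
      refine ⟨(n⁻¹ * m) x, hmemΩ.2 ⟨n⁻¹ * m, mul_mem (inv_mem hn) hm, rfl⟩, ?_⟩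
      show n ((n⁻¹ * m) x) = m x
      rw [← MulAut.mul_apply, mul_inv_cancel_left]
    · intro ω _
      rfl
  have hall : ∀ n ∈ 𝔑, ∃ t : V, n x = x * t ^ p := by
    intro n hn
    have h1 := hinvar n hn
    rw [hw, map_mul, ← hu₀, map_pow] at h1
    refine ⟨u₀ / n u₀, ?_⟩
    rw [div_pow]
    have h2 : n x = (x * u₀ ^ p) / (n u₀) ^ p := by
      rw [← h1]; simp
    rw [h2]
    exact mul_div_assoc _ _ _
  have hD : ∀ v : V, ∃ k ∈ zpowers x, ∃ u : V, v = k * u ^ p := by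
    intro v
    have hle : closure {v | ∃ n ∈ 𝔑, n x = v} ≤ zpowers x ⊔ (powMonoidHom p : V →* V).range := by
      rw [closure_le]
      rintro _ ⟨n, hn, rfl⟩
      obtain ⟨t, ht⟩ := hall n hn
      rw [SetLike.mem_coe, ht]
      exact mul_mem ((le_sup_left : zpowers x ≤ _) (mem_zpowers x))
        ((le_sup_right : (powMonoidHom p : V →* V).range ≤ _) ⟨t, rfl⟩)
    rw [hgen, top_le_iff] at hle
    have hv : v ∈ zpowers x ⊔ (powMonoidHom p : V →* V).range := by rw [hle]; exact mem_top v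
    obtain ⟨k, hk, z, ⟨u, rfl⟩, hz⟩ := Subgroup.mem_sup.1 hv
    exact ⟨k, hk, u, hz.symm⟩
  have hcyc := exists_all_of_frattini hV x hD
  intro a ha v
  obtain ⟨k, rfl⟩ := hcyc v
  show a (x ^ k) = x ^ k
  rw [map_zpow, hfix a ha]

theorem r4 (a b : MulAut V) (c d : V) (ha : ∀ v, a v = v ∨ a v = c * v) (hb : ∀ v, b v = v ∨ b v = d * v)
    (hc2 : c * c = 1) (hd2 : d * d = 1) (hac : a c = c) (hbd : b d = d) (hbc : b c = c) :
    ∀ v, (a * b) ((a * b) ((a * b) ((a * b) v))) = v := by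
  set e := a d with he
  have hed : e = d ∨ e = c * d := ha d
  have hrap : ∀ v, (a * b) v = a (b v) := fun v => rfl
  have hrc : (a * b) c = c := by rw [hrap, hbc, hac]
  have hbe : b e = e := by
    rcases hed with h | h
    · rw [h, hbd]
    · rw [h, map_mul, hbc, hbd]
  have hae : a e = d := by
    rcases hed with h | h
    · rw [h, ← he, h]
    · rw [h, map_mul, hac, ← he, h, ← mul_assoc, hc2, one_mul]
  have hre : (a * b) e = d := by rw [hrap, hbe, hae]
  set f := e * d with hf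
  have hf1 : f = 1 ∨ f = c := by
    rcases hed with h | h
    · left; rw [hf, h, hd2]
    · right; rw [hf, h, mul_assoc, hd2, mul_one]
  have hff : f * f = 1 := by
    rcases hf1 with h | h
    · rw [h, one_mul]
    · rw [h, hc2]
  have h1 : ∀ v, (a * b) v = v ∨ (a * b) v = c * v ∨ (a * b) v = e * v ∨ (a * b) v = c * e * v := by
    intro v
    rw [hrap]
    rcases hb v with h | h
    · rw [h]
      rcases ha v with h' | h'
      · exact Or.inl h'
      · exact Or.inr (Or.inl h')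
    · rw [h, map_mul, ← he]
      rcases ha v with h' | h'
      · rw [h']; exact Or.inr (Or.inr (Or.inl rfl))
      · rw [h']; refine Or.inr (Or.inr (Or.inr ?_)); rw [← mul_assoc, mul_comm e c]
  have h2 : ∀ v, (a * b) ((a * b) v) = v ∨ (a * b) ((a * b) v) = f * v := by
    intro v
    rcases h1 v with h | h | h | h
    · left; rw [h, h]
    · left; rw [h, map_mul, hrc, h, ← mul_assoc, hc2, one_mul]
    · right; rw [h, map_mul, hre, h, ← mul_assoc, mul_comm d e]
    · right; rw [h, map_mul, map_mul, hrc, hre, h]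
      calc c * d * (c * e * v) = (c * c) * (e * d) * v := by ac_rfl
        _ = f * v := by rw [hc2, one_mul]
  have hrf : (a * b) ((a * b) f) = f := by
    rcases hf1 with h | h
    · rw [h, map_one, map_one]
    · rw [h, hrc, hrc]
  intro v
  rcases h2 v with h | h
  · rw [h, h]
  · rw [h, map_mul, map_mul, hrf, h, ← mul_assoc, hff, one_mul]

theorem parity_fix {α : Type*} [Finite α] (g : α → α) (n : ℕ) (hg : ∀ a, g^[2 ^ n] a = a) :
    Nat.card α % 2 = Nat.card (Function.fixedPoints g) % 2 := by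
  classical
  haveI := Fintype.ofFinite α
  haveI : Fact (Nat.Prime 2) := ⟨Nat.prime_two⟩
  let f : Function.End α := g
  have h : f ^ 2 ^ n = 1 := (funext hg : g^[2 ^ n] = id)
  have := Equiv.Perm.card_fixedPoints_modEq (f := f) (p := 2) (n := n) h
  rw [Nat.card_eq_fintype_card, Nat.card_eq_fintype_card]
  exact this

theorem no_two (Ω : Set V) (a b : MulAut V) (hΩa : ∀ ω ∈ Ω, a ω ∈ Ω) (hΩb : ∀ ω ∈ Ω, b ω ∈ Ω)
    (ha2 : ∀ v, a (a v) = v) (hb2 : ∀ v, b (b v) = v)
    (hr : ∀ v, (a * b) ((a * b) ((a * b) ((a * b) v))) = v) (x ω₁ : V) (hx : x ∈ Ω) (hax : a x = x)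
    (hafix : ∀ ω ∈ Ω, a ω = ω → ω = x) (hbfix : ∀ ω ∈ Ω, b ω = ω → ω = ω₁) : x = ω₁ := by
  classical
  let ga : ↥Ω → ↥Ω := fun ω => ⟨a ω, hΩa ω ω.2⟩
  let gr : ↥Ω → ↥Ω := fun ω => ⟨(a * b) ω, hΩa _ (hΩb ω ω.2)⟩
  have h1 := parity_fix ga 1 (by
    intro ω
    apply Subtype.ext
    exact ha2 ω)
  have hfixa : Nat.card (Function.fixedPoints ga) = 1 := by
    rw [Nat.card_eq_one_iff_unique]
    refine ⟨⟨?_⟩, ⟨⟨⟨x, hx⟩, Subtype.ext hax⟩⟩⟩
    rintro ⟨⟨ω, hω⟩, h⟩ ⟨⟨ω', hω'⟩, h'⟩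
    have e1 := hafix ω hω (congrArg Subtype.val h)
    have e2 := hafix ω' hω' (congrArg Subtype.val h')
    apply Subtype.ext
    apply Subtype.ext
    simp only
    rw [e1, e2]
  rw [hfixa] at h1
  have h2 := parity_fix gr 2 (by
    intro ω
    apply Subtype.ext
    exact hr ω)
  have hΩ2 : ∀ ω : ↥(Function.fixedPoints gr), gr (ga ω.1) = ga ω.1 := by
    rintro ⟨ω, hω⟩
    have hω' : a (b ω) = ω := congrArg Subtype.val hω
    have hbω : b ω = a ω := by
      have := congrArg a hω'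
      rwa [ha2] at this
    apply Subtype.ext
    show a (b (a ω)) = a ω
    rw [← hbω, hb2]
    exact hbω.symm
  let g2 : ↥(Function.fixedPoints gr) → ↥(Function.fixedPoints gr) := fun ω => ⟨ga ω.1, hΩ2 ω⟩
  have h3 := parity_fix g2 1 (by
    intro ω
    apply Subtype.ext
    apply Subtype.ext
    exact ha2 ω.1)
  have hne : Nonempty (Function.fixedPoints g2) := by
    by_contra hcon
    rw [not_nonempty_iff] at hcon
    have e0 : Nat.card (Function.fixedPoints g2) = 0 := Nat.card_of_isEmpty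
    rw [e0] at h3
    omega
  obtain ⟨⟨⟨⟨ω, hω⟩, hrω⟩, hgω⟩⟩ := hne
  have e1 : a ω = ω := congrArg (fun z => ((z : ↥(Function.fixedPoints gr)) : ↥Ω).1) hgω
  have e2 : a (b ω) = ω := congrArg Subtype.val hrω
  have e3 := hafix ω hω e1
  subst e3
  have e4 : b ω = ω := by
    have := congrArg a e2
    rwa [ha2, e1] at this
  exact (hbfix ω hω e4).symm ▸ rfl

theorem opc (Ω : Set V) (a b : MulAut V) (c d : V) (ha : ∀ v, a v = v ∨ a v = c * v) (hb : ∀ v, b v = v ∨ b v = d * v)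
    (hc2 : c * c = 1) (hd2 : d * d = 1) (hac : a c = c) (hbd : b d = d)
    (hΩa : ∀ ω ∈ Ω, a ω ∈ Ω) (hΩb : ∀ ω ∈ Ω, b ω ∈ Ω) (x ω₁ : V) (hx : x ∈ Ω) (hω₁ : ω₁ ∈ Ω) (hne : x ≠ ω₁)
    (hax : a x = x) (hbω : b ω₁ = ω₁)
    (hafix : ∀ ω ∈ Ω, a ω = ω → ω = x) (hbfix : ∀ ω ∈ Ω, b ω = ω → ω = ω₁) :
    a d = c * d ∧ b c = d * c := by
  have ha2 : ∀ v, a (a v) = v := by
    intro v
    rcases ha v with h | h
    · rw [h, h]
    · rw [h, map_mul, hac, h, ← mul_assoc, hc2, one_mul]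
  have hb2 : ∀ v, b (b v) = v := by
    intro v
    rcases hb v with h | h
    · rw [h, h]
    · rw [h, map_mul, hbd, h, ← mul_assoc, hd2, one_mul]
  rcases ha d with h1 | h1
  · exfalso
    have := no_two Ω b a hΩb hΩa hb2 ha2 (r4 b a d c hb ha hd2 hc2 hbd hac h1) ω₁ x hω₁ hbω hbfix hafix
    exact hne this.symm
  · rcases hb c with h2 | h2
    · exfalso
      exact hne (no_two Ω a b hΩa hΩb ha2 hb2 (r4 a b c d ha hb hc2 hd2 hac hbd h2) x ω₁ hx hax hafix hbfix)
    · exact ⟨h1, h2⟩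

end Abstract

end Cfsg.Agent.Lib.LWC
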