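import Mathlib
import Cfsg.Agent.Lib.LWC1
import Cfsg.Agent.Lib.LNpcC2

set_option autoImplicit false
set_option linter.unusedSectionVars false
set_option linter.unusedVariables false
set_option linter.style.haveILetI false
set_option maxHeartbeats 1000000

/-! Thompson replacement and the orbit-product contradiction inside a group. -/

namespace Cfsg.Agent.Lib.LWC

open Subgroup Cfsg Cfsg.Agent.Lib.PZJ Cfsg.Agent.Lib.LNpcC

variable {G : Type*} [Group G] [Finite G] {p : ℕ} [Fact p.Prime]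

theorem exists_quad (P : Subgroup G) (hP : IsPGroup p P) (V : Subgroup G) (hVP : V ≤ P)
    (hPV : P ≤ normalizer (V : Set G)) (hVab : ∀ v ∈ V, ∀ w ∈ V, v * w = w * v)
    (A : Subgroup G) (hA : A ∈ FamA P) (hnot : ¬ A ≤ centralizer (V : Set G)) :
    ∃ A' ∈ FamA P, ¬ A' ≤ centralizer (V : Set G) ∧ V ≤ normalizer (A' : Set G) := by
  classical
  let s : Set (Subgroup G) := {B | B ∈ FamA P ∧ ¬ B ≤ centralizer (V : Set G)}
  obtain ⟨B, hB, hmax⟩ := Set.exists_max_image s (fun U => Nat.card ↥(U ⊓ V)) (Set.toFinite s) ⟨A, hA, hnot⟩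
  refine ⟨B, hB.1, hB.2, ?_⟩
  by_contra hV
  have hVcomm : IsMulCommutative V := isMulComm_of_forall hVab
  obtain ⟨A', hA'P, hcard, hA'ab, hlt, hA'N⟩ := replacement_ab P hP V hVP hPV hVcomm B hB.1.1 hB.1.2.1 hV
  have hA'fam : A' ∈ FamA P := ⟨hA'P, hA'ab, fun U hU hUa => hcard ▸ hB.1.2.2 U hU hUa⟩
  by_cases hA'V : A' ≤ centralizer (V : Set G)
  · apply hV
    intro v hv
    apply hA'N
    refine famA_mem P A' hA'fam v (hVP hv) ?_
    rw [mem_centralizer_iff]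
    intro a ha
    exact ((mem_centralizer_iff.1 (hA'V ha)) v hv).symm
  · have h1 := hmax A' ⟨hA'fam, hA'V⟩
    have h2 : Nat.card ↥(B ⊓ V) < Nat.card ↥(A' ⊓ V) := Cfsg.Agent.Lib.PNilp.card_lt_of_lt' hlt
    omega

/-- The conjugation action of `N` on a normal subgroup. -/
noncomputable def rhoN (N V : Subgroup G) (hNV : N ≤ normalizer (V : Set G)) : ↥N →* MulAut ↥V :=
  V.normalizerMonoidHom.comp (Subgroup.inclusion hNV)

theorem rhoN_apply (N V : Subgroup G) (hNV : N ≤ normalizer (V : Set G)) (n : ↥N) (v : ↥V) :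
    ((rhoN N V hNV n v : ↥V) : G) = n * v * (n : G)⁻¹ := rfl

theorem plane_branch (N P V : Subgroup G) (x : G) (hVP : V ≤ P)
    (hVab : ∀ v ∈ V, ∀ w ∈ V, v * w = w * v) (hNV : N ≤ normalizer (V : Set G)) (hx : x ∈ V)
    (A : Subgroup G) (hA : A ∈ FamA P) (hAN : A ≤ N) (hVN : V ≤ normalizer (A : Set G))
    (hnotC : ¬ A ≤ centralizer (V : Set G))
    (hU : ∀ A' ∈ FamA P, ¬ A' ≤ centralizer (V : Set G) → ∀ n ∈ N,
      (∀ a ∈ A', a * (n * x * n⁻¹) * a⁻¹ = n * x * n⁻¹) → n * x * n⁻¹ = x)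
    (hfixA : ∀ a ∈ A, a * x * a⁻¹ = x)
    (n : G) (hn : n ∈ N) (hne : n * x * n⁻¹ ≠ x) (a₀ : G) (ha₀ : a₀ ∈ A) (c : G) (hcV : c ∈ V) (hc1 : c ≠ 1)
    (hcc : c * c = 1) (h1 : ∀ a ∈ A, a * (n * x * n⁻¹) * a⁻¹ = n * x * n⁻¹ ∨ a * (n * x * n⁻¹) * a⁻¹ = c * (n * x * n⁻¹))
    (h0 : a₀ * (n * x * n⁻¹) * a₀⁻¹ = c * (n * x * n⁻¹)) :
    Cfsg.Involves (Equiv.Perm (Fin 4)) G := by
  classical
  set ω := n * x * n⁻¹ with hω
  have hconjV : ∀ m ∈ N, ∀ v ∈ V, m * v * m⁻¹ ∈ V := fun m hm v hv => (mem_normalizer_iff.1 (hNV hm) v).1 hv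
  have hconjV' : ∀ m ∈ N, ∀ v ∈ V, m⁻¹ * v * m ∈ V := fun m hm v hv => by
    have := hconjV m⁻¹ (inv_mem hm) v hv
    rwa [inv_inv] at this
  have hωV : ω ∈ V := hconjV n hn x hx
  have hAab : ∀ a ∈ A, ∀ b ∈ A, a * b = b * a := fun a ha b hb =>
    Cfsg.Agent.Lib.PQuad.comm_of_isMulComm hA.2.1 ha hb
  have hcA : c ∈ A := by
    have e1 : c = a₀ * (ω * a₀⁻¹ * ω⁻¹) := by
      have : c = (a₀ * ω * a₀⁻¹) * ω⁻¹ := by rw [h0]; group
      rw [this]; group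
    rw [e1]
    exact mul_mem ha₀ ((mem_normalizer_iff.1 (hVN hωV) _).1 (inv_mem ha₀))
  have hca : ∀ a ∈ A, a * c * a⁻¹ = c := fun a ha => by rw [hAab a ha c hcA]; group
  set A₁ : Subgroup G := A ⊓ centralizer ({ω} : Set G) with hA₁
  have hfixiff : ∀ a ∈ A, a ∈ A₁ ↔ a * ω * a⁻¹ = ω := by
    intro a ha
    constructor
    · intro h
      have := mem_centralizer_singleton_iff.1 h.2
      rw [this]; group
    · intro h
      refine ⟨ha, mem_centralizer_singleton_iff.2 ?_⟩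
      calc a * ω = (a * ω * a⁻¹) * a := by group
        _ = ω * a := by rw [h]
  have hinvω : a₀⁻¹ * ω * a₀ = c * ω := by
    have e1 : ω = a₀⁻¹ * (c * ω) * a₀ := by rw [← h0]; group
    have e2 : a₀⁻¹ * (c * ω) * a₀ = (a₀⁻¹ * c * a₀) * (a₀⁻¹ * ω * a₀) := by group
    have e3 : a₀⁻¹ * c * a₀ = c := by
      have := hca a₀⁻¹ (inv_mem ha₀)
      rwa [inv_inv] at this
    rw [e2, e3] at e1
    calc a₀⁻¹ * ω * a₀ = (c * c) * (a₀⁻¹ * ω * a₀) := by rw [hcc, one_mul]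
      _ = c * (c * (a₀⁻¹ * ω * a₀)) := by group
      _ = c * ω := by rw [← e1]
  have hquot : ∀ a ∈ A, a ∉ A₁ → a₀⁻¹ * a ∈ A₁ := by
    intro a ha hna
    have hnfix : a * ω * a⁻¹ = c * ω := by
      rcases h1 a ha with h | h
      · exact absurd ((hfixiff a ha).2 h) hna
      · exact h
    refine (hfixiff _ (mul_mem (inv_mem ha₀) ha)).2 ?_
    have e1 : (a₀⁻¹ * a) * ω * (a₀⁻¹ * a)⁻¹ = a₀⁻¹ * (a * ω * a⁻¹) * a₀ := by group
    rw [e1, hnfix]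
    have e2 : a₀⁻¹ * (c * ω) * a₀ = (a₀⁻¹ * c * a₀) * (a₀⁻¹ * ω * a₀) := by group
    have e3 : a₀⁻¹ * c * a₀ = c := by
      have := hca a₀⁻¹ (inv_mem ha₀)
      rwa [inv_inv] at this
    rw [e2, e3, hinvω, ← mul_assoc, hcc, one_mul]
  have ha₀notA₁ : a₀ ∉ A₁ := by
    intro h
    have := (hfixiff a₀ ha₀).1 h
    rw [h0] at this
    exact hc1 (mul_eq_right.1 this)
  -- card A ≤ 2 card A₁
  have hcardA : Nat.card A ≤ 2 * Nat.card A₁ := by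
    have hle : A₁ ≤ A := inf_le_left
    set K := A₁.subgroupOf A with hK
    have hidx : K.index ≤ 2 := by
      have hsurj : Function.Surjective (fun b : Fin 2 => if b = 0 then ((1 : ↥A) : ↥A ⧸ K) else ((⟨a₀, ha₀⟩ : ↥A) : ↥A ⧸ K)) := by
        intro q
        obtain ⟨a, rfl⟩ := QuotientGroup.mk_surjective q
        by_cases ha : (a : G) ∈ A₁
        · refine ⟨0, ?_⟩
          simp only [if_true]
          refine QuotientGroup.eq.2 ?_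
          rw [mem_subgroupOf]
          simpa using ha
        · refine ⟨1, ?_⟩
          simp only [one_ne_zero, if_false]
          refine QuotientGroup.eq.2 ?_
          rw [mem_subgroupOf]
          exact hquot a a.2 ha
      have := Nat.card_le_card_of_surjective _ hsurj
      simpa [Subgroup.index] using this
    have h2 := K.card_mul_index
    have h3 : Nat.card K = Nat.card A₁ := Nat.card_congr (Subgroup.subgroupOfEquivOfLe hle).toEquiv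
    rw [h3] at h2
    rw [← h2]
    nlinarith [Nat.zero_le (Nat.card A₁)]
  -- A₂
  have hA₁ab : IsMulCommutative A₁ := isMulComm_of_forall (fun a ha b hb => hAab a ha.1 b hb.1)
  have hωnotA : ω ∉ A := by
    intro h
    have := hAab a₀ ha₀ ω h
    have e : a₀ * ω * a₀⁻¹ = ω := by rw [this]; group
    rw [h0] at e
    exact hc1 (mul_eq_right.1 e)
  have hzle : zpowers ω ≤ centralizer (A₁ : Set G) := by
    rw [zpowers_le, mem_centralizer_iff]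
    intro a ha
    exact mem_centralizer_singleton_iff.1 ha.2
  set A₂ : Subgroup G := A₁ ⊔ zpowers ω with hA₂
  have hA₂ab : IsMulCommutative A₂ := isMulComm_sup hA₁ab inferInstance hzle
  have hA₂P : A₂ ≤ P := sup_le (inf_le_left.trans hA.1) (by rw [zpowers_le]; exact hVP hωV)
  have hlt2 : A₁ < A₂ := by
    refine lt_of_le_of_ne le_sup_left ?_
    intro h
    apply hωnotA
    have : ω ∈ A₂ := (le_sup_right : zpowers ω ≤ _) (mem_zpowers ω)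
    rw [← h] at this
    exact this.1
  have hcard2 : 2 * Nat.card A₁ ≤ Nat.card A₂ := by
    obtain ⟨k, hk⟩ := Subgroup.card_dvd_of_le hlt2.le
    have h3 := Cfsg.Agent.Lib.PNilp.card_lt_of_lt' hlt2
    rw [hk] at h3 ⊢
    have hpos : 0 < Nat.card A₁ := Nat.card_pos
    have hk2 : 2 ≤ k := by
      by_contra hh
      have : k ≤ 1 := by omega
      have : Nat.card A₁ * k ≤ Nat.card A₁ * 1 := Nat.mul_le_mul_left _ this
      omega
    nlinarith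
  have hA₂fam : A₂ ∈ FamA P := by
    refine ⟨hA₂P, hA₂ab, fun U hU hUa => ?_⟩
    have := hA.2.2 U hU hUa
    omega
  have hA₂fix : ∀ a ∈ A₂, a * ω * a⁻¹ = ω := by
    have hle : A₂ ≤ centralizer ({ω} : Set G) := by
      refine sup_le inf_le_right ?_
      rw [zpowers_le, mem_centralizer_singleton_iff]
    intro a ha
    have := mem_centralizer_singleton_iff.1 (hle ha)
    rw [this]; group
  have hA₂C : A₂ ≤ centralizer (V : Set G) := by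
    by_contra hcon
    exact hne (hU A₂ hA₂fam hcon n hn hA₂fix)
  have hA₁C : A₁ ≤ centralizer (V : Set G) := le_sup_left.trans hA₂C
  -- A₃
  have hVcomm : IsMulCommutative V := isMulComm_of_forall hVab
  have hVleC : V ≤ centralizer (A₁ : Set G) := by
    intro v hv
    rw [mem_centralizer_iff]
    intro a ha
    exact ((mem_centralizer_iff.1 (hA₁C ha)) v hv).symm
  have hA₃ab : IsMulCommutative ↥(A₁ ⊔ V) := isMulComm_sup hA₁ab hVcomm hVleC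
  have hA₃P : A₁ ⊔ V ≤ P := sup_le (inf_le_left.trans hA.1) hVP
  have hcard3 := hA.2.2 _ hA₃P hA₃ab
  have hmul := Cfsg.Agent.Lib.PQuad.card_sup_mul_inf_of_normalizes A₁ V (hA₁C.trans (centralizer_le_normalizer _))
  have hcardV : Nat.card V ≤ 2 * Nat.card ↥(A₁ ⊓ V) := by
    have hpos : 0 < Nat.card A₁ := Nat.card_pos
    have hpos2 : 0 < Nat.card ↥(A₁ ⊓ V) := Nat.card_pos
    have h4 : Nat.card A₁ * Nat.card V ≤ Nat.card A₁ * (2 * Nat.card ↥(A₁ ⊓ V)) := by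
      rw [← hmul]
      calc Nat.card ↥(A₁ ⊔ V) * Nat.card ↥(A₁ ⊓ V) ≤ (2 * Nat.card A₁) * Nat.card ↥(A₁ ⊓ V) :=
            Nat.mul_le_mul_right _ (hcard3.trans hcardA)
        _ = _ := by ring
    exact Nat.le_of_mul_le_mul_left h4 hpos
  set K₂ := (A₁ ⊓ V).subgroupOf V with hK₂
  have hωnotK : (⟨ω, hωV⟩ : ↥V) ∉ K₂ := by
    intro h
    exact hωnotA ((mem_subgroupOf.1 h).1.1)
  have hidx2 : K₂.index = 2 := by
    have h2 := K₂.card_mul_index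
    have h3 : Nat.card K₂ = Nat.card ↥(A₁ ⊓ V) := Nat.card_congr (Subgroup.subgroupOfEquivOfLe inf_le_right).toEquiv
    rw [h3] at h2
    have hpos2 : 0 < Nat.card ↥(A₁ ⊓ V) := Nat.card_pos
    have hle2 : K₂.index ≤ 2 := by
      have : Nat.card ↥(A₁ ⊓ V) * K₂.index ≤ Nat.card ↥(A₁ ⊓ V) * 2 := by
        rw [h2]; linarith
      exact Nat.le_of_mul_le_mul_left this hpos2
    have hne1 : K₂.index ≠ 1 := by
      intro h
      rw [Subgroup.index_eq_one] at h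
      apply hωnotK
      rw [h]
      exact mem_top _
    have hne0 : K₂.index ≠ 0 := Subgroup.index_ne_zero_of_finite
    omega
  have hTv : ∀ v ∈ V, a₀ * v * a₀⁻¹ = v ∨ a₀ * v * a₀⁻¹ = c * v := by
    intro v hv
    by_cases hvK : (⟨v, hv⟩ : ↥V) ∈ K₂
    · left
      have hvA : v ∈ A := (mem_subgroupOf.1 hvK).1.1
      rw [hAab a₀ ha₀ v hvA]; group
    · right
      have h5 := (Subgroup.mul_mem_iff_of_index_two hidx2 (a := (⟨ω, hωV⟩ : ↥V)⁻¹) (b := ⟨v, hv⟩)).2 (by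
        constructor
        · intro h
          exact absurd (by simpa using K₂.inv_mem h) hωnotK
        · intro h
          exact absurd h hvK)
      have hkA : ω⁻¹ * v ∈ A := (mem_subgroupOf.1 h5).1.1
      have e : a₀ * (ω⁻¹ * v) * a₀⁻¹ = ω⁻¹ * v := by rw [hAab a₀ ha₀ _ hkA]; group
      calc a₀ * v * a₀⁻¹ = (a₀ * ω * a₀⁻¹) * (a₀ * (ω⁻¹ * v) * a₀⁻¹) := by group
        _ = c * ω * (ω⁻¹ * v) := by rw [h0, e]
        _ = c * v := by group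
  have hfixA_of : ∀ m ∈ N, a₀ * (m * x * m⁻¹) * a₀⁻¹ = m * x * m⁻¹ → m * x * m⁻¹ = x := by
    intro m hm hfix
    refine hU A hA hnotC m hm ?_
    intro a ha
    by_cases haA : a ∈ A₁
    · have := (mem_centralizer_iff.1 (hA₁C haA)) _ (hconjV m hm x hx)
      rw [← this]; group
    · have hk := hquot a ha haA
      have hkC := (mem_centralizer_iff.1 (hA₁C hk)) _ (hconjV m hm x hx)
      have e : a = a₀ * (a₀⁻¹ * a) := by group
      set y := m * x * m⁻¹ with hy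
      have e2 : (a₀⁻¹ * a) * y * (a₀⁻¹ * a)⁻¹ = y := by rw [← hkC]; group
      calc a * y * a⁻¹ = a₀ * ((a₀⁻¹ * a) * y * (a₀⁻¹ * a)⁻¹) * a₀⁻¹ := by group
        _ = y := by rw [e2, hfix]
  -- the plane, via the abstract lemma
  letI : CommGroup ↥V := { (inferInstance : Group ↥V) with mul_comm := fun v w => Subtype.ext (hVab v v.2 w w.2) }
  set ρ := rhoN N V hNV with hρ
  let a₁ : ↥N := ⟨a₀, hAN ha₀⟩
  let n₁ : ↥N := ⟨n, hn⟩
  let c' : ↥V := ⟨c, hcV⟩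
  let d' : ↥V := ⟨n * c * n⁻¹, hconjV n hn c hcV⟩
  have hcc' : c' * c' = 1 := Subtype.ext hcc
  have hdd' : d' * d' = 1 := by
    apply Subtype.ext
    show (n * c * n⁻¹) * (n * c * n⁻¹) = 1
    have : (n * c * n⁻¹) * (n * c * n⁻¹) = n * (c * c) * n⁻¹ := by group
    rw [this, hcc]; group
  have hac' : ρ a₁ c' = c' := Subtype.ext (hca a₀ ha₀)
  have hbd' : ρ (n₁ * a₁ * n₁⁻¹) d' = d' := by
    apply Subtype.ext
    show (n * a₀ * n⁻¹) * (n * c * n⁻¹) * (n * a₀ * n⁻¹)⁻¹ = n * c * n⁻¹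
    have : (n * a₀ * n⁻¹) * (n * c * n⁻¹) * (n * a₀ * n⁻¹)⁻¹ = n * (a₀ * c * a₀⁻¹) * n⁻¹ := by group
    rw [this, hca a₀ ha₀]
  have ha' : ∀ v : ↥V, ρ a₁ v = v ∨ ρ a₁ v = c' * v := by
    intro v
    rcases hTv v v.2 with h | h
    · exact Or.inl (Subtype.ext h)
    · exact Or.inr (Subtype.ext h)
  have hb' : ∀ v : ↥V, ρ (n₁ * a₁ * n₁⁻¹) v = v ∨ ρ (n₁ * a₁ * n₁⁻¹) v = d' * v := by
    intro v
    have hvv := hconjV' n hn v v.2
    have e0 : (n * a₀ * n⁻¹) * (v : G) * (n * a₀ * n⁻¹)⁻¹ = n * (a₀ * (n⁻¹ * v * n) * a₀⁻¹) * n⁻¹ := by group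
    rcases hTv _ hvv with h | h
    · left
      apply Subtype.ext
      show (n * a₀ * n⁻¹) * (v : G) * (n * a₀ * n⁻¹)⁻¹ = v
      rw [e0, h]; group
    · right
      apply Subtype.ext
      show (n * a₀ * n⁻¹) * (v : G) * (n * a₀ * n⁻¹)⁻¹ = (n * c * n⁻¹) * v
      rw [e0, h]; group
  let Ω : Set ↥V := {v | ∃ m ∈ N, (v : G) = m * x * m⁻¹}
  have hΩρ : ∀ m : ↥N, ∀ ξ ∈ Ω, ρ m ξ ∈ Ω := by
    rintro m ξ ⟨m', hm', h⟩
    refine ⟨m * m', mul_mem m.2 hm', ?_⟩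
    show (m : G) * ξ * (m : G)⁻¹ = _
    rw [h]; group
  have hx' : (⟨x, hx⟩ : ↥V) ∈ Ω := ⟨1, one_mem _, by simp⟩
  have hω' : (⟨ω, hωV⟩ : ↥V) ∈ Ω := ⟨n, hn, rfl⟩
  have hne' : (⟨x, hx⟩ : ↥V) ≠ ⟨ω, hωV⟩ := fun h => hne (congrArg Subtype.val h).symm
  have hax' : ρ a₁ ⟨x, hx⟩ = ⟨x, hx⟩ := Subtype.ext (hfixA a₀ ha₀)
  have hbω' : ρ (n₁ * a₁ * n₁⁻¹) ⟨ω, hωV⟩ = ⟨ω, hωV⟩ := by
    apply Subtype.ext
    show (n * a₀ * n⁻¹) * ω * (n * a₀ * n⁻¹)⁻¹ = ω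
    have : (n * a₀ * n⁻¹) * ω * (n * a₀ * n⁻¹)⁻¹ = n * (a₀ * x * a₀⁻¹) * n⁻¹ := by rw [hω]; group
    rw [this, hfixA a₀ ha₀]
  have hafix' : ∀ ξ ∈ Ω, ρ a₁ ξ = ξ → ξ = ⟨x, hx⟩ := by
    rintro ξ ⟨m, hm, h⟩ hf
    apply Subtype.ext
    show (ξ : G) = x
    rw [h]
    apply hfixA_of m hm
    rw [← h]
    exact congrArg Subtype.val hf
  have hbfix' : ∀ ξ ∈ Ω, ρ (n₁ * a₁ * n₁⁻¹) ξ = ξ → ξ = ⟨ω, hωV⟩ := by
    rintro ξ ⟨m, hm, h⟩ hf
    apply Subtype.ext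
    show (ξ : G) = ω
    have hf' : (n * a₀ * n⁻¹) * (ξ : G) * (n * a₀ * n⁻¹)⁻¹ = ξ := congrArg Subtype.val hf
    have h6 : a₀ * ((n⁻¹ * m) * x * (n⁻¹ * m)⁻¹) * a₀⁻¹ = (n⁻¹ * m) * x * (n⁻¹ * m)⁻¹ := by
      rw [h] at hf'
      calc a₀ * ((n⁻¹ * m) * x * (n⁻¹ * m)⁻¹) * a₀⁻¹ = n⁻¹ * ((n * a₀ * n⁻¹) * (m * x * m⁻¹) * (n * a₀ * n⁻¹)⁻¹) * n := by group
        _ = (n⁻¹ * m) * x * (n⁻¹ * m)⁻¹ := by rw [hf']; group
    have h7 := hfixA_of _ (mul_mem (inv_mem hn) hm) h6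
    rw [h]
    calc m * x * m⁻¹ = n * ((n⁻¹ * m) * x * (n⁻¹ * m)⁻¹) * n⁻¹ := by group
      _ = ω := by rw [h7]
  obtain ⟨h8, h9⟩ := opc Ω (ρ a₁) (ρ (n₁ * a₁ * n₁⁻¹)) c' d' ha' hb' hcc' hdd' hac' hbd'
    (hΩρ _) (hΩρ _) _ _ hx' hω' hne' hax' hbω' hafix' hbfix'
  have h8' : a₀ * (n * c * n⁻¹) * a₀⁻¹ = c * (n * c * n⁻¹) := congrArg Subtype.val h8
  have h9' : (n * a₀ * n⁻¹) * c * (n * a₀ * n⁻¹)⁻¹ = (n * c * n⁻¹) * c := congrArg Subtype.val h9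
  have hd1 : n * c * n⁻¹ ≠ 1 := by
    intro h
    apply hc1
    have : c = n⁻¹ * (n * c * n⁻¹) * n := by group
    rw [this, h]; group
  have hcdne : c ≠ n * c * n⁻¹ := by
    intro h
    rw [← h, hcc] at h8'
    apply hc1
    have : c = a₀⁻¹ * (a₀ * c * a₀⁻¹) * a₀ := by group
    rw [this, h8']; group
  have hcdcomm : c * (n * c * n⁻¹) = (n * c * n⁻¹) * c := hVab _ hcV _ (hconjV n hn c hcV)
  have hbd'' : (n * a₀ * n⁻¹) * (n * c * n⁻¹) * (n * a₀ * n⁻¹)⁻¹ = n * c * n⁻¹ := congrArg Subtype.val hbd'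
  refine LQd.involves_s4_of_plane c (n * c * n⁻¹) (a₀ * (n * a₀ * n⁻¹)) a₀ hcc ?_ hcdcomm hc1 hd1 hcdne ?_ ?_ (hca a₀ ha₀) h8'
  · have : (n * c * n⁻¹) * (n * c * n⁻¹) = n * (c * c) * n⁻¹ := by group
    rw [this, hcc]; group
  · have e : (a₀ * (n * a₀ * n⁻¹)) * c * (a₀ * (n * a₀ * n⁻¹))⁻¹ = a₀ * ((n * a₀ * n⁻¹) * c * (n * a₀ * n⁻¹)⁻¹) * a₀⁻¹ := by group
    rw [e, h9']
    have e2 : a₀ * ((n * c * n⁻¹) * c) * a₀⁻¹ = (a₀ * (n * c * n⁻¹) * a₀⁻¹) * (a₀ * c * a₀⁻¹) := by group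
    rw [e2, h8', hca a₀ ha₀, hcdcomm]
    calc (n * c * n⁻¹) * c * c = (n * c * n⁻¹) * (c * c) := by group
      _ = n * c * n⁻¹ := by rw [hcc, mul_one]
  · have e : (a₀ * (n * a₀ * n⁻¹)) * (n * c * n⁻¹) * (a₀ * (n * a₀ * n⁻¹))⁻¹ = a₀ * ((n * a₀ * n⁻¹) * (n * c * n⁻¹) * (n * a₀ * n⁻¹)⁻¹) * a₀⁻¹ := by group
    rw [e, hbd'', h8']

theorem op_all (N P V : Subgroup G) (x : G) (hPp : IsPGroup p P) (hPN : P ≤ N) (hVP : V ≤ P)
    (hVab : ∀ v ∈ V, ∀ w ∈ V, v * w = w * v) (hNV : N ≤ normalizer (V : Set G)) (hx : x ∈ V)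
    (hgen : closure {ω | ∃ n ∈ N, n * x * n⁻¹ = ω} = V)
    (A₀ : Subgroup G) (hA₀ : A₀ ∈ FamA P) (hA₀V : ¬ A₀ ≤ centralizer (V : Set G))
    (hU : ∀ A' ∈ FamA P, ¬ A' ≤ centralizer (V : Set G) → ∀ n ∈ N,
      (∀ a ∈ A', a * (n * x * n⁻¹) * a⁻¹ = n * x * n⁻¹) → n * x * n⁻¹ = x)
    (hfixP : ∀ s ∈ P, s * x * s⁻¹ = x)
    (hcond : p ≠ 2 ∨ ¬ Cfsg.Involves (Equiv.Perm (Fin 4)) G) : False := by
  classical
  obtain ⟨A, hA, hAnot, hVN⟩ := exists_quad P hPp V hVP (hPN.trans hNV) hVab A₀ hA₀ hA₀V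
  have hAN : A ≤ N := hA.1.trans hPN
  have hAab : ∀ a ∈ A, ∀ b ∈ A, a * b = b * a := fun a ha b hb =>
    Cfsg.Agent.Lib.PQuad.comm_of_isMulComm hA.2.1 ha hb
  have hconjV : ∀ m ∈ N, ∀ v ∈ V, m * v * m⁻¹ ∈ V := fun m hm v hv => (mem_normalizer_iff.1 (hNV hm) v).1 hv
  have hquad : ∀ a ∈ A, ∀ a' ∈ A, ∀ v ∈ V, a' * ((a * v * a⁻¹) * v⁻¹) * a'⁻¹ = (a * v * a⁻¹) * v⁻¹ := by
    intro a ha a' ha' v hv
    have hu : (a * v * a⁻¹) * v⁻¹ ∈ A := by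
      have e : (a * v * a⁻¹) * v⁻¹ = a * (v * a⁻¹ * v⁻¹) := by group
      rw [e]
      exact mul_mem ha ((mem_normalizer_iff.1 (hVN hv) _).1 (inv_mem ha))
    rw [hAab a' ha' _ hu]; group
  letI : CommGroup ↥V := { (inferInstance : Group ↥V) with mul_comm := fun v w => Subtype.ext (hVab v v.2 w w.2) }
  set ρ := rhoN N V hNV with hρ
  have hVp : IsPGroup p ↥V := hPp.to_le hVP
  let x' : ↥V := ⟨x, hx⟩
  let 𝔑 : Subgroup (MulAut ↥V) := ρ.range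
  let 𝔄 : Subgroup (MulAut ↥V) := (A.subgroupOf N).map ρ
  have h𝔄 : 𝔄 ≤ 𝔑 := by
    rintro _ ⟨a, _, rfl⟩
    exact ⟨a, rfl⟩
  have hq : Quad 𝔄 := by
    rintro _ ⟨a, ha, rfl⟩ _ ⟨a', ha', rfl⟩ v
    apply Subtype.ext
    have h := hquad a (mem_subgroupOf.1 ha) a' (mem_subgroupOf.1 ha') v v.2
    rw [div_eq_mul_inv]
    exact h
  have hgen' : closure {v : ↥V | ∃ n ∈ 𝔑, n x' = v} = ⊤ := by
    apply Subgroup.map_injective V.subtype_injective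
    rw [MonoidHom.map_closure, ← MonoidHom.range_eq_map, range_subtype]
    have hset : (V.subtype '' {v : ↥V | ∃ n ∈ 𝔑, n x' = v}) = {ω | ∃ n ∈ N, n * x * n⁻¹ = ω} := by
      ext ω
      constructor
      · rintro ⟨v, ⟨_, ⟨n, rfl⟩, hn⟩, rfl⟩
        refine ⟨n, n.2, ?_⟩
        rw [← hn]
        rfl
      · rintro ⟨n, hn, rfl⟩
        exact ⟨ρ ⟨n, hn⟩ x', ⟨_, ⟨⟨n, hn⟩, rfl⟩, rfl⟩, rfl⟩
    rw [hset]
    exact hgen
  have hfix : ∀ a ∈ 𝔄, a x' = x' := by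
    rintro _ ⟨a, ha, rfl⟩
    exact Subtype.ext (hfixP a (hA.1 (mem_subgroupOf.1 ha)))
  have hmov : ∀ n ∈ 𝔑, n x' ≠ x' → ∃ a ∈ 𝔄, a (n x') ≠ n x' := by
    rintro _ ⟨n, rfl⟩ hne
    by_contra hcon
    push Not at hcon
    apply hne
    apply Subtype.ext
    refine hU A hA hAnot n n.2 ?_
    intro a ha
    have := hcon (ρ ⟨a, hAN ha⟩) ⟨⟨a, hAN ha⟩, mem_subgroupOf.2 ha, rfl⟩
    exact congrArg Subtype.val this
  have hcond' : p ≠ 2 ∨ ∀ n ∈ 𝔑, n x' ≠ x' → 4 ≤ Nat.card ↥(orbHom 𝔄 hq (n x')).range := by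
    rcases hcond with h | h
    · exact Or.inl h
    rcases eq_or_ne p 2 with h2 | h2
    swap
    · exact Or.inl h2
    refine Or.inr ?_
    rintro _ ⟨n, rfl⟩ hne
    by_contra hlt
    apply h
    set ω' := ρ n x' with hω'
    have hBp : IsPGroup p ↥(orbHom 𝔄 hq ω').range := hVp.to_subgroup _
    obtain ⟨m, hm⟩ := IsPGroup.iff_card.1 hBp
    subst h2
    obtain ⟨a, ha, ha2⟩ := hmov _ ⟨n, rfl⟩ hne
    have hm1 : m = 1 := by
      rcases m with _ | _ | m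
      · exfalso
        rw [pow_zero, Subgroup.card_eq_one] at hm
        have : orbHom 𝔄 hq ω' ⟨a, ha⟩ ∈ (orbHom 𝔄 hq ω').range := ⟨_, rfl⟩
        rw [hm] at this
        apply ha2
        exact div_eq_one.1 ((Subgroup.mem_bot).1 this)
      · rfl
      · exfalso
        apply hlt
        rw [hm]
        calc 4 = 2 ^ 2 := rfl
          _ ≤ 2 ^ (m + 1 + 1) := Nat.pow_le_pow_right (by norm_num) (by omega)
    subst hm1
    rw [pow_one] at hm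
    -- the nontrivial element of the range
    set c₀ := orbHom 𝔄 hq ω' ⟨a, ha⟩ with hc₀
    have hc₀1 : c₀ ≠ 1 := by
      intro h0
      exact ha2 (div_eq_one.1 h0)
    have hrange : ∀ (b : MulAut ↥V) (hb : b ∈ 𝔄), orbHom 𝔄 hq ω' ⟨b, hb⟩ = 1 ∨ orbHom 𝔄 hq ω' ⟨b, hb⟩ = c₀ := by
      intro b hb
      have hmem : orbHom 𝔄 hq ω' ⟨b, hb⟩ ∈ (orbHom 𝔄 hq ω').range := ⟨_, rfl⟩
      obtain ⟨u, v, huv, huniv⟩ := Nat.card_eq_two_iff.1 hm
      have hh : ∀ z : ↥(orbHom 𝔄 hq ω').range, z = 1 ∨ z = ⟨c₀, ⟨_, rfl⟩⟩ := by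
        intro z
        have h1' : (1 : ↥(orbHom 𝔄 hq ω').range) ≠ ⟨c₀, ⟨_, rfl⟩⟩ := by
          intro h
          exact hc₀1 (congrArg Subtype.val h).symm
        have hz : z ∈ ({u, v} : Set _) := by rw [huniv]; trivial
        have hone : (1 : ↥(orbHom 𝔄 hq ω').range) ∈ ({u, v} : Set _) := by rw [huniv]; trivial
        have hc : (⟨c₀, ⟨_, rfl⟩⟩ : ↥(orbHom 𝔄 hq ω').range) ∈ ({u, v} : Set _) := by rw [huniv]; trivial
        simp only [Set.mem_insert_iff, Set.mem_singleton_iff] at hz hone hc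
        rcases hz with rfl | rfl <;> rcases hone with h3 | h3 <;> rcases hc with h4 | h4
        · exact absurd (h3.trans h4.symm) h1'
        · exact Or.inl h3.symm
        · exact Or.inr h4.symm
        · exact absurd (h3.trans h4.symm) h1'
        · exact absurd (h3.trans h4.symm) h1'
        · exact Or.inr h4.symm
        · exact Or.inl h3.symm
        · exact absurd (h3.trans h4.symm) h1'
      have := hh ⟨_, hmem⟩
      rcases this with h5 | h5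
      · exact Or.inl (congrArg Subtype.val h5)
      · exact Or.inr (congrArg Subtype.val h5)
    obtain ⟨a₁, ha₁, rfl⟩ := ha
    set c := (c₀ : G) with hc
    have hcV : c ∈ V := c₀.2
    have hcne : c ≠ 1 := fun h0 => hc₀1 (Subtype.ext h0)
    have hfac : ∀ b : G, ∀ hb : b ∈ A, (b * (n * x * (n : G)⁻¹) * b⁻¹ = (n * x * (n : G)⁻¹)) ∨
        (b * (n * x * (n : G)⁻¹) * b⁻¹ = c * (n * x * (n : G)⁻¹)) := by
      intro b hb
      have hb' : ρ ⟨b, hAN hb⟩ ∈ 𝔄 := ⟨⟨b, hAN hb⟩, mem_subgroupOf.2 hb, rfl⟩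
      rcases hrange _ hb' with h5 | h5
      · left
        have h6 : ρ ⟨b, hAN hb⟩ ω' = ω' := div_eq_one.1 h5
        exact congrArg Subtype.val h6
      · right
        have h6 : ρ ⟨b, hAN hb⟩ ω' = c₀ * ω' := by
          rw [← h5]
          exact (div_mul_cancel _ _).symm
        exact congrArg Subtype.val h6
    have hcc : c * c = 1 := by
      have h7 : c₀ * c₀ = 1 := by
        have hmem : (orbHom 𝔄 hq ω' ⟨ρ a₁, ⟨a₁, ha₁, rfl⟩⟩) * (orbHom 𝔄 hq ω' ⟨ρ a₁, ⟨a₁, ha₁, rfl⟩⟩) ∈ (orbHom 𝔄 hq ω').range :=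
          ⟨_, map_mul _ _ _⟩
        rw [← hc₀] at hmem
        have hsq : c₀ * c₀ = orbHom 𝔄 hq ω' (⟨ρ a₁, ⟨a₁, ha₁, rfl⟩⟩ * ⟨ρ a₁, ⟨a₁, ha₁, rfl⟩⟩) := by
          rw [map_mul]
        have h8 := hrange _ (mul_mem (⟨a₁, ha₁, rfl⟩ : ρ a₁ ∈ 𝔄) (⟨a₁, ha₁, rfl⟩ : ρ a₁ ∈ 𝔄))
        have h9 : orbHom 𝔄 hq ω' ⟨ρ a₁ * ρ a₁, mul_mem (⟨a₁, ha₁, rfl⟩ : ρ a₁ ∈ 𝔄) (⟨a₁, ha₁, rfl⟩ : ρ a₁ ∈ 𝔄)⟩ = c₀ * c₀ := hsq.symm
        rw [h9] at h8
        rcases h8 with h10 | h10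
        · exact h10
        · exact absurd (mul_eq_left.1 h10) hc₀1
      exact congrArg Subtype.val h7
    have h00 : a₁ * (n * x * (n : G)⁻¹) * (a₁ : G)⁻¹ = c * (n * x * (n : G)⁻¹) := by
      have h6 : ρ a₁ ω' = c₀ * ω' := (div_mul_cancel _ _).symm
      exact congrArg Subtype.val h6
    exact plane_branch N P V x hVP hVab hNV hx A hA hAN hVN hAnot hU
      (fun s hs => hfixP s (hA.1 hs)) n n.2 (fun h => hne (Subtype.ext h)) a₁ (mem_subgroupOf.1 ha₁) c hcV hcne hcc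
      (fun b hb => hfac b hb) h00
  have hall := opb hVp 𝔑 𝔄 h𝔄 hq x' hgen' hfix hmov hcond'
  apply hAnot
  intro a ha
  rw [mem_centralizer_iff]
  intro v hv
  have h1 := hall (ρ ⟨a, hAN ha⟩) ⟨⟨a, hAN ha⟩, mem_subgroupOf.2 ha, rfl⟩ ⟨v, hv⟩
  have h2 : a * v * a⁻¹ = v := congrArg Subtype.val h1
  calc v * a = (a * v * a⁻¹) * a := by rw [h2]
    _ = a * v := by group

end Cfsg.Agent.Lib.LWC
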