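import Mathlib
import Cfsg.Agent.Lib.LWC2
import Cfsg.Agent.Lib.LExtraFus

set_option autoImplicit false
set_option linter.unusedSectionVars false
set_option linter.unusedVariables false
set_option linter.style.haveILetI false

/-! Glauberman's weak closure theorem: the local step. -/

namespace Cfsg.Agent.Lib.LWC

open Subgroup Cfsg Cfsg.Agent.Lib.PZJ Cfsg.Agent.Lib.LNpcC Cfsg.Agent.Lib.H1Core

universe u

variable {G : Type u} [Group G] [Finite G] {p : ℕ} [Fact p.Prime]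

theorem norm_le_normJ (U : Subgroup G) :
    normalizer (U : Set G) ≤ normalizer (thompsonSubgroupAOf U : Set G) := by
  intro g hg
  have hmap : U.map (MulAut.conj g).toMonoidHom = U := by
    ext u
    constructor
    · rintro ⟨v, hv, rfl⟩
      exact (mem_normalizer_iff.1 hg v).1 hv
    · intro hu
      refine ⟨g⁻¹ * u * g, ?_, by simp [mul_assoc]⟩
      have := (mem_normalizer_iff.1 hg (g⁻¹ * u * g)).2
      apply this
      have e : g * (g⁻¹ * u * g) * g⁻¹ = u := by group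
      rwa [e]
  have h1 := thompsonAOf_map (MulAut.conj g).toMonoidHom U (fun x _ hx => by
    have : (MulAut.conj g) x = 1 := hx
    exact (map_eq_one_iff _ (MulAut.conj g).injective).1 this)
  rw [hmap] at h1
  refine Cfsg.Agent.Lib.PGlaub.mem_normalizer_of_conj_mem ?_
  intro k hk
  rw [h1]
  exact ⟨k, hk, rfl⟩

theorem A_le_J {U A : Subgroup G} (hA : A ∈ FamA U) : A ≤ thompsonSubgroupAOf U := by
  rw [thompsonAOf_eq]
  exact le_sSup hA

theorem J_eq_of_le {T U : Subgroup G} (hTU : T ≤ U) (h : thompsonSubgroupAOf U ≤ T) :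
    thompsonSubgroupAOf T = thompsonSubgroupAOf U := by
  have hfam : FamA T = FamA U := by
    ext A
    constructor
    · intro hA
      obtain ⟨B, hB⟩ := exists_famA U
      have hBT : B ≤ T := (A_le_J hB).trans h
      have h1 := hA.2.2 B hBT hB.2.1
      exact ⟨hA.1.trans hTU, hA.2.1, fun V hV hVa => (hB.2.2 V hV hVa).trans h1⟩
    · intro hA
      exact ⟨(A_le_J hA).trans h, hA.2.1, fun V hV hVa => hA.2.2 V (hV.trans hTU) hVa⟩
  rw [thompsonAOf_eq, thompsonAOf_eq, hfam]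

theorem mem_J_of_central {U : Subgroup G} {x : G} (hx : x ∈ U) (hc : ∀ u ∈ U, u * x * u⁻¹ = x) :
    x ∈ thompsonSubgroupAOf U := by
  obtain ⟨A, hA⟩ := exists_famA U
  refine A_le_J hA (famA_mem U A hA x hx ?_)
  rw [mem_centralizer_iff]
  intro a ha
  have := hc a (hA.1 ha)
  calc a * x = (a * x * a⁻¹) * a := by group
    _ = x * a := by rw [this]

theorem exists_conj_into (S : Sylow p G) (U : Subgroup G) (hU : IsPGroup p U) :
    ∃ h : G, ∀ u ∈ U, h⁻¹ * u * h ∈ (S : Subgroup G) := by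
  obtain ⟨Q, hQ⟩ := hU.exists_le_sylow
  obtain ⟨h, rfl⟩ := MulAction.exists_smul_eq G S Q
  exact ⟨h, fun u hu => mem_sylow_smul.1 (hQ hu)⟩

theorem exists_max_p (Γ U : Subgroup G) (hUΓ : U ≤ Γ) (hU : IsPGroup p U) :
    ∃ R : Subgroup G, U ≤ R ∧ R ≤ Γ ∧ IsPGroup p R ∧ ∀ R₂ : Subgroup G, R ≤ R₂ → R₂ ≤ Γ → IsPGroup p R₂ → R₂ = R := by
  classical
  let s : Set (Subgroup G) := {R | U ≤ R ∧ R ≤ Γ ∧ IsPGroup p R}
  obtain ⟨R, hR, hmax⟩ := Set.exists_max_image s (fun R => Nat.card R) (Set.toFinite s) ⟨U, le_rfl, hUΓ, hU⟩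
  refine ⟨R, hR.1, hR.2.1, hR.2.2, fun R₂ h1 h2 h3 => ?_⟩
  have := hmax R₂ ⟨hR.1.trans h1, h2, h3⟩
  exact (Subgroup.eq_of_le_of_card_ge h1 this).symm

/-- The closure of an orbit. -/
def orbCl (N : Subgroup G) (e : G) : Subgroup G := closure {ω | ∃ n ∈ N, n * e * n⁻¹ = ω}

theorem mem_orbCl (N : Subgroup G) (e : G) {n : G} (hn : n ∈ N) : n * e * n⁻¹ ∈ orbCl N e :=
  subset_closure ⟨n, hn, rfl⟩

theorem self_mem_orbCl (N : Subgroup G) (e : G) : e ∈ orbCl N e := by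
  have := mem_orbCl N e (one_mem N)
  simpa using this

theorem orbCl_le (N K : Subgroup G) (e : G) (h : ∀ n ∈ N, n * e * n⁻¹ ∈ K) : orbCl N e ≤ K := by
  rw [orbCl, closure_le]
  rintro _ ⟨n, hn, rfl⟩
  exact h n hn

theorem conj_mem_orbCl (N : Subgroup G) (e : G) {n : G} (hn : n ∈ N) {w : G} (hw : w ∈ orbCl N e) :
    n * w * n⁻¹ ∈ orbCl N e := by
  induction hw using Subgroup.closure_induction with
  | mem w hw =>
    obtain ⟨m, hm, rfl⟩ := hw
    have e1 : n * (m * e * m⁻¹) * n⁻¹ = (n * m) * e * (n * m)⁻¹ := by group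
    rw [e1]
    exact mem_orbCl N e (mul_mem hn hm)
  | one => simp [one_mem]
  | mul a b _ _ ha hb =>
    have e1 : n * (a * b) * n⁻¹ = (n * a * n⁻¹) * (n * b * n⁻¹) := by group
    rw [e1]
    exact mul_mem ha hb
  | inv a _ ha =>
    have e1 : n * a⁻¹ * n⁻¹ = (n * a * n⁻¹)⁻¹ := by group
    rw [e1]
    exact inv_mem ha

theorem le_norm_orbCl (N : Subgroup G) (e : G) : N ≤ normalizer (orbCl N e : Set G) := by
  intro n hn
  exact Cfsg.Agent.Lib.PGlaub.mem_normalizer_of_conj_mem (fun k hk => conj_mem_orbCl N e hn hk)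

theorem last_power {P K : Subgroup G} (hP : IsPGroup p P) {a : G} (ha : a ∈ P) (hK : a ∉ K) :
    ∃ k : ℕ, a ^ (p ^ k) ∉ K ∧ a ^ (p ^ (k + 1)) ∈ K := by
  classical
  obtain ⟨m, hm⟩ := (IsPGroup.iff_orderOf.1 hP) ⟨a, ha⟩
  have hm' : a ^ (p ^ m) = 1 := by
    have := pow_orderOf_eq_one (⟨a, ha⟩ : ↥P)
    rw [hm] at this
    exact congrArg Subtype.val this
  have hex : ∃ k, a ^ (p ^ k) ∈ K := ⟨m, by rw [hm']; exact one_mem _⟩
  have hfind := Nat.find_spec hex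
  have hmin := @Nat.find_min _ _ hex
  set k := Nat.find hex with hk
  rcases Nat.eq_zero_or_pos k with h0 | h0
  · rw [h0, pow_zero, pow_one] at hfind
    exact absurd hfind hK
  · obtain ⟨l, hl⟩ : ∃ l, k = l + 1 := ⟨k - 1, by omega⟩
    refine ⟨l, ?_, ?_⟩
    · exact hmin (by omega)
    · rw [← hl]; exact hfind

/-- Quadratic elements fix squares. -/
theorem z_trick (P V K : Subgroup G) (hP : IsPGroup 2 P) (hVP : V ≤ P) (hPV : P ≤ normalizer (V : Set G))
    (hVab : ∀ v ∈ V, ∀ w ∈ V, v * w = w * v) (hKC : K ≤ centralizer (V : Set G))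
    (A₀ : Subgroup G) (hA₀ : A₀ ∈ FamA P) (hnot : ¬ A₀ ≤ centralizer (V : Set G)) [Fact (Nat.Prime 2)] :
    ∃ a ∈ P, a ∉ K ∧ ∀ v ∈ V, a * (v * v) * a⁻¹ = v * v := by
  obtain ⟨A, hA, hAnot, hVN⟩ := exists_quad P hP V hVP hPV hVab A₀ hA₀ hnot
  have hAab : ∀ a ∈ A, ∀ b ∈ A, a * b = b * a := fun a ha b hb =>
    Cfsg.Agent.Lib.PQuad.comm_of_isMulComm hA.2.1 ha hb
  obtain ⟨a, ha, hna⟩ := SetLike.not_le_iff_exists.1 hAnot
  have haK : a ∉ K := fun h => hna (hKC h)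
  obtain ⟨k, hk1, hk2⟩ := last_power hP (hA.1 ha) haK
  set b := a ^ (2 ^ k) with hb
  have hbA : b ∈ A := pow_mem ha _
  have hbb : b * b ∈ K := by
    have : b * b = a ^ (2 ^ (k + 1)) := by
      rw [hb, ← pow_add, pow_succ]
      congr 1
      ring
    rw [this]
    exact hk2
  refine ⟨b, hA.1 hbA, hk1, ?_⟩
  intro v hv
  have hbP := hA.1 hbA
  have hbv : b * v * b⁻¹ ∈ V := (mem_normalizer_iff.1 (hPV hbP) v).1 hv
  set u := (b * v * b⁻¹) * v⁻¹ with hu
  have huV : u ∈ V := mul_mem hbv (inv_mem hv)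
  have huA : u ∈ A := by
    have e : u = b * (v * b⁻¹ * v⁻¹) := by rw [hu]; group
    rw [e]
    exact mul_mem hbA ((mem_normalizer_iff.1 (hVN hv) _).1 (inv_mem hbA))
  have hbu : b * u * b⁻¹ = u := by rw [hAab b hbA u huA]; group
  have hbv2 : b * v * b⁻¹ = u * v := by rw [hu]; group
  have hsq : (b * b) * v * (b * b)⁻¹ = v := by
    have := (mem_centralizer_iff.1 (hKC hbb)) v hv
    rw [← this]; group
  have huu : u * u = 1 := by
    have e1 : (b * b) * v * (b * b)⁻¹ = b * (b * v * b⁻¹) * b⁻¹ := by group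
    rw [e1, hbv2] at hsq
    have e2 : b * (u * v) * b⁻¹ = (b * u * b⁻¹) * (b * v * b⁻¹) := by group
    rw [e2, hbu, hbv2] at hsq
    have := mul_eq_right.1 (show (u * u) * v = v by rw [mul_assoc]; exact hsq)
    exact this
  have e3 : b * (v * v) * b⁻¹ = (b * v * b⁻¹) * (b * v * b⁻¹) := by group
  rw [e3, hbv2]
  calc u * v * (u * v) = u * (v * u) * v := by group
    _ = u * (u * v) * v := by rw [hVab v hv u huV]
    _ = (u * u) * (v * v) := by group
    _ = v * v := by rw [huu, one_mul]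

/-- The hypotheses. -/
structure Cond (p : ℕ) (S : Subgroup G) (x : G) : Prop where
  hxS : x ∈ S
  hZ : ∀ s ∈ S, s * x * s⁻¹ = x
  hW : ∀ n ∈ normalizer (thompsonSubgroupAOf S : Set G), n * x * n⁻¹ ∈ S → n * x * n⁻¹ = x
  hC : p ≠ 2 ∨ (∃ z ∈ S, (∀ s ∈ S, s * z = z * s) ∧ z ^ p = x) ∨ ¬ Cfsg.Involves (Equiv.Perm (Fin 4)) G

theorem cond_conj {S : Subgroup G} {x : G} (hC : Cond p S x) (h : G) (hh : h * x * h⁻¹ = x) :
    Cond p (S.map (MulAut.conj h).toMonoidHom) x := by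
  have hh' : h⁻¹ * x * h = x := by
    calc h⁻¹ * x * h = h⁻¹ * (h * x * h⁻¹) * h := by rw [hh]
      _ = x := by group
  have hmem : ∀ {y : G}, y ∈ S.map (MulAut.conj h).toMonoidHom ↔ h⁻¹ * y * h ∈ S := by
    intro y
    constructor
    · rintro ⟨s, hs, rfl⟩
      have : h⁻¹ * ((MulAut.conj h).toMonoidHom s) * h = s := by
        show h⁻¹ * (h * s * h⁻¹) * h = s
        group
      rwa [this]
    · intro hy
      refine ⟨_, hy, ?_⟩
      show h * (h⁻¹ * y * h) * h⁻¹ = y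
      group
  have hJ := thompsonAOf_map (MulAut.conj h).toMonoidHom S (fun x _ hx => by
    have : (MulAut.conj h) x = 1 := hx
    exact (map_eq_one_iff _ (MulAut.conj h).injective).1 this)
  refine ⟨?_, ?_, ?_, ?_⟩
  · rw [hmem, hh']; exact hC.hxS
  · intro s hs
    have := hC.hZ _ (hmem.1 hs)
    have e : s * x * s⁻¹ = h * ((h⁻¹ * s * h) * (h⁻¹ * x * h) * (h⁻¹ * s * h)⁻¹) * h⁻¹ := by group
    rw [e, hh', this, hh]
  · intro n hn hnx
    have hn0 : h⁻¹ * n * h ∈ normalizer (thompsonSubgroupAOf S : Set G) := by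
      refine Cfsg.Agent.Lib.PGlaub.mem_normalizer_of_conj_mem ?_
      intro k hk
      have h1 : h * k * h⁻¹ ∈ thompsonSubgroupAOf (S.map (MulAut.conj h).toMonoidHom) := by
        rw [hJ]; exact ⟨k, hk, rfl⟩
      have h2 := (mem_normalizer_iff.1 hn _).1 h1
      rw [hJ] at h2
      obtain ⟨k', hk', he⟩ := h2
      have he' : h * k' * h⁻¹ = n * (h * k * h⁻¹) * n⁻¹ := he
      have : (h⁻¹ * n * h) * k * (h⁻¹ * n * h)⁻¹ = k' := by
        calc (h⁻¹ * n * h) * k * (h⁻¹ * n * h)⁻¹ = h⁻¹ * (n * (h * k * h⁻¹) * n⁻¹) * h := by group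
          _ = h⁻¹ * (h * k' * h⁻¹) * h := by rw [he']
          _ = k' := by group
      rw [this]
      exact hk'
    have h3 : (h⁻¹ * n * h) * x * (h⁻¹ * n * h)⁻¹ = h⁻¹ * (n * x * n⁻¹) * h := by
      have e : (h⁻¹ * n * h) * x * (h⁻¹ * n * h)⁻¹ = h⁻¹ * (n * (h * x * h⁻¹) * n⁻¹) * h := by group
      rw [e, hh]
    have h4 := hC.hW _ hn0 (by rw [h3]; exact hmem.1 hnx)
    rw [h3] at h4
    calc n * x * n⁻¹ = h * (h⁻¹ * (n * x * n⁻¹) * h) * h⁻¹ := by group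
      _ = x := by rw [h4, hh]
  · rcases hC.hC with h1 | ⟨z, hz, hzc, hzp⟩ | h1
    · exact Or.inl h1
    · refine Or.inr (Or.inl ⟨h * z * h⁻¹, hmem.2 (by rw [show h⁻¹ * (h * z * h⁻¹) * h = z by group]; exact hz), ?_, ?_⟩)
      · intro s hs
        have := hzc _ (hmem.1 hs)
        calc s * (h * z * h⁻¹) = h * ((h⁻¹ * s * h) * z) * h⁻¹ := by group
          _ = h * (z * (h⁻¹ * s * h)) * h⁻¹ := by rw [this]
          _ = _ := by group
      · rw [← hh, ← hzp, conj_pow]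
    · exact Or.inr (Or.inr h1)

end Cfsg.Agent.Lib.LWC
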