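import Mathlib
import Cfsg.Agent.Lib.LWC3

set_option autoImplicit false
set_option linter.unusedSectionVars false
set_option linter.unusedVariables false
set_option linter.style.haveILetI false
set_option maxHeartbeats 1000000

/-! Glauberman's weak closure theorem: the local step. -/

namespace Cfsg.Agent.Lib.LWC

open Subgroup Cfsg Cfsg.Agent.Lib.PZJ Cfsg.Agent.Lib.LNpcC Cfsg.Agent.Lib.H1Core

universe u

variable {G : Type u} [Group G] [Finite G] {p : ℕ} [Fact p.Prime]

/-- The induction hypothesis, inside the group. -/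
def IH (p : ℕ) (G : Type u) [Group G] (x : G) : Prop :=
  ∀ Γ : Subgroup G, Γ ≠ ⊤ → ∀ R : Subgroup G, R ≤ Γ → IsPGroup p R →
    (∀ R₂ : Subgroup G, R ≤ R₂ → R₂ ≤ Γ → IsPGroup p R₂ → R₂ = R) → x ∈ R → (∀ r ∈ R, r * x * r⁻¹ = x) →
    (∀ n ∈ Γ, n ∈ normalizer (thompsonSubgroupAOf R : Set G) → n * x * n⁻¹ ∈ R → n * x * n⁻¹ = x) →
    (p ≠ 2 ∨ (∃ z ∈ R, (∀ r ∈ R, r * z = z * r) ∧ z ^ p = x) ∨ ¬ Cfsg.Involves (Equiv.Perm (Fin 4)) G) →
    ∀ γ ∈ Γ, γ * x * γ⁻¹ ∈ R → γ * x * γ⁻¹ = x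

theorem LL (S : Sylow p G) (x : G) (hC : Cond p (S : Subgroup G) x) (hIH : IH p G x)
    (Pr : Subgroup G → Prop) (hPmono : ∀ U U' : Subgroup G, U ≤ U' → Pr U → Pr U')
    (hPconj : ∀ (g : G) (U : Subgroup G), Pr U → Pr (U.map (MulAut.conj g).toMonoidHom))
    (hH2 : ∀ U : Subgroup G, IsPGroup p U → x ∈ U → (∀ u ∈ U, u * x * u⁻¹ = x) → Pr U →
      ¬ (thompsonSubgroupAOf U).Normal)
    (y₀ : G) (hy₀S : y₀ ∈ (S : Subgroup G)) (g₀₀ : G) (hg₀₀ : g₀₀ * x * g₀₀⁻¹ = y₀) (hy₀x : y₀ ≠ x)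
    (hPy₀ : Pr ((S : Subgroup G) ⊓ centralizer ({y₀} : Set G))) : False := by
  classical
  let 𝒴 : Set G := {y | y ∈ (S : Subgroup G) ∧ (∃ g : G, g * x * g⁻¹ = y) ∧ y ≠ x ∧
    Pr ((S : Subgroup G) ⊓ centralizer ({y} : Set G))}
  obtain ⟨y, hy, hmax'⟩ := Set.exists_max_image 𝒴 (fun y => Nat.card ↥((S : Subgroup G) ⊓ centralizer ({y} : Set G)))
    (Set.toFinite 𝒴) ⟨y₀, hy₀S, ⟨g₀₀, hg₀₀⟩, hy₀x, hPy₀⟩
  obtain ⟨hyS, ⟨g₀, hg₀⟩, hyx, hPy⟩ := hy
  set T : Subgroup G := (S : Subgroup G) ⊓ centralizer ({y} : Set G) with hT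
  set t : ℕ := Nat.card T with ht
  have hmax : ∀ y' ∈ 𝒴, Nat.card ↥((S : Subgroup G) ⊓ centralizer ({y'} : Set G)) ≤ t := hmax'
  have hTp : IsPGroup p T := S.isPGroup'.to_le inf_le_left
  -- (a)
  have ha : ∀ (h : G) (U : Subgroup G), (∀ u ∈ U, h⁻¹ * u * h ∈ (S : Subgroup G)) → Pr U → x ∈ U →
      (∀ u ∈ U, u * x * u⁻¹ = x) → t < Nat.card U → h * x * h⁻¹ = x := by
    intro h U hU hPU hxU hcU hlt
    by_contra hne
    have hx''S : h⁻¹ * x * h ∈ (S : Subgroup G) := hU x hxU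
    have hx''ne : h⁻¹ * x * h ≠ x := by
      intro e
      apply hne
      calc h * x * h⁻¹ = h * (h⁻¹ * x * h) * h⁻¹ := by rw [e]
        _ = x := by group
    have hU'le : U.map (MulAut.conj h⁻¹).toMonoidHom ≤ (S : Subgroup G) ⊓ centralizer ({h⁻¹ * x * h} : Set G) := by
      rintro _ ⟨u, hu, rfl⟩
      have e0 : (MulAut.conj h⁻¹).toMonoidHom u = h⁻¹ * u * h := by
        show h⁻¹ * u * h⁻¹⁻¹ = _
        rw [inv_inv]
      rw [e0]
      refine ⟨hU u hu, mem_centralizer_singleton_iff.2 ?_⟩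
      have e1 := hcU u hu
      have e2 : u * x = x * u := by
        calc u * x = (u * x * u⁻¹) * u := by group
          _ = x * u := by rw [e1]
      calc h⁻¹ * u * h * (h⁻¹ * x * h) = h⁻¹ * (u * x) * h := by group
        _ = h⁻¹ * (x * u) * h := by rw [e2]
        _ = _ := by group
    have hmem : h⁻¹ * x * h ∈ 𝒴 := ⟨hx''S, ⟨h⁻¹, by rw [inv_inv]⟩, hx''ne, hPmono _ _ hU'le (hPconj h⁻¹ U hPU)⟩
    have h1 := hmax _ hmem
    have h2 : Nat.card ↥(U.map (MulAut.conj h⁻¹).toMonoidHom) = Nat.card U :=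
      Subgroup.card_map_of_injective (MulAut.conj h⁻¹).injective
    have h3 := Subgroup.card_le_of_le hU'le
    omega
  -- the main claim
  have hMC : ∀ m : ℕ, ∀ U : Subgroup G, Nat.card G - Nat.card U = m → IsPGroup p U → x ∈ U →
      (∀ u ∈ U, u * x * u⁻¹ = x) → Pr U → t < Nat.card U → ∀ R : Subgroup G, U ≤ R →
      R ≤ normalizer (thompsonSubgroupAOf U : Set G) → IsPGroup p R →
      (∀ R₂ : Subgroup G, R ≤ R₂ → R₂ ≤ normalizer (thompsonSubgroupAOf U : Set G) → IsPGroup p R₂ → R₂ = R) →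
      ∀ γ ∈ normalizer (thompsonSubgroupAOf U : Set G), γ * x * γ⁻¹ ∈ R → γ * x * γ⁻¹ = x := by
    intro m
    induction m using Nat.strong_induction_on with
    | _ m ih =>
      intro U hm hUp hxU hcU hPU hlt R hUR hRΓ hRp hRmax
      obtain ⟨h, hh⟩ := exists_conj_into S R hRp
      have hUh : ∀ u ∈ U, h⁻¹ * u * h ∈ (S : Subgroup G) := fun u hu => hh u (hUR hu)
      have hhx := ha h U hUh hPU hxU hcU hlt
      have hCh := cond_conj hC h hhx
      set S' : Subgroup G := (S : Subgroup G).map (MulAut.conj h).toMonoidHom with hS'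
      have hRS' : R ≤ S' := fun r hr => ⟨h⁻¹ * r * h, hh r hr, by
        show h * (h⁻¹ * r * h) * h⁻¹ = r
        group⟩
      have hS'p : IsPGroup p S' := S.isPGroup'.map _
      have hΓ : normalizer (thompsonSubgroupAOf U : Set G) ≠ ⊤ := by
        intro e
        exact hH2 U hUp hxU hcU hPU (normalizer_eq_top_iff.1 e)
      refine hIH _ hΓ R hRΓ hRp hRmax (hUR hxU) (fun r hr => hCh.hZ r (hRS' hr)) ?_ ?_
      · intro n hnΓ hnN hnx
        by_cases hRS : R = S'
        · rw [hRS] at hnN hnx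
          exact hCh.hW n hnN hnx
        · have hlt' : R < S' := lt_of_le_of_ne hRS' hRS
          have hUltR : U < R := by
            refine lt_of_le_of_ne hUR ?_
            rintro rfl
            obtain ⟨s, hs, hsU, hsN⟩ := exists_normalizing_elt hS'p hlt'
            have hsΓ : s ∈ normalizer (thompsonSubgroupAOf U : Set G) := norm_le_normJ U hsN
            have hle : U ⊔ zpowers s ≤ normalizer (thompsonSubgroupAOf U : Set G) :=
              sup_le hRΓ ((zpowers_le).2 hsΓ)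
            have hp2 : IsPGroup p ↥(U ⊔ zpowers s) := hS'p.to_le (sup_le hRS' ((zpowers_le).2 hs))
            have := hRmax _ le_sup_left hle hp2
            apply hsU
            rw [← this]
            exact (le_sup_right : zpowers s ≤ _) (mem_zpowers s)
          have hcardlt : Nat.card U < Nat.card R := Cfsg.Agent.Lib.PNilp.card_lt_of_lt' hUltR
          have hcardG : Nat.card R ≤ Nat.card G := Subgroup.card_le_card_group R
          have hRN : R ≤ normalizer (thompsonSubgroupAOf R : Set G) := le_normalizer.trans (norm_le_normJ R)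
          obtain ⟨R₂, hRR₂, hR₂Γ, hR₂p, hR₂max⟩ := exists_max_p _ R hRN hRp
          exact ih _ (by omega) R rfl hRp (hUR hxU) (fun r hr => hCh.hZ r (hRS' hr)) (hPmono _ _ hUR hPU)
            (by omega) R₂ hRR₂ hR₂Γ hR₂p hR₂max n hnN (hRR₂ hnx)
      · rcases hCh.hC with h1 | ⟨z, hz, hzc, hzp⟩ | h1
        · exact Or.inl h1
        · refine Or.inr (Or.inl ⟨z, ?_, fun r hr => hzc r (hRS' hr), hzp⟩)
          have hzΓ : z ∈ normalizer (thompsonSubgroupAOf U : Set G) := by
            refine Cfsg.Agent.Lib.PGlaub.mem_normalizer_of_conj_mem ?_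
            intro k hk
            have hkS : k ∈ S' := hRS' (hUR (thompsonAOf_le U hk))
            have : z * k * z⁻¹ = k := by rw [← hzc k hkS]; group
            rw [this]
            exact hk
          have hle : R ⊔ zpowers z ≤ normalizer (thompsonSubgroupAOf U : Set G) :=
            sup_le hRΓ ((zpowers_le).2 hzΓ)
          have hp2 : IsPGroup p ↥(R ⊔ zpowers z) := hS'p.to_le (sup_le hRS' ((zpowers_le).2 hz))
          have := hRmax _ le_sup_left hle hp2
          rw [← this]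
          exact (le_sup_right : zpowers z ≤ _) (mem_zpowers z)
        · exact Or.inr (Or.inr h1)
  -- choose the conjugating element
  have hxy : x * y = y * x := by
    have := hC.hZ y hyS
    calc x * y = (y * x * y⁻¹) * y := by rw [this]
      _ = y * x := by group
  have hxT : x ∈ T := ⟨hC.hxS, mem_centralizer_singleton_iff.2 hxy⟩
  have hS₀C : ((g₀ • S : Sylow p G) : Subgroup G) ≤ centralizer ({y} : Set G) := by
    intro s hs
    rw [mem_centralizer_singleton_iff]
    have h1 := hC.hZ _ (mem_sylow_smul.1 hs)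
    have h2 : s * y * s⁻¹ = y := by
      rw [← hg₀]
      calc s * (g₀ * x * g₀⁻¹) * s⁻¹ = g₀ * ((g₀⁻¹ * s * g₀) * x * (g₀⁻¹ * s * g₀)⁻¹) * g₀⁻¹ := by group
        _ = g₀ * x * g₀⁻¹ := by rw [h1]
    calc s * y = (s * y * s⁻¹) * s := by group
      _ = y * s := by rw [h2]
  obtain ⟨c, hc, hcT⟩ := Cfsg.Agent.Lib.LExtraFus.exists_conj_le (g₀ • S) (centralizer ({y} : Set G)) hS₀C T hTp inf_le_right
  set g : G := c⁻¹ * g₀ with hg
  have hgy : g * x * g⁻¹ = y := by
    have hc' : c * y = y * c := mem_centralizer_singleton_iff.1 hc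
    calc g * x * g⁻¹ = c⁻¹ * (g₀ * x * g₀⁻¹) * c := by rw [hg]; group
      _ = c⁻¹ * (y * c) := by rw [hg₀]; group
      _ = c⁻¹ * (c * y) := by rw [hc']
      _ = y := by group
  have hTg : ∀ u ∈ T, g⁻¹ * u * g ∈ (S : Subgroup G) := by
    intro u hu
    have h1 := mem_sylow_smul.1 (hcT u hu)
    have e : g⁻¹ * u * g = g₀⁻¹ * (c * u * c⁻¹) * g₀ := by rw [hg]; group
    rw [e]
    exact h1
  have hTS₂ : T ≤ ((g • S : Sylow p G) : Subgroup G) := fun u hu => mem_sylow_smul.2 (hTg u hu)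
  have hb0 : ∀ b : G, g⁻¹ * b * g ∈ (S : Subgroup G) → b * x * b⁻¹ = x → b ∈ T := by
    intro b hbS hbx
    have hx''S : g⁻¹ * x * g ∈ (S : Subgroup G) := hTg x hxT
    have hx''ne : g⁻¹ * x * g ≠ x := by
      intro e
      apply hyx
      rw [← hgy]
      calc g * x * g⁻¹ = g * (g⁻¹ * x * g) * g⁻¹ := by rw [e]
        _ = x := by group
    have hT'le : T.map (MulAut.conj g⁻¹).toMonoidHom ≤ (S : Subgroup G) ⊓ centralizer ({g⁻¹ * x * g} : Set G) := by
      rintro _ ⟨u, hu, rfl⟩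
      have e0 : (MulAut.conj g⁻¹).toMonoidHom u = g⁻¹ * u * g := by
        show g⁻¹ * u * g⁻¹⁻¹ = _
        rw [inv_inv]
      rw [e0]
      refine ⟨hTg u hu, mem_centralizer_singleton_iff.2 ?_⟩
      have e2 : u * x = x * u := by
        have := hC.hZ u hu.1
        calc u * x = (u * x * u⁻¹) * u := by group
          _ = x * u := by rw [this]
      calc g⁻¹ * u * g * (g⁻¹ * x * g) = g⁻¹ * (u * x) * g := by group
        _ = g⁻¹ * (x * u) * g := by rw [e2]
        _ = _ := by group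
    have hmem : g⁻¹ * x * g ∈ 𝒴 := ⟨hx''S, ⟨g⁻¹, by rw [inv_inv]⟩, hx''ne, hPmono _ _ hT'le (hPconj g⁻¹ T hPy)⟩
    have h1 := hmax _ hmem
    set K : Subgroup G := (S : Subgroup G) ⊓ centralizer ({g⁻¹ * x * g} : Set G) with hK
    have hcard : Nat.card ↥(K.map (MulAut.conj g).toMonoidHom) = Nat.card K :=
      Subgroup.card_map_of_injective (MulAut.conj g).injective
    have hTL : T ≤ K.map (MulAut.conj g).toMonoidHom := by
      intro u hu
      refine ⟨g⁻¹ * u * g, hT'le ⟨u, hu, ?_⟩, ?_⟩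
      · show g⁻¹ * u * g⁻¹⁻¹ = _
        rw [inv_inv]
      · show g * (g⁻¹ * u * g) * g⁻¹ = u
        group
    have heq : T = K.map (MulAut.conj g).toMonoidHom := Subgroup.eq_of_le_of_card_ge hTL (by omega)
    rw [heq]
    refine ⟨g⁻¹ * b * g, ⟨hbS, mem_centralizer_singleton_iff.2 ?_⟩, ?_⟩
    · have e2 : b * x = x * b := by
        calc b * x = (b * x * b⁻¹) * b := by group
          _ = x * b := by rw [hbx]
      calc g⁻¹ * b * g * (g⁻¹ * x * g) = g⁻¹ * (b * x) * g := by group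
        _ = g⁻¹ * (x * b) * g := by rw [e2]
        _ = _ := by group
    · show g * (g⁻¹ * b * g) * g⁻¹ = b
      group
  have hTne : (T : Subgroup G) ≠ ((g • S : Sylow p G) : Subgroup G) := by
    intro e
    have hle : ((g • S : Sylow p G) : Subgroup G) ≤ (S : Subgroup G) := e ▸ inf_le_left
    have h2 := (g • S).is_maximal' S.isPGroup' hle
    have hgN : g ∈ normalizer ((S : Subgroup G) : Set G) := by
      have h3 : g • S = S := Sylow.ext h2.symm
      exact Sylow.smul_eq_iff_mem_normalizer.1 h3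
    have h4 := hC.hW g (norm_le_normJ _ hgN) (by rw [hgy]; exact hyS)
    rw [hgy] at h4
    exact hyx h4
  have hTltS₂ : T < ((g • S : Sylow p G) : Subgroup G) := lt_of_le_of_ne hTS₂ hTne
  obtain ⟨b, hbS₂, hbT, hbN⟩ := exists_normalizing_elt (g • S).isPGroup' hTltS₂
  have hbxne : b * x * b⁻¹ ≠ x := fun e => hbT (hb0 b (mem_sylow_smul.1 hbS₂) e)
  have hTltS : T < (S : Subgroup G) := by
    refine lt_of_le_of_ne inf_le_left ?_
    intro e
    have hle : (S : Subgroup G) ≤ ((g • S : Sylow p G) : Subgroup G) := e ▸ hTS₂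
    have h2 := S.is_maximal' (g • S).isPGroup' hle
    exact hTne (e.trans h2.symm)
  obtain ⟨a₀, ha₀S, ha₀T, ha₀N⟩ := exists_normalizing_elt S.isPGroup' hTltS
  set T₁ : Subgroup G := (S : Subgroup G) ⊓ normalizer (T : Set G) with hT₁
  have hTT₁ : T ≤ T₁ := le_inf inf_le_left le_normalizer
  have hT₁p : IsPGroup p T₁ := S.isPGroup'.to_le inf_le_left
  have hTlt : T < T₁ := by
    refine lt_of_le_of_ne hTT₁ ?_
    intro e
    apply ha₀T
    rw [e]
    exact ⟨ha₀S, ha₀N⟩
  have htlt : t < Nat.card T₁ := Cfsg.Agent.Lib.PNilp.card_lt_of_lt' hTlt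
  have hconjT : ∀ n ∈ normalizer (T : Set G), ∀ u ∈ T, n * u * n⁻¹ ∈ T :=
    fun n hn u hu => (mem_normalizer_iff.1 hn u).1 hu
  have hconjT' : ∀ n ∈ normalizer (T : Set G), ∀ u ∈ T, n⁻¹ * u * n ∈ T := by
    intro n hn u hu
    have := hconjT n⁻¹ (inv_mem hn) u hu
    rwa [inv_inv] at this
  have hptZ : ∀ e : G, (∀ s ∈ (S : Subgroup G), s * e = e * s) → ∀ n ∈ normalizer (T : Set G), ∀ u ∈ T,
      u * (n * e * n⁻¹) * u⁻¹ = n * e * n⁻¹ := by
    intro e he n hn u hu
    have h1 := hconjT' n hn u hu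
    have h2 := he _ h1.1
    calc u * (n * e * n⁻¹) * u⁻¹ = n * ((n⁻¹ * u * n) * e) * (n⁻¹ * u * n)⁻¹ * n⁻¹ := by group
      _ = n * (e * (n⁻¹ * u * n)) * (n⁻¹ * u * n)⁻¹ * n⁻¹ := by rw [h2]
      _ = n * e * n⁻¹ := by group
  have hxcen : ∀ s ∈ (S : Subgroup G), s * x = x * s := by
    intro s hs
    have := hC.hZ s hs
    calc s * x = (s * x * s⁻¹) * s := by group
      _ = x * s := by rw [this]
  have hptC : ∀ n ∈ normalizer (T : Set G), n * x * n⁻¹ ≠ x → ∀ s ∈ (S : Subgroup G),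
      s * (n * x * n⁻¹) * s⁻¹ = n * x * n⁻¹ → s ∈ T := by
    intro n hn hne s hs hfix
    have hω : n * x * n⁻¹ ∈ T := hconjT n hn x hxT
    have hle : T ≤ (S : Subgroup G) ⊓ centralizer ({n * x * n⁻¹} : Set G) := by
      intro u hu
      refine ⟨hu.1, mem_centralizer_singleton_iff.2 ?_⟩
      have := hptZ x hxcen n hn u hu
      calc u * (n * x * n⁻¹) = (u * (n * x * n⁻¹) * u⁻¹) * u := by group
        _ = _ := by rw [this]
    have hmem : n * x * n⁻¹ ∈ 𝒴 := ⟨hω.1, ⟨n, rfl⟩, hne, hPmono _ _ hle hPy⟩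
    have h1 := hmax _ hmem
    have heq : T = (S : Subgroup G) ⊓ centralizer ({n * x * n⁻¹} : Set G) := Subgroup.eq_of_le_of_card_ge hle h1
    rw [heq]
    refine ⟨hs, mem_centralizer_singleton_iff.2 ?_⟩
    calc s * (n * x * n⁻¹) = (s * (n * x * n⁻¹) * s⁻¹) * s := by group
      _ = _ := by rw [hfix]
  by_cases hJ : thompsonSubgroupAOf T₁ ≤ T
  · have hJeq := J_eq_of_le hTT₁ hJ
    have hbΓ : b ∈ normalizer (thompsonSubgroupAOf T₁ : Set G) := hJeq ▸ norm_le_normJ T hbN
    obtain ⟨R, hT₁R, hRΓ, hRp, hRmax⟩ := exists_max_p (normalizer (thompsonSubgroupAOf T₁ : Set G)) T₁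
      (le_normalizer.trans (norm_le_normJ T₁)) hT₁p
    have := hMC _ T₁ rfl hT₁p (hTT₁ hxT) (fun u hu => hC.hZ u hu.1) (hPmono _ _ hTT₁ hPy) htlt R hT₁R hRΓ hRp hRmax b hbΓ
      (hT₁R (hTT₁ (hconjT b hbN x hxT)))
    exact hbxne this
  · rw [thompsonAOf_eq, sSup_le_iff] at hJ
    push Not at hJ
    obtain ⟨A, hA, hAT⟩ := hJ
    obtain ⟨a₁, ha₁, ha₁T⟩ := SetLike.not_le_iff_exists.1 hAT
    have ha₁S : a₁ ∈ (S : Subgroup G) := (hA.1 ha₁).1
    by_cases hcase : p ≠ 2 ∨ ¬ Cfsg.Involves (Equiv.Perm (Fin 4)) G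
    · -- orbit product
      set W := orbCl (normalizer (T : Set G)) x with hW
      have hWT : W ≤ T := orbCl_le _ _ _ (fun n hn => hconjT n hn x hxT)
      have hWC : W ≤ centralizer (T : Set G) := orbCl_le _ _ _ (fun n hn => by
        rw [mem_centralizer_iff]
        intro u hu
        have := hptZ x hxcen n hn u hu
        calc u * (n * x * n⁻¹) = (u * (n * x * n⁻¹) * u⁻¹) * u := by group
          _ = _ := by rw [this])
      have hVab : ∀ v ∈ W, ∀ w ∈ W, v * w = w * v := fun v hv w hw =>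
        ((mem_centralizer_iff.1 (hWC hv)) w (hWT hw)).symm
      have hTC : T ≤ centralizer (W : Set G) := by
        intro u hu
        rw [mem_centralizer_iff]
        intro w hw
        exact ((mem_centralizer_iff.1 (hWC hw)) u hu).symm
      refine op_all (normalizer (T : Set G)) T₁ W x hT₁p inf_le_right (hWT.trans hTT₁) hVab (le_norm_orbCl _ _)
        (self_mem_orbCl _ _) rfl A hA ?_ ?_ (fun s hs => hC.hZ s hs.1) hcase
      · intro hAC
        apply ha₁T
        refine hptC b hbN hbxne a₁ ha₁S ?_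
        have h1 := (mem_centralizer_iff.1 (hAC ha₁)) _ (mem_orbCl (normalizer (T : Set G)) x hbN)
        rw [← h1]; group
      · intro A' hA' hA'C n hn hfix
        by_contra hne
        apply hA'C
        have hle : A' ≤ T := fun a ha => hptC n hn hne a (hA'.1 ha).1 (hfix a ha)
        exact hle.trans hTC
    · push Not at hcase
      obtain ⟨h2, hinv⟩ := hcase
      subst h2
      rcases hC.hC with h1 | ⟨z, hz, hzc, hzp⟩ | h1
      · exact h1 rfl
      · have hzcen : ∀ s ∈ (S : Subgroup G), s * z = z * s := hzc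
        have hzT : z ∈ T := ⟨hz, mem_centralizer_singleton_iff.2 (hzc y hyS).symm⟩
        set W := orbCl (normalizer (T : Set G)) z with hW
        have hWT : W ≤ T := orbCl_le _ _ _ (fun n hn => hconjT n hn z hzT)
        have hWC : W ≤ centralizer (T : Set G) := orbCl_le _ _ _ (fun n hn => by
          rw [mem_centralizer_iff]
          intro u hu
          have := hptZ z hzcen n hn u hu
          calc u * (n * z * n⁻¹) = (u * (n * z * n⁻¹) * u⁻¹) * u := by group
            _ = _ := by rw [this])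
        have hVab : ∀ v ∈ W, ∀ w ∈ W, v * w = w * v := fun v hv w hw =>
          ((mem_centralizer_iff.1 (hWC hv)) w (hWT hw)).symm
        have hTC : T ≤ centralizer (W : Set G) := by
          intro u hu
          rw [mem_centralizer_iff]
          intro w hw
          exact ((mem_centralizer_iff.1 (hWC hw)) u hu).symm
        have hsq : (b * z * b⁻¹) * (b * z * b⁻¹) = b * x * b⁻¹ := by
          rw [← hzp, sq]; group
        have hnot : ¬ A ≤ centralizer (W : Set G) := by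
          intro hAC
          apply ha₁T
          refine hptC b hbN hbxne a₁ ha₁S ?_
          have h1 := (mem_centralizer_iff.1 (hAC ha₁)) _ (mem_orbCl (normalizer (T : Set G)) z hbN)
          have h3 : a₁ * (b * z * b⁻¹) * a₁⁻¹ = b * z * b⁻¹ := by rw [← h1]; group
          rw [← hsq]
          calc a₁ * ((b * z * b⁻¹) * (b * z * b⁻¹)) * a₁⁻¹
              = (a₁ * (b * z * b⁻¹) * a₁⁻¹) * (a₁ * (b * z * b⁻¹) * a₁⁻¹) := by group
            _ = _ := by rw [h3]
        obtain ⟨a, haT₁, haT, hfix⟩ := z_trick T₁ W T hT₁p (hWT.trans hTT₁) (inf_le_right.trans (le_norm_orbCl _ _)) hVab hTC A hA hnot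
        have h5 := hfix (b * z * b⁻¹) (mem_orbCl _ z hbN)
        rw [hsq] at h5
        exact haT (hptC b hbN hbxne a haT₁.1 h5)
      · exact hinv.elim (fun _ => False.elim (h1 hinv)) 

end Cfsg.Agent.Lib.LWC
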