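import Mathlib
import Cfsg.Agent.Lib.LWC4
import Cfsg.Agent.Lib.FusLift

set_option autoImplicit false
set_option linter.unusedSectionVars false
set_option linter.unusedVariables false
set_option linter.style.haveILetI false
set_option maxHeartbeats 1000000

/-! Glauberman's weak closure theorem. -/

namespace Cfsg.Agent.Lib.LWC

open Subgroup Cfsg Cfsg.Agent.Lib.PZJ Cfsg.Agent.Lib.LNpcC Cfsg.Agent.Lib.H1Core

universe u

variable {G : Type u} [Group G] [Finite G] {p : ℕ} [Fact p.Prime]

theorem exists_factor (S : Sylow p G) (C : Subgroup G) [C.Normal] (g : G) :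
    ∃ n ∈ normalizer (((S : Subgroup G) ⊓ C : Subgroup G) : Set G), ∃ c ∈ C, n * c = g := by
  obtain ⟨P, hP⟩ := Cfsg.Agent.Lib.FusLift.sylow_inf_normal S C
  have h1 := Sylow.normalizer_sup_eq_top P
  have h2 : ((P : Subgroup ↥C).map C.subtype) = (S : Subgroup G) ⊓ C := by
    rw [hP, subgroupOf_map_subtype]
  have h3 : g ∈ normalizer (((P : Subgroup ↥C).map C.subtype : Subgroup G) : Set G) ⊔ C := by
    rw [h1]; exact mem_top g
  rw [h2] at h3
  obtain ⟨n, hn, c, hc, he⟩ := Subgroup.mem_sup_of_normal_right.1 h3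
  exact ⟨n, hn, c, hc, he⟩

theorem normal_level (S : Sylow p G) (x : G) (hC : Cond p (S : Subgroup G) x) (hIH : IH p G x)
    (hab : ∀ g g' : G, (g * x * g⁻¹) * (g' * x * g'⁻¹) = (g' * x * g'⁻¹) * (g * x * g⁻¹)) :
    ∀ g : G, g * x * g⁻¹ = x := by
  classical
  set V : Subgroup G := orbCl ⊤ x with hV
  have hVn : V.Normal := ⟨fun v hv g => conj_mem_orbCl ⊤ x (mem_top g) hv⟩
  have hgenC : V ≤ centralizer ({ω | ∃ n ∈ (⊤ : Subgroup G), n * x * n⁻¹ = ω} : Set G) := by
    refine orbCl_le _ _ _ (fun n _ => ?_)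
    rw [mem_centralizer_iff]
    rintro _ ⟨m, _, rfl⟩
    exact hab m n
  have hVC : V ≤ centralizer (V : Set G) := by
    refine orbCl_le _ _ _ (fun n hn => ?_)
    rw [mem_centralizer_iff]
    intro v hv
    exact ((mem_centralizer_iff.1 (hgenC hv)) _ ⟨n, hn, rfl⟩).symm
  have hVab : ∀ v ∈ V, ∀ w ∈ V, v * w = w * v := fun v hv w hw =>
    ((mem_centralizer_iff.1 (hVC hv)) w hw).symm
  have hxp : ∃ k : ℕ, x ^ (p ^ k) = 1 := by
    obtain ⟨k, hk⟩ := S.isPGroup' ⟨x, hC.hxS⟩
    exact ⟨k, congrArg Subtype.val hk⟩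
  have hVp : IsPGroup p V := by
    have h : ∀ v ∈ V, ∃ k : ℕ, v ^ (p ^ k) = 1 := by
      intro v hv
      induction hv using Subgroup.closure_induction with
      | mem v hv =>
        obtain ⟨n, _, rfl⟩ := hv
        obtain ⟨k, hk⟩ := hxp
        exact ⟨k, by rw [conj_pow, hk]; group⟩
      | one => exact ⟨0, by simp⟩
      | mul a b ha hb iha ihb =>
        obtain ⟨k, hk⟩ := iha
        obtain ⟨l, hl⟩ := ihb
        refine ⟨k + l, ?_⟩
        have hcomm : Commute a b := hVab a ha b hb
        rw [hcomm.mul_pow, pow_add p k l, pow_mul, hk, one_pow, one_mul, mul_comm, pow_mul, hl, one_pow]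
      | inv a _ iha =>
        obtain ⟨k, hk⟩ := iha
        exact ⟨k, by rw [inv_pow, hk, inv_one]⟩
    intro v
    obtain ⟨k, hk⟩ := h v v.2
    exact ⟨k, Subtype.ext hk⟩
  have hVS : V ≤ (S : Subgroup G) := hVp.le_sylow_of_normal S
  have hxV : x ∈ V := self_mem_orbCl _ _
  have hconjV : ∀ g : G, g * x * g⁻¹ ∈ V := fun g => mem_orbCl _ _ (mem_top g)
  set C : Subgroup G := centralizer (V : Set G) with hCdef
  haveI hCn : C.Normal := Subgroup.normal_centralizer
  have hcx : ∀ c ∈ C, c * x * c⁻¹ = x := by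
    intro c hc
    have := (mem_centralizer_iff.1 hc) x hxV
    rw [← this]; group
  by_cases hcase : p ≠ 2 ∨ ¬ Cfsg.Involves (Equiv.Perm (Fin 4)) G
  · by_cases hJ : ∀ A ∈ FamA (S : Subgroup G), A ≤ C
    · have hJle : thompsonSubgroupAOf (S : Subgroup G) ≤ (S : Subgroup G) ⊓ C := by
        refine le_inf (thompsonAOf_le _) ?_
        rw [thompsonAOf_eq, sSup_le_iff]
        exact hJ
      have hJeq := J_eq_of_le (inf_le_left : (S : Subgroup G) ⊓ C ≤ S) hJle
      intro g
      obtain ⟨n, hn, c, hc, rfl⟩ := exists_factor S C g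
      have hnJ : n ∈ normalizer (thompsonSubgroupAOf (S : Subgroup G) : Set G) := hJeq ▸ norm_le_normJ _ hn
      have e : (n * c) * x * (n * c)⁻¹ = n * x * n⁻¹ := by
        calc (n * c) * x * (n * c)⁻¹ = n * (c * x * c⁻¹) * n⁻¹ := by group
          _ = _ := by rw [hcx c hc]
      rw [e]
      exact hC.hW n hnJ (hVS (hconjV n))
    · exfalso
      push Not at hJ
      obtain ⟨A, hA, hAC⟩ := hJ
      let PrV : Subgroup G → Prop := fun U => ∃ B : Subgroup G, B ≤ U ∧ IsMulCommutative B ∧
        (∀ D : Subgroup G, D ≤ (S : Subgroup G) → IsMulCommutative D → Nat.card D ≤ Nat.card B) ∧ ¬ B ≤ C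
      refine op_all ⊤ (S : Subgroup G) V x S.isPGroup' le_top hVS hVab (by
        intro g _
        exact normalizer_eq_top_iff.2 hVn ▸ mem_top g) hxV rfl A hA hAC ?_ hC.hZ hcase
      intro A' hA' hA'C n _ hfix
      by_contra hne
      refine LL S x hC hIH PrV ?_ ?_ ?_ (n * x * n⁻¹) (hVS (hconjV n)) n rfl hne
        ⟨A', le_inf hA'.1 ?_, hA'.2.1, hA'.2.2, hA'C⟩
      · rintro U U' hle ⟨B, hB, hB2, hB3, hB4⟩
        exact ⟨B, hB.trans hle, hB2, hB3, hB4⟩
      · rintro g U ⟨B, hB, hB2, hB3, hB4⟩
        refine ⟨B.map (MulAut.conj g).toMonoidHom, Subgroup.map_mono hB, isMulComm_map hB2 _, ?_, ?_⟩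
        · intro D hD hDa
          rw [Subgroup.card_map_of_injective (MulAut.conj g).injective]
          exact hB3 D hD hDa
        · intro hle
          apply hB4
          intro b hb
          have h1 : g * b * g⁻¹ ∈ C := hle ⟨b, hb, rfl⟩
          have h2 := hCn.conj_mem _ h1 g⁻¹
          have e : g⁻¹ * (g * b * g⁻¹) * g⁻¹⁻¹ = b := by group
          rwa [e] at h2
      · rintro U hUp hxU hcU ⟨B, hB, hB2, hB3, hB4⟩ hn
        apply hB4
        obtain ⟨h, hh⟩ := exists_conj_into S U hUp
        have hBfam : B ∈ FamA U := by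
          refine ⟨hB, hB2, fun D hD hDa => ?_⟩
          have hle : D.map (MulAut.conj h⁻¹).toMonoidHom ≤ (S : Subgroup G) := by
            rintro _ ⟨d, hd, rfl⟩
            have := hh d (hD hd)
            show h⁻¹ * d * h⁻¹⁻¹ ∈ _
            rwa [inv_inv]
          have := hB3 _ hle (isMulComm_map hDa _)
          rwa [Subgroup.card_map_of_injective (MulAut.conj h⁻¹).injective] at this
        have hBJ := A_le_J hBfam
        have hxJ := mem_J_of_central hxU hcU
        have hVJ : V ≤ centralizer (thompsonSubgroupAOf U : Set G) := by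
          refine orbCl_le _ _ _ (fun m _ => ?_)
          rw [mem_centralizer_iff]
          intro j hj
          have h1 : m⁻¹ * j * m ∈ thompsonSubgroupAOf U := by
            have := hn.conj_mem j hj m⁻¹
            rwa [inv_inv] at this
          have h2 := hcU _ (thompsonAOf_le U h1)
          have h3 : (m⁻¹ * j * m) * x = x * (m⁻¹ * j * m) := by
            calc (m⁻¹ * j * m) * x = ((m⁻¹ * j * m) * x * (m⁻¹ * j * m)⁻¹) * (m⁻¹ * j * m) := by group
              _ = _ := by rw [h2]
          calc j * (m * x * m⁻¹) = m * ((m⁻¹ * j * m) * x) * m⁻¹ := by group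
            _ = m * (x * (m⁻¹ * j * m)) * m⁻¹ := by rw [h3]
            _ = _ := by group
        intro b hb
        rw [hCdef, mem_centralizer_iff]
        intro v hv
        exact ((mem_centralizer_iff.1 (hVJ hv)) b (hBJ (hb))).symm
      · intro a ha
        have := hfix a ha
        rw [mem_centralizer_singleton_iff]
        calc a * (n * x * n⁻¹) = (a * (n * x * n⁻¹) * a⁻¹) * a := by group
          _ = _ := by rw [this]
  · push Not at hcase
    obtain ⟨h2, hinv⟩ := hcase
    subst h2
    rcases hC.hC with h1 | ⟨z, hz, hzc, hzp⟩ | h1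
    · exact absurd rfl h1
    · set Q : Subgroup G := (S : Subgroup G) ⊓ C with hQ
      by_cases hN₀ : normalizer (Q : Set G) = ⊤
      · haveI hQn : Q.Normal := normalizer_eq_top_iff.1 hN₀
        have hzQ : z ∈ Q := by
          have h3 : z ∈ C := by
            rw [hCdef, mem_centralizer_iff]
            intro v hv
            exact hzc v (hVS hv)
          exact mem_inf.2 ⟨hz, h3⟩
        set W : Subgroup G := orbCl ⊤ z with hW
        have hWQ : W ≤ Q := orbCl_le _ _ _ (fun n _ => hQn.conj_mem z hzQ n)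
        have hWC : W ≤ centralizer (Q : Set G) := by
          refine orbCl_le _ _ _ (fun n _ => ?_)
          rw [mem_centralizer_iff]
          intro u hu
          have h1 : n⁻¹ * u * n ∈ Q := by
            have := hQn.conj_mem u hu n⁻¹
            rwa [inv_inv] at this
          have h3 := hzc _ h1.1
          calc u * (n * z * n⁻¹) = n * ((n⁻¹ * u * n) * z) * n⁻¹ := by group
            _ = n * (z * (n⁻¹ * u * n)) * n⁻¹ := by rw [h3]
            _ = _ := by group
        have hWab : ∀ v ∈ W, ∀ w ∈ W, v * w = w * v := fun v hv w hw =>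
          ((mem_centralizer_iff.1 (hWC hv)) w (hWQ hw)).symm
        have hQC : Q ≤ centralizer (W : Set G) := by
          intro u hu
          rw [mem_centralizer_iff]
          intro w hw
          exact ((mem_centralizer_iff.1 (hWC hw)) u hu).symm
        have hsq : ∀ n : G, n * x * n⁻¹ = (n * z * n⁻¹) * (n * z * n⁻¹) := by
          intro n
          rw [← hzp, sq]; group
        have hVW : V ≤ W := orbCl_le _ _ _ (fun n hn => by
          rw [hsq]
          exact mul_mem (mem_orbCl _ _ hn) (mem_orbCl _ _ hn))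
        by_cases hJ : ∀ A ∈ FamA (S : Subgroup G), A ≤ centralizer (W : Set G)
        · have hJle : thompsonSubgroupAOf (S : Subgroup G) ≤ Q := by
            refine le_inf (thompsonAOf_le _) ?_
            rw [thompsonAOf_eq, sSup_le_iff]
            intro A hA a ha
            have := hJ A hA ha
            rw [hCdef, mem_centralizer_iff]
            intro v hv
            exact (mem_centralizer_iff.1 this) v (hVW hv)
          have hJeq := J_eq_of_le (inf_le_left : Q ≤ S) hJle
          intro g
          have hgN : g ∈ normalizer (thompsonSubgroupAOf (S : Subgroup G) : Set G) :=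
            hJeq ▸ norm_le_normJ Q (by rw [hN₀]; exact mem_top g)
          exact hC.hW g hgN (hVS (hconjV g))
        · exfalso
          push Not at hJ
          obtain ⟨A, hA, hAC⟩ := hJ
          obtain ⟨a, haS, haQ, hfix⟩ := z_trick (S : Subgroup G) W Q S.isPGroup' (hWQ.trans inf_le_left)
            (by
              intro s _
              exact (le_norm_orbCl ⊤ z) (mem_top s))
            hWab hQC A hA hAC
          apply haQ
          refine mem_inf.2 ⟨haS, ?_⟩
          have hVa : V ≤ centralizer ({a} : Set G) := orbCl_le _ _ _ (fun n hn => by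
            rw [mem_centralizer_singleton_iff]
            have h5 := hfix _ (mem_orbCl ⊤ z hn)
            rw [← hsq] at h5
            calc n * x * n⁻¹ * a = a * (a⁻¹ * (n * x * n⁻¹) * a) := by group
              _ = a * (n * x * n⁻¹) := by
                congr 1
                calc a⁻¹ * (n * x * n⁻¹) * a = a⁻¹ * (a * (n * x * n⁻¹) * a⁻¹) * a := by rw [h5]
                  _ = _ := by group)
          rw [hCdef, mem_centralizer_iff]
          intro v hv
          exact mem_centralizer_singleton_iff.1 (hVa hv)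
      · have hSN : (S : Subgroup G) ≤ normalizer (Q : Set G) := by
          intro s hs
          refine Cfsg.Agent.Lib.PGlaub.mem_normalizer_of_conj_mem ?_
          intro k hk
          obtain ⟨hk1, hk2⟩ := mem_inf.1 hk
          exact mem_inf.2 ⟨mul_mem (mul_mem hs hk1) (inv_mem hs), hCn.conj_mem k hk2 s⟩
        have hfixN := hIH _ hN₀ (S : Subgroup G) hSN S.isPGroup'
          (fun R₂ h1 _ h3 => S.is_maximal' h3 h1) hC.hxS hC.hZ (fun n _ hn2 hn3 => hC.hW n hn2 hn3)
          (Or.inr (Or.inl ⟨z, hz, hzc, hzp⟩))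
        intro g
        obtain ⟨n, hn, c, hc, rfl⟩ := exists_factor S C g
        have e : (n * c) * x * (n * c)⁻¹ = n * x * n⁻¹ := by
          calc (n * c) * x * (n * c)⁻¹ = n * (c * x * c⁻¹) * n⁻¹ := by group
            _ = _ := by rw [hcx c hc]
        rw [e]
        exact hfixN n hn (hVS (hconjV n))
    · exact absurd hinv h1

theorem wc_core (p : ℕ) [Fact p.Prime] : ∀ (n : ℕ) (G : Type u) [Group G] [Finite G], Nat.card G = n →
    ∀ (S : Sylow p G) (x : G), Cond p (S : Subgroup G) x → ∀ g : G, g * x * g⁻¹ ∈ (S : Subgroup G) → g * x * g⁻¹ = x := by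
  intro n
  induction n using Nat.strong_induction_on with
  | _ n ih =>
    intro G _ _ hn S x hC
    have hIH : IH p G x := by
      intro Γ hΓ R hRΓ hRp hRmax hxR hRc hRW hRC γ hγ hγR
      have hlt : Nat.card Γ < n := by
        have := Cfsg.Agent.Lib.PNilp.card_lt_of_lt' (lt_top_iff_ne_top.2 hΓ)
        rw [Subgroup.card_top, hn] at this
        exact this
      have hRp' : IsPGroup p (R.subgroupOf Γ) := hRp.comap_subtype
      let R' : Sylow p ↥Γ :=
        { toSubgroup := R.subgroupOf Γ
          isPGroup' := hRp'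
          is_maximal' := by
            intro Q hQ hle
            have h1 : R ≤ Q.map Γ.subtype := by
              intro r hr
              exact ⟨⟨r, hRΓ hr⟩, hle (mem_subgroupOf.2 hr), rfl⟩
            have h2 := hRmax _ h1 (map_subtype_le Q) (hQ.map _)
            rw [← h2, subgroupOf, Subgroup.comap_map_eq_self_of_injective Γ.subtype_injective] }
      let x' : ↥Γ := ⟨x, hRΓ hxR⟩
      have hmapR : (R.subgroupOf Γ).map Γ.subtype = R := by
        rw [subgroupOf_map_subtype]
        exact inf_eq_left.2 hRΓ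
      have hJmap := thompsonAOf_map Γ.subtype (R.subgroupOf Γ) (fun y _ hy => Subtype.ext hy)
      rw [hmapR] at hJmap
      have hC' : Cond p ((R' : Sylow p ↥Γ) : Subgroup ↥Γ) x' := by
        refine ⟨mem_subgroupOf.2 hxR, ?_, ?_, ?_⟩
        · intro s hs
          exact Subtype.ext (hRc s (mem_subgroupOf.1 hs))
        · intro m hm hmx
          apply Subtype.ext
          refine hRW m m.2 ?_ (mem_subgroupOf.1 hmx)
          refine Cfsg.Agent.Lib.PGlaub.mem_normalizer_of_conj_mem ?_
          intro k hk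
          rw [hJmap] at hk ⊢
          obtain ⟨k', hk', rfl⟩ := hk
          exact ⟨m * k' * m⁻¹, (mem_normalizer_iff.1 hm k').1 hk', rfl⟩
        · rcases hRC with h1 | ⟨z, hz, hzc, hzp⟩ | h1
          · exact Or.inl h1
          · refine Or.inr (Or.inl ⟨⟨z, hRΓ hz⟩, mem_subgroupOf.2 hz, ?_, Subtype.ext hzp⟩)
            intro s hs
            exact Subtype.ext (hzc s (mem_subgroupOf.1 hs))
          · exact Or.inr (Or.inr (fun h' => h1 (Cfsg.Agent.Lib.LQd.involves_of_surj Γ (MonoidHom.id Γ) Function.surjective_id h')))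
      have := ih _ hlt ↥Γ rfl R' x' hC' ⟨γ, hγ⟩ (mem_subgroupOf.2 hγR)
      exact congrArg Subtype.val this
    intro g hg
    by_contra hne
    by_cases hN : ∃ U : Subgroup G, IsPGroup p U ∧ x ∈ U ∧ (∀ u ∈ U, u * x * u⁻¹ = x) ∧ (thompsonSubgroupAOf U).Normal
    · obtain ⟨U, hUp, hxU, hcU, hJn⟩ := hN
      have hxJ := mem_J_of_central hxU hcU
      have hab : ∀ g g' : G, (g * x * g⁻¹) * (g' * x * g'⁻¹) = (g' * x * g'⁻¹) * (g * x * g⁻¹) := by
        intro a b
        have h1 : b⁻¹ * (a * x * a⁻¹) * b ∈ thompsonSubgroupAOf U := by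
          have := hJn.conj_mem (a * x * a⁻¹) (hJn.conj_mem x hxJ a) b⁻¹
          rwa [inv_inv] at this
        have h2 := hcU _ (thompsonAOf_le U h1)
        set w := b⁻¹ * (a * x * a⁻¹) * b with hw
        have h3 : w * x = x * w := by
          calc w * x = (w * x * w⁻¹) * w := by group
            _ = x * w := by rw [h2]
        have h4 : a * x * a⁻¹ = b * w * b⁻¹ := by rw [hw]; group
        rw [h4]
        calc b * w * b⁻¹ * (b * x * b⁻¹) = b * (w * x) * b⁻¹ := by group
          _ = b * (x * w) * b⁻¹ := by rw [h3]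
          _ = _ := by group
      exact hne (normal_level S x hC hIH hab g)
    · exact LL S x hC hIH (fun _ => True) (fun _ _ _ _ => trivial) (fun _ _ _ => trivial)
        (fun U a b c _ hn => hN ⟨U, a, b, c, hn⟩) _ hg g rfl hne trivial

end Cfsg.Agent.Lib.LWC
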