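import Mathlib

set_option autoImplicit false

namespace Cfsg.Agent.Lib.LangGL

open Polynomial Finset

universe u v

variable {K : Type u} [Field K] [IsAlgClosed K] {q : ℕ}

/-- The auxiliary polynomials. -/
noncomputable def PP (c : ℕ → K) (q : ℕ) : ℕ → K[X]
  | 0 => C (c 0) * X ^ q
  | (i + 1) => (PP c q i) ^ q + C (c (i + 1)) * X ^ q

theorem PP_deriv (c : ℕ → K) (hq0 : (q : K) = 0) (i : ℕ) : derivative (PP c q i) = 0 := by
  have h1 : ∀ e : K, derivative (C e * X ^ q : K[X]) = 0 := by
    intro e
    rw [derivative_C_mul, derivative_X_pow]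
    have : (C (q : K) : K[X]) = 0 := by rw [hq0, C_0]
    rw [this]
    simp
  induction i with
  | zero => exact h1 _
  | succ i ih =>
    show derivative ((PP c q i) ^ q + C (c (i + 1)) * X ^ q) = 0
    rw [derivative_add, h1, derivative_pow, ih]
    simp

theorem PP_eval_zero (c : ℕ → K) (hq : 0 < q) (i : ℕ) : (PP c q i).eval 0 = 0 := by
  induction i with
  | zero =>
    show (C (c 0) * X ^ q : K[X]).eval 0 = 0
    simp [hq.ne']
  | succ i ih =>
    show ((PP c q i) ^ q + C (c (i + 1)) * X ^ q).eval 0 = 0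
    simp [ih, hq.ne']

theorem PP_deg (c : ℕ → K) (hq : 2 ≤ q) (h0 : c 0 ≠ 0) (i : ℕ) : (PP c q i).natDegree = q ^ (i + 1) := by
  induction i with
  | zero =>
    show (C (c 0) * X ^ q : K[X]).natDegree = _
    rw [natDegree_C_mul_X_pow _ _ h0, pow_one]
  | succ i ih =>
    show ((PP c q i) ^ q + C (c (i + 1)) * X ^ q).natDegree = _
    have h1 : ((PP c q i) ^ q).natDegree = q ^ (i + 1 + 1) := by
      rw [natDegree_pow, ih, pow_succ (q) (i + 1)]
      ring
    have h2 : (C (c (i + 1)) * X ^ q : K[X]).natDegree ≤ q := natDegree_C_mul_X_pow_le _ _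
    have h3 : q < q ^ (i + 1 + 1) := by
      calc q = q ^ 1 := (pow_one q).symm
        _ < q ^ (i + 1 + 1) := Nat.pow_lt_pow_right (by omega) (by omega)
    rw [natDegree_add_eq_left_of_natDegree_lt (by omega), h1]

/-- A nonzero solution of the polynomial equation. -/
theorem exists_root_PP (c : ℕ → K) (hq : 2 ≤ q) (hq0 : (q : K) = 0) (h0 : c 0 ≠ 0) (k : ℕ) :
    ∃ a : K, a ≠ 0 ∧ (PP c q k).eval a = a := by
  have hR0 : (PP c q k - X).coeff 0 = 0 := by
    rw [coeff_zero_eq_eval_zero]
    simp [PP_eval_zero c (by omega : 0 < q) k]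
  obtain ⟨S, hS⟩ := X_dvd_iff.2 hR0
  have hderiv : derivative (PP c q k - X) = -1 := by
    rw [derivative_sub, PP_deriv c hq0, derivative_X]
    simp
  have hS0 : S.eval 0 = -1 := by
    have := congrArg (fun f => f.eval 0) hderiv
    simp only [hS, derivative_mul, derivative_X] at this
    simpa using this
  have hdeg : (PP c q k - X).natDegree = q ^ (k + 1) := by
    have h1 := PP_deg c hq h0 k
    have h2 : (X : K[X]).natDegree = 1 := natDegree_X
    have h3 : 1 < q ^ (k + 1) := by
      calc 1 < q := by omega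
        _ = q ^ 1 := (pow_one q).symm
        _ ≤ q ^ (k + 1) := Nat.pow_le_pow_right (by omega) (by omega)
    rw [natDegree_sub_eq_left_of_natDegree_lt (by omega), h1]
  have hS1 : S.degree ≠ 0 := by
    intro h
    have hnd : S.natDegree = 0 := natDegree_eq_of_degree_eq_some h
    have hSne : S ≠ 0 := by
      rintro rfl
      simp at hS0
    have : (X * S).natDegree = S.natDegree + 1 := by
      rw [natDegree_mul X_ne_zero hSne, natDegree_X]
      ring
    rw [← hS, hdeg, hnd] at this
    have h3 : 1 < q ^ (k + 1) := by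
      calc 1 < q := by omega
        _ = q ^ 1 := (pow_one q).symm
        _ ≤ q ^ (k + 1) := Nat.pow_le_pow_right (by omega) (by omega)
    omega
  obtain ⟨a, ha⟩ := IsAlgClosed.exists_root S hS1
  refine ⟨a, ?_, ?_⟩
  · rintro rfl
    rw [IsRoot, hS0] at ha
    simp at ha
  · have := congrArg (fun f => f.eval a) hS
    have ha' : S.eval a = 0 := ha
    simp only [eval_sub, eval_X, eval_mul, ha', mul_zero] at this
    exact sub_eq_zero.1 this

variable {V : Type v} [AddCommGroup V] [Module K V] [FiniteDimensional K V] {σ : K →+* K}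

/-- Some relation occurs among the iterates. -/
theorem exists_rel (u : ℕ → V) : ∃ k, ∃ c : ℕ → K, u k = ∑ i ∈ range k, c i • u i := by
  by_contra hcon
  push Not at hcon
  have hLI : ∀ n, LinearIndependent K (fun i : Fin n => u i) := by
    intro n
    induction n with
    | zero => exact linearIndependent_empty_type
    | succ n ih =>
      have e : (fun i : Fin (n + 1) => u i) = Fin.snoc (α := fun _ => V) (fun i : Fin n => u i) (u n) := by
        funext i
        refine Fin.lastCases ?_ (fun j => ?_) i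
        · simp
        · simp
      rw [e, linearIndependent_fin_snoc]
      refine ⟨ih, fun hmem => ?_⟩
      obtain ⟨c, hc⟩ := (Submodule.mem_span_range_iff_exists_fun K).1 hmem
      apply hcon n (fun i => if h : i < n then c ⟨i, h⟩ else 0)
      rw [← hc, ← Fin.sum_univ_eq_sum_range (fun i => (if h : i < n then c ⟨i, h⟩ else 0) • u i) n]
      refine Finset.sum_congr rfl fun i _ => ?_
      simp
  have := (hLI (Module.finrank K V + 1)).fintype_card_le_finrank
  simp at this

/-- A nonzero fixed vector. -/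
theorem exists_fixed (hq : 2 ≤ q) (hq0 : (q : K) = 0) (hσ : ∀ c, σ c = c ^ q) (Φ : V →ₛₗ[σ] V) (hinj : Function.Injective Φ)
    (v : V) (hv : v ≠ 0) : ∃ x : V, x ≠ 0 ∧ Φ x = x := by
  classical
  let u : ℕ → V := fun i => Φ^[i] v
  have hu : ∀ i, u (i + 1) = Φ (u i) := fun i => Function.iterate_succ_apply' _ _ _
  have hex := exists_rel (K := K) u
  have hmin : ∀ m, m < Nat.find hex → ¬ ∃ c : ℕ → K, u m = ∑ i ∈ range m, c i • u i := fun m hm => Nat.find_min hex hm
  obtain ⟨c, hc⟩ := Nat.find_spec hex
  have hne : Nat.find hex ≠ 0 := by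
    intro h
    rw [h] at hc
    simp [u] at hc
    exact hv hc
  obtain ⟨k, hk⟩ : ∃ k, Nat.find hex = k + 1 := Nat.exists_eq_succ_of_ne_zero hne
  rw [hk] at hc hmin
  have hnot := hmin k (by omega)
  have hsurj : ∀ y : K, ∃ e : K, e ^ q = y := fun y => IsAlgClosed.exists_pow_nat_eq y (by omega)
  have hc0 : c 0 ≠ 0 := by
    intro h0
    choose e he using hsurj
    apply hnot
    refine ⟨fun i => e (c (i + 1)), ?_⟩
    apply hinj
    rw [← hu, hc, sum_range_succ', h0, zero_smul, add_zero, map_sum]
    refine Finset.sum_congr rfl fun i _ => ?_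
    rw [map_smulₛₗ, ← hu, hσ, he]
  obtain ⟨a, ha0, ha⟩ := exists_root_PP c hq hq0 hc0 k
  let A : ℕ → K := fun i => (PP c q i).eval a
  have hA0 : A 0 = c 0 * a ^ q := by
    show (C (c 0) * X ^ q : K[X]).eval a = _
    simp
  have hAs : ∀ i, A (i + 1) = (A i) ^ q + c (i + 1) * a ^ q := by
    intro i
    show ((PP c q i) ^ q + C (c (i + 1)) * X ^ q).eval a = _
    simp [A]
  have hAk : A k = a := ha
  refine ⟨∑ i ∈ range (k + 1), A i • u i, ?_, ?_⟩
  · intro h0
    apply hnot
    refine ⟨fun i => - (a⁻¹ * A i), ?_⟩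
    rw [sum_range_succ, hAk] at h0
    have h1 : u k = a⁻¹ • (a • u k) := by
      rw [smul_smul, inv_mul_cancel₀ ha0, one_smul]
    have h2 : a • u k = - ∑ i ∈ range k, A i • u i := by
      rw [eq_neg_iff_add_eq_zero, add_comm]
      exact h0
    rw [h1, h2, smul_neg, Finset.smul_sum, ← Finset.sum_neg_distrib]
    refine Finset.sum_congr rfl fun i _ => ?_
    rw [smul_smul, neg_smul]
  · rw [map_sum]
    have e1 : ∀ i, Φ (A i • u i) = (A i) ^ q • u (i + 1) := by
      intro i
      rw [map_smulₛₗ, hσ, hu]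
    simp only [e1]
    rw [sum_range_succ, hAk, hc, sum_range_succ', sum_range_succ' (fun i => A i • u i), hA0]
    rw [smul_add, Finset.smul_sum, smul_smul (a ^ q) (c 0), mul_comm (a ^ q) (c 0), ← add_assoc, ← Finset.sum_add_distrib]
    congr 1
    refine Finset.sum_congr rfl fun i _ => ?_
    rw [smul_smul, ← add_smul, hAs, mul_comm (a ^ q)]

/-- The fixed vectors of a bijective semilinear map span. -/
theorem span_fixed (hq : 2 ≤ q) (hq0 : (q : K) = 0) (hσ : ∀ c, σ c = c ^ q) (d : ℕ) :
    ∀ (V : Type v) [AddCommGroup V] [Module K V] [FiniteDimensional K V], Module.finrank K V = d →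
      ∀ Φ : V →ₛₗ[σ] V, Function.Injective Φ → Submodule.span K {v | Φ v = v} = ⊤ := by
  classical
  induction d with
  | zero =>
    intro V _ _ _ hd Φ _
    have : Subsingleton V := Module.finrank_zero_iff.1 hd
    exact Subsingleton.elim _ _
  | succ d ih =>
    intro V _ _ _ hd Φ hinj
    have hnt : Nontrivial V := Module.nontrivial_of_finrank_pos (by omega : 0 < Module.finrank K V)
    obtain ⟨v, hv⟩ := exists_ne (0 : V)
    obtain ⟨x₀, hx₀, hfix⟩ := exists_fixed hq hq0 hσ Φ hinj v hv
    let W : Submodule K V := K ∙ x₀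
    have hW : ∀ y, y ∈ W ↔ ∃ c : K, c • x₀ = y := fun y => Submodule.mem_span_singleton
    have hle : W ≤ W.comap Φ := by
      intro y hy
      obtain ⟨c, rfl⟩ := (hW y).1 hy
      rw [Submodule.mem_comap, map_smulₛₗ, hfix]
      exact (hW _).2 ⟨_, rfl⟩
    let Ψ : (V ⧸ W) →ₛₗ[σ] (V ⧸ W) := W.mapQ W Φ hle
    have hΨ : ∀ y, Ψ (W.mkQ y) = W.mkQ (Φ y) := fun y => rfl
    have hΨinj : Function.Injective Ψ := by
      rw [injective_iff_map_eq_zero]
      intro z hz
      obtain ⟨y, rfl⟩ := W.mkQ_surjective z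
      rw [hΨ, Submodule.mkQ_apply, Submodule.Quotient.mk_eq_zero] at hz
      obtain ⟨c, hc⟩ := (hW _).1 hz
      obtain ⟨e, he⟩ := IsAlgClosed.exists_pow_nat_eq c (by omega : 0 < q)
      have : y = e • x₀ := by
        apply hinj
        rw [← hc, map_smulₛₗ, hfix, hσ, he]
      rw [this, Submodule.mkQ_apply, Submodule.Quotient.mk_eq_zero]
      exact (hW _).2 ⟨_, rfl⟩
    have hdq : Module.finrank K (V ⧸ W) = d := by
      have h1 := Submodule.finrank_quotient_add_finrank W
      have h2 : Module.finrank K W = 1 := finrank_span_singleton hx₀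
      omega
    have hspan := ih (V ⧸ W) hdq Ψ hΨinj
    -- lifting
    let U : Submodule K V := Submodule.span K {v | Φ v = v}
    have hx₀U : x₀ ∈ U := Submodule.subset_span hfix
    have hWU : W ≤ U := by
      rw [Submodule.span_singleton_le_iff_mem]
      exact hx₀U
    have hmap : U.map W.mkQ = ⊤ := by
      rw [eq_top_iff, ← hspan, Submodule.span_le]
      intro z hz
      obtain ⟨y, rfl⟩ := W.mkQ_surjective z
      have h1 : W.mkQ (Φ y - y) = 0 := by
        rw [map_sub, ← hΨ]
        exact sub_eq_zero.2 hz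
      rw [Submodule.mkQ_apply, Submodule.Quotient.mk_eq_zero] at h1
      obtain ⟨c, hc⟩ := (hW _).1 h1
      obtain ⟨e, he⟩ : ∃ e : K, e ^ q - e + c = 0 := by
        let P : K[X] := X ^ q - X + C c
        have hdeg : P.degree ≠ 0 := by
          have h3 : P.natDegree = q := by
            simp only [P]
            rw [natDegree_add_C, natDegree_sub_eq_left_of_natDegree_lt (by rw [natDegree_X, natDegree_X_pow]; omega), natDegree_X_pow]
          intro h
          have h4 : P.natDegree = 0 := natDegree_eq_of_degree_eq_some h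
          omega
        obtain ⟨e, he⟩ := IsAlgClosed.exists_root P hdeg
        refine ⟨e, ?_⟩
        simpa [P, IsRoot] using he
      have hfx : Φ (y + e • x₀) = y + e • x₀ := by
        have h2 : Φ y = y + c • x₀ := by rw [hc]; abel
        rw [map_add, map_smulₛₗ, hfix, hσ, h2]
        have h3 : c = e - e ^ q := by linear_combination he
        rw [h3, sub_smul]
        abel
      refine ⟨y + e • x₀, Submodule.subset_span hfx, ?_⟩
      rw [map_add, map_smul]
      have h5 : W.mkQ x₀ = 0 := by
        rw [Submodule.mkQ_apply, Submodule.Quotient.mk_eq_zero]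
        exact (hW _).2 ⟨1, one_smul _ _⟩
      rw [h5, smul_zero, add_zero]
    rw [Submodule.map_mkQ_eq_top] at hmap
    rw [sup_eq_right.2 hWU] at hmap
    exact hmap

/-- The Lang-Steinberg theorem for the general linear group. -/
theorem lang_gl {n : ℕ} (hq : 2 ≤ q) (hq0 : (q : K) = 0) (hσ : ∀ c, σ c = c ^ q) (g : Matrix.GeneralLinearGroup (Fin n) K) :
    ∃ x : Matrix.GeneralLinearGroup (Fin n) K, g = x * (Matrix.GeneralLinearGroup.map σ x)⁻¹ := by
  classical
  have hσinj : Function.Injective σ := σ.injective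
  let gM : Matrix (Fin n) (Fin n) K := g
  let Φ : (Fin n → K) →ₛₗ[σ] (Fin n → K) :=
    { toFun := fun v => gM.mulVec (fun i => σ (v i))
      map_add' := fun x y => by
        rw [← Matrix.mulVec_add]
        congr 1
        funext i
        simp
      map_smul' := fun c x => by
        rw [← Matrix.mulVec_smul]
        congr 1
        funext i
        simp }
  have hΦ : ∀ v, Φ v = gM.mulVec (fun i => σ (v i)) := fun _ => rfl
  have hinj : Function.Injective Φ := by
    intro x y hxy
    rw [hΦ, hΦ] at hxy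
    have h1 : (fun i => σ (x i)) = (fun i => σ (y i)) := by
      have hg : IsUnit gM.det := (Matrix.isUnit_iff_isUnit_det _).1 g.isUnit
      exact Matrix.mulVec_injective_of_isUnit ((Matrix.isUnit_iff_isUnit_det _).2 hg) hxy
    funext i
    exact hσinj (congrFun h1 i)
  have hspan := span_fixed hq hq0 hσ n (Fin n → K) (by simp) Φ hinj
  obtain ⟨b, hb, hbspan, hbli⟩ := exists_linearIndependent K {v : Fin n → K | Φ v = v}
  rw [hspan] at hbspan
  let B := Module.Basis.mk hbli (by rw [Subtype.range_coe]; exact hbspan.ge)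
  let B' : Module.Basis (Fin n) K (Fin n → K) := B.reindex (B.indexEquiv (Pi.basisFun K (Fin n)))
  have hB' : ∀ j, Φ (B' j) = B' j := by
    intro j
    have hm : B' j ∈ b := by
      simp only [B', Module.Basis.reindex_apply, B, Module.Basis.mk_apply]
      exact Subtype.coe_prop _
    exact hb hm
  let E := Pi.basisFun K (Fin n)
  let P : Matrix (Fin n) (Fin n) K := E.toMatrix B'
  have hPapp : ∀ i j, P i j = B' j i := fun i j => by
    simp [P, Module.Basis.toMatrix_apply, E]
  let x : Matrix.GeneralLinearGroup (Fin n) K :=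
    ⟨P, B'.toMatrix E, Module.Basis.toMatrix_mul_toMatrix_flip E B', Module.Basis.toMatrix_mul_toMatrix_flip B' E⟩
  refine ⟨x, ?_⟩
  rw [eq_mul_inv_iff_mul_eq]
  apply Units.ext
  show gM * P.map σ = P
  ext i j
  have h1 := congrFun (hB' j) i
  rw [hΦ] at h1
  rw [hPapp, ← h1, Matrix.mul_apply]
  simp only [Matrix.mulVec, dotProduct, Matrix.map_apply, hPapp]

end Cfsg.Agent.Lib.LangGL
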