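import Mathlib
import Cfsg.Prelude.Def_PLocal

/-! Regular `p`-groups: `(uv)^q = 1 ↔ u^q v^q = 1` (P. Hall). -/

namespace Cfsg.Agent.Lib.RegP

open Cfsg Subgroup
open scoped commutatorElement

universe u

/-- Subgroups of regular `p`-groups are regular. -/
theorem reg_sub {p : ℕ} {G : Type u} [Group G] (hG : IsRegularPGroup p G) (H : Subgroup G) :
    IsRegularPGroup p H := by
  refine ⟨hG.1.to_subgroup H, ?_⟩
  intro a b n
  obtain ⟨c, hc, he⟩ := hG.2 a b n
  let C : Subgroup H := Subgroup.closure ({a, b} : Set H)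
  have hC : Subgroup.closure ({(a : G), (b : G)} : Set G) = C.map H.subtype := by
    rw [MonoidHom.map_closure, Set.image_pair]
    rfl
  rw [hC, ← Subgroup.map_commutator] at hc
  have hP : powerClosure p n (⁅C, C⁆.map H.subtype) = (powerClosure p n ⁅C, C⁆).map H.subtype := by
    unfold powerClosure
    rw [MonoidHom.map_closure]
    congr 1
    ext y
    constructor
    · rintro ⟨x, ⟨x', hx', rfl⟩, rfl⟩
      exact ⟨x' ^ p ^ n, ⟨x', hx', rfl⟩, by simp⟩
    · rintro ⟨y', ⟨x', hx', rfl⟩, rfl⟩
      exact ⟨x', ⟨x', hx', rfl⟩, by simp⟩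
  rw [hP] at hc
  obtain ⟨c', hc', rfl⟩ := hc
  refine ⟨c', hc', ?_⟩
  apply Subtype.ext
  simpa using he

/-- commuting generators: the image is commutative. -/
theorem comm_of_gen {G Q : Type*} [Group G] [Group Q] (f : G →* Q) (a b : G)
    (hT : Subgroup.closure ({a, b} : Set G) = ⊤) (hab : Commute (f a) (f b)) (x y : G) :
    Commute (f x) (f y) := by
  have hmem : ∀ z : G, z ∈ Subgroup.closure ({a, b} : Set G) := fun z => by rw [hT]; trivial
  have h1 : ∀ z, Commute (f z) (f a) := by
    intro z
    induction hmem z using Subgroup.closure_induction with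
    | mem t ht =>
      rcases ht with rfl | rfl
      · exact Commute.refl _
      · exact hab.symm
    | one => simp
    | mul s t _ _ hs ht => rw [map_mul]; exact hs.mul_left ht
    | inv s _ hs => rw [map_inv]; exact hs.inv_left
  have h2 : ∀ z, Commute (f z) (f b) := by
    intro z
    induction hmem z using Subgroup.closure_induction with
    | mem t ht =>
      rcases ht with rfl | rfl
      · exact hab
      · exact Commute.refl _
    | one => simp
    | mul s t _ _ hs ht => rw [map_mul]; exact hs.mul_left ht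
    | inv s _ hs => rw [map_inv]; exact hs.inv_left
  induction hmem y using Subgroup.closure_induction with
  | mem t ht =>
    rcases ht with rfl | rfl
    · exact h1 x
    · exact h2 x
  | one => simp
  | mul s t _ _ hs ht => rw [map_mul]; exact hs.mul_right ht
  | inv s _ hs => rw [map_inv]; exact hs.inv_right

/-- The key step: a normal subgroup of exponent dividing `q` containing the commutators. -/
theorem pow_of_comm {p : ℕ} {G : Type*} [Group G] (hG : IsRegularPGroup p G) (k : ℕ) (a b : G)
    (hT : Subgroup.closure ({a, b} : Set G) = ⊤) (Ω : Subgroup G) [Ω.Normal]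
    (hΩ : ∀ x ∈ Ω, x ^ p ^ k = 1)
    (hab : Commute (QuotientGroup.mk' Ω a) (QuotientGroup.mk' Ω b)) :
    (a * b) ^ p ^ k = a ^ p ^ k * b ^ p ^ k := by
  obtain ⟨c, hc, he⟩ := hG.2 a b k
  rw [hT] at hc
  have hcomm : ⁅(⊤ : Subgroup G), (⊤ : Subgroup G)⁆ ≤ Ω := by
    rw [Subgroup.commutator_le]
    intro g₁ _ g₂ _
    have h1 := comm_of_gen (QuotientGroup.mk' Ω) a b hT hab g₁ g₂
    have h2 : QuotientGroup.mk' Ω ⁅g₁, g₂⁆ = 1 := by
      rw [map_commutatorElement]
      exact commutatorElement_eq_one_iff_commute.mpr h1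
    exact (QuotientGroup.eq_one_iff _).mp h2
  have hle : powerClosure p k ⁅(⊤ : Subgroup G), (⊤ : Subgroup G)⁆ ≤ ⊥ := by
    unfold powerClosure
    rw [Subgroup.closure_le]
    rintro y ⟨x, hx, rfl⟩
    simp [hΩ x (hcomm hx)]
  have hc1 : c = 1 := Subgroup.mem_bot.mp (hle hc)
  rw [he, hc1, mul_one]

/-- In a `p`-group, normal closure of an element being everything forces the group to be cyclic. -/
theorem closure_of_normalClosure {p : ℕ} [Fact p.Prime] {G : Type*} [Group G] [Finite G] (hp : IsPGroup p G)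
    (x : G) (h : Subgroup.normalClosure ({x} : Set G) = ⊤) :
    Subgroup.closure ({x} : Set G) = ⊤ := by
  by_contra hne
  haveI : Group.IsNilpotent G := hp.isNilpotent
  obtain ⟨M, hM, hle⟩ : ∃ M : Subgroup G, IsCoatom M ∧ Subgroup.closure ({x} : Set G) ≤ M := by
    obtain ⟨M, hle, hM⟩ := (Set.toFinite {W : Subgroup G | W ≠ ⊤}).exists_le_maximal (a := Subgroup.closure ({x} : Set G)) hne
    refine ⟨M, ⟨hM.prop, ?_⟩, hle⟩
    intro W hW
    by_contra hWt
    exact absurd (hM.le_of_ge (show W ≠ ⊤ from hWt) hW.le) (not_le_of_gt hW)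
  haveI hMn : M.Normal := (normalizerCondition_of_isNilpotent (G := G)).normal_of_coatom M hM
  have h1 : Subgroup.normalClosure ({x} : Set G) ≤ M :=
    Subgroup.normalClosure_le_normal (Subgroup.subset_closure.trans hle)
  rw [h, top_le_iff] at h1
  exact hM.1 h1

/-- **Hall's theorem** for regular groups. -/
theorem main (p : ℕ) [Fact p.Prime] : ∀ (N : ℕ) (G : Type u) [Group G] [Finite G], Nat.card G = N →
    IsRegularPGroup p G → ∀ (k : ℕ) (u v : G), (u * v) ^ p ^ k = 1 ↔ u ^ p ^ k * v ^ p ^ k = 1 := by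
  intro N
  induction N using Nat.strong_induction_on with
  | _ N ih =>
  intro G _ _ hN hG k
  have IH : ∀ H : Subgroup G, H ≠ ⊤ → ∀ x y : G, x ∈ H → y ∈ H →
      ((x * y) ^ p ^ k = 1 ↔ x ^ p ^ k * y ^ p ^ k = 1) := by
    intro H hH x y hx hy
    have hcard : Nat.card H < N := by
      rw [← hN]
      have h1 : Nat.card H ≤ Nat.card G := Subgroup.card_le_card_group H
      have h2 : Nat.card H ≠ Nat.card G := fun h => hH (Subgroup.eq_top_of_card_eq H h)
      omega
    have := ih _ hcard H rfl (reg_sub hG H) k ⟨x, hx⟩ ⟨y, hy⟩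
    simpa [Subtype.ext_iff] using this
  -- the subgroup of elements of order dividing `q` in a proper normal subgroup
  have hOm : ∀ H : Subgroup G, H.Normal → H ≠ ⊤ → ∃ Ω : Subgroup G, Ω.Normal ∧
      ∀ x, x ∈ Ω ↔ (x ∈ H ∧ x ^ p ^ k = 1) := by
    intro H hHn hH
    refine ⟨{ carrier := {x | x ∈ H ∧ x ^ p ^ k = 1}
              mul_mem' := ?_
              one_mem' := ⟨H.one_mem, one_pow _⟩
              inv_mem' := ?_ }, ?_, fun x => Iff.rfl⟩
    · rintro x y ⟨hx, hx1⟩ ⟨hy, hy1⟩
      refine ⟨H.mul_mem hx hy, (IH H hH x y hx hy).mpr ?_⟩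
      rw [hx1, hy1, one_mul]
    · rintro x ⟨hx, hx1⟩
      exact ⟨H.inv_mem hx, by rw [inv_pow, hx1, inv_one]⟩
    · constructor
      rintro x ⟨hx, hx1⟩ g
      refine ⟨hHn.conj_mem x hx g, ?_⟩
      rw [conj_pow, hx1]
      simp
  intro u v
  by_cases hT : Subgroup.closure ({u, v} : Set G) = ⊤
  · constructor
    · -- `(uv)^q = 1 → u^q v^q = 1`
      intro hw
      by_cases hc : Subgroup.normalClosure ({u * v} : Set G) = ⊤
      · have h1 := closure_of_normalClosure hG.1 _ hc
        have hcomm : ∀ x y : G, Commute x y := by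
          intro x y
          have hx : x ∈ Subgroup.closure ({u * v} : Set G) := by rw [h1]; trivial
          have hy : y ∈ Subgroup.closure ({u * v} : Set G) := by rw [h1]; trivial
          rw [Subgroup.mem_closure_singleton] at hx hy
          obtain ⟨i, rfl⟩ := hx
          obtain ⟨j, rfl⟩ := hy
          exact (Commute.refl _).zpow_zpow i j
        rw [← (hcomm u v).mul_pow]
        exact hw
      · obtain ⟨Ω, hΩn, hΩ⟩ := hOm _ Subgroup.normalClosure_normal hc
        have hwΩ : u * v ∈ Ω := (hΩ _).mpr ⟨Subgroup.subset_normalClosure rfl, hw⟩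
        have hT' : Subgroup.closure ({u⁻¹, u * v} : Set G) = ⊤ := by
          rw [eq_top_iff, ← hT, Subgroup.closure_le]
          have h1 : u⁻¹ ∈ Subgroup.closure ({u⁻¹, u * v} : Set G) :=
            Subgroup.subset_closure (Set.mem_insert _ _)
          have h2 : u * v ∈ Subgroup.closure ({u⁻¹, u * v} : Set G) :=
            Subgroup.subset_closure (Set.mem_insert_of_mem _ rfl)
          rintro x (rfl | rfl)
          · simpa using Subgroup.inv_mem _ h1
          · have := Subgroup.mul_mem _ h1 h2
            simpa using this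
        have hcm : Commute (QuotientGroup.mk' Ω u⁻¹) (QuotientGroup.mk' Ω (u * v)) := by
          have : QuotientGroup.mk' Ω (u * v) = 1 := (QuotientGroup.eq_one_iff _).mpr hwΩ
          rw [this]
          exact Commute.one_right _
        have h2 := pow_of_comm hG k u⁻¹ (u * v) hT' Ω (fun x hx => ((hΩ x).mp hx).2) hcm
        rw [hw, mul_one, inv_mul_cancel_left, inv_pow] at h2
        rw [h2]
        simp
    · -- `u^q v^q = 1 → (uv)^q = 1`
      intro hw
      by_cases hc : Subgroup.normalClosure ({u} : Set G) = ⊤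
      · have h1 := closure_of_normalClosure hG.1 _ hc
        have hcomm : ∀ x y : G, Commute x y := by
          intro x y
          have hx : x ∈ Subgroup.closure ({u} : Set G) := by rw [h1]; trivial
          have hy : y ∈ Subgroup.closure ({u} : Set G) := by rw [h1]; trivial
          rw [Subgroup.mem_closure_singleton] at hx hy
          obtain ⟨i, rfl⟩ := hx
          obtain ⟨j, rfl⟩ := hy
          exact (Commute.refl _).zpow_zpow i j
        rw [(hcomm u v).mul_pow]
        exact hw
      · obtain ⟨Ω, hΩn, hΩ⟩ := hOm _ Subgroup.normalClosure_normal hc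
        set N₀ := Subgroup.normalClosure ({u} : Set G) with hN₀
        have huN : u ∈ N₀ := Subgroup.subset_normalClosure rfl
        have hy : v * u⁻¹ * v⁻¹ ∈ N₀ :=
          (Subgroup.normalClosure_normal (s := ({u} : Set G))).conj_mem _ (N₀.inv_mem huN) v
        have hcq : v * u ^ p ^ k * v⁻¹ = u ^ p ^ k := by
          have h3 : u ^ p ^ k = (v ^ p ^ k)⁻¹ := eq_inv_of_mul_eq_one_left hw
          rw [h3, ← inv_pow]
          have : Commute v (v⁻¹ ^ p ^ k) := (Commute.refl v).inv_right.pow_right _
          rw [this.eq]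
          simp
        have hpow : (u * (v * u⁻¹ * v⁻¹)) ^ p ^ k = 1 := by
          refine (IH N₀ hc u _ huN hy).mpr ?_
          rw [conj_pow, inv_pow]
          have h4 : v * (u ^ p ^ k)⁻¹ * v⁻¹ = (u ^ p ^ k)⁻¹ := by
            have : v * (u ^ p ^ k)⁻¹ * v⁻¹ = (v * u ^ p ^ k * v⁻¹)⁻¹ := by group
            rw [this, hcq]
          rw [h4]
          simp
        have hmem : u * (v * u⁻¹ * v⁻¹) ∈ Ω := (hΩ _).mpr ⟨N₀.mul_mem huN hy, hpow⟩
        have hcm : Commute (QuotientGroup.mk' Ω u) (QuotientGroup.mk' Ω v) := by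
          have h5 : QuotientGroup.mk' Ω (u * (v * u⁻¹ * v⁻¹)) = 1 := (QuotientGroup.eq_one_iff _).mpr hmem
          have h6 : (QuotientGroup.mk' Ω u) * ((QuotientGroup.mk' Ω v) * (QuotientGroup.mk' Ω u)⁻¹ * (QuotientGroup.mk' Ω v)⁻¹) = 1 := by
            simpa using h5
          show _ * _ = _ * _
          have h7 : (QuotientGroup.mk' Ω u) * (QuotientGroup.mk' Ω v) * (QuotientGroup.mk' Ω u)⁻¹ = QuotientGroup.mk' Ω v := by
            have := congrArg (· * QuotientGroup.mk' Ω v) h6
            simpa [mul_assoc] using this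
          have h8 := congrArg (· * QuotientGroup.mk' Ω u) h7
          simpa [mul_assoc] using h8
        rw [pow_of_comm hG k u v hT Ω (fun x hx => ((hΩ x).mp hx).2) hcm]
        exact hw
  · exact IH _ hT u v (Subgroup.subset_closure (Set.mem_insert _ _))
      (Subgroup.subset_closure (Set.mem_insert_of_mem _ rfl))

end Cfsg.Agent.Lib.RegP
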