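import Mathlib
import Cfsg.Agent.Lib.RegP

/-! `p`-groups with a cyclic maximal subgroup. -/

set_option autoImplicit false
set_option linter.unusedSectionVars false
set_option linter.unusedVariables false

namespace Cfsg.Agent.Lib.LdCM

section Setup

variable {G : Type*} [Group G]

/-- pushing a power of `g` across a power of `a`. -/
theorem conj_pow_aux {a g : G} {r : ℕ} (h : g * a * g⁻¹ = a ^ r) (i k : ℕ) :
    g ^ i * a ^ k = a ^ (k * r ^ i) * g ^ i := by
  induction i generalizing k with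
  | zero => simp
  | succ i ih =>
    have h1 : g * a ^ (k * r ^ i) = a ^ (k * r ^ i * r) * g := by
      have : g * a ^ (k * r ^ i) * g⁻¹ = (a ^ r) ^ (k * r ^ i) := by
        rw [← h, conj_pow]
      rw [← pow_mul, mul_comm r] at this
      rw [← this]
      group
    rw [pow_succ', mul_assoc, ih, ← mul_assoc, h1, mul_assoc, ← pow_succ', pow_succ r i, mul_assoc k]

/-- powers of a product `a^u * g`. -/
theorem mul_pow_aux {a g : G} {r : ℕ} (h : g * a * g⁻¹ = a ^ r) (u q : ℕ) :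
    (a ^ u * g) ^ q = a ^ (u * ∑ i ∈ Finset.range q, r ^ i) * g ^ q := by
  induction q with
  | zero => simp
  | succ q ih =>
    rw [pow_succ, ih, Finset.sum_range_succ, pow_succ g]
    have h1 := conj_pow_aux h q u
    calc a ^ (u * ∑ i ∈ Finset.range q, r ^ i) * g ^ q * (a ^ u * g)
        = a ^ (u * ∑ i ∈ Finset.range q, r ^ i) * (g ^ q * a ^ u) * g := by group
      _ = a ^ (u * ∑ i ∈ Finset.range q, r ^ i) * (a ^ (u * r ^ q) * g ^ q) * g := by rw [h1]
      _ = _ := by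
        rw [mul_add, pow_add]
        group

/-- the data attached to a cyclic subgroup of prime index -/
theorem exists_data [Finite G] {p : ℕ} [hp : Fact p.Prime] (n : ℕ) (hn : 1 ≤ n) (hG : Nat.card G = p ^ n)
    (C : Subgroup G) (hC : IsCyclic C) (hCi : C.index = p) (hna : ∃ x y : G, x * y ≠ y * x) :
    ∃ (a g : G) (r : ℕ), orderOf a = p ^ (n - 1) ∧ Subgroup.zpowers a = C ∧ g ∉ C ∧ g * a * g⁻¹ = a ^ r ∧
      ¬ r ≡ 1 [MOD p ^ (n - 1)] ∧ C.Normal ∧ (∀ h : G, h ∉ C → ∃ s, h ^ p = a ^ s) := by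
  classical
  have hcard : Nat.card C = p ^ (n - 1) := by
    have h1 := Subgroup.card_mul_index C
    rw [hCi, hG] at h1
    have h2 : p ^ n = p ^ (n - 1) * p := by
      rw [← pow_succ]
      congr 1
      omega
    rw [h2] at h1
    exact Nat.eq_of_mul_eq_mul_right hp.out.pos h1
  obtain ⟨a₀, ha₀⟩ := IsCyclic.exists_generator (α := C)
  let a : G := a₀
  have hza : Subgroup.zpowers a = C := by
    apply le_antisymm
    · rw [Subgroup.zpowers_le]
      exact a₀.2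
    · intro x hx
      obtain ⟨k, hk⟩ := ha₀ ⟨x, hx⟩
      refine ⟨k, ?_⟩
      have := congrArg Subtype.val hk
      simpa using this
  have hord : orderOf a = p ^ (n - 1) := by
    rw [← Nat.card_zpowers, hza, hcard]
  have hN : C.Normal := by
    apply Subgroup.normal_of_index_eq_minFac_card
    rw [hCi, hG, Nat.Prime.pow_minFac hp.out (by omega)]
  have hne : C ≠ ⊤ := by
    intro h
    rw [h, Subgroup.index_top] at hCi
    exact hp.out.one_lt.ne hCi
  obtain ⟨g, hg⟩ : ∃ g, g ∉ C := by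
    by_contra hcon
    push_neg at hcon
    exact hne (eq_top_iff.2 fun x _ => hcon x)
  have hmemC : ∀ x ∈ C, ∃ s : ℕ, x = a ^ s := by
    intro x hx
    rw [← hza, ← mem_powers_iff_mem_zpowers] at hx
    obtain ⟨s, hs⟩ := hx
    exact ⟨s, hs.symm⟩
  have hpow : ∀ h : G, h ∉ C → ∃ s, h ^ p = a ^ s := by
    intro h _
    have := Subgroup.pow_index_mem C h
    rw [hCi] at this
    exact hmemC _ this
  have hga : g * a * g⁻¹ ∈ C := hN.conj_mem a (by rw [← hza]; exact Subgroup.mem_zpowers a) g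
  obtain ⟨r, hr⟩ := hmemC _ hga
  refine ⟨a, g, r, hord, hza, hg, hr, ?_, hN, hpow⟩
  -- non-commutativity
  intro hr1
  have h1 : a ^ r = a := by
    rw [← hord] at hr1
    have : a ^ r = a ^ 1 := (pow_eq_pow_iff_modEq).2 hr1
    simpa using this
  have hcomm : Commute a g := by
    have : g * a * g⁻¹ = a := hr.trans h1
    have h2 : g * a = a * g := by
      calc g * a = (g * a * g⁻¹) * g := by group
        _ = a * g := by rw [this]
    exact h2.symm
  -- `a`, `g` generate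
  have htop : Subgroup.closure ({a, g} : Set G) = ⊤ := by
    have hle : C ≤ Subgroup.closure ({a, g} : Set G) := by
      rw [← hza, Subgroup.zpowers_le]
      exact Subgroup.subset_closure (by simp)
    have hgm : g ∈ Subgroup.closure ({a, g} : Set G) := Subgroup.subset_closure (by simp)
    have h3 := Subgroup.relIndex_mul_index hle
    rw [hCi] at h3
    have h4 : (Subgroup.closure ({a, g} : Set G)).index ∣ p := ⟨_, by rw [← h3, mul_comm]⟩
    rcases (Nat.dvd_prime hp.out).1 h4 with h5 | h5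
    · exact Subgroup.index_eq_one.1 h5
    · rw [h5] at h3
      have h6 : C.relIndex (Subgroup.closure ({a, g} : Set G)) = 1 :=
        Nat.eq_of_mul_eq_mul_right hp.out.pos (by rw [h3, one_mul])
      exact absurd (Subgroup.relIndex_eq_one.1 h6 hgm) hg
  obtain ⟨x, y, hxy⟩ := hna
  exact hxy (Cfsg.Agent.Lib.RegP.comm_of_gen (MonoidHom.id G) a g htop hcomm x y)

end Setup

section Arith

/-- binomial congruence -/
theorem one_add_pow_modEq (x j : ℕ) : (1 + x) ^ j ≡ 1 + j * x [MOD x ^ 2] := by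
  induction j with
  | zero => simp [Nat.ModEq]
  | succ j ih =>
    have h1 : (1 + x) ^ (j + 1) ≡ (1 + j * x) * (1 + x) [MOD x ^ 2] := by
      rw [pow_succ]
      exact ih.mul_right _
    refine h1.trans ?_
    have h2 : (1 + j * x) * (1 + x) = 1 + (j + 1) * x + j * x ^ 2 := by ring
    rw [h2]
    have h3 : j * x ^ 2 ≡ 0 [MOD x ^ 2] := (Nat.modEq_zero_iff_dvd).2 (Dvd.intro_left _ rfl)
    simpa using (Nat.ModEq.refl (1 + (j + 1) * x)).add h3

/-- the sum of powers of `1 + P` -/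
theorem sum_one_add_pow_modEq (P q : ℕ) :
    ∑ i ∈ Finset.range q, (1 + P) ^ i ≡ q + P * q.choose 2 [MOD P ^ 2] := by
  induction q with
  | zero => simp [Nat.ModEq]
  | succ q ih =>
    rw [Finset.sum_range_succ]
    have h1 := ih.add (one_add_pow_modEq P q)
    refine h1.trans ?_
    have h2 : (q + 1).choose 2 = q.choose 2 + q := by
      rw [Nat.choose_succ_succ' q 1, Nat.choose_one_right, add_comm]
    rw [h2]
    have : q + P * q.choose 2 + (1 + q * P) = q + 1 + P * (q.choose 2 + q) := by ring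
    rw [this]

end Arith

section Odd

variable {G : Type*} [Group G] [Finite G] {p : ℕ} [hp : Fact p.Prime]

theorem S0645_main (hp2 : p ≠ 2) (n : ℕ) (hn : 3 ≤ n) (hG : Nat.card G = p ^ n) (C : Subgroup G)
    (hC : IsCyclic C) (hCi : C.index = p) (hna : ∃ x y : G, x * y ≠ y * x) :
    ∃ a b : G, orderOf a = p ^ (n - 1) ∧ orderOf b = p ∧ b ∉ Subgroup.zpowers a ∧
      b * a * b⁻¹ = a ^ (1 + p ^ (n - 2)) := by
  classical
  obtain ⟨a, g, r, hord, hza, hg, hr, hr1, hN, hpow⟩ := exists_data n (by omega) hG C hC hCi hna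
  obtain ⟨m, rfl⟩ : ∃ m, n = m + 2 := ⟨n - 2, by omega⟩
  simp only [show m + 2 - 1 = m + 1 by omega, show m + 2 - 2 = m by omega] at *
  set P := p ^ m with hP
  have hpP : p ^ (m + 1) = P * p := pow_succ p m
  have hm1 : 1 ≤ m := by omega
  have hPP : p ^ (m + 1) ∣ P ^ 2 := by
    rw [hP, ← pow_mul]
    exact pow_dvd_pow p (by omega)
  -- `r ^ p ≡ 1`
  have hrp : r ^ p ≡ 1 [MOD p ^ (m + 1)] := by
    obtain ⟨s, hs⟩ := hpow g hg
    have h1 := conj_pow_aux hr p 1
    rw [hs, one_mul, pow_one] at h1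
    have h3 : a ^ s * a = a ^ s * a ^ (r ^ p) := by
      rw [h1]
      exact (Commute.pow_pow (Commute.refl a) _ _).eq
    have h2 : a ^ (r ^ p) = a ^ 1 := by
      rw [pow_one]
      exact (mul_left_cancel h3).symm
    rw [← hord]
    exact pow_eq_pow_iff_modEq.1 h2
  have hr0 : r ≠ 0 := by
    rintro rfl
    rw [zero_pow hp.out.ne_zero] at hrp
    have h1 : p ^ (m + 1) ∣ 1 := (Nat.modEq_zero_iff_dvd).1 hrp.symm
    have h2 : 1 < p ^ (m + 1) := Nat.one_lt_pow (by omega) hp.out.one_lt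
    exact absurd (Nat.le_of_dvd one_pos h1) (by omega)
  have hrne1 : r ≠ 1 := by
    rintro rfl
    exact hr1 rfl
  have hr2 : 1 < r := by omega
  -- `r ≡ 1 mod p`
  have hrmodp : r ≡ 1 [MOD p] := by
    have h1 : r ^ p ≡ 1 [MOD p] := hrp.of_dvd (dvd_pow_self p (by omega))
    rw [← ZMod.natCast_eq_natCast_iff] at h1 ⊢
    push_cast at h1
    rw [ZMod.pow_card] at h1
    simpa using h1
  have hdvd : p ∣ r - 1 := (Nat.modEq_iff_dvd' hr2.le).1 hrmodp.symm
  have hnd : ¬ p ∣ r := by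
    intro h
    have h1 : p ∣ 1 := (Nat.dvd_sub_iff_right hr2.le h).1 hdvd
    exact hp.out.one_lt.ne' (Nat.dvd_one.1 h1)
  haveI : Fact (Odd p) := ⟨hp.out.odd_of_ne_two hp2⟩
  have hval : padicValNat p (r ^ p - 1 ^ p) = padicValNat p (r - 1) + padicValNat p p :=
    padicValNat.pow_sub_pow (hp.out.odd_of_ne_two hp2) hr2 hdvd hnd hp.out.ne_zero
  rw [padicValNat_self, one_pow] at hval
  have hrpne : r ^ p - 1 ≠ 0 := by
    have : 1 < r ^ p := Nat.one_lt_pow hp.out.ne_zero hr2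
    omega
  have hdvd2 : p ^ (m + 1) ∣ r ^ p - 1 := (Nat.modEq_iff_dvd' (Nat.one_le_pow _ _ (by omega))).1 hrp.symm
  have hle : m + 1 ≤ padicValNat p (r ^ p - 1) := (padicValNat_dvd_iff_le hrpne).1 hdvd2
  have hrne : r - 1 ≠ 0 := by omega
  have hdvd3 : P ∣ r - 1 := (padicValNat_dvd_iff_le hrne).2 (by omega)
  obtain ⟨k, hk⟩ := hdvd3
  have hrk : r = 1 + k * P := by
    rw [mul_comm] at hk
    omega
  have hkp : ¬ p ∣ k := by
    rintro ⟨l, rfl⟩
    apply hr1
    rw [hrk, hpP]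
    have : 1 + p * l * P = 1 + (P * p) * l := by ring
    rw [this]
    simp [Nat.ModEq]
  have hcop : Nat.Coprime k p := ((Nat.Prime.coprime_iff_not_dvd hp.out).2 hkp).symm
  obtain ⟨j, -, hj⟩ := Nat.exists_mul_mod_eq_one_of_coprime hcop hp.out.one_lt
  have hjcop : Nat.Coprime j p := by
    apply Nat.Coprime.symm
    rw [Nat.Prime.coprime_iff_not_dvd hp.out]
    intro h
    have h1 : p ∣ k * j := Dvd.dvd.mul_left h k
    rw [Nat.dvd_iff_mod_eq_zero, hj] at h1
    omega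
  have hkj : k * j ≡ 1 [MOD p] := by
    have h1 : 1 % p = 1 := Nat.mod_eq_of_lt hp.out.one_lt
    show (k * j) % p = 1 % p
    rw [hj, h1]
  -- the good power of `g`
  have hR : r ^ j ≡ 1 + P [MOD p ^ (m + 1)] := by
    have h1 := one_add_pow_modEq (k * P) j
    have h2 : p ^ (m + 1) ∣ (k * P) ^ 2 := by
      rw [mul_pow]
      exact Dvd.dvd.mul_left hPP _
    rw [hrk]
    refine (h1.of_dvd h2).trans ?_
    apply Nat.ModEq.add_left
    have h3 : j * (k * P) = (k * j) * P := by ring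
    rw [h3, hpP, mul_comm P p]
    have h4 : k * j * P ≡ 1 * P [MOD p * P] := Nat.ModEq.mul_right' P hkj
    simpa using h4
  let g' := g ^ j
  have hg' : g' * a * g'⁻¹ = a ^ (1 + P) := by
    have h1 := conj_pow_aux hr j 1
    rw [one_mul, pow_one] at h1
    have h2 : a ^ (r ^ j) = a ^ (1 + P) := pow_eq_pow_iff_modEq.2 (by rw [hord]; exact hR)
    rw [← h2]
    show g ^ j * a * (g ^ j)⁻¹ = _
    rw [h1]
    group
  have hg'C : g' ∉ C := by
    intro h
    apply hg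
    have h1 : g ^ p ∈ C := by
      have := Subgroup.pow_index_mem C g
      rwa [hCi] at this
    have hb := Nat.gcd_eq_gcd_ab j p
    rw [hjcop.gcd_eq_one] at hb
    have h2 : g = (g ^ j) ^ (Nat.gcdA j p) * (g ^ p) ^ (Nat.gcdB j p) := by
      rw [← zpow_natCast g j, ← zpow_natCast g p, ← zpow_mul, ← zpow_mul, ← zpow_add, ← hb]
      simp
    rw [h2]
    exact mul_mem (zpow_mem h _) (zpow_mem h1 _)
  obtain ⟨s, hs⟩ := hpow g' hg'C
  have hsp : p ∣ s := by
    have h1 := conj_pow_aux hg' 1 s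
    simp only [pow_one] at h1
    have h2 : g' * a ^ s = a ^ s * g' := by
      rw [← hs, ← pow_succ, ← pow_succ']
    rw [h2] at h1
    have h3 : a ^ s = a ^ (s * (1 + P)) := mul_right_cancel h1
    have h4 : s ≡ s * (1 + P) [MOD p ^ (m + 1)] := by
      rw [← hord]
      exact pow_eq_pow_iff_modEq.1 h3
    have h5 : s + 0 ≡ s + s * P [MOD p ^ (m + 1)] := by
      simpa [mul_add] using h4
    have h6 := Nat.ModEq.add_left_cancel' s h5
    have h7 : P * p ∣ s * P := by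
      rw [← hpP]
      exact (Nat.modEq_zero_iff_dvd).1 h6.symm
    rw [mul_comm s P] at h7
    exact Nat.dvd_of_mul_dvd_mul_left (Nat.pos_of_ne_zero (by rw [hP]; exact pow_ne_zero _ hp.out.ne_zero)) h7
  obtain ⟨t, rfl⟩ := hsp
  let u := t * (p ^ (m + 1) - 1)
  let b := a ^ u * g'
  have hut : p ^ (m + 1) ∣ u + t := by
    refine ⟨t, ?_⟩
    have h1 : 1 ≤ p ^ (m + 1) := Nat.one_le_pow _ _ hp.out.pos
    show t * (p ^ (m + 1) - 1) + t = p ^ (m + 1) * t
    obtain ⟨v, hv⟩ : ∃ v, p ^ (m + 1) = v + 1 := ⟨p ^ (m + 1) - 1, by omega⟩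
    rw [hv]
    simp only [Nat.add_sub_cancel]
    ring
  have hsig : ∑ i ∈ Finset.range p, (1 + P) ^ i ≡ p [MOD p ^ (m + 1)] := by
    have h1 := (sum_one_add_pow_modEq P p).of_dvd hPP
    refine h1.trans ?_
    have h2 : p ∣ p.choose 2 := by
      apply hp.out.dvd_choose_self (by norm_num)
      have := hp.out.two_le
      omega
    obtain ⟨l, hl⟩ := h2
    rw [hl]
    have h3 : P * (p * l) = (P * p) * l := by ring
    rw [h3, ← hpP]
    simp [Nat.ModEq]
  have hb1 : b ^ p = 1 := by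
    rw [mul_pow_aux hg' u p, hs, ← pow_add]
    rw [← orderOf_dvd_iff_pow_eq_one, hord]
    have h1 : u * ∑ i ∈ Finset.range p, (1 + P) ^ i + p * t ≡ u * p + p * t [MOD p ^ (m + 1)] :=
      (hsig.mul_left u).add_right _
    have h2 : u * p + p * t = p * (u + t) := by ring
    rw [h2] at h1
    exact (Nat.modEq_zero_iff_dvd.1 (h1.trans (Nat.modEq_zero_iff_dvd.2 (Dvd.dvd.mul_left hut p))))
  have hbC : b ∉ C := by
    intro h
    apply hg'C
    have h1 : a ^ u ∈ C := by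
      rw [← hza]
      exact pow_mem (Subgroup.mem_zpowers a) u
    have : g' = (a ^ u)⁻¹ * b := by
      show g' = (a ^ u)⁻¹ * (a ^ u * g')
      group
    rw [this]
    exact mul_mem (inv_mem h1) h
  refine ⟨a, b, hord, ?_, ?_, ?_⟩
  · apply orderOf_eq_prime hb1
    rintro h
    exact hbC (h ▸ one_mem _)
  · rw [hza]
    exact hbC
  · show a ^ u * g' * a * (a ^ u * g')⁻¹ = _
    have h1 : a ^ u * g' * a * (a ^ u * g')⁻¹ = a ^ u * (g' * a * g'⁻¹) * (a ^ u)⁻¹ := by group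
    rw [h1, hg']
    have h2 : a ^ u * a ^ (1 + P) = a ^ (1 + P) * a ^ u := (Commute.pow_pow (Commute.refl a) _ _).eq
    rw [h2]
    group

end Odd

section Two

/-- The square roots of `1` modulo a power of `2`. -/
theorem classify (k r : ℕ) (hk : 1 ≤ k) (h : r ^ 2 ≡ 1 [MOD 2 ^ (k + 1)]) (h1 : ¬ r ≡ 1 [MOD 2 ^ (k + 1)]) :
    (2 ^ (k + 1) ∣ r + 1) ∨ (2 ≤ k ∧ r ≡ 1 + 2 ^ k [MOD 2 ^ (k + 1)]) ∨
      (2 ≤ k ∧ r + 1 ≡ 2 ^ k [MOD 2 ^ (k + 1)]) := by
  have hodd : r % 2 = 1 := by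
    have h2 : r ^ 2 ≡ 1 [MOD 2] := h.of_dvd (dvd_pow_self 2 (by omega))
    by_contra hne
    have h3 : 2 ∣ r := by omega
    have h4 : 2 ∣ r ^ 2 := Dvd.dvd.pow h3 (by norm_num)
    have h5 : r ^ 2 % 2 = 1 := h2
    omega
  obtain ⟨w, rfl⟩ : ∃ w, r = 2 * w + 1 := ⟨r / 2, by omega⟩
  obtain ⟨j, rfl⟩ : ∃ j, k = j + 1 := ⟨k - 1, by omega⟩
  have hd : 2 ^ (j + 2) ∣ (2 * w + 1) ^ 2 - 1 := (Nat.modEq_iff_dvd' (Nat.one_le_pow _ _ (by omega))).1 h.symm
  have he : (2 * w + 1) ^ 2 - 1 = 4 * (w * (w + 1)) := by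
    have : (2 * w + 1) ^ 2 = 4 * (w * (w + 1)) + 1 := by ring
    omega
  rw [he, show 2 ^ (j + 2) = 4 * 2 ^ j by ring] at hd
  have hd2 : 2 ^ j ∣ w * (w + 1) := Nat.dvd_of_mul_dvd_mul_left (by norm_num) hd
  by_cases hj : j = 0
  · subst hj
    left
    by_contra hne
    apply h1
    show (2 * w + 1) % 2 ^ (0 + 1 + 1) = 1 % 2 ^ (0 + 1 + 1)
    simp only [zero_add] at hne ⊢
    omega
  have hpp : IsPrimePow (2 ^ j) := (Nat.prime_two.prime.isPrimePow).pow hj
  have hcop : Nat.Coprime w (w + 1) := by simp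
  rcases (Nat.Coprime.isPrimePow_dvd_mul hcop hpp).1 hd2 with ⟨c, rfl⟩ | ⟨c, hc⟩
  · -- `w = 2^j c`
    have hc : c % 2 = 1 := by
      by_contra hne
      obtain ⟨e, rfl⟩ : ∃ e, c = 2 * e := ⟨c / 2, by omega⟩
      apply h1
      have h2 : 2 * (2 ^ j * (2 * e)) + 1 = 1 + 2 ^ (j + 1 + 1) * e := by ring
      rw [h2]
      simp [Nat.ModEq]
    obtain ⟨e, rfl⟩ : ∃ e, c = 2 * e + 1 := ⟨c / 2, by omega⟩
    right; left
    refine ⟨by omega, ?_⟩
    have h2 : 2 * (2 ^ j * (2 * e + 1)) + 1 = 1 + 2 ^ (j + 1) + 2 ^ (j + 1 + 1) * e := by ring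
    rw [h2]
    simp [Nat.ModEq]
  · have hr : 2 * w + 1 + 1 = 2 ^ (j + 1) * c := by
      have : 2 * w + 1 + 1 = 2 * (w + 1) := by ring
      rw [this, hc]
      ring
    by_cases hc2 : c % 2 = 1
    · obtain ⟨e, rfl⟩ : ∃ e, c = 2 * e + 1 := ⟨c / 2, by omega⟩
      right; right
      refine ⟨by omega, ?_⟩
      rw [hr]
      have h2 : 2 ^ (j + 1) * (2 * e + 1) = 2 ^ (j + 1) + 2 ^ (j + 1 + 1) * e := by ring
      rw [h2]
      simp [Nat.ModEq]
    · obtain ⟨e, rfl⟩ : ∃ e, c = 2 * e := ⟨c / 2, by omega⟩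
      left
      rw [hr]
      exact ⟨e, by ring⟩

variable {G : Type*} [Group G] [Finite G]

theorem S0646_main (n : ℕ) (hn : 3 ≤ n) (hG : Nat.card G = 2 ^ n) (C : Subgroup G) (hC : IsCyclic C)
    (hCi : C.index = 2) (hna : ∃ x y : G, x * y ≠ y * x) :
    ∃ a b : G, orderOf a = 2 ^ (n - 1) ∧ b ∉ Subgroup.zpowers a ∧
      ((b ^ 2 = 1 ∧ b * a * b⁻¹ = a⁻¹) ∨ (b ^ 2 = a ^ (2 ^ (n - 2)) ∧ b * a * b⁻¹ = a⁻¹) ∨
        (4 ≤ n ∧ b ^ 2 = 1 ∧ b * a * b⁻¹ = a ^ (1 + 2 ^ (n - 2))) ∨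
        (4 ≤ n ∧ b ^ 2 = 1 ∧ b * a * b⁻¹ = a ^ (2 ^ (n - 2) - 1))) := by
  classical
  haveI : Fact (Nat.Prime 2) := ⟨Nat.prime_two⟩
  obtain ⟨a, g, r, hord, hza, hg, hr, hr1, hN, hpow⟩ := exists_data n (by omega) hG C hC hCi hna
  obtain ⟨k, rfl⟩ : ∃ k, n = k + 2 := ⟨n - 2, by omega⟩
  simp only [show k + 2 - 1 = k + 1 by omega, show k + 2 - 2 = k by omega] at *
  have hk : 1 ≤ k := by omega
  set H := 2 ^ k with hHdef
  have hNH : 2 ^ (k + 1) = 2 * H := by rw [hHdef]; ring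
  have hHpos : 0 < H := by rw [hHdef]; positivity
  have hapow : ∀ x y : ℕ, x ≡ y [MOD 2 ^ (k + 1)] → a ^ x = a ^ y := by
    intro x y h
    rw [← hord] at h
    exact pow_eq_pow_iff_modEq.2 h
  have hapow' : ∀ x y : ℕ, a ^ x = a ^ y → x ≡ y [MOD 2 ^ (k + 1)] := by
    intro x y h
    rw [← hord]
    exact pow_eq_pow_iff_modEq.1 h
  have hrp : r ^ 2 ≡ 1 [MOD 2 ^ (k + 1)] := by
    obtain ⟨s, hs⟩ := hpow g hg
    have h1 := conj_pow_aux hr 2 1
    rw [hs, one_mul, pow_one] at h1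
    have h3 : a ^ s * a = a ^ s * a ^ (r ^ 2) := by
      rw [h1]
      exact (Commute.pow_pow (Commute.refl a) _ _).eq
    apply hapow'
    rw [pow_one]
    exact (mul_left_cancel h3).symm
  obtain ⟨s, hs⟩ := hpow g hg
  -- the fundamental congruence on `s`
  have hsr : s * r ≡ s [MOD 2 ^ (k + 1)] := by
    have h1 := conj_pow_aux hr 1 s
    simp only [pow_one] at h1
    have h2 : g * a ^ s = a ^ s * g := by
      rw [← hs, ← pow_succ, ← pow_succ']
    rw [h2] at h1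
    exact (hapow' _ _ (mul_right_cancel h1)).symm
  -- the shape of an element outside `C`
  have hbC : ∀ u : ℕ, a ^ u * g ∉ C := by
    intro u h
    apply hg
    have h1 : a ^ u ∈ C := by
      rw [← hza]
      exact pow_mem (Subgroup.mem_zpowers a) u
    have : g = (a ^ u)⁻¹ * (a ^ u * g) := by group
    rw [this]
    exact mul_mem (inv_mem h1) h
  have hbconj : ∀ u : ℕ, (a ^ u * g) * a * (a ^ u * g)⁻¹ = a ^ r := by
    intro u
    have h1 : a ^ u * g * a * (a ^ u * g)⁻¹ = a ^ u * (g * a * g⁻¹) * (a ^ u)⁻¹ := by group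
    rw [h1, hr]
    have h2 : a ^ u * a ^ r = a ^ r * a ^ u := (Commute.pow_pow (Commute.refl a) _ _).eq
    rw [h2]
    group
  have hbsq : ∀ u : ℕ, (a ^ u * g) ^ 2 = a ^ (u * (1 + r) + s) := by
    intro u
    rw [mul_pow_aux hr u 2, hs, pow_add]
    simp [Finset.sum_range_succ]
  have h1a : a ^ (2 * H) = 1 := by
    rw [← hNH, ← hord]
    exact pow_orderOf_eq_one a
  rcases classify k r hk hrp hr1 with hc | ⟨hk2, hc⟩ | ⟨hk2, hc⟩
  · -- `r ≡ -1`: dihedral or quaternion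
    have hinv : a ^ r = a⁻¹ := by
      have h1 : a ^ (r + 1) = 1 := by
        rw [← orderOf_dvd_iff_pow_eq_one, hord]
        exact hc
      rw [pow_succ] at h1
      exact eq_inv_of_mul_eq_one_left h1
    have h2s : 2 * H ∣ 2 * s := by
      have h1 : s * r + s ≡ s + s [MOD 2 ^ (k + 1)] := hsr.add_right s
      have h2 : s * r + s = s * (r + 1) := by ring
      rw [h2] at h1
      have h3 : 2 ^ (k + 1) ∣ s + s := by
        refine (Nat.modEq_zero_iff_dvd).1 (h1.symm.trans ?_)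
        exact (Nat.modEq_zero_iff_dvd).2 (Dvd.dvd.mul_left hc s)
      rw [hNH] at h3
      rwa [two_mul s]
    obtain ⟨v, hv⟩ := Nat.dvd_of_mul_dvd_mul_left (by norm_num) h2s
    subst hv
    have hconj0 := hbconj 0
    simp only [pow_zero, one_mul] at hconj0
    have hgC : g ∉ Subgroup.zpowers a := by rw [hza]; exact hg
    refine ⟨a, g, hord, hgC, ?_⟩
    rcases Nat.even_or_odd' v with ⟨e, rfl | rfl⟩
    · left
      refine ⟨?_, hconj0.trans hinv⟩
      rw [hs, show H * (2 * e) = 2 * H * e by ring, pow_mul, h1a, one_pow]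
    · right; left
      refine ⟨?_, hconj0.trans hinv⟩
      rw [hs, show H * (2 * e + 1) = 2 * H * e + H by ring, pow_add, pow_mul, h1a, one_pow, one_mul]
  · -- modular
    obtain ⟨i, rfl⟩ : ∃ i, k = i + 2 := ⟨k - 2, by omega⟩
    have hHi : H = 2 * 2 ^ (i + 1) := by rw [hHdef]; ring
    -- `s` is even
    have hse : 2 ∣ s := by
      have h1 : s * r ≡ s * (1 + H) [MOD 2 ^ (i + 2 + 1)] := hc.mul_left s
      have h2 : s + s * H ≡ s + 0 [MOD 2 ^ (i + 2 + 1)] := by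
        have : s * (1 + H) = s + s * H := by ring
        rw [← this]
        exact h1.symm.trans hsr
      have h3 := Nat.ModEq.add_left_cancel' s h2
      have h4 : 2 * H ∣ s * H := by
        rw [← hNH]
        exact (Nat.modEq_zero_iff_dvd).1 h3
      exact Nat.dvd_of_mul_dvd_mul_right hHpos h4
    obtain ⟨t, rfl⟩ := hse
    let y := 1 + 2 ^ (i + 1)
    have hycop : Nat.Coprime y (2 ^ (i + 2 + 1)) := by
      apply Nat.Coprime.pow_right
      apply Nat.Coprime.symm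
      rw [Nat.coprime_two_left]
      exact Even.one_add (Even.pow_of_ne_zero even_two (by omega))
    have hN1 : 1 < 2 ^ (i + 2 + 1) := Nat.one_lt_pow (by omega) (by norm_num)
    obtain ⟨y', -, hy'⟩ := Nat.exists_mul_mod_eq_one_of_coprime hycop hN1
    have hyy : y * y' ≡ 1 [MOD 2 ^ (i + 2 + 1)] := by
      show (y * y') % _ = 1 % _
      rw [hy', Nat.mod_eq_of_lt hN1]
    let u := t * (2 ^ (i + 2 + 1) - 1) * y'
    have hu : u * y + t ≡ 0 [MOD 2 ^ (i + 2 + 1)] := by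
      have h1 : u * y = t * (2 ^ (i + 2 + 1) - 1) * (y * y') := by
        show t * (2 ^ (i + 2 + 1) - 1) * y' * y = _
        ring
      have h2 : u * y ≡ t * (2 ^ (i + 2 + 1) - 1) * 1 [MOD 2 ^ (i + 2 + 1)] := by
        rw [h1]
        exact hyy.mul_left _
      have h3 : t * (2 ^ (i + 2 + 1) - 1) * 1 + t = t * 2 ^ (i + 2 + 1) := by
        obtain ⟨v, hv⟩ : ∃ v, 2 ^ (i + 2 + 1) = v + 1 := ⟨2 ^ (i + 2 + 1) - 1, by omega⟩
        rw [hv]
        simp only [Nat.add_sub_cancel]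
        ring
      have h4 := h2.add_right t
      rw [h3] at h4
      exact h4.trans ((Nat.modEq_zero_iff_dvd).2 (Dvd.intro_left t rfl))
    have hb2 : (a ^ u * g) ^ 2 = 1 := by
      rw [hbsq u, ← orderOf_dvd_iff_pow_eq_one, hord]
      have h1 : 1 + r ≡ 2 * y [MOD 2 ^ (i + 2 + 1)] := by
        have h2 : 1 + r ≡ 1 + (1 + H) [MOD 2 ^ (i + 2 + 1)] := hc.add_left 1
        have h3 : 1 + (1 + H) = 2 * y := by
          show 1 + (1 + H) = 2 * (1 + 2 ^ (i + 1))
          rw [hHi]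
          ring
        rwa [h3] at h2
      have h5 : u * (1 + r) + 2 * t ≡ u * (2 * y) + 2 * t [MOD 2 ^ (i + 2 + 1)] := (h1.mul_left u).add_right _
      have h6 : u * (2 * y) + 2 * t = 2 * (u * y + t) := by ring
      rw [h6] at h5
      exact (Nat.modEq_zero_iff_dvd).1 (h5.trans ((Nat.modEq_zero_iff_dvd).2
        (Dvd.dvd.mul_left ((Nat.modEq_zero_iff_dvd).1 hu) 2)))
    refine ⟨a, a ^ u * g, hord, by rw [hza]; exact hbC u, Or.inr (Or.inr (Or.inl ⟨by omega, hb2, ?_⟩))⟩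
    rw [hbconj u]
    exact hapow _ _ hc
  · -- semidihedral
    obtain ⟨i, rfl⟩ : ∃ i, k = i + 2 := ⟨k - 2, by omega⟩
    have hHi : H = 2 * 2 ^ (i + 1) := by rw [hHdef]; ring
    have hrH : r ≡ H - 1 [MOD 2 ^ (i + 2 + 1)] := by
      apply Nat.ModEq.add_right_cancel' 1
      rwa [Nat.sub_add_cancel hHpos]
    -- `H` divides `s`
    have hHs : H ∣ s := by
      have h1 : s * r + s ≡ s + s [MOD 2 ^ (i + 2 + 1)] := hsr.add_right s
      have h2 : s * (r + 1) ≡ s * H [MOD 2 ^ (i + 2 + 1)] := hc.mul_left s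
      rw [mul_add, mul_one] at h2
      have h3 : s + s ≡ s * H [MOD 2 ^ (i + 2 + 1)] := h1.symm.trans h2
      have h4 : ((2 * H : ℕ) : ℤ) ∣ (s * H : ℕ) - (s + s : ℕ) := by
        rw [← hNH]
        exact (Nat.modEq_iff_dvd).1 h3
      have hH' : (H : ℤ) = 2 * 2 ^ (i + 1) := by exact_mod_cast hHi
      have h5 : ((H : ℤ)) ∣ (s : ℤ) * ((2 ^ (i + 1) : ℤ) - 1) := by
        push_cast at h4
        obtain ⟨w, hw⟩ := h4
        refine ⟨w, ?_⟩
        have h6 : (2 : ℤ) * ((s : ℤ) * ((2 ^ (i + 1) : ℤ) - 1)) = 2 * ((H : ℤ) * w) := by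
          have : (s : ℤ) * (H : ℤ) - ((s : ℤ) + s) = 2 * ((s : ℤ) * ((2 ^ (i + 1) : ℤ) - 1)) := by
            rw [hH']
            ring
          rw [← this, hw]
          ring
        exact mul_left_cancel₀ (by norm_num) h6
      have h7 : IsCoprime ((H : ℤ)) ((2 ^ (i + 1) : ℤ) - 1) := by
        rw [hHdef]
        push_cast
        apply IsCoprime.pow_left
        refine ⟨2 ^ i, -1, ?_⟩
        rw [pow_succ]
        ring
      have h8 : (H : ℤ) ∣ s := h7.dvd_of_dvd_mul_right h5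
      exact_mod_cast h8
    obtain ⟨v, rfl⟩ := hHs
    rcases Nat.even_or_odd' v with ⟨e, rfl | rfl⟩
    · have hb2 : (a ^ 0 * g) ^ 2 = 1 := by
        rw [pow_zero, one_mul, hs, show H * (2 * e) = 2 * H * e by ring, pow_mul, h1a, one_pow]
      refine ⟨a, a ^ 0 * g, hord, by rw [hza]; exact hbC 0, Or.inr (Or.inr (Or.inr ⟨by omega, hb2, ?_⟩))⟩
      rw [hbconj 0]
      exact hapow _ _ hrH
    · have hb2 : (a ^ 1 * g) ^ 2 = 1 := by
        rw [hbsq 1, ← orderOf_dvd_iff_pow_eq_one, hord]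
        have h1 : 1 * (1 + r) + H * (2 * e + 1) ≡ H + H * (2 * e + 1) [MOD 2 ^ (i + 2 + 1)] := by
          apply Nat.ModEq.add_right
          rw [one_mul]
          have hcc : 1 + r = r + 1 := add_comm _ _
          rw [hcc]
          exact hc
        have h2 : H + H * (2 * e + 1) = 2 ^ (i + 2 + 1) * (e + 1) := by
          rw [hNH]
          ring
        rw [h2] at h1
        exact (Nat.modEq_zero_iff_dvd).1 (h1.trans ((Nat.modEq_zero_iff_dvd).2 (Dvd.intro _ rfl)))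
      refine ⟨a, a ^ 1 * g, hord, by rw [hza]; exact hbC 1, Or.inr (Or.inr (Or.inr ⟨by omega, hb2, ?_⟩))⟩
      rw [hbconj 1]
      exact hapow _ _ hrH

end Two

end Cfsg.Agent.Lib.LdCM
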