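import Mathlib
import Cfsg.Agent.Lib.LdCl2
import Cfsg.Agent.Lib.H1Core
import Cfsg.Agent.Lib.H1Frat
import Cfsg.Prelude.Def_ClassificationK

set_option autoImplicit false
set_option linter.unusedVariables false

/-! S1754, S1755 -/

namespace Cfsg.Agent.Lib.LdCl

open Subgroup Cfsg

section S1754

variable {G : Type*} [Group G] [Finite G]

theorem s1754 (A : Subgroup G) (hA : IsStandardSubgroup A) (t : G) (ht : orderOf t = 2)
    (htA : t ∈ Subgroup.centralizer (A : Set G)) :
    Subgroup.centralizer ({t} : Set G) ≤ Subgroup.normalizer (A : Set G) ∧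
      IsComponent (A.subgroupOf (Subgroup.centralizer ({t} : Set G))) := by
  obtain ⟨hq, ⟨he, hti⟩, hcomm, hnorm⟩ := hA
  have h1 : Subgroup.centralizer ({t} : Set G) ≤ Subgroup.normalizer (A : Set G) := by
    intro h hh
    by_contra hn
    rw [hnorm] at hn
    have hodd := hti h hn
    have htm : (⟨t, htA, by
        have h3 : h * t * h⁻¹ = t := by
          have := (Subgroup.mem_centralizer_iff.mp hh) t rfl
          rw [← this]; group
        rw [← h3]
        exact ⟨t, htA, rfl⟩⟩ : ↥(centralizer (A : Set G) ⊓ (centralizer (A : Set G)).map (MulAut.conj h).toMonoidHom)) ^ 2 = 1 := by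
      apply Subtype.ext
      show t ^ 2 = 1
      rw [← ht, pow_orderOf_eq_one]
    have ht1 : t ≠ 1 := by
      rintro rfl
      simp at ht
    have ho : orderOf (⟨t, htA, by
        have h3 : h * t * h⁻¹ = t := by
          have := (Subgroup.mem_centralizer_iff.mp hh) t rfl
          rw [← this]; group
        rw [← h3]
        exact ⟨t, htA, rfl⟩⟩ : ↥(centralizer (A : Set G) ⊓ (centralizer (A : Set G)).map (MulAut.conj h).toMonoidHom)) = 2 := by
      rw [← ht]; exact Subgroup.orderOf_mk _ _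
    have hdvd := orderOf_dvd_natCard (⟨t, htA, by
        have h3 : h * t * h⁻¹ = t := by
          have := (Subgroup.mem_centralizer_iff.mp hh) t rfl
          rw [← this]; group
        rw [← h3]
        exact ⟨t, htA, rfl⟩⟩ : ↥(centralizer (A : Set G) ⊓ (centralizer (A : Set G)).map (MulAut.conj h).toMonoidHom))
    rw [ho] at hdvd
    exact (Nat.not_even_iff_odd.mpr hodd) (even_iff_two_dvd.mpr hdvd)
  refine ⟨h1, ?_⟩
  have hle : A ≤ Subgroup.centralizer ({t} : Set G) := by
    intro a ha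
    rw [Subgroup.mem_centralizer_iff]
    rintro _ rfl
    exact ((Subgroup.mem_centralizer_iff.mp htA) a ha).symm
  haveI : (A.subgroupOf (Subgroup.centralizer ({t} : Set G))).Normal :=
    (Subgroup.normal_subgroupOf_iff_le_normalizer hle).mpr h1
  exact ⟨Subgroup.Normal.isSubnormal inferInstance,
    Cfsg.Agent.Lib.Comp.qs_of_equiv (Subgroup.subgroupOfEquivOfLe hle).symm hq⟩

end S1754

section Cyc

theorem inv_unique_of_cyclic {D : Type*} [Group D] [IsCyclic D] [Finite D] {a c : D}
    (ha : orderOf a = 2) (hc : orderOf c = 2) : a = c := by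
  classical
  haveI := Fintype.ofFinite D
  have h2 : 2 ∣ Fintype.card D := by
    rw [← Nat.card_eq_fintype_card, ← ha]
    exact orderOf_dvd_natCard a
  have h := IsCyclic.card_orderOf_eq_totient (α := D) (d := 2) h2
  rw [Nat.totient_two] at h
  exact Finset.card_le_one.mp h.le a (by simpa using ha) c (by simpa using hc)

end Cyc

section S1755

variable {G : Type*} [Group G] [Finite G]

theorem center_le_fitting (X : Type*) [Group X] : Subgroup.center X ≤ fittingSubgroup X :=
  le_sSup ⟨inferInstance, Cfsg.Agent.Lib.Comp.nilp_center⟩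

theorem s1755_core (C : Subgroup G) (z : G) (hz : orderOf z = 2) (hzC : z ∈ C)
    (hzcen : ∀ c ∈ C, c * z = z * c) (hgC : ∀ g : G, g * z * g⁻¹ = z → g ∈ C)
    (Q : Subgroup ↥C) [hQn : Q.Normal] (hzQ : (⟨z, hzC⟩ : ↥C) ∈ Q)
    (hQ : IsOfSymplecticType ↥Q)
    (B : Subgroup ↥Q) (hBc : B.Characteristic) (hBa : IsMulCommutative ↥B) (g : G) :
    ((B.map Q.subtype).map C.subtype).map (MulAut.conj g).toMonoidHom = (B.map Q.subtype).map C.subtype ∨
    ((B.map Q.subtype).map C.subtype).map (MulAut.conj g).toMonoidHom ⊓ (B.map Q.subtype).map C.subtype = ⊥ := by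
  haveI : Fact (Nat.Prime 2) := ⟨Nat.prime_two⟩
  by_cases hB0 : B = ⊥
  · left
    subst hB0
    simp
  have hBcy : IsCyclic ↥B := hQ.2 B hBc hBa
  have hZcy : IsCyclic ↥(center ↥Q) := hQ.2 (center ↥Q) inferInstance inferInstance
  obtain ⟨zt, hzt⟩ : ∃ zt : ↥Q, zt = ⟨⟨z, hzC⟩, hzQ⟩ := ⟨_, rfl⟩
  have hztv : ((zt : ↥C) : G) = z := by rw [hzt]
  have hinj : Function.Injective (fun x : ↥Q => ((x : ↥C) : G)) := fun a b h =>
    Subtype.ext (Subtype.ext h)
  have hztc : zt ∈ center ↥Q := by
    rw [Subgroup.mem_center_iff]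
    intro x
    apply hinj
    show ((x : ↥C) : G) * ((zt : ↥C) : G) = ((zt : ↥C) : G) * ((x : ↥C) : G)
    rw [hztv]
    exact hzcen _ (x : ↥C).2
  have hcoe : ∀ x : ↥Q, orderOf ((x : ↥C) : G) = orderOf x := by
    intro x
    have h1 := Subgroup.orderOf_coe x
    have h2 := Subgroup.orderOf_coe (x : ↥C)
    rw [h2, h1]
  have hzto : orderOf zt = 2 := by rw [← hcoe, hztv, hz]
  haveI hBn : B.Normal := inferInstance
  haveI : Group.IsNilpotent ↥Q := hQ.1.isNilpotent
  have hne := Cfsg.Agent.Lib.H1Frat.normal_inf_center_ne_bot B hB0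
  have hB2 : IsPGroup 2 ↥B := hQ.1.to_subgroup B
  obtain ⟨y, ⟨hyB, hyc⟩, hyo⟩ := exists_inv_of_pgroup (hQ.1.to_subgroup (B ⊓ center ↥Q)) hne
  have hyz : y = zt := by
    have h1 : orderOf (⟨y, hyc⟩ : ↥(center ↥Q)) = 2 := by rw [← hyo]; exact Subgroup.orderOf_mk _ _
    have h2 : orderOf (⟨zt, hztc⟩ : ↥(center ↥Q)) = 2 := by rw [← hzto]; exact Subgroup.orderOf_mk _ _
    exact congrArg Subtype.val (inv_unique_of_cyclic h1 h2)
  have hztB : zt ∈ B := hyz ▸ hyB
  have huniq : ∀ w ∈ (B.map Q.subtype).map C.subtype, orderOf w = 2 → w = z := by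
    rintro _ ⟨_, ⟨b, hb, rfl⟩, rfl⟩ ho
    have ho' : orderOf b = 2 := by rw [← hcoe]; exact ho
    have h1 : orderOf (⟨b, hb⟩ : ↥B) = 2 := by rw [← ho']; exact Subgroup.orderOf_mk _ _
    have h2 : orderOf (⟨zt, hztB⟩ : ↥B) = 2 := by rw [← hzto]; exact Subgroup.orderOf_mk _ _
    have h3 := congrArg Subtype.val (inv_unique_of_cyclic h1 h2)
    have h4 : b = zt := h3
    show ((b : ↥C) : G) = z
    rw [h4, hztv]
  by_cases hinf : ((B.map Q.subtype).map C.subtype).map (MulAut.conj g).toMonoidHom ⊓ (B.map Q.subtype).map C.subtype = ⊥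
  · exact Or.inr hinf
  left
  have hB'2 : IsPGroup 2 ↥((B.map Q.subtype).map C.subtype) := (hB2.map _).map _
  have hinf2 : IsPGroup 2 ↥(((B.map Q.subtype).map C.subtype).map (MulAut.conj g).toMonoidHom ⊓ (B.map Q.subtype).map C.subtype) :=
    hB'2.to_le inf_le_right
  obtain ⟨w, ⟨hw1, hw2⟩, hwo⟩ := exists_inv_of_pgroup hinf2 hinf
  have hw3 := huniq w hw2 hwo
  obtain ⟨x, hx, hxw⟩ := hw1
  have hxw' : g * x * g⁻¹ = w := hxw
  have hxo : orderOf x = 2 := by
    rw [← hwo, ← hxw]
    have := orderOf_injective (MulAut.conj g).toMonoidHom (MulAut.conj g).injective x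
    simpa using this.symm
  have hxz := huniq x hx hxo
  have hgz : g * z * g⁻¹ = z := by
    rw [← hxz, hxw', hw3, hxz]
  have hgCm := hgC g hgz
  haveI hn : (B.map Q.subtype).Normal := Cfsg.Agent.Lib.H1Core.normal_map_of_characteristic Q B
  apply Subgroup.eq_of_le_of_card_ge
  · rintro _ ⟨_, ⟨x, hx, rfl⟩, rfl⟩
    exact ⟨_, hn.conj_mem x hx ⟨g, hgCm⟩, rfl⟩
  · exact (Subgroup.card_map_of_injective (f := (MulAut.conj g).toMonoidHom) (MulAut.conj g).injective).ge

theorem s1755 (z : G) (hz : orderOf z = 2)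
    (hQ : IsOfSymplecticType ↥(generalizedFittingSubgroup ↥(Subgroup.centralizer ({z} : Set G))))
    (B : Subgroup ↥(generalizedFittingSubgroup ↥(Subgroup.centralizer ({z} : Set G)))) (hBc : B.Characteristic)
    (hBa : IsMulCommutative ↥B) (g : G) :
    ((B.map (generalizedFittingSubgroup ↥(Subgroup.centralizer ({z} : Set G))).subtype).map
        (Subgroup.centralizer ({z} : Set G)).subtype).map (MulAut.conj g).toMonoidHom =
      (B.map (generalizedFittingSubgroup ↥(Subgroup.centralizer ({z} : Set G))).subtype).map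
        (Subgroup.centralizer ({z} : Set G)).subtype ∨
    ((B.map (generalizedFittingSubgroup ↥(Subgroup.centralizer ({z} : Set G))).subtype).map
        (Subgroup.centralizer ({z} : Set G)).subtype).map (MulAut.conj g).toMonoidHom ⊓
      (B.map (generalizedFittingSubgroup ↥(Subgroup.centralizer ({z} : Set G))).subtype).map
        (Subgroup.centralizer ({z} : Set G)).subtype = ⊥ := by
  have hzC : z ∈ Subgroup.centralizer ({z} : Set G) := by
    rw [Subgroup.mem_centralizer_iff]
    rintro _ rfl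
    rfl
  haveI hn : (generalizedFittingSubgroup ↥(Subgroup.centralizer ({z} : Set G))).Normal := by
    have := Cfsg.Agent.Lib.Comp.Fstar_characteristic (G := ↥(Subgroup.centralizer ({z} : Set G)))
    infer_instance
  have hcenC : ∀ c ∈ Subgroup.centralizer ({z} : Set G), c * z = z * c := fun c hc =>
    ((Subgroup.mem_centralizer_iff.mp hc) z rfl).symm
  apply s1755_core _ z hz hzC hcenC
    (fun g hg => by
      rw [Subgroup.mem_centralizer_iff]
      intro y hy
      rw [Set.mem_singleton_iff] at hy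
      rw [hy]
      calc z * g = (g * z * g⁻¹) * g := by rw [hg]
        _ = g * z := by group)
    _ _ hQ B hBc hBa g
  apply Cfsg.Agent.Lib.Comp.fitting_le_Fstar
  apply center_le_fitting
  rw [Subgroup.mem_center_iff]
  intro c
  apply Subtype.ext
  exact hcenC c c.2

end S1755

end Cfsg.Agent.Lib.LdCl
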