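import Mathlib
import Cfsg.Agent.Lib.LdCl3
import Cfsg.Prelude.Def_QuasithinSetup

set_option autoImplicit false
set_option linter.unusedVariables false

/-! S1850 -/

namespace Cfsg.Agent.Lib.LdCl

open Subgroup Cfsg

section S1850

variable {G : Type*} [Group G] [Finite G]

theorem s1850 (hQ : IsOfEvenCharacteristic G) (T : Sylow 2 G) (U : Subgroup G)
    (hU : IsPGroup 2 ↥U) (hZ : U ⊓ ((T : Subgroup G) ⊓ Subgroup.centralizer ((T : Subgroup G) : Set G)) ≠ ⊥) :
    Subgroup.normalizer (U : Set G) ∈ calHe G := by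
  haveI : Fact (Nat.Prime 2) := ⟨Nat.prime_two⟩
  obtain ⟨z, ⟨hzU, hzT, hzC⟩, hz⟩ := exists_inv_of_pgroup (hU.to_le inf_le_left) hZ
  have hz' : ∃ k : ℕ, z ^ 2 ^ k = 1 := ⟨1, by rw [pow_one, ← hz, pow_orderOf_eq_one]⟩
  have hz1 : z ≠ 1 := by
    rintro rfl
    simp at hz
  have h2 : IsPGroup 2 (zpowers z) := by
    rw [IsPGroup.iff_card, Nat.card_zpowers, hz]
    exact ⟨1, by norm_num⟩
  have hne : zpowers z ≠ ⊥ := by
    simpa using hz1
  have hTN : (T : Subgroup G) ≤ normalizer ((zpowers z : Subgroup G) : Set G) := by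
    intro t ht
    have hc : t * z = z * t := (Subgroup.mem_centralizer_iff.mp hzC) t ht
    apply centralizer_le_normalizer
    rw [Subgroup.mem_centralizer_iff]
    rintro _ ⟨n, rfl⟩
    exact ((Commute.zpow_left (show Commute z t from hc.symm) n).eq)
  have hE := hQ _ ⟨zpowers z, h2, hne, rfl⟩ ⟨T, hTN⟩
  have hE' := (Cfsg.Agent.Lib.LCharUp.chP_iff _).mpr hE
  have h3 := Cfsg.Agent.Lib.LCharUp.chP_centralizer_of_normalizer hE'
  have e : centralizer ((zpowers z : Subgroup G) : Set G) = centralizer ({z} : Set G) := by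
    ext c
    rw [mem_centralizer_singleton_iff, mem_centralizer_iff]
    constructor
    · intro hc
      exact (hc z (mem_zpowers z)).symm
    · rintro hc _ ⟨m, rfl⟩
      exact (Commute.zpow_left hc.symm m).eq
  rw [e] at h3
  have h4 := Cfsg.Agent.Lib.LCharUp.chP_of_mem (Nat.card U) hz' h3 U rfl hU hzU
  exact Cfsg.Agent.Lib.LSpe.char_iff_Fstar.mp ((Cfsg.Agent.Lib.LCharUp.chP_iff _).mp h4)

end S1850

end Cfsg.Agent.Lib.LdCl
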