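import Mathlib
import Cfsg.Agent.Lib.PMaxClass3
import Cfsg.Agent.Lib.FusSubModel
import Cfsg.Agent.Lib.H1Cop
import Cfsg.Prelude.Def_LocalEven

/-!
# Involvement of the dihedral group of order `2p`
-/

set_option autoImplicit false

namespace Cfsg.Agent.Lib.LdDih

open Subgroup Cfsg

variable {G : Type*} [Group G] [Finite G] {p : ℕ} [hpp : Fact p.Prime]

/-- (C) → (A) -/
theorem involves_of_inverted (hp2 : p ≠ 2) {x y : G} {k m : ℕ} (hx : orderOf x = 2 ^ k) (hy : orderOf y = p ^ m)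
    (hy1 : y ≠ 1) (hinv : x * y * x⁻¹ = y⁻¹) : Involves (DihedralGroup p) G := by
  classical
  have hp := hpp.out
  haveI : NeZero p := ⟨hp.ne_zero⟩
  have hm : m ≠ 0 := by
    rintro rfl
    rw [pow_zero, orderOf_eq_one_iff] at hy
    exact hy1 hy
  set y₀ := y ^ (p ^ (m - 1)) with hy₀
  have hoy : orderOf y₀ = p := by
    have h1 : p ∣ orderOf y := by rw [hy]; exact dvd_pow_self p hm
    have h2 : orderOf y / p = p ^ (m - 1) := by
      rw [hy]
      obtain ⟨r, rfl⟩ : ∃ r, m = r + 1 := ⟨m - 1, by omega⟩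
      simp only [Nat.add_sub_cancel]
      rw [pow_succ, Nat.mul_div_cancel _ hp.pos]
    rw [hy₀, ← h2]
    exact orderOf_pow_orderOf_div (orderOf_pos y).ne' h1
  have hinv₀ : x * y₀ * x⁻¹ = y₀⁻¹ := by
    rw [hy₀, ← conj_pow, hinv, inv_pow]
  have hk : k ≠ 0 := by
    rintro rfl
    rw [pow_zero, orderOf_eq_one_iff] at hx
    subst hx
    have h1 : y₀ = y₀⁻¹ := by simpa using hinv₀
    have h2 : y₀ ^ 2 = 1 := by
      rw [pow_two]
      nth_rewrite 2 [h1]
      simp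
    have h3 := orderOf_dvd_of_pow_eq_one h2
    rw [hoy] at h3
    have := (Nat.prime_dvd_prime_iff_eq hp Nat.prime_two).1 h3
    exact hp2 this
  obtain ⟨k', rfl⟩ : ∃ k', k = k' + 1 := ⟨k - 1, by omega⟩
  have hco : Nat.Coprime p 2 := by
    rw [Nat.coprime_primes hp Nat.prime_two]; exact hp2
  set A : Subgroup G := zpowers y₀ with hA
  set B : Subgroup G := zpowers x with hB
  have hBN : B ≤ normalizer (A : Set G) := by
    rw [hB, zpowers_le, mem_normalizer_iff]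
    intro h
    constructor
    · intro hh
      obtain ⟨j, rfl⟩ := mem_zpowers_iff.1 hh
      rw [← conj_zpow, hinv₀]
      exact Subgroup.zpow_mem _ (Subgroup.inv_mem _ (mem_zpowers y₀)) j
    · intro hh
      obtain ⟨j, hj⟩ := mem_zpowers_iff.1 hh
      have h2 : h = x⁻¹ * (y₀ ^ j) * x := by
        rw [hj]; group
      have h3 : x⁻¹ * y₀ * x = y₀⁻¹ := by
        have h4 : y₀ = x⁻¹ * y₀⁻¹ * x := by
          rw [← hinv₀]; group
        calc x⁻¹ * y₀ * x = (x⁻¹ * y₀⁻¹ * x)⁻¹ := by group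
          _ = y₀⁻¹ := by rw [← h4]
      have h6 : x⁻¹ * y₀ ^ j * x = (x⁻¹ * y₀ * x) ^ j := by
        have := conj_zpow (a := x⁻¹) (b := y₀) (i := j)
        simpa using this.symm
      rw [h2, h6, h3]
      exact Subgroup.zpow_mem _ (Subgroup.inv_mem _ (mem_zpowers y₀)) j
  have hcardA : Nat.card A = p := by rw [hA, Nat.card_zpowers, hoy]
  have hcardB : Nat.card B = 2 ^ (k' + 1) := by rw [hB, Nat.card_zpowers, hx]
  have hinf : B ⊓ A = ⊥ := by
    apply Subgroup.inf_eq_bot_of_coprime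
    rw [hcardB, hcardA]
    exact (Nat.Coprime.pow_right _ hco).symm
  set E : Subgroup G := B ⊔ A with hE
  have hcardE : Nat.card E = 2 ^ (k' + 1) * p := by
    have := Cfsg.Agent.Lib.H1Cop.card_sup_mul_inf_of_normalizes hBN
    rw [hinf, Subgroup.card_bot, mul_one, hcardA, hcardB] at this
    exact this
  have hxE : x ∈ E := (le_sup_left : B ≤ E) (mem_zpowers x)
  have hyE : y₀ ∈ E := (le_sup_right : A ≤ E) (mem_zpowers y₀)
  set R : Subgroup G := zpowers (x * x) with hR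
  have hRE : R ≤ E := by
    rw [hR, zpowers_le]
    exact E.mul_mem hxE hxE
  -- x * x is central in E
  have hcen : E ≤ centralizer ({x * x} : Set G) := by
    apply sup_le
    · rw [hB, zpowers_le, mem_centralizer_singleton_iff]
      group
    · rw [hA, zpowers_le, mem_centralizer_singleton_iff]
      have hh : x * y₀⁻¹ * x⁻¹ = y₀ := by
        have : x * y₀⁻¹ * x⁻¹ = (x * y₀ * x⁻¹)⁻¹ := by group
        rw [this, hinv₀, inv_inv]
      have h1 : x * x * y₀ * (x * x)⁻¹ = y₀ := by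
        calc x * x * y₀ * (x * x)⁻¹ = x * (x * y₀ * x⁻¹) * x⁻¹ := by group
          _ = x * y₀⁻¹ * x⁻¹ := by rw [hinv₀]
          _ = y₀ := hh
      calc y₀ * (x * x) = x * x * y₀ * (x * x)⁻¹ * (x * x) := by rw [h1]
        _ = x * x * y₀ := by group
  haveI hRn : (R.subgroupOf E).Normal := by
    constructor
    rintro ⟨n, hnE⟩ hn ⟨g, hg⟩
    rw [mem_subgroupOf] at hn ⊢
    show g * n * g⁻¹ ∈ R
    obtain ⟨j, rfl⟩ := mem_zpowers_iff.1 hn
    have h1 : Commute g (x * x) := by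
      have := (mem_centralizer_singleton_iff.1 (hcen hg))
      exact this
    have h2 := h1.zpow_right j
    rw [h2.eq]
    have : (x * x) ^ j * g * g⁻¹ = (x * x) ^ j := by group
    rw [this]
    exact mem_zpowers_iff.2 ⟨j, rfl⟩
  have hoR : orderOf (x * x) = 2 ^ k' := by
    rw [← pow_two, orderOf_pow, hx]
    rw [Nat.gcd_eq_right (by rw [pow_succ]; exact dvd_mul_left _ _), pow_succ]
    simp
  have hcardR : Nat.card (R.subgroupOf E) = 2 ^ k' := by
    rw [Nat.card_congr (Subgroup.subgroupOfEquivOfLe hRE).toEquiv, hR, Nat.card_zpowers, hoR]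
  have hcardQ : Nat.card (E ⧸ R.subgroupOf E) = 2 * p := by
    have h1 := Subgroup.card_eq_card_quotient_mul_card_subgroup (R.subgroupOf E)
    rw [hcardE, hcardR] at h1
    have h2 : 2 ^ (k' + 1) * p = (2 * p) * 2 ^ k' := by ring
    rw [h2] at h1
    exact (Nat.eq_of_mul_eq_mul_right (by positivity) h1).symm
  set a : E ⧸ R.subgroupOf E := ((⟨y₀, hyE⟩ : E) : E ⧸ R.subgroupOf E) with ha
  set t : E ⧸ R.subgroupOf E := ((⟨x, hxE⟩ : E) : E ⧸ R.subgroupOf E) with ht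
  have htt : t * t = 1 := by
    rw [ht, ← QuotientGroup.mk_mul, QuotientGroup.eq_one_iff, mem_subgroupOf]
    exact mem_zpowers _
  have hta : t * a * t⁻¹ = a⁻¹ := by
    rw [ht, ha, ← QuotientGroup.mk_inv, ← QuotientGroup.mk_inv, ← QuotientGroup.mk_mul, ← QuotientGroup.mk_mul]
    congr 1
    apply Subtype.ext
    exact hinv₀
  have hoa : orderOf a = p := by
    apply orderOf_eq_prime
    · rw [ha, ← QuotientGroup.mk_pow]
      have : (⟨y₀, hyE⟩ : E) ^ p = 1 := by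
        apply Subtype.ext
        show y₀ ^ p = 1
        rw [← hoy]; exact pow_orderOf_eq_one y₀
      rw [this]; rfl
    · rw [ha, Ne, QuotientGroup.eq_one_iff, mem_subgroupOf]
      intro h
      have h1 : orderOf y₀ ∣ orderOf (x * x) := orderOf_dvd_of_mem_zpowers h
      rw [hoy, hoR] at h1
      have h2 := hp.dvd_of_dvd_pow h1
      exact hp2 ((Nat.prime_dvd_prime_iff_eq hp Nat.prime_two).1 h2)
  have htn : t ∉ zpowers a := by
    intro h
    have h1 : orderOf t ∣ orderOf a := orderOf_dvd_of_mem_zpowers h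
    have h2 : orderOf t ∣ 2 := orderOf_dvd_of_pow_eq_one (by rw [pow_two]; exact htt)
    rw [hoa] at h1
    have h3 : orderOf t = 1 := by
      apply Nat.eq_one_of_dvd_coprimes hco h1 h2
    rw [orderOf_eq_one_iff, ht, QuotientGroup.eq_one_iff, mem_subgroupOf] at h3
    have h4 : orderOf x ∣ orderOf (x * x) := orderOf_dvd_of_mem_zpowers h3
    rw [hx, hoR] at h4
    have := Nat.pow_dvd_pow_iff_le_right (x := 2) (by norm_num) |>.1 h4
    omega
  obtain ⟨e⟩ := Cfsg.Agent.Lib.PMaxClass.dihedral_iso a t hoa htt hta htn hcardQ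
  exact ⟨E, R, hRn, ⟨e⟩⟩

/-- (B) → (C) -/
theorem inverted_of_norm {x : G} {P : Subgroup G} {k : ℕ} (hx : orderOf x = 2 ^ k) (hP : IsPGroup p P)
    (hN : x ∈ normalizer (P : Set G)) (hC : x ∉ centralizer (P : Set G)) :
    ∃ t y : G, (∃ k : ℕ, orderOf t = 2 ^ k) ∧ (∃ k : ℕ, orderOf y = p ^ k) ∧ y ≠ 1 ∧ t * y * t⁻¹ = y⁻¹ := by
  classical
  -- least j with x^(2^j) centralizing
  have hex : ∃ j, x ^ 2 ^ j ∈ centralizer (P : Set G) := ⟨k, by
    rw [← hx, pow_orderOf_eq_one]; exact Subgroup.one_mem _⟩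
  let j := Nat.find hex
  have hj : x ^ 2 ^ j ∈ centralizer (P : Set G) := Nat.find_spec hex
  have hj0 : j ≠ 0 := by
    intro h0
    rw [h0] at hj
    simp only [pow_zero, pow_one] at hj
    exact hC hj
  obtain ⟨r, hr⟩ := Nat.exists_eq_succ_of_ne_zero hj0
  set t := x ^ 2 ^ r with ht
  have htC : t ∉ centralizer (P : Set G) := Nat.find_min hex (by omega)
  have ht2 : t * t ∈ centralizer (P : Set G) := by
    have : t * t = x ^ 2 ^ j := by
      rw [hr, ht, ← pow_add, Nat.succ_eq_add_one, pow_succ, mul_two]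
    rw [this]; exact hj
  have htN : t ∈ normalizer (P : Set G) := Subgroup.pow_mem _ hN _
  rw [mem_centralizer_iff] at htC
  push Not at htC
  obtain ⟨q, hq, hqt⟩ := htC
  have hqP : q ∈ P := hq
  have hcomm2 : t * t * q = q * (t * t) := ((mem_centralizer_iff.1 ht2) q hq).symm
  refine ⟨t, q⁻¹ * (t * q * t⁻¹), ?_, ?_, ?_, ?_⟩
  · have h1 : orderOf t ∣ 2 ^ k := by
      rw [← hx, ht]; exact orderOf_pow_dvd _
    obtain ⟨c, -, hc⟩ := (Nat.dvd_prime_pow Nat.prime_two).1 h1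
    exact ⟨c, hc⟩
  · have hyP : q⁻¹ * (t * q * t⁻¹) ∈ P :=
      P.mul_mem (P.inv_mem hqP) ((mem_normalizer_iff.1 htN q).1 hqP)
    obtain ⟨c, hc⟩ := hP ⟨_, hyP⟩
    have h2 : (q⁻¹ * (t * q * t⁻¹)) ^ p ^ c = 1 := congrArg Subtype.val hc
    have h3 := orderOf_dvd_of_pow_eq_one h2
    obtain ⟨d, -, hd⟩ := (Nat.dvd_prime_pow hpp.out).1 h3
    exact ⟨d, hd⟩
  · intro h
    apply hqt
    have h1 : t * q * t⁻¹ = q := (inv_mul_eq_one.1 h).symm
    calc q * t = (t * q * t⁻¹) * t := by rw [h1]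
      _ = t * q := by group
  · have h1 : t * (t * q * t⁻¹) * t⁻¹ = q := by
      calc t * (t * q * t⁻¹) * t⁻¹ = (t * t) * q * (t * t)⁻¹ := by group
        _ = q * (t * t) * (t * t)⁻¹ := by rw [hcomm2]
        _ = q := by group
    calc t * (q⁻¹ * (t * q * t⁻¹)) * t⁻¹ = (t * q⁻¹ * t⁻¹) * (t * (t * q * t⁻¹) * t⁻¹) := by group
      _ = (t * q⁻¹ * t⁻¹) * q := by rw [h1]
      _ = (q⁻¹ * (t * q * t⁻¹))⁻¹ := by group

open DihedralGroup in
/-- (A) → (B) -/
theorem norm_of_involves (hp2 : p ≠ 2) (h : Involves (DihedralGroup p) G) :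
    ∃ (x : G) (P : Subgroup G), (∃ k : ℕ, orderOf x = 2 ^ k) ∧ IsPGroup p ↥P ∧ x ∈ normalizer (P : Set G) ∧
      x ∉ centralizer (P : Set G) := by
  classical
  have hp := hpp.out
  haveI : NeZero p := ⟨hp.ne_zero⟩
  rw [Cfsg.Agent.Lib.FusSubModel.involves_iff] at h
  obtain ⟨K, π, hπ⟩ := h
  -- rotations
  have hrotpow : ∀ (i : ZMod p) (n : ℕ), (r i : DihedralGroup p) ^ n = r ((n : ZMod p) * i) := by
    intro i n
    induction n with
    | zero => simp
    | succ n ih =>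
      rw [pow_succ, ih, r_mul_r]
      congr 1
      push_cast
      ring
  let U : Subgroup (DihedralGroup p) :=
    { carrier := {g | ∃ i, g = r i}
      mul_mem' := by
        rintro _ _ ⟨i, rfl⟩ ⟨j, rfl⟩
        exact ⟨i + j, r_mul_r i j⟩
      one_mem' := ⟨0, rfl⟩
      inv_mem' := by
        rintro _ ⟨i, rfl⟩
        exact ⟨-i, inv_r i⟩ }
  have hUmem : ∀ g, g ∈ U ↔ ∃ i, g = r i := fun g => Iff.rfl
  haveI hUn : U.Normal := by
    constructor
    rintro _ ⟨i, rfl⟩ g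
    cases g with
    | r j =>
      refine ⟨i, ?_⟩
      simp [r_mul_r, inv_r]
    | sr j =>
      refine ⟨-i, ?_⟩
      simp [r_mul_sr, sr_mul_r, sr_mul_sr, inv_sr]
  let N : Subgroup K := U.comap π
  haveI hNn : N.Normal := Subgroup.Normal.comap hUn π
  obtain P₀ : Sylow p N := default
  have hF := Sylow.normalizer_sup_eq_top P₀
  set P₁ : Subgroup K := (P₀ : Subgroup N).map N.subtype with hP₁
  have hF' : normalizer (P₁ : Set K) ⊔ N = ⊤ := hF
  -- an element of the normalizer acting as a reflection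
  obtain ⟨s, hsN, hsU⟩ : ∃ s ∈ normalizer (P₁ : Set K), π s ∉ U := by
    by_contra hall
    push Not at hall
    have hle : normalizer (P₁ : Set K) ≤ N := fun s hs => hall s hs
    rw [sup_eq_right.2 hle] at hF'
    obtain ⟨k, hk⟩ := hπ (sr 0)
    have hkN : k ∈ N := by rw [hF']; trivial
    have : π k ∈ U := hkN
    rw [hk, hUmem] at this
    obtain ⟨i, hi⟩ := this
    cases hi
  obtain ⟨i, hsi⟩ : ∃ i, π s = sr i := by
    cases hh : π s with
    | r j =>
      exfalso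
      apply hsU
      rw [hh]
      exact ⟨j, rfl⟩
    | sr j => exact ⟨j, rfl⟩
  -- its 2-part
  set b := ordCompl[2] (orderOf s) with hb
  have hbodd : Odd b := by
    have h1 : ¬ 2 ∣ b := Nat.not_dvd_ordCompl Nat.prime_two (orderOf_pos s).ne'
    exact Nat.not_even_iff_odd.1 (fun h => h1 h.two_dvd)
  have hb0 : b ≠ 0 := hbodd.pos.ne'
  set x₀ := s ^ b with hx₀
  have hox₀ : orderOf x₀ = 2 ^ (orderOf s).factorization 2 := by
    rw [hx₀, orderOf_pow' s hb0]
    have h1 : 2 ^ (orderOf s).factorization 2 * b = orderOf s := Nat.ordProj_mul_ordCompl_eq_self _ _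
    nth_rewrite 1 [← h1]
    rw [Nat.gcd_eq_right (Nat.ordCompl_dvd _ _)]
    exact Nat.mul_div_cancel _ (Nat.pos_of_ne_zero hb0)
  have hπx₀ : π x₀ = sr i := by
    rw [hx₀, map_pow, hsi]
    obtain ⟨c, hc⟩ := hbodd
    rw [hc, pow_succ, pow_mul]
    have : (sr i : DihedralGroup p) ^ 2 = 1 := by
      rw [pow_two, sr_mul_sr]; simp
    rw [this, one_pow, one_mul]
  have hx₀N : x₀ ∈ normalizer (P₁ : Set K) := Subgroup.pow_mem _ hsN _
  -- a p-element mapping to a non-trivial rotation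
  obtain ⟨z, hz⟩ := hπ (r 1)
  have hzN : z ∈ N := ⟨1, hz⟩
  set d := ordCompl[p] (orderOf z) with hd
  have hdp : ¬ p ∣ d := Nat.not_dvd_ordCompl hp (orderOf_pos z).ne'
  have hd0 : d ≠ 0 := fun h => hdp (h ▸ dvd_zero p)
  set y := z ^ d with hy
  have hoy : orderOf y = p ^ (orderOf z).factorization p := by
    rw [hy, orderOf_pow' z hd0]
    have h1 : p ^ (orderOf z).factorization p * d = orderOf z := Nat.ordProj_mul_ordCompl_eq_self _ _
    nth_rewrite 1 [← h1]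
    rw [Nat.gcd_eq_right (Nat.ordCompl_dvd _ _)]
    exact Nat.mul_div_cancel _ (Nat.pos_of_ne_zero hd0)
  have hπy : π y = r (d : ZMod p) := by
    rw [hy, map_pow, hz, hrotpow, mul_one]
  have hdne : (d : ZMod p) ≠ 0 := by
    rw [Ne, ZMod.natCast_eq_zero_iff]
    exact hdp
  have hyN : y ∈ N := N.pow_mem hzN d
  let yN : N := ⟨y, hyN⟩
  have hyNp : IsPGroup p (zpowers yN) := by
    apply IsPGroup.of_card (n := (orderOf z).factorization p)
    rw [Nat.card_zpowers, Subgroup.orderOf_mk]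
    exact hoy
  obtain ⟨Q, hQ⟩ := hyNp.exists_le_sylow
  obtain ⟨g, hg⟩ := MulAction.exists_smul_eq N P₀ Q
  have hyQ : yN ∈ (Q : Subgroup N) := hQ (mem_zpowers yN)
  rw [← hg, Sylow.coe_subgroup_smul] at hyQ
  obtain ⟨w, hw, hwy⟩ := (Subgroup.mem_smul_pointwise_iff_exists _ _ _).1 hyQ
  have hwP₁ : (w : K) ∈ P₁ := ⟨w, hw, rfl⟩
  have hπw : π (w : K) = r (d : ZMod p) := by
    obtain ⟨e, he⟩ : ∃ e, π (g : K) = r e := g.2
    obtain ⟨f, hf⟩ : ∃ f, π (w : K) = r f := w.2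
    have h1 : (g : K) * w * (g : K)⁻¹ = y := congrArg Subtype.val hwy
    have h2 := congrArg π h1
    rw [map_mul, map_mul, map_inv, he, hf, hπy, inv_r, r_mul_r, r_mul_r] at h2
    rw [hf]
    have h3 : e + f + -e = (d : ZMod p) := r.inj h2
    congr 1
    rw [← h3]; ring
  have hnotC : x₀ ∉ centralizer (P₁ : Set K) := by
    intro h
    have h1 := (mem_centralizer_iff.1 h) _ hwP₁
    have h2 := congrArg π h1
    rw [map_mul, map_mul, hπw, hπx₀, r_mul_sr, sr_mul_r] at h2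
    have h3 : i - (d : ZMod p) = i + d := sr.inj h2
    have h4 : (2 : ZMod p) * d = 0 := by
      have h5 : (d : ZMod p) + d = 0 := by
        have : i + (d + d) = i + 0 := by
          calc i + (d + d) = (i + d) + d := by ring
            _ = (i - d) + d := by rw [h3]
            _ = i + 0 := by ring
        exact add_left_cancel this
      rw [two_mul]; exact h5
    rcases mul_eq_zero.1 h4 with h5 | h5
    · have h6 : ((2 : ℕ) : ZMod p) = 0 := by exact_mod_cast h5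
      rw [ZMod.natCast_eq_zero_iff] at h6
      exact hp2 ((Nat.prime_dvd_prime_iff_eq hp Nat.prime_two).1 h6)
    · exact hdne h5
  refine ⟨(x₀ : G), P₁.map K.subtype, ⟨(orderOf s).factorization 2, ?_⟩, ?_, ?_, ?_⟩
  · rw [Subgroup.orderOf_coe]; exact hox₀
  · exact (P₀.2.map N.subtype).map K.subtype
  · rw [mem_normalizer_iff]
    intro h
    constructor
    · rintro ⟨k, hk, rfl⟩
      exact ⟨x₀ * k * x₀⁻¹, (mem_normalizer_iff.1 hx₀N k).1 hk, rfl⟩
    · rintro ⟨k, hk, hkh⟩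
      have h1 : x₀⁻¹ * k * x₀ ∈ P₁ := by
        have := (mem_normalizer_iff.1 (Subgroup.inv_mem _ hx₀N) k).1 hk
        simpa using this
      refine ⟨x₀⁻¹ * k * x₀, h1, ?_⟩
      have h2 : h = (x₀ : G)⁻¹ * k * x₀ := by
        have h3 : (k : G) = x₀ * h * (x₀ : G)⁻¹ := hkh
        rw [h3]; group
      rw [h2]; rfl
  · intro h
    apply hnotC
    rw [mem_centralizer_iff]
    intro k hk
    have h1 := (mem_centralizer_iff.1 h) (k : G) ⟨k, hk, rfl⟩
    exact Subtype.ext h1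

theorem main (hp2 : p ≠ 2) : (Involves (DihedralGroup p) G ↔ ∃ (x : G) (P : Subgroup G), (∃ k : ℕ, orderOf x = 2 ^ k) ∧ IsPGroup p ↥P ∧ x ∈ normalizer (P : Set G) ∧ x ∉ centralizer (P : Set G)) ∧ (Involves (DihedralGroup p) G ↔ ∃ x y : G, (∃ k : ℕ, orderOf x = 2 ^ k) ∧ (∃ k : ℕ, orderOf y = p ^ k) ∧ y ≠ 1 ∧ x * y * x⁻¹ = y⁻¹) := by
  have hCA : (∃ x y : G, (∃ k : ℕ, orderOf x = 2 ^ k) ∧ (∃ k : ℕ, orderOf y = p ^ k) ∧ y ≠ 1 ∧ x * y * x⁻¹ = y⁻¹) →
      Involves (DihedralGroup p) G := by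
    rintro ⟨x, y, ⟨k, hk⟩, ⟨m, hm⟩, hy1, hinv⟩
    exact involves_of_inverted hp2 hk hm hy1 hinv
  have hBC : (∃ (x : G) (P : Subgroup G), (∃ k : ℕ, orderOf x = 2 ^ k) ∧ IsPGroup p ↥P ∧ x ∈ normalizer (P : Set G) ∧ x ∉ centralizer (P : Set G)) →
      ∃ x y : G, (∃ k : ℕ, orderOf x = 2 ^ k) ∧ (∃ k : ℕ, orderOf y = p ^ k) ∧ y ≠ 1 ∧ x * y * x⁻¹ = y⁻¹ := by
    rintro ⟨x, P, ⟨k, hk⟩, hP, hN, hC⟩
    exact inverted_of_norm hk hP hN hC
  exact ⟨⟨norm_of_involves hp2, fun h => hCA (hBC h)⟩, ⟨fun h => hBC (norm_of_involves hp2 h), hCA⟩⟩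

end Cfsg.Agent.Lib.LdDih
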