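import Mathlib
import Cfsg.Prelude.Def_Spor_Fi24

/-!
# The abelianization of the presented group `Fi₂₄`
-/

set_option autoImplicit false

namespace Cfsg.Agent.Lib.LdFi24

open Cfsg.Spor Cfsg.Spor.Fi24
open scoped commutatorElement

abbrev RS : Set (FreeGroup Gen) := coxRelators edges ∪ {r | r ∈ extra}

/-- the generators -/
def gg (x : Gen) : Fi24 := PresentedGroup.of x

theorem rel {x y : Gen} (hx : x ∈ coxNodes edges) (hy : y ∈ coxNodes edges) :
    (gg x * gg y) ^ coxLabel edges x y = 1 := by
  have h : (FreeGroup.of x * FreeGroup.of y) ^ coxLabel edges x y ∈ RS := Or.inl ⟨x, hx, y, hy, rfl⟩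
  have h1 := PresentedGroup.one_of_mem h
  exact h1

theorem all_nodes (x : Gen) : x ∈ coxNodes edges := by
  cases x <;> decide

theorem gg_sq (x : Gen) : gg x * gg x = 1 := by
  have h := rel (all_nodes x) (all_nodes x)
  have h1 : coxLabel edges x x = 1 := by simp [coxLabel]
  rwa [h1, pow_one] at h

theorem quot_comm (a b : Fi24 ⧸ commutator Fi24) : a * b = b * a := by
  induction a using QuotientGroup.induction_on with
  | H a =>
  induction b using QuotientGroup.induction_on with
  | H b =>
  rw [← QuotientGroup.mk_mul, ← QuotientGroup.mk_mul, QuotientGroup.eq]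
  have h1 : (a * b)⁻¹ * (b * a) = ⁅b⁻¹, a⁻¹⁆ := by
    simp [commutatorElement_def, mul_assoc]
  rw [h1]
  exact Subgroup.commutator_mem_commutator (Subgroup.mem_top _) (Subgroup.mem_top _)

/-- the image in the abelianization -/
def pi (x : Gen) : Fi24 ⧸ commutator Fi24 := ((gg x : Fi24) : Fi24 ⧸ commutator Fi24)

theorem pi_sq (x : Gen) : pi x * pi x = 1 := by
  rw [pi, ← QuotientGroup.mk_mul, gg_sq]
  rfl

theorem adj {x y : Gen} (h3 : coxLabel edges x y = 3) : pi x = pi y := by
  have h := rel (all_nodes x) (all_nodes y)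
  rw [h3] at h
  have h1 : (pi x * pi y) ^ 3 = 1 := by
    rw [pi, pi, ← QuotientGroup.mk_mul, ← QuotientGroup.mk_pow, h]
    rfl
  have hx := pi_sq x
  have hy := pi_sq y
  have h2 : (pi x * pi y) ^ 3 = pi x * pi y := by
    calc (pi x * pi y) ^ 3 = (pi x * pi y) * (pi x * pi y) * (pi x * pi y) := by
          rw [pow_succ, pow_two]
      _ = (pi x * (pi y * pi x) * pi y) * (pi x * pi y) := by group
      _ = (pi x * (pi x * pi y) * pi y) * (pi x * pi y) := by rw [quot_comm (pi y) (pi x)]
      _ = ((pi x * pi x) * (pi y * pi y)) * (pi x * pi y) := by group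
      _ = _ := by rw [hx, hy, one_mul, one_mul]
  rw [h2] at h1
  have h4 : pi x = pi x * (pi y * pi y) := by rw [hy, mul_one]
  rw [h4, ← mul_assoc, h1, one_mul]

theorem pi_eq (x : Gen) : pi x = pi .l := by
  have e1 : pi .l = pi .k := adj (by decide)
  have e2 : pi .k = pi .a := adj (by decide)
  have e3 : pi .a = pi .b := adj (by decide)
  have e4 : pi .b = pi .c := adj (by decide)
  have e5 : pi .c = pi .d := adj (by decide)
  have e6 : pi .d = pi .e := adj (by decide)
  have e7 : pi .d = pi .h := adj (by decide)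
  have e8 : pi .e = pi .f := adj (by decide)
  have e9 : pi .f = pi .g := adj (by decide)
  have e10 : pi .g = pi .j := adj (by decide)
  have e11 : pi .h = pi .i := adj (by decide)
  cases x <;> simp only [← e11, ← e10, ← e9, ← e8, ← e7, ← e6, ← e5, ← e4, ← e3, ← e2, ← e1]

/-- the sign homomorphism -/
noncomputable def phi : Fi24 →* Multiplicative (ZMod 2) :=
  PresentedGroup.toGroup (f := fun _ : Gen => Multiplicative.ofAdd (1 : ZMod 2)) (by
    have ht : Multiplicative.ofAdd (1 : ZMod 2) * Multiplicative.ofAdd (1 : ZMod 2) = 1 := by decide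
    rintro r (⟨x, -, y, -, rfl⟩ | hr)
    · rw [map_pow, map_mul, FreeGroup.lift_apply_of, FreeGroup.lift_apply_of, ht, one_pow]
    · have hr' : r ∈ extra := hr
      simp only [extra, List.mem_cons, List.not_mem_nil, or_false] at hr'
      rcases hr' with rfl | rfl
      · simp only [map_mul, map_pow, map_inv, FreeGroup.lift_apply_of, l, a, b, c, d, e, f, h]
        decide
      · simp only [map_mul, map_pow, FreeGroup.lift_apply_of, l, k, a, b, c, d, e, f, g, h, i, j]
        decide)

theorem phi_gg (x : Gen) : phi (gg x) = Multiplicative.ofAdd (1 : ZMod 2) :=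
  PresentedGroup.toGroup.of _

theorem comm_le_ker : commutator Fi24 ≤ phi.ker := by
  rw [_root_.commutator_def, Subgroup.commutator_le]
  intro g _ h _
  rw [MonoidHom.mem_ker, map_commutatorElement, commutatorElement_eq_one_iff_mul_comm]
  exact mul_comm _ _

theorem main : (commutator Fi24).index = 2 := by
  have hτ : pi .l * pi .l = 1 := pi_sq _
  have hτ1 : pi .l ≠ 1 := by
    intro h
    have h1 : gg .l ∈ commutator Fi24 := (QuotientGroup.eq_one_iff _).1 h
    have h2 := comm_le_ker h1
    rw [MonoidHom.mem_ker, phi_gg] at h2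
    exact absurd h2 (by decide)
  have hall : ∀ x : Fi24, (x : Fi24 ⧸ commutator Fi24) = 1 ∨ (x : Fi24 ⧸ commutator Fi24) = pi .l := by
    intro x
    have hx : x ∈ Subgroup.closure (Set.range (PresentedGroup.of : Gen → Fi24)) := by
      rw [PresentedGroup.closure_range_of]; trivial
    induction hx using Subgroup.closure_induction with
    | mem y hy =>
      obtain ⟨z, rfl⟩ := hy
      right
      exact pi_eq z
    | one => left; rfl
    | mul a b _ _ ha hb =>
      rw [QuotientGroup.mk_mul]
      rcases ha with ha | ha <;> rcases hb with hb | hb <;> rw [ha, hb]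
      · left; rw [one_mul]
      · right; rw [one_mul]
      · right; rw [mul_one]
      · left; exact hτ
    | inv a _ ha =>
      rw [QuotientGroup.mk_inv]
      rcases ha with ha | ha <;> rw [ha]
      · left; simp
      · right; exact inv_eq_of_mul_eq_one_left hτ
  rw [Subgroup.index, Nat.card_eq_two_iff]
  refine ⟨1, pi .l, hτ1.symm, ?_⟩
  ext v
  simp only [Set.mem_insert_iff, Set.mem_singleton_iff, Set.mem_univ, iff_true]
  induction v using QuotientGroup.induction_on with
  | H v => exact hall v

end Cfsg.Agent.Lib.LdFi24
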