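import Mathlib
import Cfsg.Agent.Lib.H1GL2C
import Cfsg.Agent.Lib.CharLin

set_option autoImplicit false
set_option linter.unusedSectionVars false
set_option linter.unusedSimpArgs false
set_option linter.unusedVariables false

/-! Induction from the Borel subgroup of `GL₂`: explicit values and inner products. -/

namespace Cfsg.Agent.Lib.LdGL1

open Matrix Cfsg Cfsg.Agent.Lib.H1GL2 Cfsg.Agent.Lib.H1GL2C
open Cfsg.Agent.Lib.CharBasic Cfsg.Agent.Lib.CharOrth Cfsg.Agent.Lib.CharAlg Cfsg.Agent.Lib.CharInd Cfsg.Agent.Lib.CharLin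
open scoped ComplexConjugate

section Gen

variable {G : Type*} [Group G] [Fintype G]

theorem ind_transversal (H : Subgroup G) (θ : H → ℂ) {ι : Type*} [Fintype ι] (T : ι → G)
    (hT : Function.Bijective (fun p : ι × H => T p.1 * (p.2 : G)))
    (hθ : ∀ h k : H, θ (h⁻¹ * k * h) = θ k) (g : G) :
    indFun H θ g = ∑ l, extendByZero H θ ((T l)⁻¹ * g * T l) := by
  classical
  haveI : Fintype H := Fintype.ofFinite H
  rw [indFun_apply]
  have key : ∑ x : G, extendByZero H θ (x⁻¹ * g * x) =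
      ∑ p : ι × H, extendByZero H θ ((T p.1 * (p.2 : G))⁻¹ * g * (T p.1 * (p.2 : G))) :=
    ((Equiv.ofBijective _ hT).sum_comp (fun x => extendByZero H θ (x⁻¹ * g * x))).symm
  rw [key, Fintype.sum_prod_type]
  have inner : ∀ l, ∑ h : H, extendByZero H θ ((T l * (h : G))⁻¹ * g * (T l * (h : G))) =
      (Nat.card H : ℂ) * extendByZero H θ ((T l)⁻¹ * g * T l) := by
    intro l
    have h1 : ∀ h : H, extendByZero H θ ((T l * (h : G))⁻¹ * g * (T l * (h : G))) =
        extendByZero H θ ((T l)⁻¹ * g * T l) := by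
      intro h
      have e : (T l * (h : G))⁻¹ * g * (T l * (h : G)) = (h : G)⁻¹ * ((T l)⁻¹ * g * T l) * h := by
        group
      rw [e]
      by_cases hy : (T l)⁻¹ * g * T l ∈ H
      · rw [extendByZero_of_mem H _ hy,
          extendByZero_of_mem H _ (H.mul_mem (H.mul_mem (H.inv_mem h.2) hy) h.2)]
        exact hθ h ⟨_, hy⟩
      · have h2 : (h : G)⁻¹ * ((T l)⁻¹ * g * T l) * h ∉ H := by
          intro h3
          apply hy
          have h4 := H.mul_mem (H.mul_mem h.2 h3) (H.inv_mem h.2)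
          have e2 : (h : G) * ((h : G)⁻¹ * ((T l)⁻¹ * g * T l) * h) * (h : G)⁻¹ = (T l)⁻¹ * g * T l := by
            group
          rwa [e2] at h4
        rw [extendByZero_of_not_mem H _ hy, extendByZero_of_not_mem H _ h2]
    simp only [h1, Finset.sum_const, Finset.card_univ, nsmul_eq_mul, Nat.card_eq_fintype_card]
  simp_rw [inner]
  rw [← Finset.mul_sum, ← mul_assoc, inv_mul_cancel₀, one_mul]
  exact_mod_cast Nat.card_pos.ne'

end Gen

variable {F : Type*} [Field F]

/-! ### Representatives of the cosets of the Borel subgroup -/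

/-- Matrix entries of an explicit invertible matrix. -/
noncomputable def glT (s : F) : GL2 F :=
  Matrix.GeneralLinearGroup.mkOfDetNeZero !![s, 1; 1, 0] (by rw [det2]; simp)

noncomputable def glTi (s : F) : GL2 F :=
  Matrix.GeneralLinearGroup.mkOfDetNeZero !![0, 1; 1, -s] (by rw [det2]; simp)

@[simp] theorem glT00 (s : F) : ((glT s : GL2 F) : M2 F) 0 0 = s := rfl
@[simp] theorem glT01 (s : F) : ((glT s : GL2 F) : M2 F) 0 1 = 1 := rfl
@[simp] theorem glT10 (s : F) : ((glT s : GL2 F) : M2 F) 1 0 = 1 := rfl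
@[simp] theorem glT11 (s : F) : ((glT s : GL2 F) : M2 F) 1 1 = 0 := rfl
@[simp] theorem glTi00 (s : F) : ((glTi s : GL2 F) : M2 F) 0 0 = 0 := rfl
@[simp] theorem glTi01 (s : F) : ((glTi s : GL2 F) : M2 F) 0 1 = 1 := rfl
@[simp] theorem glTi10 (s : F) : ((glTi s : GL2 F) : M2 F) 1 0 = 1 := rfl
@[simp] theorem glTi11 (s : F) : ((glTi s : GL2 F) : M2 F) 1 1 = -s := rfl

theorem gl_ext {g h : GL2 F} (h00 : (g : M2 F) 0 0 = (h : M2 F) 0 0) (h01 : (g : M2 F) 0 1 = (h : M2 F) 0 1)
    (h10 : (g : M2 F) 1 0 = (h : M2 F) 1 0) (h11 : (g : M2 F) 1 1 = (h : M2 F) 1 1) : g = h :=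
  Units.ext (m2_ext h00 h01 h10 h11)

@[simp] theorem gl_mul00 (A B : GL2 F) : ((A * B : GL2 F) : M2 F) 0 0 =
    (A : M2 F) 0 0 * (B : M2 F) 0 0 + (A : M2 F) 0 1 * (B : M2 F) 1 0 := by
  rw [Units.val_mul, mul00]
@[simp] theorem gl_mul01 (A B : GL2 F) : ((A * B : GL2 F) : M2 F) 0 1 =
    (A : M2 F) 0 0 * (B : M2 F) 0 1 + (A : M2 F) 0 1 * (B : M2 F) 1 1 := by
  rw [Units.val_mul, mul01]
@[simp] theorem gl_mul10 (A B : GL2 F) : ((A * B : GL2 F) : M2 F) 1 0 =
    (A : M2 F) 1 0 * (B : M2 F) 0 0 + (A : M2 F) 1 1 * (B : M2 F) 1 0 := by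
  rw [Units.val_mul, mul10]
@[simp] theorem gl_mul11 (A B : GL2 F) : ((A * B : GL2 F) : M2 F) 1 1 =
    (A : M2 F) 1 0 * (B : M2 F) 0 1 + (A : M2 F) 1 1 * (B : M2 F) 1 1 := by
  rw [Units.val_mul, mul11]
@[simp] theorem gl_one00 : ((1 : GL2 F) : M2 F) 0 0 = 1 := by simp
@[simp] theorem gl_one01 : ((1 : GL2 F) : M2 F) 0 1 = 0 := by simp
@[simp] theorem gl_one10 : ((1 : GL2 F) : M2 F) 1 0 = 0 := by simp
@[simp] theorem gl_one11 : ((1 : GL2 F) : M2 F) 1 1 = 1 := by simp

theorem glT_mul_glTi (s : F) : glT s * glTi s = 1 := by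
  apply gl_ext <;> simp

theorem glT_inv (s : F) : (glT s)⁻¹ = glTi s :=
  inv_eq_of_mul_eq_one_right (glT_mul_glTi s)

/-- Transversal of the Borel subgroup. -/
noncomputable def glTr : Option F → GL2 F
  | none => 1
  | some s => glT s

theorem glTr_bij : Function.Bijective
    (fun p : Option F × (Cfsg.upperTriangularGL 2 F) => glTr p.1 * ((p.2 : Cfsg.upperTriangularGL 2 F) : GL2 F)) := by
  constructor
  · rintro ⟨l, h⟩ ⟨l', h'⟩ he
    simp only at he
    have hh := (mem_B (h : GL2 F)).mp h.2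
    have hh' := (mem_B (h' : GL2 F)).mp h'.2
    have he0 := congrArg (fun x : GL2 F => (x : M2 F) 0 0) he
    have he1 := congrArg (fun x : GL2 F => (x : M2 F) 1 0) he
    simp only [gl_mul00, gl_mul10] at he0 he1
    have hd := gl_det_ne (h : GL2 F)
    have hd' := gl_det_ne (h' : GL2 F)
    rw [det2, hh, mul_zero, sub_zero] at hd
    rw [det2, hh', mul_zero, sub_zero] at hd'
    have ha := left_ne_zero_of_mul hd
    have ha' := left_ne_zero_of_mul hd'
    have hl : l = l' := by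
      cases l with
      | none =>
        cases l' with
        | none => rfl
        | some s' =>
          simp [glTr, hh, hh'] at he1
          exact absurd he1.symm ha'
      | some s =>
        cases l' with
        | none =>
          simp [glTr, hh, hh'] at he1
          exact absurd he1 ha
        | some s' =>
          simp [glTr, hh, hh'] at he0 he1
          rw [he1] at he0
          rcases mul_eq_mul_right_iff.mp he0 with h1 | h1
          · rw [h1]
          · exact absurd h1 ha'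
    subst hl
    have := mul_left_cancel he
    rw [Subtype.ext this]
  · intro x
    by_cases hx : (x : M2 F) 1 0 = 0
    · exact ⟨(none, ⟨x, (mem_B x).mpr hx⟩), by simp [glTr]⟩
    · refine ⟨(some ((x : M2 F) 0 0 / (x : M2 F) 1 0), ⟨glTi ((x : M2 F) 0 0 / (x : M2 F) 1 0) * x, ?_⟩), ?_⟩
      · rw [mem_B]
        simp only [gl_mul10, glTi10, glTi11]
        field_simp
        ring
      · simp only [glTr]
        rw [← mul_assoc, glT_mul_glTi, one_mul]

/-- The restriction of a pair of multiplicative characters to the Borel subgroup. -/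
noncomputable def lam (α β : MulChar F ℂ) : (Cfsg.upperTriangularGL 2 F) → ℂ :=
  fun b => α (((b : Matrix.GeneralLinearGroup (Fin 2) F) : Matrix (Fin 2) (Fin 2) F) 0 0) *
    β (((b : Matrix.GeneralLinearGroup (Fin 2) F) : Matrix (Fin 2) (Fin 2) F) 1 1)

theorem B_diag (b : Cfsg.upperTriangularGL 2 F) :
    ((b : GL2 F) : M2 F) 0 0 ≠ 0 ∧ ((b : GL2 F) : M2 F) 1 1 ≠ 0 := by
  have hh := (mem_B (b : GL2 F)).mp b.2
  have hd := gl_det_ne (b : GL2 F)
  rw [det2, hh, mul_zero, sub_zero] at hd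
  exact ⟨left_ne_zero_of_mul hd, right_ne_zero_of_mul hd⟩

/-- The diagonal characters of the Borel subgroup. -/
noncomputable def bA : (Cfsg.upperTriangularGL 2 F) →* Fˣ where
  toFun b := Units.mk0 (((b : GL2 F) : M2 F) 0 0) (B_diag b).1
  map_one' := by ext; simp
  map_mul' := by
    intro x y
    ext
    have hy := (mem_B (y : GL2 F)).mp y.2
    simp [hy]

noncomputable def bD : (Cfsg.upperTriangularGL 2 F) →* Fˣ where
  toFun b := Units.mk0 (((b : GL2 F) : M2 F) 1 1) (B_diag b).2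
  map_one' := by ext; simp
  map_mul' := by
    intro x y
    ext
    have hx := (mem_B (x : GL2 F)).mp x.2
    simp [hx]

noncomputable def lamHom (α β : MulChar F ℂ) : (Cfsg.upperTriangularGL 2 F) →* ℂˣ :=
  (α.toUnitHom.comp bA) * (β.toUnitHom.comp bD)

theorem lamHom_val (α β : MulChar F ℂ) (b : Cfsg.upperTriangularGL 2 F) :
    ((lamHom α β b : ℂˣ) : ℂ) = lam α β b := by
  simp [lamHom, lam, bA, bD, MulChar.coe_toUnitHom]

theorem lam_isChar (α β : MulChar F ℂ) : IsCharacter (Cfsg.upperTriangularGL 2 F) (lam α β) := by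
  have h := IsIrrCharacter.isCharacter (isIrrCharacter_of_hom (lamHom α β))
  have e : (fun g => ((lamHom α β g : ℂˣ) : ℂ)) = lam α β := funext (lamHom_val α β)
  rwa [e] at h

theorem lam_inv (α β : MulChar F ℂ) (h k : Cfsg.upperTriangularGL 2 F) :
    lam α β (h⁻¹ * k * h) = lam α β k := by
  rw [← lamHom_val, ← lamHom_val, map_mul, map_mul, map_inv]
  congr 1
  exact mul_inv_cancel_comm _ _

theorem ext_lam [DecidableEq F] (α β : MulChar F ℂ) (x : GL2 F) :
    extendByZero (Cfsg.upperTriangularGL 2 F) (lam α β) x =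
      if (x : M2 F) 1 0 = 0 then α ((x : M2 F) 0 0) * β ((x : M2 F) 1 1) else 0 := by
  split_ifs with h
  · rw [extendByZero_of_mem _ _ ((mem_B x).mpr h)]
    rfl
  · rw [extendByZero_of_not_mem _ _ (fun hx => h ((mem_B x).mp hx))]

section Fin

variable [Fintype F] [DecidableEq F]

theorem ind_formula (α β : MulChar F ℂ) (g : GL2 F) :
    indFun (Cfsg.upperTriangularGL 2 F) (lam α β) g =
      (if (g : M2 F) 1 0 = 0 then α ((g : M2 F) 0 0) * β ((g : M2 F) 1 1) else 0) +
      ∑ s : F, if (g : M2 F) 0 0 * s + (g : M2 F) 0 1 - s * ((g : M2 F) 1 0 * s + (g : M2 F) 1 1) = 0 then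
        α ((g : M2 F) 1 0 * s + (g : M2 F) 1 1) * β ((g : M2 F) 0 0 - s * (g : M2 F) 1 0) else 0 := by
  rw [ind_transversal _ _ glTr glTr_bij (lam_inv α β)]
  rw [Fintype.sum_option]
  congr 1
  · simp only [glTr, inv_one, one_mul, mul_one]
    rw [ext_lam]
  · apply Finset.sum_congr rfl
    intro s _
    simp only [glTr]
    rw [ext_lam, glT_inv]
    have h00 : ((glTi s * g * glT s : GL2 F) : M2 F) 0 0 = (g : M2 F) 1 0 * s + (g : M2 F) 1 1 := by
      simp
    have h10 : ((glTi s * g * glT s : GL2 F) : M2 F) 1 0 =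
        (g : M2 F) 0 0 * s + (g : M2 F) 0 1 - s * ((g : M2 F) 1 0 * s + (g : M2 F) 1 1) := by
      simp
      ring
    have h11 : ((glTi s * g * glT s : GL2 F) : M2 F) 1 1 = (g : M2 F) 0 0 - s * (g : M2 F) 1 0 := by
      simp
      ring
    rw [h00, h10, h11]

/-- Values at upper triangular elements with distinct diagonal entries. -/
theorem ind_tri_ne (α β : MulChar F ℂ) (g : GL2 F) (h10 : (g : M2 F) 1 0 = 0)
    (hne : (g : M2 F) 0 0 ≠ (g : M2 F) 1 1) :
    indFun (Cfsg.upperTriangularGL 2 F) (lam α β) g =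
      α ((g : M2 F) 0 0) * β ((g : M2 F) 1 1) + α ((g : M2 F) 1 1) * β ((g : M2 F) 0 0) := by
  rw [ind_formula, if_pos h10]
  congr 1
  have hsub : (g : M2 F) 0 0 - (g : M2 F) 1 1 ≠ 0 := sub_ne_zero.mpr hne
  rw [Finset.sum_eq_single (-((g : M2 F) 0 1) / ((g : M2 F) 0 0 - (g : M2 F) 1 1))]
  · rw [if_pos]
    · simp [h10]
    · rw [h10]
      field_simp
      ring
  · intro s _ hs
    rw [if_neg]
    intro h
    apply hs
    rw [h10] at h
    field_simp
    linear_combination h
  · intro h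
    exact absurd (Finset.mem_univ _) h

theorem ind_tri_eq (α β : MulChar F ℂ) (g : GL2 F) (h10 : (g : M2 F) 1 0 = 0)
    (he : (g : M2 F) 0 0 = (g : M2 F) 1 1) (h01 : (g : M2 F) 0 1 ≠ 0) :
    indFun (Cfsg.upperTriangularGL 2 F) (lam α β) g =
      α ((g : M2 F) 0 0) * β ((g : M2 F) 0 0) := by
  rw [ind_formula, if_pos h10, ← he]
  rw [Finset.sum_eq_zero, add_zero]
  intro s _
  rw [if_neg]
  intro h
  apply h01
  rw [h10] at h
  linear_combination h

theorem ind_scalar (α β : MulChar F ℂ) (g : GL2 F) (h10 : (g : M2 F) 1 0 = 0)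
    (he : (g : M2 F) 0 0 = (g : M2 F) 1 1) (h01 : (g : M2 F) 0 1 = 0) :
    indFun (Cfsg.upperTriangularGL 2 F) (lam α β) g =
      ((Fintype.card F : ℂ) + 1) * (α ((g : M2 F) 0 0) * β ((g : M2 F) 0 0)) := by
  rw [ind_formula, if_pos h10, ← he]
  have : ∀ s : F, (if (g : M2 F) 0 0 * s + (g : M2 F) 0 1 - s * ((g : M2 F) 1 0 * s + (g : M2 F) 0 0) = 0 then
        α ((g : M2 F) 1 0 * s + (g : M2 F) 0 0) * β ((g : M2 F) 0 0 - s * (g : M2 F) 1 0) else 0) =
      α ((g : M2 F) 0 0) * β ((g : M2 F) 0 0) := by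
    intro s
    rw [if_pos]
    · simp [h10]
    · rw [h10, h01]
      ring
  simp only [this, Finset.sum_const, Finset.card_univ, nsmul_eq_mul]
  ring

theorem ind_noeig (α β : MulChar F ℂ) (g : GL2 F)
    (hg : ∀ (c : F) (v : Fin 2 → F), v ≠ 0 → (g : M2 F).mulVec v ≠ c • v) :
    indFun (Cfsg.upperTriangularGL 2 F) (lam α β) g = 0 := by
  rw [ind_formula]
  have h10 : (g : M2 F) 1 0 ≠ 0 := by
    intro h
    apply hg ((g : M2 F) 0 0) ![1, 0]
    · intro e
      have := congrFun e 0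
      simp at this
    · ext i
      fin_cases i <;> simp [Matrix.mulVec, dotProduct, Fin.sum_univ_two, h]
  rw [if_neg h10, zero_add]
  apply Finset.sum_eq_zero
  intro s _
  rw [if_neg]
  intro h
  apply hg ((g : M2 F) 1 0 * s + (g : M2 F) 1 1) ![s, 1]
  · intro e
    have := congrFun e 1
    simp at this
  · ext i
    fin_cases i
    · simp [Matrix.mulVec, dotProduct, Fin.sum_univ_two]
      linear_combination h
    · simp [Matrix.mulVec, dotProduct, Fin.sum_univ_two]

end Fin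

end Cfsg.Agent.Lib.LdGL1
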