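import Mathlib
import Cfsg.Agent.Lib.LdGL1

set_option autoImplicit false
set_option linter.unusedSectionVars false
set_option linter.unusedSimpArgs false
set_option linter.unusedVariables false

/-! Inner products of characters induced from the Borel subgroup of `GL₂`. -/

namespace Cfsg.Agent.Lib.LdGL2

open Matrix Cfsg Cfsg.Agent.Lib.H1GL2 Cfsg.Agent.Lib.H1GL2C Cfsg.Agent.Lib.LdGL1
open Cfsg.Agent.Lib.CharBasic Cfsg.Agent.Lib.CharOrth Cfsg.Agent.Lib.CharAlg Cfsg.Agent.Lib.CharInd Cfsg.Agent.Lib.CharLin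
open scoped ComplexConjugate

variable {F : Type*} [Field F]

/-- Upper triangular matrices. -/
noncomputable def tri (a d : Fˣ) (c : F) : GL2 F :=
  Matrix.GeneralLinearGroup.mkOfDetNeZero !![(a : F), c; 0, (d : F)] (by rw [det2]; simp)

@[simp] theorem tri00 (a d : Fˣ) (c : F) : ((tri a d c : GL2 F) : M2 F) 0 0 = a := rfl
@[simp] theorem tri01 (a d : Fˣ) (c : F) : ((tri a d c : GL2 F) : M2 F) 0 1 = c := rfl
@[simp] theorem tri10 (a d : Fˣ) (c : F) : ((tri a d c : GL2 F) : M2 F) 1 0 = 0 := rfl
@[simp] theorem tri11 (a d : Fˣ) (c : F) : ((tri a d c : GL2 F) : M2 F) 1 1 = d := rfl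

theorem tri_mem (a d : Fˣ) (c : F) : tri a d c ∈ Cfsg.upperTriangularGL 2 F := (mem_B _).mpr rfl

/-- The Borel subgroup is parametrised by its entries. -/
noncomputable def triEquiv : (Fˣ × Fˣ × F) ≃ Cfsg.upperTriangularGL 2 F where
  toFun p := ⟨tri p.1 p.2.1 p.2.2, tri_mem _ _ _⟩
  invFun b := (bA b, bD b, ((b : GL2 F) : M2 F) 0 1)
  left_inv p := by
    rcases p with ⟨a, d, c⟩
    ext <;> rfl
  right_inv b := by
    apply Subtype.ext
    apply gl_ext
    · rfl
    · rfl
    · exact ((mem_B (b : GL2 F)).mp b.2).symm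
    · rfl

theorem card_units_C [Fintype F] : (Nat.card Fˣ : ℂ) = (Fintype.card F : ℂ) - 1 := by
  classical
  have hq : 1 ≤ Fintype.card F := Fintype.card_pos
  rw [Nat.card_eq_fintype_card, Fintype.card_units, Nat.cast_sub hq]
  simp

theorem card_B [Fintype F] : Nat.card (Cfsg.upperTriangularGL 2 F) =
    (Fintype.card F - 1) * ((Fintype.card F - 1) * Fintype.card F) := by
  classical
  rw [← Nat.card_congr (triEquiv (F := F)), Nat.card_prod, Nat.card_prod, Nat.card_eq_fintype_card,
    Nat.card_eq_fintype_card, Fintype.card_units]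

theorem card_B_C [Fintype F] : (Nat.card (Cfsg.upperTriangularGL 2 F) : ℂ) =
    ((Fintype.card F : ℂ) - 1) ^ 2 * (Fintype.card F : ℂ) := by
  have hq : 1 ≤ Fintype.card F := Fintype.card_pos
  rw [card_B]
  push_cast [Nat.cast_sub hq]
  ring

theorem q_ne_zero [Fintype F] : (Fintype.card F : ℂ) ≠ 0 := by
  exact_mod_cast Fintype.card_ne_zero

theorem q_sub_one_ne_zero [Fintype F] : (Fintype.card F : ℂ) - 1 ≠ 0 := by
  have h : 1 < Fintype.card F := Fintype.one_lt_card
  intro h0
  have : (Fintype.card F : ℂ) = ((1 : ℕ) : ℂ) := by push_cast; linear_combination h0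
  have := Nat.cast_injective this
  omega

section Fin

variable [Fintype F] [DecidableEq F]

/-- Sums over units as sums over the field. -/
theorem sum_units_F (f : F → ℂ) (h0 : f 0 = 0) : ∑ a : Fˣ, f a = ∑ a : F, f a := by
  classical
  rw [← Finset.sum_erase (Finset.univ : Finset F) h0]
  symm
  apply Finset.sum_bij (fun a ha => Units.mk0 a (Finset.ne_of_mem_erase ha))
  · intro a _
    exact Finset.mem_univ _
  · intro a _ b _ h
    exact congrArg (fun u : Fˣ => (u : F)) h
  · intro a _
    exact ⟨a, by simp, by ext; simp⟩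
  · intro a _
    rfl

/-- Orthogonality of multiplicative characters. -/
theorem mc_orth (α β : MulChar F ℂ) [Decidable (α = β)] :
    ∑ a : Fˣ, α (a : F) * conj (β (a : F)) = if α = β then (Fintype.card F : ℂ) - 1 else 0 := by
  have h1 : ∀ a : F, α a * conj (β a) = (α * β⁻¹) a := by
    intro a
    rw [MulChar.mul_apply, ← MulChar.star_apply']
    rfl
  simp_rw [h1]
  rw [sum_units_F (fun a => (α * β⁻¹) a) (by simp [MulChar.map_zero])]
  split_ifs with h
  · subst h
    rw [mul_inv_cancel, MulChar.sum_one_eq_card_units, Fintype.card_units]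
    have hq : 1 ≤ Fintype.card F := Fintype.card_pos
    push_cast [Nat.cast_sub hq]
    ring
  · apply MulChar.sum_eq_zero_of_ne_one
    intro h2
    apply h
    exact mul_inv_eq_one.mp h2

theorem sum_B (φ : Cfsg.upperTriangularGL 2 F → ℂ) [Fintype (Cfsg.upperTriangularGL 2 F)] :
    ∑ b, φ b = ∑ a : Fˣ, ∑ d : Fˣ, ∑ c : F, φ ⟨tri a d c, tri_mem _ _ _⟩ := by
  rw [← Equiv.sum_comp (triEquiv (F := F)) φ, Fintype.sum_prod_type]
  apply Finset.sum_congr rfl
  intro a _
  rw [Fintype.sum_prod_type]
  rfl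

/-- The pairing of an induced character with a class function. -/
theorem inner_ind_class (α β : MulChar F ℂ) (X : GL2 F → ℂ) (hX : IsClassFunction (GL2 F) X) :
    classInner (indFun (Cfsg.upperTriangularGL 2 F) (lam α β)) X =
      (((Fintype.card F : ℂ) - 1) ^ 2 * (Fintype.card F : ℂ))⁻¹ *
        ∑ a : Fˣ, ∑ d : Fˣ, α (a : F) * β (d : F) * conj (∑ c : F, X (tri a d c)) := by
  classical
  haveI : Fintype (Cfsg.upperTriangularGL 2 F) := Fintype.ofFinite _
  rw [frobenius _ _ _ hX, classInner, card_B_C, sum_B]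
  congr 1
  apply Finset.sum_congr rfl
  intro a _
  apply Finset.sum_congr rfl
  intro d _
  rw [map_sum, Finset.mul_sum]
  rfl

/-- The induced character summed over the last coordinate. -/
theorem sum_ind_tri (α β : MulChar F ℂ) (a d : Fˣ) :
    ∑ c : F, indFun (Cfsg.upperTriangularGL 2 F) (lam α β) (tri a d c) =
      (Fintype.card F : ℂ) * (α (a : F) * β (d : F) + α (d : F) * β (a : F)) := by
  classical
  by_cases had : (a : F) = d
  · have ha : a = d := Units.ext had
    subst ha
    rw [← Finset.sum_erase_add _ _ (Finset.mem_univ (0 : F))]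
    rw [ind_scalar α β _ rfl rfl rfl]
    have : ∀ c ∈ (Finset.univ : Finset F).erase 0,
        indFun (Cfsg.upperTriangularGL 2 F) (lam α β) (tri a a c) = α (a : F) * β (a : F) := by
      intro c hc
      exact ind_tri_eq α β _ rfl rfl (Finset.ne_of_mem_erase hc)
    rw [Finset.sum_congr rfl this, Finset.sum_const, Finset.card_erase_of_mem (Finset.mem_univ _),
      Finset.card_univ, nsmul_eq_mul]
    have hq : 1 ≤ Fintype.card F := Fintype.card_pos
    push_cast [Nat.cast_sub hq]
    simp only [tri00]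
    ring
  · have : ∀ c ∈ (Finset.univ : Finset F),
        indFun (Cfsg.upperTriangularGL 2 F) (lam α β) (tri a d c) =
          α (a : F) * β (d : F) + α (d : F) * β (a : F) := by
      intro c _
      exact ind_tri_ne α β _ rfl had
    rw [Finset.sum_congr rfl this, Finset.sum_const, Finset.card_univ, nsmul_eq_mul]

/-- The Mackey formula for the Borel subgroup of `GL₂`. -/
theorem inner_ind_ind (α β α' β' : MulChar F ℂ) [Decidable (α = α')] [Decidable (β = β')]
    [Decidable (α = β')] [Decidable (β = α')] :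
    classInner (indFun (Cfsg.upperTriangularGL 2 F) (lam α β))
        (indFun (Cfsg.upperTriangularGL 2 F) (lam α' β')) =
      (if α = α' then 1 else 0) * (if β = β' then 1 else 0) +
        (if α = β' then 1 else 0) * (if β = α' then 1 else 0) := by
  rw [inner_ind_class _ _ _ (indFun_classFunction _ _)]
  simp_rw [sum_ind_tri, map_mul, map_add, Complex.conj_natCast, Finset.mul_sum]
  simp only [map_mul]
  have key : ∀ a d : Fˣ, α (a : F) * β (d : F) * ((Fintype.card F : ℂ) *
        (conj (α' (a : F)) * conj (β' (d : F)) + conj (α' (d : F)) * conj (β' (a : F)))) =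
      (Fintype.card F : ℂ) * ((α (a : F) * conj (α' (a : F))) * (β (d : F) * conj (β' (d : F))) +
        (α (a : F) * conj (β' (a : F))) * (β (d : F) * conj (α' (d : F)))) := by
    intro a d
    ring
  have h2 : ∑ a : Fˣ, ∑ d : Fˣ, (((Fintype.card F : ℂ) - 1) ^ 2 * (Fintype.card F : ℂ))⁻¹ *
        (α (a : F) * β (d : F) * ((Fintype.card F : ℂ) *
          (conj (α' (a : F)) * conj (β' (d : F)) + conj (α' (d : F)) * conj (β' (a : F))))) =
      (((Fintype.card F : ℂ) - 1) ^ 2 * (Fintype.card F : ℂ))⁻¹ * (Fintype.card F : ℂ) *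
        ((∑ a : Fˣ, α (a : F) * conj (α' (a : F))) * (∑ d : Fˣ, β (d : F) * conj (β' (d : F))) +
          (∑ a : Fˣ, α (a : F) * conj (β' (a : F))) * (∑ d : Fˣ, β (d : F) * conj (α' (d : F)))) := by
    rw [Finset.sum_mul_sum, Finset.sum_mul_sum, ← Finset.sum_add_distrib, Finset.mul_sum]
    apply Finset.sum_congr rfl
    intro a _
    rw [← Finset.sum_add_distrib, Finset.mul_sum]
    apply Finset.sum_congr rfl
    intro d _
    rw [key]
    ring
  rw [h2, mc_orth, mc_orth, mc_orth, mc_orth]
  have h3 := q_ne_zero (F := F)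
  have h4 := q_sub_one_ne_zero (F := F)
  split_ifs <;> field_simp <;> ring

end Fin

end Cfsg.Agent.Lib.LdGL2
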