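import Mathlib
import Cfsg.Agent.Lib.LdGL2
import Cfsg.Agent.Lib.H1SL2C

set_option autoImplicit false
set_option linter.unusedSectionVars false
set_option linter.unusedSimpArgs false
set_option linter.unusedVariables false

/-! The characters of `GL₂`: principal series, Steinberg characters and the cuspidal remainder. -/

namespace Cfsg.Agent.Lib.LdGL3

open Matrix Cfsg Cfsg.Agent.Lib.H1GL2 Cfsg.Agent.Lib.H1GL2C Cfsg.Agent.Lib.LdGL1 Cfsg.Agent.Lib.LdGL2
open Cfsg.Agent.Lib.CharBasic Cfsg.Agent.Lib.CharOrth Cfsg.Agent.Lib.CharAlg Cfsg.Agent.Lib.CharInd Cfsg.Agent.Lib.CharLin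
open scoped ComplexConjugate

section Gen

variable {G : Type*} [Group G] [Fintype G]

theorem isChar_sub_irr {χ ψ : G → ℂ} (hχ : IsCharacter G χ) (hψ : IsIrrCharacter G ψ)
    (h : classInner χ ψ ≠ 0) : IsCharacter G (χ - ψ) := by
  rw [isCharacter_iff]
  refine ⟨?_, ?_⟩
  · intro g x
    simp only [Pi.sub_apply]
    rw [classFunction_of_isCharacter hχ g x, classFunction_of_isIrrCharacter hψ g x]
  · intro φ hφ
    rw [classInner_sub_left]
    obtain ⟨n, hn⟩ := IsCharacter.classInner_irr_nat hχ hφ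
    by_cases he : ψ = φ
    · subst he
      obtain ⟨n, hn⟩ := IsCharacter.classInner_irr_nat hχ hψ
      rw [hn] at h ⊢
      rw [classInner_irr_self hψ]
      have hn0 : n ≠ 0 := by
        intro h0
        rw [h0] at h
        simp at h
      refine ⟨n - 1, ?_⟩
      rw [Nat.cast_sub (Nat.pos_of_ne_zero hn0)]
      simp
    · rw [classInner_irr hψ hφ, if_neg he, sub_zero]
      exact ⟨n, hn⟩

theorem dvd_of_mul_integral {n q : ℕ} (hq : q ≠ 0) (z : ℂ) (hz : IsIntegral ℤ z)
    (h : (n : ℂ) = q * z) : q ∣ n := by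
  have hqc : (q : ℂ) ≠ 0 := by exact_mod_cast hq
  have hz2 : z = (((n : ℚ) / (q : ℚ) : ℚ) : ℂ) := by
    push_cast
    rw [h]
    field_simp
  rw [hz2] at hz
  have h3 : IsIntegral ℤ ((n : ℚ) / (q : ℚ)) := by
    have h4 : ((((n : ℚ) / (q : ℚ) : ℚ) : ℂ)) = algebraMap ℚ ℂ ((n : ℚ) / (q : ℚ)) := rfl
    rw [h4] at hz
    exact (isIntegral_algebraMap_iff (algebraMap ℚ ℂ).injective).mp hz
  obtain ⟨k, hk⟩ := IsIntegrallyClosed.isIntegral_iff.mp h3
  have h5 : ((q : ℤ) * k : ℤ) = (n : ℤ) := by
    have hqq : (q : ℚ) ≠ 0 := by exact_mod_cast hq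
    have : ((k : ℚ)) = (n : ℚ) / (q : ℚ) := hk
    have h6 : ((q : ℚ) * (k : ℚ)) = (n : ℚ) := by
      rw [this]
      field_simp
    exact_mod_cast h6
  have : (q : ℤ) ∣ (n : ℤ) := ⟨k, h5.symm⟩
  exact_mod_cast this

end Gen

variable {F : Type*} [Field F]

/-- The character `γ ∘ det` of `GL₂`. -/
noncomputable def detChar (γ : MulChar F ℂ) : GL2 F → ℂ := fun g => γ (Matrix.det (g : M2 F))

noncomputable def detHom (γ : MulChar F ℂ) : GL2 F →* ℂˣ :=
  γ.toUnitHom.comp Matrix.GeneralLinearGroup.det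

theorem detHom_val (γ : MulChar F ℂ) (g : GL2 F) : ((detHom γ g : ℂˣ) : ℂ) = detChar γ g := by
  simp [detHom, detChar, MulChar.coe_toUnitHom]

theorem detChar_irr (γ : MulChar F ℂ) : IsIrrCharacter (GL2 F) (detChar γ) := by
  have h := isIrrCharacter_of_hom (detHom γ)
  have e : (fun g => ((detHom γ g : ℂˣ) : ℂ)) = detChar γ := funext (detHom_val γ)
  rwa [e] at h

theorem detChar_one (γ : MulChar F ℂ) : detChar γ 1 = 1 := by
  simp [detChar]

theorem detChar_tri (γ : MulChar F ℂ) (a d : Fˣ) (c : F) :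
    detChar γ (tri a d c) = γ (a : F) * γ (d : F) := by
  rw [detChar, det2]
  simp [map_mul]

section Fin

variable [Fintype F] [DecidableEq F]

/-- The character induced from the Borel subgroup. -/
noncomputable abbrev indL (α β : MulChar F ℂ) : GL2 F → ℂ :=
  indFun (Cfsg.upperTriangularGL 2 F) (lam α β)

theorem indL_isChar (α β : MulChar F ℂ) : IsCharacter (GL2 F) (indL α β) :=
  IsCharacter.ind _ (lam_isChar α β)

theorem indL_one (α β : MulChar F ℂ) : indL α β 1 = (Fintype.card F : ℂ) + 1 := by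
  rw [indL, ind_scalar α β 1 (by simp) (by simp) (by simp)]
  simp

theorem inner_indL (α β α' β' : MulChar F ℂ) :
    classInner (indL α β) (indL α' β') = (if α = α' then 1 else 0) * (if β = β' then 1 else 0) +
        (if α = β' then 1 else 0) * (if β = α' then 1 else 0) := by
  classical
  exact inner_ind_ind α β α' β'

theorem indL_irr {α β : MulChar F ℂ} (h : α ≠ β) : IsIrrCharacter (GL2 F) (indL α β) := by
  apply isIrrCharacter_of_norm_one (indL_isChar α β)
  rw [inner_indL]
  simp [h]

theorem indL_symm (α β : MulChar F ℂ) : indL α β = indL β α := by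
  rw [← sub_eq_zero]
  apply eq_zero_of_classInner_self_eq_zero
  rw [classInner_sub_left, classInner_sub_right, classInner_sub_right, inner_indL, inner_indL,
    inner_indL, inner_indL]
  by_cases h : α = β
  · subst h
    simp
  · have h' : β ≠ α := fun e => h e.symm
    simp [h, h']

theorem indL_inj {α β α' β' : MulChar F ℂ} (h : indL α β = indL α' β') :
    (α = α' ∧ β = β') ∨ (α = β' ∧ β = α') := by
  have h1 := inner_indL α β α β
  have h2 := inner_indL α β α' β'
  rw [← h] at h2
  by_contra hcon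
  push Not at hcon
  have h3 : classInner (indL α β) (indL α β) = 0 := by
    rw [h2]
    by_cases e1 : α = α'
    · by_cases e2 : β = β'
      · exact absurd e2 (hcon.1 e1)
      · rw [if_pos e1, if_neg e2]
        by_cases e3 : α = β'
        · by_cases e4 : β = α'
          · exact absurd e4 (hcon.2 e3)
          · simp [e4]
        · simp [e3]
    · rw [if_neg e1]
      by_cases e3 : α = β'
      · by_cases e4 : β = α'
        · exact absurd e4 (hcon.2 e3)
        · simp [e4]
      · simp [e3]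
  rw [h3] at h1
  by_cases e : α = β
  · subst e
    simp at h1
    norm_num at h1
  · have e' : β ≠ α := fun e2 => e e2.symm
    simp [e, e'] at h1

theorem inner_indL_det (α β γ : MulChar F ℂ) :
    classInner (indL α β) (detChar γ) = (if α = γ then 1 else 0) * (if β = γ then 1 else 0) := by
  classical
  rw [inner_ind_class _ _ _ (classFunction_of_isIrrCharacter (detChar_irr γ))]
  have h1 : ∀ a d : Fˣ, ∑ c : F, detChar γ (tri a d c) =
      (Fintype.card F : ℂ) * (γ (a : F) * γ (d : F)) := by
    intro a d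
    simp_rw [detChar_tri]
    simp
  simp_rw [h1, map_mul, Complex.conj_natCast]
  have h2 : ∀ a d : Fˣ, α (a : F) * β (d : F) * ((Fintype.card F : ℂ) * (conj (γ (a : F)) * conj (γ (d : F)))) =
      (Fintype.card F : ℂ) * ((α (a : F) * conj (γ (a : F))) * (β (d : F) * conj (γ (d : F)))) := by
    intro a d
    ring
  simp_rw [h2, ← Finset.mul_sum, ← Finset.sum_mul, mc_orth]
  have h3 := q_ne_zero (F := F)
  have h4 := q_sub_one_ne_zero (F := F)
  split_ifs <;> field_simp <;> ring

theorem inner_det_det (γ γ' : MulChar F ℂ) :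
    classInner (detChar γ) (detChar γ') = if γ = γ' then 1 else 0 := by
  classical
  rw [classInner_irr (detChar_irr γ) (detChar_irr γ')]
  by_cases h : γ = γ'
  · simp [h]
  · rw [if_neg h, if_neg]
    intro e
    apply h
    ext a
    have := congrFun e (Matrix.GeneralLinearGroup.mkOfDetNeZero (!![(a : F), 0; 0, 1] : M2 F)
      (by rw [det2]; simp))
    simpa [detChar, det2] using this

/-- The Steinberg characters. -/
noncomputable def stChar (γ : MulChar F ℂ) : GL2 F → ℂ := indL γ γ - detChar γ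

theorem stChar_isChar (γ : MulChar F ℂ) : IsCharacter (GL2 F) (stChar γ) := by
  apply isChar_sub_irr (indL_isChar γ γ) (detChar_irr γ)
  rw [inner_indL_det]
  simp

theorem stChar_irr (γ : MulChar F ℂ) : IsIrrCharacter (GL2 F) (stChar γ) := by
  apply isIrrCharacter_of_norm_one (stChar_isChar γ)
  rw [stChar, classInner_sub_left, classInner_sub_right, classInner_sub_right, inner_indL,
    inner_indL_det, inner_det_det, ← classInner_conj_symm (indL γ γ) (detChar γ), inner_indL_det]
  simp

theorem stChar_one (γ : MulChar F ℂ) : stChar γ 1 = (Fintype.card F : ℂ) := by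
  simp [stChar, indL_one, detChar_one]

/-- The classification of irreducible characters of `GL₂` by Harish-Chandra series. -/
theorem classify (χ : GL2 F → ℂ) (hχ : IsIrrCharacter (GL2 F) χ) :
    (∃ γ, χ = detChar γ) ∨ (∃ γ, χ = stChar γ) ∨ (∃ α β, α ≠ β ∧ χ = indL α β) ∨
      (∀ α β, classInner (indL α β) χ = 0) := by
  classical
  by_cases h : ∀ α β, classInner (indL α β) χ = 0
  · exact Or.inr (Or.inr (Or.inr h))
  · push Not at h
    obtain ⟨α, β, hne⟩ := h
    by_cases e : α = β
    · subst e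
      have he : indL α α = detChar α + stChar α := by
        simp [stChar]
      rw [he, classInner_add_left] at hne
      by_cases h1 : detChar α = χ
      · exact Or.inl ⟨α, h1.symm⟩
      · by_cases h2 : stChar α = χ
        · exact Or.inr (Or.inl ⟨α, h2.symm⟩)
        · rw [classInner_irr (detChar_irr α) hχ, if_neg h1, classInner_irr (stChar_irr α) hχ,
            if_neg h2] at hne
          simp at hne
    · rw [classInner_irr (indL_irr e) hχ] at hne
      by_cases h3 : indL α β = χ
      · exact Or.inr (Or.inr (Or.inl ⟨α, β, e, h3.symm⟩))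
      · rw [if_neg h3] at hne
        exact absurd rfl hne

/-- Sum of all multiplicative characters at a unit. -/
theorem mc_sum [Fintype (MulChar F ℂ)] (a : Fˣ) :
    ∑ α : MulChar F ℂ, α (a : F) = if a = 1 then (Fintype.card F : ℂ) - 1 else 0 := by
  split_ifs with h
  · subst h
    simp only [Units.val_one, map_one, Finset.sum_const, Finset.card_univ, nsmul_eq_mul, mul_one]
    have h1 := MulChar.card_eq_card_units_of_hasEnoughRootsOfUnity F ℂ
    rw [Nat.card_eq_fintype_card] at h1
    rw [h1, card_units_C]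
  · obtain ⟨χ₀, hχ₀⟩ := MulChar.exists_apply_ne_one_of_hasEnoughRootsOfUnity F ℂ (a := (a : F))
      (fun e => h (Units.ext e))
    have h1 : χ₀ (a : F) * ∑ α : MulChar F ℂ, α (a : F) = ∑ α : MulChar F ℂ, α (a : F) := by
      rw [Finset.mul_sum]
      rw [← Equiv.sum_comp (Equiv.mulLeft χ₀) (fun α : MulChar F ℂ => α (a : F))]
      apply Finset.sum_congr rfl
      intro α _
      simp [MulChar.mul_apply]
    have h2 : (χ₀ (a : F) - 1) * ∑ α : MulChar F ℂ, α (a : F) = 0 := by
      rw [sub_mul, h1, one_mul, sub_self]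
    exact (mul_eq_zero.mp h2).resolve_left (sub_ne_zero.mpr hχ₀)

/-- Swapping a fourfold sum. -/
theorem sum4_swap {A B C D : Type*} [Fintype A] [Fintype B] [Fintype C] [Fintype D]
    (g : A → B → C → D → ℂ) :
    ∑ α, ∑ β, ∑ a, ∑ d, g α β a d = ∑ a, ∑ d, ∑ α, ∑ β, g α β a d := by
  calc ∑ α, ∑ β, ∑ a, ∑ d, g α β a d = ∑ α, ∑ a, ∑ β, ∑ d, g α β a d :=
        Finset.sum_congr rfl (fun α _ => Finset.sum_comm)
    _ = ∑ a, ∑ α, ∑ β, ∑ d, g α β a d := Finset.sum_comm
    _ = ∑ a, ∑ α, ∑ d, ∑ β, g α β a d :=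
        Finset.sum_congr rfl (fun a _ => Finset.sum_congr rfl (fun α _ => Finset.sum_comm))
    _ = ∑ a, ∑ d, ∑ α, ∑ β, g α β a d := Finset.sum_congr rfl (fun a _ => Finset.sum_comm)

/-- A cuspidal function vanishes on average over the unipotent radical. -/
theorem cusp_sum (χ : GL2 F → ℂ) (hχ : IsClassFunction (GL2 F) χ)
    (h : ∀ α β, classInner (indL α β) χ = 0) : ∑ c : F, χ (tri 1 1 c) = 0 := by
  classical
  haveI : Fintype (MulChar F ℂ) := Fintype.ofFinite _
  have h1 : ∑ α : MulChar F ℂ, ∑ β : MulChar F ℂ, classInner (indL α β) χ = 0 := by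
    simp [h]
  simp_rw [indL, inner_ind_class _ _ _ hχ, ← Finset.mul_sum] at h1
  have h3 := q_ne_zero (F := F)
  have h4 := q_sub_one_ne_zero (F := F)
  have h5 : ∑ α : MulChar F ℂ, ∑ β : MulChar F ℂ, ∑ a : Fˣ, ∑ d : Fˣ,
      α (a : F) * β (d : F) * conj (∑ c : F, χ (tri a d c)) =
      ((Fintype.card F : ℂ) - 1) ^ 2 * conj (∑ c : F, χ (tri 1 1 c)) := by
    rw [sum4_swap]
    have e1 : ∀ a d : Fˣ, ∑ α : MulChar F ℂ, ∑ β : MulChar F ℂ,
        α (a : F) * β (d : F) * conj (∑ c : F, χ (tri a d c)) =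
        (∑ α : MulChar F ℂ, α (a : F)) * (∑ β : MulChar F ℂ, β (d : F)) * conj (∑ c : F, χ (tri a d c)) := by
      intro a d
      rw [Finset.sum_mul_sum, Finset.sum_mul]
      apply Finset.sum_congr rfl
      intro α _
      rw [Finset.sum_mul]
    simp_rw [e1, mc_sum]
    rw [Finset.sum_eq_single (1 : Fˣ)]
    · rw [Finset.sum_eq_single (1 : Fˣ)]
      · simp only [if_true]
        ring
      · intro d _ hd
        simp [hd]
      · intro h'
        exact absurd (Finset.mem_univ _) h'
    · intro a _ ha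
      apply Finset.sum_eq_zero
      intro d _
      simp [ha]
    · intro h'
      exact absurd (Finset.mem_univ _) h'
  rw [h5] at h1
  have h6 := (mul_eq_zero.mp h1).resolve_left (inv_ne_zero (mul_ne_zero (pow_ne_zero _ h4) h3))
  have h7 := (mul_eq_zero.mp h6).resolve_left (pow_ne_zero _ h4)
  exact (map_eq_zero _).mp h7

end Fin

end Cfsg.Agent.Lib.LdGL3
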