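import Mathlib
import Cfsg.Agent.Lib.LdGL3

set_option autoImplicit false
set_option linter.unusedSectionVars false
set_option linter.unusedSimpArgs false
set_option linter.unusedVariables false

/-! Counting the irreducible characters of `GL₂`. -/

namespace Cfsg.Agent.Lib.LdGL4

open Matrix Cfsg Cfsg.Agent.Lib.H1GL2 Cfsg.Agent.Lib.H1GL2C Cfsg.Agent.Lib.LdGL1 Cfsg.Agent.Lib.LdGL2
open Cfsg.Agent.Lib.LdGL3
open Cfsg.Agent.Lib.CharBasic Cfsg.Agent.Lib.CharOrth Cfsg.Agent.Lib.CharAlg Cfsg.Agent.Lib.CharInd Cfsg.Agent.Lib.CharLin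
open scoped ComplexConjugate

variable {F : Type*} [Field F] [Fintype F]

noncomputable instance instFintypeMC : Fintype (MulChar F ℂ) := Fintype.ofFinite _

theorem card_MC : Fintype.card (MulChar F ℂ) = Fintype.card F - 1 := by
  classical
  have h1 := MulChar.card_eq_card_units_of_hasEnoughRootsOfUnity F ℂ
  rw [Nat.card_eq_fintype_card, Nat.card_eq_fintype_card, Fintype.card_units] at h1
  exact h1

abbrev Irr2 (F : Type*) [Field F] := IrrCharacter (GL2 F)

abbrev OffD (F : Type*) [Field F] := {p : MulChar F ℂ × MulChar F ℂ // p.1 ≠ p.2}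

theorem q_two_le : 2 ≤ Fintype.card F := Fintype.one_lt_card

theorem q_C_ne_one : (Fintype.card F : ℂ) ≠ 1 := by
  have h : 1 < Fintype.card F := Fintype.one_lt_card
  intro e
  have : (Fintype.card F : ℂ) = ((1 : ℕ) : ℂ) := by simpa using e
  have := Nat.cast_injective this
  omega

section Fin

variable [DecidableEq F]

noncomputable def detI (γ : MulChar F ℂ) : Irr2 F := ⟨detChar γ, detChar_irr γ⟩
noncomputable def stI (γ : MulChar F ℂ) : Irr2 F := ⟨stChar γ, stChar_irr γ⟩
noncomputable def indI (p : OffD F) : Irr2 F := ⟨indL p.1.1 p.1.2, indL_irr p.2⟩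

theorem detI_inj : Function.Injective (detI (F := F)) := by
  intro γ γ' h
  have h1 := inner_det_det γ γ'
  have h2 : detChar γ = detChar γ' := congrArg Subtype.val h
  rw [← h2, classInner_irr_self (detChar_irr γ)] at h1
  by_contra hne
  rw [if_neg hne] at h1
  exact one_ne_zero h1

theorem inner_st_st (γ γ' : MulChar F ℂ) :
    classInner (stChar γ) (stChar γ') = if γ = γ' then 1 else 0 := by
  rw [stChar, stChar, classInner_sub_left, classInner_sub_right, classInner_sub_right, inner_indL,
    inner_indL_det, inner_det_det, ← classInner_conj_symm (indL γ' γ') (detChar γ), inner_indL_det]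
  by_cases h : γ = γ'
  · subst h
    simp
  · have h' : γ' ≠ γ := fun e => h e.symm
    simp [h, h']

theorem stI_inj : Function.Injective (stI (F := F)) := by
  intro γ γ' h
  have h1 := inner_st_st γ γ'
  have h2 : stChar γ = stChar γ' := congrArg Subtype.val h
  rw [← h2, classInner_irr_self (stChar_irr γ)] at h1
  by_contra hne
  rw [if_neg hne] at h1
  exact one_ne_zero h1

/-- The cuspidal characters. -/
noncomputable def cuspF : Finset (Irr2 F) := by
  classical
  exact Finset.univ.filter (fun χ : Irr2 F => ∀ α β, classInner (indL α β) (χ : GL2 F → ℂ) = 0)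

theorem mem_cuspF (χ : Irr2 F) : χ ∈ cuspF (F := F) ↔ ∀ α β, classInner (indL α β) (χ : GL2 F → ℂ) = 0 := by
  classical
  simp [cuspF]

noncomputable def detF : Finset (Irr2 F) := by
  classical
  exact Finset.univ.image detI
noncomputable def stF : Finset (Irr2 F) := by
  classical
  exact Finset.univ.image stI
noncomputable def indF : Finset (Irr2 F) := by
  classical
  exact Finset.univ.image indI

theorem detF_val {χ : Irr2 F} (h : χ ∈ detF (F := F)) : (χ : GL2 F → ℂ) 1 = 1 := by
  classical
  simp only [detF, Finset.mem_image] at h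
  obtain ⟨γ, _, rfl⟩ := h
  exact detChar_one γ

theorem stF_val {χ : Irr2 F} (h : χ ∈ stF (F := F)) : (χ : GL2 F → ℂ) 1 = (Fintype.card F : ℂ) := by
  classical
  simp only [stF, Finset.mem_image] at h
  obtain ⟨γ, _, rfl⟩ := h
  exact stChar_one γ

theorem indF_val {χ : Irr2 F} (h : χ ∈ indF (F := F)) : (χ : GL2 F → ℂ) 1 = (Fintype.card F : ℂ) + 1 := by
  classical
  simp only [indF, Finset.mem_image] at h
  obtain ⟨γ, _, rfl⟩ := h
  exact indL_one _ _

theorem cusp_not_det {χ : Irr2 F} (h : χ ∈ cuspF (F := F)) : χ ∉ detF (F := F) := by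
  classical
  intro h2
  simp only [detF, Finset.mem_image] at h2
  obtain ⟨γ, _, rfl⟩ := h2
  have := (mem_cuspF _).mp h γ γ
  rw [detI, inner_indL_det] at this
  simp at this

theorem cusp_not_st {χ : Irr2 F} (h : χ ∈ cuspF (F := F)) : χ ∉ stF (F := F) := by
  classical
  intro h2
  simp only [stF, Finset.mem_image] at h2
  obtain ⟨γ, _, rfl⟩ := h2
  have := (mem_cuspF _).mp h γ γ
  simp only [stI] at this
  rw [stChar, classInner_sub_right, inner_indL, inner_indL_det] at this
  simp at this

theorem cusp_not_ind {χ : Irr2 F} (h : χ ∈ cuspF (F := F)) : χ ∉ indF (F := F) := by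
  classical
  intro h2
  simp only [indF, Finset.mem_image] at h2
  obtain ⟨p, _, rfl⟩ := h2
  have := (mem_cuspF _).mp h p.1.1 p.1.2
  simp only [indI] at this
  rw [inner_indL] at this
  simp [p.2] at this

theorem disj1 : Disjoint (detF (F := F)) (stF (F := F)) := by
  rw [Finset.disjoint_left]
  intro χ h1 h2
  have h3 := detF_val h1
  rw [stF_val h2] at h3
  exact q_C_ne_one h3

theorem disj2 : Disjoint (detF (F := F) ∪ stF (F := F)) (indF (F := F)) := by
  classical
  rw [Finset.disjoint_left]
  intro χ h1 h2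
  have h3 := indF_val h2
  rcases Finset.mem_union.mp h1 with h | h
  · rw [detF_val h] at h3
    have h4 := q_ne_zero (F := F)
    apply h4
    linear_combination -h3
  · rw [stF_val h] at h3
    simpa using h3

theorem disj3 : Disjoint (detF (F := F) ∪ stF (F := F) ∪ indF (F := F)) (cuspF (F := F)) := by
  classical
  rw [Finset.disjoint_left]
  intro χ h1 h2
  rcases Finset.mem_union.mp h1 with h | h
  · rcases Finset.mem_union.mp h with h | h
    · exact cusp_not_det h2 h
    · exact cusp_not_st h2 h
  · exact cusp_not_ind h2 h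

theorem univ_eq : (Finset.univ : Finset (Irr2 F)) = detF ∪ stF ∪ indF ∪ cuspF := by
  classical
  symm
  rw [Finset.eq_univ_iff_forall]
  intro χ
  simp only [Finset.mem_union]
  rcases classify (χ : GL2 F → ℂ) χ.2 with ⟨γ, h⟩ | ⟨γ, h⟩ | ⟨α, β, hne, h⟩ | h
  · left; left; left
    simp only [detF, Finset.mem_image]
    exact ⟨γ, Finset.mem_univ _, Subtype.ext h.symm⟩
  · left; left; right
    simp only [stF, Finset.mem_image]
    exact ⟨γ, Finset.mem_univ _, Subtype.ext h.symm⟩
  · left; right
    simp only [indF, Finset.mem_image]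
    exact ⟨⟨(α, β), hne⟩, Finset.mem_univ _, Subtype.ext h.symm⟩
  · right
    exact (mem_cuspF χ).mpr h

theorem card_detF : (detF (F := F)).card = Fintype.card F - 1 := by
  classical
  rw [detF, Finset.card_image_of_injective _ detI_inj, Finset.card_univ, card_MC]

theorem card_stF : (stF (F := F)).card = Fintype.card F - 1 := by
  classical
  rw [stF, Finset.card_image_of_injective _ stI_inj, Finset.card_univ, card_MC]

/-- The fibres of `indI` have two elements. -/
theorem fiber_indI (p : OffD F) :
    (Finset.univ.filter (fun r : OffD F => indI r = indI p)).card = 2 := by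
  classical
  have hswap : (p.1.2, p.1.1) ≠ p.1 := by
    intro e
    exact p.2 (congrArg Prod.fst e).symm
  rw [Finset.card_eq_two]
  refine ⟨p, ⟨(p.1.2, p.1.1), fun e => p.2 e.symm⟩, ?_, ?_⟩
  · intro e
    exact hswap (congrArg Subtype.val e).symm
  · ext r
    simp only [Finset.mem_filter, Finset.mem_univ, true_and, Finset.mem_insert, Finset.mem_singleton]
    constructor
    · intro h
      have h2 : indL r.1.1 r.1.2 = indL p.1.1 p.1.2 := congrArg Subtype.val h
      rcases indL_inj h2 with ⟨e1, e2⟩ | ⟨e1, e2⟩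
      · left
        exact Subtype.ext (Prod.ext e1 e2)
      · right
        exact Subtype.ext (Prod.ext e1 e2)
    · rintro (rfl | rfl)
      · rfl
      · apply Subtype.ext
        exact indL_symm _ _

theorem card_OffD : Fintype.card (OffD F) = (Fintype.card F - 1) * (Fintype.card F - 2) := by
  classical
  have h1 : Fintype.card (OffD F) = (Finset.univ : Finset (MulChar F ℂ)).offDiag.card := by
    rw [Fintype.card_subtype]
    congr 1
    ext p
    simp
  rw [h1, Finset.offDiag_card, Finset.card_univ, card_MC]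
  have hq := q_two_le (F := F)
  obtain ⟨n, hn⟩ : ∃ n, Fintype.card F = n + 2 := ⟨Fintype.card F - 2, by omega⟩
  rw [hn]
  simp only [Nat.add_sub_cancel, show n + 2 - 1 = n + 1 by omega]
  have : (n + 1) * (n + 1) - (n + 1) = (n + 1) * n := by
    rw [Nat.mul_succ (n + 1) n]
    omega
  exact this

theorem two_card_indF : 2 * (indF (F := F)).card = (Fintype.card F - 1) * (Fintype.card F - 2) := by
  classical
  rw [← card_OffD, ← Finset.card_univ, Finset.card_eq_sum_card_image indI Finset.univ]
  rw [indF, mul_comm, ← smul_eq_mul, ← Finset.sum_const]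
  apply Finset.sum_congr rfl
  intro χ hχ
  obtain ⟨p, _, rfl⟩ := Finset.mem_image.mp hχ
  exact (fiber_indI p).symm

/-- Sums over `indF`. -/
theorem sum_indF (f : Irr2 F → ℂ) :
    2 * ∑ χ ∈ indF (F := F), f χ = ∑ p : OffD F, f (indI p) := by
  classical
  rw [Finset.sum_comp f indI]
  rw [Finset.mul_sum]
  apply Finset.sum_congr
  · rfl
  · intro χ hχ
    obtain ⟨p, _, rfl⟩ := Finset.mem_image.mp hχ
    rw [fiber_indI p]
    simp

/-- The partition of the irreducible characters. -/
theorem sum_part (f : Irr2 F → ℂ) :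
    ∑ χ, f χ = ∑ γ, f (detI γ) + ∑ γ, f (stI γ) + ∑ χ ∈ indF, f χ + ∑ χ ∈ cuspF, f χ := by
  classical
  rw [univ_eq, Finset.sum_union disj3, Finset.sum_union disj2, Finset.sum_union disj1]
  rw [detF, stF, Finset.sum_image (fun a _ b _ h => detI_inj h), Finset.sum_image (fun a _ b _ h => stI_inj h)]

theorem card_irr2 : Fintype.card (Irr2 F) = Fintype.card F ^ 2 - 1 := by
  have h := card_irr (G := GL2 F)
  rw [Cfsg.Agent.Lib.H1SL2C.card_classes_gl2, Nat.card_eq_fintype_card] at h
  exact h

theorem card_GL2 : Nat.card (GL2 F) = (Fintype.card F ^ 2 - 1) * (Fintype.card F ^ 2 - Fintype.card F) := by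
  rw [Matrix.card_GL_field]
  simp [Fin.prod_univ_two]

end Fin

end Cfsg.Agent.Lib.LdGL4
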