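import Mathlib
import Cfsg.Agent.Lib.LdGL4

set_option autoImplicit false
set_option linter.unusedSectionVars false
set_option linter.unusedSimpArgs false
set_option linter.unusedVariables false

/-! The degree of the cuspidal characters of `GL₂`. -/

namespace Cfsg.Agent.Lib.LdGL5

open Matrix Cfsg Cfsg.Agent.Lib.H1GL2 Cfsg.Agent.Lib.H1GL2C Cfsg.Agent.Lib.LdGL1 Cfsg.Agent.Lib.LdGL2
open Cfsg.Agent.Lib.LdGL3 Cfsg.Agent.Lib.LdGL4
open Cfsg.Agent.Lib.CharBasic Cfsg.Agent.Lib.CharOrth Cfsg.Agent.Lib.CharAlg Cfsg.Agent.Lib.CharInd Cfsg.Agent.Lib.CharLin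
open scoped ComplexConjugate

variable {F : Type*} [Field F] [Fintype F]

theorem tri_conj (c : F) (hc : c ≠ 0) : IsConj (tri (1 : Fˣ) 1 1) (tri (1 : Fˣ) 1 c) := by
  rw [isConj_iff]
  refine ⟨tri (Units.mk0 c hc) 1 0, ?_⟩
  rw [mul_inv_eq_iff_eq_mul]
  apply gl_ext <;> simp

variable [DecidableEq F]

theorem tri_zero : tri (1 : Fˣ) 1 (0 : F) = 1 := by
  apply gl_ext <;> simp

/-- The value of a cuspidal character at a transvection. -/
theorem cusp_val {χ : Irr2 F} (h : χ ∈ cuspF (F := F)) :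
    (χ : GL2 F → ℂ) 1 + ((Fintype.card F : ℂ) - 1) * (χ : GL2 F → ℂ) (tri (1 : Fˣ) 1 1) = 0 := by
  have h1 := cusp_sum (χ : GL2 F → ℂ) (classFunction_of_isIrrCharacter χ.2) ((mem_cuspF χ).mp h)
  rw [← Finset.add_sum_erase _ _ (Finset.mem_univ (0 : F)), tri_zero] at h1
  have h2 : ∀ c ∈ (Finset.univ : Finset F).erase 0, (χ : GL2 F → ℂ) (tri (1 : Fˣ) 1 c) =
      (χ : GL2 F → ℂ) (tri (1 : Fˣ) 1 1) := by
    intro c hc
    obtain ⟨x, hx⟩ := isConj_iff.mp (tri_conj c (Finset.ne_of_mem_erase hc))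
    rw [← hx]
    exact classFunction_of_isIrrCharacter χ.2 _ x
  rw [Finset.sum_congr rfl h2, Finset.sum_const, Finset.card_erase_of_mem (Finset.mem_univ _),
    Finset.card_univ, nsmul_eq_mul] at h1
  have hq : 1 ≤ Fintype.card F := Fintype.card_pos
  rw [Nat.cast_sub hq] at h1
  simpa using h1

/-- Degrees as natural numbers. -/
theorem exists_deg (χ : Irr2 F) : ∃ n : ℕ, 0 < n ∧ (χ : GL2 F → ℂ) 1 = n :=
  IsIrrCharacter.map_one_pos χ.2

theorem cusp_dvd {χ : Irr2 F} (h : χ ∈ cuspF (F := F)) {n : ℕ} (hn : (χ : GL2 F → ℂ) 1 = n) :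
    (Fintype.card F - 1) ∣ n := by
  have hq : 2 ≤ Fintype.card F := q_two_le
  have h1 := cusp_val h
  rw [hn] at h1
  apply dvd_of_mul_integral (by omega) (-(χ : GL2 F → ℂ) (tri (1 : Fˣ) 1 1))
  · exact (IsCharacter.isIntegral (IsIrrCharacter.isCharacter χ.2) _).neg
  · rw [Nat.cast_sub (by omega)]
    push_cast
    linear_combination h1

/-- The number of cuspidal characters and the sum of the squares of their degrees. -/
theorem cusp_card_eq : (Fintype.card F ^ 2 - 1 : ℕ) = (Fintype.card F - 1) + (Fintype.card F - 1) +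
    (indF (F := F)).card + (cuspF (F := F)).card := by
  classical
  have h1 := card_irr2 (F := F)
  rw [← h1, ← Finset.card_univ, univ_eq, Finset.card_union_of_disjoint disj3,
    Finset.card_union_of_disjoint disj2, Finset.card_union_of_disjoint disj1, card_detF, card_stF]

theorem cusp_sum_sq : ∑ χ ∈ cuspF (F := F), (χ : GL2 F → ℂ) 1 ^ 2 =
    ((cuspF (F := F)).card : ℂ) * ((Fintype.card F : ℂ) - 1) ^ 2 := by
  have hq : 1 ≤ Fintype.card F := Fintype.card_pos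
  have hq2 : 2 ≤ Fintype.card F := q_two_le
  have E1 := sum_part (F := F) (fun χ => (χ : GL2 F → ℂ) 1 ^ 2)
  have h0 : ∑ χ : Irr2 F, (χ : GL2 F → ℂ) 1 ^ 2 = (Nat.card (GL2 F) : ℂ) := sum_degree_sq
  rw [h0, card_GL2] at E1
  have hdet : ∑ γ : MulChar F ℂ, ((detI γ : Irr2 F) : GL2 F → ℂ) 1 ^ 2 = (Fintype.card F : ℂ) - 1 := by
    simp only [detI, detChar_one, one_pow, Finset.sum_const, Finset.card_univ, card_MC, nsmul_eq_mul,
      mul_one]
    rw [Nat.cast_sub hq]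
    simp
  have hst : ∑ γ : MulChar F ℂ, ((stI γ : Irr2 F) : GL2 F → ℂ) 1 ^ 2 =
      ((Fintype.card F : ℂ) - 1) * (Fintype.card F : ℂ) ^ 2 := by
    simp only [stI, stChar_one, Finset.sum_const, Finset.card_univ, card_MC, nsmul_eq_mul]
    rw [Nat.cast_sub hq]
    simp
  have hind : ∑ χ ∈ indF (F := F), (χ : GL2 F → ℂ) 1 ^ 2 =
      ((indF (F := F)).card : ℂ) * ((Fintype.card F : ℂ) + 1) ^ 2 := by
    rw [Finset.sum_congr rfl (fun χ hχ => by rw [indF_val hχ])]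
    simp
  rw [hdet, hst, hind] at E1
  have E2 : ((Fintype.card F ^ 2 - 1 : ℕ) : ℂ) = _ := congrArg (Nat.cast : ℕ → ℂ) (cusp_card_eq (F := F))
  have hq3 : 1 ≤ Fintype.card F ^ 2 := Nat.one_le_pow _ _ (by omega)
  have hq4 : Fintype.card F ≤ Fintype.card F ^ 2 := Nat.le_self_pow (by norm_num) _
  push_cast [Nat.cast_sub hq, Nat.cast_sub hq3, Nat.cast_sub hq4] at E1 E2
  have E3 : ((2 * (indF (F := F)).card : ℕ) : ℂ) = _ := congrArg (Nat.cast : ℕ → ℂ) (two_card_indF (F := F))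
  push_cast [Nat.cast_sub hq, Nat.cast_sub hq2] at E3
  linear_combination (-1 : ℂ) * E1 + ((Fintype.card F : ℂ) - 1) ^ 2 * E2 + (-2 * (Fintype.card F : ℂ)) * E3

/-- The cuspidal characters of `GL₂` have degree `q - 1`. -/
theorem cusp_deg {χ : Irr2 F} (h : χ ∈ cuspF (F := F)) : (χ : GL2 F → ℂ) 1 = (Fintype.card F : ℂ) - 1 := by
  classical
  choose d hd0 hd using exists_deg (F := F)
  have hq : 2 ≤ Fintype.card F := q_two_le
  have hle : ∀ ψ ∈ cuspF (F := F), (Fintype.card F - 1) ^ 2 ≤ d ψ ^ 2 := by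
    intro ψ hψ
    exact Nat.pow_le_pow_left (Nat.le_of_dvd (hd0 ψ) (cusp_dvd hψ (hd ψ))) 2
  have hs := cusp_sum_sq (F := F)
  simp_rw [hd] at hs
  have hs2 : ∑ ψ ∈ cuspF (F := F), (Fintype.card F - 1) ^ 2 = ∑ ψ ∈ cuspF (F := F), d ψ ^ 2 := by
    rw [Finset.sum_const, smul_eq_mul]
    have : ((∑ ψ ∈ cuspF (F := F), d ψ ^ 2 : ℕ) : ℂ) = (((cuspF (F := F)).card * (Fintype.card F - 1) ^ 2 : ℕ) : ℂ) := by
      push_cast [Nat.cast_sub (show 1 ≤ Fintype.card F by omega)]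
      exact hs
    exact (Nat.cast_injective this).symm
  have h3 := (Finset.sum_eq_sum_iff_of_le hle).mp hs2 χ h
  have h4 : Fintype.card F - 1 = d χ := Nat.pow_left_injective (n := 2) (by norm_num) h3
  rw [hd, ← h4, Nat.cast_sub (by omega)]
  simp

theorem two_card_cuspF : 2 * (cuspF (F := F)).card = Fintype.card F * (Fintype.card F - 1) := by
  have h1 := cusp_card_eq (F := F)
  have h2 := two_card_indF (F := F)
  have hq : 2 ≤ Fintype.card F := q_two_le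
  obtain ⟨n, hn⟩ : ∃ n, Fintype.card F = n + 2 := ⟨Fintype.card F - 2, by omega⟩
  rw [hn] at h1 h2 ⊢
  simp only [Nat.add_sub_cancel, show n + 2 - 1 = n + 1 by omega] at h1 h2 ⊢
  have h3 : (n + 2) ^ 2 - 1 = n ^ 2 + 4 * n + 3 := by
    have : (n + 2) ^ 2 = n ^ 2 + 4 * n + 3 + 1 := by ring
    omega
  rw [h3] at h1
  nlinarith

end Cfsg.Agent.Lib.LdGL5
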