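import Mathlib
import Cfsg.Agent.Lib.LdGL5

set_option autoImplicit false
set_option linter.unusedSectionVars false
set_option linter.unusedSimpArgs false
set_option linter.unusedVariables false

/-! The character table of `GL₂`. -/

namespace Cfsg.Agent.Lib.LdGL6

open Matrix Cfsg Cfsg.Agent.Lib.H1GL2 Cfsg.Agent.Lib.H1GL2C Cfsg.Agent.Lib.LdGL1 Cfsg.Agent.Lib.LdGL2
open Cfsg.Agent.Lib.LdGL3 Cfsg.Agent.Lib.LdGL4 Cfsg.Agent.Lib.LdGL5
open Cfsg.Agent.Lib.CharBasic Cfsg.Agent.Lib.CharOrth Cfsg.Agent.Lib.CharAlg Cfsg.Agent.Lib.CharInd Cfsg.Agent.Lib.CharLin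
open scoped ComplexConjugate

variable {F : Type*} [Field F] [Fintype F] [DecidableEq F]

theorem mem_parts (χ : Irr2 F) :
    χ ∈ detF (F := F) ∨ χ ∈ stF (F := F) ∨ χ ∈ indF (F := F) ∨ χ ∈ cuspF (F := F) := by
  classical
  have h := Finset.mem_univ χ
  rw [univ_eq] at h
  simp only [Finset.mem_union] at h
  tauto

theorem q_C_inj {a b : ℕ} (h : (a : ℂ) = b) : a = b := Nat.cast_injective h

theorem mem_st_of_deg {χ : Irr2 F} (h : (χ : GL2 F → ℂ) 1 = (Fintype.card F : ℂ)) : χ ∈ stF (F := F) := by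
  rcases mem_parts χ with h1 | h1 | h1 | h1
  · rw [detF_val h1] at h
    exact absurd h.symm q_C_ne_one
  · exact h1
  · rw [indF_val h1] at h
    simp at h
  · rw [cusp_deg h1] at h
    simp at h

theorem mem_ind_of_deg {χ : Irr2 F} (h : (χ : GL2 F → ℂ) 1 = (Fintype.card F : ℂ) + 1) : χ ∈ indF (F := F) := by
  rcases mem_parts χ with h1 | h1 | h1 | h1
  · rw [detF_val h1] at h
    exfalso
    apply q_ne_zero (F := F)
    linear_combination -h
  · rw [stF_val h1] at h
    simp at h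
  · exact h1
  · rw [cusp_deg h1] at h
    exfalso
    have : (2 : ℂ) = 0 := by linear_combination -h
    norm_num at this

theorem mem_det_of_deg (hq : 3 ≤ Fintype.card F) {χ : Irr2 F} (h : (χ : GL2 F → ℂ) 1 = 1) : χ ∈ detF (F := F) := by
  rcases mem_parts χ with h1 | h1 | h1 | h1
  · exact h1
  · rw [stF_val h1] at h
    exact absurd h q_C_ne_one
  · rw [indF_val h1] at h
    exfalso
    apply q_ne_zero (F := F)
    linear_combination h
  · rw [cusp_deg h1] at h
    exfalso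
    have : (Fintype.card F : ℂ) = ((2 : ℕ) : ℂ) := by push_cast; linear_combination h
    have := q_C_inj this
    omega

theorem mem_cusp_of_deg (hq : 3 ≤ Fintype.card F) {χ : Irr2 F} (h : (χ : GL2 F → ℂ) 1 = (Fintype.card F : ℂ) - 1) :
    χ ∈ cuspF (F := F) := by
  rcases mem_parts χ with h1 | h1 | h1 | h1
  · rw [detF_val h1] at h
    exfalso
    have : (Fintype.card F : ℂ) = ((2 : ℕ) : ℂ) := by push_cast; linear_combination -h
    have := q_C_inj this
    omega
  · rw [stF_val h1] at h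
    exfalso
    have : (1 : ℂ) = 0 := by linear_combination h
    norm_num at this
  · rw [indF_val h1] at h
    exfalso
    have : (2 : ℂ) = 0 := by linear_combination h
    norm_num at this
  · exact h1

/-! ### Values on diagonal elements -/

theorem gl_diag_ne (g : GL2 F) (h01 : (g : M2 F) 0 1 = 0) (h10 : (g : M2 F) 1 0 = 0) :
    (g : M2 F) 0 0 ≠ 0 ∧ (g : M2 F) 1 1 ≠ 0 := by
  have hd := gl_det_ne g
  rw [det2, h01, zero_mul, sub_zero] at hd
  exact ⟨left_ne_zero_of_mul hd, right_ne_zero_of_mul hd⟩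

theorem det_diag (g : GL2 F) (h10 : (g : M2 F) 1 0 = 0) :
    Matrix.det (g : M2 F) = (g : M2 F) 0 0 * (g : M2 F) 1 1 := by
  rw [det2, h10, mul_zero, sub_zero]

theorem st_val_ne (γ : MulChar F ℂ) (g : GL2 F) (h10 : (g : M2 F) 1 0 = 0)
    (hne : (g : M2 F) 0 0 ≠ (g : M2 F) 1 1) :
    stChar γ g = γ ((g : M2 F) 0 0) * γ ((g : M2 F) 1 1) := by
  simp only [stChar, Pi.sub_apply, indL]
  rw [ind_tri_ne γ γ g h10 hne, detChar, det_diag g h10, map_mul]
  ring

theorem st_val_noeig (γ : MulChar F ℂ) (g : GL2 F)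
    (hg : ∀ (c : F) (v : Fin 2 → F), v ≠ 0 → (g : M2 F).mulVec v ≠ c • v) :
    stChar γ g = - γ (Matrix.det (g : M2 F)) := by
  simp only [stChar, Pi.sub_apply, indL]
  rw [ind_noeig γ γ g hg, detChar]
  ring

theorem mc_mul_conj (γ : MulChar F ℂ) {a : F} (ha : a ≠ 0) : γ a * conj (γ a) = 1 := by
  have h1 : conj (γ a) = γ⁻¹ a := MulChar.star_apply' γ a
  rw [h1, MulChar.inv_apply_eq_inv']
  exact mul_inv_cancel₀ (IsUnit.map γ (isUnit_iff_ne_zero.mpr ha)).ne_zero

/-- A sum over the off-diagonal pairs. -/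
theorem sum_offD (f : MulChar F ℂ → MulChar F ℂ → ℂ) :
    ∑ p : OffD F, f p.1.1 p.1.2 = ∑ α, ∑ β, f α β - ∑ α, f α α := by
  classical
  have h1 : ∑ p : OffD F, f p.1.1 p.1.2 =
      ∑ p : MulChar F ℂ × MulChar F ℂ, if p.1 ≠ p.2 then f p.1 p.2 else 0 := by
    rw [← Finset.sum_filter, Finset.sum_subtype (Finset.univ.filter (fun p : MulChar F ℂ × MulChar F ℂ => p.1 ≠ p.2))
      (p := fun p : MulChar F ℂ × MulChar F ℂ => p.1 ≠ p.2) (by simp) (fun p => f p.1 p.2)]
  rw [h1, Fintype.sum_prod_type, ← Finset.sum_sub_distrib]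
  apply Finset.sum_congr rfl
  intro α _
  have h2 : ∀ β, (if α ≠ β then f α β else 0) = f α β - if β = α then f α β else 0 := by
    intro β
    by_cases e : β = α
    · subst e
      simp
    · have e' : α ≠ β := fun e2 => e e2.symm
      simp [e, e']
  simp only [h2, Finset.sum_sub_distrib, Finset.sum_ite_eq', Finset.mem_univ, if_true]

/-- The sum of `|χ(g)|²` over the principal series at a regular diagonal element. -/
theorem ind_sum_diag (a d : F) (ha : a ≠ 0) (hd : d ≠ 0) (had : a ≠ d) :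
    ∑ p : OffD F, ((p.1.1 a * p.1.2 d + p.1.1 d * p.1.2 a) * conj (p.1.1 a * p.1.2 d + p.1.1 d * p.1.2 a)) =
      2 * (((Fintype.card F : ℂ) - 1) * ((Fintype.card F : ℂ) - 3)) := by
  classical
  have hq1 : 1 ≤ Fintype.card F := Fintype.card_pos
  have hcardM : ((Fintype.card (MulChar F ℂ) : ℕ) : ℂ) = (Fintype.card F : ℂ) - 1 := by
    rw [card_MC, Nat.cast_sub hq1]
    simp
  rw [sum_offD (fun α β => (α a * β d + α d * β a) * conj (α a * β d + α d * β a))]
  have hta : a / d ≠ 1 := by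
    intro e
    exact had ((div_eq_one_iff_eq hd).mp e)
  have ht0 : a / d ≠ 0 := div_ne_zero ha hd
  have htb : d / a ≠ 1 := by
    intro e
    exact had ((div_eq_one_iff_eq ha).mp e).symm
  have hb0 : d / a ≠ 0 := div_ne_zero hd ha
  have hs1 : ∑ α : MulChar F ℂ, α (a / d) = 0 := by
    have := mc_sum (F := F) (Units.mk0 (a / d) ht0)
    rw [if_neg (fun e => hta (by simpa using congrArg (fun u : Fˣ => (u : F)) e))] at this
    simpa using this
  have hs2 : ∑ α : MulChar F ℂ, α (d / a) = 0 := by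
    have := mc_sum (F := F) (Units.mk0 (d / a) hb0)
    rw [if_neg (fun e => htb (by simpa using congrArg (fun u : Fˣ => (u : F)) e))] at this
    simpa using this
  have hconj : ∀ (α : MulChar F ℂ) (x y : F), y ≠ 0 → α x * conj (α y) = α (x / y) := by
    intro α x y hy
    have h1 : conj (α y) = α⁻¹ y := MulChar.star_apply' α y
    rw [h1, MulChar.inv_apply', div_eq_mul_inv, map_mul]
  have hexp : ∀ α β : MulChar F ℂ, (α a * β d + α d * β a) * conj (α a * β d + α d * β a) =
      2 + α (a / d) * β (d / a) + α (d / a) * β (a / d) := by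
    intro α β
    simp only [map_add, map_mul]
    have e1 := mc_mul_conj α ha
    have e2 := mc_mul_conj β hd
    have e3 := mc_mul_conj α hd
    have e4 := mc_mul_conj β ha
    have e5 := hconj α a d hd
    have e6 := hconj β d a ha
    have e7 := hconj α d a ha
    have e8 := hconj β a d hd
    linear_combination (β d * conj (β d)) * e1 + e2 + (β a * conj (β a)) * e3 + e4 +
      (β d * conj (β a)) * e5 + (α (a / d)) * e6 + (β a * conj (β d)) * e7 + (α (d / a)) * e8
  simp_rw [hexp]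
  have hsum : ∑ α : MulChar F ℂ, ∑ β : MulChar F ℂ, (2 + α (a / d) * β (d / a) + α (d / a) * β (a / d)) =
      2 * ((Fintype.card F : ℂ) - 1) ^ 2 := by
    simp only [Finset.sum_add_distrib, Finset.sum_const, Finset.card_univ, nsmul_eq_mul, hcardM,
      ← Finset.mul_sum, hs1, hs2, ← Finset.sum_mul, mul_zero, zero_mul, add_zero]
    ring
  rw [hsum]
  have hdiag : ∀ α : MulChar F ℂ, (2 + α (a / d) * α (d / a) + α (d / a) * α (a / d)) = 4 := by
    intro α
    have : α (a / d) * α (d / a) = 1 := by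
      rw [← map_mul, div_mul_div_comm, mul_comm a d, div_self (mul_ne_zero hd ha), map_one]
    rw [mul_comm (α (d / a)), this]
    norm_num
  simp only [hdiag, Finset.sum_const, Finset.card_univ, nsmul_eq_mul, hcardM]
  ring

/-- A sum of squared absolute values vanishing forces each term to vanish. -/
theorem terms_zero {ι : Type*} (s : Finset ι) (f : ι → ℂ) (h : ∑ i ∈ s, f i * conj (f i) = 0) :
    ∀ i ∈ s, f i = 0 := by
  have h1 : ∑ i ∈ s, (Complex.normSq (f i) : ℂ) = 0 := by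
    rw [← h]
    apply Finset.sum_congr rfl
    intro i _
    exact (Complex.mul_conj _).symm
  have h2 : ∑ i ∈ s, Complex.normSq (f i) = 0 := by exact_mod_cast h1
  have h3 := (Finset.sum_eq_zero_iff_of_nonneg (fun i _ => Complex.normSq_nonneg _)).mp h2
  intro i hi
  exact Complex.normSq_eq_zero.mp (h3 i hi)

/-- Cuspidal characters vanish on regular diagonal elements. -/
theorem cusp_zero_diag {χ : Irr2 F} (hχ : χ ∈ cuspF (F := F)) (g : GL2 F) (h01 : (g : M2 F) 0 1 = 0)
    (h10 : (g : M2 F) 1 0 = 0) (hne : (g : M2 F) 0 0 ≠ (g : M2 F) 1 1) : (χ : GL2 F → ℂ) g = 0 := by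
  classical
  obtain ⟨ha, hd⟩ := gl_diag_ne g h01 h10
  have hq1 : 1 ≤ Fintype.card F := Fintype.card_pos
  have hcardM : ((Fintype.card (MulChar F ℂ) : ℕ) : ℂ) = (Fintype.card F : ℂ) - 1 := by
    rw [card_MC, Nat.cast_sub hq1]
    simp
  have E := sum_part (F := F) (fun χ => (χ : GL2 F → ℂ) g * conj ((χ : GL2 F → ℂ) g))
  rw [second_orth_conj (IsConj.refl g), card_centralizer_diag g h01 h10 hne] at E
  have hdetv : ∀ γ : MulChar F ℂ, ((detI γ : Irr2 F) : GL2 F → ℂ) g * conj (((detI γ : Irr2 F) : GL2 F → ℂ) g) = 1 := by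
    intro γ
    simp only [detI, detChar, det_diag g h10]
    exact mc_mul_conj γ (mul_ne_zero ha hd)
  have hstv : ∀ γ : MulChar F ℂ, ((stI γ : Irr2 F) : GL2 F → ℂ) g * conj (((stI γ : Irr2 F) : GL2 F → ℂ) g) = 1 := by
    intro γ
    simp only [stI]
    rw [st_val_ne γ g h10 hne, ← map_mul]
    exact mc_mul_conj γ (mul_ne_zero ha hd)
  simp_rw [hdetv, hstv] at E
  simp only [Finset.sum_const, Finset.card_univ, nsmul_eq_mul, mul_one, hcardM] at E
  have hind := sum_indF (F := F) (fun χ => (χ : GL2 F → ℂ) g * conj ((χ : GL2 F → ℂ) g))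
  have hind2 : ∀ p : OffD F, ((indI p : Irr2 F) : GL2 F → ℂ) g * conj (((indI p : Irr2 F) : GL2 F → ℂ) g) =
      (p.1.1 ((g : M2 F) 0 0) * p.1.2 ((g : M2 F) 1 1) + p.1.1 ((g : M2 F) 1 1) * p.1.2 ((g : M2 F) 0 0)) *
        conj (p.1.1 ((g : M2 F) 0 0) * p.1.2 ((g : M2 F) 1 1) + p.1.1 ((g : M2 F) 1 1) * p.1.2 ((g : M2 F) 0 0)) := by
    intro p
    simp only [indI, indL]
    rw [ind_tri_ne _ _ g h10 hne]
  simp_rw [hind2] at hind
  rw [ind_sum_diag _ _ ha hd hne] at hind
  have hcusp : ∑ ψ ∈ cuspF (F := F), (ψ : GL2 F → ℂ) g * conj ((ψ : GL2 F → ℂ) g) = 0 := by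
    have hq2 : (((Fintype.card F - 1) ^ 2 : ℕ) : ℂ) = ((Fintype.card F : ℂ) - 1) ^ 2 := by
      push_cast [Nat.cast_sub hq1]
      ring
    rw [hq2] at E
    linear_combination (-1 : ℂ) * E + (-1 / 2 : ℂ) * hind
  exact terms_zero _ _ hcusp χ hχ

end Cfsg.Agent.Lib.LdGL6
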