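import Mathlib

/-!
# Homocyclic Sylow 2-subgroups of rank two: the automizer
-/

set_option autoImplicit false

namespace Cfsg.Agent.Lib.LdHomo

open Subgroup

variable {G : Type*} [Group G] [Finite G] (P : Subgroup G)

/-- The involutions of `P`. -/
abbrev Inv := {t : G // t ∈ P ∧ t ^ 2 = 1 ∧ t ≠ 1}

/-- conjugation on the involutions of `P`. -/
def rho : normalizer (P : Set G) →* Equiv.Perm (Inv P) :=
  MonoidHom.mk' (fun x =>
    { toFun := fun t => ⟨x.1 * t.1 * x.1⁻¹, (mem_normalizer_iff.1 x.2 t.1).1 t.2.1,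
        by rw [conj_pow, t.2.2.1]; group,
        by
          intro h
          apply t.2.2.2
          have h2 : x.1⁻¹ * (x.1 * t.1 * x.1⁻¹) * x.1 = 1 := by rw [h]; group
          simpa [mul_assoc] using h2⟩
      invFun := fun t => ⟨x.1⁻¹ * t.1 * x.1, by
          have h1 := (mem_normalizer_iff.1 (Subgroup.inv_mem _ x.2) t.1).1 t.2.1
          simpa using h1,
        by
          have h1 : (x.1⁻¹ * t.1 * x.1) ^ 2 = x.1⁻¹ * t.1 ^ 2 * x.1 := by
            have := conj_pow (a := x.1⁻¹) (b := t.1) (i := 2)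
            simpa using this
          rw [h1, t.2.2.1]; group,
        by
          intro h
          apply t.2.2.2
          have h2 : x.1 * (x.1⁻¹ * t.1 * x.1) * x.1⁻¹ = 1 := by rw [h]; group
          simpa [mul_assoc] using h2⟩
      left_inv := by
        intro t
        apply Subtype.ext
        show x.1⁻¹ * (x.1 * t.1 * x.1⁻¹) * x.1 = t.1
        group
      right_inv := by
        intro t
        apply Subtype.ext
        show x.1 * (x.1⁻¹ * t.1 * x.1) * x.1⁻¹ = t.1
        group })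
    (by
      intro x y
      ext t
      show (x.1 * y.1) * t.1 * (x.1 * y.1)⁻¹ = x.1 * (y.1 * t.1 * y.1⁻¹) * x.1⁻¹
      group)

theorem rho_apply (x : normalizer (P : Set G)) (t : Inv P) : (rho P x t).1 = x.1 * t.1 * x.1⁻¹ := rfl

theorem conj_step {x y t : G} (h1 : x * y * x⁻¹ = t * y) (h2 : x * t * x⁻¹ = t) (j : ℕ) :
    x ^ j * y * (x ^ j)⁻¹ = t ^ j * y := by
  induction j with
  | zero => simp
  | succ j ih =>
    have h3 : x * t ^ j * x⁻¹ = t ^ j := by rw [← conj_pow, h2]
    calc x ^ (j + 1) * y * (x ^ (j + 1))⁻¹ = x * (x ^ j * y * (x ^ j)⁻¹) * x⁻¹ := by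
          rw [pow_succ']; group
      _ = x * (t ^ j * y) * x⁻¹ := by rw [ih]
      _ = (x * t ^ j * x⁻¹) * (x * y * x⁻¹) := by group
      _ = t ^ j * (t * y) := by rw [h3, h1]
      _ = t ^ (j + 1) * y := by rw [pow_succ, mul_assoc]

variable {P}

theorem exists_involution_pow (hP2 : IsPGroup 2 P) {y : G} (hy : y ∈ P) (hy1 : y ≠ 1) :
    ∃ k : ℕ, (y ^ k) ^ 2 = 1 ∧ y ^ k ≠ 1 := by
  obtain ⟨n, hn⟩ := hP2 ⟨y, hy⟩
  have hn' : y ^ 2 ^ n = 1 := congrArg Subtype.val hn
  -- least exponent
  classical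
  have hex : ∃ n, y ^ 2 ^ n = 1 := ⟨n, hn'⟩
  let m := Nat.find hex
  have hm : y ^ 2 ^ m = 1 := Nat.find_spec hex
  have hm0 : m ≠ 0 := by
    intro h0
    rw [h0] at hm
    simp at hm
    exact hy1 hm
  obtain ⟨r, hr⟩ := Nat.exists_eq_succ_of_ne_zero hm0
  refine ⟨2 ^ r, ?_, ?_⟩
  · rw [← pow_mul, ← pow_succ, ← Nat.succ_eq_add_one, ← hr]; exact hm
  · have : ¬ y ^ 2 ^ r = 1 := Nat.find_min hex (by omega)
    exact this

section
variable (hP2 : IsPGroup 2 P) (hcomm : ∀ a ∈ P, ∀ b ∈ P, a * b = b * a) {n : ℕ} (hn : Odd n)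

include hP2 hcomm hn in
/-- An element acting with odd "order" and trivially on the involutions centralizes `P`. -/
theorem mem_centralizer_of_fix {x : G} (hxN : x ∈ normalizer (P : Set G))
    (hxn : x ^ n ∈ centralizer (P : Set G))
    (hfix : ∀ t ∈ P, t ^ 2 = 1 → x * t * x⁻¹ = t) : x ∈ centralizer (P : Set G) := by
  rw [mem_centralizer_iff]
  intro y hy
  by_contra hne
  -- φ(y) = x y x⁻¹ y⁻¹
  set c := x * y * x⁻¹ * y⁻¹ with hc
  have hxy : x * y * x⁻¹ ∈ P := (mem_normalizer_iff.1 hxN y).1 hy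
  have hcP : c ∈ P := P.mul_mem hxy (P.inv_mem hy)
  have hc1 : c ≠ 1 := by
    intro h
    apply hne
    have h2 : x * y * x⁻¹ = y := by
      rw [hc, mul_inv_eq_one] at h; exact h
    calc y * x = (x * y * x⁻¹) * x := by rw [h2]
      _ = x * y := by group
  obtain ⟨k, hk1, hk2⟩ := exists_involution_pow hP2 hcP hc1
  set t := c ^ k with ht
  have htP : t ∈ P := P.pow_mem hcP k
  -- t = φ(y^k)
  have hφ : x * y ^ k * x⁻¹ = t * y ^ k := by
    have h1 : x * y * x⁻¹ = c * y := by rw [hc]; group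
    have hcomm' : Commute c y := hcomm c hcP y hy
    rw [← conj_pow, h1, hcomm'.mul_pow]
  have hfixt := hfix t htP hk1
  have h3 := conj_step hφ hfixt n
  have hyk : y ^ k ∈ P := P.pow_mem hy k
  have h4 : x ^ n * y ^ k * (x ^ n)⁻¹ = y ^ k := by
    have := (mem_centralizer_iff.1 hxn) (y ^ k) hyk
    rw [← this]; group
  rw [h4] at h3
  have h5 : t ^ n = 1 := by
    have h6 : t ^ n * y ^ k = 1 * y ^ k := by rw [one_mul]; exact h3.symm
    exact mul_right_cancel h6
  obtain ⟨r, hr⟩ := hn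
  rw [hr, pow_succ, pow_mul, hk1, one_pow, one_mul] at h5
  exact hk2 h5

end

theorem perm_two {X : Type*} [Fintype X] (hc : Fintype.card X ≤ 3) (σ : Equiv.Perm X) (a : X) (h : σ a = a) :
    σ * σ = 1 := by
  classical
  by_contra hne
  have : ∃ b, σ (σ b) ≠ b := by
    by_contra hall
    push Not at hall
    apply hne
    ext b
    exact congrArg id (hall b)
  obtain ⟨b, hb⟩ := this
  have h1 : b ≠ a := by
    rintro rfl
    apply hb
    rw [h, h]
  have h2 : σ b ≠ a := by
    intro h3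
    apply h1
    apply σ.injective
    rw [h3, h]
  have h3 : σ (σ b) ≠ a := by
    intro h4
    apply h2
    apply σ.injective
    rw [h4, h]
  have h4 : σ b ≠ b := by
    intro h5
    apply hb
    rw [h5, h5]
  have h5 : σ (σ b) ≠ σ b := fun h6 => h4 (σ.injective h6)
  have hcard : ({a, b, σ b, σ (σ b)} : Finset X).card = 4 := by
    rw [Finset.card_insert_of_notMem, Finset.card_insert_of_notMem, Finset.card_insert_of_notMem,
      Finset.card_singleton]
    · simpa using h5.symm
    · simp only [Finset.mem_insert, Finset.mem_singleton, not_or]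
      exact ⟨h4.symm, hb.symm⟩
    · simp only [Finset.mem_insert, Finset.mem_singleton, not_or]
      exact ⟨h1.symm, h2.symm, h3.symm⟩
  have := Finset.card_le_univ ({a, b, σ b, σ (σ b)} : Finset X)
  omega

theorem main (P : Subgroup G) (hP2 : IsPGroup 2 P) (hodd : ¬ 2 ∣ P.index) (hcomm : ∀ a ∈ P, ∀ b ∈ P, a * b = b * a)
    (a b c : G) (hT : ∀ t ∈ P, t ^ 2 = 1 → t ≠ 1 → t = a ∨ t = b ∨ t = c) :
    ((centralizer (P : Set G)).relIndex (normalizer (P : Set G)) = 1 ∨
      (centralizer (P : Set G)).relIndex (normalizer (P : Set G)) = 3) ∧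
    (∀ z ∈ P, z ≠ 1 → centralizer ({z} : Set G) ⊓ normalizer (P : Set G) = centralizer (P : Set G)) := by
  classical
  set C := centralizer (P : Set G) with hC
  set N := normalizer (P : Set G) with hN
  have hCN : C ≤ N := centralizer_le_normalizer _
  have hPC : P ≤ C := by
    intro y hy
    rw [hC, mem_centralizer_iff]
    intro w hw
    exact hcomm w hw y hy
  have hCnorm : (C.subgroupOf N).Normal := by
    constructor
    rintro ⟨c, hcN⟩ hc ⟨x, hx⟩
    rw [mem_subgroupOf] at hc ⊢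
    show x * c * x⁻¹ ∈ C
    rw [hC, mem_centralizer_iff]
    intro w hw
    have hw' : x⁻¹ * w * x ∈ P := by
      have := (mem_normalizer_iff.1 (Subgroup.inv_mem _ hx) w).1 hw
      simpa using this
    have h1 := (mem_centralizer_iff.1 hc) _ hw'
    calc w * (x * c * x⁻¹) = x * ((x⁻¹ * w * x) * c) * x⁻¹ := by group
      _ = x * (c * (x⁻¹ * w * x)) * x⁻¹ := by rw [h1]
      _ = _ := by group
  set n := C.relIndex N with hn
  have hnodd : Odd n := by
    have h1 : n ∣ P.relIndex N := Subgroup.relIndex_dvd_of_le_left N hPC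
    have h2 : P.relIndex N ∣ P.index := by
      have h3 := Subgroup.relIndex_mul_index (le_normalizer : P ≤ N)
      rw [← h3]; exact dvd_mul_right _ _
    have h3 : ¬ 2 ∣ n := fun h => hodd (h.trans (h1.trans h2))
    exact Nat.not_even_iff_odd.1 (fun h => h3 h.two_dvd)
  have hpow : ∀ x ∈ N, x ^ n ∈ C := by
    intro x hx
    have := Subgroup.pow_index_mem (C.subgroupOf N) (⟨x, hx⟩ : N)
    rw [mem_subgroupOf] at this
    exact this
  have hker : ∀ x (hx : x ∈ N), rho P ⟨x, hx⟩ = 1 ↔ x ∈ C := by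
    intro x hx
    constructor
    · intro h
      apply mem_centralizer_of_fix hP2 hcomm hnodd hx (hpow x hx)
      intro t ht ht2
      by_cases ht1 : t = 1
      · rw [ht1]; group
      · have := congrArg (fun σ : Equiv.Perm (Inv P) => (σ ⟨t, ht, ht2, ht1⟩).1) h
        exact this
    · intro h
      ext t
      show x * t.1 * x⁻¹ = t.1
      have := (mem_centralizer_iff.1 h) t.1 t.2.1
      rw [← this]; group
  haveI : Fintype (Inv P) := Fintype.ofFinite _
  have hcardT : Fintype.card (Inv P) ≤ 3 := by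
    let f : Inv P → ({a, b, c} : Finset G) := fun t => ⟨t.1, by
      simpa using hT t.1 t.2.1 t.2.2.1 t.2.2.2⟩
    have hf : Function.Injective f := fun s t h => Subtype.ext (congrArg (fun w : ({a, b, c} : Finset G) => w.1) h)
    have := Fintype.card_le_of_injective f hf
    rw [Fintype.card_coe] at this
    exact this.trans Finset.card_le_three
  constructor
  · have hk : (rho P).ker = C.subgroupOf N := by
      ext ⟨x, hx⟩
      rw [MonoidHom.mem_ker, mem_subgroupOf]
      exact hker x hx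
    have h1 : n = Nat.card (rho P).range := by
      rw [← Subgroup.index_ker, hk]; rfl
    have h2 : Nat.card (rho P).range ∣ Nat.card (Equiv.Perm (Inv P)) := Subgroup.card_subgroup_dvd_card _
    rw [Nat.card_eq_fintype_card (α := Equiv.Perm (Inv P)), Fintype.card_perm] at h2
    have h3 : (Fintype.card (Inv P)).factorial ∣ Nat.factorial 3 := Nat.factorial_dvd_factorial hcardT
    have h4 : n ∣ 6 := by
      rw [h1]; exact h2.trans h3
    have hle : n ≤ 6 := Nat.le_of_dvd (by norm_num) h4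
    obtain ⟨r, hr⟩ := hnodd
    have hn0 : n = 1 ∨ n = 3 ∨ n = 5 := by omega
    rcases hn0 with h | h | h
    · left; exact h
    · right; exact h
    · rw [h] at h4; omega
  · intro z hz hz1
    apply le_antisymm
    · rintro x ⟨hxz, hxN⟩
      -- involution in ⟨z⟩ fixed by x
      obtain ⟨k, hk1, hk2⟩ := exists_involution_pow hP2 hz hz1
      have hfix : x * z ^ k * x⁻¹ = z ^ k := by
        have h1 : x * z = z * x := ((mem_centralizer_iff.1 hxz) z rfl).symm
        have h2 : Commute x z := h1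
        have h3 := h2.pow_right k
        rw [h3.eq]; group
      have hσ : rho P ⟨x, hxN⟩ (⟨z ^ k, P.pow_mem hz k, hk1, hk2⟩ : Inv P) = ⟨z ^ k, P.pow_mem hz k, hk1, hk2⟩ := by
        apply Subtype.ext
        exact hfix
      have h2 := perm_two hcardT _ _ hσ
      have h3 : rho P (⟨x, hxN⟩ * ⟨x, hxN⟩) = 1 := by rw [map_mul]; exact h2
      have hx2 : x * x ∈ C := (hker (x * x) (N.mul_mem hxN hxN)).1 h3
      obtain ⟨r, hr⟩ := hnodd
      have hxn := hpow x hxN
      rw [hr, pow_succ, pow_mul] at hxn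
      have h5 : (x ^ 2) ^ r ∈ C := by
        rw [pow_two]; exact C.pow_mem hx2 r
      have := C.mul_mem (C.inv_mem h5) hxn
      simpa using this
    · intro x hx
      refine ⟨?_, hCN hx⟩
      show x ∈ centralizer ({z} : Set G)
      rw [mem_centralizer_iff]
      intro w hw
      rw [Set.mem_singleton_iff] at hw
      subst hw
      exact (mem_centralizer_iff.1 hx) w hz

theorem zmod_two (r : ℕ) (x : ZMod (2 ^ (r + 1))) (hx : x + x = 0) :
    x = 0 ∨ x = ((2 ^ r : ℕ) : ZMod (2 ^ (r + 1))) := by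
  haveI : NeZero (2 ^ (r + 1)) := ⟨by positivity⟩
  have hk : ((x.val : ℕ) : ZMod (2 ^ (r + 1))) = x := ZMod.natCast_zmod_val x
  have hlt : x.val < 2 ^ (r + 1) := ZMod.val_lt x
  have h1 : ((x.val + x.val : ℕ) : ZMod (2 ^ (r + 1))) = 0 := by
    rw [Nat.cast_add, hk]; exact hx
  rw [ZMod.natCast_eq_zero_iff] at h1
  have h2 : 2 ^ r ∣ x.val := by
    have h3 : 2 * 2 ^ r ∣ 2 * x.val := by
      rw [← pow_succ', ← two_mul] at *
      exact h1
    exact Nat.dvd_of_mul_dvd_mul_left (by norm_num) h3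
  obtain ⟨q, hq⟩ := h2
  have hq2 : q < 2 := by
    rw [hq, pow_succ] at hlt
    exact Nat.lt_of_mul_lt_mul_left hlt
  have hq3 : q = 0 ∨ q = 1 := by omega
  rcases hq3 with rfl | rfl
  · left
    rw [← hk, hq]; simp
  · right
    rw [← hk, hq, mul_one]

theorem S0945_main (P : Sylow 2 G) (m : ℕ) (hm : 1 ≤ m)
    (e : (P : Subgroup G) ≃* Multiplicative (ZMod (2 ^ m) × ZMod (2 ^ m))) :
    ((centralizer ((P : Subgroup G) : Set G)).relIndex (normalizer ((P : Subgroup G) : Set G)) = 1 ∨
      (centralizer ((P : Subgroup G) : Set G)).relIndex (normalizer ((P : Subgroup G) : Set G)) = 3) ∧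
    (∀ z ∈ (P : Subgroup G), z ≠ 1 →
      centralizer ({z} : Set G) ⊓ normalizer ((P : Subgroup G) : Set G) = centralizer ((P : Subgroup G) : Set G)) := by
  classical
  haveI : Fact (Nat.Prime 2) := ⟨Nat.prime_two⟩
  obtain ⟨r, rfl⟩ : ∃ r, m = r + 1 := ⟨m - 1, by omega⟩
  set ι : Multiplicative (ZMod (2 ^ (r + 1)) × ZMod (2 ^ (r + 1))) → G := fun u => (e.symm u : G) with hι
  set h : ZMod (2 ^ (r + 1)) := ((2 ^ r : ℕ) : ZMod (2 ^ (r + 1))) with hh
  apply main (P : Subgroup G) P.isPGroup' P.not_dvd_index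
    (by
      intro a ha b hb
      have h1 : e ⟨a, ha⟩ * e ⟨b, hb⟩ = e ⟨b, hb⟩ * e ⟨a, ha⟩ := mul_comm _ _
      rw [← map_mul, ← map_mul] at h1
      have h2 := e.injective h1
      exact congrArg Subtype.val h2)
    (ι (Multiplicative.ofAdd (h, 0))) (ι (Multiplicative.ofAdd (0, h))) (ι (Multiplicative.ofAdd (h, h)))
  intro t ht ht2 ht1
  set u := e ⟨t, ht⟩ with hu
  have hut : ι u = t := by
    simp [hι, hu]
  have hu2 : u ^ 2 = 1 := by
    rw [hu, ← map_pow]
    have : (⟨t, ht⟩ : (P : Subgroup G)) ^ 2 = 1 := Subtype.ext ht2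
    rw [this, map_one]
  have hu1 : u ≠ 1 := by
    intro h1
    apply ht1
    rw [← hut, h1]
    simp [hι]
  have h3 : Multiplicative.toAdd u + Multiplicative.toAdd u = 0 := by
    have : Multiplicative.toAdd (u ^ 2) = Multiplicative.toAdd u + Multiplicative.toAdd u := by
      rw [toAdd_pow, two_nsmul]
    rw [← this, hu2]; rfl
  have h4 : (Multiplicative.toAdd u).1 + (Multiplicative.toAdd u).1 = 0 := congrArg Prod.fst h3
  have h5 : (Multiplicative.toAdd u).2 + (Multiplicative.toAdd u).2 = 0 := congrArg Prod.snd h3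
  have h6 := zmod_two r _ h4
  have h7 := zmod_two r _ h5
  have hueq : u = Multiplicative.ofAdd ((Multiplicative.toAdd u).1, (Multiplicative.toAdd u).2) := rfl
  rcases h6 with h6 | h6 <;> rcases h7 with h7 | h7
  · exfalso
    apply hu1
    rw [hueq, h6, h7]; rfl
  · right; left
    rw [← hut, hueq, h6, h7]
  · left
    rw [← hut, hueq, h6, h7]
  · right; right
    rw [← hut, hueq, h6, h7]

end Cfsg.Agent.Lib.LdHomo
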