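import Mathlib

/-!
# Dimensions of invariant subspaces
-/

set_option autoImplicit false

namespace Cfsg.Agent.Lib.LdInv

open Module

variable {F V : Type*} [Field F] [AddCommGroup V] [Module F V] [FiniteDimensional F V]

theorem exists_sub (E : Submodule F V) (k : ℕ) (hk : k ≤ finrank F E) :
    ∃ E' : Submodule F V, E' ≤ E ∧ finrank F E' = k := by
  let b := Module.finBasis F E
  let v : Fin k → V := fun i => (b (Fin.castLE hk i) : V)
  have hv : LinearIndependent F v := by
    have h1 := b.linearIndependent.comp (Fin.castLE hk) (Fin.castLE_injective hk)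
    exact h1.map' E.subtype E.ker_subtype
  refine ⟨Submodule.span F (Set.range v), ?_, ?_⟩
  · rw [Submodule.span_le]
    rintro _ ⟨i, rfl⟩
    exact (b _).2
  · rw [finrank_span_eq_card hv]; simp

variable (f : V →ₗ[F] V) {s a : ℕ} (U : Fin s → Submodule F V)

/-- `E ⊔ ⨆_{j∈S} U_j`. -/
def VS (E : Submodule F V) (S : Finset (Fin s)) : Submodule F V := E ⊔ ⨆ j ∈ S, U j

theorem VS_empty (E : Submodule F V) : VS U E ∅ = E := by simp [VS]

theorem VS_insert (E : Submodule F V) (S : Finset (Fin s)) (j : Fin s) [DecidableEq (Fin s)] :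
    VS U E (insert j S) = VS U E S ⊔ U j := by
  simp only [VS, Finset.iSup_insert]
  rw [sup_comm (U j), sup_assoc]

variable {f U}

theorem map_VS {E : Submodule F V} (hE : E.map f ≤ E) (hU : ∀ j, (U j).map f ≤ U j) (S : Finset (Fin s)) :
    (VS U E S).map f ≤ VS U E S := by
  rw [VS, Submodule.map_sup]
  apply sup_le_sup hE
  rw [Submodule.map_iSup]
  refine iSup_le fun j => ?_
  rw [Submodule.map_iSup]
  refine iSup_le fun hj => ?_
  exact (hU j).trans (le_iSup₂_of_le j hj le_rfl)

theorem finrank_step (A B C : Submodule F V) (hd : Disjoint A C) (hY : finrank F (((B ⊓ (A ⊔ C)) ⊔ A) ⊓ C : Submodule F V) = 0 ∨ finrank F (((B ⊓ (A ⊔ C)) ⊔ A) ⊓ C : Submodule F V) = a) :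
    finrank F (B ⊓ (A ⊔ C) : Submodule F V) = finrank F (B ⊓ A : Submodule F V) ∨ finrank F (B ⊓ (A ⊔ C) : Submodule F V) = finrank F (B ⊓ A : Submodule F V) + a := by
  set X := B ⊓ (A ⊔ C) with hX
  set Y := (X ⊔ A) ⊓ C with hYdef
  have hXA : X ⊔ A = A ⊔ Y := by
    rw [hYdef, inf_comm]
    have h1 : (A ⊔ C) ⊓ (X ⊔ A) = A ⊔ C ⊓ (X ⊔ A) := sup_inf_assoc_of_le C le_sup_right
    rw [← h1]
    rw [inf_eq_right.2]
    exact sup_le inf_le_right le_sup_left
  have hXA' : X ⊓ A = B ⊓ A := by
    rw [hX, inf_assoc, inf_eq_right.2 (le_sup_left : A ≤ A ⊔ C)]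
  have hAY : A ⊓ Y = ⊥ := by
    rw [eq_bot_iff]
    exact (inf_le_inf_left A inf_le_right).trans (disjoint_iff.1 hd).le
  have h1 := Submodule.finrank_sup_add_finrank_inf_eq X A
  have h2 := Submodule.finrank_sup_add_finrank_inf_eq A Y
  rw [hAY, finrank_bot, add_zero, ← hXA] at h2
  rw [hXA'] at h1
  rcases hY with h | h
  · left; omega
  · right; omega

theorem filt {E W : Submodule F V} (hE : E.map f ≤ E) (hU : ∀ j, (U j).map f ≤ U j)
    (ha : ∀ j, finrank F (U j) = a)
    (hirr : ∀ j, ∀ W : Submodule F V, W ≤ U j → W.map f ≤ W → W = ⊥ ∨ W = U j)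
    (hdis : ∀ S j, j ∉ S → Disjoint (VS U E S) (U j))
    (hW : W.map f ≤ W) (S : Finset (Fin s)) :
    ∃ t : ℕ, finrank F (W ⊓ VS U E S : Submodule F V) = finrank F (W ⊓ E : Submodule F V) + t * a := by
  classical
  induction S using Finset.induction_on with
  | empty => exact ⟨0, by rw [VS_empty]; simp⟩
  | insert j S hj ih =>
    obtain ⟨t, ht⟩ := ih
    rw [VS_insert]
    have hinv : Submodule.map f (((W ⊓ (VS U E S ⊔ U j)) ⊔ VS U E S) ⊓ U j) ≤ ((W ⊓ (VS U E S ⊔ U j)) ⊔ VS U E S) ⊓ U j := by
      refine (Submodule.map_inf_le _).trans (inf_le_inf ?_ (hU j))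
      rw [Submodule.map_sup]
      refine sup_le_sup ?_ (map_VS hE hU S)
      refine (Submodule.map_inf_le _).trans (inf_le_inf hW ?_)
      rw [Submodule.map_sup]
      exact sup_le_sup (map_VS hE hU S) (hU j)
    have hY : finrank F (((W ⊓ (VS U E S ⊔ U j)) ⊔ VS U E S) ⊓ U j : Submodule F V) = 0 ∨
        finrank F (((W ⊓ (VS U E S ⊔ U j)) ⊔ VS U E S) ⊓ U j : Submodule F V) = a := by
      rcases hirr j _ inf_le_right hinv with h | h
      · left; rw [h, finrank_bot]
      · right; rw [h, ha]
    rcases finrank_step _ _ _ (hdis S j hj) hY with h | h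
    · exact ⟨t, by rw [h, ht]⟩
    · exact ⟨t + 1, by rw [h, ht]; ring⟩

theorem build {E E' : Submodule F V} (hle : E' ≤ E) (ha : ∀ j, finrank F (U j) = a)
    (hdis : ∀ S j, j ∉ S → Disjoint (VS U E S) (U j)) (S : Finset (Fin s)) :
    finrank F (VS U E' S : Submodule F V) = finrank F E' + S.card * a := by
  classical
  induction S using Finset.induction_on with
  | empty => rw [VS_empty]; simp
  | insert j S hj ih =>
    rw [VS_insert, Finset.card_insert_of_notMem hj]
    have hle2 : VS U E' S ≤ VS U E S := sup_le_sup_right hle _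
    have hd : VS U E' S ⊓ U j = ⊥ := by
      rw [eq_bot_iff]
      exact (inf_le_inf_right _ hle2).trans (disjoint_iff.1 (hdis S j hj)).le
    have h1 := Submodule.finrank_sup_add_finrank_inf_eq (VS U E' S) (U j)
    rw [hd, finrank_bot, add_zero, ih, ha] at h1
    rw [h1]; ring

theorem map_eigen_le (E' : Submodule F V) (hE' : E' ≤ Module.End.eigenspace f 1) : E'.map f ≤ E' := by
  rintro _ ⟨x, hx, rfl⟩
  have h := hE' hx
  rw [Module.End.mem_eigenspace_iff, one_smul] at h
  change f x ∈ E'
  rwa [h]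

theorem main (hUinv : ∀ j, (U j).map f ≤ U j) (hUdim : ∀ j, Module.finrank F ↥(U j) = a)
    (hUirr : ∀ j, ∀ W : Submodule F V, W ≤ U j → W.map f ≤ W → W = ⊥ ∨ W = U j)
    (hdec : DirectSum.IsInternal (fun o : Option (Fin s) => o.elim (Module.End.eigenspace f 1) U))
    (m : ℕ) (hmV : m < Module.finrank F V) :
    (∃ W : Submodule F V, Module.finrank F ↥W = m ∧ W.map f ≤ W) ↔
    (m ≤ Module.finrank F ↥(Module.End.eigenspace f 1) ∨
      (a ≤ m ∧ m % a ≤ Module.finrank F ↥(Module.End.eigenspace f 1))) := by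
  classical
  set E := Module.End.eigenspace f 1 with hEdef
  have hind := hdec.submodule_iSupIndep
  have htop := hdec.submodule_iSup_eq_top
  have hdis : ∀ S j, j ∉ S → Disjoint (VS U E S) (U j) := by
    intro S j hj
    have h := hind (some j)
    refine (h.mono_right ?_).symm
    rw [VS]
    apply sup_le
    · exact le_iSup₂_of_le none (by simp) le_rfl
    · refine iSup₂_le fun i hi => ?_
      refine le_iSup₂_of_le (some i) ?_ le_rfl
      intro hij
      apply hj
      rw [← Option.some.inj hij]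
      exact hi
  have hVtop : VS U E Finset.univ = ⊤ := by
    rw [eq_top_iff, ← htop]
    refine iSup_le fun o => ?_
    cases o with
    | none => exact le_sup_left
    | some j => exact le_sup_of_le_right (le_iSup₂_of_le j (Finset.mem_univ j) le_rfl)
  have hdimV : finrank F V = finrank F E + s * a := by
    have h := build (le_refl E) hUdim hdis Finset.univ
    rw [hVtop, finrank_top, Finset.card_univ, Fintype.card_fin] at h
    exact h
  have hE : E.map f ≤ E := map_eigen_le E le_rfl
  constructor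
  · rintro ⟨W, hWd, hW⟩
    obtain ⟨t, ht⟩ := filt hE hUinv hUdim hUirr hdis hW Finset.univ
    rw [hVtop, inf_top_eq, hWd] at ht
    have hle : finrank F (W ⊓ E : Submodule F V) ≤ finrank F E := Submodule.finrank_mono inf_le_right
    rcases Nat.eq_zero_or_pos t with rfl | ht0
    · left; omega
    · right
      have h1 : a ≤ t * a := Nat.le_mul_of_pos_left a ht0
      refine ⟨by omega, ?_⟩
      rw [ht, Nat.add_mul_mod_self_right]
      exact (Nat.mod_le _ _).trans hle
  · intro h
    have key : ∀ q, q ≤ s → q * a ≤ m → m - q * a ≤ finrank F E →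
        ∃ W : Submodule F V, Module.finrank F ↥W = m ∧ W.map f ≤ W := by
      intro q hq hqm hd
      obtain ⟨S, -, hS⟩ := Finset.exists_subset_card_eq (s := (Finset.univ : Finset (Fin s))) (n := q)
        (by simpa using hq)
      obtain ⟨E', hE', hd'⟩ := exists_sub E (m - q * a) hd
      refine ⟨VS U E' S, ?_, map_VS (map_eigen_le E' hE') hUinv S⟩
      rw [build hE' hUdim hdis S, hd', hS]
      omega
    rcases h with h | ⟨hm1, hm2⟩
    · exact key 0 (Nat.zero_le _) (by simp) (by simpa using h)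
    · have hq := Nat.div_add_mod' m a
      by_cases hqs : m / a ≤ s
      · refine key (m / a) hqs (Nat.div_mul_le_self m a) ?_
        omega
      · have h1 : s * a ≤ m / a * a := Nat.mul_le_mul_right a (by omega)
        refine key s le_rfl (by omega) ?_
        omega

end Cfsg.Agent.Lib.LdInv
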