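import Mathlib
import Cfsg.Prelude.Def_AxialAlgebras

/-!
# 2A-type Majorana involutions: a group of at most four elements
-/

set_option autoImplicit false

namespace Cfsg.Agent.Lib.LdMaj

open Cfsg Cfsg.Axial

variable {V : Type*} [AddCommGroup V] [Module ℝ V]

theorem main [FiniteDimensional ℝ V] (mul : V →ₗ[ℝ] V →ₗ[ℝ] V) (B : LinearMap.BilinForm ℝ V)
    (hV : IsMajoranaAmbient mul B) (X : Subgroup (V ≃ₗ[ℝ] V)) (hX : ∀ x ∈ X, x * x = 1)
    (ax : (V ≃ₗ[ℝ] V) → V) (hax : ∀ x ∈ X, x ≠ 1 → IsMajoranaPair mul B x (ax x))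
    (h1 : ∀ x ∈ X, x ≠ 1 → B (ax x) (ax x) = 1)
    (h2A : ∀ x ∈ X, ∀ y ∈ X, x ≠ 1 → y ≠ 1 → x ≠ y →
      mul (ax x) (ax y) = (1 / 8 : ℝ) • (ax x + ax y - ax (x * y))) : Nat.card ↥X ≤ 4 := by
  classical
  obtain ⟨hcomm, hBs, hBp, hBa, hN⟩ := hV
  have hinv : ∀ a ∈ X, a⁻¹ = a := fun a ha => inv_eq_of_mul_eq_one_left (hX a ha)
  have hcm : ∀ x ∈ X, ∀ y ∈ X, x * y = y * x := by
    intro x hx y hy
    calc x * y = (x * y)⁻¹ := (hinv _ (X.mul_mem hx hy)).symm
      _ = y⁻¹ * x⁻¹ := mul_inv_rev _ _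
      _ = y * x := by rw [hinv x hx, hinv y hy]
  have hidem : ∀ x ∈ X, x ≠ 1 → mul (ax x) (ax x) = ax x := by
    intro x hx hx1
    exact (hax x hx hx1).2.2.1.1.2.1
  have hxxy : ∀ x ∈ X, ∀ y, x * (x * y) = y := by
    intro x hx y
    rw [← mul_assoc, hX x hx, one_mul]
  -- the inner products
  have hlam : ∀ x ∈ X, ∀ y ∈ X, x ≠ 1 → y ≠ 1 → x ≠ y → B (ax x) (ax y) = 1 / 8 := by
    intro x hx y hy hx1 hy1 hxy
    have hxyX : x * y ∈ X := X.mul_mem hx hy
    have hxy1 : x * y ≠ 1 := by
      intro h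
      apply hxy
      have : x * (x * y) = x := by rw [h, mul_one]
      rw [hxxy x hx] at this
      exact this.symm
    have hxne : x ≠ x * y := by
      intro h
      apply hy1
      have := hxxy x hx y
      rw [← h, hX x hx] at this
      exact this.symm
    have e1 := h2A x hx y hy hx1 hy1 hxy
    have e2 := h2A x hx (x * y) hxyX hx1 hxy1 hxne
    rw [hxxy x hx] at e2
    have hA : B (ax x) (ax y) = B (ax x) (mul (ax x) (ax y)) := by
      rw [hBa, hidem x hx hx1]
    have hC : B (ax x) (ax (x * y)) = B (ax x) (mul (ax x) (ax (x * y))) := by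
      rw [hBa, hidem x hx hx1]
    rw [e1] at hA
    rw [e2] at hC
    simp only [map_smul, map_add, map_sub, smul_eq_mul, h1 x hx hx1] at hA hC
    linarith
  by_contra hcard
  push Not at hcard
  have hfin : Finite ↥X := Nat.finite_of_card_ne_zero (by omega)
  haveI := Fintype.ofFinite ↥X
  -- three independent elements
  have hex : ∀ T : Finset ↥X, T.card ≤ 4 → ∃ t : ↥X, t ∉ T := by
    intro T hT
    by_contra hall
    push Not at hall
    have : T = Finset.univ := Finset.eq_univ_iff_forall.2 hall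
    rw [this, Finset.card_univ, ← Nat.card_eq_fintype_card] at hT
    omega
  obtain ⟨⟨x, hx⟩, hx'⟩ := hex {1} (by simp)
  have hx1 : x ≠ 1 := by
    intro h
    apply hx'
    simp only [Finset.mem_singleton]
    exact Subtype.ext h
  obtain ⟨⟨y, hy⟩, hy'⟩ := hex {1, ⟨x, hx⟩} (Finset.card_le_two.trans (by norm_num))
  have hy1 : y ≠ 1 := by
    intro h
    apply hy'
    simp only [Finset.mem_insert, Finset.mem_singleton]
    exact Or.inl (Subtype.ext h)
  have hxy : x ≠ y := by
    intro h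
    apply hy'
    simp only [Finset.mem_insert, Finset.mem_singleton]
    exact Or.inr (Subtype.ext h.symm)
  obtain ⟨⟨z, hz⟩, hz'⟩ := hex {1, ⟨x, hx⟩, ⟨y, hy⟩, ⟨x * y, X.mul_mem hx hy⟩} Finset.card_le_four
  simp only [Finset.mem_insert, Finset.mem_singleton, not_or] at hz'
  obtain ⟨hz1', hzx', hzy', hzxy'⟩ := hz'
  have hz1 : z ≠ 1 := fun h => hz1' (Subtype.ext h)
  have hzx : x ≠ z := fun h => hzx' (Subtype.ext h.symm)
  have hyz : y ≠ z := fun h => hzy' (Subtype.ext h.symm)
  have hxyz' : x * y ≠ z := fun h => hzxy' (Subtype.ext h.symm)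
  -- names
  have hxyX := X.mul_mem hx hy
  have hxzX := X.mul_mem hx hz
  have hyzX := X.mul_mem hy hz
  have hxyzX := X.mul_mem hx hyzX
  have cancel : ∀ a ∈ X, ∀ b c, a * b = a * c → b = c := fun a _ b c h => mul_left_cancel h
  have hnz : ∀ a ∈ X, ∀ b ∈ X, a ≠ b → a * b ≠ 1 := by
    intro a ha b hb hab h
    apply hab
    have : a * (a * b) = a := by rw [h, mul_one]
    rw [hxxy a ha] at this
    exact this.symm
  have hxy1 := hnz x hx y hy hxy
  have hxz1 := hnz x hx z hz hzx
  have hyz1 := hnz y hy z hz hyz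
  have hxyz1 : x * (y * z) ≠ 1 := by
    intro h
    apply hxyz'
    have h2 : x * y * z = 1 := by rw [mul_assoc]; exact h
    have h3 : x * y * (x * y * z) = x * y := by rw [h2, mul_one]
    rw [hxxy _ hxyX] at h3
    exact h3.symm
  -- products among y, xy, z, xz
  have p1 := h2A y hy z hz hy1 hz1 hyz
  have p2 := h2A y hy (x * z) hxzX hy1 hxz1 (by
    intro h
    apply hxyz'
    have h3 : x * y = x * (x * z) := by rw [← h]
    rw [hxxy x hx] at h3
    exact h3)
  have p3 := h2A (x * y) hxyX z hz hxy1 hz1 hxyz'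
  have p4 := h2A (x * y) hxyX (x * z) hxzX hxy1 hxz1 (by
    intro h
    exact hyz (mul_left_cancel h))
  have e3 : y * (x * z) = x * (y * z) := by
    rw [← mul_assoc, hcm y hy x hx, mul_assoc]
  have e4 : x * y * z = x * (y * z) := mul_assoc _ _ _
  have e5 : x * y * (x * z) = y * z := by
    rw [mul_assoc, ← mul_assoc y, hcm y hy x hx, mul_assoc, hxxy x hx]
  rw [e3] at p2
  rw [e4] at p3
  rw [e5] at p4
  -- the products with a_x
  have q1 := h2A x hx y hy hx1 hy1 hxy
  have q2 := h2A x hx (x * y) hxyX hx1 hxy1 (by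
    intro h
    apply hy1
    have := hxxy x hx y
    rw [← h, hX x hx] at this
    exact this.symm)
  rw [hxxy x hx] at q2
  have q3 := h2A x hx z hz hx1 hz1 hzx
  have q4 := h2A x hx (x * z) hxzX hx1 hxz1 (by
    intro h
    apply hz1
    have := hxxy x hx z
    rw [← h, hX x hx] at this
    exact this.symm)
  rw [hxxy x hx] at q4
  have hyzne : y * z ≠ x * (y * z) := by
    intro h
    apply hx1
    have h3 : x * (y * z) = 1 * (y * z) := by rw [one_mul]; exact h.symm
    exact mul_right_cancel h3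
  have q5 := h2A x hx (y * z) hyzX hx1 hyz1 (by
    intro h
    apply hxyz'
    have h3 : y * x = z := by rw [h, hxxy y hy]
    rw [hcm x hx y hy]
    exact h3)
  have q6 := h2A x hx (x * (y * z)) hxyzX hx1 hxyz1 (by
    intro h
    apply hyz1
    have := hxxy x hx (y * z)
    rw [← h, hX x hx] at this
    exact this.symm)
  rw [hxxy x hx] at q6
  set a := ax x with ha
  set ay := ax y with hay
  set az := ax z with haz
  set axy := ax (x * y) with haxy
  set axz := ax (x * z) with haxz
  set ayz := ax (y * z) with hayz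
  set axyz := ax (x * (y * z)) with haxyz
  have E1 : mul a (ay - axy) = (1 / 4 : ℝ) • (ay - axy) := by
    rw [map_sub, q1, q2]
    module
  have E2 : mul a (az - axz) = (1 / 4 : ℝ) • (az - axz) := by
    rw [map_sub, q3, q4]
    module
  have E3 : mul a (ayz - axyz) = (1 / 4 : ℝ) • (ayz - axyz) := by
    rw [map_sub, q5, q6]
    module
  have E4 : mul (ay - axy) (az - axz) = (-(1 / 4) : ℝ) • (ayz - axyz) := by
    simp only [map_sub, LinearMap.sub_apply]
    rw [p1, p2, p3, p4]
    module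
  have hfus := (hax x hx hx1).2.2.1.1.2.2.2 (1 / 4) (by simp [majoranaSpectrum]) (1 / 4)
    (by simp [majoranaSpectrum]) (ay - axy) (Module.End.mem_eigenspace_iff.2 E1) (az - axz)
    (Module.End.mem_eigenspace_iff.2 E2)
  have hl : monsterLaw (1 / 4 : ℝ) (1 / 32) (1 / 4) (1 / 4) = {1, 0} := by
    unfold monsterLaw
    rw [if_neg (by norm_num), if_neg (by norm_num), if_pos ⟨rfl, rfl⟩]
  rw [hl, E4] at hfus
  have hsum : eigenSum mul a ({1, 0} : Set ℝ) = eigen mul a 1 ⊔ eigen mul a 0 := by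
    unfold eigenSum
    rw [iSup_insert, iSup_singleton]
  rw [hsum, Submodule.mem_sup] at hfus
  obtain ⟨p, hp, q, hq, hpq⟩ := hfus
  have hp' : mul a p = p := by
    have := Module.End.mem_eigenspace_iff.1 hp
    simpa using this
  have hq' : mul a q = 0 := by
    have := Module.End.mem_eigenspace_iff.1 hq
    simpa using this
  set w := ayz - axyz with hw
  have hE : mul a (p + q) = (1 / 4 : ℝ) • (p + q) := by
    rw [hpq, map_smul, E3]
    module
  rw [map_add, hp', hq', add_zero] at hE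
  -- so 3 p = q
  have h3 : q = (3 : ℝ) • p := by
    have : (1 / 4 : ℝ) • q = (3 / 4 : ℝ) • p := by
      linear_combination (norm := module) (-1 : ℝ) • hE
    have h6 : q = (4 : ℝ) • ((1 / 4 : ℝ) • q) := by
      rw [smul_smul]; norm_num
    rw [h6, this, smul_smul]; norm_num
  have h4 : (3 : ℝ) • p = 0 := by
    have := hq'
    rw [h3, map_smul, hp'] at this
    exact this
  have hp0 : p = 0 := by
    have := (smul_eq_zero.1 h4)
    rcases this with h | h
    · norm_num at h
    · exact h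
  have hq0 : q = 0 := by rw [h3, hp0, smul_zero]
  rw [hp0, hq0, add_zero] at hpq
  have hw0 : w = 0 := by
    have h5 := hpq.symm
    have h6 := (smul_eq_zero.1 h5)
    rcases h6 with h | h
    · norm_num at h
    · exact h
  have heq : ayz = axyz := sub_eq_zero.1 hw0
  have h8 := hlam (y * z) hyzX (x * (y * z)) hxyzX hyz1 hxyz1 hyzne
  have h9 := h1 (y * z) hyzX hyz1
  rw [← hayz, ← haxyz, ← heq] at h8
  rw [← hayz] at h9
  rw [h8] at h9
  norm_num at h9

end Cfsg.Agent.Lib.LdMaj
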