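import Mathlib
import Cfsg.Agent.Lib.LdCM
import Cfsg.Agent.Lib.SubCount
import Cfsg.Agent.Lib.LConn2
import Cfsg.Agent.Lib.H1Cop
import Cfsg.Prelude.Def_PLocal
import Cfsg.Prelude.Def_Transfer
import Cfsg.Prelude.Def_OddOrderLocal

/-!
# The elements of order `p` of a non-cyclic metacyclic `p`-group, `p` odd
-/

set_option autoImplicit false

namespace Cfsg.Agent.Lib.LdMet

open Subgroup

variable {p : ℕ} [hpp : Fact p.Prime]

theorem sum_form (hp2 : p ≠ 2) {r : ℕ} (hr : r ≡ 1 [MOD p]) :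
    ∃ w, ∑ i ∈ Finset.range p, r ^ i = p * w ∧ ¬ p ∣ w := by
  have hp3 : 2 < p := by
    have := hpp.out.two_le
    omega
  have hr0 : r ≠ 0 := by
    rintro rfl
    have h1 : p ∣ 1 := (Nat.modEq_zero_iff_dvd).1 hr.symm
    exact hpp.out.one_lt.ne' (Nat.dvd_one.1 h1)
  obtain ⟨P, rfl⟩ : ∃ P, r = 1 + P := ⟨r - 1, by omega⟩
  have hpP : p ∣ P := by
    have h1 : (1 + P) ≡ 1 + 0 [MOD p] := by simpa using hr
    have h2 := Nat.ModEq.add_left_cancel' 1 h1
    exact (Nat.modEq_zero_iff_dvd).1 h2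
  obtain ⟨t, rfl⟩ := hpP
  have h := Cfsg.Agent.Lib.LdCM.sum_one_add_pow_modEq (p * t) p
  obtain ⟨c, hc⟩ := hpp.out.dvd_choose_self (k := 2) (by omega) hp3
  have h1 : (p * t) ^ 2 = p ^ 2 * t ^ 2 := by ring
  have h2 : p ^ 2 ∣ (p * t) ^ 2 := ⟨t ^ 2, h1⟩
  have h3 := h.of_dvd h2
  rw [hc] at h3
  have h4 : p + p * t * (p * c) = p + p ^ 2 * (t * c) := by ring
  rw [h4] at h3
  have h5 : p + p ^ 2 * (t * c) ≡ p [MOD p ^ 2] := by
    have : p ^ 2 * (t * c) ≡ 0 [MOD p ^ 2] := (Nat.modEq_zero_iff_dvd).2 (Dvd.intro _ rfl)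
    simpa using (Nat.ModEq.refl p).add this
  have h6 := h3.trans h5
  have hd : p ∣ ∑ i ∈ Finset.range p, (1 + p * t) ^ i := by
    have h7 : (∑ i ∈ Finset.range p, (1 + p * t) ^ i) ≡ p [MOD p] := h6.of_dvd (dvd_pow_self p (by norm_num))
    exact (Nat.modEq_zero_iff_dvd).1 (h7.trans (by simp [Nat.ModEq]))
  obtain ⟨w, hw⟩ := hd
  refine ⟨w, hw, ?_⟩
  rintro ⟨v, rfl⟩
  rw [hw] at h6
  have h8 : p * (p * v) ≡ 0 [MOD p ^ 2] := (Nat.modEq_zero_iff_dvd).2 ⟨v, by ring⟩
  have h9 : p ≡ 0 [MOD p ^ 2] := h6.symm.trans h8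
  have h10 := Nat.le_of_dvd hpp.out.pos ((Nat.modEq_zero_iff_dvd).1 h9)
  have h11 : p < p ^ 2 := by nlinarith [hpp.out.two_le]
  omega

variable {R : Type*} [Group R] [Finite R]

theorem r_modEq {a y : R} {r m : ℕ} (hm : 1 ≤ m) (ha : orderOf a = p ^ m) (hy : y ^ p = 1)
    (h : y * a * y⁻¹ = a ^ r) : r ≡ 1 [MOD p] := by
  have h1 := Cfsg.Agent.Lib.LdCM.conj_pow_aux h p 1
  rw [hy, one_mul, mul_one, one_mul, pow_one] at h1
  have h2 : a ^ (r ^ p) = a ^ 1 := by rw [← h1, pow_one]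
  have h3 : r ^ p ≡ 1 [MOD orderOf a] := pow_eq_pow_iff_modEq.1 h2
  rw [ha] at h3
  have h4 : r ^ p ≡ 1 [MOD p] := h3.of_dvd (dvd_pow_self p (by omega))
  rw [← ZMod.natCast_eq_natCast_iff] at h4 ⊢
  push_cast at h4
  rw [ZMod.pow_card] at h4
  simpa using h4

theorem main (hp2 : p ≠ 2) (hR : IsPGroup p R) (N : Subgroup R) [hNn : N.Normal] (hNc : IsCyclic N)
    (hQ : IsCyclic (R ⧸ N)) (hnc : ¬ IsCyclic R) :
    Cfsg.IsElementaryAbelian p (Cfsg.omegaOne p (⊤ : Subgroup R)) ∧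
      Nat.card ↥(Cfsg.omegaOne p (⊤ : Subgroup R)) = p ^ 2 := by
  classical
  have hpos := hpp.out.pos
  have hN1 : N ≠ ⊥ := by
    rintro rfl
    exact hnc (isCyclic_of_surjective (QuotientGroup.quotientBot : R ⧸ (⊥ : Subgroup R) ≃* R)
      (MulEquiv.surjective _))
  obtain ⟨a, hza⟩ := Subgroup.isCyclic_iff_exists_zpowers_eq_top N |>.1 hNc
  have ha1 : a ≠ 1 := by
    rintro rfl
    apply hN1
    rw [← hza]; simp
  obtain ⟨m, hm⟩ := (IsPGroup.iff_orderOf.1 hR) a
  have hm1 : 1 ≤ m := by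
    rcases Nat.eq_zero_or_pos m with rfl | h
    · rw [pow_zero, orderOf_eq_one_iff] at hm
      exact absurd hm ha1
    · exact h
  obtain ⟨m', rfl⟩ : ∃ m', m = m' + 1 := ⟨m - 1, by omega⟩
  set z := a ^ (p ^ m') with hz
  have hzp : z ^ p = 1 := by
    rw [hz, ← pow_mul, ← pow_succ, ← hm, pow_orderOf_eq_one]
  have hz1 : z ≠ 1 := by
    intro h
    have h1 := orderOf_dvd_of_pow_eq_one h
    rw [hm] at h1
    have h2 := Nat.le_of_dvd (pow_pos hpos _) h1
    have h3 : p ^ m' < p ^ (m' + 1) := Nat.pow_lt_pow_right hpp.out.one_lt (by omega)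
    omega
  have hzo : orderOf z = p := orderOf_eq_prime hzp hz1
  -- elements of `N` of order dividing `p`
  have hNz : ∀ u : ℕ, (a ^ u) ^ p = 1 → a ^ u ∈ zpowers z := by
    intro u hu
    rw [← pow_mul] at hu
    have h1 := orderOf_dvd_of_pow_eq_one hu
    rw [hm, pow_succ, mul_comm u] at h1
    have h2 : p ^ m' ∣ u := Nat.dvd_of_mul_dvd_mul_left hpos (by rwa [mul_comm] at h1)
    obtain ⟨v, rfl⟩ := h2
    rw [pow_mul]
    exact npow_mem_zpowers _ _
  have hpowN : ∀ n ∈ N, ∃ u : ℕ, a ^ u = n := by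
    intro n hn
    rw [← hza, ← mem_powers_iff_mem_zpowers] at hn
    exact hn
  have hNz' : ∀ n ∈ N, n ^ p = 1 → n ∈ zpowers z := by
    intro n hn h
    obtain ⟨u, rfl⟩ := hpowN n hn
    exact hNz u h
  have hzN : z ∈ N := by
    rw [← hza]
    exact npow_mem_zpowers _ _
  -- an element of order `p` outside `⟨z⟩`
  obtain ⟨b, hbp, hbz⟩ : ∃ b : R, b ^ p = 1 ∧ b ∉ zpowers z := by
    by_contra hall
    push Not at hall
    apply hnc
    obtain ⟨k, hk⟩ := IsPGroup.iff_card.1 hR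
    have hk2 : 2 ≤ k := by
      by_contra hlt
      have : k = 0 ∨ k = 1 := by omega
      rcases this with rfl | rfl
      · apply hnc
        rw [pow_zero] at hk
        haveI : Subsingleton R := (Nat.card_eq_one_iff_unique.1 hk).1
        infer_instance
      · apply hnc
        rw [pow_one] at hk
        exact isCyclic_of_prime_card (hk.trans (rfl))
    obtain ⟨d, hd⟩ : ∃ d, k = 1 + 1 + d := ⟨k - 2, by omega⟩
    refine Cfsg.Agent.Lib.SubCount.isCyclic_of_unique_aux hpp.out hk d 1 hd le_rfl (Or.inl hp2) ?_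
    have key : ∀ H : Subgroup R, Nat.card H = p ^ 1 → H = zpowers z := by
      intro H hH
      rw [pow_one] at hH
      have hle : H ≤ zpowers z := by
        intro h hh
        apply hall
        have := pow_card_eq_one' (x := (⟨h, hh⟩ : H))
        rw [hH] at this
        simpa using congrArg Subtype.val this
      refine Subgroup.eq_of_le_of_card_ge hle ?_
      rw [hH, Nat.card_zpowers, hzo]
    intro H K hH hK
    rw [key H hH, key K hK]
  have hbN : b ∉ N := fun h => hbz (hNz' b h hbp)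
  have hb1 : b ≠ 1 := by
    rintro rfl
    exact hbN N.one_mem
  have hbo : orderOf b = p := orderOf_eq_prime hbp hb1
  have hconj : ∀ y : R, ∃ r : ℕ, y * a * y⁻¹ = a ^ r := by
    intro y
    obtain ⟨u, hu⟩ := hpowN (y * a * y⁻¹) (hNn.conj_mem a (by rw [← hza]; exact mem_zpowers a) y)
    exact ⟨u, hu.symm⟩
  -- `z` and `b` commute
  have hcomm : Commute z b := by
    obtain ⟨r, hr⟩ := hconj b
    have hr1 := r_modEq hm1 hm hbp hr
    have h1 : b * z * b⁻¹ = z ^ r := by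
      rw [hz, ← conj_pow, hr, ← pow_mul, ← pow_mul, mul_comm]
    have h2 : z ^ r = z := by
      have h3 : z ^ r = z ^ 1 := pow_eq_pow_iff_modEq.2 (by rwa [hzo])
      rwa [pow_one] at h3
    rw [h2] at h1
    have h4 : b * z = z * b := by
      calc b * z = (b * z * b⁻¹) * b := by group
        _ = z * b := by rw [h1]
    exact h4.symm
  set E : Subgroup R := zpowers z ⊔ zpowers b with hE
  -- description of `E`
  have hEform : ∀ x ∈ E, ∃ i j : ℤ, x = z ^ i * b ^ j := by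
    intro x hx
    rw [hE, zpowers_eq_closure, zpowers_eq_closure, ← Subgroup.closure_union] at hx
    induction hx using Subgroup.closure_induction with
    | mem x hx =>
      rcases hx with hx | hx
      · rw [Set.mem_singleton_iff] at hx
        exact ⟨1, 0, by simp [hx]⟩
      · rw [Set.mem_singleton_iff] at hx
        exact ⟨0, 1, by simp [hx]⟩
    | one => exact ⟨0, 0, by simp⟩
    | mul x y _ _ hx hy =>
      obtain ⟨i, j, rfl⟩ := hx
      obtain ⟨k, l, rfl⟩ := hy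
      refine ⟨i + k, j + l, ?_⟩
      rw [zpow_add, zpow_add]
      have := ((hcomm.zpow_zpow k j).eq).symm
      calc z ^ i * b ^ j * (z ^ k * b ^ l) = z ^ i * (b ^ j * z ^ k) * b ^ l := by group
        _ = z ^ i * (z ^ k * b ^ j) * b ^ l := by rw [this]
        _ = _ := by group
    | inv x _ hx =>
      obtain ⟨i, j, rfl⟩ := hx
      refine ⟨-i, -j, ?_⟩
      rw [mul_inv_rev, zpow_neg, zpow_neg]
      exact ((hcomm.zpow_zpow i j).inv_inv).eq.symm
  have hzE : z ∈ E := (le_sup_left : zpowers z ≤ E) (mem_zpowers z)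
  have hbE : b ∈ E := (le_sup_right : zpowers b ≤ E) (mem_zpowers b)
  -- the main claim
  have hmain : ∀ x : R, x ^ p = 1 → x ∈ E := by
    intro x hx
    have hbar : (x : R ⧸ N) ∈ zpowers (b : R ⧸ N) := by
      have hb1' : (b : R ⧸ N) ≠ 1 := by
        rwa [Ne, QuotientGroup.eq_one_iff]
      have hb2' : (b : R ⧸ N) ^ p = 1 := by
        rw [← QuotientGroup.mk_pow, hbp]; rfl
      have hbo' : orderOf (b : R ⧸ N) = p := orderOf_eq_prime hb2' hb1'
      by_cases hx1 : (x : R ⧸ N) = 1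
      · rw [hx1]; exact one_mem _
      · have hx2 : (x : R ⧸ N) ^ p = 1 := by
          rw [← QuotientGroup.mk_pow, hx]; rfl
        have hxo : orderOf (x : R ⧸ N) = p := orderOf_eq_prime hx2 hx1
        have h := Cfsg.Agent.Lib.LConn.unique_of_cyclic (p := p) (zpowers (x : R ⧸ N)) (zpowers (b : R ⧸ N))
          (by rw [Nat.card_zpowers, hxo]) (by rw [Nat.card_zpowers, hbo'])
        rw [← h]
        exact mem_zpowers _
    obtain ⟨j, hj⟩ := Subgroup.mem_zpowers_iff.1 hbar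
    set y := b ^ j with hy
    have hyp : y ^ p = 1 := by
      rw [hy, ← zpow_natCast, ← zpow_mul, mul_comm, zpow_mul, zpow_natCast, hbp, one_zpow]
    have hxy : x * y⁻¹ ∈ N := by
      rw [← QuotientGroup.eq_one_iff, QuotientGroup.mk_mul, QuotientGroup.mk_inv, hy, QuotientGroup.mk_zpow, hj]
      group
    obtain ⟨u, hu⟩ := hpowN _ hxy
    have hxu : x = a ^ u * y := by rw [hu]; group
    obtain ⟨r, hr⟩ := hconj y
    have hr1 := r_modEq hm1 hm hyp hr
    obtain ⟨w, hw, hwp⟩ := sum_form hp2 hr1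
    have h1 := Cfsg.Agent.Lib.LdCM.mul_pow_aux hr u p
    rw [← hxu, hx, hyp, mul_one, hw] at h1
    have h2 := orderOf_dvd_of_pow_eq_one h1.symm
    rw [hm, ← mul_assoc] at h2
    have hcop : Nat.Coprime (p ^ (m' + 1)) w := Nat.Coprime.pow_left _ ((Nat.Prime.coprime_iff_not_dvd hpp.out).2 hwp)
    have h3 : p ^ (m' + 1) ∣ u * p := hcop.dvd_of_dvd_mul_right h2
    have h4 : (a ^ u) ^ p = 1 := by
      rw [← pow_mul]
      exact orderOf_dvd_iff_pow_eq_one.1 (by rwa [hm])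
    have h5 := hNz u h4
    rw [hxu]
    exact mul_mem ((le_sup_left : zpowers z ≤ E) h5) (zpow_mem hbE j)
  have hOm : Cfsg.omegaOne p (⊤ : Subgroup R) = E := by
    apply le_antisymm
    · unfold Cfsg.omegaOne
      rw [Subgroup.closure_le]
      rintro x ⟨-, hx⟩
      exact hmain x hx
    · rw [hE, sup_le_iff, zpowers_le, zpowers_le]
      exact ⟨Subgroup.subset_closure ⟨mem_top _, hzp⟩, Subgroup.subset_closure ⟨mem_top _, hbp⟩⟩
  rw [hOm]
  refine ⟨⟨⟨⟨?_⟩⟩, ?_⟩, ?_⟩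
  · rintro ⟨x, hx⟩ ⟨y, hy⟩
    obtain ⟨i, j, rfl⟩ := hEform x hx
    obtain ⟨k, l, rfl⟩ := hEform y hy
    apply Subtype.ext
    have := ((hcomm.zpow_zpow k j).eq).symm
    have h2 := ((hcomm.zpow_zpow i l).eq)
    change z ^ i * b ^ j * (z ^ k * b ^ l) = z ^ k * b ^ l * (z ^ i * b ^ j)
    calc z ^ i * b ^ j * (z ^ k * b ^ l) = z ^ i * (b ^ j * z ^ k) * b ^ l := by group
      _ = z ^ i * (z ^ k * b ^ j) * b ^ l := by rw [this]
      _ = z ^ (i + k) * b ^ (j + l) := by rw [zpow_add, zpow_add]; group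
      _ = z ^ (k + i) * b ^ (l + j) := by rw [add_comm i k, add_comm j l]
      _ = z ^ k * (z ^ i * b ^ l) * b ^ j := by rw [zpow_add, zpow_add]; group
      _ = z ^ k * (b ^ l * z ^ i) * b ^ j := by rw [h2]
      _ = _ := by group
  · intro x hx
    obtain ⟨i, j, rfl⟩ := hEform x hx
    rw [(hcomm.zpow_zpow i j).mul_pow, ← zpow_natCast, ← zpow_natCast, ← zpow_mul, ← zpow_mul, mul_comm i, mul_comm j,
      zpow_mul, zpow_mul, zpow_natCast, zpow_natCast, hzp, hbp, one_zpow, one_zpow, one_mul]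
  · have hnorm : zpowers z ≤ Subgroup.normalizer (zpowers b : Set R) := by
      apply Cfsg.Agent.Lib.H1Cop.le_normalizer_of_forall
      intro c hc k hk
      obtain ⟨i, rfl⟩ := mem_zpowers_iff.1 hc
      obtain ⟨j, rfl⟩ := mem_zpowers_iff.1 hk
      rw [(hcomm.zpow_zpow i j).eq, mul_inv_cancel_right]
      exact hk
    have h := Cfsg.Agent.Lib.H1Cop.card_sup_mul_inf_of_normalizes hnorm
    have hinf : Nat.card (zpowers z ⊓ zpowers b : Subgroup R) = 1 := by
      have hd := Subgroup.card_dvd_of_le (inf_le_right : zpowers z ⊓ zpowers b ≤ zpowers b)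
      rw [Nat.card_zpowers, hbo] at hd
      rcases (Nat.dvd_prime hpp.out).1 hd with h1 | h1
      · exact h1
      · exfalso
        have h2 : zpowers z ⊓ zpowers b = zpowers b := by
          refine Subgroup.eq_of_le_of_card_ge inf_le_right ?_
          rw [h1, Nat.card_zpowers, hbo]
        apply hbz
        have h3 : b ∈ zpowers z ⊓ zpowers b := by
          rw [h2]; exact mem_zpowers b
        exact h3.1
    rw [hinf, mul_one, Nat.card_zpowers, Nat.card_zpowers, hzo, hbo] at h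
    rw [hE, h, sq]

end Cfsg.Agent.Lib.LdMet
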