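import Cfsg.Prelude.Def_LocalEven
import Cfsg.Agent.Lib.H1SL2

set_option autoImplicit false

/-! The natural module of `SL₂`: coordinates. -/

namespace Cfsg.Agent.Lib.LdNat

open Subgroup Matrix Cfsg.Agent.Lib.H1GL2 Cfsg.Agent.Lib.H1SL2
open scoped commutatorElement

section coord

variable {G : Type*} [Group G] {F : Type*} [Field F] {V T : Subgroup G}
  (ψ : Additive V ≃+ (Fin 2 → F))

/-- first coordinate -/
def X (v : ↥V) : F := ψ (Additive.ofMul v) 0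
/-- second coordinate -/
def Y (v : ↥V) : F := ψ (Additive.ofMul v) 1

theorem X_mul (u v : ↥V) : X ψ (u * v) = X ψ u + X ψ v := by
  simp [X]
theorem Y_mul (u v : ↥V) : Y ψ (u * v) = Y ψ u + Y ψ v := by
  simp [Y]
theorem X_one : X ψ (1 : ↥V) = 0 := by
  simp [X]
theorem Y_one : Y ψ (1 : ↥V) = 0 := by
  simp [Y]
theorem X_inv (v : ↥V) : X ψ v⁻¹ = - X ψ v := by
  have h := X_mul ψ v v⁻¹
  rw [mul_inv_cancel, X_one] at h
  linear_combination -h
theorem Y_inv (v : ↥V) : Y ψ v⁻¹ = - Y ψ v := by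
  have h := Y_mul ψ v v⁻¹
  rw [mul_inv_cancel, Y_one] at h
  linear_combination -h

theorem coord_ext {u v : ↥V} (h1 : X ψ u = X ψ v) (h2 : Y ψ u = Y ψ v) : u = v := by
  have h : ψ (Additive.ofMul u) = ψ (Additive.ofMul v) := by
    funext i
    fin_cases i
    · exact h1
    · exact h2
  exact Additive.ofMul.injective (ψ.injective h)

theorem exists_coord (a c : F) : ∃ v : ↥V, X ψ v = a ∧ Y ψ v = c := by
  refine ⟨Additive.toMul (ψ.symm ![a, c]), ?_, ?_⟩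
  · simp [X]
  · simp [Y]

include ψ in
theorem V_comm (u v : ↥V) : u * v = v * u :=
  coord_ext ψ (by rw [X_mul, X_mul, add_comm]) (by rw [Y_mul, Y_mul, add_comm])

variable (b : ↥T → F)
  (hact : ∀ (t : ↥T) (v : ↥V), ∃ w : ↥V, (w : G) = (t : G) * (v : G) * (t : G)⁻¹ ∧
    X ψ w = X ψ v + b t * Y ψ v ∧ Y ψ w = Y ψ v)

include hact in
theorem comm_val (v : ↥V) (t : ↥T) : ∃ c : ↥V, (c : G) = (v : G) * t * (v : G)⁻¹ * (t : G)⁻¹ ∧
    X ψ c = -(b t * Y ψ v) ∧ Y ψ c = 0 := by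
  obtain ⟨w, hw, hw1, hw2⟩ := hact t v⁻¹
  refine ⟨v * w, ?_, ?_, ?_⟩
  · rw [Subgroup.coe_mul, hw, Subgroup.coe_inv]
    group
  · rw [X_mul, hw1, X_inv, Y_inv]
    ring
  · rw [Y_mul, hw2, Y_inv]
    ring

include hact in
theorem conj_of_Y (v : ↥V) (hY : Y ψ v = 0) (t : ↥T) : (t : G) * (v : G) * (t : G)⁻¹ = v := by
  obtain ⟨w, hw, hw1, hw2⟩ := hact t v
  rw [← hw]
  congr 1
  apply coord_ext ψ
  · rw [hw1, hY, mul_zero, add_zero]
  · exact hw2

include hact in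
theorem Y_of_comm (v : ↥V) (t : ↥T) (h : (t : G) * (v : G) = (v : G) * t) : b t * Y ψ v = 0 := by
  obtain ⟨w, hw, hw1, -⟩ := hact t v
  have h1 : (w : G) = v := by
    rw [hw, h]
    group
  have h2 : w = v := Subtype.ext h1
  rw [h2] at hw1
  linear_combination -hw1

variable (hbs : Function.Surjective b) (hb0 : ∀ t, b t = 0 → t = 1)

include hact hbs in
theorem mem_Z (g : G) : g ∈ V ⊓ centralizer (T : Set G) ↔ ∃ h : g ∈ V, Y ψ ⟨g, h⟩ = 0 := by
  constructor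
  · rintro ⟨h1, h2⟩
    refine ⟨h1, ?_⟩
    obtain ⟨t, ht⟩ := hbs 1
    have h3 := Y_of_comm ψ b hact ⟨g, h1⟩ t (mem_centralizer_iff.1 h2 t t.2)
    rwa [ht, one_mul] at h3
  · rintro ⟨h1, h2⟩
    refine ⟨h1, ?_⟩
    show g ∈ centralizer (T : Set G)
    rw [mem_centralizer_iff]
    intro t ht
    have h3 := conj_of_Y ψ b hact ⟨g, h1⟩ h2 ⟨t, ht⟩
    calc t * g = (t * g * t⁻¹) * t := by group
      _ = g * t := by
        have h4 : t * g * t⁻¹ = g := h3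
        rw [h4]

include hact hbs hb0 in
theorem cent_single {s : G} (hs : s ∈ T) (hs1 : s ≠ 1) :
    V ⊓ centralizer ({s} : Set G) = V ⊓ centralizer (T : Set G) := by
  have hbne : b ⟨s, hs⟩ ≠ 0 := fun h => hs1 (congrArg Subtype.val (hb0 _ h))
  ext g
  rw [mem_Z ψ b hact hbs]
  constructor
  · rintro ⟨h1, h2⟩
    refine ⟨h1, ?_⟩
    have h3 := Y_of_comm ψ b hact ⟨g, h1⟩ ⟨s, hs⟩ (mem_centralizer_singleton_iff.1 h2).symm
    exact (mul_eq_zero.1 h3).resolve_left hbne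
  · rintro ⟨h1, h2⟩
    refine ⟨h1, ?_⟩
    have h3 := conj_of_Y ψ b hact ⟨g, h1⟩ h2 ⟨s, hs⟩
    show g ∈ centralizer ({s} : Set G)
    rw [mem_centralizer_singleton_iff]
    have h4 : s * g * s⁻¹ = g := h3
    calc g * s = (s * g * s⁻¹) * s := by rw [h4]
      _ = s * g := by group

include hact hbs in
theorem comm_mem_Z {v t : G} (hv : v ∈ V) (ht : t ∈ T) : v * t * v⁻¹ * t⁻¹ ∈ V ⊓ centralizer (T : Set G) := by
  obtain ⟨c, hc, -, hc2⟩ := comm_val ψ b hact ⟨v, hv⟩ ⟨t, ht⟩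
  rw [mem_Z ψ b hact hbs]
  have h1 : v * t * v⁻¹ * t⁻¹ = c := hc.symm
  rw [h1]
  exact ⟨c.2, hc2⟩

include hact hbs in
theorem commutator_le_Z : ⁅V, T⁆ ≤ V ⊓ centralizer (T : Set G) := by
  rw [Subgroup.commutator_le]
  intro v hv t ht
  rw [commutatorElement_def]
  exact comm_mem_Z ψ b hact hbs hv ht

include hact hbs in
theorem comm_comm : ⁅⁅V, T⁆, T⁆ = ⊥ := by
  rw [eq_bot_iff, Subgroup.commutator_le]
  intro z hz t ht
  have h1 := commutator_le_Z ψ b hact hbs hz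
  have h2 : t * z = z * t := mem_centralizer_iff.1 h1.2 t ht
  rw [commutatorElement_def]
  have h3 : z * t * z⁻¹ * t⁻¹ = 1 := by
    rw [← h2]
    group
  rw [h3]
  exact one_mem _

include hact hbs hb0 in
theorem zpowers_eq {s : G} (hs : s ∈ T) (hs1 : s ≠ 1) :
    ⁅V, zpowers s⁆ = V ⊓ centralizer (T : Set G) := by
  have hbne : b ⟨s, hs⟩ ≠ 0 := fun h => hs1 (congrArg Subtype.val (hb0 _ h))
  apply le_antisymm
  · exact (commutator_mono le_rfl ((zpowers_le).2 hs)).trans (commutator_le_Z ψ b hact hbs)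
  · intro z hz
    obtain ⟨hzV, hzY⟩ := (mem_Z ψ b hact hbs z).1 hz
    obtain ⟨v, hv1, hv2⟩ := exists_coord ψ (0 : F) (-(X ψ ⟨z, hzV⟩) / b ⟨s, hs⟩)
    obtain ⟨c, hc, hc1, hc2⟩ := comm_val ψ b hact v ⟨s, hs⟩
    have h1 : c = ⟨z, hzV⟩ := by
      apply coord_ext ψ
      · rw [hc1, hv2]
        field_simp
      · rw [hc2, hzY]
    have h2 : z = ⁅(v : G), s⁆ := by
      rw [commutatorElement_def]
      have h3 : (c : G) = z := congrArg Subtype.val h1
      rw [← h3]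
      exact hc
    rw [h2]
    exact commutator_mem_commutator v.2 (mem_zpowers s)

include hact hbs hb0 in
theorem commutator_eq {s : G} (hs : s ∈ T) (hs1 : s ≠ 1) :
    ⁅V, T⁆ = V ⊓ centralizer (T : Set G) := by
  apply le_antisymm (commutator_le_Z ψ b hact hbs)
  rw [← zpowers_eq ψ b hact hbs hb0 hs hs1]
  exact commutator_mono le_rfl ((zpowers_le).2 hs)

include hact hbs in
theorem closure_eq {v : G} (hv : v ∈ V) (hvc : v ∉ centralizer (T : Set G)) :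
    closure {x : G | ∃ t ∈ T, x = v * t * v⁻¹ * t⁻¹} = V ⊓ centralizer (T : Set G) := by
  have hY : Y ψ ⟨v, hv⟩ ≠ 0 := by
    intro h
    exact hvc ((mem_Z ψ b hact hbs v).2 ⟨hv, h⟩).2
  apply le_antisymm
  · rw [closure_le]
    rintro x ⟨t, ht, rfl⟩
    exact comm_mem_Z ψ b hact hbs hv ht
  · intro z hz
    obtain ⟨hzV, hzY⟩ := (mem_Z ψ b hact hbs z).1 hz
    obtain ⟨t, ht⟩ := hbs (-(X ψ ⟨z, hzV⟩) / Y ψ ⟨v, hv⟩)
    obtain ⟨c, hc, hc1, hc2⟩ := comm_val ψ b hact ⟨v, hv⟩ t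
    have h1 : c = ⟨z, hzV⟩ := by
      apply coord_ext ψ
      · rw [hc1, ht]
        field_simp
      · rw [hc2, hzY]
    apply Subgroup.subset_closure
    refine ⟨t, t.2, ?_⟩
    have h2 := congrArg Subtype.val h1
    rw [← hc]
    exact h2.symm

include ψ in
theorem card_V [Fintype F] : Nat.card V = Fintype.card F ^ 2 := by
  have h1 : Nat.card V = Nat.card (Additive V) := rfl
  rw [h1, Nat.card_congr ψ.toEquiv, Nat.card_fun, Nat.card_eq_fintype_card]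
  simp

include hact hbs in
theorem card_Z [Fintype F] : Nat.card ↥(V ⊓ centralizer (T : Set G)) = Fintype.card F := by
  rw [← Nat.card_eq_fintype_card]
  refine Nat.card_congr (Equiv.ofBijective (fun z => X ψ ⟨z.1, z.2.1⟩) ⟨?_, ?_⟩)
  · rintro ⟨z, hz⟩ ⟨z', hz'⟩ h
    obtain ⟨h1, h2⟩ := (mem_Z ψ b hact hbs z).1 hz
    obtain ⟨h1', h2'⟩ := (mem_Z ψ b hact hbs z').1 hz'
    have h3 : (⟨z, h1⟩ : ↥V) = ⟨z', h1'⟩ := coord_ext ψ h (by rw [h2, h2'])
    have h4 : z = z' := congrArg Subtype.val h3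
    exact Subtype.ext h4
  · intro a
    obtain ⟨v, hv1, hv2⟩ := exists_coord ψ a (0 : F)
    have h1 := (mem_Z ψ b hact hbs v.1).2 ⟨v.2, hv2⟩
    exact ⟨⟨v.1, h1⟩, hv1⟩

end coord

section nat

variable {F : Type*} [Field F]

/-- The unipotent subgroup. -/
def Uz (F : Type*) [Field F] : Subgroup (SL2 F) where
  carrier := Set.range tv
  mul_mem' := by
    rintro _ _ ⟨a, rfl⟩ ⟨b, rfl⟩
    exact ⟨a + b, (tv_mul a b).symm⟩
  one_mem' := ⟨0, tv_zero⟩
  inv_mem' := by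
    rintro _ ⟨a, rfl⟩
    exact ⟨-a, eq_inv_of_mul_eq_one_left (by rw [tv_mul, neg_add_cancel, tv_zero])⟩

theorem tv_injective : Function.Injective (tv : F → SL2 F) := by
  intro a b h
  have := congrArg (fun m : SL2 F => (m : M2 F) 0 1) h
  simpa using this

theorem card_Uz [Fintype F] : Nat.card (Uz F) = Fintype.card F := by
  rw [← Nat.card_eq_fintype_card]
  exact (Nat.card_congr (Equiv.ofInjective (tv : F → SL2 F) tv_injective)).symm

/-- Multiplication by `g` as an additive equivalence. -/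
def mv (g : SL2 F) : (Fin 2 → F) ≃+ (Fin 2 → F) where
  toFun w := (g : M2 F).mulVec w
  invFun w := ((g⁻¹ : SL2 F) : M2 F).mulVec w
  left_inv w := by
    show ((g⁻¹ : SL2 F) : M2 F).mulVec ((g : M2 F).mulVec w) = w
    rw [Matrix.mulVec_mulVec, ← Matrix.SpecialLinearGroup.coe_mul, inv_mul_cancel,
      Matrix.SpecialLinearGroup.coe_one, Matrix.one_mulVec]
  right_inv w := by
    show (g : M2 F).mulVec (((g⁻¹ : SL2 F) : M2 F).mulVec w) = w
    rw [Matrix.mulVec_mulVec, ← Matrix.SpecialLinearGroup.coe_mul, mul_inv_cancel,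
      Matrix.SpecialLinearGroup.coe_one, Matrix.one_mulVec]
  map_add' x y := Matrix.mulVec_add _ _ _

variable {G : Type*} [Group G] [Finite G] {p : ℕ} [Fact p.Prime] [Fintype F]

theorem from_nat (n : ℕ) (hF : Fintype.card F = p ^ n) (V L : Subgroup G)
    (hnat : Cfsg.IsNaturalSL2Module F V L)
    (hf : L ⊓ centralizer (V : Set G) = ⊥) (S : Sylow p ↥L) (T : Subgroup G)
    (hT : T = (S : Subgroup ↥L).map L.subtype) :
    ∃ (ψ : Additive V ≃+ (Fin 2 → F)) (b : ↥T → F), Function.Surjective b ∧ (∀ t, b t = 0 → t = 1) ∧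
      ∀ (t : ↥T) (v : ↥V), ∃ w : ↥V, (w : G) = (t : G) * (v : G) * (t : G)⁻¹ ∧
        X ψ w = X ψ v + b t * Y ψ v ∧ Y ψ w = Y ψ v := by
  classical
  have hpp : p.Prime := Fact.out
  obtain ⟨hnorm, ρ, ψ₀, hsurj, hker, hact₀⟩ := hnat
  have hinj : Function.Injective ρ := by
    rw [injective_iff_map_eq_one]
    intro l hl
    have h1 : l ∈ ρ.ker := hl
    rw [hker] at h1
    have h2 : (l : G) ∈ L ⊓ centralizer (V : Set G) := ⟨l.2, h1⟩
    rw [hf] at h2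
    exact Subtype.ext h2
  have hcardL : Nat.card L = Fintype.card F * (Fintype.card F ^ 2 - 1) := by
    rw [← card_sl2]
    exact Nat.card_congr (Equiv.ofBijective ρ ⟨hinj, hsurj⟩)
  let UL : Subgroup ↥L := (Uz F).comap ρ
  have hULcard : Nat.card UL = p ^ n := by
    rw [← hF, ← card_Uz (F := F)]
    have h1 : UL.map ρ = Uz F := Subgroup.map_comap_eq_self_of_surjective hsurj _
    rw [← h1, Subgroup.card_map_of_injective hinj]
  have hULp : IsPGroup p UL := IsPGroup.of_card hULcard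
  have hq1 : 1 < Fintype.card F := Fintype.one_lt_card
  have hn : n ≠ 0 := by
    rintro rfl
    rw [hF, pow_zero] at hq1
    exact lt_irrefl _ hq1
  have hidx : ¬ p ∣ UL.index := by
    have h1 := UL.card_mul_index
    rw [hULcard, hcardL, ← hF] at h1
    have h2 : UL.index = Fintype.card F ^ 2 - 1 :=
      Nat.eq_of_mul_eq_mul_left (by omega) h1
    rw [h2]
    intro h3
    have h4 : p ∣ Fintype.card F := by
      rw [hF]
      exact dvd_pow_self p hn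
    have h5 : p ∣ Fintype.card F ^ 2 := h4.trans (dvd_pow_self _ two_ne_zero)
    have h6 : 1 ≤ Fintype.card F ^ 2 := Nat.one_le_pow _ _ (by omega)
    have h7 : p ∣ 1 := by
      have h8 := (Nat.dvd_sub h5 h3)
      rwa [Nat.sub_sub_self h6] at h8
    exact hpp.one_lt.ne' (Nat.dvd_one.1 h7)
  let SU : Sylow p ↥L := hULp.toSylow hidx
  obtain ⟨l, hl⟩ := MulAction.exists_smul_eq ↥L S SU
  have hconj : ∀ s : ↥L, s ∈ (S : Subgroup ↥L) ↔ l * s * l⁻¹ ∈ UL := by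
    intro s
    have h1 : ((l • S : Sylow p ↥L) : Subgroup ↥L) = UL := by
      rw [hl]
      rfl
    rw [← h1, Sylow.coe_subgroup_smul]
    exact (Subgroup.smul_mem_pointwise_smul_iff (a := MulAut.conj l) (S := (S : Subgroup ↥L)) (x := s)).symm
  set g := ρ l with hg
  have hTL : T ≤ L := by
    rw [hT]
    rintro _ ⟨s, -, rfl⟩
    exact s.2
  have hTS : ∀ t : ↥T, (⟨t.1, hTL t.2⟩ : ↥L) ∈ (S : Subgroup ↥L) := by
    rintro ⟨t, ht⟩
    have h1 := ht
    rw [hT] at h1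
    obtain ⟨s, hs, hst⟩ := h1
    have h2 : (⟨t, hTL ht⟩ : ↥L) = s := Subtype.ext hst.symm
    rw [h2]
    exact hs
  let u : ↥T → SL2 F := fun t => ρ (l * ⟨t.1, hTL t.2⟩ * l⁻¹)
  have hu : ∀ t, u t ∈ Uz F := fun t => (hconj _).1 (hTS t)
  have hu2 : ∀ t, u t = tv ((u t : M2 F) 0 1) := by
    intro t
    obtain ⟨β, hβ⟩ := hu t
    rw [← hβ]
    simp
  refine ⟨ψ₀.trans (mv g), fun t => (u t : M2 F) 0 1, ?_, ?_, ?_⟩
  · intro β
    obtain ⟨l₀, hl₀⟩ := hsurj (tv β)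
    have h1 : l₀ ∈ UL := by
      show ρ l₀ ∈ Uz F
      rw [hl₀]
      exact ⟨β, rfl⟩
    have h2 : l⁻¹ * l₀ * l ∈ (S : Subgroup ↥L) := by
      rw [hconj]
      have h3 : l * (l⁻¹ * l₀ * l) * l⁻¹ = l₀ := by group
      rwa [h3]
    have h4 : ((l⁻¹ * l₀ * l : ↥L) : G) ∈ T := by
      rw [hT]
      exact ⟨_, h2, rfl⟩
    refine ⟨⟨_, h4⟩, ?_⟩
    have h5 : l * (⟨((l⁻¹ * l₀ * l : ↥L) : G), hTL h4⟩ : ↥L) * l⁻¹ = l₀ := by
      have h6 : (⟨((l⁻¹ * l₀ * l : ↥L) : G), hTL h4⟩ : ↥L) = l⁻¹ * l₀ * l := rfl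
      rw [h6]
      group
    show (ρ (l * (⟨((l⁻¹ * l₀ * l : ↥L) : G), hTL h4⟩ : ↥L) * l⁻¹) : M2 F) 0 1 = β
    rw [h5, hl₀]
    simp
  · intro t ht
    have h1 : u t = tv 0 := by
      have h2 := hu2 t
      have ht' : (u t : M2 F) 0 1 = 0 := ht
      rwa [ht'] at h2
    rw [tv_zero] at h1
    have h3 : l * (⟨t.1, hTL t.2⟩ : ↥L) * l⁻¹ = 1 := hinj (by rw [map_one]; exact h1)
    have h4 : (⟨t.1, hTL t.2⟩ : ↥L) = 1 := by
      have h5 : (⟨t.1, hTL t.2⟩ : ↥L) = l⁻¹ * (l * (⟨t.1, hTL t.2⟩ : ↥L) * l⁻¹) * l := by group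
      rw [h5, h3]
      group
    have h5 : (t : G) = 1 := congrArg Subtype.val h4
    exact Subtype.ext h5
  · intro t v
    obtain ⟨w, hw, hw2⟩ := hact₀ ⟨t.1, hTL t.2⟩ v
    refine ⟨w, hw, ?_⟩
    have hut : (u t) * g = g * ρ ⟨t.1, hTL t.2⟩ := by
      show ρ (l * ⟨t.1, hTL t.2⟩ * l⁻¹) * ρ l = ρ l * ρ ⟨t.1, hTL t.2⟩
      rw [← map_mul, ← map_mul]
      congr 1
      group
    have hm : ((u t : SL2 F) : M2 F) * (g : M2 F) = (g : M2 F) * (ρ ⟨t.1, hTL t.2⟩ : M2 F) := by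
      rw [← Matrix.SpecialLinearGroup.coe_mul, ← Matrix.SpecialLinearGroup.coe_mul, hut]
    have hψw : (ψ₀.trans (mv g)) (Additive.ofMul w) = ((u t : SL2 F) : M2 F).mulVec ((ψ₀.trans (mv g)) (Additive.ofMul v)) := by
      show (g : M2 F).mulVec (ψ₀ (Additive.ofMul w)) = ((u t : SL2 F) : M2 F).mulVec ((g : M2 F).mulVec (ψ₀ (Additive.ofMul v)))
      rw [hw2, Matrix.mulVec_mulVec, Matrix.mulVec_mulVec, hm]
    have h00 : ((u t : SL2 F) : M2 F) 0 0 = 1 := by rw [hu2 t]; simp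
    have h10 : ((u t : SL2 F) : M2 F) 1 0 = 0 := by rw [hu2 t]; simp
    have h11 : ((u t : SL2 F) : M2 F) 1 1 = 1 := by rw [hu2 t]; simp
    constructor
    · show (ψ₀.trans (mv g)) (Additive.ofMul w) 0 = _
      rw [hψw]
      simp only [X, Y, Matrix.mulVec, dotProduct, Fin.sum_univ_two, h00]
      ring
    · show (ψ₀.trans (mv g)) (Additive.ofMul w) 1 = _
      rw [hψw]
      simp only [X, Y, Matrix.mulVec, dotProduct, Fin.sum_univ_two, h10, h11]
      ring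

end nat

end Cfsg.Agent.Lib.LdNat
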