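import Mathlib
import Cfsg.Agent.Lib.WielandtJoin
import Cfsg.Agent.Lib.Comp2
import Cfsg.Prelude.Def_Transfer

/-!
# Subnormal subgroups with `[V, E₁, E₂] = 1`
-/

set_option autoImplicit false

namespace Cfsg.Agent.Lib.LdOff

open Subgroup
open scoped commutatorElement

variable {G : Type*} [Group G] [Finite G] {p : ℕ} [hpp : Fact p.Prime]

theorem comm_of {V : Subgroup G} (hV : IsMulCommutative V) {a b : G} (ha : a ∈ V) (hb : b ∈ V) : a * b = b * a :=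
  congrArg (fun z : V => (z : G)) (hV.is_comm.comm ⟨a, ha⟩ ⟨b, hb⟩)

/-- elements of `N_H(V)` acting trivially on `V / U` and on `U`. -/
def QQ (V U X : Subgroup G) (hU : U ≤ V) (hXV : X ≤ normalizer (V : Set G)) (hVc : IsMulCommutative V) : Subgroup G where
  carrier := {x | x ∈ X ∧ (∀ v ∈ V, x * v * x⁻¹ * v⁻¹ ∈ U) ∧ ∀ u ∈ U, x * u = u * x}
  one_mem' := ⟨one_mem _, fun v _ => by simp, fun u _ => by simp⟩
  mul_mem' := by
    rintro x y ⟨hx, hx1, hx2⟩ ⟨hy, hy1, hy2⟩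
    refine ⟨mul_mem hx hy, fun v hv => ?_, fun u hu => ?_⟩
    · have hw : y * v * y⁻¹ ∈ V := (mem_normalizer_iff.1 (hXV hy) v).1 hv
      have h1 := hx1 _ hw
      have h2 := hy1 v hv
      have h3 := mul_mem h1 h2
      have h4 : x * (y * v * y⁻¹) * x⁻¹ * (y * v * y⁻¹)⁻¹ * (y * v * y⁻¹ * v⁻¹) = x * y * v * (x * y)⁻¹ * v⁻¹ := by group
      rwa [h4] at h3
    · rw [mul_assoc, hy2 u hu, ← mul_assoc, hx2 u hu, mul_assoc]
  inv_mem' := by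
    rintro x ⟨hx, hx1, hx2⟩
    refine ⟨inv_mem hx, fun v hv => ?_, fun u hu => ?_⟩
    · have hw : x⁻¹ * v * x⁻¹⁻¹ ∈ V := (mem_normalizer_iff.1 (hXV (inv_mem hx)) v).1 hv
      have h1 := hx1 _ hw
      have h2 := inv_mem h1
      have h3 : (x * (x⁻¹ * v * x⁻¹⁻¹) * x⁻¹ * (x⁻¹ * v * x⁻¹⁻¹)⁻¹)⁻¹ = x⁻¹ * v * x⁻¹⁻¹ * v⁻¹ := by group
      rwa [h3] at h2
    · have h1 := hx2 u hu
      calc x⁻¹ * u = x⁻¹ * (u * x) * x⁻¹ := by group
        _ = x⁻¹ * (x * u) * x⁻¹ := by rw [h1]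
        _ = u * x⁻¹ := by group

theorem pow_act {U V : Subgroup G} (hU : U ≤ V) (hVc : IsMulCommutative V) {x v u : G} (hu : u ∈ U) (hv : v ∈ V)
    (h1 : x * v * x⁻¹ * v⁻¹ = u) (h2 : x * u = u * x) (k : ℕ) : x ^ k * v * (x ^ k)⁻¹ = u ^ k * v := by
  induction k with
  | zero => simp
  | succ k ih =>
    have h3 : x * v * x⁻¹ = u * v := by rw [← h1]; group
    have h4 : x * u ^ k = u ^ k * x := ((Commute.pow_right h2 k)).eq
    calc x ^ (k + 1) * v * (x ^ (k + 1))⁻¹ = x * (x ^ k * v * (x ^ k)⁻¹) * x⁻¹ := by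
          rw [pow_succ']; group
      _ = x * (u ^ k * v) * x⁻¹ := by rw [ih]
      _ = (x * u ^ k) * v * x⁻¹ := by group
      _ = u ^ k * (x * v * x⁻¹) := by rw [h4]; group
      _ = u ^ k * (u * v) := by rw [h3]
      _ = u ^ (k + 1) * v := by rw [pow_succ]; group

theorem main (V H : Subgroup G) (hV : Cfsg.IsElementaryAbelian p V) (hHV : H ≤ Subgroup.normalizer (V : Set G))
    (hf : H ⊓ Subgroup.centralizer (V : Set G) = ⊥) (E₁ E₂ : Subgroup G) (h₁ : E₁ ≤ H) (h₂ : E₂ ≤ H)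
    (hs₁ : (E₁.subgroupOf H).IsSubnormal) (hs₂ : (E₂.subgroupOf H).IsSubnormal) (hc : ⁅⁅V, E₁⁆, E₂⁆ = ⊥) :
    ⁅E₁, E₂⁆ ≤ (Cfsg.pCore p H).map H.subtype := by
  classical
  obtain ⟨hVc, hVp⟩ := hV
  set U : Subgroup G := ⁅V, E₁⁆ with hUdef
  set X : Subgroup G := E₁ ⊔ E₂ with hXdef
  have hXH : X ≤ H := sup_le h₁ h₂
  have hXV : X ≤ normalizer (V : Set G) := hXH.trans hHV
  have hE₁V : E₁ ≤ normalizer (V : Set G) := h₁.trans hHV
  have hE₂V : E₂ ≤ normalizer (V : Set G) := h₂.trans hHV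
  have hUV : U ≤ V := by
    rw [hUdef, Subgroup.commutator_le]
    intro v hv e he
    have h1 : e * v⁻¹ * e⁻¹ ∈ V := (mem_normalizer_iff.1 (hE₁V he) v⁻¹).1 (inv_mem hv)
    have h2 : ⁅v, e⁆ = v * (e * v⁻¹ * e⁻¹) := by simp [commutatorElement_def]; group
    rw [h2]
    exact mul_mem hv h1
  have hmemU : ∀ e ∈ E₁, ∀ v ∈ V, e * v * e⁻¹ * v⁻¹ ∈ U := by
    intro e he v hv
    have h1 : e * v * e⁻¹ * v⁻¹ = ⁅v, e⁆⁻¹ := by simp [commutatorElement_def]; group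
    rw [h1]
    exact inv_mem (Subgroup.commutator_mem_commutator hv he)
  have hE₂U : ∀ e ∈ E₂, ∀ u ∈ U, e * u = u * e := by
    intro e he u hu
    have h1 : ⁅u, e⁆ ∈ ⁅⁅V, E₁⁆, E₂⁆ := Subgroup.commutator_mem_commutator hu he
    rw [hc, mem_bot, commutatorElement_eq_one_iff_mul_comm] at h1
    exact h1.symm
  -- normalizing `U`
  have hUE₁ : ∀ e ∈ E₁, ∀ u ∈ U, e * u * e⁻¹ ∈ U := by
    intro e he u hu
    have hle : U ≤ (U).comap (MulAut.conj e).toMonoidHom := by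
      conv_lhs => rw [hUdef]
      rw [Subgroup.commutator_le]
      intro v hv e' he'
      change e * ⁅v, e'⁆ * e⁻¹ ∈ U
      have h1 : e * ⁅v, e'⁆ * e⁻¹ = ⁅e * v * e⁻¹, e * e' * e⁻¹⁆ := by
        simp [commutatorElement_def]; group
      rw [h1]
      exact Subgroup.commutator_mem_commutator ((mem_normalizer_iff.1 (hE₁V he) v).1 hv)
        (mul_mem (mul_mem he he') (inv_mem he))
    exact hle hu
  have hnormU : X ≤ normalizer (U : Set G) := by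
    rw [hXdef, sup_le_iff]
    constructor
    · intro e he
      rw [mem_normalizer_iff]
      intro u
      constructor
      · exact hUE₁ e he u
      · intro hu
        have := hUE₁ e⁻¹ (inv_mem he) _ hu
        simpa [mul_assoc] using this
    · intro e he
      rw [mem_normalizer_iff]
      intro u
      constructor
      · intro hu
        rw [hE₂U e he u hu, mul_inv_cancel_right]
        exact hu
      · intro hu
        have h1 := hE₂U e⁻¹ (inv_mem he) _ hu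
        have h2 : e⁻¹ * (e * u * e⁻¹) = u * e⁻¹ := by group
        rw [h2] at h1
        have h3 : u = e * u * e⁻¹ := mul_right_cancel h1
        rw [h3]
        exact hu
  let Q : Subgroup G := QQ V U X hUV hXV hVc
  have hQp : ∀ x ∈ Q, x ^ p = 1 := by
    rintro x ⟨hx, hx1, hx2⟩
    have h1 : x ^ p ∈ H ⊓ Subgroup.centralizer (V : Set G) := by
      refine mem_inf.2 ⟨H.pow_mem (hXH hx) p, ?_⟩
      rw [mem_centralizer_iff]
      intro v hv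
      have h2 := pow_act hUV hVc (hx1 v hv) hv rfl (hx2 _ (hx1 v hv)) p
      rw [hVp _ (hUV (hx1 v hv)), one_mul] at h2
      calc v * x ^ p = (x ^ p * v * (x ^ p)⁻¹) * x ^ p := by rw [h2]
        _ = x ^ p * v := by group
    rw [hf, mem_bot] at h1
    exact h1
  have hQX : Q ≤ X := fun x hx => hx.1
  have hQn : ∀ g ∈ X, ∀ x ∈ Q, g * x * g⁻¹ ∈ Q := by
    rintro g hg x ⟨hx, hx1, hx2⟩
    refine ⟨mul_mem (mul_mem hg hx) (inv_mem hg), fun v hv => ?_, fun u hu => ?_⟩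
    · have hw : g⁻¹ * v * g⁻¹⁻¹ ∈ V := (mem_normalizer_iff.1 (hXV (inv_mem hg)) v).1 hv
      have h1 := hx1 _ hw
      have h2 := (mem_normalizer_iff.1 (hnormU hg) _).1 h1
      have h3 : g * (x * (g⁻¹ * v * g⁻¹⁻¹) * x⁻¹ * (g⁻¹ * v * g⁻¹⁻¹)⁻¹) * g⁻¹ = g * x * g⁻¹ * v * (g * x * g⁻¹)⁻¹ * v⁻¹ := by group
      rwa [h3] at h2
    · have hw : g⁻¹ * u * g⁻¹⁻¹ ∈ U := (mem_normalizer_iff.1 (hnormU (inv_mem hg)) u).1 hu
      have h1 := hx2 _ hw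
      calc g * x * g⁻¹ * u = g * (x * (g⁻¹ * u * g⁻¹⁻¹)) * g⁻¹ := by group
        _ = g * ((g⁻¹ * u * g⁻¹⁻¹) * x) * g⁻¹ := by rw [h1]
        _ = _ := by group
  -- the commutators
  have hcomm : ⁅E₁, E₂⁆ ≤ Q := by
    rw [Subgroup.commutator_le]
    intro e₁ he₁ e₂ he₂
    have hX1 : e₁ ∈ X := (le_sup_left : E₁ ≤ X) he₁
    have hX2 : e₂ ∈ X := (le_sup_right : E₂ ≤ X) he₂
    refine ⟨mul_mem (mul_mem (mul_mem hX1 hX2) (inv_mem hX1)) (inv_mem hX2), fun v hv => ?_, fun u hu => ?_⟩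
    · -- acts trivially on `V / U`
      have hw : e₂⁻¹ * v * e₂⁻¹⁻¹ ∈ V := (mem_normalizer_iff.1 (hE₂V (inv_mem he₂)) v).1 hv
      have hu1 := hmemU e₁⁻¹ (inv_mem he₁) _ hw
      set w := e₂⁻¹ * v * e₂⁻¹⁻¹ with hwdef
      set u₁ := e₁⁻¹ * w * e₁⁻¹⁻¹ * w⁻¹ with hu₁def
      have h1 : e₁⁻¹ * w * e₁⁻¹⁻¹ = u₁ * w := by rw [hu₁def]; group
      have h2 := hE₂U e₂ he₂ u₁ hu1
      have h3 : e₂ * (u₁ * w) * e₂⁻¹ = u₁ * v := by
        rw [← mul_assoc, h2, mul_assoc, mul_assoc, hwdef]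
        group
      have hu2 := hmemU e₁ he₁ v hv
      have hu3 := hUE₁ e₁ he₁ u₁ hu1
      have h4 : ⁅e₁, e₂⁆ * v * ⁅e₁, e₂⁆⁻¹ * v⁻¹ = (e₁ * u₁ * e₁⁻¹) * (e₁ * v * e₁⁻¹ * v⁻¹) := by
        calc ⁅e₁, e₂⁆ * v * ⁅e₁, e₂⁆⁻¹ * v⁻¹ = e₁ * (e₂ * (e₁⁻¹ * w * e₁⁻¹⁻¹) * e₂⁻¹) * e₁⁻¹ * v⁻¹ := by
              simp only [commutatorElement_def, hwdef]; group
          _ = e₁ * (u₁ * v) * e₁⁻¹ * v⁻¹ := by rw [h1, h3]
          _ = _ := by group
      rw [h4]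
      exact mul_mem hu3 hu2
    · -- acts trivially on `U`
      have hu1 := hUE₁ e₁⁻¹ (inv_mem he₁) u hu
      have h1 := hE₂U e₂ he₂ _ hu1
      have h2 := hE₂U e₂⁻¹ (inv_mem he₂) u hu
      have h3 : e₂ * (e₁⁻¹ * u * e₁⁻¹⁻¹) * e₂⁻¹ = e₁⁻¹ * u * e₁⁻¹⁻¹ := by
        rw [h1]; group
      have h4 : e₂⁻¹ * u = u * e₂⁻¹ := h2
      calc ⁅e₁, e₂⁆ * u = e₁ * e₂ * e₁⁻¹ * (e₂⁻¹ * u) := by
            simp only [commutatorElement_def]; group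
        _ = e₁ * e₂ * e₁⁻¹ * (u * e₂⁻¹) := by rw [h4]
        _ = e₁ * (e₂ * (e₁⁻¹ * u * e₁⁻¹⁻¹) * e₂⁻¹) * e₂ * e₁⁻¹ * e₂⁻¹ := by group
        _ = e₁ * (e₁⁻¹ * u * e₁⁻¹⁻¹) * e₂ * e₁⁻¹ * e₂⁻¹ := by rw [h3]
        _ = u * ⁅e₁, e₂⁆ := by simp only [commutatorElement_def]; group
  -- in `H`
  have hXsn : (X.subgroupOf H).IsSubnormal := by
    rw [hXdef, Subgroup.subgroupOf_sup h₁ h₂]
    exact Cfsg.Agent.Lib.WielandtJoin.isSubnormal_sup hs₁ hs₂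
  have hQsn : (Q.subgroupOf H).IsSubnormal := by
    refine IsSubnormal.step _ (X.subgroupOf H) ?_ hXsn ?_
    · intro x hx
      exact Subgroup.mem_subgroupOf.2 (hQX (Subgroup.mem_subgroupOf.1 hx))
    · refine ⟨fun x hx g => ?_⟩
      rw [Subgroup.mem_subgroupOf, Subgroup.mem_subgroupOf] at hx ⊢
      exact hQn _ (Subgroup.mem_subgroupOf.1 g.2) _ hx
  have hQpg : IsPGroup p (Q.subgroupOf H) := by
    intro x
    refine ⟨1, ?_⟩
    rw [pow_one]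
    apply Subtype.ext
    apply Subtype.ext
    exact hQp _ (Subgroup.mem_subgroupOf.1 x.2)
  have hle := Cfsg.Agent.Lib.Comp2.pgroup_subnormal_le hQsn hQpg
  intro x hx
  have hxQ := hcomm hx
  exact ⟨⟨x, hXH (hQX hxQ)⟩, hle (Subgroup.mem_subgroupOf.2 hxQ), rfl⟩

end Cfsg.Agent.Lib.LdOff
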