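import Mathlib
import Cfsg.Agent.Lib.PNilp

/-!
# A quaternion Sylow 2-subgroup without a normal complement
-/

set_option autoImplicit false

namespace Cfsg.Agent.Lib.LdQ8

open Subgroup

variable {G : Type*} [Group G]

theorem odd_root {g : G} [Finite G] (h : Nat.Coprime (orderOf g) 2) : ∃ m : ℕ, (g * g) ^ m = g := by
  have hodd : Odd (orderOf g) := Nat.Coprime.odd_of_right h
  obtain ⟨r, hr⟩ := hodd
  refine ⟨r + 1, ?_⟩
  rw [← pow_two, ← pow_mul]
  have : 2 * (r + 1) = orderOf g + 1 := by omega
  rw [this, pow_succ, pow_orderOf_eq_one, one_mul]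

/-- An element of odd order normalizing `⟨t⟩`, `t^4=1`, commutes with `t`. -/
theorem comm_of_norm [Finite G] {g t : G} (hg : Nat.Coprime (orderOf g) 2) (ht : t ^ 4 = 1)
    (hn : g * t * g⁻¹ ∈ zpowers t) : g * t = t * g := by
  obtain ⟨m, hm⟩ := odd_root hg
  -- g*g commutes with t
  have key : g * g * t = t * (g * g) := by
    obtain ⟨k, hk⟩ := mem_zpowers_iff.1 hn
    have hk4 : t ^ (k % 4) = g * t * g⁻¹ := by
      rw [← hk]
      conv_rhs => rw [← Int.emod_add_mul_ediv k 4]
      rw [zpow_add, zpow_mul]
      have : t ^ (4 : ℤ) = 1 := by exact_mod_cast ht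
      rw [this, one_zpow, mul_one]
    have hcases : k % 4 = 0 ∨ k % 4 = 1 ∨ k % 4 = 2 ∨ k % 4 = 3 := by omega
    have hconj : g * t * g⁻¹ = t → g * t = t * g := by
      intro h
      calc g * t = (g * t * g⁻¹) * g := by group
        _ = t * g := by rw [h]
    rcases hcases with h | h | h | h
    · rw [h, zpow_zero] at hk4
      have h1 : t = 1 := by
        have h2 : g * t = g := by
          have := congrArg (· * g) hk4.symm
          simpa using this
        simpa using h2
      rw [h1]; simp
    · rw [h, zpow_one] at hk4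
      have := hconj hk4.symm
      calc g * g * t = g * (g * t) := by group
        _ = g * (t * g) := by rw [this]
        _ = (g * t) * g := by group
        _ = (t * g) * g := by rw [this]
        _ = _ := by group
    · rw [h] at hk4
      have h2 : t ^ 2 = g * t * g⁻¹ := by exact_mod_cast hk4
      have h3 : (g * t * g⁻¹) ^ 2 = 1 := by
        rw [← h2, ← pow_mul]; exact ht
      have h4 : g * t ^ 2 * g⁻¹ = 1 := by
        rw [← h3, conj_pow]
      have h5 : t ^ 2 = 1 := by
        have := congrArg (fun x => g⁻¹ * x * g) h4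
        simpa [mul_assoc] using this
      have h6 : g * t * g⁻¹ = 1 := by rw [← h2, h5]
      have h7 : t = 1 := by
        have := congrArg (fun x => g⁻¹ * x * g) h6
        simpa [mul_assoc] using this
      rw [h7]; simp
    · rw [h] at hk4
      have h2 : t ^ 3 = g * t * g⁻¹ := by exact_mod_cast hk4
      have h3 : t ^ 3 = t⁻¹ := by
        rw [eq_inv_iff_mul_eq_one, ← pow_succ]; exact ht
      have h4 : g * t * g⁻¹ = t⁻¹ := by rw [← h2, h3]
      have h5 : g * t⁻¹ * g⁻¹ = t := by
        have := congrArg (·⁻¹) h4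
        simpa [mul_assoc] using this
      calc g * g * t = g * (g * t * g⁻¹) * g := by group
        _ = g * t⁻¹ * g := by rw [h4]
        _ = (g * t⁻¹ * g⁻¹) * (g * g) := by group
        _ = t * (g * g) := by rw [h5]
  have h2 : Commute (g * g) t := key
  have h3 := h2.pow_left m
  rw [hm] at h3
  exact h3

theorem mem_norm_of_map {H : Subgroup G} {n : G} (h : H.map (MulAut.conj n).toMonoidHom = H) :
    n ∈ normalizer (H : Set G) := by
  rw [mem_normalizer_iff]
  intro x
  constructor
  · intro hx
    have : (MulAut.conj n).toMonoidHom x ∈ H.map (MulAut.conj n).toMonoidHom := ⟨x, hx, rfl⟩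
    rw [h] at this
    exact this
  · intro hx
    rw [← h] at hx
    obtain ⟨y, hy, hyx⟩ := hx
    have : y = x := by
      have h2 : n * y * n⁻¹ = n * x * n⁻¹ := hyx
      simpa using h2
    rwa [← this]

theorem map_of_mem_norm [Finite G] {H : Subgroup G} {n : G} (h : n ∈ normalizer (H : Set G)) :
    H.map (MulAut.conj n).toMonoidHom = H := by
  apply Subgroup.eq_of_le_of_card_ge
  · rintro _ ⟨x, hx, rfl⟩
    exact (mem_normalizer_iff.1 h x).1 hx
  · apply le_of_eq
    exact Nat.card_congr (H.equivMapOfInjective _ (MulAut.conj n).injective).toEquiv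

/-- The combinatorial part. -/
theorem perm3 {X : Type*} (a b c : X) (hab : a ≠ b) (hac : a ≠ c) (hbc : b ≠ c) (C : X → X)
    (hC : Function.Injective C)
    (ha : C a = a ∨ C a = b ∨ C a = c) (hb : C b = a ∨ C b = b ∨ C b = c)
    (hc : C c = a ∨ C c = b ∨ C c = c)
    (h2 : ∀ H, H = a ∨ H = b ∨ H = c → C (C H) = H → C H = H)
    (hne : ¬ (C a = a ∧ C b = b ∧ C c = c))
    (A B : X) (hA : A = a ∨ A = b ∨ A = c) (hB : B = a ∨ B = b ∨ B = c) :
    A = B ∨ C A = B ∨ C (C A) = B := by
  have h2a := h2 a (Or.inl rfl)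
  have h2b := h2 b (Or.inr (Or.inl rfl))
  have h2c := h2 c (Or.inr (Or.inr rfl))
  have h1 : C a ≠ C b := fun h => hab (hC h)
  have h3 : C a ≠ C c := fun h => hac (hC h)
  have h4 : C b ≠ C c := fun h => hbc (hC h)
  clear h2 hC
  have key : (C a = b ∧ C b = c ∧ C c = a) ∨ (C a = c ∧ C b = a ∧ C c = b) := by
    grind
  rcases key with ⟨k1, k2, k3⟩ | ⟨k1, k2, k3⟩ <;>
    rcases hA with rfl | rfl | rfl <;> rcases hB with rfl | rfl | rfl <;>
    simp [k1, k2, k3]

theorem comm_zpowers {g t : G} (h : g * t = t * g) : g ∈ centralizer (zpowers t : Set G) := by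
  rw [mem_centralizer_iff]
  intro y hy
  obtain ⟨k, rfl⟩ := mem_zpowers_iff.1 hy
  have h1 : Commute t g := h.symm
  exact (h1.zpow_left k)

open QuaternionGroup in
theorem main [Finite G] (S : Sylow 2 G) (e : (S : Subgroup G) ≃* QuaternionGroup 2)
    (hnc : ∀ N : Subgroup G, N.Normal → ¬ Subgroup.IsComplement' N (S : Subgroup G)) (A B : Subgroup G)
    (hA : A ≤ S) (hB : B ≤ S) (hA4 : Nat.card A = 4) (hB4 : Nat.card B = 4) :
    ∃ n ∈ Subgroup.normalizer ((S : Subgroup G) : Set G), B = A.map (MulAut.conj n).toMonoidHom := by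
  classical
  let ι : QuaternionGroup 2 →* G := (S : Subgroup G).subtype.comp e.symm.toMonoidHom
  have hinj : Function.Injective ι := by
    intro x y h
    have h1 : e.symm x = e.symm y := Subtype.ext h
    exact e.symm.injective h1
  have hmem : ∀ x, ι x ∈ (S : Subgroup G) := fun x => (e.symm x).2
  have hsurj : ∀ s ∈ (S : Subgroup G), ∃ x, ι x = s := by
    intro s hs
    refine ⟨e ⟨s, hs⟩, ?_⟩
    simp [ι]
  have D1 : ∀ x : QuaternionGroup 2, x = 1 ∨ x = a 2 ∨ x = a 1 ∨ x = (a 1)⁻¹ ∨ x = xa 0 ∨ x = (xa 0)⁻¹ ∨ x = xa 1 ∨ x = (xa 1)⁻¹ := by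
    decide
  have D2 : ∀ x : QuaternionGroup 2, x ^ 4 = 1 := by decide
  have D3 : (a 2 : QuaternionGroup 2) = (a 1) ^ 2 := by decide
  have D3' : (a 2 : QuaternionGroup 2) ^ 2 = 1 := by decide
  have D4i : ((a 1 : QuaternionGroup 2)) ^ 2 ≠ 1 := by decide
  have D4j : ((xa 0 : QuaternionGroup 2)) ^ 2 ≠ 1 := by decide
  have D4k : ((xa 1 : QuaternionGroup 2)) ^ 2 ≠ 1 := by decide
  have D5ij : (a 1 : QuaternionGroup 2) * xa 0 ≠ xa 0 * a 1 := by decide
  have D5ik : (a 1 : QuaternionGroup 2) * xa 1 ≠ xa 1 * a 1 := by decide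
  have D5jk : (xa 0 : QuaternionGroup 2) * xa 1 ≠ xa 1 * xa 0 := by decide
  have hcardS : Nat.card (S : Subgroup G) = 8 := by
    rw [Nat.card_congr e.toEquiv, Nat.card_eq_fintype_card, QuaternionGroup.card]
  set i := ι (a 1) with hi
  set j := ι (xa 0) with hj
  set k := ι (xa 1) with hk
  set z := ι (a 2) with hz
  have hord : ∀ x : QuaternionGroup 2, x ^ 2 ≠ 1 → orderOf (ι x) = 4 := by
    intro x hx
    have := orderOf_eq_prime_pow (x := ι x) (p := 2) (n := 1) (by
      rw [pow_one, ← map_pow]
      intro h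
      apply hx
      apply hinj
      rw [h, map_one]) (by
      show ι x ^ 4 = 1
      rw [← map_pow, D2, map_one])
    simpa using this
  have hoi : orderOf i = 4 := hord _ D4i
  have hoj : orderOf j = 4 := hord _ D4j
  have hok : orderOf k = 4 := hord _ D4k
  have hiS : i ∈ (S : Subgroup G) := hmem _
  have hjS : j ∈ (S : Subgroup G) := hmem _
  have hkS : k ∈ (S : Subgroup G) := hmem _
  have hz2 : z ^ 2 = 1 := by rw [hz, ← map_pow, D3', map_one]
  have hzi : z = i ^ 2 := by rw [hz, hi, ← map_pow, D3]
  have hall4 : ∀ s ∈ (S : Subgroup G), s ^ 4 = 1 := by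
    intro s hs
    obtain ⟨x, rfl⟩ := hsurj s hs
    rw [← map_pow, D2, map_one]
  have hlist : ∀ s ∈ (S : Subgroup G), s = 1 ∨ s = z ∨ s = i ∨ s = i⁻¹ ∨ s = j ∨ s = j⁻¹ ∨ s = k ∨ s = k⁻¹ := by
    intro s hs
    obtain ⟨x, rfl⟩ := hsurj s hs
    rcases D1 x with h | h | h | h | h | h | h | h <;> subst h
    · left; exact map_one ι
    · right; left; rfl
    · right; right; left; rfl
    · right; right; right; left; exact map_inv ι _
    · right; right; right; right; left; rfl
    · right; right; right; right; right; left; exact map_inv ι _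
    · right; right; right; right; right; right; left; rfl
    · right; right; right; right; right; right; right; exact map_inv ι _
  have hij : zpowers i ≠ zpowers j := by
    intro h
    have hj' : j ∈ zpowers i := by rw [h]; exact mem_zpowers j
    obtain ⟨m, hm⟩ := mem_zpowers_iff.1 hj'
    have : i * j = j * i := by rw [← hm]; exact (Commute.refl i).zpow_right m
    apply D5ij
    apply hinj
    rwa [map_mul, map_mul]
  have hik : zpowers i ≠ zpowers k := by
    intro h
    have hj' : k ∈ zpowers i := by rw [h]; exact mem_zpowers k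
    obtain ⟨m, hm⟩ := mem_zpowers_iff.1 hj'
    have : i * k = k * i := by rw [← hm]; exact (Commute.refl i).zpow_right m
    apply D5ik
    apply hinj
    rwa [map_mul, map_mul]
  have hjk : zpowers j ≠ zpowers k := by
    intro h
    have hj' : k ∈ zpowers j := by rw [h]; exact mem_zpowers k
    obtain ⟨m, hm⟩ := mem_zpowers_iff.1 hj'
    have : j * k = k * j := by rw [← hm]; exact (Commute.refl j).zpow_right m
    apply D5jk
    apply hinj
    rwa [map_mul, map_mul]
  -- a proper subgroup containing an element of order 4 is generated by it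
  have hgen : ∀ H : Subgroup G, H ≤ S → H ≠ S → ∀ t ∈ H, orderOf t = 4 → H = zpowers t := by
    intro H hH hne t ht hot
    symm
    apply Subgroup.eq_of_le_of_card_ge ((zpowers_le).2 ht)
    rw [Nat.card_zpowers, hot]
    have hd : Nat.card H ∣ 8 := by
      rw [← hcardS]; exact Subgroup.card_dvd_of_le hH
    have hne8 : Nat.card H ≠ 8 := by
      intro h8
      apply hne
      apply Subgroup.eq_of_le_of_card_ge hH
      rw [h8, hcardS]
    have h8 : (8 : ℕ) = 2 ^ 3 := by norm_num
    rw [h8] at hd hne8
    obtain ⟨m, hm, hmc⟩ := (Nat.dvd_prime_pow Nat.prime_two).1 hd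
    rw [hmc] at hne8 ⊢
    have hm2 : m ≤ 2 := by
      by_contra hgt
      have : m = 3 := by omega
      exact hne8 (by rw [this])
    calc 2 ^ m ≤ 2 ^ 2 := Nat.pow_le_pow_right (by norm_num) hm2
      _ = 4 := by norm_num
  have hclass : ∀ H : Subgroup G, H ≤ S → H ≠ S →
      (H = zpowers i ∨ H = zpowers j ∨ H = zpowers k) ∨ ∀ x ∈ H, x = 1 ∨ x = z := by
    intro H hH hne
    by_cases hx : ∀ x ∈ H, x = 1 ∨ x = z
    · exact Or.inr hx
    · left
      push Not at hx
      obtain ⟨x, hxH, hx1, hxz⟩ := hx
      rcases hlist x (hH hxH) with h | h | h | h | h | h | h | h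
      · exact absurd h hx1
      · exact absurd h hxz
      · subst h; left; exact hgen H hH hne _ hxH hoi
      · subst h; left
        rw [hgen H hH hne _ hxH (by rw [orderOf_inv, hoi]), zpowers_inv]
      · subst h; right; left; exact hgen H hH hne _ hxH hoj
      · subst h; right; left
        rw [hgen H hH hne _ hxH (by rw [orderOf_inv, hoj]), zpowers_inv]
      · subst h; right; right; exact hgen H hH hne _ hxH hok
      · subst h; right; right
        rw [hgen H hH hne _ hxH (by rw [orderOf_inv, hok]), zpowers_inv]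
  -- the element of odd order
  have hexists : ∃ g ∈ normalizer ((S : Subgroup G) : Set G), Nat.Coprime (orderOf g) 2 ∧
      g ∉ centralizer ((S : Subgroup G) : Set G) := by
    by_contra hcon
    push Not at hcon
    haveI : Fact (Nat.Prime 2) := ⟨Nat.prime_two⟩
    have hnp : HasNormalPComplement 2 G := by
      apply Cfsg.Agent.Lib.PNilp.hasNormalPComplement_of_automizer S
      intro Q hQ g hg hco
      by_cases hQS : Q = S
      · subst hQS
        exact hcon g hg hco
      · rcases hclass Q hQ hQS with (rfl | rfl | rfl) | h2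
        · apply comm_zpowers
          exact comm_of_norm hco (hall4 _ hiS) ((mem_normalizer_iff.1 hg i).1 (mem_zpowers i))
        · apply comm_zpowers
          exact comm_of_norm hco (hall4 _ hjS) ((mem_normalizer_iff.1 hg j).1 (mem_zpowers j))
        · apply comm_zpowers
          exact comm_of_norm hco (hall4 _ hkS) ((mem_normalizer_iff.1 hg k).1 (mem_zpowers k))
        · rw [mem_centralizer_iff]
          intro x hx
          rcases h2 x hx with rfl | rfl
          · simp
          · have h3 := h2 _ ((mem_normalizer_iff.1 hg z).1 hx)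
            rcases h3 with h3 | h3
            · have : z = 1 := by
                have h4 : g⁻¹ * (g * z * g⁻¹) * g = 1 := by rw [h3]; group
                simpa [mul_assoc] using h4
              rw [this]; simp
            · have h5 : g * z = z * g := by
                calc g * z = (g * z * g⁻¹) * g := by group
                  _ = z * g := by rw [h3]
              exact h5.symm
    obtain ⟨N, hN, hc⟩ := Cfsg.Agent.Lib.PNilp.exists_isComplement_of_hasNormalPComplement hnp S
    exact hnc N hN hc
  obtain ⟨g, hgN, hgco, hgC⟩ := hexists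
  let C : Subgroup G → Subgroup G := fun H => H.map (MulAut.conj g).toMonoidHom
  have hCinj : Function.Injective C := Subgroup.map_injective (MulAut.conj g).injective
  have hCS : ∀ H, H ≤ (S : Subgroup G) → C H ≤ S := by
    rintro H hH _ ⟨x, hx, rfl⟩
    exact (mem_normalizer_iff.1 hgN x).1 (hH hx)
  have hCcard : ∀ H, Nat.card (C H) = Nat.card H := by
    intro H
    exact Nat.card_congr (H.equivMapOfInjective _ (MulAut.conj g).injective).toEquiv.symm
  have hne8 : ∀ H : Subgroup G, Nat.card H = 4 → H ≠ (S : Subgroup G) := by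
    rintro H hH rfl
    rw [hcardS] at hH
    omega
  -- subgroups of order four are among the three
  have h𝒜 : ∀ H : Subgroup G, H ≤ S → Nat.card H = 4 → H = zpowers i ∨ H = zpowers j ∨ H = zpowers k := by
    intro H hH hc
    rcases hclass H hH (hne8 H hc) with h | h
    · exact h
    · exfalso
      have hsub : (H : Set G) ⊆ ({1, z} : Finset G) := by
        intro x hx
        rcases h x hx with rfl | rfl <;> simp
      have := Nat.card_le_card_of_injective (f := fun x : H => (⟨x.1, hsub x.2⟩ : ({1, z} : Finset G)))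
        (fun x y hxy => Subtype.ext (congrArg (fun w : ({1, z} : Finset G) => w.1) hxy))
      rw [hc] at this
      have h2 : Nat.card ({1, z} : Finset G) ≤ 2 := by
        rw [Nat.card_eq_fintype_card, Fintype.card_coe]
        exact Finset.card_le_two
      omega
  have hcard3 : ∀ t : G, orderOf t = 4 → Nat.card (zpowers t) = 4 := by
    intro t ht; rw [Nat.card_zpowers, ht]
  have hcci : Nat.card (zpowers i) = 4 := hcard3 i hoi
  have hccj : Nat.card (zpowers j) = 4 := hcard3 j hoj
  have hcck : Nat.card (zpowers k) = 4 := hcard3 k hok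
  have hzi' : zpowers i ≤ (S : Subgroup G) := (zpowers_le).2 hiS
  have hzj' : zpowers j ≤ (S : Subgroup G) := (zpowers_le).2 hjS
  have hzk' : zpowers k ≤ (S : Subgroup G) := (zpowers_le).2 hkS
  have hCmap : ∀ H : Subgroup G, H ≤ S → Nat.card H = 4 → C H = zpowers i ∨ C H = zpowers j ∨ C H = zpowers k := by
    intro H hH hc
    exact h𝒜 _ (hCS H hH) (by rw [hCcard, hc])
  have hmm : ∀ H : Subgroup G, C (C H) = H.map (MulAut.conj (g * g)).toMonoidHom := by
    intro H
    show (H.map (MulAut.conj g).toMonoidHom).map (MulAut.conj g).toMonoidHom = _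
    rw [Subgroup.map_map]
    congr 1
    apply MonoidHom.ext
    intro x
    simp [MulAut.conj_apply, mul_assoc]
  have h2 : ∀ H : Subgroup G, C (C H) = H → C H = H := by
    intro H hH
    rw [hmm] at hH
    have h1 := mem_norm_of_map hH
    obtain ⟨m, hm⟩ := odd_root hgco
    have h3 : g ∈ normalizer (H : Set G) := by
      rw [← hm]; exact Subgroup.pow_mem _ h1 m
    exact map_of_mem_norm h3
  have hne : ¬ (C (zpowers i) = zpowers i ∧ C (zpowers j) = zpowers j ∧ C (zpowers k) = zpowers k) := by
    rintro ⟨h1, h3, h4⟩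
    apply hgC
    have hci := comm_of_norm hgco (hall4 _ hiS) ((mem_normalizer_iff.1 (mem_norm_of_map h1) i).1 (mem_zpowers i))
    have hcj := comm_of_norm hgco (hall4 _ hjS) ((mem_normalizer_iff.1 (mem_norm_of_map h3) j).1 (mem_zpowers j))
    have hck := comm_of_norm hgco (hall4 _ hkS) ((mem_normalizer_iff.1 (mem_norm_of_map h4) k).1 (mem_zpowers k))
    rw [mem_centralizer_iff]
    intro s hs
    have hciz : Commute g i := hci
    have hcjz : Commute g j := hcj
    have hckz : Commute g k := hck
    have : Commute g s := by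
      rcases hlist s hs with h | h | h | h | h | h | h | h <;> subst h
      · exact Commute.one_right g
      · rw [hzi]; exact hciz.pow_right 2
      · exact hciz
      · exact hciz.inv_right
      · exact hcjz
      · exact hcjz.inv_right
      · exact hckz
      · exact hckz.inv_right
    exact this.symm
  have hfinal := perm3 (zpowers i) (zpowers j) (zpowers k) hij hik hjk C hCinj
    (hCmap _ hzi' hcci) (hCmap _ hzj' hccj) (hCmap _ hzk' hcck) (fun H _ => h2 H) hne A B
    (h𝒜 A hA hA4) (h𝒜 B hB hB4)
  rcases hfinal with h | h | h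
  · refine ⟨1, Subgroup.one_mem _, ?_⟩
    rw [← h]
    ext x
    simp
  · exact ⟨g, hgN, h.symm⟩
  · refine ⟨g * g, Subgroup.mul_mem _ hgN hgN, ?_⟩
    rw [← h, hmm]

end Cfsg.Agent.Lib.LdQ8
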