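import Mathlib
import Cfsg.Prelude.Def_PLocal
import Cfsg.Agent.Lib.PGrp2

/-! Regular `p`-groups: Hall's closure of `p^n`-th powers, and Kemhadze's criterion. -/

set_option autoImplicit false
set_option linter.unusedSectionVars false
set_option linter.unusedVariables false

namespace Cfsg.Agent.Lib.LdReg

open Cfsg Subgroup
open scoped commutatorElement

universe u

/-- Regularity at one exponent. -/
def RegK (p k : ℕ) (G : Type*) [Group G] : Prop :=
  ∀ a b : G, ∃ c ∈ powerClosure p k ⁅Subgroup.closure ({a, b} : Set G), Subgroup.closure ({a, b} : Set G)⁆,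
    (a * b) ^ (p ^ k) = a ^ (p ^ k) * b ^ (p ^ k) * c

theorem powerClosure_mono {G : Type*} [Group G] (p k : ℕ) {S T : Subgroup G} (h : S ≤ T) :
    powerClosure p k S ≤ powerClosure p k T := by
  unfold powerClosure
  apply Subgroup.closure_mono
  rintro _ ⟨x, hx, rfl⟩
  exact ⟨x, h hx, rfl⟩

theorem powerClosure_le {G : Type*} [Group G] (p k : ℕ) (S : Subgroup G) : powerClosure p k S ≤ S := by
  unfold powerClosure
  rw [Subgroup.closure_le]
  rintro _ ⟨x, hx, rfl⟩
  exact S.pow_mem hx _

theorem pow_mem_powerClosure {G : Type*} [Group G] (p k : ℕ) {S : Subgroup G} {x : G} (hx : x ∈ S) :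
    x ^ p ^ k ∈ powerClosure p k S := Subgroup.subset_closure ⟨x, hx, rfl⟩

/-- image of a power closure from a subgroup -/
theorem coe_mem_powerClosure {G : Type*} [Group G] (p k : ℕ) (K : Subgroup G) (S : Subgroup K) (T : Subgroup G)
    (hST : S.map K.subtype ≤ T) {d : K} (hd : d ∈ powerClosure p k S) :
    (d : G) ∈ powerClosure p k T := by
  unfold powerClosure at hd
  induction hd using Subgroup.closure_induction with
  | mem y hy =>
    obtain ⟨x, hx, rfl⟩ := hy
    have : ((x : G)) ∈ T := hST (Subgroup.mem_map_of_mem _ hx)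
    simpa using pow_mem_powerClosure p k this
  | one => exact one_mem _
  | mul a b _ _ ha hb => exact mul_mem ha hb
  | inv a _ ha => exact inv_mem ha

/-- `RegK` passes to subgroups. -/
theorem regK_sub {p k : ℕ} {G : Type*} [Group G] (hG : RegK p k G) (H : Subgroup G) : RegK p k H := by
  intro a b
  obtain ⟨c, hc, he⟩ := hG a b
  let C : Subgroup H := Subgroup.closure ({a, b} : Set H)
  have hC : Subgroup.closure ({(a : G), (b : G)} : Set G) = C.map H.subtype := by
    rw [MonoidHom.map_closure, Set.image_pair]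
    rfl
  rw [hC, ← Subgroup.map_commutator] at hc
  have hP : powerClosure p k (⁅C, C⁆.map H.subtype) = (powerClosure p k ⁅C, C⁆).map H.subtype := by
    unfold powerClosure
    rw [MonoidHom.map_closure]
    congr 1
    ext y
    constructor
    · rintro ⟨x, ⟨x', hx', rfl⟩, rfl⟩
      exact ⟨x' ^ p ^ k, ⟨x', hx', rfl⟩, by simp⟩
    · rintro ⟨y', ⟨x', hx', rfl⟩, rfl⟩
      exact ⟨x', ⟨x', hx', rfl⟩, by simp⟩
  rw [hP] at hc
  obtain ⟨c', hc', rfl⟩ := hc
  refine ⟨c', hc', ?_⟩
  apply Subtype.ext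
  simpa using he

/-- from products of two powers to the power closure -/
theorem powerClosure_eq_of {G : Type*} [Group G] (p k : ℕ) (H : Subgroup G)
    (hH : ∀ a ∈ H, ∀ b ∈ H, ∃ x ∈ H, a ^ p ^ k * b ^ p ^ k = x ^ p ^ k) {c : G}
    (hc : c ∈ powerClosure p k H) : ∃ y ∈ H, c = y ^ p ^ k := by
  unfold powerClosure at hc
  induction hc using Subgroup.closure_induction with
  | mem y hy =>
    obtain ⟨x, hx, rfl⟩ := hy
    exact ⟨x, hx, rfl⟩
  | one => exact ⟨1, one_mem _, by simp⟩
  | mul a b _ _ ha hb =>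
    obtain ⟨x, hx, rfl⟩ := ha
    obtain ⟨y, hy, rfl⟩ := hb
    obtain ⟨z, hz, he⟩ := hH x hx y hy
    exact ⟨z, hz, he⟩
  | inv a _ ha =>
    obtain ⟨x, hx, rfl⟩ := ha
    exact ⟨x⁻¹, inv_mem hx, by simp⟩

/-- In a `p`-group generated by `a`, `b` with `ab` and the derived subgroup generating everything,
the group is commutative. -/
theorem comm_of_top {p : ℕ} [Fact p.Prime] {G : Type*} [Group G] [Finite G] (hp : IsPGroup p G) (x : G)
    (h : Subgroup.closure ({x} : Set G) ⊔ commutator G = ⊤) : ∀ u v : G, u * v = v * u := by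
  -- passing to the quotient by the normal closure
  classical
  haveI : Group.IsNilpotent G := hp.isNilpotent
  have hcl : Subgroup.closure ({x} : Set G) = ⊤ := by
    by_contra hne
    obtain ⟨M, hle, hM⟩ := (Set.toFinite {W : Subgroup G | W ≠ ⊤}).exists_le_maximal
      (a := Subgroup.closure ({x} : Set G)) hne
    have hcoat : IsCoatom M := by
      refine ⟨hM.prop, ?_⟩
      intro W hW
      by_contra hWt
      exact absurd (hM.le_of_ge (show W ≠ ⊤ from hWt) hW.le) (not_le_of_gt hW)
    have hcomm : commutator G ≤ M := (Cfsg.Agent.Lib.PGrp.coatom_index_of_isPGroup hp hcoat).2.2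
    have : (⊤ : Subgroup G) ≤ M := by
      rw [← h]
      exact sup_le hle hcomm
    exact hM.prop (top_le_iff.1 this)
  have hmem : ∀ z : G, z ∈ Subgroup.closure ({x} : Set G) := fun z => by rw [hcl]; trivial
  intro u v
  obtain ⟨i, rfl⟩ := Subgroup.mem_closure_singleton.1 (hmem u)
  obtain ⟨j, rfl⟩ := Subgroup.mem_closure_singleton.1 (hmem v)
  rw [← zpow_add, ← zpow_add, add_comm]

section Main

variable (p : ℕ) [Fact p.Prime]

/-- A product of two `q`-th powers is a `q`-th power, in a group regular at the exponent `q`. -/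
theorem main2 (k : ℕ) : ∀ (N : ℕ) (G : Type u) [Group G] [Finite G], Nat.card G = N → IsPGroup p G →
    RegK p k G → ∀ a b : G, ∃ x ∈ Subgroup.closure ({a, b} : Set G), a ^ p ^ k * b ^ p ^ k = x ^ p ^ k := by
  intro N
  induction N using Nat.strong_induction_on with
  | _ N ih =>
  intro G _ _ hN hp hG a b
  have IH : ∀ H : Subgroup G, H ≠ ⊤ → ∀ x ∈ H, ∀ y ∈ H, ∃ z ∈ H, x ^ p ^ k * y ^ p ^ k = z ^ p ^ k := by
    intro H hH x hx y hy
    have hcard : Nat.card H < N := by
      rw [← hN]
      have h1 : Nat.card H ≤ Nat.card G := Subgroup.card_le_card_group H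
      have h2 : Nat.card H ≠ Nat.card G := fun h => hH (Subgroup.eq_top_of_card_eq H h)
      omega
    obtain ⟨z, -, hz⟩ := ih _ hcard H rfl (hp.to_subgroup H) (regK_sub hG H) ⟨x, hx⟩ ⟨y, hy⟩
    refine ⟨z, z.2, ?_⟩
    simpa using congrArg Subtype.val hz
  by_cases htop : Subgroup.closure ({a, b} : Set G) = ⊤
  · by_cases hcomm : ∀ u v : G, u * v = v * u
    · refine ⟨a * b, mul_mem (Subgroup.subset_closure (by simp)) (Subgroup.subset_closure (by simp)), ?_⟩
      exact (Commute.mul_pow (show Commute a b from hcomm a b) _).symm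
    · -- the derived subgroup is proper, and so is `⟨ab⟩ G'`
      have hM : Subgroup.closure ({a * b} : Set G) ⊔ commutator G ≠ ⊤ := fun h =>
        hcomm (comm_of_top hp _ h)
      have hD : commutator G ≠ ⊤ := by
        intro h
        apply hM
        rw [h, sup_top_eq]
      obtain ⟨c, hc, he⟩ := hG a b
      rw [htop] at hc
      have hc' : c ∈ powerClosure p k (commutator G) := by
        rw [_root_.commutator_def]
        exact hc
      obtain ⟨y, hy, rfl⟩ := powerClosure_eq_of p k (commutator G) (IH _ hD) hc'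
      have h1 : a ^ p ^ k * b ^ p ^ k = (a * b) ^ p ^ k * (y⁻¹) ^ p ^ k := by
        rw [he, inv_pow]
        group
      obtain ⟨z, hz, hze⟩ := IH _ hM (a * b) (Subgroup.mem_sup_left (Subgroup.subset_closure rfl)) y⁻¹
        (Subgroup.mem_sup_right (inv_mem hy))
      refine ⟨z, by rw [htop]; trivial, ?_⟩
      rw [h1, hze]
  · obtain ⟨z, hz, hze⟩ := IH _ htop a (Subgroup.subset_closure (by simp)) b (Subgroup.subset_closure (by simp))
    exact ⟨z, hz, hze⟩

theorem mul_pow_of_reg {G : Type u} [Group G] [Finite G] (hp : IsPGroup p G) {k : ℕ} (hG : RegK p k G)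
    (H : Subgroup G) (a : G) (ha : a ∈ H) (b : G) (hb : b ∈ H) : ∃ x ∈ H, a ^ p ^ k * b ^ p ^ k = x ^ p ^ k := by
  obtain ⟨x, hx, he⟩ := main2 p k _ G rfl hp hG a b
  refine ⟨x, ?_, he⟩
  have : Subgroup.closure ({a, b} : Set G) ≤ H := by
    rw [Subgroup.closure_le]
    rintro y (rfl | rfl)
    · exact ha
    · exact hb
  exact this hx

theorem mem_powerClosure_iff {G : Type u} [Group G] [Finite G] (hp : IsPGroup p G) {k : ℕ} (hG : RegK p k G)
    (H : Subgroup G) {c : G} (hc : c ∈ powerClosure p k H) : ∃ y ∈ H, c = y ^ p ^ k :=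
  powerClosure_eq_of p k H (mul_pow_of_reg p hp hG H) hc

/-- the commutator of a power -/
theorem comm_pow_mem {G : Type u} [Group G] [Finite G] {k : ℕ} (hG : RegK p k G)
    (H : Subgroup G) {x y : G} (hx : x ∈ H) (hy : y ∈ H) :
    ⁅x ^ p ^ k, y⁆ ∈ powerClosure p k ⁅H, H⁆ := by
  let w := y * x⁻¹ * y⁻¹
  have hw : w ∈ H := mul_mem (mul_mem hy (inv_mem hx)) (inv_mem hy)
  have h1 : ⁅x ^ p ^ k, y⁆ = x ^ p ^ k * w ^ p ^ k := by
    rw [commutatorElement_def]
    have : w ^ p ^ k = y * (x ^ p ^ k)⁻¹ * y⁻¹ := by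
      show (y * x⁻¹ * y⁻¹) ^ p ^ k = _
      rw [show y * x⁻¹ * y⁻¹ = MulAut.conj y x⁻¹ from rfl, ← map_pow, inv_pow]
      rfl
    rw [this]
    group
  obtain ⟨c, hc, he⟩ := hG x w
  have hc' : c ∈ powerClosure p k ⁅H, H⁆ := by
    apply powerClosure_mono p k _ hc
    apply Subgroup.commutator_mono <;>
    · rw [Subgroup.closure_le]
      rintro z (rfl | rfl)
      · exact hx
      · exact hw
  have hxw : x * w = ⁅x, y⁆ := by
    rw [commutatorElement_def]
    show x * (y * x⁻¹ * y⁻¹) = _
    group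
  have h2 : x ^ p ^ k * w ^ p ^ k = (x * w) ^ p ^ k * c⁻¹ := by
    rw [he]
    group
  rw [h1, h2, hxw]
  refine mul_mem (pow_mem_powerClosure p k ?_) (inv_mem hc')
  exact Subgroup.commutator_mem_commutator hx hy

/-- **S0644** -/
theorem S0644_main {G : Type u} [Group G] [Finite G] (hG : IsRegularPGroup p G) (H : Subgroup G) (n : ℕ) :
    {y : G | ∃ x ∈ H, y = x ^ (p ^ n)} = (powerClosure p n H : Set G) ∧
      ⁅powerClosure p n H, powerClosure p n H⁆ ≤ powerClosure p n ⁅H, H⁆ := by
  have hK : RegK p n G := fun a b => hG.2 a b n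
  constructor
  · ext y
    constructor
    · rintro ⟨x, hx, rfl⟩
      exact pow_mem_powerClosure p n hx
    · intro hy
      exact mem_powerClosure_iff p hG.1 hK H hy
  · rw [Subgroup.commutator_le]
    intro a ha b hb
    obtain ⟨x, hx, rfl⟩ := mem_powerClosure_iff p hG.1 hK H ha
    exact comm_pow_mem p hK H hx (powerClosure_le p n H hb)

/-- Regularity at the exponent `p` implies it at all exponents. -/
theorem reg_of_reg1 : ∀ (N : ℕ) (G : Type u) [Group G] [Finite G], Nat.card G = N → IsPGroup p G →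
    RegK p 1 G → ∀ n, RegK p n G := by
  intro N
  induction N using Nat.strong_induction_on with
  | _ N ih =>
  intro G _ _ hN hp hG n a b
  cases n with
  | zero => exact ⟨1, one_mem _, by simp⟩
  | succ m =>
    set K := Subgroup.closure ({a, b} : Set G) with hKdef
    set D := ⁅K, K⁆ with hDdef
    by_cases hnt : Nat.card G = 1
    · haveI : Subsingleton G := (Nat.card_eq_one_iff_unique.1 hnt).1
      exact ⟨1, one_mem _, Subsingleton.elim _ _⟩
    have hnt' : Nontrivial G := by
      by_contra h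
      rw [not_nontrivial_iff_subsingleton] at h
      exact hnt Nat.card_unique
    let K₁ := powerClosure p 1 K
    have hK₁ : K₁ ≠ ⊤ := by
      intro h
      have hle : K₁ ≤ frattini G := by
        unfold K₁ powerClosure
        rw [Subgroup.closure_le]
        rintro _ ⟨x, -, rfl⟩
        rw [pow_one]
        exact Cfsg.Agent.Lib.PGrp.pow_mem_frattini hp x
      rw [h, top_le_iff] at hle
      obtain ⟨M, hM⟩ : ∃ M : Subgroup G, IsCoatom M := by
        obtain h := (IsCoatomic.eq_top_or_exists_le_coatom (⊥ : Subgroup G))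
        rcases h with h | ⟨M, hM, -⟩
        · exact absurd h bot_ne_top
        · exact ⟨M, hM⟩
      have : (⊤ : Subgroup G) ≤ M := by
        rw [← hle]
        exact frattini_le_coatom hM
      exact hM.1 (top_le_iff.1 this)
    have hcard : Nat.card K₁ < N := by
      rw [← hN]
      have h1 : Nat.card K₁ ≤ Nat.card G := Subgroup.card_le_card_group K₁
      have h2 : Nat.card K₁ ≠ Nat.card G := fun h => hK₁ (Subgroup.eq_top_of_card_eq K₁ h)
      omega
    have hreg := ih _ hcard K₁ rfl (hp.to_subgroup K₁) (regK_sub hG K₁) m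
    have ha : a ∈ K := Subgroup.subset_closure (by simp)
    have hb : b ∈ K := Subgroup.subset_closure (by simp)
    obtain ⟨e, he, hab⟩ := hG a b
    obtain ⟨c, hcD, rfl⟩ := mem_powerClosure_iff p hp hG D he
    have hDK : D ≤ K := by
      rw [hDdef, Subgroup.commutator_le]
      intro x hx y hy
      rw [commutatorElement_def]
      exact K.mul_mem (K.mul_mem (K.mul_mem hx hy) (K.inv_mem hx)) (K.inv_mem hy)
    have hcK : c ∈ K := hDK hcD
    simp only [pow_one] at hab
    have hpow : ∀ x ∈ K, x ^ p ∈ K₁ := by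
      intro x hx
      have := pow_mem_powerClosure p 1 hx
      simpa using this
    let x : K₁ := ⟨a ^ p, hpow a ha⟩
    let y : K₁ := ⟨b ^ p, hpow b hb⟩
    let z : K₁ := ⟨c ^ p, hpow c hcK⟩
    obtain ⟨d₁, hd₁, e₁⟩ := hreg x (y * z)
    obtain ⟨d₂, hd₂, e₂⟩ := hreg y z
    -- the commutator subgroup of `K₁`
    have hK₁' : ⁅K₁, K₁⁆ ≤ powerClosure p 1 D := by
      rw [Subgroup.commutator_le]
      intro u hu v hv
      obtain ⟨w, hw, rfl⟩ := mem_powerClosure_iff p hp hG K hu
      exact comm_pow_mem p hG K hw (powerClosure_le p 1 K hv)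
    have hpc : ∀ S : Subgroup K₁, ∀ d ∈ powerClosure p m ⁅S, S⁆, (d : G) ∈ powerClosure p (m + 1) D := by
      intro S d hd
      have h1 : (d : G) ∈ powerClosure p m ⁅K₁, K₁⁆ := by
        apply coe_mem_powerClosure p m K₁ _ _ _ hd
        rw [Subgroup.map_commutator]
        apply Subgroup.commutator_mono <;>
        · rintro _ ⟨s, -, rfl⟩
          exact s.2
      have h2 : powerClosure p m ⁅K₁, K₁⁆ ≤ powerClosure p (m + 1) D := by
        conv_lhs => unfold powerClosure
        rw [Subgroup.closure_le]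
        rintro _ ⟨w, hw, rfl⟩
        obtain ⟨v, hv, rfl⟩ := mem_powerClosure_iff p hp hG D (hK₁' hw)
        show (v ^ p ^ 1) ^ p ^ m ∈ _
        rw [← pow_mul, pow_one, ← pow_succ']
        exact pow_mem_powerClosure p (m + 1) hv
      exact h2 h1
    have hz : c ^ p ^ (m + 1) ∈ powerClosure p (m + 1) D := pow_mem_powerClosure p (m + 1) hcD
    refine ⟨c ^ p ^ (m + 1) * d₂ * d₁, mul_mem (mul_mem hz (hpc _ _ hd₂)) (hpc _ _ hd₁), ?_⟩
    have e₁' : ((a ^ p) * ((b ^ p) * (c ^ p))) ^ p ^ m =
        (a ^ p) ^ p ^ m * ((b ^ p) * (c ^ p)) ^ p ^ m * (d₁ : G) := by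
      simpa [x, y, z] using congrArg Subtype.val e₁
    have e₂' : ((b ^ p) * (c ^ p)) ^ p ^ m = (b ^ p) ^ p ^ m * (c ^ p) ^ p ^ m * (d₂ : G) := by
      simpa [y, z] using congrArg Subtype.val e₂
    have hexp : ∀ w : G, w ^ p ^ (m + 1) = (w ^ p) ^ p ^ m := by
      intro w
      rw [← pow_mul, pow_succ]
      ring_nf
    rw [hexp (a * b), hab, hexp a, hexp b, hexp c, mul_assoc (a ^ p), e₁', e₂']
    group

/-- **S0643** -/
theorem S0643_main {G : Type u} [Group G] [Finite G] (hG : IsPGroup p G) :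
    IsRegularPGroup p G ↔ ∀ a b : G, ∃ c ∈ ⁅Subgroup.closure ({a, b} : Set G), Subgroup.closure ({a, b} : Set G)⁆,
      (a * b) ^ p = a ^ p * b ^ p * c ^ p := by
  constructor
  · intro h a b
    have hK : RegK p 1 G := fun a b => h.2 a b 1
    obtain ⟨e, he, hab⟩ := h.2 a b 1
    obtain ⟨c, hc, rfl⟩ := mem_powerClosure_iff p hG hK _ he
    refine ⟨c, hc, ?_⟩
    simpa using hab
  · intro h
    have hK : RegK p 1 G := by
      intro a b
      obtain ⟨c, hc, he⟩ := h a b
      refine ⟨c ^ p, ?_, by simpa using he⟩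
      have := pow_mem_powerClosure p 1 hc
      simpa using this
    exact ⟨hG, fun a b n => reg_of_reg1 p _ G rfl hG hK n a b⟩

end Main

end Cfsg.Agent.Lib.LdReg
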