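import Mathlib

set_option autoImplicit false

set_option synthInstance.maxSize 100000
set_option synthInstance.maxHeartbeats 0

namespace Cfsg.Agent.LdS1717

abbrev SL5 := Matrix.SpecialLinearGroup (Fin 5) (ZMod 2)
abbrev Mat5 := Matrix (Fin 5) (Fin 5) (ZMod 2)

def MM (c a2 a3 a4 b2 b3 b4 : ZMod 2) : Mat5 :=
  !![1, c, a2, a3, a4;
     0, 1, 0, 0, 0;
     0, b2, 1, 0, 0;
     0, b3, 0, 1, 0;
     0, b4, 0, 0, 1]

lemma MM_mul (c a2 a3 a4 b2 b3 b4 c' a2' a3' a4' b2' b3' b4' : ZMod 2) :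
    MM c a2 a3 a4 b2 b3 b4 * MM c' a2' a3' a4' b2' b3' b4'
      = MM (c + c' + a2 * b2' + a3 * b3' + a4 * b4') (a2 + a2') (a3 + a3') (a4 + a4')
          (b2 + b2') (b3 + b3') (b4 + b4') := by
  ext i j
  fin_cases i <;> fin_cases j <;> simp [MM, Matrix.mul_apply, Fin.sum_univ_five] <;> ring

lemma MM_one : MM 0 0 0 0 0 0 0 = 1 := by
  ext i j
  fin_cases i <;> fin_cases j <;> simp [MM]

lemma MM_four (c a2 a3 a4 b2 b3 b4 : ZMod 2) :
    MM c a2 a3 a4 b2 b3 b4 * MM c a2 a3 a4 b2 b3 b4 * MM c a2 a3 a4 b2 b3 b4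
      * MM c a2 a3 a4 b2 b3 b4 = 1 := by
  rw [MM_mul, MM_mul, MM_mul, ← MM_one]
  congr 1 <;> revert c a2 a3 a4 b2 b3 b4 <;> decide +kernel

lemma QQ_mul (g h : SL5) (hg : ∃ c a2 a3 a4 b2 b3 b4, g.1 = MM c a2 a3 a4 b2 b3 b4)
    (hh : ∃ c a2 a3 a4 b2 b3 b4, h.1 = MM c a2 a3 a4 b2 b3 b4) :
    ∃ c a2 a3 a4 b2 b3 b4, (g * h).1 = MM c a2 a3 a4 b2 b3 b4 := by
  obtain ⟨c, a2, a3, a4, b2, b3, b4, hg⟩ := hg
  obtain ⟨c', a2', a3', a4', b2', b3', b4', hh⟩ := hh
  exact ⟨_, _, _, _, _, _, _, by rw [Matrix.SpecialLinearGroup.coe_mul, hg, hh, MM_mul]⟩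

lemma QQ_four (g : SL5) (hg : ∃ c a2 a3 a4 b2 b3 b4, g.1 = MM c a2 a3 a4 b2 b3 b4) :
    g * g * g * g = 1 := by
  obtain ⟨c, a2, a3, a4, b2, b3, b4, hg⟩ := hg
  apply Subtype.ext
  simp only [Matrix.SpecialLinearGroup.coe_mul, Matrix.SpecialLinearGroup.coe_one, hg]
  exact MM_four _ _ _ _ _ _ _

/-- the extraspecial normal 2-subgroup -/
def QQ : Subgroup SL5 where
  carrier := {g | ∃ c a2 a3 a4 b2 b3 b4, g.1 = MM c a2 a3 a4 b2 b3 b4}
  mul_mem' := fun {g h} hg hh => QQ_mul g h hg hh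
  one_mem' := ⟨0, 0, 0, 0, 0, 0, 0, by rw [Matrix.SpecialLinearGroup.coe_one, MM_one]⟩
  inv_mem' := by
    intro g hg
    have h4 := QQ_four g hg
    have : g⁻¹ = g * g * g := by
      apply inv_eq_of_mul_eq_one_right
      rw [← h4]; group
    show ∃ c a2 a3 a4 b2 b3 b4, (g⁻¹).1 = MM c a2 a3 a4 b2 b3 b4
    rw [this]
    exact QQ_mul _ _ (QQ_mul _ _ hg hg) hg

lemma trans01 : Matrix.transvection (0 : Fin 5) 1 (1 : ZMod 2) = MM 1 0 0 0 0 0 0 := by
  ext i j
  fin_cases i <;> fin_cases j <;> simp [MM, Matrix.transvection, Matrix.single_apply]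

lemma QQ_comm_s (s : SL5) (hs : s.1 = Matrix.transvection 0 1 1) (q : SL5) (hq : q ∈ QQ) :
    q * s = s * q := by
  obtain ⟨c, a2, a3, a4, b2, b3, b4, hg⟩ := hq
  apply Subtype.ext
  simp only [Matrix.SpecialLinearGroup.coe_mul, hg, hs, trans01, MM_mul]
  congr 1 <;> ring

lemma cent_entries (g : Mat5) (a b : Fin 5)
    (h : g * Matrix.transvection a b (1 : ZMod 2) = Matrix.transvection a b 1 * g) (i j : Fin 5) :
    (if j = b then g i a else 0) = (if i = a then g b j else 0) := by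
  unfold Matrix.transvection at h
  rw [mul_add, add_mul, mul_one, one_mul] at h
  have h2 := add_left_cancel h
  have h3 := congrFun (congrFun h2 i) j
  by_cases hj : j = b
  · by_cases hi : i = a
    · subst hj hi
      rw [Matrix.mul_single_apply_same, Matrix.single_mul_apply_same] at h3
      simpa using h3
    · subst hj
      rw [Matrix.mul_single_apply_same, Matrix.single_mul_apply_of_ne _ _ _ _ _ hi] at h3
      simpa [hi] using h3
  · by_cases hi : i = a
    · subst hi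
      rw [Matrix.mul_single_apply_of_ne _ _ _ _ _ hj, Matrix.single_mul_apply_same] at h3
      simpa [hj] using h3
    · simp [hj, hi]

lemma tv_mem_aux (c a2 a3 a4 b2 b3 b4 : ZMod 2) (a b : Fin 5) (hab : a ≠ b)
    (h : Matrix.transvection a b (1 : ZMod 2) = MM c a2 a3 a4 b2 b3 b4) :
    (⟨Matrix.transvection a b (1 : ZMod 2), Matrix.det_transvection_of_ne a b hab 1⟩ : SL5) ∈ QQ :=
  ⟨c, a2, a3, a4, b2, b3, b4, h⟩

lemma comm_tv (g : SL5) (hg : ∀ q ∈ QQ, g * q = q * g) (c a2 a3 a4 b2 b3 b4 : ZMod 2) (a b : Fin 5)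
    (hab : a ≠ b) (h : Matrix.transvection a b (1 : ZMod 2) = MM c a2 a3 a4 b2 b3 b4) :
    g.1 * Matrix.transvection a b (1 : ZMod 2) = Matrix.transvection a b 1 * g.1 := by
  have := hg _ (tv_mem_aux c a2 a3 a4 b2 b3 b4 a b hab h)
  exact congrArg Subtype.val this

lemma centralizer_QQ (g : SL5) (hg : ∀ q ∈ QQ, g * q = q * g) :
    g.1 = 1 ∨ g.1 = Matrix.transvection 0 1 1 := by
  have h02 := cent_entries g.1 0 2 (comm_tv g hg 0 1 0 0 0 0 0 0 2 (by decide) (by ext i j; fin_cases i <;> fin_cases j <;> simp [MM, Matrix.transvection, Matrix.single_apply]))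
  have h03 := cent_entries g.1 0 3 (comm_tv g hg 0 0 1 0 0 0 0 0 3 (by decide) (by ext i j; fin_cases i <;> fin_cases j <;> simp [MM, Matrix.transvection, Matrix.single_apply]))
  have h04 := cent_entries g.1 0 4 (comm_tv g hg 0 0 0 1 0 0 0 0 4 (by decide) (by ext i j; fin_cases i <;> fin_cases j <;> simp [MM, Matrix.transvection, Matrix.single_apply]))
  have h21 := cent_entries g.1 2 1 (comm_tv g hg 0 0 0 0 1 0 0 2 1 (by decide) (by ext i j; fin_cases i <;> fin_cases j <;> simp [MM, Matrix.transvection, Matrix.single_apply]))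
  have h31 := cent_entries g.1 3 1 (comm_tv g hg 0 0 0 0 0 1 0 3 1 (by decide) (by ext i j; fin_cases i <;> fin_cases j <;> simp [MM, Matrix.transvection, Matrix.single_apply]))
  have h41 := cent_entries g.1 4 1 (comm_tv g hg 0 0 0 0 0 0 1 4 1 (by decide) (by ext i j; fin_cases i <;> fin_cases j <;> simp [MM, Matrix.transvection, Matrix.single_apply]))
  have c0 : ∀ i, i ≠ 0 → g.1 i 0 = 0 := fun i hi => by simpa [hi] using h02 i 2
  have r2 : ∀ j, j ≠ 2 → g.1 2 j = 0 := fun j hj => by simpa [hj, eq_comm] using (h02 0 j).symm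
  have r3 : ∀ j, j ≠ 3 → g.1 3 j = 0 := fun j hj => by simpa [hj, eq_comm] using (h03 0 j).symm
  have r4 : ∀ j, j ≠ 4 → g.1 4 j = 0 := fun j hj => by simpa [hj, eq_comm] using (h04 0 j).symm
  have r1 : ∀ j, j ≠ 1 → g.1 1 j = 0 := fun j hj => by simpa [hj, eq_comm] using (h21 2 j).symm
  have c2 : ∀ i, i ≠ 2 → g.1 i 2 = 0 := fun i hi => by simpa [hi] using h21 i 1
  have c3 : ∀ i, i ≠ 3 → g.1 i 3 = 0 := fun i hi => by simpa [hi] using h31 i 1
  have c4 : ∀ i, i ≠ 4 → g.1 i 4 = 0 := fun i hi => by simpa [hi] using h41 i 1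
  have d2 : g.1 0 0 = g.1 2 2 := by simpa using h02 0 2
  have d3 : g.1 0 0 = g.1 3 3 := by simpa using h03 0 3
  have d4 : g.1 0 0 = g.1 4 4 := by simpa using h04 0 4
  have d1 : g.1 2 2 = g.1 1 1 := by simpa using h21 2 1
  have d0 : g.1 0 0 = 1 := by
    by_contra hne
    have h0 : g.1 0 0 = 0 := by
      revert hne
      generalize g.1 0 0 = x
      revert x
      decide +kernel
    have hdet : g.1.det = 0 := by
      apply Matrix.det_eq_zero_of_column_eq_zero 0
      intro i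
      by_cases hi : i = 0
      · rw [hi, h0]
      · exact c0 i hi
    rw [g.2] at hdet
    exact absurd hdet (by decide)
  have key : g.1 = MM (g.1 0 1) 0 0 0 0 0 0 := by
    ext i j
    fin_cases i <;> fin_cases j <;> simp [MM] <;>
    first
      | exact d0
      | (rw [← d2]; exact d0)
      | (rw [← d3]; exact d0)
      | (rw [← d4]; exact d0)
      | (rw [← d1, ← d2]; exact d0)
      | exact c0 _ (by decide)
      | exact c2 _ (by decide)
      | exact c3 _ (by decide)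
      | exact c4 _ (by decide)
      | exact r1 _ (by decide)
      | exact r2 _ (by decide)
      | exact r3 _ (by decide)
      | exact r4 _ (by decide)
  have hb : g.1 0 1 = 0 ∨ g.1 0 1 = 1 := by
    generalize g.1 0 1 = x
    revert x
    decide +kernel
  rcases hb with hb | hb
  · left
    rw [key, hb, MM_one]
  · right
    rw [key, hb, trans01]

end Cfsg.Agent.LdS1717
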