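import Mathlib
import Cfsg.Agent.Lib.LdGL6
import Cfsg.Agent.Lib.H1SL2

set_option autoImplicit false
set_option linter.unusedSectionVars false
set_option linter.unusedSimpArgs false
set_option linter.unusedVariables false

/-! Induction from the Borel subgroup of `SL₂`. -/

namespace Cfsg.Agent.Lib.LdSL1

open Matrix Cfsg Cfsg.Agent.Lib.H1GL2 Cfsg.Agent.Lib.H1GL2C Cfsg.Agent.Lib.LdGL1 Cfsg.Agent.Lib.LdGL2
open Cfsg.Agent.Lib.LdGL3 Cfsg.Agent.Lib.LdGL4 Cfsg.Agent.Lib.LdGL5 Cfsg.Agent.Lib.LdGL6 Cfsg.Agent.Lib.H1SL2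
open Cfsg.Agent.Lib.CharBasic Cfsg.Agent.Lib.CharOrth Cfsg.Agent.Lib.CharAlg Cfsg.Agent.Lib.CharInd Cfsg.Agent.Lib.CharLin
open scoped ComplexConjugate

variable {F : Type*} [Field F]

/-- The Borel subgroup of `SL₂`. -/
abbrev BS (F : Type*) [Field F] : Subgroup (SL2 F) :=
  (Cfsg.upperTriangularGL 2 F).comap Matrix.SpecialLinearGroup.toGL

theorem mem_BS (x : SL2 F) : x ∈ BS F ↔ (x : M2 F) 1 0 = 0 := by
  rw [Subgroup.mem_comap, mem_B]
  rfl

/-- Coset representatives. -/
def slT (s : F) : SL2 F := mk s (-1) 1 0 (by ring)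
def slTi (s : F) : SL2 F := mk 0 1 (-1) s (by ring)

@[simp] theorem slT00 (s : F) : (slT s : M2 F) 0 0 = s := rfl
@[simp] theorem slT01 (s : F) : (slT s : M2 F) 0 1 = -1 := rfl
@[simp] theorem slT10 (s : F) : (slT s : M2 F) 1 0 = 1 := rfl
@[simp] theorem slT11 (s : F) : (slT s : M2 F) 1 1 = 0 := rfl
@[simp] theorem slTi00 (s : F) : (slTi s : M2 F) 0 0 = 0 := rfl
@[simp] theorem slTi01 (s : F) : (slTi s : M2 F) 0 1 = 1 := rfl
@[simp] theorem slTi10 (s : F) : (slTi s : M2 F) 1 0 = -1 := rfl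
@[simp] theorem slTi11 (s : F) : (slTi s : M2 F) 1 1 = s := rfl

theorem slT_mul_slTi (s : F) : slT s * slTi s = 1 := by
  apply sl_ext <;> simp

theorem slT_inv (s : F) : (slT s)⁻¹ = slTi s :=
  inv_eq_of_mul_eq_one_right (slT_mul_slTi s)

noncomputable def slTr : Option F → SL2 F
  | none => 1
  | some s => slT s

theorem slTr_bij : Function.Bijective
    (fun p : Option F × (BS F) => slTr p.1 * ((p.2 : BS F) : SL2 F)) := by
  constructor
  · rintro ⟨l, h⟩ ⟨l', h'⟩ he
    simp only at he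
    have hh := (mem_BS (h : SL2 F)).mp h.2
    have hh' := (mem_BS (h' : SL2 F)).mp h'.2
    have he0 := congrArg (fun x : SL2 F => (x : M2 F) 0 0) he
    have he1 := congrArg (fun x : SL2 F => (x : M2 F) 1 0) he
    simp only [sl_mul00, sl_mul10] at he0 he1
    have hd := sl_det (h : SL2 F)
    have hd' := sl_det (h' : SL2 F)
    rw [hh, mul_zero, sub_zero] at hd
    rw [hh', mul_zero, sub_zero] at hd'
    have ha : ((h : SL2 F) : M2 F) 0 0 ≠ 0 := left_ne_zero_of_mul (by rw [hd]; exact one_ne_zero)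
    have ha' : ((h' : SL2 F) : M2 F) 0 0 ≠ 0 := left_ne_zero_of_mul (by rw [hd']; exact one_ne_zero)
    have hl : l = l' := by
      cases l with
      | none =>
        cases l' with
        | none => rfl
        | some s' =>
          simp [slTr, hh, hh'] at he1
          exact absurd he1.symm ha'
      | some s =>
        cases l' with
        | none =>
          simp [slTr, hh, hh'] at he1
          exact absurd he1 ha
        | some s' =>
          simp [slTr, hh, hh'] at he0 he1
          rw [he1] at he0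
          rcases mul_eq_mul_right_iff.mp he0 with h1 | h1
          · rw [h1]
          · exact absurd h1 ha'
    subst hl
    have := mul_left_cancel he
    rw [Subtype.ext this]
  · intro x
    by_cases hx : (x : M2 F) 1 0 = 0
    · exact ⟨(none, ⟨x, (mem_BS x).mpr hx⟩), by simp [slTr]⟩
    · refine ⟨(some ((x : M2 F) 0 0 / (x : M2 F) 1 0), ⟨slTi ((x : M2 F) 0 0 / (x : M2 F) 1 0) * x, ?_⟩), ?_⟩
      · rw [mem_BS]
        simp only [sl_mul10, slTi10, slTi11]
        field_simp
        ring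
      · simp only [slTr]
        rw [← mul_assoc, slT_mul_slTi, one_mul]

/-- The linear characters of the Borel subgroup of `SL₂`. -/
noncomputable def lamS (α : MulChar F ℂ) : BS F → ℂ :=
  fun b => α (((b : Matrix.SpecialLinearGroup (Fin 2) F) : Matrix (Fin 2) (Fin 2) F) 0 0)

theorem BS_diag (b : BS F) : ((b : SL2 F) : M2 F) 0 0 ≠ 0 := by
  have hh := (mem_BS (b : SL2 F)).mp b.2
  have hd := sl_det (b : SL2 F)
  rw [hh, mul_zero, sub_zero] at hd
  exact left_ne_zero_of_mul (by rw [hd]; exact one_ne_zero)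

noncomputable def bAS : BS F →* Fˣ where
  toFun b := Units.mk0 (((b : SL2 F) : M2 F) 0 0) (BS_diag b)
  map_one' := by ext; simp
  map_mul' := by
    intro x y
    ext
    have hy := (mem_BS (y : SL2 F)).mp y.2
    simp [hy]

noncomputable def lamSHom (α : MulChar F ℂ) : BS F →* ℂˣ := α.toUnitHom.comp bAS

theorem lamSHom_val (α : MulChar F ℂ) (b : BS F) : ((lamSHom α b : ℂˣ) : ℂ) = lamS α b := by
  simp [lamSHom, lamS, bAS, MulChar.coe_toUnitHom]

theorem lamS_isChar (α : MulChar F ℂ) : IsCharacter (BS F) (lamS α) := by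
  have h := IsIrrCharacter.isCharacter (isIrrCharacter_of_hom (lamSHom α))
  have e : (fun g => ((lamSHom α g : ℂˣ) : ℂ)) = lamS α := funext (lamSHom_val α)
  rwa [e] at h

theorem lamS_inv (α : MulChar F ℂ) (h k : BS F) : lamS α (h⁻¹ * k * h) = lamS α k := by
  rw [← lamSHom_val, ← lamSHom_val, map_mul, map_mul, map_inv]
  congr 1
  exact mul_inv_cancel_comm _ _

theorem ext_lamS [DecidableEq F] (α : MulChar F ℂ) (x : SL2 F) :
    extendByZero (BS F) (lamS α) x = if (x : M2 F) 1 0 = 0 then α ((x : M2 F) 0 0) else 0 := by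
  split_ifs with h
  · rw [extendByZero_of_mem _ _ ((mem_BS x).mpr h)]
    rfl
  · rw [extendByZero_of_not_mem _ _ (fun hx => h ((mem_BS x).mp hx))]

/-- Upper triangular elements of `SL₂`. -/
def triS (a : Fˣ) (c : F) : SL2 F := mk (a : F) c 0 ((a⁻¹ : Fˣ) : F) (by simp)

@[simp] theorem triS00 (a : Fˣ) (c : F) : (triS a c : M2 F) 0 0 = a := rfl
@[simp] theorem triS01 (a : Fˣ) (c : F) : (triS a c : M2 F) 0 1 = c := rfl
@[simp] theorem triS10 (a : Fˣ) (c : F) : (triS a c : M2 F) 1 0 = 0 := rfl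
@[simp] theorem triS11 (a : Fˣ) (c : F) : (triS a c : M2 F) 1 1 = ((a⁻¹ : Fˣ) : F) := rfl

theorem triS_mem (a : Fˣ) (c : F) : triS a c ∈ BS F := (mem_BS _).mpr rfl

noncomputable def triSEquiv : (Fˣ × F) ≃ BS F where
  toFun p := ⟨triS p.1 p.2, triS_mem _ _⟩
  invFun b := (bAS b, ((b : SL2 F) : M2 F) 0 1)
  left_inv p := by
    rcases p with ⟨a, c⟩
    ext <;> rfl
  right_inv b := by
    apply Subtype.ext
    have hh := (mem_BS (b : SL2 F)).mp b.2
    have hd := sl_det (b : SL2 F)
    rw [hh, mul_zero, sub_zero] at hd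
    apply sl_ext
    · rfl
    · rfl
    · exact hh.symm
    · simp only [triS11, bAS]
      have ha := BS_diag b
      simp only [MonoidHom.mk'_apply, Units.val_inv_eq_inv_val, Units.val_mk0]
      show (((b : SL2 F) : M2 F) 0 0)⁻¹ = _
      field_simp
      linear_combination -hd

theorem card_BS [Fintype F] : Nat.card (BS F) = (Fintype.card F - 1) * Fintype.card F := by
  classical
  rw [← Nat.card_congr (triSEquiv (F := F)), Nat.card_prod, Nat.card_eq_fintype_card,
    Nat.card_eq_fintype_card, Fintype.card_units]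

theorem card_BS_C [Fintype F] : (Nat.card (BS F) : ℂ) =
    ((Fintype.card F : ℂ) - 1) * (Fintype.card F : ℂ) := by
  have hq : 1 ≤ Fintype.card F := Fintype.card_pos
  rw [card_BS]
  push_cast [Nat.cast_sub hq]
  ring

section Fin

variable [Fintype F] [DecidableEq F]

/-- The character induced from the Borel subgroup of `SL₂`. -/
noncomputable abbrev indS (α : MulChar F ℂ) : SL2 F → ℂ := indFun (BS F) (lamS α)

theorem indS_isChar (α : MulChar F ℂ) : IsCharacter (SL2 F) (indS α) :=
  IsCharacter.ind _ (lamS_isChar α)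

theorem indS_formula (α : MulChar F ℂ) (g : SL2 F) :
    indS α g = (if (g : M2 F) 1 0 = 0 then α ((g : M2 F) 0 0) else 0) +
      ∑ s : F, if (g : M2 F) 0 0 * s + (g : M2 F) 0 1 - s * ((g : M2 F) 1 0 * s + (g : M2 F) 1 1) = 0 then
        α ((g : M2 F) 1 0 * s + (g : M2 F) 1 1) else 0 := by
  rw [indS, ind_transversal _ _ slTr slTr_bij (lamS_inv α)]
  rw [Fintype.sum_option]
  congr 1
  · simp only [slTr, inv_one, one_mul, mul_one]
    rw [ext_lamS]
  · apply Finset.sum_congr rfl
    intro s _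
    simp only [slTr]
    rw [ext_lamS, slT_inv]
    have h00 : ((slTi s * g * slT s : SL2 F) : M2 F) 0 0 = (g : M2 F) 1 0 * s + (g : M2 F) 1 1 := by
      simp
    have h10 : ((slTi s * g * slT s : SL2 F) : M2 F) 1 0 =
        -((g : M2 F) 0 0 * s + (g : M2 F) 0 1 - s * ((g : M2 F) 1 0 * s + (g : M2 F) 1 1)) := by
      simp
      ring
    simp only [h00, h10, neg_eq_zero]

theorem indS_tri_ne (α : MulChar F ℂ) (g : SL2 F) (h10 : (g : M2 F) 1 0 = 0)
    (hne : (g : M2 F) 0 0 ≠ (g : M2 F) 1 1) :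
    indS α g = α ((g : M2 F) 0 0) + α ((g : M2 F) 1 1) := by
  rw [indS_formula, if_pos h10]
  congr 1
  have hsub : (g : M2 F) 0 0 - (g : M2 F) 1 1 ≠ 0 := sub_ne_zero.mpr hne
  rw [Finset.sum_eq_single (-((g : M2 F) 0 1) / ((g : M2 F) 0 0 - (g : M2 F) 1 1))]
  · rw [if_pos]
    · simp [h10]
    · rw [h10]
      field_simp
      ring
  · intro s _ hs
    rw [if_neg]
    intro h
    apply hs
    rw [h10] at h
    field_simp
    linear_combination h
  · intro h
    exact absurd (Finset.mem_univ _) h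

theorem indS_tri_eq (α : MulChar F ℂ) (g : SL2 F) (h10 : (g : M2 F) 1 0 = 0)
    (he : (g : M2 F) 0 0 = (g : M2 F) 1 1) (h01 : (g : M2 F) 0 1 ≠ 0) :
    indS α g = α ((g : M2 F) 0 0) := by
  rw [indS_formula, if_pos h10, ← he]
  rw [Finset.sum_eq_zero, add_zero]
  intro s _
  rw [if_neg]
  intro h
  apply h01
  rw [h10] at h
  linear_combination h

theorem indS_scalar (α : MulChar F ℂ) (g : SL2 F) (h10 : (g : M2 F) 1 0 = 0)
    (he : (g : M2 F) 0 0 = (g : M2 F) 1 1) (h01 : (g : M2 F) 0 1 = 0) :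
    indS α g = ((Fintype.card F : ℂ) + 1) * α ((g : M2 F) 0 0) := by
  rw [indS_formula, if_pos h10, ← he]
  have : ∀ s : F, (if (g : M2 F) 0 0 * s + (g : M2 F) 0 1 - s * ((g : M2 F) 1 0 * s + (g : M2 F) 0 0) = 0 then
        α ((g : M2 F) 1 0 * s + (g : M2 F) 0 0) else 0) = α ((g : M2 F) 0 0) := by
    intro s
    rw [if_pos]
    · simp [h10]
    · rw [h10, h01]
      ring
  simp only [this, Finset.sum_const, Finset.card_univ, nsmul_eq_mul]
  ring

theorem indS_noeig (α : MulChar F ℂ) (g : SL2 F)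
    (hg : ∀ (c : F) (v : Fin 2 → F), v ≠ 0 → (g : M2 F).mulVec v ≠ c • v) : indS α g = 0 := by
  rw [indS_formula]
  have h10 : (g : M2 F) 1 0 ≠ 0 := by
    intro h
    apply hg ((g : M2 F) 0 0) ![1, 0]
    · intro e
      have := congrFun e 0
      simp at this
    · ext i
      fin_cases i <;> simp [Matrix.mulVec, dotProduct, Fin.sum_univ_two, h]
  rw [if_neg h10, zero_add]
  apply Finset.sum_eq_zero
  intro s _
  rw [if_neg]
  intro h
  apply hg ((g : M2 F) 1 0 * s + (g : M2 F) 1 1) ![s, 1]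
  · intro e
    have := congrFun e 1
    simp at this
  · ext i
    fin_cases i
    · simp [Matrix.mulVec, dotProduct, Fin.sum_univ_two]
      linear_combination h
    · simp [Matrix.mulVec, dotProduct, Fin.sum_univ_two]

theorem indS_one (α : MulChar F ℂ) : indS α 1 = (Fintype.card F : ℂ) + 1 := by
  rw [indS_scalar α 1 (by simp) (by simp) (by simp)]
  simp

theorem sum_BS (φ : BS F → ℂ) [Fintype (BS F)] :
    ∑ b, φ b = ∑ a : Fˣ, ∑ c : F, φ ⟨triS a c, triS_mem _ _⟩ := by
  rw [← Equiv.sum_comp (triSEquiv (F := F)) φ, Fintype.sum_prod_type]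
  rfl

/-- The pairing of an induced character with a class function. -/
theorem inner_indS_class (α : MulChar F ℂ) (X : SL2 F → ℂ) (hX : IsClassFunction (SL2 F) X) :
    classInner (indS α) X = (((Fintype.card F : ℂ) - 1) * (Fintype.card F : ℂ))⁻¹ *
        ∑ a : Fˣ, α (a : F) * conj (∑ c : F, X (triS a c)) := by
  classical
  haveI : Fintype (BS F) := Fintype.ofFinite _
  rw [indS, frobenius _ _ _ hX, classInner, card_BS_C, sum_BS]
  congr 1
  apply Finset.sum_congr rfl
  intro a _
  rw [map_sum, Finset.mul_sum]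
  rfl

theorem sum_indS_tri (β : MulChar F ℂ) (a : Fˣ) :
    ∑ c : F, indS β (triS a c) = (Fintype.card F : ℂ) * (β (a : F) + β ((a⁻¹ : Fˣ) : F)) := by
  classical
  by_cases had : (a : F) = ((a⁻¹ : Fˣ) : F)
  · rw [← Finset.sum_erase_add _ _ (Finset.mem_univ (0 : F))]
    rw [indS_scalar β _ rfl had rfl]
    have : ∀ c ∈ (Finset.univ : Finset F).erase 0, indS β (triS a c) = β (a : F) := by
      intro c hc
      exact indS_tri_eq β _ rfl had (Finset.ne_of_mem_erase hc)
    rw [Finset.sum_congr rfl this, Finset.sum_const, Finset.card_erase_of_mem (Finset.mem_univ _),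
      Finset.card_univ, nsmul_eq_mul, ← had]
    have hq : 1 ≤ Fintype.card F := Fintype.card_pos
    push_cast [Nat.cast_sub hq]
    simp only [triS00]
    ring
  · have : ∀ c ∈ (Finset.univ : Finset F), indS β (triS a c) = β (a : F) + β ((a⁻¹ : Fˣ) : F) := by
      intro c _
      exact indS_tri_ne β _ rfl had
    rw [Finset.sum_congr rfl this, Finset.sum_const, Finset.card_univ, nsmul_eq_mul]

/-- The Mackey formula for the Borel subgroup of `SL₂`. -/
theorem inner_indS (α β : MulChar F ℂ) [Decidable (α = β)] [Decidable (α = β⁻¹)] :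
    classInner (indS α) (indS β) = (if α = β then 1 else 0) + (if α = β⁻¹ then 1 else 0) := by
  rw [inner_indS_class _ _ (indFun_classFunction _ _)]
  simp_rw [sum_indS_tri, map_mul, map_add, Complex.conj_natCast]
  have h1 : ∀ a : Fˣ, conj (β ((a⁻¹ : Fˣ) : F)) = conj ((β⁻¹) (a : F)) := by
    intro a
    rw [MulChar.inv_apply', Units.val_inv_eq_inv_val]
  have key : ∀ a : Fˣ, α (a : F) * ((Fintype.card F : ℂ) * (conj (β (a : F)) + conj (β ((a⁻¹ : Fˣ) : F)))) =
      (Fintype.card F : ℂ) * (α (a : F) * conj (β (a : F)) + α (a : F) * conj ((β⁻¹) (a : F))) := by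
    intro a
    rw [h1]
    ring
  simp_rw [key, ← Finset.mul_sum, Finset.sum_add_distrib, mc_orth]
  have h3 := q_ne_zero (F := F)
  have h4 := q_sub_one_ne_zero (F := F)
  split_ifs <;> field_simp <;> ring

/-- The trivial character. -/
theorem inner_indS_triv (α : MulChar F ℂ) :
    classInner (indS α) (fun _ => (1 : ℂ)) = if α = 1 then 1 else 0 := by
  classical
  rw [inner_indS_class _ _ (classFunction_of_isIrrCharacter isIrrCharacter_one)]
  have h1 : ∀ a : Fˣ, α (a : F) * conj (∑ c : F, (1 : ℂ)) =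
      (Fintype.card F : ℂ) * (α (a : F) * conj ((1 : MulChar F ℂ) (a : F))) := by
    intro a
    simp [mul_comm, MulChar.one_apply_coe]
  simp_rw [h1, ← Finset.mul_sum, mc_orth]
  have h3 := q_ne_zero (F := F)
  have h4 := q_sub_one_ne_zero (F := F)
  split_ifs
  · field_simp
  · simp

/-- Sum over multiplicative characters detects cuspidality. -/
theorem cuspS_sum (χ : SL2 F → ℂ) (hχ : IsClassFunction (SL2 F) χ)
    (h : ∀ γ, classInner (indS γ) χ = 0) : ∑ c : F, χ (tv c) = 0 := by
  classical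
  have h1 : ∑ γ : MulChar F ℂ, classInner (indS γ) χ = 0 := by
    simp [h]
  simp_rw [inner_indS_class _ _ hχ, ← Finset.mul_sum] at h1
  have h3 := q_ne_zero (F := F)
  have h4 := q_sub_one_ne_zero (F := F)
  rw [Finset.sum_comm] at h1
  simp_rw [← Finset.sum_mul, mc_sum] at h1
  rw [Finset.sum_eq_single (1 : Fˣ)] at h1
  · rw [if_pos rfl] at h1
    have h5 := (mul_eq_zero.mp h1).resolve_left (inv_ne_zero (mul_ne_zero h4 h3))
    have h6 := (mul_eq_zero.mp h5).resolve_left h4
    have h7 := (map_eq_zero _).mp h6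
    have h8 : ∀ c : F, triS (1 : Fˣ) c = tv c := by
      intro c
      apply sl_ext <;> simp
    simpa [h8] using h7
  · intro a _ ha
    simp [ha]
  · intro h'
    exact absurd (Finset.mem_univ _) h'

/-- The relation with the induced characters of `GL₂`. -/
theorem indL_res (α β : MulChar F ℂ) (g : SL2 F) :
    indL α β (Matrix.SpecialLinearGroup.toGL g) = indS (α * β⁻¹) g := by
  rw [indL, ind_formula, indS_formula]
  have e0 : ∀ i j, ((Matrix.SpecialLinearGroup.toGL g : GL2 F) : M2 F) i j = (g : M2 F) i j := fun _ _ => rfl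
  simp only [e0]
  have hdet := sl_det g
  congr 1
  · split_ifs with h
    · rw [MulChar.mul_apply, MulChar.inv_apply']
      congr 2
      rw [h, mul_zero, sub_zero] at hdet
      exact (eq_inv_of_mul_eq_one_right hdet).symm ▸ rfl
    · rfl
  · apply Finset.sum_congr rfl
    intro s _
    split_ifs with h
    · rw [MulChar.mul_apply, MulChar.inv_apply']
      congr 2
      have : ((g : M2 F) 1 0 * s + (g : M2 F) 1 1) * ((g : M2 F) 0 0 - s * (g : M2 F) 1 0) = 1 := by
        linear_combination hdet + (g : M2 F) 1 0 * h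
      exact eq_inv_of_mul_eq_one_right this
    · rfl

end Fin

end Cfsg.Agent.Lib.LdSL1
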