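import Mathlib
import Cfsg.Agent.Lib.LdSL1

set_option autoImplicit false
set_option linter.unusedSectionVars false
set_option linter.unusedSimpArgs false
set_option linter.unusedVariables false

/-! The Harish-Chandra series of `SL₂`. -/

namespace Cfsg.Agent.Lib.LdSL2

open Matrix Cfsg Cfsg.Agent.Lib.H1GL2 Cfsg.Agent.Lib.H1GL2C Cfsg.Agent.Lib.LdGL1 Cfsg.Agent.Lib.LdGL2
open Cfsg.Agent.Lib.LdGL3 Cfsg.Agent.Lib.LdGL4 Cfsg.Agent.Lib.LdGL5 Cfsg.Agent.Lib.LdGL6 Cfsg.Agent.Lib.H1SL2
open Cfsg.Agent.Lib.LdSL1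
open Cfsg.Agent.Lib.CharBasic Cfsg.Agent.Lib.CharOrth Cfsg.Agent.Lib.CharAlg Cfsg.Agent.Lib.CharInd Cfsg.Agent.Lib.CharLin
open scoped ComplexConjugate

section Gen

variable {G : Type*} [Group G] [Fintype G]

/-- A character of norm two is the sum of two different irreducible characters. -/
theorem exists_norm_two {X : G → ℂ} (hX : IsCharacter G X) (h : classInner X X = 2) :
    ∃ χ₁ χ₂ : G → ℂ, IsIrrCharacter G χ₁ ∧ IsIrrCharacter G χ₂ ∧ χ₁ ≠ χ₂ ∧ X = χ₁ + χ₂ := by
  have hne : X ≠ 0 := by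
    rintro rfl
    simp [classInner] at h
  obtain ⟨χ₁, hχ₁, hc⟩ : ∃ χ₁, IsIrrCharacter G χ₁ ∧ classInner X χ₁ ≠ 0 := by
    by_contra hcon
    push Not at hcon
    exact hne (eq_zero_of_classInner_irr_eq_zero X (classFunction_of_isCharacter hX) hcon)
  have hY := isChar_sub_irr hX hχ₁ hc
  obtain ⟨n, hn⟩ := IsCharacter.classInner_irr_nat hX hχ₁
  have hn2 : classInner (X - χ₁) (X - χ₁) = 3 - 2 * (n : ℂ) := by
    rw [classInner_sub_left, classInner_sub_right, classInner_sub_right, h, hn,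
      classInner_irr_self hχ₁, ← classInner_conj_symm X χ₁, hn, Complex.conj_natCast]
    ring
  obtain ⟨m, hm⟩ := IsCharacter.classInner_nat hY hY
  have hn0 : n ≠ 0 := by
    rintro rfl
    rw [hn] at hc
    simp at hc
  have h3 : (m : ℂ) + 2 * (n : ℂ) = 3 := by
    rw [← hm, hn2]
    ring
  have h4 : m + 2 * n = 3 := by exact_mod_cast h3
  have hn1 : n = 1 := by omega
  have hm1 : m = 1 := by omega
  have hirr : IsIrrCharacter G (X - χ₁) := isIrrCharacter_of_norm_one hY (by rw [hm, hm1]; simp)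
  refine ⟨χ₁, X - χ₁, hχ₁, hirr, ?_, by simp⟩
  intro e
  have h5 := classInner_irr_self hχ₁
  have h6 : classInner (X - χ₁) χ₁ = 0 := by
    rw [classInner_sub_left, hn, hn1, h5]
    simp
  rw [← e] at h6
  rw [h5] at h6
  exact one_ne_zero h6

/-- Comparison with an injective homomorphism. -/
theorem exists_constituent_of_inj {K : Type*} [Group K] [Fintype K] (ι : K →* G)
    (hι : Function.Injective ι) (χ : K → ℂ) (h1 : χ 1 ≠ 0) :
    ∃ Ψ : IrrCharacter G, classInner (fun k => (Ψ : G → ℂ) (ι k)) χ ≠ 0 := by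
  classical
  by_contra hcon
  push Not at hcon
  have h2 : ∑ Ψ : IrrCharacter G, (Ψ : G → ℂ) 1 * classInner (fun k => (Ψ : G → ℂ) (ι k)) χ = 0 := by
    simp [hcon]
  simp only [classInner] at h2
  simp_rw [Finset.mul_sum, mul_left_comm _ ((Nat.card K : ℂ)⁻¹), ← Finset.mul_sum] at h2
  have hK : (Nat.card K : ℂ)⁻¹ ≠ 0 := inv_ne_zero card_ne_zero_C
  have h3 := (mul_eq_zero.mp h2).resolve_left hK
  simp_rw [Finset.mul_sum] at h3
  rw [Finset.sum_comm] at h3
  have h4 : ∀ k : K, ∑ Ψ : IrrCharacter G, (Ψ : G → ℂ) 1 * ((Ψ : G → ℂ) (ι k) * conj (χ k)) =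
      (if ι k = 1 then (Nat.card G : ℂ) else 0) * conj (χ k) := by
    intro k
    rw [← sum_degree_mul, Finset.sum_mul]
    apply Finset.sum_congr rfl
    intro Ψ _
    ring
  simp_rw [h4] at h3
  rw [Finset.sum_eq_single 1] at h3
  · rw [map_one, if_pos rfl] at h3
    have h5 := (mul_eq_zero.mp h3).resolve_left card_ne_zero_C
    exact h1 ((map_eq_zero _).mp h5)
  · intro b _ hb
    have : ι b ≠ 1 := fun e => hb (hι (by rw [e, map_one]))
    simp [this]
  · intro h'
    exact absurd (Finset.mem_univ _) h'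

end Gen

variable {F : Type*} [Field F]

/-- Lower unitriangular elements. -/
def low (c : F) : SL2 F := mk 1 0 c 1 (by ring)
def wS : SL2 F := mk 0 1 (-1) 0 (by ring)
def wSi : SL2 F := mk 0 (-1) 1 0 (by ring)

theorem wS_mul : (wS : SL2 F) * wSi = 1 := by
  apply sl_ext <;> simp [wS, wSi]

theorem low_eq (c : F) : low c = wS * tv (-c) * wSi := by
  apply sl_ext <;> simp [low, wS, wSi]

/-- `SL₂` has no homomorphism killing all transvections except the trivial one. -/
theorem hom_trivial {M : Type*} [Monoid M] (f : SL2 F →* M) (h : ∀ c, f (tv c) = 1) (g : SL2 F) : f g = 1 := by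
  have hlow : ∀ c, f (low c) = 1 := by
    intro c
    rw [low_eq, map_mul, map_mul, h, mul_one, ← map_mul, wS_mul, map_one]
  have hne : ∀ g : SL2 F, (g : M2 F) 1 0 ≠ 0 → f g = 1 := by
    intro g hc
    have hd := sl_det g
    have e : g = tv (((g : M2 F) 0 0 - 1) / (g : M2 F) 1 0) * low ((g : M2 F) 1 0) *
        tv (((g : M2 F) 1 1 - 1) / (g : M2 F) 1 0) := by
      apply sl_ext
      · simp [low]
        field_simp
        ring
      · simp [low]
        field_simp
        linear_combination -hd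
      · simp [low]
      · simp [low]
        field_simp
        ring
    rw [e, map_mul, map_mul, h, h, hlow, one_mul, one_mul]
  by_cases hc : (g : M2 F) 1 0 = 0
  · have hd := sl_det g
    rw [hc, mul_zero, sub_zero] at hd
    have ha : (g : M2 F) 0 0 ≠ 0 := left_ne_zero_of_mul (by rw [hd]; exact one_ne_zero)
    have h2 : f (low 1 * g) = 1 := by
      apply hne
      simp [low, hc, ha]
    rw [map_mul, hlow, one_mul] at h2
    exact h2
  · exact hne g hc

/-- A character constant on the transvections is constant. -/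
theorem char_const [Fintype F] [DecidableEq F] {χ : SL2 F → ℂ} (hχ : IsCharacter (SL2 F) χ)
    (h : ∀ c, χ (tv c) = χ 1) (g : SL2 F) : χ g = χ 1 := by
  obtain ⟨n, ρ, rfl⟩ := hχ
  have h1 : ρ.character 1 = (Module.finrank ℂ (Fin n → ℂ) : ℂ) := by
    rw [Representation.char_one]
  have h2 : ∀ c, ρ (tv c) = 1 := by
    intro c
    have := (character_eq_finrank_iff ρ (tv c)).mp (by rw [h, h1])
    exact this
  have h3 := hom_trivial ρ h2 g
  simp [Representation.character, h3]

section Fin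

variable [Fintype F] [DecidableEq F]

/-- The trivial character. -/
noncomputable abbrev trivS : SL2 F → ℂ := fun _ => 1

noncomputable def stS : SL2 F → ℂ := indS 1 - trivS

theorem stS_isChar : IsCharacter (SL2 F) (stS (F := F)) := by
  apply isChar_sub_irr (indS_isChar 1) isIrrCharacter_one
  rw [inner_indS_triv]
  simp

theorem inner_indS' (α β : MulChar F ℂ) :
    classInner (indS α) (indS β) = (if α = β then 1 else 0) + (if α = β⁻¹ then 1 else 0) := by
  classical
  exact inner_indS α β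

theorem inner_triv_triv : classInner (trivS (F := F)) trivS = 1 := classInner_irr_self isIrrCharacter_one

theorem inner_triv_indS (α : MulChar F ℂ) :
    classInner trivS (indS α) = if α = 1 then 1 else 0 := by
  rw [← classInner_conj_symm (indS α) trivS, inner_indS_triv]
  split_ifs <;> simp

theorem stS_irr : IsIrrCharacter (SL2 F) (stS (F := F)) := by
  apply isIrrCharacter_of_norm_one stS_isChar
  rw [stS, classInner_sub_left, classInner_sub_right, classInner_sub_right, inner_indS',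
    inner_indS_triv, inner_triv_indS, inner_triv_triv]
  simp

theorem stS_one : stS (F := F) 1 = (Fintype.card F : ℂ) := by
  simp [stS, indS_one]

theorem inner_indS_st (α : MulChar F ℂ) :
    classInner (indS α) (stS (F := F)) = if α = 1 then 1 else 0 := by
  rw [stS, classInner_sub_right, inner_indS', inner_indS_triv, inv_one]
  by_cases h : α = 1 <;> simp [h]

theorem indS_irr {γ : MulChar F ℂ} (h : γ ^ 2 ≠ 1) : IsIrrCharacter (SL2 F) (indS γ) := by
  apply isIrrCharacter_of_norm_one (indS_isChar γ)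
  rw [inner_indS']
  have h2 : γ ≠ γ⁻¹ := by
    intro e
    apply h
    rw [sq]
    nth_rw 1 [e]
    exact inv_mul_cancel γ
  simp [h2]

theorem indS_symm (γ : MulChar F ℂ) : indS γ = indS γ⁻¹ := by
  rw [← sub_eq_zero]
  apply eq_zero_of_classInner_self_eq_zero
  rw [classInner_sub_left, classInner_sub_right, classInner_sub_right, inner_indS', inner_indS',
    inner_indS', inner_indS']
  simp only [inv_inv]
  by_cases h : γ = γ⁻¹
  · rw [← h]
    simp
  · have h' : γ⁻¹ ≠ γ := fun e => h e.symm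
    simp [h, h']

theorem indS_inj {γ γ' : MulChar F ℂ} (h : indS γ = indS γ') : γ = γ' ∨ γ = γ'⁻¹ := by
  have h1 := inner_indS' γ γ
  have h2 := inner_indS' γ γ'
  rw [← h] at h2
  by_contra hcon
  push Not at hcon
  rw [if_neg hcon.1, if_neg hcon.2, add_zero] at h2
  rw [h2] at h1
  rw [if_pos rfl] at h1
  by_cases e : γ = γ⁻¹
  · rw [if_pos e] at h1
    norm_num at h1
  · rw [if_neg e] at h1
    simp at h1

abbrev IrrS (F : Type*) [Field F] := IrrCharacter (SL2 F)

abbrev OffS (F : Type*) [Field F] := {γ : MulChar F ℂ // γ ^ 2 ≠ 1}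

noncomputable def trivI : IrrS F := ⟨trivS, isIrrCharacter_one⟩
noncomputable def stIS : IrrS F := ⟨stS, stS_irr⟩
noncomputable def psI (p : OffS F) : IrrS F := ⟨indS p.1, indS_irr p.2⟩

noncomputable def psF : Finset (IrrS F) := by
  classical
  exact Finset.univ.image psI

noncomputable def cuspSF : Finset (IrrS F) := by
  classical
  exact Finset.univ.filter (fun χ : IrrS F => ∀ γ, classInner (indS γ) (χ : SL2 F → ℂ) = 0)

noncomputable def quadF : Finset (IrrS F) := by
  classical
  exact Finset.univ.filter (fun χ : IrrS F => ∃ γ : MulChar F ℂ, γ ^ 2 = 1 ∧ γ ≠ 1 ∧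
    classInner (indS γ) (χ : SL2 F → ℂ) ≠ 0)

theorem mem_cuspSF (χ : IrrS F) : χ ∈ cuspSF (F := F) ↔ ∀ γ, classInner (indS γ) (χ : SL2 F → ℂ) = 0 := by
  classical
  simp [cuspSF]

theorem mem_quadF (χ : IrrS F) : χ ∈ quadF (F := F) ↔ ∃ γ : MulChar F ℂ, γ ^ 2 = 1 ∧ γ ≠ 1 ∧
    classInner (indS γ) (χ : SL2 F → ℂ) ≠ 0 := by
  classical
  simp [quadF]

theorem mem_psF (χ : IrrS F) : χ ∈ psF (F := F) ↔ ∃ γ : MulChar F ℂ, γ ^ 2 ≠ 1 ∧ (χ : SL2 F → ℂ) = indS γ := by
  classical
  simp only [psF, Finset.mem_image, Finset.mem_univ, true_and]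
  constructor
  · rintro ⟨p, rfl⟩
    exact ⟨p.1, p.2, rfl⟩
  · rintro ⟨γ, h1, h2⟩
    exact ⟨⟨γ, h1⟩, Subtype.ext h2.symm⟩

theorem psF_val {χ : IrrS F} (h : χ ∈ psF (F := F)) : (χ : SL2 F → ℂ) 1 = (Fintype.card F : ℂ) + 1 := by
  obtain ⟨γ, _, h2⟩ := (mem_psF χ).mp h
  rw [h2, indS_one]

theorem classifyS (χ : IrrS F) : χ = trivI ∨ χ = stIS ∨ χ ∈ psF (F := F) ∨ χ ∈ quadF (F := F) ∨ χ ∈ cuspSF (F := F) := by
  classical
  by_cases h : ∀ γ, classInner (indS γ) (χ : SL2 F → ℂ) = 0
  · exact Or.inr (Or.inr (Or.inr (Or.inr ((mem_cuspSF χ).mpr h))))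
  · push Not at h
    obtain ⟨γ, hγ⟩ := h
    by_cases h2 : γ ^ 2 = 1
    · by_cases h3 : γ = 1
      · subst h3
        have he : indS (1 : MulChar F ℂ) = trivS + stS := by
          simp [stS]
        rw [he, classInner_add_left] at hγ
        by_cases h4 : trivS = (χ : SL2 F → ℂ)
        · exact Or.inl (Subtype.ext h4.symm)
        · by_cases h5 : stS = (χ : SL2 F → ℂ)
          · exact Or.inr (Or.inl (Subtype.ext h5.symm))
          · rw [classInner_irr isIrrCharacter_one χ.2, if_neg h4, classInner_irr stS_irr χ.2,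
              if_neg h5] at hγ
            simp at hγ
      · exact Or.inr (Or.inr (Or.inr (Or.inl ((mem_quadF χ).mpr ⟨γ, h2, h3, hγ⟩))))
    · rw [classInner_irr (indS_irr h2) χ.2] at hγ
      by_cases h3 : indS γ = (χ : SL2 F → ℂ)
      · exact Or.inr (Or.inr (Or.inl ((mem_psF χ).mpr ⟨γ, h2, h3.symm⟩)))
      · rw [if_neg h3] at hγ
        exact absurd rfl hγ

/-! ### Disjointness -/

theorem triv_ne_st : (trivI : IrrS F) ≠ stIS := by
  intro e
  have h : trivS (F := F) 1 = stS 1 := congrFun (congrArg Subtype.val e) 1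
  rw [stS_one] at h
  exact q_C_ne_one h.symm

theorem triv_not_ps : (trivI : IrrS F) ∉ psF (F := F) := by
  intro h
  have h2 := psF_val h
  have h3 : (1 : ℂ) = (Fintype.card F : ℂ) + 1 := h2
  apply q_ne_zero (F := F)
  linear_combination -h3

theorem st_not_ps : (stIS : IrrS F) ∉ psF (F := F) := by
  intro h
  have h2 := psF_val h
  have h3 : stS (F := F) 1 = (Fintype.card F : ℂ) + 1 := h2
  rw [stS_one] at h3
  simp at h3

theorem triv_not_quad : (trivI : IrrS F) ∉ quadF (F := F) := by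
  intro h
  obtain ⟨γ, _, h2, h3⟩ := (mem_quadF _).mp h
  apply h3
  show classInner (indS γ) trivS = 0
  rw [inner_indS_triv, if_neg h2]

theorem st_not_quad : (stIS : IrrS F) ∉ quadF (F := F) := by
  intro h
  obtain ⟨γ, _, h2, h3⟩ := (mem_quadF _).mp h
  apply h3
  show classInner (indS γ) stS = 0
  rw [inner_indS_st, if_neg h2]

theorem ps_not_quad {χ : IrrS F} (h1 : χ ∈ psF (F := F)) : χ ∉ quadF (F := F) := by
  intro h
  obtain ⟨γ, h2, h3, h4⟩ := (mem_quadF _).mp h
  obtain ⟨γ', h5, h6⟩ := (mem_psF _).mp h1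
  apply h4
  rw [h6, inner_indS']
  have e1 : γ ≠ γ' := by
    rintro rfl
    exact h5 h2
  have e2 : γ ≠ γ'⁻¹ := by
    intro e
    apply h5
    rw [e, inv_pow, inv_eq_one] at h2
    exact h2
  simp [e1, e2]

theorem triv_not_cusp : (trivI : IrrS F) ∉ cuspSF (F := F) := by
  intro h
  have h2 := (mem_cuspSF _).mp h 1
  have h3 : classInner (indS (1 : MulChar F ℂ)) trivS = 0 := h2
  rw [inner_indS_triv] at h3
  simp at h3

theorem st_not_cusp : (stIS : IrrS F) ∉ cuspSF (F := F) := by
  intro h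
  have h2 := (mem_cuspSF _).mp h 1
  have h3 : classInner (indS (1 : MulChar F ℂ)) stS = 0 := h2
  rw [inner_indS_st] at h3
  simp at h3

theorem ps_not_cusp {χ : IrrS F} (h1 : χ ∈ psF (F := F)) : χ ∉ cuspSF (F := F) := by
  intro h
  obtain ⟨γ', h5, h6⟩ := (mem_psF _).mp h1
  have h2 := (mem_cuspSF _).mp h γ'
  rw [h6, inner_indS'] at h2
  have e2 : γ' ≠ γ'⁻¹ := by
    intro e
    apply h5
    rw [sq]
    nth_rw 1 [e]
    exact inv_mul_cancel γ'
  simp [e2] at h2

theorem quad_not_cusp {χ : IrrS F} (h1 : χ ∈ quadF (F := F)) : χ ∉ cuspSF (F := F) := by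
  intro h
  obtain ⟨γ, _, _, h4⟩ := (mem_quadF _).mp h1
  exact h4 ((mem_cuspSF _).mp h γ)

/-- The partition of the irreducible characters of `SL₂`. -/
theorem sum_partS (f : IrrS F → ℂ) :
    ∑ χ, f χ = f trivI + f stIS + ∑ χ ∈ psF (F := F), f χ + ∑ χ ∈ quadF (F := F), f χ +
      ∑ χ ∈ cuspSF (F := F), f χ := by
  classical
  have hU : (Finset.univ : Finset (IrrS F)) =
      insert trivI (insert stIS (psF ∪ (quadF ∪ cuspSF))) := by
    symm
    rw [Finset.eq_univ_iff_forall]
    intro χ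
    simp only [Finset.mem_insert, Finset.mem_union]
    exact classifyS χ
  rw [hU, Finset.sum_insert, Finset.sum_insert, Finset.sum_union, Finset.sum_union]
  · ring
  · rw [Finset.disjoint_left]
    intro χ h1 h2
    exact quad_not_cusp h1 h2
  · rw [Finset.disjoint_left]
    intro χ h1 h2
    rcases Finset.mem_union.mp h2 with h2 | h2
    · exact ps_not_quad h1 h2
    · exact ps_not_cusp h1 h2
  · simp only [Finset.mem_union, not_or]
    exact ⟨st_not_ps, st_not_quad, st_not_cusp⟩
  · simp only [Finset.mem_insert, Finset.mem_union, not_or]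
    exact ⟨triv_ne_st, triv_not_ps, triv_not_quad, triv_not_cusp⟩

/-- The cardinalities in this partition. -/
theorem card_partS : Fintype.card (IrrS F) =
    2 + (psF (F := F)).card + (quadF (F := F)).card + (cuspSF (F := F)).card := by
  have h := sum_partS (F := F) (fun _ => 1)
  simp only [Finset.sum_const, Finset.card_univ, nsmul_eq_mul, mul_one] at h
  have h2 : ((Fintype.card (IrrS F) : ℕ) : ℂ) =
      ((2 + (psF (F := F)).card + (quadF (F := F)).card + (cuspSF (F := F)).card : ℕ) : ℂ) := by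
    push_cast
    rw [h]
    norm_num
  exact Nat.cast_injective h2

/-- The fibres of `psI` have two elements. -/
theorem fiber_psI (p : OffS F) :
    (Finset.univ.filter (fun r : OffS F => psI r = psI p)).card = 2 := by
  classical
  have hp2 : (p.1)⁻¹ ^ 2 ≠ 1 := by
    rw [inv_pow, Ne, inv_eq_one]
    exact p.2
  have hne : p.1⁻¹ ≠ p.1 := by
    intro e
    apply p.2
    rw [sq]
    nth_rw 1 [← e]
    exact inv_mul_cancel _
  rw [Finset.card_eq_two]
  refine ⟨p, ⟨p.1⁻¹, hp2⟩, ?_, ?_⟩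
  · intro e
    exact hne (congrArg Subtype.val e).symm
  · ext r
    simp only [Finset.mem_filter, Finset.mem_univ, true_and, Finset.mem_insert, Finset.mem_singleton]
    constructor
    · intro h
      have h2 : indS r.1 = indS p.1 := congrArg Subtype.val h
      rcases indS_inj h2 with e | e
      · left
        exact Subtype.ext e
      · right
        exact Subtype.ext e
    · rintro (rfl | rfl)
      · rfl
      · apply Subtype.ext
        exact (indS_symm _).symm

theorem two_card_psF : 2 * (psF (F := F)).card = Fintype.card (OffS F) := by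
  classical
  rw [← Finset.card_univ, Finset.card_eq_sum_card_image psI Finset.univ]
  rw [psF, mul_comm, ← smul_eq_mul, ← Finset.sum_const]
  apply Finset.sum_congr rfl
  intro χ hχ
  obtain ⟨p, _, rfl⟩ := Finset.mem_image.mp hχ
  exact (fiber_psI p).symm

theorem sum_psF (f : IrrS F → ℂ) :
    2 * ∑ χ ∈ psF (F := F), f χ = ∑ p : OffS F, f (psI p) := by
  classical
  rw [Finset.sum_comp f psI]
  rw [Finset.mul_sum]
  apply Finset.sum_congr
  · rfl
  · intro χ hχ
    obtain ⟨p, _, rfl⟩ := Finset.mem_image.mp hχ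
    rw [fiber_psI p]
    simp

/-! ### The comparison with `GL₂` -/

/-- The restriction of a character of `GL₂`. -/
noncomputable abbrev resGL (Ψ : GL2 F → ℂ) : SL2 F → ℂ := fun g => Ψ (Matrix.SpecialLinearGroup.toGL g)

theorem toGL_inj : Function.Injective (Matrix.SpecialLinearGroup.toGL : SL2 F →* GL2 F) := by
  intro g h e
  apply Subtype.ext
  exact congrArg (fun x : GL2 F => (x : M2 F)) e

theorem resGL_isChar {Ψ : GL2 F → ℂ} (h : IsCharacter (GL2 F) Ψ) : IsCharacter (SL2 F) (resGL Ψ) :=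
  IsCharacter.comp h Matrix.SpecialLinearGroup.toGL

/-- A cuspidal character of `SL₂` lies in the restriction of a cuspidal character of `GL₂`. -/
theorem exists_cusp_above {χ : IrrS F} (h : χ ∈ cuspSF (F := F)) :
    ∃ Ψ ∈ cuspF (F := F), classInner (resGL (Ψ : GL2 F → ℂ)) (χ : SL2 F → ℂ) ≠ 0 := by
  classical
  obtain ⟨Ψ, hΨ⟩ := exists_constituent_of_inj (Matrix.SpecialLinearGroup.toGL : SL2 F →* GL2 F) toGL_inj
    (χ : SL2 F → ℂ) (IsIrrCharacter.ne_zero χ.2)
  refine ⟨Ψ, ?_, hΨ⟩
  rw [mem_cuspF]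
  by_contra hcon
  push Not at hcon
  obtain ⟨α, β, hne⟩ := hcon
  have hR := isChar_sub_irr (indL_isChar α β) Ψ.2 hne
  have h1 : resGL (indL α β) = resGL (Ψ : GL2 F → ℂ) + resGL (indL α β - (Ψ : GL2 F → ℂ)) := by
    funext g
    simp
  have h2 : classInner (resGL (indL α β)) (χ : SL2 F → ℂ) = 0 := by
    have e : resGL (indL α β) = indS (α * β⁻¹) := by
      funext g
      exact indL_res α β g
    rw [e]
    exact (mem_cuspSF χ).mp h _
  rw [h1, classInner_add_left] at h2
  obtain ⟨a, ha⟩ := IsCharacter.classInner_irr_nat (resGL_isChar (IsIrrCharacter.isCharacter Ψ.2)) χ.2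
  obtain ⟨b, hb⟩ := IsCharacter.classInner_irr_nat (resGL_isChar hR) χ.2
  rw [ha] at hΨ
  have ha0 : a ≠ 0 := by
    rintro rfl
    simp at hΨ
  have h3 : ((a + b : ℕ) : ℂ) = 0 := by
    push_cast
    have h5 : classInner (resGL (Ψ : GL2 F → ℂ)) (χ : SL2 F → ℂ) = a := ha
    rw [h5, hb] at h2
    exact h2
  have h4 : a + b = 0 := by exact_mod_cast h3
  omega

/-- The degree of a cuspidal character of `SL₂` is at most `q - 1`. -/
theorem cuspS_deg_le {χ : IrrS F} (h : χ ∈ cuspSF (F := F)) {n : ℕ} (hn : (χ : SL2 F → ℂ) 1 = n) :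
    n ≤ Fintype.card F - 1 := by
  obtain ⟨Ψ, hΨ, hne⟩ := exists_cusp_above h
  have h1 := degree_le_of_classInner_ne_zero (resGL_isChar (IsIrrCharacter.isCharacter Ψ.2)) χ.2 hne
  have h2 : resGL (Ψ : GL2 F → ℂ) 1 = (Fintype.card F : ℂ) - 1 := by
    simp only [resGL, map_one]
    exact cusp_deg hΨ
  rw [h2, hn] at h1
  have hq : 1 ≤ Fintype.card F := Fintype.card_pos
  have h3 : ((Fintype.card F : ℂ) - 1) = ((Fintype.card F - 1 : ℕ) : ℂ) := by
    rw [Nat.cast_sub hq]
    simp
  rw [h3] at h1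
  simp only [Complex.natCast_re] at h1
  exact_mod_cast h1

end Fin

end Cfsg.Agent.Lib.LdSL2
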