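import Mathlib
import Cfsg.Agent.Lib.LdSL2
import Cfsg.Agent.Lib.H1SL2C

set_option autoImplicit false
set_option linter.unusedSectionVars false
set_option linter.unusedSimpArgs false
set_option linter.unusedVariables false

/-! The characters of `SL₂` in characteristic two. -/

namespace Cfsg.Agent.Lib.LdSL3

open Matrix Cfsg Cfsg.Agent.Lib.H1GL2 Cfsg.Agent.Lib.H1GL2C Cfsg.Agent.Lib.LdGL1 Cfsg.Agent.Lib.LdGL2
open Cfsg.Agent.Lib.LdGL3 Cfsg.Agent.Lib.LdGL4 Cfsg.Agent.Lib.LdGL5 Cfsg.Agent.Lib.LdGL6 Cfsg.Agent.Lib.H1SL2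
open Cfsg.Agent.Lib.LdSL1 Cfsg.Agent.Lib.LdSL2
open Cfsg.Agent.Lib.CharBasic Cfsg.Agent.Lib.CharOrth Cfsg.Agent.Lib.CharAlg Cfsg.Agent.Lib.CharInd Cfsg.Agent.Lib.CharLin
open scoped ComplexConjugate

variable {F : Type*} [Field F] [Fintype F] [DecidableEq F]

/-- Values of the Steinberg character of `SL₂`. -/
theorem stS_diag (g : SL2 F) (h10 : (g : M2 F) 1 0 = 0) (hne : (g : M2 F) 0 0 ≠ (g : M2 F) 1 1) :
    stS g = 1 := by
  have hd := sl_det g
  rw [h10, mul_zero, sub_zero] at hd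
  have ha : (g : M2 F) 0 0 ≠ 0 := left_ne_zero_of_mul (by rw [hd]; exact one_ne_zero)
  have hb : (g : M2 F) 1 1 ≠ 0 := right_ne_zero_of_mul (by rw [hd]; exact one_ne_zero)
  simp only [stS, Pi.sub_apply]
  rw [indS_tri_ne _ g h10 hne, MulChar.one_apply (isUnit_iff_ne_zero.mpr ha),
    MulChar.one_apply (isUnit_iff_ne_zero.mpr hb)]
  norm_num

theorem stS_noeig (g : SL2 F) (hg : ∀ (c : F) (v : Fin 2 → F), v ≠ 0 → (g : M2 F).mulVec v ≠ c • v) :
    stS g = -1 := by
  simp only [stS, Pi.sub_apply]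
  rw [indS_noeig _ g hg]
  ring

theorem stS_tri_eq (g : SL2 F) (h10 : (g : M2 F) 1 0 = 0) (he : (g : M2 F) 0 0 = (g : M2 F) 1 1)
    (h01 : (g : M2 F) 0 1 ≠ 0) : stS g = 0 := by
  have hd := sl_det g
  rw [h10, mul_zero, sub_zero] at hd
  have ha : (g : M2 F) 0 0 ≠ 0 := left_ne_zero_of_mul (by rw [hd]; exact one_ne_zero)
  simp only [stS, Pi.sub_apply]
  rw [indS_tri_eq _ g h10 he h01, MulChar.one_apply (isUnit_iff_ne_zero.mpr ha)]
  ring

/-- A cuspidal function and the transvection sum. -/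
theorem cuspS_sum' {χ : IrrS F} (h : χ ∈ cuspSF (F := F)) : ∑ c : F, (χ : SL2 F → ℂ) (tv c) = 0 :=
  cuspS_sum _ (classFunction_of_isIrrCharacter χ.2) ((mem_cuspSF χ).mp h)

theorem sum_tv_split (χ : SL2 F → ℂ) : ∑ c : F, χ (tv c) = χ 1 + ∑ c ∈ (Finset.univ : Finset F).erase 0, χ (tv c) := by
  rw [← Finset.add_sum_erase _ _ (Finset.mem_univ (0 : F)), tv_zero]

section Even

variable [CharP F 2]

theorem ringChar_two : ringChar F = 2 := ringChar.eq F 2

theorem q_even : Fintype.card F % 2 = 0 := FiniteField.even_card_iff_char_two.mp ringChar_two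

theorem sq_eq_one_even (γ : MulChar F ℂ) (h : γ ^ 2 = 1) : γ = 1 := by
  have h1 : γ ^ (Fintype.card (MulChar F ℂ)) = 1 := pow_card_eq_one
  rw [card_MC] at h1
  have hq : 2 ≤ Fintype.card F := q_two_le
  have hq2 := q_even (F := F)
  have hc : Nat.gcd 2 (Fintype.card F - 1) = 1 := by
    have h5 : Nat.gcd 2 (Fintype.card F - 1) ∣ 2 := Nat.gcd_dvd_left _ _
    have h6 : Nat.gcd 2 (Fintype.card F - 1) ∣ Fintype.card F - 1 := Nat.gcd_dvd_right _ _
    have h7 : Nat.gcd 2 (Fintype.card F - 1) ≤ 2 := Nat.le_of_dvd (by norm_num) h5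
    have h8 : Nat.gcd 2 (Fintype.card F - 1) ≠ 0 := Nat.gcd_ne_zero_left (by norm_num)
    have h9 : Nat.gcd 2 (Fintype.card F - 1) ≠ 2 := by
      intro he
      rw [he] at h6
      omega
    omega
  have h3 := pow_gcd_eq_one.mpr ⟨h, h1⟩
  rwa [hc, pow_one] at h3

theorem quadF_even : quadF (F := F) = ∅ := by
  rw [Finset.eq_empty_iff_forall_notMem]
  intro χ hχ
  obtain ⟨γ, h1, h2, _⟩ := (mem_quadF χ).mp hχ
  exact h2 (sq_eq_one_even γ h1)

theorem card_OffS_even : Fintype.card (OffS F) = Fintype.card F - 2 := by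
  classical
  have h1 : Fintype.card (OffS F) = Fintype.card (MulChar F ℂ) - Fintype.card {γ : MulChar F ℂ // γ ^ 2 = 1} :=
    Fintype.card_subtype_compl _
  have h2 : Fintype.card {γ : MulChar F ℂ // γ ^ 2 = 1} = 1 := by
    rw [Fintype.card_eq_one_iff]
    refine ⟨⟨1, by simp⟩, ?_⟩
    rintro ⟨γ, hγ⟩
    exact Subtype.ext (sq_eq_one_even γ hγ)
  rw [h1, h2, card_MC]
  omega

theorem tv_conj_even {c : F} (hc : c ≠ 0) : IsConj (tv (1 : F)) (tv c) := by
  rw [tv_conj_iff one_ne_zero hc]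
  exact FiniteField.isSquare_of_char_two ringChar_two _

theorem cuspS_val_even {χ : IrrS F} (h : χ ∈ cuspSF (F := F)) :
    (χ : SL2 F → ℂ) 1 + ((Fintype.card F : ℂ) - 1) * (χ : SL2 F → ℂ) (tv 1) = 0 := by
  have h1 := cuspS_sum' h
  rw [sum_tv_split] at h1
  have h2 : ∀ c ∈ (Finset.univ : Finset F).erase 0, (χ : SL2 F → ℂ) (tv c) = (χ : SL2 F → ℂ) (tv 1) := by
    intro c hc
    obtain ⟨x, hx⟩ := isConj_iff.mp (tv_conj_even (Finset.ne_of_mem_erase hc))
    rw [← hx]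
    exact classFunction_of_isIrrCharacter χ.2 _ x
  rw [Finset.sum_congr rfl h2, Finset.sum_const, Finset.card_erase_of_mem (Finset.mem_univ _),
    Finset.card_univ, nsmul_eq_mul] at h1
  have hq : 1 ≤ Fintype.card F := Fintype.card_pos
  rw [Nat.cast_sub hq] at h1
  simpa using h1

theorem cuspS_deg_even {χ : IrrS F} (h : χ ∈ cuspSF (F := F)) :
    (χ : SL2 F → ℂ) 1 = (Fintype.card F : ℂ) - 1 := by
  obtain ⟨n, hn0, hn⟩ := IsIrrCharacter.map_one_pos χ.2
  have hq : 2 ≤ Fintype.card F := q_two_le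
  have h1 := cuspS_val_even h
  rw [hn] at h1
  have hd : (Fintype.card F - 1) ∣ n := by
    apply dvd_of_mul_integral (by omega) (-(χ : SL2 F → ℂ) (tv 1))
    · exact (IsCharacter.isIntegral (IsIrrCharacter.isCharacter χ.2) _).neg
    · rw [Nat.cast_sub (by omega)]
      push_cast
      linear_combination h1
  have hle := cuspS_deg_le h hn
  have he : n = Fintype.card F - 1 := le_antisymm hle (Nat.le_of_dvd hn0 hd)
  rw [hn, he, Nat.cast_sub (by omega)]
  simp

theorem card_irrS_even : Fintype.card (IrrS F) = Fintype.card F + 1 := by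
  have h := card_irr (G := SL2 F)
  rw [Cfsg.Agent.Lib.H1SL2C.card_classes_even, Nat.card_eq_fintype_card] at h
  exact h

theorem two_card_cusp_even : 2 * (cuspSF (F := F)).card = Fintype.card F := by
  have h1 := card_partS (F := F)
  rw [card_irrS_even, quadF_even] at h1
  have h2 := two_card_psF (F := F)
  rw [card_OffS_even] at h2
  have hq : 2 ≤ Fintype.card F := q_two_le
  simp only [Finset.card_empty] at h1
  omega

end Even

end Cfsg.Agent.Lib.LdSL3
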