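import Mathlib
import Cfsg.Agent.Lib.LdSL3

set_option autoImplicit false
set_option linter.unusedSectionVars false
set_option linter.unusedSimpArgs false
set_option linter.unusedVariables false

/-! The characters of `SL₂` in odd characteristic: the character of order two. -/

namespace Cfsg.Agent.Lib.LdSL4

open Matrix Cfsg Cfsg.Agent.Lib.H1GL2 Cfsg.Agent.Lib.H1GL2C Cfsg.Agent.Lib.LdGL1 Cfsg.Agent.Lib.LdGL2
open Cfsg.Agent.Lib.LdGL3 Cfsg.Agent.Lib.LdGL4 Cfsg.Agent.Lib.LdGL5 Cfsg.Agent.Lib.LdGL6 Cfsg.Agent.Lib.H1SL2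
open Cfsg.Agent.Lib.LdSL1 Cfsg.Agent.Lib.LdSL2 Cfsg.Agent.Lib.LdSL3
open Cfsg.Agent.Lib.CharBasic Cfsg.Agent.Lib.CharOrth Cfsg.Agent.Lib.CharAlg Cfsg.Agent.Lib.CharInd Cfsg.Agent.Lib.CharLin
open scoped ComplexConjugate

variable {F : Type*} [Field F] [Fintype F] [DecidableEq F]

theorem ringChar_ne (hodd : Odd (Fintype.card F)) : ringChar F ≠ 2 := by
  intro h
  have := FiniteField.even_card_iff_char_two.mp h
  rw [Nat.odd_iff] at hodd
  omega

/-- The multiplicative character of order two. -/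
noncomputable def alpha0 : MulChar F ℂ := (quadraticChar F).ringHomComp (Int.castRingHom ℂ)

theorem alpha0_apply (a : F) : (alpha0 : MulChar F ℂ) a = ((quadraticChar F a : ℤ) : ℂ) := by
  simp [alpha0, MulChar.ringHomComp_apply]

theorem alpha0_sq_apply {a : F} (ha : a ≠ 0) : (alpha0 : MulChar F ℂ) a ^ 2 = 1 := by
  rw [alpha0_apply]
  have := quadraticChar_sq_one ha
  exact_mod_cast this

theorem alpha0_sq : (alpha0 : MulChar F ℂ) ^ 2 = 1 := by
  apply MulChar.ext
  intro a
  rw [MulChar.pow_apply' _ (by norm_num), alpha0_sq_apply a.ne_zero, MulChar.one_apply a.isUnit]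

theorem alpha0_ne_one (hodd : Odd (Fintype.card F)) : (alpha0 : MulChar F ℂ) ≠ 1 := by
  intro h
  obtain ⟨a, ha⟩ := FiniteField.exists_nonsquare (ringChar_ne hodd)
  have ha0 : a ≠ 0 := by
    rintro rfl
    exact ha (IsSquare.zero)
  have h1 := congrArg (fun χ : MulChar F ℂ => χ a) h
  simp only [MulChar.one_apply (isUnit_iff_ne_zero.mpr ha0), alpha0_apply] at h1
  rw [quadraticChar_neg_one_iff_not_isSquare.mpr ha] at h1
  norm_num at h1

theorem alpha0_square {a : F} (ha : a ≠ 0) (hs : IsSquare a) : (alpha0 : MulChar F ℂ) a = 1 := by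
  rw [alpha0_apply, (quadraticChar_one_iff_isSquare ha).mpr hs]
  simp

theorem alpha0_nonsquare {a : F} (hs : ¬ IsSquare a) : (alpha0 : MulChar F ℂ) a = -1 := by
  rw [alpha0_apply, quadraticChar_neg_one_iff_not_isSquare.mpr hs]
  simp

theorem mc_eq_of_gen {γ γ' : MulChar F ℂ} (g : Fˣ) (hg : ∀ x : Fˣ, x ∈ Subgroup.zpowers g)
    (h : γ (g : F) = γ' (g : F)) : γ = γ' := by
  apply MulChar.ext
  intro a
  obtain ⟨k, rfl⟩ := hg a
  have e : γ.toUnitHom g = γ'.toUnitHom g := by
    apply Units.ext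
    simpa [MulChar.coe_toUnitHom] using h
  have e2 : γ.toUnitHom (g ^ k) = γ'.toUnitHom (g ^ k) := by
    rw [map_zpow, map_zpow, e]
  have e3 := congrArg (fun u : ℂˣ => (u : ℂ)) e2
  simp only [MulChar.coe_toUnitHom] at e3
  exact e3

theorem sq_one_cases (hodd : Odd (Fintype.card F)) {γ : MulChar F ℂ} (h : γ ^ 2 = 1) :
    γ = 1 ∨ γ = alpha0 := by
  obtain ⟨g, hg⟩ := IsCyclic.exists_generator (α := Fˣ)
  have h1 : ∀ {δ : MulChar F ℂ}, δ ^ 2 = 1 → δ (g : F) = 1 ∨ δ (g : F) = -1 := by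
    intro δ hδ
    have h2 : δ (g : F) ^ 2 = 1 := by
      rw [← MulChar.pow_apply' _ (by norm_num), hδ, MulChar.one_apply g.isUnit]
    exact sq_eq_one_iff.mp h2
  have hone : (1 : MulChar F ℂ) (g : F) = 1 := MulChar.one_apply g.isUnit
  rcases h1 h with h2 | h2
  · left
    exact mc_eq_of_gen g hg (by rw [h2, hone])
  · right
    rcases h1 alpha0_sq with h3 | h3
    · exfalso
      exact alpha0_ne_one hodd (mc_eq_of_gen g hg (by rw [h3, hone]))
    · exact mc_eq_of_gen g hg (by rw [h2, h3])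

/-- A nonsquare, as a unit. -/
theorem exists_nonsq (hodd : Odd (Fintype.card F)) : ∃ e : Fˣ, ¬ IsSquare (e : F) := by
  obtain ⟨a, ha⟩ := FiniteField.exists_nonsquare (ringChar_ne hodd)
  have ha0 : a ≠ 0 := by
    rintro rfl
    exact ha (IsSquare.zero)
  exact ⟨Units.mk0 a ha0, ha⟩

/-- Class functions at transvections. -/
theorem tv_val_sq {f : SL2 F → ℂ} (hf : IsClassFunction (SL2 F) f) {c c' : F} (hc : c ≠ 0) (hc' : c' ≠ 0)
    (h : (alpha0 : MulChar F ℂ) c = alpha0 c') : f (tv c) = f (tv c') := by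
  have hs : IsSquare (c * c') := by
    rw [← quadraticChar_one_iff_isSquare (mul_ne_zero hc hc'), map_mul]
    have h3 : (quadraticChar F c : ℤ) = quadraticChar F c' := by
      rw [alpha0_apply, alpha0_apply] at h
      exact_mod_cast h
    rw [h3, ← pow_two, quadraticChar_sq_one hc']
  obtain ⟨x, hx⟩ := isConj_iff.mp ((tv_conj_iff hc hc').mpr hs)
  rw [← hx]
  exact (hf _ x).symm

theorem sum_tv_alpha (hodd : Odd (Fintype.card F)) : ∑ c ∈ (Finset.univ : Finset F).erase 0, (alpha0 : MulChar F ℂ) c = 0 := by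
  have h := MulChar.sum_eq_zero_of_ne_one (alpha0_ne_one hodd (F := F))
  rw [← Finset.add_sum_erase _ _ (Finset.mem_univ (0 : F)), MulChar.map_zero, zero_add] at h
  exact h

/-- The transvection sum of a class function in odd characteristic. -/
theorem sum_tv_odd (hodd : Odd (Fintype.card F)) {f : SL2 F → ℂ} (hf : IsClassFunction (SL2 F) f)
    {e : Fˣ} (he : ¬ IsSquare (e : F)) :
    2 * ∑ c, f (tv c) = 2 * f 1 + ((Fintype.card F : ℂ) - 1) * (f (tv 1) + f (tv (e : F))) := by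
  rw [sum_tv_split, mul_add]
  congr 1
  have h1 : ∀ c ∈ (Finset.univ : Finset F).erase 0, 2 * f (tv c) =
      (f (tv 1) + f (tv (e : F))) + (f (tv 1) - f (tv (e : F))) * (alpha0 : MulChar F ℂ) c := by
    intro c hc
    have hc0 : c ≠ 0 := Finset.ne_of_mem_erase hc
    by_cases hs : IsSquare c
    · have h2 : f (tv c) = f (tv 1) := by
        apply tv_val_sq hf hc0 one_ne_zero
        rw [alpha0_square hc0 hs, alpha0_square one_ne_zero IsSquare.one]
      rw [h2, alpha0_square hc0 hs]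
      ring
    · have h2 : f (tv c) = f (tv (e : F)) := by
        apply tv_val_sq hf hc0 e.ne_zero
        rw [alpha0_nonsquare hs, alpha0_nonsquare he]
      rw [h2, alpha0_nonsquare hs]
      ring
  rw [Finset.mul_sum, Finset.sum_congr rfl h1, Finset.sum_add_distrib, ← Finset.mul_sum, sum_tv_alpha hodd,
    mul_zero, add_zero, Finset.sum_const, Finset.card_erase_of_mem (Finset.mem_univ _), Finset.card_univ,
    nsmul_eq_mul, Nat.cast_sub Fintype.card_pos]
  simp

/-- The homomorphism from the additive group to the transvections. -/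
def tvHom : Multiplicative F →* SL2 F where
  toFun c := tv (Multiplicative.toAdd c)
  map_one' := tv_zero
  map_mul' x y := by
    rw [tv_mul]
    rfl

/-- The multiplicity of an additive character in the restriction of a character to the transvections. -/
theorem exists_mult (ψ : AddChar F ℂ) {χ : SL2 F → ℂ} (hχ : IsCharacter (SL2 F) χ) :
    ∃ n : ℕ, (Fintype.card F : ℂ)⁻¹ * ∑ c : F, χ (tv c) * conj (ψ c) = n := by
  classical
  let ψ' : Multiplicative F →* ℂˣ := ψ.toMonoidHom.toHomUnits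
  have h1 : IsIrrCharacter (Multiplicative F) (fun g => ((ψ' g : ℂˣ) : ℂ)) := isIrrCharacter_of_hom ψ'
  obtain ⟨n, hn⟩ := IsCharacter.classInner_irr_nat (IsCharacter.comp hχ tvHom) h1
  refine ⟨n, ?_⟩
  rw [← hn, classInner]
  congr 1
  · simp
  · exact Fintype.sum_equiv Multiplicative.ofAdd _ _ (fun c => rfl)

/-- A nontrivial additive character. -/
theorem exists_addChar : ∃ ψ : AddChar F ℂ, ∑ c : F, ψ c = 0 := by
  obtain ⟨ψ, hψ⟩ := (AddChar.exists_apply_ne_zero (α := F) (a := 1)).mpr one_ne_zero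
  refine ⟨ψ, AddChar.sum_eq_zero_iff_ne_zero.mpr ?_⟩
  rintro rfl
  simp at hψ

/-- The outer automorphism of `SL₂` given by a diagonal matrix. -/
def sig (e : Fˣ) : SL2 F →* SL2 F where
  toFun g := mk ((g : M2 F) 0 0) ((e : F) * (g : M2 F) 0 1) (((e⁻¹ : Fˣ) : F) * (g : M2 F) 1 0) ((g : M2 F) 1 1)
    (by
      have := sl_det g
      have h2 : (e : F) * ((e⁻¹ : Fˣ) : F) = 1 := e.mul_inv
      linear_combination this - (g : M2 F) 0 1 * (g : M2 F) 1 0 * h2)
  map_one' := by apply sl_ext <;> simp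
  map_mul' x y := by
    have h2 : (e : F) * ((e⁻¹ : Fˣ) : F) = 1 := e.mul_inv
    apply sl_ext <;> simp only [mk00, mk01, mk10, mk11, sl_mul00, sl_mul01, sl_mul10, sl_mul11]
    · linear_combination (-(x : M2 F) 0 1 * (y : M2 F) 1 0) * h2
    · ring
    · ring
    · linear_combination (-(x : M2 F) 1 0 * (y : M2 F) 0 1) * h2

@[simp] theorem sig00 (e : Fˣ) (g : SL2 F) : (sig e g : M2 F) 0 0 = (g : M2 F) 0 0 := rfl
@[simp] theorem sig01 (e : Fˣ) (g : SL2 F) : (sig e g : M2 F) 0 1 = (e : F) * (g : M2 F) 0 1 := rfl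
@[simp] theorem sig10 (e : Fˣ) (g : SL2 F) : (sig e g : M2 F) 1 0 = ((e⁻¹ : Fˣ) : F) * (g : M2 F) 1 0 := rfl
@[simp] theorem sig11 (e : Fˣ) (g : SL2 F) : (sig e g : M2 F) 1 1 = (g : M2 F) 1 1 := rfl

theorem sig_sig_inv (e : Fˣ) (g : SL2 F) : sig e (sig e⁻¹ g) = g := by
  have h2 : (e : F) * ((e⁻¹ : Fˣ) : F) = 1 := e.mul_inv
  apply sl_ext
  · simp
  · simp only [sig01, ← mul_assoc, h2, one_mul]
  · simp only [sig10, ← mul_assoc, inv_inv, Units.inv_mul, one_mul]
  · simp

theorem sig_inv_sig (e : Fˣ) (g : SL2 F) : sig e⁻¹ (sig e g) = g := by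
  have := sig_sig_inv e⁻¹ g
  rwa [inv_inv] at this

theorem sig_surj (e : Fˣ) : Function.Surjective (sig e : SL2 F → SL2 F) :=
  fun g => ⟨sig e⁻¹ g, sig_sig_inv e g⟩

noncomputable def sigE (e : Fˣ) : SL2 F ≃ SL2 F where
  toFun := sig e
  invFun := sig e⁻¹
  left_inv := sig_inv_sig e
  right_inv := sig_sig_inv e

theorem sig_tv (e : Fˣ) (c : F) : sig e (tv c) = tv ((e : F) * c) := by
  apply sl_ext <;> simp

theorem toGL_val (x : SL2 F) (i j : Fin 2) :
    ((Matrix.SpecialLinearGroup.toGL x : GL2 F) : M2 F) i j = (x : M2 F) i j := rfl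

/-- Relation with conjugation in `GL₂`. -/
theorem toGL_sig (e : Fˣ) (g : SL2 F) :
    Matrix.SpecialLinearGroup.toGL (sig e g) = tri e 1 0 * Matrix.SpecialLinearGroup.toGL g * (tri e 1 0)⁻¹ := by
  rw [eq_mul_inv_iff_mul_eq]
  have h2 : ((e⁻¹ : Fˣ) : F) * (e : F) = 1 := e.inv_mul
  apply gl_ext
  · simp only [gl_mul00, toGL_val, sig00, sig01, tri00, tri01, tri10]
    ring
  · simp only [gl_mul01, toGL_val, sig00, sig01, tri00, tri01, tri11, Units.val_one]
    ring
  · simp only [gl_mul10, toGL_val, sig10, sig11, tri00, tri10, tri11, Units.val_one]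
    linear_combination (g : M2 F) 1 0 * h2
  · simp only [gl_mul11, toGL_val, sig10, sig11, tri01, tri10, tri11, Units.val_one]
    ring

/-- The induced function is invariant under the outer automorphism. -/
theorem indS_sig (α : MulChar F ℂ) (e : Fˣ) (g : SL2 F) : indS α (sig e g) = indS α g := by
  simp only [indS, indFun]
  congr 1
  refine Fintype.sum_equiv (sigE e⁻¹) _ _ ?_
  intro x
  rw [ext_lamS, ext_lamS]
  have hx : x = sig e (sigE e⁻¹ x) := (sig_sig_inv e x).symm
  have h1 : x⁻¹ * sig e g * x = sig e ((sigE e⁻¹ x)⁻¹ * g * (sigE e⁻¹ x)) := by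
    conv_lhs => rw [hx]
    rw [map_mul, map_mul, map_inv]
  rw [h1, sig10, sig00]
  simp [Units.ne_zero]

theorem indS_tv (α : MulChar F ℂ) {c : F} (hc : c ≠ 0) : indS α (tv c) = 1 := by
  rw [indS_tri_eq α (tv c) rfl rfl hc]
  simp

/-- The value at transvections of a character fixed by the outer automorphism. -/
theorem fixed_val (hodd : Odd (Fintype.card F)) {χ : SL2 F → ℂ} (hχ : IsClassFunction (SL2 F) χ) {e : Fˣ}
    (he : ¬ IsSquare (e : F)) (hfix : χ ∘ sig e = χ) {c : F} (hc : c ≠ 0) : χ (tv c) = χ (tv 1) := by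
  by_cases hs : IsSquare c
  · apply tv_val_sq hχ hc one_ne_zero
    rw [alpha0_square hc hs, alpha0_square one_ne_zero IsSquare.one]
  · have h1 : χ (tv c) = χ (tv ((e : F) * c)) := by
      rw [← sig_tv]
      exact (congrFun hfix (tv c)).symm
    rw [h1]
    apply tv_val_sq hχ (mul_ne_zero e.ne_zero hc) one_ne_zero
    rw [map_mul, alpha0_nonsquare he, alpha0_nonsquare hs, alpha0_square one_ne_zero IsSquare.one]
    ring

/-- The multiplicity of a nontrivial additive character for a character constant on nontrivial transvections. -/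
theorem mult_fixed {χ : SL2 F → ℂ} (hχ : IsCharacter (SL2 F) χ) {ψ : AddChar F ℂ} (hψ : ∑ c : F, ψ c = 0)
    (hval : ∀ c : F, c ≠ 0 → χ (tv c) = χ (tv 1)) :
    ∃ n : ℕ, χ 1 - χ (tv 1) = (n : ℂ) * (Fintype.card F : ℂ) := by
  obtain ⟨n, hn⟩ := exists_mult ψ hχ
  refine ⟨n, ?_⟩
  rw [← hn, mul_comm _ (Fintype.card F : ℂ), mul_inv_cancel_left₀ q_ne_zero]
  have h0 : ∑ c : F, conj (ψ c) = 0 := by
    rw [← map_sum, hψ, map_zero]
  rw [← Finset.add_sum_erase _ _ (Finset.mem_univ (0 : F))] at h0 ⊢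
  rw [tv_zero, AddChar.map_zero_eq_one, map_one, mul_one]
  rw [AddChar.map_zero_eq_one, map_one] at h0
  have h1 : ∑ c ∈ (Finset.univ : Finset F).erase 0, χ (tv c) * conj (ψ c) =
      χ (tv 1) * ∑ c ∈ (Finset.univ : Finset F).erase 0, conj (ψ c) := by
    rw [Finset.mul_sum]
    apply Finset.sum_congr rfl
    intro c hc
    rw [hval c (Finset.ne_of_mem_erase hc)]
  rw [h1]
  have h2 : ∑ c ∈ (Finset.univ : Finset F).erase 0, conj (ψ c) = -1 := by
    linear_combination h0
  rw [h2]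
  ring

theorem classInner_const_right (X : SL2 F → ℂ) {χ : SL2 F → ℂ} (h : ∀ g, χ g = χ 1) :
    classInner X χ = conj (χ 1) * classInner X trivS := by
  simp only [classInner]
  rw [mul_left_comm]
  congr 1
  rw [Finset.mul_sum]
  apply Finset.sum_congr rfl
  intro g _
  rw [h g]
  simp [mul_comm]

/-- The character of order two of the Borel subgroup induces to two characters interchanged by the
outer automorphism. -/
theorem quad_split (hodd : Odd (Fintype.card F)) {α : MulChar F ℂ} (hα : α ^ 2 = 1) (hα1 : α ≠ 1)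
    {e : Fˣ} (he : ¬ IsSquare (e : F)) :
    ∃ χ₁ χ₂ : SL2 F → ℂ, IsIrrCharacter (SL2 F) χ₁ ∧ IsIrrCharacter (SL2 F) χ₂ ∧ χ₁ ≠ χ₂ ∧
      indS α = χ₁ + χ₂ ∧ χ₁ ∘ sig e = χ₂ := by
  have hinv : α = α⁻¹ := by
    rw [eq_inv_iff_mul_eq_one, ← pow_two, hα]
  have h2 : classInner (indS α) (indS α) = 2 := by
    rw [inner_indS', if_pos rfl, if_pos hinv]
    norm_num
  obtain ⟨χ₁, χ₂, h1, h3, hne, hsum⟩ := exists_norm_two (indS_isChar α) h2
  refine ⟨χ₁, χ₂, h1, h3, hne, hsum, ?_⟩
  have hσ1 := IsIrrCharacter.comp_surjective h1 (sig e) (sig_surj e)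
  have hσ3 := IsIrrCharacter.comp_surjective h3 (sig e) (sig_surj e)
  have hs : χ₁ ∘ sig e + χ₂ ∘ sig e = χ₁ + χ₂ := by
    funext g
    have : indS α (sig e g) = indS α g := indS_sig α e g
    rw [hsum] at this
    exact this
  -- the conjugate of `χ₁` is one of the two constituents
  have hin : classInner (χ₁ ∘ sig e) (χ₁ + χ₂) ≠ 0 := by
    rw [← hs, classInner_add_right, classInner_irr_self hσ1, classInner_irr hσ1 hσ3]
    split_ifs <;> norm_num
  by_cases h5 : χ₁ ∘ sig e = χ₂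
  · exact h5
  exfalso
  have h6 : χ₁ ∘ sig e = χ₁ := by
    by_contra h6
    apply hin
    rw [classInner_add_right, classInner_irr hσ1 h1, classInner_irr hσ1 h3, if_neg h6, if_neg h5]
    norm_num
  have h7 : χ₂ ∘ sig e = χ₂ := by
    rw [h6] at hs
    exact add_left_cancel hs
  obtain ⟨ψ, hψ⟩ := exists_addChar (F := F)
  have hv1 := fun c (hc : c ≠ 0) => fixed_val hodd (classFunction_of_isIrrCharacter h1) he h6 hc
  have hv3 := fun c (hc : c ≠ 0) => fixed_val hodd (classFunction_of_isIrrCharacter h3) he h7 hc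
  obtain ⟨n₁, hn₁⟩ := mult_fixed (IsIrrCharacter.isCharacter h1) hψ hv1
  obtain ⟨n₃, hn₃⟩ := mult_fixed (IsIrrCharacter.isCharacter h3) hψ hv3
  have h8 : (n₁ : ℂ) + n₃ = 1 := by
    apply mul_right_cancel₀ (q_ne_zero (F := F))
    have hx1 : χ₁ 1 + χ₂ 1 = (Fintype.card F : ℂ) + 1 := by
      have := indS_one α
      rw [hsum] at this
      exact this
    have hx2 : χ₁ (tv 1) + χ₂ (tv 1) = 1 := by
      have := indS_tv α (one_ne_zero (α := F))
      rw [hsum] at this
      exact this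
    linear_combination -hn₁ - hn₃ + hx1 - hx2
  have h9 : n₁ + n₃ = 1 := by exact_mod_cast h8
  have key : ∀ {χ : SL2 F → ℂ}, IsIrrCharacter (SL2 F) χ → (∀ c : F, c ≠ 0 → χ (tv c) = χ (tv 1)) →
      χ 1 - χ (tv 1) = ((0 : ℕ) : ℂ) * (Fintype.card F : ℂ) → classInner (indS α) χ = 0 := by
    intro χ hχ hv h0
    have h10 : χ (tv 1) = χ 1 := by
      simp only [Nat.cast_zero, zero_mul] at h0
      linear_combination -h0
    have h11 : ∀ c, χ (tv c) = χ 1 := by
      intro c
      by_cases hc : c = 0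
      · rw [hc, tv_zero]
      · rw [hv c hc, h10]
    have h12 := char_const (IsIrrCharacter.isCharacter hχ) h11
    rw [classInner_const_right _ h12, inner_indS_triv, if_neg hα1, mul_zero]
  have hi1 : classInner (indS α) χ₁ = 1 := by
    rw [hsum, classInner_add_left, classInner_irr_self h1, classInner_irr h3 h1, if_neg hne.symm]
    norm_num
  have hi3 : classInner (indS α) χ₂ = 1 := by
    rw [hsum, classInner_add_left, classInner_irr_self h3, classInner_irr h1 h3, if_neg hne]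
    norm_num
  have hcases : n₁ = 0 ∨ n₃ = 0 := by omega
  rcases hcases with h0 | h0
  · rw [h0] at hn₁
    rw [key h1 hv1 hn₁] at hi1
    norm_num at hi1
  · rw [h0] at hn₃
    rw [key h3 hv3 hn₃] at hi3
    norm_num at hi3

end Cfsg.Agent.Lib.LdSL4
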