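import Mathlib
import Cfsg.Agent.Lib.LdSL4

set_option autoImplicit false
set_option linter.unusedSectionVars false
set_option linter.unusedSimpArgs false
set_option linter.unusedVariables false

/-! The degrees of the characters of `SL₂` in odd characteristic. -/

namespace Cfsg.Agent.Lib.LdSL5

open Matrix Cfsg Cfsg.Agent.Lib.H1GL2 Cfsg.Agent.Lib.H1GL2C Cfsg.Agent.Lib.LdGL1 Cfsg.Agent.Lib.LdGL2
open Cfsg.Agent.Lib.LdGL3 Cfsg.Agent.Lib.LdGL4 Cfsg.Agent.Lib.LdGL5 Cfsg.Agent.Lib.LdGL6 Cfsg.Agent.Lib.H1SL2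
open Cfsg.Agent.Lib.LdSL1 Cfsg.Agent.Lib.LdSL2 Cfsg.Agent.Lib.LdSL3 Cfsg.Agent.Lib.LdSL4
open Cfsg.Agent.Lib.CharBasic Cfsg.Agent.Lib.CharOrth Cfsg.Agent.Lib.CharAlg Cfsg.Agent.Lib.CharInd Cfsg.Agent.Lib.CharLin
open scoped ComplexConjugate

variable {F : Type*} [Field F] [Fintype F] [DecidableEq F]

/-- The two constituents of the character induced from the character of order two. -/
structure QuadData (F : Type*) [Field F] [Fintype F] [DecidableEq F] (e : Fˣ) (k : ℕ) where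
  a : IrrS F
  b : IrrS F
  hne : a ≠ b
  hquad : quadF (F := F) = {a, b}
  hsum : indS (alpha0 : MulChar F ℂ) = (a : SL2 F → ℂ) + (b : SL2 F → ℂ)
  hswap : (a : SL2 F → ℂ) ∘ sig e = b
  ha1 : (a : SL2 F → ℂ) 1 = ((k + 1 : ℕ) : ℂ)
  hb1 : (b : SL2 F → ℂ) 1 = ((k + 1 : ℕ) : ℂ)

theorem exists_quadData {e : Fˣ} (he : ¬ IsSquare (e : F)) {k : ℕ} (hk : Fintype.card F = 2 * k + 1) :
    Nonempty (QuadData F e k) := by
  have hodd : Odd (Fintype.card F) := ⟨k, hk⟩
  obtain ⟨χ₁, χ₂, h1, h3, hne, hsum, hσ⟩ := quad_split hodd alpha0_sq (alpha0_ne_one hodd) he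
  have h12 : χ₂ 1 = χ₁ 1 := by
    rw [← hσ]
    show χ₁ (sig e 1) = χ₁ 1
    rw [map_one]
  have hs : χ₁ 1 + χ₂ 1 = (Fintype.card F : ℂ) + 1 := by
    have := indS_one (alpha0 : MulChar F ℂ)
    rw [hsum] at this
    exact this
  have hv : χ₁ 1 = ((k + 1 : ℕ) : ℂ) := by
    have h5 : (Fintype.card F : ℂ) = 2 * (k : ℂ) + 1 := by rw [hk]; push_cast; ring
    rw [h5, h12] at hs
    push_cast
    have h6 : (2 : ℂ) * (χ₁ 1 - ((k : ℂ) + 1)) = 0 := by linear_combination hs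
    have h7 := (mul_eq_zero.mp h6).resolve_left (by norm_num)
    linear_combination h7
  refine ⟨⟨⟨χ₁, h1⟩, ⟨χ₂, h3⟩, ?_, ?_, hsum, hσ, hv, h12.trans hv⟩⟩
  · intro h
    exact hne (congrArg Subtype.val h)
  · ext χ
    rw [mem_quadF, Finset.mem_insert, Finset.mem_singleton]
    constructor
    · rintro ⟨γ, h5, h6, h7⟩
      have h8 : γ = alpha0 := (sq_one_cases hodd h5).resolve_left h6
      rw [h8, hsum, classInner_add_left, classInner_irr h1 χ.2, classInner_irr h3 χ.2] at h7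
      by_cases h9 : χ₁ = (χ : SL2 F → ℂ)
      · left
        exact Subtype.ext h9.symm
      · right
        by_cases h10 : χ₂ = (χ : SL2 F → ℂ)
        · exact Subtype.ext h10.symm
        · exfalso
          apply h7
          rw [if_neg h9, if_neg h10]
          norm_num
    · intro h5
      refine ⟨alpha0, alpha0_sq, alpha0_ne_one hodd, ?_⟩
      rw [hsum, classInner_add_left]
      rcases h5 with rfl | rfl
      · rw [classInner_irr h1 h1, classInner_irr h3 h1]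
        simp only [if_true]
        split_ifs <;> norm_num
      · rw [classInner_irr h1 h3, classInner_irr h3 h3]
        simp only [if_true]
        split_ifs <;> norm_num

theorem card_irrS_odd (hodd : Odd (Fintype.card F)) : Fintype.card (IrrS F) = Fintype.card F + 4 := by
  have h := card_irr (G := SL2 F)
  rw [Cfsg.Agent.Lib.H1SL2C.card_classes_odd hodd, Nat.card_eq_fintype_card] at h
  exact h

theorem card_OffS_odd (hodd : Odd (Fintype.card F)) : Fintype.card (OffS F) = Fintype.card F - 3 := by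
  classical
  have h1 : Fintype.card (OffS F) = Fintype.card (MulChar F ℂ) - Fintype.card {γ : MulChar F ℂ // γ ^ 2 = 1} :=
    Fintype.card_subtype_compl _
  have h2 : Fintype.card {γ : MulChar F ℂ // γ ^ 2 = 1} = 2 := by
    rw [← Nat.card_eq_fintype_card, Nat.card_eq_two_iff]
    refine ⟨⟨1, by simp⟩, ⟨alpha0, alpha0_sq⟩, ?_, ?_⟩
    · intro h
      exact alpha0_ne_one hodd (congrArg Subtype.val h).symm
    · rw [Set.eq_univ_iff_forall]
      rintro ⟨γ, hγ⟩
      simp only [Set.mem_insert_iff, Set.mem_singleton_iff, Subtype.mk.injEq]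
      exact sq_one_cases hodd hγ
  rw [h1, h2, card_MC]
  have hq : 2 ≤ Fintype.card F := q_two_le
  omega

/-- Degrees of the cuspidal characters. -/
theorem cusp_deg_odd {k : ℕ} (hk : Fintype.card F = 2 * k + 1) {χ : IrrS F} (h : χ ∈ cuspSF (F := F)) :
    (χ : SL2 F → ℂ) 1 = (k : ℂ) ∨ (χ : SL2 F → ℂ) 1 = ((2 * k : ℕ) : ℂ) := by
  have hodd : Odd (Fintype.card F) := ⟨k, hk⟩
  obtain ⟨e, he⟩ := exists_nonsq hodd
  have hq : 2 ≤ Fintype.card F := q_two_le
  have hk0 : k ≠ 0 := by omega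
  obtain ⟨n, hn0, hn⟩ := IsIrrCharacter.map_one_pos χ.2
  have h1 := sum_tv_odd hodd (classFunction_of_isIrrCharacter χ.2) he
  rw [cuspS_sum' h, hn] at h1
  have hq2 : (Fintype.card F : ℂ) = 2 * (k : ℂ) + 1 := by rw [hk]; push_cast; ring
  rw [hq2] at h1
  have hd : k ∣ n := by
    apply dvd_of_mul_integral hk0 (-((χ : SL2 F → ℂ) (tv 1) + (χ : SL2 F → ℂ) (tv (e : F))))
    · exact ((IsCharacter.isIntegral (IsIrrCharacter.isCharacter χ.2) _).add
        (IsCharacter.isIntegral (IsIrrCharacter.isCharacter χ.2) _)).neg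
    · have h5 : (2 : ℂ) * ((n : ℂ) - (k : ℂ) * (-((χ : SL2 F → ℂ) (tv 1) + (χ : SL2 F → ℂ) (tv (e : F))))) = 0 := by
        linear_combination -h1
      have h6 := (mul_eq_zero.mp h5).resolve_left (by norm_num)
      linear_combination h6
  have hle := cuspS_deg_le h hn
  rw [hk] at hle
  obtain ⟨m, rfl⟩ := hd
  have hm : m = 1 ∨ m = 2 := by
    have h7 : k * m ≤ k * 2 := by
      calc k * m ≤ 2 * k + 1 - 1 := hle
        _ = k * 2 := by omega
    have h8 := Nat.le_of_mul_le_mul_left h7 (by omega)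
    have h9 : m ≠ 0 := by
      rintro rfl
      simp at hn0
    omega
  rcases hm with rfl | rfl
  · left
    rw [hn]
    simp
  · right
    rw [hn]
    push_cast
    ring

/-- The cuspidal characters of degree `k`. -/
noncomputable def cuspA (k : ℕ) : Finset (IrrS F) := by
  classical
  exact (cuspSF (F := F)).filter (fun χ => (χ : SL2 F → ℂ) 1 = (k : ℂ))

/-- The cuspidal characters of degree `2k`. -/
noncomputable def cuspB (k : ℕ) : Finset (IrrS F) := by
  classical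
  exact (cuspSF (F := F)).filter (fun χ => (χ : SL2 F → ℂ) 1 = ((2 * k : ℕ) : ℂ))

theorem mem_cuspA {k : ℕ} (χ : IrrS F) : χ ∈ cuspA (F := F) k ↔ χ ∈ cuspSF (F := F) ∧ (χ : SL2 F → ℂ) 1 = (k : ℂ) := by
  classical
  simp [cuspA]

theorem mem_cuspB {k : ℕ} (χ : IrrS F) : χ ∈ cuspB (F := F) k ↔ χ ∈ cuspSF (F := F) ∧ (χ : SL2 F → ℂ) 1 = ((2 * k : ℕ) : ℂ) := by
  classical
  simp [cuspB]

theorem card_sum_cusp {k : ℕ} (hk : Fintype.card F = 2 * k + 1) (f : IrrS F → ℂ) :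
    ∑ χ ∈ cuspSF (F := F), f χ = ∑ χ ∈ cuspA (F := F) k, f χ + ∑ χ ∈ cuspB (F := F) k, f χ := by
  classical
  have hq : 2 ≤ Fintype.card F := q_two_le
  have hk0 : k ≠ 0 := by omega
  rw [← Finset.sum_union]
  · apply Finset.sum_congr _ (fun _ _ => rfl)
    ext χ
    rw [Finset.mem_union, mem_cuspA, mem_cuspB]
    constructor
    · intro h
      rcases cusp_deg_odd hk h with h2 | h2
      · exact Or.inl ⟨h, h2⟩
      · exact Or.inr ⟨h, h2⟩
    · rintro (h | h) <;> exact h.1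
  · rw [Finset.disjoint_left]
    intro χ h1 h2
    have h3 := ((mem_cuspA χ).mp h1).2
    have h4 := ((mem_cuspB χ).mp h2).2
    rw [h3] at h4
    have h5 : k = 2 * k := by exact_mod_cast h4
    omega

/-- The numbers of cuspidal characters. -/
theorem card_cusp_AB {k : ℕ} (hk : Fintype.card F = 2 * k + 1) :
    (cuspA (F := F) k).card = 2 ∧ (cuspB (F := F) k).card = k := by
  classical
  have hodd : Odd (Fintype.card F) := ⟨k, hk⟩
  obtain ⟨e, he⟩ := exists_nonsq hodd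
  obtain ⟨D⟩ := exists_quadData he hk
  have hq : 2 ≤ Fintype.card F := q_two_le
  have hk0 : k ≠ 0 := by omega
  have hquad2 : (quadF (F := F)).card = 2 := by
    rw [D.hquad]
    exact Finset.card_pair D.hne
  have hpart := card_partS (F := F)
  rw [card_irrS_odd hodd, hquad2] at hpart
  have hps := two_card_psF (F := F)
  rw [card_OffS_odd hodd] at hps
  have hc : (cuspSF (F := F)).card = (cuspA (F := F) k).card + (cuspB (F := F) k).card := by
    have := card_sum_cusp hk (fun _ => (1 : ℂ))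
    simp only [Finset.sum_const, nsmul_eq_mul, mul_one] at this
    exact_mod_cast this
  have hsq := sum_degree_sq (G := SL2 F)
  rw [sum_partS (fun χ : IrrS F => (χ : SL2 F → ℂ) 1 ^ 2), card_sum_cusp hk, D.hquad,
    Finset.sum_pair D.hne, D.ha1, D.hb1] at hsq
  have h1 : ∑ χ ∈ psF (F := F), (χ : SL2 F → ℂ) 1 ^ 2 = ((psF (F := F)).card : ℂ) * ((Fintype.card F : ℂ) + 1) ^ 2 := by
    rw [Finset.sum_congr rfl (fun χ hχ => by rw [psF_val hχ]), Finset.sum_const, nsmul_eq_mul]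
  have h2 : ∑ χ ∈ cuspA (F := F) k, (χ : SL2 F → ℂ) 1 ^ 2 = ((cuspA (F := F) k).card : ℂ) * (k : ℂ) ^ 2 := by
    rw [Finset.sum_congr rfl (fun χ hχ => by rw [((mem_cuspA χ).mp hχ).2]), Finset.sum_const, nsmul_eq_mul]
  have h3 : ∑ χ ∈ cuspB (F := F) k, (χ : SL2 F → ℂ) 1 ^ 2 = ((cuspB (F := F) k).card : ℂ) * ((2 * k : ℕ) : ℂ) ^ 2 := by
    rw [Finset.sum_congr rfl (fun χ hχ => by rw [((mem_cuspB χ).mp hχ).2]), Finset.sum_const, nsmul_eq_mul]
  rw [h1, h2, h3, card_sl2] at hsq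
  have ht : (trivI : IrrS F).1 1 = 1 := rfl
  have hst : (stIS : IrrS F).1 1 = (Fintype.card F : ℂ) := stS_one
  rw [ht, hst] at hsq
  obtain ⟨k', rfl⟩ : ∃ k', k = k' + 1 := ⟨k - 1, by omega⟩
  have hp : (psF (F := F)).card = k' := by omega
  rw [hp, hk] at hsq
  set a := (cuspA (F := F) (k' + 1)).card with ha
  set b := (cuspB (F := F) (k' + 1)).card with hb
  have hq2 : (2 * (k' + 1) + 1) ^ 2 - 1 = 4 * (k' + 1) * (k' + 2) := by
    have : (2 * (k' + 1) + 1) ^ 2 = 4 * (k' + 1) * (k' + 2) + 1 := by ring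
    omega
  rw [hq2] at hsq
  have hab : a + b = k' + 3 := by
    rw [hk] at hpart
    omega
  have hsq2 : 1 + (2 * (k' + 1) + 1) ^ 2 + k' * (2 * (k' + 1) + 1 + 1) ^ 2 + ((k' + 1 + 1) ^ 2 + (k' + 1 + 1) ^ 2)
      + (a * (k' + 1) ^ 2 + b * (2 * (k' + 1)) ^ 2) = (2 * (k' + 1) + 1) * (4 * (k' + 1) * (k' + 2)) := by
    have := hsq
    push_cast at this
    exact_mod_cast this
  have hfinal : (a + 4 * b) * (k' + 1) ^ 2 = (4 * (k' + 1) + 2) * (k' + 1) ^ 2 := by
    nlinarith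
  have h5 : a + 4 * b = 4 * (k' + 1) + 2 := Nat.eq_of_mul_eq_mul_right (by positivity) hfinal
  constructor <;> omega

end Cfsg.Agent.Lib.LdSL5
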