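import Mathlib
import Cfsg.Agent.Lib.LdSL5
import Cfsg.Agent.Lib.CharNormal
import Cfsg.Agent.Lib.CharBrauer4
import Cfsg.Agent.Lib.H1Torus2

set_option autoImplicit false
set_option linter.unusedSectionVars false
set_option linter.unusedSimpArgs false
set_option linter.unusedVariables false

/-! The values of the characters of `SL₂`. -/

namespace Cfsg.Agent.Lib.LdSL6

open Matrix Cfsg Cfsg.Agent.Lib.H1GL2 Cfsg.Agent.Lib.H1GL2C Cfsg.Agent.Lib.LdGL1 Cfsg.Agent.Lib.LdGL2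
open Cfsg.Agent.Lib.LdGL3 Cfsg.Agent.Lib.LdGL4 Cfsg.Agent.Lib.LdGL5 Cfsg.Agent.Lib.LdGL6 Cfsg.Agent.Lib.H1SL2
open Cfsg.Agent.Lib.LdSL1 Cfsg.Agent.Lib.LdSL2 Cfsg.Agent.Lib.LdSL3 Cfsg.Agent.Lib.LdSL4 Cfsg.Agent.Lib.LdSL5
open Cfsg.Agent.Lib.CharBasic Cfsg.Agent.Lib.CharOrth Cfsg.Agent.Lib.CharAlg Cfsg.Agent.Lib.CharInd Cfsg.Agent.Lib.CharLin
open scoped ComplexConjugate

variable {F : Type*} [Field F] [Fintype F] [DecidableEq F]

/-- The classification by degree in odd characteristic. -/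
theorem odd_cases {e : Fˣ} {k : ℕ} (hk : Fintype.card F = 2 * k + 1) (D : QuadData F e k) (χ : IrrS F) :
      (χ = trivI ∧ (χ : SL2 F → ℂ) 1 = ((1 : ℕ) : ℂ)) ∨ (χ = stIS ∧ (χ : SL2 F → ℂ) 1 = ((2 * k + 1 : ℕ) : ℂ)) ∨
      (χ ∈ psF (F := F) ∧ (χ : SL2 F → ℂ) 1 = ((2 * k + 2 : ℕ) : ℂ)) ∨
      (χ ∈ cuspB (F := F) k ∧ (χ : SL2 F → ℂ) 1 = ((2 * k : ℕ) : ℂ)) ∨
      ((χ = D.a ∨ χ = D.b) ∧ (χ : SL2 F → ℂ) 1 = ((k + 1 : ℕ) : ℂ)) ∨
      (χ ∈ cuspA (F := F) k ∧ (χ : SL2 F → ℂ) 1 = ((k : ℕ) : ℂ)) := by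
  have hQ : (Fintype.card F : ℂ) = ((2 * k + 1 : ℕ) : ℂ) := by rw [hk]
  have hQ1 : (Fintype.card F : ℂ) + 1 = ((2 * k + 2 : ℕ) : ℂ) := by rw [hk]; push_cast; ring
  rcases classifyS χ with h | h | h | h | h
  · left
    refine ⟨h, ?_⟩
    rw [h]
    simp [trivI]
  · right; left
    refine ⟨h, ?_⟩
    rw [h, ← hQ]
    exact stS_one
  · right; right; left
    refine ⟨h, ?_⟩
    rw [← hQ1]
    exact psF_val h
  · right; right; right; right; left
    rw [D.hquad] at h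
    simp only [Finset.mem_insert, Finset.mem_singleton] at h
    refine ⟨h, ?_⟩
    rcases h with rfl | rfl
    · exact D.ha1
    · exact D.hb1
  · rcases cusp_deg_odd hk h with h1 | h1
    · right; right; right; right; right
      exact ⟨(mem_cuspA χ).mpr ⟨h, h1⟩, h1⟩
    · right; right; right; left
      exact ⟨(mem_cuspB χ).mpr ⟨h, h1⟩, h1⟩

theorem nat_of_two {χ : IrrS F} {d m : ℕ} (h1 : (χ : SL2 F → ℂ) 1 = (d : ℂ)) (h2 : (χ : SL2 F → ℂ) 1 = (m : ℂ)) : d = m := by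
  rw [h1] at h2
  exact_mod_cast h2

/-- The Steinberg character is the only irreducible character of degree `q`. -/
theorem st_of_deg {χ : IrrS F} (h : (χ : SL2 F → ℂ) 1 = (Fintype.card F : ℂ)) : χ = stIS := by
  have hq2 : 2 ≤ Fintype.card F := q_two_le
  by_cases h2 : ringChar F = 2
  · haveI : CharP F 2 := ringChar.of_eq h2
    rcases classifyS χ with h3 | h3 | h3 | h3 | h3
    · exfalso
      rw [h3] at h
      have h4 : (1 : ℂ) = (Fintype.card F : ℂ) := h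
      have h5 : 1 = Fintype.card F := by exact_mod_cast h4
      omega
    · exact h3
    · rw [psF_val h3] at h
      simp at h
    · rw [quadF_even] at h3
      simp at h3
    · rw [cuspS_deg_even h3] at h
      simp at h
  · have hm := FiniteField.odd_card_of_char_ne_two h2
    obtain ⟨k, hk⟩ : ∃ k, Fintype.card F = 2 * k + 1 := ⟨Fintype.card F / 2, by omega⟩
    have hodd : Odd (Fintype.card F) := ⟨k, hk⟩
    obtain ⟨e, he⟩ := exists_nonsq hodd
    obtain ⟨D⟩ := exists_quadData he hk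
    have hQ : (χ : SL2 F → ℂ) 1 = ((2 * k + 1 : ℕ) : ℂ) := by rw [h, hk]
    rcases odd_cases hk D χ with h3 | h3 | h3 | h3 | h3 | h3
    · have := nat_of_two hQ h3.2
      omega
    · exact h3.1
    · have := nat_of_two hQ h3.2
      omega
    · have := nat_of_two hQ h3.2
      omega
    · have := nat_of_two hQ h3.2
      omega
    · have := nat_of_two hQ h3.2
      omega

theorem toGL_tv (c : F) : Matrix.SpecialLinearGroup.toGL (tv c) = tri (1 : Fˣ) 1 c := by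
  apply gl_ext <;> rfl

/-- A cuspidal character of degree `q - 1` takes the value `-1` on nontrivial transvections. -/
theorem cusp_top_val {χ : IrrS F} (h : χ ∈ cuspSF (F := F)) (hd : (χ : SL2 F → ℂ) 1 = (Fintype.card F : ℂ) - 1)
    {c : F} (hc : c ≠ 0) : (χ : SL2 F → ℂ) (tv c) = -1 := by
  obtain ⟨Ψ, hΨ, hne⟩ := exists_cusp_above h
  have hΨ1 := cusp_deg hΨ
  have hsub := isChar_sub_irr (resGL_isChar (IsIrrCharacter.isCharacter Ψ.2)) χ.2 hne
  have h0 : (resGL (Ψ : GL2 F → ℂ) - (χ : SL2 F → ℂ)) 1 = 0 := by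
    simp only [Pi.sub_apply, resGL, map_one, hΨ1, hd]
    ring
  have h1 := IsCharacter.eq_zero_of_map_one hsub h0
  have h2 : (χ : SL2 F → ℂ) = resGL (Ψ : GL2 F → ℂ) := (sub_eq_zero.mp h1).symm
  rw [h2]
  simp only [resGL, toGL_tv]
  have h3 := cusp_val hΨ
  rw [hΨ1] at h3
  obtain ⟨x, hx⟩ := isConj_iff.mp (tri_conj c hc)
  have h4 : (Ψ : GL2 F → ℂ) (tri (1 : Fˣ) 1 c) = (Ψ : GL2 F → ℂ) (tri (1 : Fˣ) 1 1) := by
    rw [← hx]
    exact classFunction_of_isIrrCharacter Ψ.2 _ x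
  rw [h4]
  have h5 : ((Fintype.card F : ℂ) - 1) * (1 + (Ψ : GL2 F → ℂ) (tri (1 : Fˣ) 1 1)) = 0 := by
    linear_combination h3
  have h6 := (mul_eq_zero.mp h5).resolve_left q_sub_one_ne_zero
  linear_combination h6

/-- The automorphism as a `MulEquiv`. -/
noncomputable def sigM (e : Fˣ) : SL2 F ≃* SL2 F :=
  { sigE e with map_mul' := (sig e).map_mul }

theorem sigM_apply (e : Fˣ) (g : SL2 F) : sigM e g = sig e g := rfl

/-- The automorphism preserves cuspidal characters. -/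
theorem sig_cusp (e : Fˣ) {χ : IrrS F} (h : χ ∈ cuspSF (F := F)) :
    (⟨(χ : SL2 F → ℂ) ∘ sig e, IsIrrCharacter.comp_surjective χ.2 (sig e) (sig_surj e)⟩ : IrrS F) ∈ cuspSF (F := F) := by
  rw [mem_cuspSF]
  intro γ
  have h1 : indS γ = indS γ ∘ sigM e := by
    funext g
    exact (indS_sig γ e g).symm
  show classInner (indS γ) ((χ : SL2 F → ℂ) ∘ sig e) = 0
  rw [h1]
  have h2 := Cfsg.Agent.Lib.CharNormal.classInner_comp_equiv (sigM e) (indS γ) (χ : SL2 F → ℂ)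
  have h3 : (χ : SL2 F → ℂ) ∘ sig e = (χ : SL2 F → ℂ) ∘ sigM e := rfl
  rw [h3, h2]
  exact (mem_cuspSF χ).mp h γ

/-- The two cuspidal characters of degree `(q-1)/2`. -/
structure CuspData (F : Type*) [Field F] [Fintype F] [DecidableEq F] (e : Fˣ) (k : ℕ) where
  c1 : IrrS F
  c2 : IrrS F
  hne : c1 ≠ c2
  hA : cuspA (F := F) k = {c1, c2}
  hswap : (c1 : SL2 F → ℂ) ∘ sig e = c2

theorem exists_cuspData {e : Fˣ} (he : ¬ IsSquare (e : F)) {k : ℕ} (hk : Fintype.card F = 2 * k + 1) :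
    Nonempty (CuspData F e k) := by
  have hodd : Odd (Fintype.card F) := ⟨k, hk⟩
  have hq : 2 ≤ Fintype.card F := q_two_le
  have hk0 : k ≠ 0 := by omega
  obtain ⟨c1, c2, hne, hA⟩ := Finset.card_eq_two.mp (card_cusp_AB (F := F) hk).1
  refine ⟨⟨c1, c2, hne, hA, ?_⟩⟩
  have hc1 : c1 ∈ cuspA (F := F) k := by
    rw [hA]
    simp
  obtain ⟨hc, hd⟩ := (mem_cuspA c1).mp hc1
  have hσ := sig_cusp e hc
  have hmem : (⟨(c1 : SL2 F → ℂ) ∘ sig e, IsIrrCharacter.comp_surjective c1.2 (sig e) (sig_surj e)⟩ : IrrS F) ∈ cuspA (F := F) k := by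
    rw [mem_cuspA]
    refine ⟨hσ, ?_⟩
    show (c1 : SL2 F → ℂ) (sig e 1) = (k : ℂ)
    rw [map_one, hd]
  rw [hA] at hmem
  simp only [Finset.mem_insert, Finset.mem_singleton] at hmem
  rcases hmem with h1 | h1
  · exfalso
    have h2 : (c1 : SL2 F → ℂ) ∘ sig e = c1 := congrArg Subtype.val h1
    have h3 := fun c (hc0 : c ≠ 0) => fixed_val hodd (classFunction_of_isIrrCharacter c1.2) he h2 hc0
    have h4 := cuspS_sum' hc
    rw [sum_tv_split, Finset.sum_congr rfl (fun c hc => h3 c (Finset.ne_of_mem_erase hc)), Finset.sum_const,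
      Finset.card_erase_of_mem (Finset.mem_univ _), Finset.card_univ, nsmul_eq_mul, hk, hd] at h4
    have h5 : (k : ℂ) * (1 + 2 * (c1 : SL2 F → ℂ) (tv 1)) = 0 := by
      have : ((2 * k + 1 - 1 : ℕ) : ℂ) = 2 * (k : ℂ) := by
        rw [Nat.add_sub_cancel]
        push_cast
        ring
      rw [this] at h4
      linear_combination h4
    have hk1 : (k : ℂ) ≠ 0 := by exact_mod_cast hk0
    have h6 := (mul_eq_zero.mp h5).resolve_left hk1
    have h7 : (2 : ℕ) ∣ 1 := by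
      apply dvd_of_mul_integral (by norm_num) (-(c1 : SL2 F → ℂ) (tv 1))
      · exact (IsCharacter.isIntegral (IsIrrCharacter.isCharacter c1.2) _).neg
      · push_cast
        linear_combination h6
    omega
  · exact congrArg Subtype.val h1

/-- The decomposition of a sum over the irreducible characters. -/
theorem sum_all {e : Fˣ} {k : ℕ} (hk : Fintype.card F = 2 * k + 1) (D : QuadData F e k) (C : CuspData F e k) (f : IrrS F → ℂ) :
    ∑ χ, f χ = f trivI + f stIS + ∑ χ ∈ psF (F := F), f χ + (f D.a + f D.b) + (f C.c1 + f C.c2) +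
      ∑ χ ∈ cuspB (F := F) k, f χ := by
  rw [sum_partS, card_sum_cusp hk, D.hquad, C.hA, Finset.sum_pair D.hne, Finset.sum_pair C.hne]
  ring

theorem ps_tv {χ : IrrS F} (h : χ ∈ psF (F := F)) {c : F} (hc : c ≠ 0) : (χ : SL2 F → ℂ) (tv c) = 1 := by
  obtain ⟨γ, _, h2⟩ := (mem_psF χ).mp h
  rw [h2]
  exact indS_tv γ hc

theorem st_tv {c : F} (hc : c ≠ 0) : stS (tv c) = 0 :=
  stS_tri_eq (tv c) rfl rfl hc

theorem cuspB_tv {k : ℕ} (hk : Fintype.card F = 2 * k + 1) {χ : IrrS F} (h : χ ∈ cuspB (F := F) k) {c : F} (hc : c ≠ 0) :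
    (χ : SL2 F → ℂ) (tv c) = -1 := by
  obtain ⟨h1, h2⟩ := (mem_cuspB χ).mp h
  apply cusp_top_val h1 _ hc
  rw [h2, hk]
  push_cast
  ring

/-- Central signs. -/
theorem exists_sign (χ : IrrS F) : ∃ s : ℂ, s ^ 2 = 1 ∧ ∀ g, (χ : SL2 F → ℂ) (mone * g) = s * (χ : SL2 F → ℂ) g := by
  have hz : (mone : SL2 F) ∈ Subgroup.center (SL2 F) := by
    rw [Subgroup.mem_center_iff]
    intro g
    exact (mone_comm g).symm
  obtain ⟨ω, _, hω⟩ := Cfsg.Agent.Lib.CharBrauer4.central_scalar hz χ.2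
  have hcomm : ∀ g, (χ : SL2 F → ℂ) (mone * g) = ω * (χ : SL2 F → ℂ) g := by
    intro g
    rw [mone_comm, hω]
  refine ⟨ω, ?_, hcomm⟩
  obtain ⟨n, hn0, hn⟩ := IsIrrCharacter.map_one_pos χ.2
  have h1 : (χ : SL2 F → ℂ) (mone * (mone * 1)) = ω * (ω * (χ : SL2 F → ℂ) 1) := by
    rw [hcomm, hcomm]
  rw [← mul_assoc, mone_mul_mone, one_mul] at h1
  have h2 : (χ : SL2 F → ℂ) 1 ≠ 0 := by
    rw [hn]
    exact_mod_cast hn0.ne'
  have h3 : (ω ^ 2 - 1) * (χ : SL2 F → ℂ) 1 = 0 := by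
    linear_combination -h1
  have h4 := (mul_eq_zero.mp h3).resolve_right h2
  linear_combination h4

theorem sign_conj {s : ℂ} (h : s ^ 2 = 1) : conj s = s := by
  rcases sq_eq_one_iff.mp h with rfl | rfl <;> simp

theorem sig_mone (e : Fˣ) : sig e (mone : SL2 F) = mone := by
  apply sl_ext <;> simp

theorem tv_inv (c : F) : (tv c)⁻¹ = tv (-c) := by
  apply inv_eq_of_mul_eq_one_right
  rw [tv_mul, add_neg_cancel, tv_zero]

theorem tr_tv (c : F) : tr (tv c) = 2 := by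
  simp only [tr, tv00, tv11]
  norm_num

theorem two_ne (hodd : Odd (Fintype.card F)) : (2 : F) ≠ 0 := Ring.two_ne_zero (ringChar_ne hodd)

theorem not_conj_mone (hodd : Odd (Fintype.card F)) (c d : F) : ¬ IsConj (tv c) (mone * tv d) := by
  intro h
  have h1 := tr_of_isConj h
  rw [tr_mone_mul, tr_tv, tr_tv] at h1
  have h2 : (4 : F) = 0 := by linear_combination h1
  have h3 : (2 : F) * 2 = 0 := by linear_combination h2
  exact (mul_ne_zero (two_ne hodd) (two_ne hodd)) h3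

theorem card_C_tv (hodd : Odd (Fintype.card F)) {c : F} (hc : c ≠ 0) :
    Nat.card (Subgroup.centralizer ({tv c} : Set (SL2 F))) = 2 * Fintype.card F := by
  rw [card_centralizer_tv hc, card_sqrt_one_odd (two_ne hodd)]

/-- The main computation at the transvections. -/
theorem core {e : Fˣ} (he : ¬ IsSquare (e : F)) {k : ℕ} (hk : Fintype.card F = 2 * k + 1)
    (D : QuadData F e k) (C : CuspData F e k) :
    let x := (D.a : SL2 F → ℂ) (tv 1)
    let x' := (D.a : SL2 F → ℂ) (tv (e : F))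
    let y := (C.c1 : SL2 F → ℂ) (tv 1)
    let y' := (C.c1 : SL2 F → ℂ) (tv (e : F))
    x + x' = 1 ∧ y + y' = -1 ∧ (x - x') * conj (x - x') = (Fintype.card F : ℂ) ∧
      (y - y') * conj (y - y') = (Fintype.card F : ℂ) := by
  intro x x' y y'
  have hodd : Odd (Fintype.card F) := ⟨k, hk⟩
  have hq : 2 ≤ Fintype.card F := q_two_le
  have hk0 : k ≠ 0 := by omega
  have hk1 : (k : ℂ) ≠ 0 := by exact_mod_cast hk0
  have hq0 : (Fintype.card F : ℂ) ≠ 0 := q_ne_zero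
  have he0 : (e : F) ≠ 0 := e.ne_zero
  have h1F : (1 : F) ≠ 0 := one_ne_zero
  -- swap values
  have hb1 : (D.b : SL2 F → ℂ) (tv 1) = x' := by
    rw [← D.hswap]
    show (D.a : SL2 F → ℂ) (sig e (tv 1)) = x'
    rw [sig_tv, mul_one]
  have hb2 : (D.b : SL2 F → ℂ) (tv (e : F)) = x := by
    rw [← D.hswap]
    show (D.a : SL2 F → ℂ) (sig e (tv (e : F))) = x
    rw [sig_tv]
    apply tv_val_sq (classFunction_of_isIrrCharacter D.a.2) (mul_ne_zero he0 he0) h1F
    rw [map_mul, alpha0_nonsquare he, alpha0_square h1F IsSquare.one]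
    ring
  have hc1 : (C.c2 : SL2 F → ℂ) (tv 1) = y' := by
    rw [← C.hswap]
    show (C.c1 : SL2 F → ℂ) (sig e (tv 1)) = y'
    rw [sig_tv, mul_one]
  have hc2 : (C.c2 : SL2 F → ℂ) (tv (e : F)) = y := by
    rw [← C.hswap]
    show (C.c1 : SL2 F → ℂ) (sig e (tv (e : F))) = y
    rw [sig_tv]
    apply tv_val_sq (classFunction_of_isIrrCharacter C.c1.2) (mul_ne_zero he0 he0) h1F
    rw [map_mul, alpha0_nonsquare he, alpha0_square h1F IsSquare.one]
    ring
  -- sums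
  have hxx : x + x' = 1 := by
    have h1 : indS (alpha0 : MulChar F ℂ) (tv 1) = 1 := indS_tv _ h1F
    rw [D.hsum] at h1
    simpa only [Pi.add_apply, hb1] using h1
  have hc1A : C.c1 ∈ cuspA (F := F) k := by
    rw [C.hA]
    simp
  have hc2A : C.c2 ∈ cuspA (F := F) k := by
    rw [C.hA]
    simp
  have hyy : y + y' = -1 := by
    obtain ⟨h1, h2⟩ := (mem_cuspA C.c1).mp hc1A
    have h3 := sum_tv_odd hodd (classFunction_of_isIrrCharacter C.c1.2) he
    rw [cuspS_sum' h1, h2, hk] at h3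
    have h4 : (k : ℂ) * (y + y' + 1) = 0 := by
      push_cast at h3
      linear_combination (-1 / 2 : ℂ) * h3
    have h5 := (mul_eq_zero.mp h4).resolve_left hk1
    linear_combination h5
  refine ⟨hxx, hyy, ?_⟩
  -- the central signs
  obtain ⟨sa, hsa, hsa2⟩ := exists_sign D.a
  obtain ⟨sc, hsc, hsc2⟩ := exists_sign C.c1
  have hsb : ∀ g, (D.b : SL2 F → ℂ) (mone * g) = sa * (D.b : SL2 F → ℂ) g := by
    intro g
    rw [← D.hswap]
    show (D.a : SL2 F → ℂ) (sig e (mone * g)) = sa * (D.a : SL2 F → ℂ) (sig e g)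
    rw [map_mul, sig_mone, hsa2]
  have hsd : ∀ g, (C.c2 : SL2 F → ℂ) (mone * g) = sc * (C.c2 : SL2 F → ℂ) g := by
    intro g
    rw [← C.hswap]
    show (C.c1 : SL2 F → ℂ) (sig e (mone * g)) = sc * (C.c1 : SL2 F → ℂ) (sig e g)
    rw [map_mul, sig_mone, hsc2]
  set u : SL2 F := tv 1 with hu
  set u' : SL2 F := tv (e : F) with hu'
  have hnc : ¬ IsConj u u' := by
    intro h
    have h2 := (tv_conj_iff h1F he0).mp h
    rw [one_mul] at h2
    exact he h2
  -- first relation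
  have E1 : ∑ χ : IrrS F, (χ : SL2 F → ℂ) u * (conj ((χ : SL2 F → ℂ) u) - conj ((χ : SL2 F → ℂ) u')) =
      2 * (Fintype.card F : ℂ) := by
    simp_rw [mul_sub]
    rw [Finset.sum_sub_distrib, second_orth_conj (IsConj.refl u), second_orth_not_conj hnc, card_C_tv hodd h1F]
    push_cast
    ring
  have E2 : ∑ χ : IrrS F, (χ : SL2 F → ℂ) u * (conj ((χ : SL2 F → ℂ) (mone * u)) - conj ((χ : SL2 F → ℂ) (mone * u'))) = 0 := by
    simp_rw [mul_sub]
    rw [Finset.sum_sub_distrib, second_orth_not_conj (not_conj_mone hodd _ _), second_orth_not_conj (not_conj_mone hodd _ _)]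
    ring
  rw [sum_all hk D C] at E1 E2
  have v1 : ∀ χ ∈ psF (F := F), (χ : SL2 F → ℂ) u * (conj ((χ : SL2 F → ℂ) u) - conj ((χ : SL2 F → ℂ) u')) = 0 := by
    intro χ hχ
    rw [hu, hu', ps_tv hχ h1F, ps_tv hχ he0]
    simp
  have v2 : ∀ χ ∈ cuspB (F := F) k, (χ : SL2 F → ℂ) u * (conj ((χ : SL2 F → ℂ) u) - conj ((χ : SL2 F → ℂ) u')) = 0 := by
    intro χ hχ
    rw [hu, hu', cuspB_tv hk hχ h1F, cuspB_tv hk hχ he0]
    simp
  have v3 : ∀ χ ∈ psF (F := F), (χ : SL2 F → ℂ) u * (conj ((χ : SL2 F → ℂ) (mone * u)) - conj ((χ : SL2 F → ℂ) (mone * u'))) = 0 := by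
    intro χ hχ
    obtain ⟨s, _, hs⟩ := exists_sign χ
    rw [hs, hs, hu, hu', ps_tv hχ h1F, ps_tv hχ he0]
    simp
  have v4 : ∀ χ ∈ cuspB (F := F) k, (χ : SL2 F → ℂ) u * (conj ((χ : SL2 F → ℂ) (mone * u)) - conj ((χ : SL2 F → ℂ) (mone * u'))) = 0 := by
    intro χ hχ
    obtain ⟨s, _, hs⟩ := exists_sign χ
    rw [hs, hs, hu, hu', cuspB_tv hk hχ h1F, cuspB_tv hk hχ he0]
    simp
  rw [Finset.sum_eq_zero v1, Finset.sum_eq_zero v2] at E1
  rw [Finset.sum_eq_zero v3, Finset.sum_eq_zero v4] at E2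
  have t1 : ∀ g : SL2 F, ((trivI : IrrS F) : SL2 F → ℂ) g = 1 := fun _ => rfl
  have t2 : ∀ {c : F}, c ≠ 0 → ((stIS : IrrS F) : SL2 F → ℂ) (tv c) = 0 := fun hc => st_tv hc
  have t3 : ((stIS : IrrS F) : SL2 F → ℂ) u = 0 := t2 h1F
  simp only [t1, t3, hsa2, hsb, hsc2, hsd, map_mul, hb1, hb2, hc1, hc2, sign_conj hsa, sign_conj hsc] at E1 E2
  have hx : x = (D.a : SL2 F → ℂ) u := rfl
  have hx' : x' = (D.a : SL2 F → ℂ) u' := rfl
  have hy : y = (C.c1 : SL2 F → ℂ) u := rfl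
  have hy' : y' = (C.c1 : SL2 F → ℂ) u' := rfl
  rw [← hx, ← hx', ← hy, ← hy'] at E1 E2
  simp only [map_sub] at *
  set A := (x - x') * (conj x - conj x') with hA
  set B := (y - y') * (conj y - conj y') with hB
  have E3 : A + B = 2 * (Fintype.card F : ℂ) := by
    rw [hA, hB]
    linear_combination E1
  have E4 : sa * A + sc * B = 0 := by
    rw [hA, hB]
    linear_combination E2
  have hcases : sc = sa ∨ sc = -sa := by
    have h5 : (sc - sa) * (sc + sa) = 0 := by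
      linear_combination hsc - hsa
    rcases mul_eq_zero.mp h5 with h6 | h6
    · left; exact sub_eq_zero.mp h6
    · right; linear_combination h6
  have hsa0 : sa ≠ 0 := by
    rintro rfl
    simp at hsa
  rcases hcases with h6 | h6
  · exfalso
    rw [h6] at E4
    have h7 : sa * (2 * (Fintype.card F : ℂ)) = 0 := by
      rw [← E3]
      linear_combination E4
    exact (mul_ne_zero hsa0 (mul_ne_zero two_ne_zero hq0)) h7
  · rw [h6] at E4
    have h7 : sa * (A - B) = 0 := by linear_combination E4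
    have h8 := (mul_eq_zero.mp h7).resolve_left hsa0
    constructor
    · linear_combination (1 / 2 : ℂ) * E3 + (1 / 2 : ℂ) * h8
    · linear_combination (1 / 2 : ℂ) * E3 - (1 / 2 : ℂ) * h8

end Cfsg.Agent.Lib.LdSL6
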