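import Mathlib
import Cfsg.Agent.Lib.LdSL6
import Cfsg.Agent.S2429

set_option autoImplicit false
set_option linter.unusedSectionVars false
set_option linter.unusedSimpArgs false
set_option linter.unusedVariables false

/-! Vanishing of characters of `SL₂`. -/

namespace Cfsg.Agent.Lib.LdSL7

open Matrix Cfsg Cfsg.Agent.Lib.H1GL2 Cfsg.Agent.Lib.H1GL2C Cfsg.Agent.Lib.LdGL1 Cfsg.Agent.Lib.LdGL2
open Cfsg.Agent.Lib.LdGL3 Cfsg.Agent.Lib.LdGL4 Cfsg.Agent.Lib.LdGL5 Cfsg.Agent.Lib.LdGL6 Cfsg.Agent.Lib.H1SL2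
open Cfsg.Agent.Lib.LdSL1 Cfsg.Agent.Lib.LdSL2 Cfsg.Agent.Lib.LdSL3 Cfsg.Agent.Lib.LdSL4 Cfsg.Agent.Lib.LdSL5 Cfsg.Agent.Lib.LdSL6
open Cfsg.Agent.Lib.CharBasic Cfsg.Agent.Lib.CharOrth Cfsg.Agent.Lib.CharAlg Cfsg.Agent.Lib.CharInd Cfsg.Agent.Lib.CharLin
open scoped ComplexConjugate

variable {F : Type*} [Field F] [Fintype F] [DecidableEq F]

/-- A sum over the characters with `γ² ≠ 1`. -/
theorem sum_OffS (hodd : Odd (Fintype.card F)) (f : MulChar F ℂ → ℂ) :
    ∑ p : OffS F, f p.1 = ∑ γ, f γ - f 1 - f alpha0 := by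
  classical
  have h1 := Fintype.sum_subtype_add_sum_subtype (fun γ : MulChar F ℂ => γ ^ 2 = 1) f
  have h2 : ∑ p : {γ : MulChar F ℂ // γ ^ 2 = 1}, f p.1 = f 1 + f alpha0 := by
    have h3 : ∑ p : {γ : MulChar F ℂ // γ ^ 2 = 1}, f p.1 =
        ∑ γ ∈ (Finset.univ.filter (fun γ : MulChar F ℂ => γ ^ 2 = 1)), f γ := by
      rw [Finset.sum_subtype (Finset.univ.filter (fun γ : MulChar F ℂ => γ ^ 2 = 1))
        (p := fun γ : MulChar F ℂ => γ ^ 2 = 1) (by simp) f]
    rw [h3]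
    have h4 : Finset.univ.filter (fun γ : MulChar F ℂ => γ ^ 2 = 1) = {1, alpha0} := by
      ext γ
      simp only [Finset.mem_filter, Finset.mem_univ, true_and, Finset.mem_insert, Finset.mem_singleton]
      constructor
      · exact sq_one_cases hodd
      · rintro (rfl | rfl)
        · simp
        · exact alpha0_sq
    rw [h4, Finset.sum_pair (alpha0_ne_one hodd).symm]
  rw [h2] at h1
  linear_combination h1

/-- The centraliser of a regular diagonal element. -/
theorem card_C_diag {d : SL2 F} (h01 : (d : M2 F) 0 1 = 0) (h10 : (d : M2 F) 1 0 = 0)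
    (ha : (d : M2 F) 0 0 ^ 2 ≠ 1) :
    Nat.card (Subgroup.centralizer ({d} : Set (SL2 F))) = Fintype.card F - 1 := by
  have hq : Nat.card Fˣ = Fintype.card F - 1 := by
    rw [Nat.card_units, Nat.card_eq_fintype_card]
  rw [← hq]
  symm
  apply Nat.card_congr
  refine Equiv.ofBijective (fun u : Fˣ => ⟨Cfsg.Agent.Lib.H1PSL2.dg u, ?_⟩) ⟨?_, ?_⟩
  · exact (Cfsg.Agent.Lib.H1Torus.mem_Tz_diag h01 h10 ha _).mpr ⟨rfl, rfl⟩
  · intro u v h
    have h1 := congrArg (fun z : Subgroup.centralizer ({d} : Set (SL2 F)) => ((z : SL2 F) : M2 F) 0 0) h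
    exact Units.ext h1
  · rintro ⟨t, ht⟩
    obtain ⟨h1, h2⟩ := (Cfsg.Agent.Lib.H1Torus.mem_Tz_diag h01 h10 ha t).mp ht
    have hdt := sl_det t
    rw [h1, zero_mul, sub_zero] at hdt
    have h0 : (t : M2 F) 0 0 ≠ 0 := by
      intro h
      rw [h, zero_mul] at hdt
      exact zero_ne_one hdt
    refine ⟨Units.mk0 _ h0, Subtype.ext ?_⟩
    apply sl_ext
    · rfl
    · simpa using h1.symm
    · simpa using h2.symm
    · simp only [Cfsg.Agent.Lib.H1PSL2.dg11, Units.val_inv_eq_inv_val, Units.val_mk0]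
      exact (eq_inv_of_mul_eq_one_right hdt).symm

/-- The regular diagonal elements: cuspidal characters vanish there. -/
theorem cuspS_zero_diag {d : SL2 F} (h01 : (d : M2 F) 0 1 = 0) (h10 : (d : M2 F) 1 0 = 0)
    (ha : (d : M2 F) 0 0 ^ 2 ≠ 1) (hodd : Odd (Fintype.card F)) {χ : IrrS F} (hχ : χ ∈ cuspSF (F := F)) :
    (χ : SL2 F → ℂ) d = 0 := by
  classical
  obtain ⟨e, he⟩ := exists_nonsq hodd
  obtain ⟨k, hk⟩ := hodd
  have hodd : Odd (Fintype.card F) := ⟨k, hk⟩
  obtain ⟨D⟩ := exists_quadData he hk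
  have hd := sl_det d
  rw [h01, zero_mul, sub_zero] at hd
  set a := (d : M2 F) 0 0 with ha'
  set b := (d : M2 F) 1 1 with hb'
  have ha0 : a ≠ 0 := left_ne_zero_of_mul (by rw [hd]; exact one_ne_zero)
  have hb0 : b ≠ 0 := right_ne_zero_of_mul (by rw [hd]; exact one_ne_zero)
  have hab : a ≠ b := by
    intro he2
    apply ha
    rw [pow_two]
    nth_rewrite 2 [he2]
    exact hd
  have hq1 : 1 ≤ Fintype.card F := Fintype.card_pos
  have hcardM : ((Fintype.card (MulChar F ℂ) : ℕ) : ℂ) = (Fintype.card F : ℂ) - 1 := by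
    rw [card_MC, Nat.cast_sub hq1]
    simp
  -- the sum over all multiplicative characters
  have hta : a / b ≠ 1 := by
    intro h
    exact hab ((div_eq_one_iff_eq hb0).mp h)
  have htb : b / a ≠ 1 := by
    intro h
    exact hab ((div_eq_one_iff_eq ha0).mp h).symm
  have hs1 : ∑ α : MulChar F ℂ, α (a / b) = 0 := by
    have := mc_sum (F := F) (Units.mk0 (a / b) (div_ne_zero ha0 hb0))
    rw [if_neg (fun e => hta (by simpa using congrArg (fun u : Fˣ => (u : F)) e))] at this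
    simpa using this
  have hs2 : ∑ α : MulChar F ℂ, α (b / a) = 0 := by
    have := mc_sum (F := F) (Units.mk0 (b / a) (div_ne_zero hb0 ha0))
    rw [if_neg (fun e => htb (by simpa using congrArg (fun u : Fˣ => (u : F)) e))] at this
    simpa using this
  have hconj : ∀ (α : MulChar F ℂ) (x y : F), y ≠ 0 → α x * conj (α y) = α (x / y) := by
    intro α x y hy
    have h1 : conj (α y) = α⁻¹ y := MulChar.star_apply' α y
    rw [h1, MulChar.inv_apply', div_eq_mul_inv, map_mul]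
  have hexp : ∀ α : MulChar F ℂ, (α a + α b) * conj (α a + α b) = 2 + α (a / b) + α (b / a) := by
    intro α
    rw [map_add, add_mul, mul_add, mul_add, hconj α a a ha0, hconj α a b hb0, hconj α b a ha0, hconj α b b hb0,
      div_self ha0, div_self hb0, map_one]
    ring
  have hall : ∑ α : MulChar F ℂ, (α a + α b) * conj (α a + α b) = 2 * ((Fintype.card F : ℂ) - 1) := by
    simp_rw [hexp]
    rw [Finset.sum_add_distrib, Finset.sum_add_distrib, hs1, hs2, Finset.sum_const, Finset.card_univ, nsmul_eq_mul, hcardM]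
    ring
  have hoff := sum_OffS hodd (fun α : MulChar F ℂ => (α a + α b) * conj (α a + α b))
  rw [hall] at hoff
  have hone : ((1 : MulChar F ℂ) a + (1 : MulChar F ℂ) b) * conj ((1 : MulChar F ℂ) a + (1 : MulChar F ℂ) b) = 4 := by
    rw [MulChar.one_apply (isUnit_iff_ne_zero.mpr ha0), MulChar.one_apply (isUnit_iff_ne_zero.mpr hb0)]
    simp
    norm_num
  have hbv : (alpha0 : MulChar F ℂ) b = alpha0 a := by
    have hmul : (alpha0 : MulChar F ℂ) a * alpha0 b = 1 := by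
      rw [← map_mul, hd, map_one]
    have hsq : (alpha0 : MulChar F ℂ) a ^ 2 = 1 := alpha0_sq_apply ha0
    linear_combination ((alpha0 : MulChar F ℂ) a) * hmul - ((alpha0 : MulChar F ℂ) b) * hsq
  have hsign := mc_mul_conj (alpha0 : MulChar F ℂ) ha0
  have hal : ((alpha0 : MulChar F ℂ) a + alpha0 b) * conj ((alpha0 : MulChar F ℂ) a + alpha0 b) = 4 := by
    rw [hbv, map_add]
    linear_combination 4 * hsign
  rw [hone, hal] at hoff
  -- the column orthogonality
  have E := sum_partS (F := F) (fun χ => (χ : SL2 F → ℂ) d * conj ((χ : SL2 F → ℂ) d))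
  rw [second_orth_conj (IsConj.refl d), card_C_diag h01 h10 ha] at E
  have hps := sum_psF (F := F) (fun χ => (χ : SL2 F → ℂ) d * conj ((χ : SL2 F → ℂ) d))
  have hps2 : ∀ p : OffS F, ((psI p : IrrS F) : SL2 F → ℂ) d * conj (((psI p : IrrS F) : SL2 F → ℂ) d) =
      (p.1 a + p.1 b) * conj (p.1 a + p.1 b) := by
    intro p
    show indS p.1 d * conj (indS p.1 d) = _
    rw [indS_tri_ne p.1 d h10 hab]
  simp_rw [hps2] at hps
  rw [hoff] at hps
  have ht : ((trivI : IrrS F) : SL2 F → ℂ) d * conj (((trivI : IrrS F) : SL2 F → ℂ) d) = 1 := by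
    show (1 : ℂ) * conj (1 : ℂ) = 1
    simp
  have hst : ((stIS : IrrS F) : SL2 F → ℂ) d * conj (((stIS : IrrS F) : SL2 F → ℂ) d) = 1 := by
    show stS d * conj (stS d) = 1
    rw [stS_diag d h10 hab]
    simp
  rw [ht, hst, D.hquad, Finset.sum_pair D.hne] at E
  -- the values of the two half characters
  have hbd : (D.b : SL2 F → ℂ) d = (D.a : SL2 F → ℂ) d := by
    rw [← D.hswap]
    show (D.a : SL2 F → ℂ) (sig e d) = _
    have hsd : sig e d = d := by
      apply sl_ext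
      · simp
      · simp [h01]
      · simp [h10]
      · simp
    rw [hsd]
  have hsumd : (D.a : SL2 F → ℂ) d + (D.b : SL2 F → ℂ) d = (alpha0 : MulChar F ℂ) a + alpha0 b := by
    have h1 := indS_tri_ne (alpha0 : MulChar F ℂ) d h10 hab
    rw [D.hsum] at h1
    exact h1
  have hav : (D.a : SL2 F → ℂ) d = (alpha0 : MulChar F ℂ) a := by
    rw [hbd, hbv] at hsumd
    have h2 : (2 : ℂ) * ((D.a : SL2 F → ℂ) d - (alpha0 : MulChar F ℂ) a) = 0 := by
      linear_combination hsumd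
    have h3 := (mul_eq_zero.mp h2).resolve_left (by norm_num)
    linear_combination h3
  rw [hbd, hav, hsign] at E
  have hcusp : ∑ ψ ∈ cuspSF (F := F), (ψ : SL2 F → ℂ) d * conj ((ψ : SL2 F → ℂ) d) = 0 := by
    rw [Nat.cast_sub (by have := q_two_le (F := F); omega)] at E
    push_cast at E
    linear_combination (-1 : ℂ) * E - (1 / 2 : ℂ) * hps
  exact terms_zero _ _ hcusp χ hχ

/-- The no-eigenvector elements have trace with `t² ≠ 4`. -/
theorem noeig_tr (hodd : Odd (Fintype.card F)) {g : SL2 F}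
    (h : ∀ (c : F) (v : Fin 2 → F), v ≠ 0 → (g : M2 F).mulVec v ≠ c • v) : tr g ^ 2 ≠ 4 := by
  intro h4
  have h2 : (2 : F) ≠ 0 := two_ne hodd
  apply Cfsg.Agent.Lib.H1Torus.no_root_of_no_eigen g h (tr g / 2)
  field_simp
  linear_combination -h4

theorem tr_sig (e : Fˣ) (g : SL2 F) : tr (sig e g) = tr g := by
  simp [tr]

theorem sig_conj (hodd : Odd (Fintype.card F)) (e : Fˣ) {g : SL2 F}
    (h : ∀ (c : F) (v : Fin 2 → F), v ≠ 0 → (g : M2 F).mulVec v ≠ c • v) : IsConj (sig e g) g :=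
  conj_of_trace (sig e g) g (tr_sig e g) (by rw [tr_sig]; exact noeig_tr hodd h)

/-- The half characters vanish at elements without eigenvector. -/
theorem half_zero {e : Fˣ} {k : ℕ} (hk : Fintype.card F = 2 * k + 1) (D : QuadData F e k) {g : SL2 F}
    (h : ∀ (c : F) (v : Fin 2 → F), v ≠ 0 → (g : M2 F).mulVec v ≠ c • v) :
    (D.a : SL2 F → ℂ) g = 0 ∧ (D.b : SL2 F → ℂ) g = 0 := by
  have hodd : Odd (Fintype.card F) := ⟨k, hk⟩
  have h1 : (D.b : SL2 F → ℂ) g = (D.a : SL2 F → ℂ) g := by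
    rw [← D.hswap]
    show (D.a : SL2 F → ℂ) (sig e g) = _
    obtain ⟨x, hx⟩ := isConj_iff.mp (sig_conj hodd e h)
    have h0 : (D.a : SL2 F → ℂ) (x * sig e g * x⁻¹) = (D.a : SL2 F → ℂ) (sig e g) :=
      classFunction_of_isIrrCharacter D.a.2 _ x
    rw [hx] at h0
    exact h0.symm
  have h2 := indS_noeig (alpha0 : MulChar F ℂ) g h
  rw [D.hsum] at h2
  have h3 : (D.a : SL2 F → ℂ) g + (D.b : SL2 F → ℂ) g = 0 := h2
  rw [h1] at h3
  have h4 : (2 : ℂ) * (D.a : SL2 F → ℂ) g = 0 := by linear_combination h3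
  have h5 := (mul_eq_zero.mp h4).resolve_left (by norm_num)
  exact ⟨h5, h1.trans h5⟩

/-- Column orthogonality at an element without eigenvector. -/
theorem column_noeig (hodd : Odd (Fintype.card F)) {g : SL2 F}
    (h : ∀ (c : F) (v : Fin 2 → F), v ≠ 0 → (g : M2 F).mulVec v ≠ c • v) :
    ∑ χ : IrrS F, (χ : SL2 F → ℂ) g * conj ((χ : SL2 F → ℂ) g) = (Fintype.card F : ℂ) + 1 := by
  obtain ⟨T, _, hcard, _, hcen, hconj, _⟩ := Cfsg.Agent.S2429.result hodd
  obtain ⟨x, hx⟩ := hconj g h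
  have hxg : ((x * g * x⁻¹ : SL2 F) : M2 F) ≠ 1 := by
    intro h1
    have h2 : x * g * x⁻¹ = 1 := Subtype.ext h1
    have h3 : g = 1 := by
      have h4 : g = x⁻¹ * (x * g * x⁻¹) * x := by group
      rw [h4, h2]
      group
    subst h3
    obtain ⟨v, hv⟩ : ∃ v : Fin 2 → F, v ≠ 0 := ⟨![1, 0], by
      intro h5
      have := congrFun h5 0
      simp at this⟩
    exact h 1 v hv (by simp)
  have hxg2 : ((x * g * x⁻¹ : SL2 F) : M2 F) ≠ -1 := by
    intro h1
    have hm : ((mone : SL2 F) : M2 F) = -1 := by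
      ext i j
      fin_cases i <;> fin_cases j <;> simp [mone, mk]
    have h2 : x * g * x⁻¹ = mone := Subtype.ext (h1.trans hm.symm)
    have h3 : g = mone := by
      have h4 : g = x⁻¹ * (x * g * x⁻¹) * x := by group
      rw [h4, h2, ← mone_comm x⁻¹, mul_assoc, inv_mul_cancel, mul_one]
    subst h3
    obtain ⟨v, hv⟩ : ∃ v : Fin 2 → F, v ≠ 0 := ⟨![1, 0], by
      intro h5
      have := congrFun h5 0
      simp at this⟩
    apply h (-1) v hv
    ext i
    fin_cases i <;> simp [Matrix.mulVec, dotProduct, Fin.sum_univ_two, mone]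
  have h5 := hcen _ hx hxg hxg2
  have h6 := second_orth_conj (G := SL2 F) (IsConj.refl (x * g * x⁻¹))
  rw [h5, hcard] at h6
  rw [← Nat.cast_one (R := ℂ), ← Nat.cast_add, ← h6]
  apply Finset.sum_congr rfl
  intro χ _
  have h7 : (χ : SL2 F → ℂ) (x * g * x⁻¹) = (χ : SL2 F → ℂ) g := classFunction_of_isIrrCharacter χ.2 _ x
  rw [h7]

/-- The vanishing for the characters of degree `q + 1` and `(q + 1) / 2`. -/
theorem noeig_zero {k : ℕ} (hk : Fintype.card F = 2 * k + 1) {χ : IrrS F}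
    (hχ : (χ : SL2 F → ℂ) 1 = ((2 * k + 2 : ℕ) : ℂ) ∨ (χ : SL2 F → ℂ) 1 = ((k + 1 : ℕ) : ℂ)) {g : SL2 F}
    (h : ∀ (c : F) (v : Fin 2 → F), v ≠ 0 → (g : M2 F).mulVec v ≠ c • v) : (χ : SL2 F → ℂ) g = 0 := by
  have hodd : Odd (Fintype.card F) := ⟨k, hk⟩
  have hq : 2 ≤ Fintype.card F := q_two_le
  have hk0 : 1 ≤ k := by omega
  obtain ⟨e, he⟩ := exists_nonsq hodd
  obtain ⟨D⟩ := exists_quadData he hk
  obtain ⟨C⟩ := exists_cuspData he hk
  have hps : ∀ ψ ∈ psF (F := F), (ψ : SL2 F → ℂ) g = 0 := by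
    intro ψ hψ
    obtain ⟨γ, _, h2⟩ := (mem_psF ψ).mp hψ
    rw [h2]
    exact indS_noeig γ g h
  obtain ⟨ha0, hb0⟩ := half_zero hk D h
  rcases odd_cases hk D χ with h3 | h3 | h3 | h3 | h3 | h3
  · exfalso
    rcases hχ with h4 | h4
    · have := nat_of_two h4 h3.2; omega
    · have := nat_of_two h4 h3.2; omega
  · exfalso
    rcases hχ with h4 | h4
    · have := nat_of_two h4 h3.2; omega
    · have := nat_of_two h4 h3.2; omega
  · exact hps χ h3.1
  · -- the exceptional case `q = 3`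
    have hk1 : k = 1 := by
      rcases hχ with h4 | h4
      · have := nat_of_two h4 h3.2; omega
      · have := nat_of_two h4 h3.2; omega
    subst hk1
    have E := column_noeig hodd h
    rw [sum_all hk D C] at E
    have hnorm : ∀ ψ : IrrS F, ψ ∈ cuspA (F := F) 1 → (ψ : SL2 F → ℂ) g * conj ((ψ : SL2 F → ℂ) g) = 1 := by
      intro ψ hψ
      have h1 := ((mem_cuspA ψ).mp hψ).2
      have h2 : (ψ : SL2 F → ℂ) 1 = 1 := by simpa using h1
      have h5 := Cfsg.Agent.Lib.CharLin.linear_mul (IsIrrCharacter.isCharacter ψ.2) h2 g g⁻¹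
      rw [mul_inv_cancel, h2, IsCharacter.map_inv (IsIrrCharacter.isCharacter ψ.2)] at h5
      exact h5.symm
    have hc1 : C.c1 ∈ cuspA (F := F) 1 := by
      rw [C.hA]
      simp
    have hc2 : C.c2 ∈ cuspA (F := F) 1 := by
      rw [C.hA]
      simp
    rw [hnorm _ hc1, hnorm _ hc2, ha0, hb0, Finset.sum_eq_zero (fun ψ hψ => by rw [hps ψ hψ]; simp)] at E
    have ht : ((trivI : IrrS F) : SL2 F → ℂ) g * conj (((trivI : IrrS F) : SL2 F → ℂ) g) = 1 := by
      show (1 : ℂ) * conj (1 : ℂ) = 1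
      simp
    have hst : ((stIS : IrrS F) : SL2 F → ℂ) g * conj (((stIS : IrrS F) : SL2 F → ℂ) g) = 1 := by
      show stS g * conj (stS g) = 1
      rw [stS_noeig g h]
      simp
    rw [ht, hst, hk] at E
    have hcB : ∑ ψ ∈ cuspB (F := F) 1, (ψ : SL2 F → ℂ) g * conj ((ψ : SL2 F → ℂ) g) = 0 := by
      push_cast at E
      simp only [mul_zero, map_zero] at E
      linear_combination E
    exact terms_zero _ _ hcB χ h3.1
  · rcases h3.1 with h4 | h4
    · rw [h4]
      exact ha0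
    · rw [h4]
      exact hb0
  · exfalso
    rcases hχ with h4 | h4
    · have := nat_of_two h4 h3.2; omega
    · have := nat_of_two h4 h3.2; omega

end Cfsg.Agent.Lib.LdSL7
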