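import Mathlib
import Cfsg.Prelude.Def_KGroupFacts

/-! The Hopf description of the Schur multiplier through `F / [R, F]`. -/

set_option autoImplicit false

namespace Cfsg.Agent.Lib.LdSM

open scoped commutatorElement
open Subgroup

universe u v w

section Generic

variable {Γ : Type*} [Group Γ]

theorem commutatorElement_mul_central_left (x y z : Γ) (hz : z ∈ center Γ) : ⁅x * z, y⁆ = ⁅x, y⁆ := by
  have h1 : ∀ g, z * g = g * z := fun g => (mem_center_iff.1 hz g).symm
  rw [commutatorElement_def, commutatorElement_def, mul_inv_rev]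
  have h2 : z⁻¹ * y⁻¹ = y⁻¹ * z⁻¹ := by
    have hz' : z⁻¹ ∈ center Γ := inv_mem hz
    exact (mem_center_iff.1 hz' _).symm
  calc x * z * y * (z⁻¹ * x⁻¹) * y⁻¹ = x * (z * y) * z⁻¹ * x⁻¹ * y⁻¹ := by group
    _ = x * (y * z) * z⁻¹ * x⁻¹ * y⁻¹ := by rw [h1 y]
    _ = x * y * x⁻¹ * y⁻¹ := by group

theorem commutatorElement_mul_central_right (x y z : Γ) (hz : z ∈ center Γ) : ⁅x, y * z⁆ = ⁅x, y⁆ := by
  have h1 : ∀ g, z * g = g * z := fun g => (mem_center_iff.1 hz g).symm
  rw [commutatorElement_def, commutatorElement_def, mul_inv_rev]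
  have hz' : z⁻¹ ∈ center Γ := inv_mem hz
  have h2 : ∀ g, z⁻¹ * g = g * z⁻¹ := fun g => (mem_center_iff.1 hz' g).symm
  calc x * (y * z) * x⁻¹ * (z⁻¹ * y⁻¹) = x * y * (z * x⁻¹) * z⁻¹ * y⁻¹ := by group
    _ = x * y * (x⁻¹ * z) * z⁻¹ * y⁻¹ := by rw [h1 x⁻¹]
    _ = x * y * x⁻¹ * y⁻¹ := by group

theorem finite_commutator_of_finiteIndex [(center Γ).FiniteIndex] : Finite (commutator Γ) := by
  classical
  haveI : Finite (Γ ⧸ center Γ) := Subgroup.finite_quotient_of_finiteIndex
  have : Finite (commutatorSet Γ) := by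
    have hs : Function.Surjective
        (fun q : (Γ ⧸ center Γ) × (Γ ⧸ center Γ) =>
          (⟨⁅q.1.out, q.2.out⁆, ⟨_, _, rfl⟩⟩ : commutatorSet Γ)) := by
      rintro ⟨_, g, h, rfl⟩
      refine ⟨((g : Γ ⧸ center Γ), (h : Γ ⧸ center Γ)), ?_⟩
      apply Subtype.ext
      show ⁅(g : Γ ⧸ center Γ).out, (h : Γ ⧸ center Γ).out⁆ = ⁅g, h⁆
      have h1 : (g : Γ ⧸ center Γ).out⁻¹ * g ∈ center Γ := by
        rw [← QuotientGroup.eq]; simp
      have h2 : (h : Γ ⧸ center Γ).out⁻¹ * h ∈ center Γ := by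
        rw [← QuotientGroup.eq]; simp
      have e1 : g = (g : Γ ⧸ center Γ).out * ((g : Γ ⧸ center Γ).out⁻¹ * g) := by group
      have e2 : h = (h : Γ ⧸ center Γ).out * ((h : Γ ⧸ center Γ).out⁻¹ * h) := by group
      conv_rhs => rw [e1, e2]
      rw [commutatorElement_mul_central_left _ _ _ h1, commutatorElement_mul_central_right _ _ _ h2]
    exact Finite.of_surjective _ hs
  infer_instance

end Generic

section Pres

variable {α : Type u} {Q : Type v} [Group Q] (π : FreeGroup α →* Q)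

/-- `[R, F]` -/
def CC : Subgroup (FreeGroup α) := ⁅π.ker, (⊤ : Subgroup (FreeGroup α))⁆

instance CC_normal : (CC π).Normal := by
  unfold CC; infer_instance

/-- `F / [R, F]` -/
abbrev Fbar := FreeGroup α ⧸ CC π

theorem CC_le_ker : CC π ≤ π.ker := by
  unfold CC
  rw [Subgroup.commutator_le]
  intro r hr w _
  rw [MonoidHom.mem_ker, map_commutatorElement, MonoidHom.mem_ker.1 hr]
  simp [commutatorElement_def]

/-- the projection to `Q` -/
def pb : Fbar π →* Q := QuotientGroup.lift _ π (CC_le_ker π)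

@[simp] theorem pb_mk (w : FreeGroup α) : pb π (w : Fbar π) = π w := rfl

theorem pb_surj (hπ : Function.Surjective π) : Function.Surjective (pb π) := by
  intro q
  obtain ⟨w, rfl⟩ := hπ q
  exact ⟨w, rfl⟩

theorem ker_pb_le_center : (pb π).ker ≤ center (Fbar π) := by
  intro x hx
  obtain ⟨r, rfl⟩ := QuotientGroup.mk_surjective x
  rw [mem_center_iff]
  intro y
  obtain ⟨w, rfl⟩ := QuotientGroup.mk_surjective y
  have h1 : r ∈ π.ker := hx
  have h2 : ⁅r, w⁆ ∈ CC π := Subgroup.commutator_mem_commutator h1 (mem_top w)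
  have h3 : ((⁅r, w⁆ : FreeGroup α) : Fbar π) = 1 := (QuotientGroup.eq_one_iff _).2 h2
  rw [commutatorElement_def, QuotientGroup.mk_mul, QuotientGroup.mk_mul, QuotientGroup.mk_mul,
    QuotientGroup.mk_inv, QuotientGroup.mk_inv] at h3
  have h4 : (r : Fbar π) * w * (r : Fbar π)⁻¹ * (w : Fbar π)⁻¹ * w * r = w * r := by
    rw [h3, one_mul]
  have h5 : (r : Fbar π) * w * (r : Fbar π)⁻¹ * (w : Fbar π)⁻¹ * w * r = r * w := by group
  rw [h5] at h4
  exact h4.symm

/-- abelianization of `Fbar`. -/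
def abF : Fbar π →* Abelianization (FreeGroup α) :=
  QuotientGroup.lift _ Abelianization.of (by
    unfold CC
    rw [Subgroup.commutator_le]
    intro r _ w _
    rw [MonoidHom.mem_ker, map_commutatorElement]
    exact (Commute.all _ _).commutator_eq)

theorem ker_abF : (abF π).ker = commutator (Fbar π) := by
  apply le_antisymm
  · intro x hx
    obtain ⟨w, rfl⟩ := QuotientGroup.mk_surjective x
    have h1 : Abelianization.of w = 1 := hx
    have h2 : w ∈ commutator (FreeGroup α) := by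
      rw [← Abelianization.ker_of (G := FreeGroup α)]
      exact h1
    have h3 : (commutator (FreeGroup α)).map (QuotientGroup.mk' (CC π)) ≤ commutator (Fbar π) := by
      rw [commutator_def, commutator_def, Subgroup.map_commutator]
      exact Subgroup.commutator_mono le_top le_top
    exact h3 (Subgroup.mem_map_of_mem _ h2)
  · rw [commutator_def, Subgroup.commutator_le]
    intro x _ y _
    rw [MonoidHom.mem_ker, map_commutatorElement]
    exact (Commute.all _ _).commutator_eq

/-- `T = R̄ ∩ F̄'`, the Schur multiplier. -/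
def TT : Subgroup (Fbar π) := (pb π).ker ⊓ commutator (Fbar π)

theorem TT_le_center : TT π ≤ center (Fbar π) := inf_le_left.trans (ker_pb_le_center π)

noncomputable instance TT_commGroup : CommGroup (TT π) :=
  { (inferInstance : Group (TT π)) with
    mul_comm := fun x y => by
      apply Subtype.ext
      exact (mem_center_iff.1 (TT_le_center π x.2) y).symm }

theorem finite_commutator_Fbar (hπ : Function.Surjective π) [Finite Q] : Finite (commutator (Fbar π)) := by
  haveI : (center (Fbar π)).FiniteIndex := by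
    have h1 : (pb π).ker.FiniteIndex := by
      rw [Subgroup.finiteIndex_iff, Subgroup.index_ker]
      exact Nat.card_pos.ne'
    exact Subgroup.finiteIndex_of_le (ker_pb_le_center π)
  exact finite_commutator_of_finiteIndex

theorem finite_TT (hπ : Function.Surjective π) [Finite Q] : Finite (TT π) := by
  haveI := finite_commutator_Fbar π hπ
  exact Set.Finite.to_subtype (Set.Finite.subset (Set.toFinite (commutator (Fbar π) : Set (Fbar π))) inf_le_right)

section Lift

variable {X : Type*} [Group X] (ξ : X →* Q)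

theorem exists_lift (hs : Function.Surjective ξ) (hc : ξ.ker ≤ center X) :
    ∃ φ : Fbar π →* X, ξ.comp φ = pb π := by
  choose s hsec using fun a : α => hs (π (FreeGroup.of a))
  let φ₀ : FreeGroup α →* X := FreeGroup.lift s
  have h1 : ξ.comp φ₀ = π := by
    apply FreeGroup.ext_hom
    intro a
    simp [φ₀, hsec]
  have h2 : CC π ≤ φ₀.ker := by
    unfold CC
    rw [Subgroup.commutator_le]
    intro r hr w _
    rw [MonoidHom.mem_ker, map_commutatorElement]
    have h3 : φ₀ r ∈ ξ.ker := by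
      rw [MonoidHom.mem_ker]
      have := congrArg (fun f => f r) h1
      simp only [MonoidHom.comp_apply] at this
      rw [this]
      exact hr
    have h4 := hc h3
    exact (show Commute (φ₀ r) (φ₀ w) from (mem_center_iff.1 h4 _).symm).commutator_eq
  refine ⟨QuotientGroup.lift _ φ₀ h2, ?_⟩
  apply MonoidHom.ext
  intro x
  obtain ⟨w, rfl⟩ := QuotientGroup.mk_surjective x
  have := congrArg (fun f => f w) h1
  simpa using this

variable {ξ}

theorem comm_image (hπ : Function.Surjective π) {φ : Fbar π →* X} (hφ : ξ.comp φ = pb π)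
    (hc : ξ.ker ≤ center X) (hs : Function.Surjective ξ) :
    commutator X = (commutator (Fbar π)).map φ := by
  have hdec : ∀ x : X, ∃ u, ∃ z ∈ center X, x = φ u * z := by
    intro x
    obtain ⟨u, hu⟩ := pb_surj π hπ (ξ x)
    refine ⟨u, (φ u)⁻¹ * x, hc ?_, by group⟩
    rw [MonoidHom.mem_ker, map_mul, map_inv]
    have h1 : ξ (φ u) = pb π u := congrArg (fun f => f u) hφ
    rw [h1, hu]; group
  apply le_antisymm
  · rw [commutator_def, Subgroup.commutator_le]
    intro x _ y _
    obtain ⟨u, z, hz, rfl⟩ := hdec x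
    obtain ⟨v, w, hw, rfl⟩ := hdec y
    rw [commutatorElement_mul_central_left _ _ _ hz, commutatorElement_mul_central_right _ _ _ hw,
      ← map_commutatorElement]
    exact Subgroup.mem_map_of_mem _ (Subgroup.commutator_mem_commutator (mem_top _) (mem_top _))
  · rw [commutator_def, commutator_def, Subgroup.map_commutator]
    exact Subgroup.commutator_mono le_top le_top

theorem image_TT (hπ : Function.Surjective π) {φ : Fbar π →* X} (hφ : ξ.comp φ = pb π)
    (hc : ξ.ker ≤ center X) (hs : Function.Surjective ξ) :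
    (TT π).map φ = ξ.ker ⊓ commutator X := by
  have hh : ∀ u, ξ (φ u) = pb π u := fun u => congrArg (fun f => f u) hφ
  rw [comm_image π hπ hφ hc hs]
  apply le_antisymm
  · rintro _ ⟨t, ht, rfl⟩
    obtain ⟨ht1, ht2⟩ := mem_inf.1 ht
    exact mem_inf.2 ⟨MonoidHom.mem_ker.2 (by rw [hh]; exact MonoidHom.mem_ker.1 ht1),
      Subgroup.mem_map_of_mem _ ht2⟩
  · intro x hx
    obtain ⟨hx1, w, hw, rfl⟩ := mem_inf.1 hx
    refine Subgroup.mem_map_of_mem _ (mem_inf.2 ⟨MonoidHom.mem_ker.2 ?_, hw⟩)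
    rw [← hh]
    exact MonoidHom.mem_ker.1 hx1

theorem surj_of_stem (hπ : Function.Surjective π) {φ : Fbar π →* X} (hφ : ξ.comp φ = pb π)
    (hst : Cfsg.IsStemExtension ξ) : Function.Surjective φ := by
  obtain ⟨hs, hc, hd⟩ := hst
  have hcomm := comm_image π hπ hφ hc hs
  intro x
  obtain ⟨u, hu⟩ := pb_surj π hπ (ξ x)
  have hh : ξ (φ u) = pb π u := congrArg (fun f => f u) hφ
  have h1 : (φ u)⁻¹ * x ∈ ξ.ker := by
    rw [MonoidHom.mem_ker, map_mul, map_inv, hh, hu]; group
  have h2 := hd h1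
  rw [hcomm] at h2
  obtain ⟨w, -, hw⟩ := h2
  exact ⟨u * w, by rw [map_mul, hw]; group⟩

/-- the lift maps `T` onto the kernel of a stem extension. -/
theorem image_TT_stem (hπ : Function.Surjective π) {φ : Fbar π →* X} (hφ : ξ.comp φ = pb π)
    (hst : Cfsg.IsStemExtension ξ) : (TT π).map φ = ξ.ker := by
  rw [image_TT π hπ hφ hst.2.1 hst.1]
  exact inf_eq_left.2 hst.2.2

end Lift

end Pres

section Split

/-- a section over the image in a free abelian group -/
theorem exists_section_add {A : Type*} [AddCommGroup A] {β : Type*} [Finite β]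
    (g : A →+ (β →₀ ℤ)) : ∃ s : g.range →+ A, ∀ y, g (s y) = y := by
  classical
  haveI : Fintype β := Fintype.ofFinite β
  let G : A →ₗ[ℤ] (β →₀ ℤ) := g.toIntLinearMap
  obtain ⟨n, ⟨b⟩⟩ := Submodule.nonempty_basis_of_pid (Finsupp.basisSingleOne (R := ℤ) (ι := β)) (LinearMap.range G)
  haveI : Module.Free ℤ (LinearMap.range G) := Module.Free.of_basis b
  have hsurj : LinearMap.range G.rangeRestrict = ⊤ := LinearMap.range_rangeRestrict G
  obtain ⟨s, hs⟩ := Module.projective_lifting_property G.rangeRestrict (LinearMap.id) (by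
    intro y
    obtain ⟨x, hx⟩ := y.2
    exact ⟨x, Subtype.ext hx⟩)
  refine ⟨{ toFun := fun y => s ⟨y.1, y.2⟩, map_zero' := by
              show s 0 = 0
              exact map_zero s,
            map_add' := by
              intro x y
              show s (_ + _) = s _ + s _
              exact map_add s _ _ }, ?_⟩
  intro y
  have := congrArg (fun f => (f ⟨y.1, y.2⟩ : LinearMap.range G).1) hs
  have h2 : G (s ⟨y.1, y.2⟩) = y.1 := by simpa using this
  exact h2

end Split

section Complement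

variable {α : Type u} [Finite α] {Q : Type v} [Group Q] (π : FreeGroup α →* Q)

theorem exists_complement (K : Subgroup (Fbar π)) (hK : K ≤ center (Fbar π)) :
    ∃ U : Subgroup (Fbar π), U ≤ K ∧ U ⊓ commutator (Fbar π) = ⊥ ∧
      ∀ x ∈ K, ∃ u ∈ U, ∃ t ∈ K ⊓ commutator (Fbar π), x = u * t := by
  classical
  letI : CommGroup K :=
    { (inferInstance : Group K) with
      mul_comm := fun x y => by
        apply Subtype.ext
        exact (mem_center_iff.1 (hK x.2) y).symm }
  -- the map to the free abelian group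
  let e : Additive (Abelianization (FreeGroup α)) ≃+ (α →₀ ℤ) := FreeAbelianGroup.equivFinsupp α
  let f : K →* Abelianization (FreeGroup α) := (abF π).comp K.subtype
  let g : Additive K →+ (α →₀ ℤ) := e.toAddMonoidHom.comp (MonoidHom.toAdditive f)
  obtain ⟨s, hs⟩ := exists_section_add g
  let U : Subgroup (Fbar π) :=
    { carrier := {x | ∃ y : g.range, x = ((s y).toMul : K).1}
      mul_mem' := by
        rintro _ _ ⟨y, rfl⟩ ⟨z, rfl⟩
        exact ⟨y + z, by rw [map_add]; rfl⟩
      one_mem' := ⟨0, by rw [map_zero]; rfl⟩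
      inv_mem' := by
        rintro _ ⟨y, rfl⟩
        exact ⟨-y, by rw [map_neg]; rfl⟩ }
  have hker : ∀ x : Fbar π, x ∈ commutator (Fbar π) ↔ abF π x = 1 := by
    intro x
    rw [← ker_abF, MonoidHom.mem_ker]
  have hgx : ∀ x : K, g (Additive.ofMul x) = 0 ↔ (x : Fbar π) ∈ commutator (Fbar π) := by
    intro x
    rw [hker]
    constructor
    · intro h
      have h1 : e (Additive.ofMul (f x)) = 0 := h
      have h2 : Additive.ofMul (f x) = 0 := by
        apply e.injective
        rw [h1, map_zero]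
      exact h2
    · intro h
      have h1 : f x = 1 := h
      show e (Additive.ofMul (f x)) = 0
      rw [h1]
      exact map_zero e
  refine ⟨U, ?_, ?_, ?_⟩
  · rintro _ ⟨y, rfl⟩
    exact (s y).toMul.2
  · rw [eq_bot_iff]
    intro x hx
    obtain ⟨⟨y, rfl⟩, hx2⟩ := mem_inf.1 hx
    have h1 := (hgx (s y).toMul).2 hx2
    have h2 : g (s y) = 0 := h1
    rw [hs] at h2
    have h3 : y = 0 := Subtype.ext h2
    subst h3
    rw [map_zero]
    exact one_mem _
  · intro x hx
    let y : g.range := ⟨g (Additive.ofMul (⟨x, hx⟩ : K)), ⟨_, rfl⟩⟩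
    refine ⟨((s y).toMul : K).1, ⟨y, rfl⟩, ((s y).toMul : K).1⁻¹ * x, ?_, by group⟩
    refine mem_inf.2 ⟨K.mul_mem (K.inv_mem (s y).toMul.2) hx, ?_⟩
    have h1 : g (Additive.ofMul ((s y).toMul⁻¹ * (⟨x, hx⟩ : K))) = 0 := by
      rw [ofMul_mul, map_add, ofMul_inv, map_neg]
      show - g (s y) + _ = 0
      rw [hs]
      simp [y]
    exact (hgx _).1 h1

end Complement

section Cover

variable {α : Type u} [Finite α] {Q : Type v} [Group Q] [Finite Q] (π : FreeGroup α →* Q)
  (hπ : Function.Surjective π)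

/-- the data of a complement of `T` in `R̄`. -/
structure IsCompl' (U : Subgroup (Fbar π)) : Prop where
  le : U ≤ (pb π).ker
  inf : U ⊓ commutator (Fbar π) = ⊥
  gen : ∀ x ∈ (pb π).ker, ∃ u ∈ U, ∃ t ∈ TT π, x = u * t

variable {π}

theorem IsCompl'.normal {U : Subgroup (Fbar π)} (hU : IsCompl' π U) : U.Normal := by
  refine ⟨fun x hx g => ?_⟩
  have h1 := ker_pb_le_center π (hU.le hx)
  have h2 : g * x = x * g := mem_center_iff.1 h1 g
  rw [h2, mul_inv_cancel_right]
  exact hx

/-- the cover attached to a complement -/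
abbrev Cov (U : Subgroup (Fbar π)) := Fbar π ⧸ U

/-- the projection of the cover -/
def covMap {U : Subgroup (Fbar π)} (hU : IsCompl' π U) :
    haveI := hU.normal; Cov U →* Q :=
  haveI := hU.normal
  QuotientGroup.lift U (pb π) hU.le

theorem covMap_mk {U : Subgroup (Fbar π)} (hU : IsCompl' π U) (x : Fbar π) :
    haveI := hU.normal
    covMap hU (x : Cov U) = pb π x := rfl

include hπ in
theorem finite_cov {U : Subgroup (Fbar π)} (hU : IsCompl' π U) : Finite (Cov U) := by
  classical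
  haveI := hU.normal
  haveI := finite_TT π hπ
  have hpb := pb_surj π hπ
  choose sec hsec using hpb
  have hs : Function.Surjective (fun q : Q × TT π => ((sec q.1 * q.2 : Fbar π) : Cov U)) := by
    intro y
    obtain ⟨x, rfl⟩ := QuotientGroup.mk_surjective y
    have h1 : (sec (pb π x))⁻¹ * x ∈ (pb π).ker := by
      rw [MonoidHom.mem_ker, map_mul, map_inv, hsec]; group
    obtain ⟨u, hu, t, ht, e⟩ := hU.gen _ h1
    refine ⟨(pb π x, ⟨t, ht⟩), ?_⟩
    show ((sec (pb π x) * t : Fbar π) : Cov U) = (x : Cov U)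
    rw [QuotientGroup.eq]
    have h3 : (sec (pb π x) * t)⁻¹ * x = t⁻¹ * ((sec (pb π x))⁻¹ * x) := by group
    rw [h3, e]
    have hc : t⁻¹ * (u * t) = u := by
      have h4 := mem_center_iff.1 (TT_le_center π ht) u
      calc t⁻¹ * (u * t) = t⁻¹ * (t * u) := by rw [h4]
        _ = u := by group
    rw [hc]
    exact hu
  exact Finite.of_surjective _ hs

include hπ in
theorem stem_cov {U : Subgroup (Fbar π)} (hU : IsCompl' π U) :
    haveI := hU.normal
    Cfsg.IsStemExtension (covMap hU) := by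
  haveI := hU.normal
  refine ⟨?_, ?_, ?_⟩
  · intro q
    obtain ⟨x, rfl⟩ := pb_surj π hπ q
    exact ⟨(x : Cov U), rfl⟩
  · intro y hy
    obtain ⟨x, rfl⟩ := QuotientGroup.mk_surjective y
    have h1 : x ∈ (pb π).ker := hy
    rw [mem_center_iff]
    intro g
    obtain ⟨g, rfl⟩ := QuotientGroup.mk_surjective g
    have h2 := mem_center_iff.1 (ker_pb_le_center π h1) g
    rw [← QuotientGroup.mk_mul, ← QuotientGroup.mk_mul, h2]
  · intro y hy
    obtain ⟨x, rfl⟩ := QuotientGroup.mk_surjective y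
    have h1 : x ∈ (pb π).ker := hy
    obtain ⟨u, hu, t, ht, rfl⟩ := hU.gen _ h1
    have h2 : ((u * t : Fbar π) : Cov U) = (t : Cov U) := by
      rw [QuotientGroup.mk_mul, (QuotientGroup.eq_one_iff u).2 hu, one_mul]
    rw [h2]
    have h3 : (commutator (Fbar π)).map (QuotientGroup.mk' U) ≤ commutator (Cov U) := by
      rw [commutator_def, commutator_def, Subgroup.map_commutator]
      exact Subgroup.commutator_mono le_top le_top
    exact h3 (Subgroup.mem_map_of_mem _ (mem_inf.1 ht).2)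

/-- the kernel of the cover is `T` -/
noncomputable def kerEquiv {U : Subgroup (Fbar π)} (hU : IsCompl' π U) :
    haveI := hU.normal
    TT π ≃* (covMap hU).ker := by
  haveI := hU.normal
  refine MulEquiv.ofBijective
    (MonoidHom.codRestrict ((QuotientGroup.mk' U).comp (TT π).subtype) (covMap hU).ker ?_) ⟨?_, ?_⟩
  · intro t
    exact MonoidHom.mem_ker.2 (MonoidHom.mem_ker.1 (mem_inf.1 t.2).1)
  · rw [injective_iff_map_eq_one]
    intro t ht
    have h1 := congrArg Subtype.val ht
    have h2 : (t : Fbar π) ∈ U := (QuotientGroup.eq_one_iff _).1 h1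
    have h3 : (t : Fbar π) ∈ U ⊓ commutator (Fbar π) := mem_inf.2 ⟨h2, (mem_inf.1 t.2).2⟩
    rw [hU.inf, mem_bot] at h3
    exact Subtype.ext h3
  · rintro ⟨y, hy⟩
    obtain ⟨x, rfl⟩ := QuotientGroup.mk_surjective y
    have h1 : x ∈ (pb π).ker := hy
    obtain ⟨u, hu, t, ht, rfl⟩ := hU.gen _ h1
    refine ⟨⟨t, ht⟩, Subtype.ext ?_⟩
    show ((t : Fbar π) : Cov U) = ((u * t : Fbar π) : Cov U)
    rw [QuotientGroup.mk_mul, (QuotientGroup.eq_one_iff u).2 hu, one_mul]

include hπ in
theorem exists_isCompl : ∃ U, IsCompl' π U := by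
  obtain ⟨U, h1, h2, h3⟩ := exists_complement π (pb π).ker (ker_pb_le_center π)
  exact ⟨U, h1, h2, fun x hx => h3 x hx⟩

include hπ in
/-- A complement contained in a given kernel. -/
theorem exists_isCompl_le {X : Type*} [Group X] {ξ : X →* Q} {φ : Fbar π →* X} (hφ : ξ.comp φ = pb π)
    (hst : Cfsg.IsStemExtension ξ) : ∃ U, IsCompl' π U ∧ U ≤ φ.ker := by
  have hle : φ.ker ≤ (pb π).ker := by
    intro x hx
    rw [MonoidHom.mem_ker] at hx ⊢
    rw [← hφ, MonoidHom.comp_apply, hx, map_one]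
  obtain ⟨U, h1, h2, h3⟩ := exists_complement π φ.ker (hle.trans (ker_pb_le_center π))
  refine ⟨U, ⟨h1.trans hle, h2, ?_⟩, h1⟩
  intro x hx
  have h4 : φ x ∈ ξ.ker := by
    rw [MonoidHom.mem_ker]
    have : ξ (φ x) = pb π x := congrArg (fun f => f x) hφ
    rw [this]
    exact hx
  rw [← image_TT_stem π hπ hφ hst] at h4
  obtain ⟨t, ht, hte⟩ := h4
  have h5 : x * t⁻¹ ∈ φ.ker := by
    rw [MonoidHom.mem_ker, map_mul, map_inv, hte]
    group
  obtain ⟨u, hu, t', ht', e⟩ := h3 _ h5
  refine ⟨u, hu, t' * t, mul_mem (mem_inf.2 ⟨hle (mem_inf.1 ht').1, (mem_inf.1 ht').2⟩) ht, ?_⟩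
  rw [← mul_assoc, ← e]
  group

include hπ in
/-- universal surjection from `T` onto a stem kernel -/
theorem exists_surj_TT {X : Type*} [Group X] {ξ : X →* Q} (hst : Cfsg.IsStemExtension ξ) :
    ∃ (φ : Fbar π →* X) (_ : ξ.comp φ = pb π) (f : TT π →* ξ.ker),
      Function.Surjective f ∧ ∀ t, (f t : X) = φ t := by
  obtain ⟨φ, hφ⟩ := exists_lift π ξ hst.1 hst.2.1
  have h1 := image_TT_stem π hπ hφ hst
  have hmem : ∀ t : TT π, φ t ∈ ξ.ker := by
    intro t
    rw [← h1]
    exact Subgroup.mem_map_of_mem _ t.2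
  refine ⟨φ, hφ, MonoidHom.codRestrict (φ.comp (TT π).subtype) ξ.ker hmem, ?_, fun t => rfl⟩
  rintro ⟨y, hy⟩
  rw [← h1] at hy
  obtain ⟨t, ht, rfl⟩ := hy
  exact ⟨⟨t, ht⟩, Subtype.ext rfl⟩

end Cover

section Main

variable {α Q : Type u} [Finite α] [Group Q] [Finite Q] {π : FreeGroup α →* Q}
  (hπ : Function.Surjective π)

include hπ in
/-- `T` is the Schur multiplier. -/
theorem hasSchurMultiplier_TT : Cfsg.HasSchurMultiplier Q (TT π) := by
  obtain ⟨U, hU⟩ := exists_isCompl hπ
  haveI := hU.normal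
  refine ⟨⟨Cov U, inferInstance, finite_cov hπ hU, covMap hU, stem_cov hπ hU, ⟨(kerEquiv hU).symm⟩⟩, ?_⟩
  intro Γ _ _ σ hσ
  obtain ⟨φ, -, f, hf, -⟩ := exists_surj_TT hπ hσ
  exact ⟨f, hf⟩

end Main

/-- canonical presentation -/
def canon (Q : Type u) [Group Q] : FreeGroup Q →* Q := FreeGroup.lift id

theorem canon_surj (Q : Type u) [Group Q] : Function.Surjective (canon Q) :=
  fun q => ⟨FreeGroup.of q, by simp [canon]⟩

/-- every finite group has a Schur multiplier -/
theorem exists_hasSchurMultiplier (Q : Type u) [Group Q] [Finite Q] :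
    Cfsg.HasSchurMultiplier Q (TT (canon Q)) := hasSchurMultiplier_TT (canon_surj Q)

theorem finite_of_hasSchurMultiplier {Q : Type u} [Group Q] {A : Type v} [CommGroup A]
    (hA : Cfsg.HasSchurMultiplier Q A) : Finite A := by
  obtain ⟨⟨Γ, _, _, σ, -, ⟨e⟩⟩, -⟩ := hA
  exact Finite.of_equiv _ e.toEquiv

/-- two multipliers are isomorphic. -/
theorem unique_multiplier {Q : Type u} [Group Q] {A : Type v} [CommGroup A] {B : Type w} [CommGroup B]
    (hA : Cfsg.HasSchurMultiplier Q A) (hB : Cfsg.HasSchurMultiplier Q B) : Nonempty (A ≃* B) := by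
  haveI := finite_of_hasSchurMultiplier hA
  haveI := finite_of_hasSchurMultiplier hB
  obtain ⟨⟨Γ₁, _, _, σ₁, h1, ⟨e₁⟩⟩, h2⟩ := hA
  obtain ⟨⟨Γ₂, _, _, σ₂, h3, ⟨e₂⟩⟩, h4⟩ := hB
  obtain ⟨f₁, hf₁⟩ := h2 Γ₂ σ₂ h3
  obtain ⟨f₂, hf₂⟩ := h4 Γ₁ σ₁ h1
  have hs₁ : Function.Surjective (e₂.toMonoidHom.comp f₁) := e₂.surjective.comp hf₁
  have hs₂ : Function.Surjective (e₁.toMonoidHom.comp f₂) := e₁.surjective.comp hf₂
  have hc1 := Nat.card_le_card_of_surjective _ hs₁
  have hc2 := Nat.card_le_card_of_surjective _ hs₂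
  have hcard : Nat.card A = Nat.card B := le_antisymm hc2 hc1
  exact ⟨MulEquiv.ofBijective _ ((Nat.bijective_iff_surjective_and_card _).2 ⟨hs₁, hcard⟩)⟩

/-- multipliers transport along isomorphisms -/
theorem hasSchurMultiplier_of_equiv {Q : Type u} [Group Q] {A : Type v} [CommGroup A] {B : Type w} [CommGroup B]
    (hA : Cfsg.HasSchurMultiplier Q A) (e : A ≃* B) : Cfsg.HasSchurMultiplier Q B := by
  obtain ⟨⟨Γ, i1, i2, σ, h1, ⟨e₁⟩⟩, h2⟩ := hA
  refine ⟨⟨Γ, i1, i2, σ, h1, ⟨e₁.trans e⟩⟩, ?_⟩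
  intro Γ₂ _ _ σ₂ h3
  obtain ⟨f, hf⟩ := h2 Γ₂ σ₂ h3
  exact ⟨f.comp e.symm.toMonoidHom, hf.comp e.symm.surjective⟩

/-- trivial multiplier implies trivial `T`. -/
theorem TT_trivial_of {Q : Type u} [Group Q] [Finite Q] (hQ : Cfsg.HasCyclicSchurMultiplier Q 1) :
    TT (canon Q) = ⊥ := by
  have h1 := exists_hasSchurMultiplier Q
  obtain ⟨e⟩ := unique_multiplier h1 hQ
  rw [eq_bot_iff]
  intro t ht
  have h2 : (⟨t, ht⟩ : TT (canon Q)) = 1 := by
    apply e.injective
    rw [map_one]
    exact Subsingleton.elim (α := Multiplicative (ZMod 1)) _ _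
  exact mem_bot.2 (congrArg Subtype.val h2)

/-- Ganea-type: with trivial multiplier a central extension meets the derived subgroup trivially. -/
theorem ker_inf_commutator_eq_bot {Q : Type u} [Group Q] [Finite Q]
    (hQ : Cfsg.HasCyclicSchurMultiplier Q 1) {X : Type*} [Group X] {ξ : X →* Q}
    (hs : Function.Surjective ξ) (hc : ξ.ker ≤ center X) : ξ.ker ⊓ commutator X = ⊥ := by
  obtain ⟨φ, hφ⟩ := exists_lift (canon Q) ξ hs hc
  rw [← image_TT (canon Q) (canon_surj Q) hφ hc hs, TT_trivial_of hQ, Subgroup.map_bot]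

end Cfsg.Agent.Lib.LdSM
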