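import Cfsg.Agent.Lib.LdSM7

set_option autoImplicit false
set_option linter.unusedSectionVars false
set_option linter.unusedVariables false

open Cfsg
open scoped commutatorElement
open Subgroup

namespace Cfsg.Agent.Lib.LdSM

universe u v

/-- A hom on a subgroup of index coprime to the exponent of the target extends. -/
theorem ext_coprime {L A : Type*} [CommGroup L] [CommGroup A] (V : Subgroup L) (c n : ℕ)
    (hcn : Nat.Coprime c n) (hc : ∀ y : L, y ^ c ∈ V) (hn : ∀ a : A, a ^ n = 1) (f : V →* A) :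
    ∃ lam : L →* A, ∀ v : V, lam v = f v := by
  have hb : (1 : ℤ) = c * Nat.gcdA c n + n * Nat.gcdB c n := by
    have := Nat.gcd_eq_gcd_ab c n
    rw [hcn.gcd_eq_one] at this
    exact_mod_cast this
  refine ⟨MonoidHom.mk' (fun y => f ⟨y ^ c, hc y⟩ ^ Nat.gcdA c n) ?_, ?_⟩
  · intro x y
    have : (⟨(x * y) ^ c, hc (x * y)⟩ : V) = ⟨x ^ c, hc x⟩ * ⟨y ^ c, hc y⟩ := by
      apply Subtype.ext
      simp [mul_pow]
    simp only [this, map_mul, mul_zpow]
  · intro v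
    show f ⟨(v : L) ^ c, hc v⟩ ^ Nat.gcdA c n = f v
    have h1 : (⟨(v : L) ^ c, hc v⟩ : V) = v ^ c := by
      apply Subtype.ext
      simp
    rw [h1, map_pow, ← zpow_natCast, ← zpow_mul]
    have h2 : (f v) ^ (c * Nat.gcdA c n : ℤ) = (f v) ^ (1 - n * Nat.gcdB c n : ℤ) := by
      congr 1
      linarith
    rw [h2, zpow_sub, zpow_one, zpow_mul, zpow_natCast, hn, one_zpow, inv_one, mul_one]

theorem not_surj_nsmul {D : Type*} [AddCommGroup D] [Finite D] (p : ℕ) [hp : Fact p.Prime]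
    (hd : p ∣ Nat.card D) : ¬ Function.Surjective (fun y : D => p • y) := by
  intro hs
  have hi := Finite.injective_iff_surjective.2 hs
  obtain ⟨x, hx⟩ := exists_prime_addOrderOf_dvd_card' p hd
  have h0 : p • x = p • (0 : D) := by
    rw [smul_zero, ← hx]
    exact addOrderOf_nsmul_eq_zero x
  have h1 : x = 0 := hi h0
  rw [h1, addOrderOf_zero] at hx
  exact hp.out.one_lt.ne hx

theorem card_eq_ker_mul {X Q : Type*} [Group X] [Finite X] [Group Q] {ξ : X →* Q}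
    (hs : Function.Surjective ξ) : Nat.card X = Nat.card ξ.ker * Nat.card Q := by
  rw [Subgroup.card_eq_card_quotient_mul_card_subgroup ξ.ker, mul_comm]
  congr 1
  exact Nat.card_congr (QuotientGroup.quotientKerEquivOfSurjective ξ hs).toEquiv

/-- A hom from a finite index sublattice which does not extend. -/
theorem exists_hom_no_ext {β : Type*} [Finite β] {C T : Type*} [AddCommGroup C] [Finite C]
    [AddCommGroup T] [Finite T] (ε : (β →₀ ℤ) →+ C) (hε : Function.Surjective ε) (p : ℕ) [hp : Fact p.Prime]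
    (hpC : p ∣ Nat.card C) (hpT : p ∣ Nat.card T) :
    ∃ g : LinearMap.ker ε.toIntLinearMap →ₗ[ℤ] T,
      ∀ lam : (β →₀ ℤ) →+ T, ∃ v : LinearMap.ker ε.toIntLinearMap, lam v ≠ g v := by
  classical
  have := Fintype.ofFinite β
  let E : (β →₀ ℤ) →ₗ[ℤ] C := ε.toIntLinearMap
  let W := LinearMap.ker E
  have hN : Nat.card C ≠ 0 := Nat.card_pos.ne'
  have hmem : ∀ l : β →₀ ℤ, Nat.card C • l ∈ W := by
    intro l
    rw [LinearMap.mem_ker, map_nsmul]
    exact card_nsmul_eq_zero'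
  have hrank : Module.finrank ℤ W = Module.finrank ℤ (β →₀ ℤ) := by
    apply le_antisymm (Submodule.finrank_le W)
    let f : (β →₀ ℤ) →ₗ[ℤ] W :=
      LinearMap.codRestrict _ (Nat.card C • LinearMap.id) hmem
    apply LinearMap.finrank_le_finrank_of_injective (f := f)
    intro a b h
    have h2 := congrArg Subtype.val h
    simp only [f, LinearMap.codRestrict_apply, LinearMap.smul_apply, LinearMap.id_apply] at h2
    exact smul_right_injective _ hN h2
  obtain ⟨bM, a, bN, snf⟩ := W.exists_smith_normal_form_of_rank_eq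
    (Finsupp.basisSingleOne (R := ℤ) (ι := β)) hrank
  by_cases h : ∃ i, (p : ℤ) ∣ a i
  · obtain ⟨i, k, hk⟩ := h
    have hT := not_surj_nsmul p hpT
    simp only [Function.Surjective, not_forall, not_exists] at hT
    obtain ⟨t, ht⟩ := hT
    refine ⟨bN.constr ℤ (fun j => if j = i then t else 0), ?_⟩
    intro lam
    by_contra hcon
    push_neg at hcon
    have h1 := hcon (bN i)
    rw [Module.Basis.constr_basis, if_pos rfl, snf, hk, mul_smul, map_zsmul, map_zsmul] at h1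
    apply ht (k • lam (bM i))
    rw [← h1, ← natCast_zsmul]
  · exfalso
    push_neg at h
    apply not_surj_nsmul p hpC
    -- every basis vector maps to a multiple of `p`
    let S : Submodule ℤ (β →₀ ℤ) :=
      (LinearMap.range ((p : ℤ) • (LinearMap.id : C →ₗ[ℤ] C))).comap E
    have hbS : ∀ i, bM i ∈ S := by
      intro i
      have hirr : Irreducible (p : ℤ) := (Nat.prime_iff_prime_int.mp hp.out).irreducible
      obtain ⟨x, y, hxy⟩ := (hirr.coprime_iff_not_dvd).2 (h i)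
      refine ⟨x • E (bM i), ?_⟩
      have h1 : E (bN i : β →₀ ℤ) = 0 := (bN i).2
      rw [snf, map_zsmul] at h1
      have h3 : (x * p + y * a i) • E (bM i) = (x * p) • E (bM i) := by
        rw [add_smul, mul_smul y, h1, smul_zero, add_zero]
      simp only [LinearMap.smul_apply, LinearMap.id_apply]
      rw [smul_smul, mul_comm, ← h3, hxy, one_smul]
    have hS : S = ⊤ := by
      rw [eq_top_iff, ← bM.span_eq, Submodule.span_le]
      rintro _ ⟨i, rfl⟩
      exact hbS i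
    intro c
    obtain ⟨l, rfl⟩ := hε c
    have hl : l ∈ S := by rw [hS]; trivial
    obtain ⟨y, hy⟩ := hl
    refine ⟨y, ?_⟩
    show p • y = E l
    simpa [natCast_zsmul] using hy

section Iso

variable {α Q : Type u} [Finite α] [Group Q] [Finite Q] {π : FreeGroup α →* Q}
  (hπ : Function.Surjective π)

theorem abF_surj : Function.Surjective (abF π) := by
  intro y
  obtain ⟨w, rfl⟩ := QuotientGroup.mk_surjective y
  exact ⟨(w : Fbar π), rfl⟩

theorem abF_eq_one_of_mem_TT {t : Fbar π} (ht : t ∈ TT π) : abF π t = 1 := by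
  have : t ∈ (abF π).ker := by
    rw [ker_abF]
    exact (mem_inf.1 ht).2
  exact this

include hπ in
/-- If the image of `x` in `Q` has image trivial in `Q^ab`, then `x` is, modulo `F̄'`, in `R̄`. -/
theorem exists_mem_ker_of_commutator (x : Fbar π) (hx : pb π x ∈ commutator Q) :
    ∃ d ∈ commutator (Fbar π), x * d⁻¹ ∈ (pb π).ker := by
  have h := map_commutator_of_surj (pb π) (pb_surj π hπ)
  rw [← h] at hx
  obtain ⟨d, hd, hde⟩ := hx
  refine ⟨d, hd, ?_⟩
  rw [MonoidHom.mem_ker, map_mul, map_inv, hde]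
  group

include hπ in
/-- Isomorphism of stem extensions in the coprime case. -/
theorem iso_of_coprime {X₁ X₂ : Type*} [Group X₁] [Finite X₁] [Group X₂] [Finite X₂]
    {ξ₁ : X₁ →* Q} {ξ₂ : X₂ →* Q} (hst₁ : IsStemExtension ξ₁) (hst₂ : IsStemExtension ξ₂)
    (hc₁ : Nat.card ξ₁.ker = Nat.card (TT π)) (hc₂ : Nat.card ξ₂.ker = Nat.card (TT π))
    (hcop : Nat.Coprime (Nat.card (Abelianization Q)) (Nat.card (TT π))) :
    ∃ e : X₁ ≃* X₂, ξ₂.comp e.toMonoidHom = ξ₁ := by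
  classical
  haveI := finite_TT π hπ
  obtain ⟨φ₁, hφ₁, f₁, hf₁, hfe₁⟩ := exists_surj_TT hπ hst₁
  obtain ⟨φ₂, hφ₂, -⟩ := exists_surj_TT hπ hst₂
  have hh₁ : ∀ x, ξ₁ (φ₁ x) = pb π x := fun x => congrArg (fun f => f x) hφ₁
  have hh₂ : ∀ x, ξ₂ (φ₂ x) = pb π x := fun x => congrArg (fun f => f x) hφ₂
  have hbij₁ := (Nat.bijective_iff_surjective_and_card f₁).2 ⟨hf₁, hc₁.symm⟩
  have hle : φ₁.ker ≤ (pb π).ker := by
    intro x hx
    rw [MonoidHom.mem_ker, ← hh₁, MonoidHom.mem_ker.1 hx, map_one]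
  -- injectivity of `ab` on `U₁`
  have hinj : φ₁.ker ⊓ commutator (Fbar π) = ⊥ := by
    rw [eq_bot_iff]
    intro x hx
    obtain ⟨h1, h2⟩ := mem_inf.1 hx
    have h4 : x ∈ TT π := mem_inf.2 ⟨hle h1, h2⟩
    have h5 : f₁ ⟨x, h4⟩ = 1 := by
      apply Subtype.ext
      rw [hfe₁]
      exact MonoidHom.mem_ker.1 h1
    have h6 := hbij₁.1 (h5.trans (map_one f₁).symm)
    exact mem_bot.2 (congrArg Subtype.val h6)
  let j : φ₁.ker →* Abelianization (FreeGroup α) := (abF π).comp φ₁.ker.subtype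
  have hj : Function.Injective j := by
    rw [injective_iff_map_eq_one]
    intro u hu
    have h1 : (u : Fbar π) ∈ (abF π).ker := hu
    rw [ker_abF] at h1
    have h2 : (u : Fbar π) ∈ φ₁.ker ⊓ commutator (Fbar π) := mem_inf.2 ⟨u.2, h1⟩
    rw [hinj, mem_bot] at h2
    exact Subtype.ext h2
  -- the group of values
  letI instZ : CommGroup ξ₂.ker :=
    { (inferInstance : Group ξ₂.ker) with
      mul_comm := fun x y => by
        apply Subtype.ext
        exact (mem_center_iff.1 (hst₂.2.1 x.2) y).symm }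
  have hcen : ∀ z : ξ₂.ker, ∀ g : X₂, g * (z : X₂) = z * g :=
    fun z g => mem_center_iff.1 (hst₂.2.1 z.2) g
  let φU : φ₁.ker →* ξ₂.ker := MonoidHom.codRestrict (φ₂.comp φ₁.ker.subtype) ξ₂.ker (by
    intro u
    rw [MonoidHom.mem_ker, MonoidHom.comp_apply, hh₂]
    exact hle u.2)
  let f₀ : j.range →* ξ₂.ker := φU.comp (MonoidHom.ofInjective hj).symm.toMonoidHom
  have hf₀ : ∀ u : φ₁.ker, f₀ ⟨j u, ⟨u, rfl⟩⟩ = φU u := by
    intro u
    show φU ((MonoidHom.ofInjective hj).symm _) = _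
    congr 1
    exact (MonoidHom.ofInjective hj).symm_apply_apply u
  -- powers land in the image
  have hpow : ∀ y : Abelianization (FreeGroup α), y ^ Nat.card (Abelianization Q) ∈ j.range := by
    intro y
    obtain ⟨x, rfl⟩ := abF_surj (π := π) y
    set c := Nat.card (Abelianization Q) with hcdef
    have h1 : (pb π (x ^ c)) ∈ commutator Q := by
      rw [← Abelianization.ker_of, MonoidHom.mem_ker, map_pow, map_pow, hcdef]
      exact pow_card_eq_one' (G := Abelianization Q)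
    obtain ⟨d, hd, hr⟩ := exists_mem_ker_of_commutator hπ _ h1
    have h2 : φ₁ (x ^ c * d⁻¹) ∈ ξ₁.ker := by
      rw [MonoidHom.mem_ker, hh₁]
      exact hr
    obtain ⟨t, ht⟩ := hf₁ ⟨_, h2⟩
    have ht' : φ₁ (t : Fbar π) = φ₁ (x ^ c * d⁻¹) := by
      have := congrArg Subtype.val ht
      rwa [hfe₁] at this
    have hu : x ^ c * d⁻¹ * (t : Fbar π)⁻¹ ∈ φ₁.ker := by
      rw [MonoidHom.mem_ker, map_mul, map_inv, ht']
      group
    refine ⟨⟨_, hu⟩, ?_⟩
    show abF π (x ^ c * d⁻¹ * (t : Fbar π)⁻¹) = _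
    have hd1 : abF π d = 1 := by
      have : d ∈ (abF π).ker := by rw [ker_abF]; exact hd
      exact this
    rw [map_mul, map_mul, map_inv, map_inv, hd1, abF_eq_one_of_mem_TT t.2, map_pow]
    simp
  have hexp : ∀ a : ξ₂.ker, a ^ Nat.card (TT π) = 1 := by
    intro a
    rw [← hc₂]
    exact pow_card_eq_one'
  obtain ⟨lam, hlam⟩ := ext_coprime j.range _ _ hcop hpow hexp f₀
  -- the modified lift
  let θ : Fbar π →* X₂ := MonoidHom.mk' (fun x => φ₂ x * ((lam (abF π x) : ξ₂.ker) : X₂)⁻¹) (by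
    intro x y
    rw [map_mul, map_mul, map_mul, Subgroup.coe_mul, mul_inv_rev]
    have h1 := hcen (lam (abF π y)) (φ₂ x * (lam (abF π x) : X₂)⁻¹)
    have h2 : ((lam (abF π y) : ξ₂.ker) : X₂)⁻¹ = ((lam (abF π y))⁻¹ : ξ₂.ker) := rfl
    have h3 := hcen (lam (abF π y))⁻¹ (φ₂ x)
    have h4 : ∀ a b c : X₂, a * b * c = a * (b * c) := mul_assoc
    rw [h2]
    simp only [mul_assoc]
    have h5 := hcen (lam (abF π y))⁻¹ (φ₂ y)
    have h6 := hcen (lam (abF π x))⁻¹ (φ₂ y)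
    have h7 : ((lam (abF π x) : ξ₂.ker) : X₂)⁻¹ = ((lam (abF π x))⁻¹ : ξ₂.ker) := rfl
    rw [h7, show (((lam (abF π y))⁻¹ : ξ₂.ker) : X₂) * (((lam (abF π x))⁻¹ : ξ₂.ker) : X₂) =
      (((lam (abF π x))⁻¹ : ξ₂.ker) : X₂) * (((lam (abF π y))⁻¹ : ξ₂.ker) : X₂) from hcen _ _,
      ← mul_assoc (φ₂ y), h6]
    simp only [mul_assoc])
  have hθ : ξ₂.comp θ = pb π := by
    apply MonoidHom.ext
    intro x
    show ξ₂ (φ₂ x * ((lam (abF π x) : ξ₂.ker) : X₂)⁻¹) = _
    rw [map_mul, map_inv, hh₂, MonoidHom.mem_ker.1 (lam (abF π x)).2]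
    simp
  have hker : φ₁.ker ≤ θ.ker := by
    intro u hu
    rw [MonoidHom.mem_ker]
    show φ₂ u * ((lam (abF π u) : ξ₂.ker) : X₂)⁻¹ = 1
    have h1 := hlam ⟨j ⟨u, hu⟩, ⟨⟨u, hu⟩, rfl⟩⟩
    have h2 : lam (abF π u) = φU ⟨u, hu⟩ := by
      rw [← hf₀ ⟨u, hu⟩, ← h1]
      rfl
    rw [h2]
    show φ₂ u * (φ₂ u)⁻¹ = 1
    group
  have hφ₁s := surj_of_stem π hπ hφ₁ hst₁
  have hθs := surj_of_stem π hπ hθ hst₂
  obtain ⟨ρ, hρ⟩ := liftSurj φ₁ hφ₁s θ hker
  have hρa : ∀ x, ρ (φ₁ x) = θ x := fun x => congrArg (fun f => f x) hρ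
  have hρs : Function.Surjective ρ := by
    intro y
    obtain ⟨x, rfl⟩ := hθs y
    exact ⟨φ₁ x, hρa x⟩
  have hξ : ξ₂.comp ρ = ξ₁ := by
    apply MonoidHom.ext
    intro y
    obtain ⟨x, rfl⟩ := hφ₁s y
    rw [MonoidHom.comp_apply, hρa, hh₁]
    exact congrArg (fun f => f x) hθ
  have hcards : Nat.card X₁ = Nat.card X₂ := by
    rw [card_eq_ker_mul hst₁.1, card_eq_ker_mul hst₂.1, hc₁, hc₂]
  exact ⟨MulEquiv.ofBijective ρ ((Nat.bijective_iff_surjective_and_card ρ).2 ⟨hρs, hcards⟩), hξ⟩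

theorem map_abF (x : Fbar π) : Abelianization.map π (abF π x) = Abelianization.of (pb π x) := by
  obtain ⟨w, rfl⟩ := QuotientGroup.mk_surjective x
  exact Abelianization.map_of π w

include hπ in
/-- Coprimality from isomorphism of all covers. -/
theorem coprime_of_iso
    (H : ∀ (U₁ U₂ : Subgroup (Fbar π)) (h₁ : IsCompl' π U₁) (h₂ : IsCompl' π U₂),
       haveI := h₁.normal; haveI := h₂.normal
       ∃ e : Cov U₁ ≃* Cov U₂, (covMap h₂).comp e.toMonoidHom = covMap h₁) :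
    Nat.Coprime (Nat.card (Abelianization Q)) (Nat.card (TT π)) := by
  classical
  haveI := finite_TT π hπ
  by_contra hcop
  obtain ⟨p, hp, hp1, hp2⟩ := Nat.Prime.not_coprime_iff_dvd.1 hcop
  haveI : Fact p.Prime := ⟨hp⟩
  let abL' : Additive (Abelianization (FreeGroup α)) ≃+ (α →₀ ℤ) := FreeAbelianGroup.equivFinsupp α
  let ε : (α →₀ ℤ) →+ Additive (Abelianization Q) :=
    (MonoidHom.toAdditive (Abelianization.map π)).comp abL'.symm.toAddMonoidHom
  have hεa : ∀ y : Abelianization (FreeGroup α), ε (abL' (Additive.ofMul y)) = Additive.ofMul (Abelianization.map π y) := by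
    intro y
    simp [ε]
  have hε : Function.Surjective ε := by
    intro c
    obtain ⟨c, rfl⟩ := Additive.ofMul.surjective c
    obtain ⟨q, rfl⟩ := QuotientGroup.mk_surjective c
    obtain ⟨w, rfl⟩ := hπ q
    refine ⟨abL' (Additive.ofMul (Abelianization.of w)), ?_⟩
    rw [hεa, Abelianization.map_of]
    rfl
  obtain ⟨g, hg⟩ := exists_hom_no_ext (T := Additive (TT π)) ε hε p hp1 hp2
  obtain ⟨U₁, hU₁⟩ := exists_isCompl hπ
  have hκ : ∀ u ∈ U₁, abL' (Additive.ofMul (abF π u)) ∈ LinearMap.ker ε.toIntLinearMap := by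
    intro u hu
    rw [LinearMap.mem_ker]
    show ε _ = 0
    rw [hεa, map_abF, MonoidHom.mem_ker.1 (hU₁.le hu), map_one]
    rfl
  let κ : U₁ → LinearMap.ker ε.toIntLinearMap := fun u => ⟨_, hκ u u.2⟩
  have hκmul : ∀ u v : U₁, κ (u * v) = κ u + κ v := by
    intro u v
    apply Subtype.ext
    show abL' (Additive.ofMul (abF π ((u : Fbar π) * v))) = abL' _ + abL' _
    rw [map_mul, ofMul_mul, map_add]
  let gU : U₁ →* TT π := MonoidHom.mk' (fun u => (g (κ u)).toMul) (by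
    intro u v
    rw [hκmul, map_add]
    rfl)
  have hgcen : ∀ (u : U₁) (x : Fbar π), x * (gU u : Fbar π) = gU u * x :=
    fun u x => mem_center_iff.1 (TT_le_center π (gU u).2) x
  let s : U₁ →* Fbar π := MonoidHom.mk' (fun u => (u : Fbar π) * (gU u : Fbar π)) (by
    intro u v
    rw [map_mul, Subgroup.coe_mul, Subgroup.coe_mul, mul_assoc, mul_assoc,
      ← mul_assoc (gU u : Fbar π) (v : Fbar π), ← hgcen u v]
    simp only [mul_assoc])
  let U₂ : Subgroup (Fbar π) := s.range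
  have hU₂ : IsCompl' π U₂ := by
    refine ⟨?_, ?_, ?_⟩
    · rintro _ ⟨u, rfl⟩
      exact mul_mem (hU₁.le u.2) (mem_inf.1 (gU u).2).1
    · rw [eq_bot_iff]
      intro x hx
      obtain ⟨⟨u, rfl⟩, hx2⟩ := mem_inf.1 hx
      have h1 : (u : Fbar π) ∈ commutator (Fbar π) := by
        have h2 : (u : Fbar π) = s u * (gU u : Fbar π)⁻¹ := by
          show (u : Fbar π) = (u : Fbar π) * (gU u : Fbar π) * (gU u : Fbar π)⁻¹
          group
        rw [h2]
        exact mul_mem hx2 (inv_mem (mem_inf.1 (gU u).2).2)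
      have h3 : (u : Fbar π) ∈ U₁ ⊓ commutator (Fbar π) := mem_inf.2 ⟨u.2, h1⟩
      rw [hU₁.inf, mem_bot] at h3
      have h4 : u = 1 := Subtype.ext h3
      rw [h4, map_one]
      exact one_mem _
    · intro x hx
      obtain ⟨u, hu, t, ht, rfl⟩ := hU₁.gen x hx
      refine ⟨s ⟨u, hu⟩, ⟨_, rfl⟩, (gU ⟨u, hu⟩ : Fbar π)⁻¹ * t, mul_mem (inv_mem (gU ⟨u, hu⟩).2) ht, ?_⟩
      show u * t = u * (gU ⟨u, hu⟩ : Fbar π) * ((gU ⟨u, hu⟩ : Fbar π)⁻¹ * t)
      group
  haveI := hU₁.normal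
  haveI := hU₂.normal
  obtain ⟨e, he⟩ := H U₁ U₂ hU₁ hU₂
  let mk₂ := QuotientGroup.mk' U₂
  let ψ : Fbar π →* Cov U₂ := e.toMonoidHom.comp (QuotientGroup.mk' U₁)
  have hψ : ∀ x, covMap hU₂ (ψ x) = pb π x := by
    intro x
    exact congrArg (fun f => f (x : Cov U₁)) he
  have hm : ∀ x, covMap hU₂ (mk₂ x) = pb π x := fun x => rfl
  have hk : ∀ x, (mk₂ x)⁻¹ * ψ x ∈ (covMap hU₂).ker := by
    intro x
    rw [MonoidHom.mem_ker, map_mul, map_inv, hψ, hm]
    group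
  have hcenU : ∀ (z : (covMap hU₂).ker) (y : Cov U₂), y * (z : Cov U₂) = z * y :=
    fun z y => mem_center_iff.1 ((stem_cov hπ hU₂).2.1 z.2) y
  let μ₀ : Fbar π →* (covMap hU₂).ker := MonoidHom.mk' (fun x => ⟨(mk₂ x)⁻¹ * ψ x, hk x⟩) (by
    intro x y
    apply Subtype.ext
    show (mk₂ (x * y))⁻¹ * ψ (x * y) = (mk₂ x)⁻¹ * ψ x * ((mk₂ y)⁻¹ * ψ y)
    have h9 : (mk₂ y)⁻¹ * ((mk₂ x)⁻¹ * ψ x) = (mk₂ x)⁻¹ * ψ x * (mk₂ y)⁻¹ :=
      hcenU ⟨(mk₂ x)⁻¹ * ψ x, hk x⟩ ((mk₂ y)⁻¹)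
    rw [map_mul, map_mul, mul_inv_rev, mul_assoc, ← mul_assoc (mk₂ x)⁻¹, ← mul_assoc (mk₂ y)⁻¹, h9, mul_assoc])
  let μ : Fbar π →* TT π := (kerEquiv hU₂).symm.toMonoidHom.comp μ₀
  have hμker : (abF π).ker ≤ μ.ker := by
    rw [ker_abF]
    exact Abelianization.commutator_subset_ker μ
  obtain ⟨lam₁, hlam₁⟩ := liftSurj (abF π) abF_surj μ hμker
  have hlam₁a : ∀ x, lam₁ (abF π x) = μ x := fun x => congrArg (fun f => f x) hlam₁
  have key : ∀ u : U₁, lam₁ (abF π u) = gU u := by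
    intro u
    rw [hlam₁a]
    show (kerEquiv hU₂).symm (μ₀ u) = gU u
    rw [MulEquiv.symm_apply_eq]
    apply Subtype.ext
    show (mk₂ u)⁻¹ * ψ u = mk₂ (gU u)
    have h1 : ψ u = 1 := by
      show e ((u : Fbar π) : Cov U₁) = 1
      rw [(QuotientGroup.eq_one_iff _).2 u.2, map_one]
    have h2 : mk₂ (s u) = 1 := (QuotientGroup.eq_one_iff _).2 ⟨u, rfl⟩
    have h3 : mk₂ u * mk₂ (gU u) = 1 := by
      rw [← map_mul]
      exact h2
    rw [h1, mul_one]
    exact inv_eq_of_mul_eq_one_right h3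
  let lam : (α →₀ ℤ) →+ Additive (TT π) := (MonoidHom.toAdditive lam₁).comp abL'.symm.toAddMonoidHom
  obtain ⟨v, hv⟩ := hg lam
  apply hv
  -- `v` comes from `U₁`
  have hy : Abelianization.map π (abL'.symm (v : α →₀ ℤ)).toMul = 1 := by
    have h1 : ε v = 0 := v.2
    exact h1
  obtain ⟨x, hx⟩ := abF_surj (π := π) (abL'.symm (v : α →₀ ℤ)).toMul
  have hcomm : pb π x ∈ commutator Q := by
    rw [← Abelianization.ker_of, MonoidHom.mem_ker, ← map_abF, hx, hy]
  obtain ⟨d, hd, hr⟩ := exists_mem_ker_of_commutator hπ x hcomm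
  obtain ⟨u, hu, t, ht, hdec⟩ := hU₁.gen _ hr
  have hau : abF π u = (abL'.symm (v : α →₀ ℤ)).toMul := by
    have hd1 : abF π d = 1 := by
      have : d ∈ (abF π).ker := by rw [ker_abF]; exact hd
      exact this
    have h1 := congrArg (abF π) hdec
    rw [map_mul, map_inv, hd1, inv_one, mul_one, map_mul, abF_eq_one_of_mem_TT ht, mul_one, hx] at h1
    exact h1.symm
  have hκv : κ ⟨u, hu⟩ = v := by
    apply Subtype.ext
    show abL' (Additive.ofMul (abF π u)) = v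
    rw [hau]
    exact abL'.apply_symm_apply _
  show Additive.ofMul (lam₁ (abL'.symm (v : α →₀ ℤ)).toMul) = _
  rw [← hau, key ⟨u, hu⟩]
  show Additive.ofMul ((g (κ ⟨u, hu⟩)).toMul) = _
  rw [hκv]
  rfl

end Iso

section Main

theorem covers_iso_iff {Q : Type u} [Group Q] [Finite Q] {A : Type v} [CommGroup A]
    (hA : HasSchurMultiplier Q A) :
    (∀ (Γ₁ Γ₂ : Type u) [Group Γ₁] [Finite Γ₁] [Group Γ₂] [Finite Γ₂] (σ₁ : Γ₁ →* Q) (σ₂ : Γ₂ →* Q),
      IsStemExtension σ₁ → IsStemExtension σ₂ → Nonempty (σ₁.ker ≃* A) → Nonempty (σ₂.ker ≃* A) →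
      ∃ e : Γ₁ ≃* Γ₂, σ₂.comp e.toMonoidHom = σ₁) ↔
    Nat.Coprime (Nat.card (Abelianization Q)) (Nat.card A) := by
  have hπ := canon_surj Q
  obtain ⟨e⟩ := unique_multiplier (exists_hasSchurMultiplier Q) hA
  have hcT : Nat.card (TT (canon Q)) = Nat.card A := Nat.card_congr e.toEquiv
  rw [← hcT]
  constructor
  · intro H
    apply coprime_of_iso hπ
    intro U₁ U₂ h₁ h₂
    haveI := h₁.normal
    haveI := h₂.normal
    haveI := finite_cov hπ h₁
    haveI := finite_cov hπ h₂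
    exact H (Cov U₁) (Cov U₂) (covMap h₁) (covMap h₂) (stem_cov hπ h₁) (stem_cov hπ h₂)
      ⟨(kerEquiv h₁).symm.trans e⟩ ⟨(kerEquiv h₂).symm.trans e⟩
  · intro hcop Γ₁ Γ₂ _ _ _ _ σ₁ σ₂ h₁ h₂ ⟨e₁⟩ ⟨e₂⟩
    exact iso_of_coprime hπ h₁ h₂ ((Nat.card_congr e₁.toEquiv).trans hcT.symm)
      ((Nat.card_congr e₂.toEquiv).trans hcT.symm) hcop

end Main

end Cfsg.Agent.Lib.LdSM
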