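import Mathlib
import Cfsg.Prelude.Def_KGroupFacts
import Cfsg.Agent.Lib.LdSM

/-! Consequences of the Hopf description. -/

set_option autoImplicit false

namespace Cfsg.Agent.Lib.LdSM

open scoped commutatorElement
open Subgroup

universe u v w

theorem map_commutator_of_surj {X Y : Type*} [Group X] [Group Y] (f : X →* Y) (hf : Function.Surjective f) :
    (commutator X).map f = commutator Y := by
  rw [commutator_def, commutator_def, Subgroup.map_commutator, Subgroup.map_top_of_surjective f hf]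

theorem perfect_eq {G : Type*} [Group G] (hG : Group.IsPerfect G) : commutator G = ⊤ := hG.commutator_eq_top

/-- S3957 -/
theorem exists_cover_over {Q : Type u} [Group Q] [Finite Q] {A : Type v} [CommGroup A]
    (hA : Cfsg.HasSchurMultiplier Q A) {Δ : Type u} [Group Δ] [Finite Δ] (τ : Δ →* Q)
    (hτ : Cfsg.IsStemExtension τ) :
    ∃ (Γ : Type u) (_ : Group Γ) (_ : Finite Γ) (σ : Γ →* Q), Cfsg.IsStemExtension σ ∧
      Nonempty (σ.ker ≃* A) ∧ ∃ β : Γ →* Δ, Function.Surjective β ∧ τ.comp β = σ := by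
  have hπ := canon_surj Q
  obtain ⟨φ, hφ⟩ := exists_lift (canon Q) τ hτ.1 hτ.2.1
  obtain ⟨U, hU, hle⟩ := exists_isCompl_le hπ hφ hτ
  haveI := hU.normal
  obtain ⟨e⟩ := unique_multiplier (exists_hasSchurMultiplier Q) hA
  refine ⟨Cov U, inferInstance, finite_cov hπ hU, covMap hU, stem_cov hπ hU,
    ⟨(kerEquiv hU).symm.trans e⟩, QuotientGroup.lift U φ hle, ?_, ?_⟩
  · intro d
    obtain ⟨x, rfl⟩ := surj_of_stem (canon Q) hπ hφ hτ d
    exact ⟨(x : Cov U), rfl⟩
  · apply MonoidHom.ext
    intro y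
    obtain ⟨x, rfl⟩ := QuotientGroup.mk_surjective y
    exact congrArg (fun f => f x) hφ

section Pullback

variable {Γ : Type*} {Δ : Type*} {Q : Type*} [Group Γ] [Group Δ] [Group Q] (σ : Γ →* Q) (τ : Δ →* Q)

/-- the pullback -/
def PB : Subgroup (Γ × Δ) := (σ.comp (MonoidHom.fst Γ Δ)).eqLocus (τ.comp (MonoidHom.snd Γ Δ))

/-- projection to the first factor -/
def pbFst : PB σ τ →* Γ := (MonoidHom.fst Γ Δ).comp (PB σ τ).subtype

/-- projection to the second factor -/
def pbSnd : PB σ τ →* Δ := (MonoidHom.snd Γ Δ).comp (PB σ τ).subtype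

theorem pb_eq (x : PB σ τ) : σ (pbFst σ τ x) = τ (pbSnd σ τ x) := x.2

theorem pbFst_surj (hτ : Function.Surjective τ) : Function.Surjective (pbFst σ τ) := by
  intro g
  obtain ⟨d, hd⟩ := hτ (σ g)
  exact ⟨⟨(g, d), hd.symm⟩, rfl⟩

theorem pbSnd_surj (hσ : Function.Surjective σ) : Function.Surjective (pbSnd σ τ) := by
  intro d
  obtain ⟨g, hg⟩ := hσ (τ d)
  exact ⟨⟨(g, d), hg⟩, rfl⟩

theorem pbFst_ker_central (hτc : τ.ker ≤ center Δ) : (pbFst σ τ).ker ≤ center (PB σ τ) := by
  intro x hx
  rw [mem_center_iff]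
  intro y
  have h1 : x.1.1 = 1 := hx
  have h2 : τ x.1.2 = 1 := by
    have := pb_eq σ τ x
    have h3 : pbFst σ τ x = 1 := hx
    rw [h3, map_one] at this
    exact this.symm
  have h4 := mem_center_iff.1 (hτc h2) y.1.2
  apply Subtype.ext
  apply Prod.ext
  · show y.1.1 * x.1.1 = x.1.1 * y.1.1
    rw [h1]; group
  · exact h4

end Pullback

/-- S3958 core -/
theorem surj_of_trivial_multiplier {Q : Type*} [Group Q] {Γ : Type u} [Group Γ] [Finite Γ]
    {Δ : Type*} [Group Δ] (σ : Γ →* Q) (hσ : Cfsg.IsStemExtension σ)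
    (hΓ : Cfsg.HasCyclicSchurMultiplier Γ 1) (τ : Δ →* Q) (hτ : Cfsg.IsStemExtension τ) :
    ∃ f : σ.ker →* τ.ker, Function.Surjective f := by
  classical
  have hbot := ker_inf_commutator_eq_bot hΓ (pbFst_surj σ τ hτ.1) (pbFst_ker_central σ τ hτ.2.1)
  have hmap1 := map_commutator_of_surj (pbFst σ τ) (pbFst_surj σ τ hτ.1)
  have hmap2 := map_commutator_of_surj (pbSnd σ τ) (pbSnd_surj σ τ hσ.1)
  have hex : ∀ y : σ.ker, ∃ w ∈ commutator (PB σ τ), pbFst σ τ w = y := by
    intro y
    have h1 := hσ.2.2 y.2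
    rw [← hmap1] at h1
    obtain ⟨w, hw, he⟩ := h1
    exact ⟨w, hw, he⟩
  choose w hw hwe using hex
  have huniq : ∀ x ∈ commutator (PB σ τ), ∀ y : σ.ker, pbFst σ τ x = y → x = w y := by
    intro x hx y hxy
    have h1 : x * (w y)⁻¹ ∈ (pbFst σ τ).ker ⊓ commutator (PB σ τ) := by
      refine mem_inf.2 ⟨?_, mul_mem hx (inv_mem (hw y))⟩
      rw [MonoidHom.mem_ker, map_mul, map_inv, hwe, hxy]; group
    rw [hbot, mem_bot] at h1
    exact mul_inv_eq_one.1 h1
  have hmem : ∀ y : σ.ker, pbSnd σ τ (w y) ∈ τ.ker := by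
    intro y
    rw [MonoidHom.mem_ker, ← pb_eq, hwe]
    exact y.2
  let f : σ.ker →* τ.ker :=
    { toFun := fun y => ⟨pbSnd σ τ (w y), hmem y⟩
      map_one' := by
        apply Subtype.ext
        have h1 := huniq 1 (one_mem _) 1 (by simp)
        show pbSnd σ τ (w 1) = 1
        rw [← h1, map_one]
      map_mul' := by
        intro y z
        apply Subtype.ext
        have h1 := huniq (w y * w z) (mul_mem (hw y) (hw z)) (y * z) (by
          rw [map_mul, hwe, hwe]; rfl)
        show pbSnd σ τ (w (y * z)) = pbSnd σ τ (w y) * pbSnd σ τ (w z)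
        rw [← h1, map_mul] }
  refine ⟨f, ?_⟩
  rintro ⟨z, hz⟩
  have h1 := hτ.2.2 hz
  rw [← hmap2] at h1
  obtain ⟨x, hx, hxe⟩ := h1
  have h2 : pbFst σ τ x ∈ σ.ker := by
    rw [MonoidHom.mem_ker, pb_eq]
    have : pbSnd σ τ x = z := hxe
    rw [this]
    exact hz
  refine ⟨⟨_, h2⟩, Subtype.ext ?_⟩
  show pbSnd σ τ (w ⟨_, h2⟩) = z
  rw [← huniq x hx ⟨_, h2⟩ rfl]
  exact hxe

theorem inv_mul_mem_center {X : Type*} [Group X] {u v : X} (h : u * v⁻¹ ∈ center X) : v⁻¹ * u ∈ center X := by
  have h4 := mem_center_iff.1 h v⁻¹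
  have e : v⁻¹ * u = u * v⁻¹ := by
    calc v⁻¹ * u = (v⁻¹ * (u * v⁻¹)) * v := by group
      _ = ((u * v⁻¹) * v⁻¹) * v := by rw [h4]
      _ = u * v⁻¹ := by group
  rw [e]; exact h

/-- two homomorphisms from a perfect group to a central extension agreeing modulo the kernel agree. -/
theorem eq_of_perfect {G X Q : Type*} [Group G] [Group X] [Group Q] (hG : Group.IsPerfect G) (ξ : X →* Q)
    (hc : ξ.ker ≤ center X) (η₁ η₂ : G →* X) (h : ξ.comp η₁ = ξ.comp η₂) : η₁ = η₂ := by
  have hcomm : ∀ g, η₁ g * (η₂ g)⁻¹ ∈ center X := by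
    intro g
    apply hc
    rw [MonoidHom.mem_ker, map_mul, map_inv]
    have : ξ (η₁ g) = ξ (η₂ g) := congrArg (fun f => f g) h
    rw [this]; group
  let K : Subgroup G := MonoidHom.eqLocus η₁ η₂
  have hK : commutator G ≤ K := by
    rw [commutator_def, Subgroup.commutator_le]
    intro x _ y _
    show η₁ ⁅x, y⁆ = η₂ ⁅x, y⁆
    rw [map_commutatorElement, map_commutatorElement]
    have e1 : η₁ x = η₂ x * ((η₂ x)⁻¹ * η₁ x) := by group
    have e2 : η₁ y = η₂ y * ((η₂ y)⁻¹ * η₁ y) := by group
    have c1 : (η₂ x)⁻¹ * η₁ x ∈ center X := inv_mul_mem_center (hcomm x)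
    have c2 : (η₂ y)⁻¹ * η₁ y ∈ center X := inv_mul_mem_center (hcomm y)
    rw [e1, e2, commutatorElement_mul_central_left _ _ _ c1, commutatorElement_mul_central_right _ _ _ c2]
  have hP : commutator G = ⊤ := perfect_eq hG
  rw [hP] at hK
  apply MonoidHom.ext
  intro g
  exact hK (mem_top g)

/-- S3961 -/
theorem perfect_universal_iff {G : Type u} {Q : Type v} [Group G] [Group Q] [Finite G]
    (hG : Group.IsPerfect G) (π : G →* Q) (hπ : Function.Surjective π) (hker : π.ker ≤ center G) :
    (∀ (X : Type u) [Group X] (ξ : X →* Q), Function.Surjective ξ → ξ.ker ≤ center X →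
      ∃ η : G →* X, ξ.comp η = π) ↔ Cfsg.HasCyclicSchurMultiplier G 1 := by
  constructor
  · intro huniv
    refine ⟨⟨G, inferInstance, inferInstance, MonoidHom.id G, ?_, ?_⟩, ?_⟩
    · exact ⟨Function.surjective_id, fun x hx => by
        have : x = 1 := hx
        rw [this]; exact one_mem _, fun x hx => by
        have : x = 1 := hx
        rw [this]; exact one_mem _⟩
    · refine ⟨{ toFun := fun _ => 1, invFun := fun _ => 1, left_inv := ?_, right_inv := ?_, map_mul' := ?_ }⟩
      · rintro ⟨x, hx⟩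
        exact Subtype.ext (show 1 = x from (show x = 1 from hx).symm)
      · intro x
        exact Subsingleton.elim (α := Multiplicative (ZMod 1)) _ _
      · intro x y
        exact Subsingleton.elim (α := Multiplicative (ZMod 1)) _ _
    · intro Γ _ _ σ hσ
      -- `Γ` is perfect
      have hΓ : commutator Γ = ⊤ := by
        rw [eq_top_iff]
        intro g _
        have h1 : σ g ∈ commutator G := by
          rw [perfect_eq hG]; exact mem_top _
        rw [← map_commutator_of_surj σ hσ.1] at h1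
        obtain ⟨x, hx, hxe⟩ := h1
        have h2 : x⁻¹ * g ∈ σ.ker := by
          rw [MonoidHom.mem_ker, map_mul, map_inv, hxe]; group
        have h3 := mul_mem hx (hσ.2.2 h2)
        simpa using h3
      have hΓ' : Group.IsPerfect Γ := ⟨hΓ⟩
      -- `π ∘ σ` is central
      have hcentral : (π.comp σ).ker ≤ center Γ := by
        intro x hx
        have hx1 : σ x ∈ center G := hker hx
        -- conjugation by `x` is a central map
        let c : Γ →* Γ := MonoidHom.id Γ
        have h1 : ∀ y, x * y * x⁻¹ * y⁻¹ ∈ center Γ := by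
          intro y
          apply hσ.2.1
          rw [MonoidHom.mem_ker, map_mul, map_mul, map_mul, map_inv, map_inv,
            ← mem_center_iff.1 hx1 (σ y)]
          group
        let cx : Γ →* Γ := (MulAut.conj x).toMonoidHom
        have h2 : cx = MonoidHom.id Γ := by
          apply eq_of_perfect hΓ' σ hσ.2.1
          apply MonoidHom.ext
          intro y
          show σ (x * y * x⁻¹) = σ y
          rw [map_mul, map_mul, map_inv, ← mem_center_iff.1 hx1 (σ y)]
          group
        rw [mem_center_iff]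
        intro y
        have h3 : x * y * x⁻¹ = y := congrArg (fun f => f y) h2
        calc y * x = x * y * x⁻¹ * x := by rw [h3]
          _ = x * y := by group
      obtain ⟨η, hη⟩ := huniv Γ (π.comp σ) (hπ.comp hσ.1) hcentral
      have h1 : σ.comp η = MonoidHom.id G := by
        apply eq_of_perfect hG π hker
        rw [← MonoidHom.comp_assoc]
        rw [hη]
        rfl
      have h1' : ∀ g, σ (η g) = g := fun g => congrArg (fun f => f g) h1
      have hsurj : Function.Surjective η := by
        intro g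
        have h2 : g ∈ commutator Γ := by rw [hΓ]; exact mem_top _
        have h3 : commutator Γ ≤ η.range := by
          rw [_root_.commutator_def, Subgroup.commutator_le]
          intro x _ y _
          have h4 : x = η (σ x) * ((η (σ x))⁻¹ * x) := by group
          have h5 : y = η (σ y) * ((η (σ y))⁻¹ * y) := by group
          have c1 : (η (σ x))⁻¹ * x ∈ center Γ := by
            apply hσ.2.1
            rw [MonoidHom.mem_ker, map_mul, map_inv, h1']; group
          have c2 : (η (σ y))⁻¹ * y ∈ center Γ := by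
            apply hσ.2.1
            rw [MonoidHom.mem_ker, map_mul, map_inv, h1']; group
          rw [h4, h5, commutatorElement_mul_central_left _ _ _ c1,
            commutatorElement_mul_central_right _ _ _ c2, ← map_commutatorElement]
          exact ⟨_, rfl⟩
        exact h3 h2
      refine ⟨1, ?_⟩
      rintro ⟨z, hz⟩
      refine ⟨1, Subtype.ext ?_⟩
      obtain ⟨g, rfl⟩ := hsurj z
      have h6 : g = 1 := by
        rw [← h1' g]; exact hz
      simp [h6]
  · intro hmult X _ ξ hξ hξc
    -- pullback over `Q`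
    have hbot := ker_inf_commutator_eq_bot hmult (pbFst_surj π ξ hξ) (pbFst_ker_central π ξ hξc)
    have hmap1 := map_commutator_of_surj (pbFst π ξ) (pbFst_surj π ξ hξ)
    rw [perfect_eq hG] at hmap1
    have hex : ∀ y : G, ∃ w ∈ commutator (PB π ξ), pbFst π ξ w = y := by
      intro y
      have h1 : y ∈ (commutator (PB π ξ)).map (pbFst π ξ) := by
        rw [hmap1]; exact mem_top y
      obtain ⟨w, hw, he⟩ := h1
      exact ⟨w, hw, he⟩
    choose w hw hwe using hex
    have huniq : ∀ x ∈ commutator (PB π ξ), ∀ y : G, pbFst π ξ x = y → x = w y := by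
      intro x hx y hxy
      have h1 : x * (w y)⁻¹ ∈ (pbFst π ξ).ker ⊓ commutator (PB π ξ) := by
        refine mem_inf.2 ⟨?_, mul_mem hx (inv_mem (hw y))⟩
        rw [MonoidHom.mem_ker, map_mul, map_inv, hwe, hxy]; group
      rw [hbot, mem_bot] at h1
      exact mul_inv_eq_one.1 h1
    refine ⟨{ toFun := fun y => pbSnd π ξ (w y), map_one' := ?_, map_mul' := ?_ }, ?_⟩
    · have h1 := huniq 1 (one_mem _) 1 (by simp)
      rw [← h1, map_one]
    · intro y z
      have h1 := huniq (w y * w z) (mul_mem (hw y) (hw z)) (y * z) (by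
        rw [map_mul, hwe, hwe])
      rw [← h1, map_mul]
    · apply MonoidHom.ext
      intro y
      show ξ (pbSnd π ξ (w y)) = π y
      rw [← pb_eq, hwe]

end Cfsg.Agent.Lib.LdSM
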