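import Mathlib
import Cfsg.Prelude.Def_KGroupFacts
import Cfsg.Agent.Lib.LdSM2

/-! Universal central extension of a perfect group; lifting projective representations. -/

set_option autoImplicit false

namespace Cfsg.Agent.Lib.LdSM

open scoped commutatorElement
open Subgroup

universe u v w

/-- S3960 -/
theorem universal_central {Q : Type u} [Group Q] [Finite Q] (hQ : Group.IsPerfect Q) :
    ∃ (G : Type u) (_ : Group G) (_ : Finite G) (π : G →* Q), Group.IsPerfect G ∧
      Function.Surjective π ∧ π.ker ≤ Subgroup.center G ∧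
      ∀ (X : Type u) [Group X] (ξ : X →* Q), Function.Surjective ξ → ξ.ker ≤ Subgroup.center X →
        ∃! η : G →* X, ξ.comp η = π := by
  have hπ := canon_surj Q
  set π := canon Q
  have hpb := pb_surj π hπ
  have hmap := map_commutator_of_surj (pb π) hpb
  rw [perfect_eq hQ] at hmap
  have hlift : ∀ x : Fbar π, ∃ x' ∈ commutator (Fbar π), x'⁻¹ * x ∈ center (Fbar π) := by
    intro x
    have h1 : pb π x ∈ (commutator (Fbar π)).map (pb π) := by
      rw [hmap]; exact mem_top _
    obtain ⟨x', hx', he⟩ := h1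
    refine ⟨x', hx', ker_pb_le_center π ?_⟩
    rw [MonoidHom.mem_ker, map_mul, map_inv, he]
    group
  have hperf : Group.IsPerfect (commutator (Fbar π)) := by
    rw [Subgroup.isPerfect_iff]
    apply le_antisymm
    · exact Subgroup.commutator_le_self _
    · conv_lhs => rw [_root_.commutator_def]
      rw [Subgroup.commutator_le]
      intro x _ y _
      obtain ⟨x', hx', h1⟩ := hlift x
      obtain ⟨y', hy', h2⟩ := hlift y
      have e1 : x = x' * (x'⁻¹ * x) := by group
      have e2 : y = y' * (y'⁻¹ * y) := by group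
      rw [e1, e2, commutatorElement_mul_central_left _ _ _ h1,
        commutatorElement_mul_central_right _ _ _ h2]
      exact Subgroup.commutator_mem_commutator hx' hy'
  haveI := finite_commutator_Fbar π hπ
  refine ⟨commutator (Fbar π), inferInstance, inferInstance, (pb π).comp (commutator (Fbar π)).subtype,
    hperf, ?_, ?_, ?_⟩
  · intro q
    have h1 : q ∈ (commutator (Fbar π)).map (pb π) := by
      rw [hmap]; exact mem_top _
    obtain ⟨x, hx, he⟩ := h1
    exact ⟨⟨x, hx⟩, he⟩
  · intro x hx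
    have h1 : (x : Fbar π) ∈ (pb π).ker := hx
    rw [mem_center_iff]
    intro y
    apply Subtype.ext
    exact mem_center_iff.1 (ker_pb_le_center π h1) y.1
  · intro X _ ξ hξ hξc
    obtain ⟨φ, hφ⟩ := exists_lift π ξ hξ hξc
    refine ⟨φ.comp (commutator (Fbar π)).subtype, ?_, ?_⟩
    · show ξ.comp (φ.comp (commutator (Fbar π)).subtype) = _
      rw [← MonoidHom.comp_assoc, hφ]
    · intro η hη
      apply eq_of_perfect hperf ξ hξc
      rw [hη, ← MonoidHom.comp_assoc, hφ]

theorem liftSurj {A B C : Type*} [Group A] [Group B] [Group C] (f : A →* B) (hf : Function.Surjective f)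
    (g : A →* C) (h : f.ker ≤ g.ker) : ∃ ρ : B →* C, ρ.comp f = g :=
  ⟨(f.liftOfRightInverse (Function.surjInv hf) (Function.rightInverse_surjInv hf)) ⟨g, h⟩,
    MonoidHom.liftOfRightInverse_comp _ _ _ _⟩

/-- Lifting along a stem extension with kernel embedded, into a central extension with divisible kernel. -/
theorem lift_divisible {α : Type*} [Finite α] {Q : Type*} [Group Q] {π : FreeGroup α →* Q}
    (hπ : Function.Surjective π) {Γ : Type*} [Group Γ] {σ : Γ →* Q} (hσ : Cfsg.IsStemExtension σ)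
    {ψ : Fbar π →* Γ} (hψ : σ.comp ψ = pb π) (hinj : ψ.ker ⊓ commutator (Fbar π) = ⊥)
    {E : Type*} [Group E] (D : Subgroup E) [D.Normal] (hDc : D ≤ center E)
    (hdiv : ∀ z ∈ D, ∀ n : ℕ, n ≠ 0 → ∃ y ∈ D, y ^ n = z) (γ : Q →* E ⧸ D) :
    ∃ ρ : Γ →* E, (QuotientGroup.mk' D).comp ρ = γ.comp σ := by
  classical
  -- lift from the free group
  have hmk : Function.Surjective (QuotientGroup.mk' D) := QuotientGroup.mk'_surjective D
  choose s hs using fun a : α => hmk (γ (π (FreeGroup.of a)))
  let φ₀ : FreeGroup α →* E := FreeGroup.lift s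
  have h1 : (QuotientGroup.mk' D).comp φ₀ = γ.comp π := by
    apply FreeGroup.ext_hom
    intro a
    have := hs a
    simpa [φ₀] using this
  have h1' : ∀ w, (QuotientGroup.mk' D) (φ₀ w) = γ (π w) := fun w => congrArg (fun f => f w) h1
  have h2 : CC π ≤ φ₀.ker := by
    unfold CC
    rw [Subgroup.commutator_le]
    intro r hr w _
    rw [MonoidHom.mem_ker, map_commutatorElement]
    have h3 : φ₀ r ∈ D := by
      rw [← QuotientGroup.ker_mk' D, MonoidHom.mem_ker, h1', MonoidHom.mem_ker.1 hr, map_one]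
    exact (show Commute (φ₀ r) (φ₀ w) from (mem_center_iff.1 (hDc h3) _).symm).commutator_eq
  let φ : Fbar π →* E := QuotientGroup.lift _ φ₀ h2
  have hφ : ∀ x : Fbar π, (QuotientGroup.mk' D) (φ x) = γ (pb π x) := by
    intro x
    obtain ⟨w, rfl⟩ := QuotientGroup.mk_surjective x
    exact h1' w
  have hψ' : ∀ x, σ (ψ x) = pb π x := fun x => congrArg (fun f => f x) hψ
  have hKR : ψ.ker ≤ (pb π).ker := by
    intro x hx
    rw [MonoidHom.mem_ker] at hx ⊢
    rw [← hψ', hx, map_one]
  have hKD : ∀ x ∈ ψ.ker, φ x ∈ D := by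
    intro x hx
    rw [← QuotientGroup.ker_mk' D, MonoidHom.mem_ker, hφ, MonoidHom.mem_ker.1 (hKR hx), map_one]
  letI cD : CommGroup D :=
    { (inferInstance : Group D) with
      mul_comm := fun x y => by
        apply Subtype.ext
        exact (mem_center_iff.1 (hDc x.2) y).symm }
  letI cK : CommGroup ψ.ker :=
    { (inferInstance : Group ψ.ker) with
      mul_comm := fun x y => by
        apply Subtype.ext
        exact (mem_center_iff.1 (ker_pb_le_center π (hKR x.2)) y).symm }
  let g : ψ.ker →* D :=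
    { toFun := fun x => ⟨φ x.1, hKD x.1 x.2⟩
      map_one' := by apply Subtype.ext; exact map_one φ
      map_mul' := fun x y => by apply Subtype.ext; exact map_mul φ _ _ }
  let j : ψ.ker →* Abelianization (FreeGroup α) := (abF π).comp ψ.ker.subtype
  have hj : Function.Injective j := by
    rw [injective_iff_map_eq_one]
    intro x hx
    have h3 : (x : Fbar π) ∈ ψ.ker ⊓ commutator (Fbar π) :=
      mem_inf.2 ⟨x.2, by rw [← ker_abF]; exact hx⟩
    rw [hinj, mem_bot] at h3
    exact Subtype.ext h3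
  haveI hdivN : DivisibleBy (Additive D) ℕ := by
    apply divisibleByOfSMulRightSurj
    intro n hn z
    obtain ⟨y, hy, he⟩ := hdiv z.toMul.1 z.toMul.2 n hn
    refine ⟨Additive.ofMul ⟨y, hy⟩, ?_⟩
    show Additive.ofMul ((⟨y, hy⟩ : D) ^ n) = z
    apply Additive.toMul.injective
    apply Subtype.ext
    exact he
  haveI hdivZ : DivisibleBy (Additive D) ℤ := AddGroup.divisibleByIntOfDivisibleByNat _
  obtain ⟨h, hh⟩ := (Module.Baer.of_divisible (Additive D)).extension_property_addMonoidHom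
    (MonoidHom.toAdditive j) hj (MonoidHom.toAdditive g)
  have hh' : ∀ x : ψ.ker, (h (Additive.ofMul (j x))).toMul = g x := by
    intro x
    have := congrArg (fun f => f (Additive.ofMul x)) hh
    exact congrArg Additive.toMul this
  let lam : Fbar π →* D :=
    { toFun := fun x => (h (Additive.ofMul (abF π x))).toMul
      map_one' := by
        rw [map_one, ofMul_one, map_zero]; rfl
      map_mul' := fun x y => by
        rw [map_mul, ofMul_mul, map_add]; rfl }
  let φ₂ : Fbar π →* E :=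
    { toFun := fun x => φ x * ((lam x : D) : E)⁻¹
      map_one' := by
        rw [map_one, map_one]; simp
      map_mul' := fun x y => by
        rw [map_mul, map_mul]
        push_cast
        rw [mul_inv_rev]
        have hc : (((lam x : D) : E)⁻¹) ∈ center E := inv_mem (hDc (lam x).2)
        have := mem_center_iff.1 hc (φ y)
        calc φ x * φ y * (((lam y : D) : E)⁻¹ * ((lam x : D) : E)⁻¹)
            = φ x * φ y * ((lam y : D) : E)⁻¹ * ((lam x : D) : E)⁻¹ := by group
          _ = φ x * (φ y * ((lam y : D) : E)⁻¹ * ((lam x : D) : E)⁻¹) := by group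
          _ = φ x * (((lam x : D) : E)⁻¹ * (φ y * ((lam y : D) : E)⁻¹)) := by
              rw [(mem_center_iff.1 hc (φ y * ((lam y : D) : E)⁻¹))]
          _ = _ := by group }
  have hker : ψ.ker ≤ φ₂.ker := by
    intro x hx
    rw [MonoidHom.mem_ker]
    show φ x * ((lam x : D) : E)⁻¹ = 1
    have h3 : ((lam x : D) : E) = φ x := by
      have := hh' ⟨x, hx⟩
      exact congrArg Subtype.val this
    rw [h3, mul_inv_cancel]
  obtain ⟨ρ, hρ⟩ := liftSurj ψ (surj_of_stem π hπ hψ hσ) φ₂ hker
  refine ⟨ρ, ?_⟩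
  apply MonoidHom.ext
  intro y
  obtain ⟨x, rfl⟩ := surj_of_stem π hπ hψ hσ y
  have h3 : ρ (ψ x) = φ₂ x := congrArg (fun f => f x) hρ
  rw [MonoidHom.comp_apply, h3, MonoidHom.comp_apply, hψ']
  show (QuotientGroup.mk' D) (φ x * ((lam x : D) : E)⁻¹) = _
  rw [map_mul, hφ, map_inv]
  have h4 : (QuotientGroup.mk' D) ((lam x : D) : E) = 1 := by
    rw [← MonoidHom.mem_ker, QuotientGroup.ker_mk']
    exact (lam x).2
  rw [h4]
  simp

theorem center_GL_divisible (n : ℕ) :
    ∀ z ∈ center (GL (Fin n) ℂ), ∀ k : ℕ, k ≠ 0 → ∃ y ∈ center (GL (Fin n) ℂ), y ^ k = z := by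
  intro z hz k hk
  rw [Matrix.GeneralLinearGroup.center_eq_range_scalar] at hz ⊢
  obtain ⟨a, rfl⟩ := hz
  obtain ⟨b, hb⟩ := IsAlgClosed.exists_pow_nat_eq (a : ℂ) (Nat.pos_of_ne_zero hk)
  have hb0 : b ≠ 0 := by
    rintro rfl
    rw [zero_pow hk] at hb
    exact a.ne_zero hb.symm
  refine ⟨_, ⟨Units.mk0 b hb0, rfl⟩, ?_⟩
  rw [← map_pow]
  congr 1
  apply Units.ext
  simpa using hb

/-- S3955 -/
theorem lifts_of_cover {Q : Type*} [Group Q] [Finite Q] {A : Type*} [CommGroup A]
    (hA : Cfsg.HasSchurMultiplier Q A) {Γ : Type*} [Group Γ] [Finite Γ] (σ : Γ →* Q)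
    (hσ : Cfsg.IsStemExtension σ) (hk : Nonempty (σ.ker ≃* A)) (n : ℕ)
    (γ : Q →* (GL (Fin n) ℂ ⧸ Subgroup.center (GL (Fin n) ℂ))) :
    ∃ ρ : Γ →* GL (Fin n) ℂ, (QuotientGroup.mk' (Subgroup.center (GL (Fin n) ℂ))).comp ρ = γ.comp σ := by
  have hπ := canon_surj Q
  obtain ⟨ψ, hψ, f, hf, hfe⟩ := exists_surj_TT hπ hσ
  obtain ⟨e⟩ := unique_multiplier (exists_hasSchurMultiplier Q) hA
  obtain ⟨e'⟩ := hk
  haveI := finite_TT (canon Q) hπ
  have hcard : Nat.card (TT (canon Q)) = Nat.card σ.ker := by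
    rw [Nat.card_congr e.toEquiv, Nat.card_congr e'.toEquiv]
  have hbij := (Nat.bijective_iff_surjective_and_card f).2 ⟨hf, hcard⟩
  have hinj : ψ.ker ⊓ commutator (Fbar (canon Q)) = ⊥ := by
    rw [eq_bot_iff]
    intro x hx
    obtain ⟨h1, h2⟩ := mem_inf.1 hx
    have h3 : x ∈ (pb (canon Q)).ker := by
      rw [MonoidHom.mem_ker, ← (show ∀ x, σ (ψ x) = pb (canon Q) x from fun x => congrArg (fun f => f x) hψ),
        MonoidHom.mem_ker.1 h1, map_one]
    have h4 : x ∈ TT (canon Q) := mem_inf.2 ⟨h3, h2⟩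
    have h5 : f ⟨x, h4⟩ = 1 := by
      apply Subtype.ext
      rw [hfe]
      exact MonoidHom.mem_ker.1 h1
    have h6 := hbij.1 (h5.trans (map_one f).symm)
    exact mem_bot.2 (congrArg Subtype.val h6)
  exact lift_divisible hπ hσ hψ hinj _ (le_refl _) (center_GL_divisible n) γ

end Cfsg.Agent.Lib.LdSM
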