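import Mathlib
import Cfsg.Prelude.Def_KGroupFacts
import Cfsg.Agent.Lib.LdSM3

/-! Detecting the multiplier through projective representations. -/

set_option autoImplicit false

namespace Cfsg.Agent.Lib.LdSM

open scoped commutatorElement
open Subgroup

universe u v w

/-- A representation in which a central subgroup acts by a given character. -/
theorem exists_scalar_rep {Δ : Type*} [Group Δ] [Finite Δ] (K : Subgroup Δ) (hK : K ≤ center Δ)
    (χ : K →* ℂˣ) :
    ∃ (n : ℕ) (M : Δ →* GL (Fin n) ℂ), 0 < n ∧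
      ∀ k : K, ((M k : GL (Fin n) ℂ) : Matrix (Fin n) (Fin n) ℂ) = Matrix.scalar (Fin n) ((χ k : ℂˣ) : ℂ) := by
  classical
  let W : Submodule ℂ (Δ → ℂ) :=
    { carrier := {f | ∀ (k : K) (x : Δ), f (k * x) = (χ k : ℂ) * f x}
      add_mem' := by
        intro f g hf hg k x
        simp only [Pi.add_apply, hf k x, hg k x, mul_add]
      zero_mem' := by
        intro k x
        simp
      smul_mem' := by
        intro c f hf k x
        simp only [Pi.smul_apply, hf k x, smul_eq_mul]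
        ring }
  haveI : Finite Δ := inferInstance
  haveI : FiniteDimensional ℂ (Δ → ℂ) := by
    haveI := Fintype.ofFinite Δ
    infer_instance
  let R : Δ →* Module.End ℂ W :=
    { toFun := fun g =>
        { toFun := fun f => ⟨fun x => f.1 (x * g), fun k x => by
            have := f.2 k (x * g)
            simpa [mul_assoc] using this⟩
          map_add' := fun f h => rfl
          map_smul' := fun c f => rfl }
      map_one' := by
        ext f x
        simp
      map_mul' := by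
        intro g h
        ext f x
        simp [mul_assoc] }
  have hR : ∀ k : K, R k = ((χ k : ℂˣ) : ℂ) • LinearMap.id := by
    intro k
    ext f x
    show f.1 (x * k) = (χ k : ℂ) * f.1 x
    rw [← f.2 k x, (mem_center_iff.1 (hK k.2) x)]
  -- nonzero
  let f₀ : Δ → ℂ := fun x => if h : x ∈ K then ((χ ⟨x, h⟩ : ℂˣ) : ℂ) else 0
  have hf₀ : f₀ ∈ W := by
    intro k x
    by_cases hx : x ∈ K
    · have hkx : (k : Δ) * x ∈ K := K.mul_mem k.2 hx
      simp only [f₀, dif_pos hx, dif_pos hkx]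
      have : (⟨(k : Δ) * x, hkx⟩ : K) = k * ⟨x, hx⟩ := rfl
      rw [this, map_mul]
      rfl
    · have hkx : (k : Δ) * x ∉ K := fun h => hx (by simpa using K.mul_mem (K.inv_mem k.2) h)
      simp [f₀, dif_neg hx, dif_neg hkx]
  have hne : Nontrivial W := by
    refine ⟨⟨⟨f₀, hf₀⟩, 0, fun h => ?_⟩⟩
    have h1 := congrArg (fun f : W => f.1 1) h
    have h2 : (1 : Δ) ∈ K := one_mem _
    simp only [f₀, dif_pos h2] at h1
    exact (χ ⟨1, h2⟩).ne_zero h1
  let b := Module.finBasis ℂ W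
  let M₀ : Δ →* Matrix (Fin (Module.finrank ℂ W)) (Fin (Module.finrank ℂ W)) ℂ :=
    (LinearMap.toMatrixAlgEquiv b).toAlgHom.toRingHom.toMonoidHom.comp R
  refine ⟨Module.finrank ℂ W, MonoidHom.toHomUnits M₀, Module.finrank_pos, ?_⟩
  intro k
  show M₀ k = _
  show (LinearMap.toMatrixAlgEquiv b) (R k) = _
  rw [hR, map_smul, LinearMap.toMatrixAlgEquiv_id]
  ext i j
  simp [Matrix.scalar, Matrix.one_apply, Matrix.diagonal_apply]

/-- S3956 -/
theorem universal_of_lifts {Q : Type u} [Group Q] [Finite Q] {Γ : Type v} [Group Γ] [Finite Γ] (σ : Γ →* Q)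
    (hσ : Cfsg.IsStemExtension σ)
    (hlift : ∀ (n : ℕ) (γ : Q →* (GL (Fin n) ℂ ⧸ Subgroup.center (GL (Fin n) ℂ))),
      ∃ ρ : Γ →* GL (Fin n) ℂ, (QuotientGroup.mk' (Subgroup.center (GL (Fin n) ℂ))).comp ρ = γ.comp σ)
    (Δ : Type u) [Group Δ] [Finite Δ] (τ : Δ →* Q) (hτ : Cfsg.IsStemExtension τ) :
    ∃ π : σ.ker →* τ.ker, Function.Surjective π := by
  classical
  have hπ := canon_surj Q
  obtain ⟨ψ, hψ, f₁, hf₁, hfe₁⟩ := exists_surj_TT hπ hσ
  obtain ⟨θ, hθ, f₂, hf₂, hfe₂⟩ := exists_surj_TT hπ hτ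
  have hψ' : ∀ x, σ (ψ x) = pb (canon Q) x := fun x => congrArg (fun f => f x) hψ
  have hθ' : ∀ x, τ (θ x) = pb (canon Q) x := fun x => congrArg (fun f => f x) hθ
  have hker : f₁.ker ≤ f₂.ker := by
    intro t ht
    rw [MonoidHom.mem_ker] at ht ⊢
    by_contra hne
    letI cK : CommGroup τ.ker :=
      { (inferInstance : Group τ.ker) with
        mul_comm := fun x y => by
          apply Subtype.ext
          exact (mem_center_iff.1 (hτ.2.1 x.2) y).symm }
    obtain ⟨χ, hχ⟩ := CommGroup.exists_apply_ne_one_of_hasEnoughRootsOfUnity τ.ker ℂ hne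
    obtain ⟨n, M, hn, hM⟩ := exists_scalar_rep τ.ker hτ.2.1 χ
    have hcen : τ.ker ≤ ((QuotientGroup.mk' (center (GL (Fin n) ℂ))).comp M).ker := by
      intro k hk
      rw [MonoidHom.mem_ker, MonoidHom.comp_apply, ← MonoidHom.mem_ker, QuotientGroup.ker_mk',
        Matrix.GeneralLinearGroup.mem_center_iff_val_mem_range_scalar]
      exact ⟨_, (hM ⟨k, hk⟩).symm⟩
    obtain ⟨γ, hγ⟩ := liftSurj τ hτ.1 _ hcen
    obtain ⟨ρ, hρ⟩ := hlift n γ
    have hγ' : ∀ d, γ (τ d) = QuotientGroup.mk' _ (M d) := fun d => congrArg (fun f => f d) hγ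
    have hρ' : ∀ g, QuotientGroup.mk' _ (ρ g) = γ (σ g) := fun g => congrArg (fun f => f g) hρ
    -- agreement modulo the centre
    have hmod : ∀ x, (M (θ x))⁻¹ * ρ (ψ x) ∈ center (GL (Fin n) ℂ) := by
      intro x
      rw [← QuotientGroup.ker_mk' (center (GL (Fin n) ℂ)), MonoidHom.mem_ker, map_mul, map_inv, hρ', ← hγ',
        hψ', hθ']
      group
    have hcomm : commutator (Fbar (canon Q)) ≤ MonoidHom.eqLocus (M.comp θ) (ρ.comp ψ) := by
      rw [_root_.commutator_def, Subgroup.commutator_le]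
      intro x _ y _
      show M (θ ⁅x, y⁆) = ρ (ψ ⁅x, y⁆)
      simp only [map_commutatorElement]
      have e1 : ρ (ψ x) = M (θ x) * ((M (θ x))⁻¹ * ρ (ψ x)) := by group
      have e2 : ρ (ψ y) = M (θ y) * ((M (θ y))⁻¹ * ρ (ψ y)) := by group
      rw [e1, e2, commutatorElement_mul_central_left _ _ _ (hmod x),
        commutatorElement_mul_central_right _ _ _ (hmod y)]
    have h1 : M (θ t) = ρ (ψ t) := hcomm (mem_inf.1 t.2).2
    have h2 : ψ t = 1 := by
      rw [← hfe₁, ht]; rfl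
    rw [h2, map_one] at h1
    have h3 := hM (f₂ t)
    rw [hfe₂, h1] at h3
    have h4 : ((χ (f₂ t) : ℂˣ) : ℂ) = 1 := by
      have h5 := congrFun (congrFun h3 ⟨0, hn⟩) ⟨0, hn⟩
      simpa [Matrix.scalar, Matrix.one_apply] using h5.symm
    apply hχ
    apply Units.ext
    simpa using h4
  obtain ⟨ρ', hρ'⟩ := liftSurj f₁ hf₁ f₂ hker
  refine ⟨ρ', ?_⟩
  intro z
  obtain ⟨t, rfl⟩ := hf₂ z
  exact ⟨f₁ t, congrArg (fun f => f t) hρ'⟩

/-- The identity as a stem extension. -/
theorem stem_id (Q : Type*) [Group Q] : Cfsg.IsStemExtension (MonoidHom.id Q) := by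
  refine ⟨Function.surjective_id, ?_, ?_⟩
  · intro x hx
    have : x = 1 := hx
    rw [this]; exact one_mem _
  · intro x hx
    have : x = 1 := hx
    rw [this]; exact one_mem _

/-- S3978 -/
theorem trivial_iff_lifts {Q : Type*} [Group Q] [Finite Q] :
    Cfsg.HasCyclicSchurMultiplier Q 1 ↔ ∀ (n : ℕ) (γ : Q →* (GL (Fin n) ℂ ⧸ Subgroup.center (GL (Fin n) ℂ))),
      ∃ ρ : Q →* GL (Fin n) ℂ, (QuotientGroup.mk' (Subgroup.center (GL (Fin n) ℂ))).comp ρ = γ := by
  have hkid : Nonempty ((MonoidHom.id Q).ker ≃* Multiplicative (ZMod 1)) := by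
    refine ⟨{ toFun := fun _ => 1, invFun := fun _ => 1, left_inv := ?_, right_inv := ?_, map_mul' := ?_ }⟩
    · rintro ⟨x, hx⟩
      exact Subtype.ext (show 1 = x from (show x = 1 from hx).symm)
    · intro x
      exact Subsingleton.elim (α := Multiplicative (ZMod 1)) _ _
    · intro x y
      exact Subsingleton.elim (α := Multiplicative (ZMod 1)) _ _
  constructor
  · intro h n γ
    obtain ⟨ρ, hρ⟩ := lifts_of_cover h (MonoidHom.id Q) (stem_id Q) hkid n γ
    exact ⟨ρ, by simpa using hρ⟩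
  · intro h
    refine ⟨⟨Q, inferInstance, inferInstance, MonoidHom.id Q, stem_id Q, hkid⟩, ?_⟩
    intro Γ _ _ τ hτ
    obtain ⟨π, hπ⟩ := universal_of_lifts (MonoidHom.id Q) (stem_id Q) (fun n γ => by
      obtain ⟨ρ, hρ⟩ := h n γ
      exact ⟨ρ, by simpa using hρ⟩) Γ τ hτ
    refine ⟨1, ?_⟩
    intro z
    obtain ⟨x, hx⟩ := hπ z
    refine ⟨1, ?_⟩
    have : x = 1 := Subtype.ext x.2
    show (1 : τ.ker) = z
    rw [← hx, this, map_one]

end Cfsg.Agent.Lib.LdSM
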