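import Mathlib
import Cfsg.Prelude.Def_KGroupFacts
import Cfsg.Agent.Lib.LdSM4

/-! The multiplier of a two-generator abelian group. -/

set_option autoImplicit false

namespace Cfsg.Agent.Lib.LdSM

open scoped commutatorElement
open Subgroup

/-- Heisenberg group over `ZMod m × ZMod n`. -/
structure Heis (m n : ℕ) where
  a : ZMod m
  b : ZMod n
  c : ZMod n

namespace Heis

variable {m n : ℕ}

@[ext] theorem ext' {x y : Heis m n} (h1 : x.a = y.a) (h2 : x.b = y.b) (h3 : x.c = y.c) : x = y := by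
  cases x; cases y; simp_all

variable [hnm : Fact (n ∣ m)]

/-- the reduction -/
def cst : ZMod m →+* ZMod n := ZMod.castHom hnm.out (ZMod n)

instance : Mul (Heis m n) := ⟨fun x y => ⟨x.a + y.a, x.b + y.b, x.c + y.c + cst x.a * y.b⟩⟩
instance : One (Heis m n) := ⟨⟨0, 0, 0⟩⟩
instance : Inv (Heis m n) := ⟨fun x => ⟨-x.a, -x.b, -x.c + cst x.a * x.b⟩⟩

@[simp] theorem mul_a (x y : Heis m n) : (x * y).a = x.a + y.a := rfl
@[simp] theorem mul_b (x y : Heis m n) : (x * y).b = x.b + y.b := rfl
@[simp] theorem mul_c (x y : Heis m n) : (x * y).c = x.c + y.c + cst x.a * y.b := rfl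
@[simp] theorem one_a : (1 : Heis m n).a = 0 := rfl
@[simp] theorem one_b : (1 : Heis m n).b = 0 := rfl
@[simp] theorem one_c : (1 : Heis m n).c = 0 := rfl
@[simp] theorem inv_a (x : Heis m n) : (x⁻¹).a = -x.a := rfl
@[simp] theorem inv_b (x : Heis m n) : (x⁻¹).b = -x.b := rfl
@[simp] theorem inv_c (x : Heis m n) : (x⁻¹).c = -x.c + cst x.a * x.b := rfl

instance : Group (Heis m n) :=
  Group.ofLeftAxioms
    (by
      intro x y z
      ext
      · simp [add_assoc]
      · simp [add_assoc]
      · simp only [mul_c, mul_a, mul_b, map_add]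
        ring)
    (by
      intro x
      ext <;> simp)
    (by
      intro x
      ext
      · simp
      · simp
      · simp only [mul_c, inv_a, inv_c, map_neg, one_c]
        ring)

instance [NeZero m] [NeZero n] : Finite (Heis m n) := by
  have hinj : Function.Injective (fun x : Heis m n => (x.a, x.b, x.c)) := by
    intro x y h
    simp only [Prod.mk.injEq] at h
    exact ext' h.1 h.2.1 h.2.2
  exact Finite.of_injective _ hinj

/-- the projection -/
def proj : Heis m n →* Multiplicative (ZMod m × ZMod n) where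
  toFun x := Multiplicative.ofAdd (x.a, x.b)
  map_one' := rfl
  map_mul' _ _ := rfl

theorem stem_proj [NeZero n] : Cfsg.IsStemExtension (proj : Heis m n →* _) := by
  refine ⟨?_, ?_, ?_⟩
  · intro q
    exact ⟨⟨(Multiplicative.toAdd q).1, (Multiplicative.toAdd q).2, 0⟩, rfl⟩
  · intro x hx
    have h1 : (x.a, x.b) = 0 := hx
    have ha : x.a = 0 := congrArg Prod.fst h1
    have hb : x.b = 0 := congrArg Prod.snd h1
    rw [mem_center_iff]
    intro y
    ext
    · simp [ha]
    · simp [hb]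
    · simp [ha, hb]
      ring
  · intro x hx
    have h1 : (x.a, x.b) = 0 := hx
    have ha : x.a = 0 := congrArg Prod.fst h1
    have hb : x.b = 0 := congrArg Prod.snd h1
    let g : Heis m n := ⟨1, 0, 0⟩
    let h : Heis m n := ⟨0, 1, 0⟩
    have hw : ⁅g, h⁆ = (⟨0, 0, 1⟩ : Heis m n) := by
      rw [commutatorElement_def]
      ext
      · simp [g, h]
      · simp [g, h]
      · simp [g, h]
    have hpow : ∀ k : ℕ, ((⟨0, 0, 1⟩ : Heis m n)) ^ k = ⟨0, 0, (k : ZMod n)⟩ := by
      intro k
      induction k with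
      | zero =>
        rw [pow_zero]
        ext
        · simp
        · simp
        · simp
      | succ k ih =>
        rw [pow_succ, ih]
        ext
        · simp
        · simp
        · simp
    have h2 : x = ⁅g, h⁆ ^ (x.c.val) := by
      rw [hw, hpow, ZMod.natCast_zmod_val]
      exact ext' ha hb rfl
    rw [h2]
    exact pow_mem (Subgroup.commutator_mem_commutator (mem_top _) (mem_top _)) _

/-- the kernel -/
noncomputable def kerEquiv' [NeZero n] : (proj : Heis m n →* _).ker ≃* Multiplicative (ZMod n) :=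
  MulEquiv.ofBijective
    (MonoidHom.mk' (fun x => Multiplicative.ofAdd (x.1.c)) (by
      intro x y
      have h1 : (x.1.a, x.1.b) = 0 := x.2
      have ha : x.1.a = 0 := congrArg Prod.fst h1
      show Multiplicative.ofAdd (x.1.c + y.1.c + cst x.1.a * y.1.b) = _
      rw [ha, map_zero, zero_mul, add_zero]
      rfl)) (by
    constructor
    · intro x y hxy
      have h1 : (x.1.a, x.1.b) = 0 := x.2
      have h2 : (y.1.a, y.1.b) = 0 := y.2
      apply Subtype.ext
      refine ext' ?_ ?_ (Multiplicative.ofAdd.injective hxy)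
      · exact (congrArg Prod.fst h1).trans (congrArg Prod.fst h2).symm
      · exact (congrArg Prod.snd h1).trans (congrArg Prod.snd h2).symm
    · intro c
      exact ⟨⟨⟨0, 0, Multiplicative.toAdd c⟩, rfl⟩, rfl⟩)

end Heis

/-- the upper bound -/
theorem two_gen_bound {m n : ℕ} [NeZero m] [NeZero n] [hnm : Fact (n ∣ m)] {Γ : Type*} [Group Γ] [Finite Γ]
    (τ : Γ →* Multiplicative (ZMod m × ZMod n)) (hτ : Cfsg.IsStemExtension τ) :
    ∃ π : Multiplicative (ZMod n) →* τ.ker, Function.Surjective π := by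
  classical
  obtain ⟨x, hx⟩ := hτ.1 (Multiplicative.ofAdd (1, 0))
  obtain ⟨y, hy⟩ := hτ.1 (Multiplicative.ofAdd (0, 1))
  set w := ⁅x, y⁆ with hwdef
  have hcomm : ∀ g h : Γ, ⁅g, h⁆ ∈ τ.ker := by
    intro g h
    rw [MonoidHom.mem_ker, map_commutatorElement]
    exact (Commute.all _ _).commutator_eq
  have hwk : w ∈ τ.ker := hcomm x y
  have hwc : w ∈ center Γ := hτ.2.1 hwk
  have hwcomm : ∀ g, w * g = g * w := fun g => (mem_center_iff.1 hwc g).symm
  have hxy : x * y = w * (y * x) := by rw [hwdef, commutatorElement_def]; group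
  have hxpow : ∀ k : ℕ, x * y ^ k = w ^ k * (y ^ k * x) := by
    intro k
    induction k with
    | zero => simp
    | succ k ih =>
      calc x * y ^ (k + 1) = (x * y ^ k) * y := by rw [pow_succ]; group
        _ = w ^ k * (y ^ k * (x * y)) := by rw [ih]; group
        _ = w ^ k * (y ^ k * (w * (y * x))) := by rw [hxy]
        _ = w ^ k * (y ^ k * w * (y * x)) := by group
        _ = w ^ k * (w * y ^ k * (y * x)) := by rw [show y ^ k * w = w * y ^ k from (hwcomm _).symm]
        _ = w ^ (k + 1) * (y ^ (k + 1) * x) := by rw [pow_succ, pow_succ]; group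
  have hyn : y ^ n ∈ τ.ker := by
    rw [MonoidHom.mem_ker, map_pow, hy, ← ofAdd_nsmul]
    simp
  have hwn : w ^ n = 1 := by
    have h1 := hxpow n
    have h2 : x * y ^ n = y ^ n * x := mem_center_iff.1 (hτ.2.1 hyn) x
    rw [h2] at h1
    exact (mul_eq_right.1 h1.symm)
  -- generation
  have hdec : ∀ g, ∃ i j : ℕ, ∃ z ∈ center Γ, g = x ^ i * y ^ j * z := by
    intro g
    refine ⟨(Multiplicative.toAdd (τ g)).1.val, (Multiplicative.toAdd (τ g)).2.val, (x ^ (Multiplicative.toAdd (τ g)).1.val * y ^ (Multiplicative.toAdd (τ g)).2.val)⁻¹ * g, hτ.2.1 ?_, by group⟩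
    rw [MonoidHom.mem_ker, map_mul, map_inv, map_mul, map_pow, map_pow, hx, hy, ← ofAdd_nsmul, ← ofAdd_nsmul, ← ofAdd_add]
    have h1 : (Multiplicative.toAdd (τ g)).1.val • ((1 : ZMod m), (0 : ZMod n)) + (Multiplicative.toAdd (τ g)).2.val • ((0 : ZMod m), (1 : ZMod n)) = Multiplicative.toAdd (τ g) := by
      ext
      · simp
      · simp
    rw [h1]
    simp
  haveI hnormal : (zpowers w).Normal := by
    refine ⟨fun a ha g => ?_⟩
    obtain ⟨e, rfl⟩ := mem_zpowers_iff.1 ha
    have : w ^ e ∈ center Γ := zpow_mem hwc e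
    rw [mem_center_iff.1 this g, mul_inv_cancel_right]
    exact zpow_mem (mem_zpowers w) e
  have hcc : commutator Γ ≤ zpowers w := by
    rw [_root_.commutator_def, Subgroup.commutator_le]
    intro g _ h _
    obtain ⟨i, j, z, hz, rfl⟩ := hdec g
    obtain ⟨k, l, u, hu, rfl⟩ := hdec h
    rw [commutatorElement_mul_central_left _ _ _ hz, commutatorElement_mul_central_right _ _ _ hu]
    rw [← QuotientGroup.eq_one_iff]
    have hc : Commute (x : Γ ⧸ zpowers w) (y : Γ ⧸ zpowers w) := by
      have h1 : ((w : Γ) : Γ ⧸ zpowers w) = 1 := (QuotientGroup.eq_one_iff _).2 (mem_zpowers w)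
      have h2 := congrArg (QuotientGroup.mk (s := zpowers w)) hxy
      simp only [QuotientGroup.mk_mul, h1, one_mul] at h2
      exact h2
    simp only [commutatorElement_def, QuotientGroup.mk_mul, QuotientGroup.mk_inv, QuotientGroup.mk_pow]
    have h5 : Commute ((x : Γ ⧸ zpowers w) ^ i * (y : Γ ⧸ zpowers w) ^ j)
        ((x : Γ ⧸ zpowers w) ^ k * (y : Γ ⧸ zpowers w) ^ l) := by
      apply Commute.mul_left
      · exact ((Commute.refl _).pow_pow i k).mul_right (hc.pow_pow i l)
      · exact (hc.symm.pow_pow j k).mul_right ((Commute.refl _).pow_pow j l)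
    rw [h5.eq]
    group
  have hmemw : ∀ e : ℕ, w ^ e ∈ τ.ker := fun e => pow_mem hwk e
  refine ⟨MonoidHom.mk' (fun c => (⟨w ^ (Multiplicative.toAdd c).val, hmemw _⟩ : τ.ker)) ?_, ?_⟩
  · intro c d
    apply Subtype.ext
    show w ^ (Multiplicative.toAdd (c * d)).val = w ^ _ * w ^ _
    rw [← pow_add, toAdd_mul, ZMod.val_add, ← pow_eq_pow_mod _ hwn]
  · rintro ⟨k, hk⟩
    have h1 := hcc (hτ.2.2 hk)
    have hfin : IsOfFinOrder w := by
      rw [isOfFinOrder_iff_pow_eq_one]
      exact ⟨n, Nat.pos_of_ne_zero (NeZero.ne n), hwn⟩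
    rw [← mem_powers_iff_mem_zpowers] at h1
    obtain ⟨e, he⟩ := h1
    have he' : w ^ e = k := he
    refine ⟨Multiplicative.ofAdd (e : ZMod n), Subtype.ext ?_⟩
    show w ^ (Multiplicative.toAdd (Multiplicative.ofAdd (e : ZMod n))).val = k
    rw [toAdd_ofAdd, ZMod.val_natCast, ← pow_eq_pow_mod _ hwn, he']

/-- S3951 -/
theorem multiplier_two_gen (m n : ℕ) [NeZero m] [NeZero n] (hnm : n ∣ m) :
    Cfsg.HasCyclicSchurMultiplier (Multiplicative (ZMod m × ZMod n)) n := by
  haveI : Fact (n ∣ m) := ⟨hnm⟩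
  refine ⟨⟨Heis m n, inferInstance, inferInstance, Heis.proj, Heis.stem_proj, ⟨Heis.kerEquiv'⟩⟩, ?_⟩
  intro Γ _ _ σ hσ
  exact two_gen_bound σ hσ

end Cfsg.Agent.Lib.LdSM
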