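import Mathlib
import Cfsg.Prelude.Def_KGroupFacts
import Cfsg.Agent.Lib.LdSM4

/-! The multiplier of a direct product: construction. -/

set_option autoImplicit false

namespace Cfsg.Agent.Lib.LdSM

open scoped commutatorElement TensorProduct
open Subgroup

universe u v w

/-- the tensor factor -/
abbrev TP (Q₁ : Type u) (Q₂ : Type v) [Group Q₁] [Group Q₂] : Type (max u v) :=
  TensorProduct ℤ (Additive (Abelianization Q₁)) (Additive (Abelianization Q₂))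

theorem finite_TP (Q₁ : Type u) (Q₂ : Type v) [Group Q₁] [Group Q₂] [Finite Q₁] [Finite Q₂] :
    Finite (TP Q₁ Q₂) := by
  haveI : Module.Finite ℤ (Additive (Abelianization Q₁)) := Module.Finite.of_finite
  haveI : Module.Finite ℤ (Additive (Abelianization Q₂)) := Module.Finite.of_finite
  haveI : Module.Finite ℤ (TP Q₁ Q₂) := Module.Finite.tensorProduct ..
  apply Module.finite_of_fg_torsion
  intro t
  have hpos : (Nat.card (Additive (Abelianization Q₁)) : ℤ) ≠ 0 := by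
    exact_mod_cast (Nat.card_pos (α := Additive (Abelianization Q₁))).ne'
  refine ⟨⟨(Nat.card (Additive (Abelianization Q₁)) : ℤ), mem_nonZeroDivisors_of_ne_zero hpos⟩, ?_⟩
  show (Nat.card (Additive (Abelianization Q₁)) : ℤ) • t = 0
  induction t using TensorProduct.induction_on with
  | zero => simp
  | tmul a b =>
    rw [TensorProduct.smul_tmul']
    have : (Nat.card (Additive (Abelianization Q₁)) : ℤ) • a = 0 := by
      rw [natCast_zsmul]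
      exact card_nsmul_eq_zero'
    rw [this, TensorProduct.zero_tmul]
  | add x y hx hy =>
    rw [smul_add, hx, hy, add_zero]

section HP

variable {Γ₁ : Type u} {Γ₂ : Type v} {Q₁ : Type u} {Q₂ : Type v} [Group Γ₁] [Group Γ₂] [Group Q₁] [Group Q₂]
  (σ₁ : Γ₁ →* Q₁) (σ₂ : Γ₂ →* Q₂)

/-- the bilinear map -/
def BB (g : Γ₁) (h : Γ₂) : TP Q₁ Q₂ :=
  (Additive.ofMul (Abelianization.of (σ₁ g))) ⊗ₜ[ℤ] (Additive.ofMul (Abelianization.of (σ₂ h)))

theorem BB_mul_left (g g' : Γ₁) (h : Γ₂) : BB σ₁ σ₂ (g * g') h = BB σ₁ σ₂ g h + BB σ₁ σ₂ g' h := by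
  simp only [BB, map_mul, ofMul_mul, TensorProduct.add_tmul]

theorem BB_mul_right (g : Γ₁) (h h' : Γ₂) : BB σ₁ σ₂ g (h * h') = BB σ₁ σ₂ g h + BB σ₁ σ₂ g h' := by
  simp only [BB, map_mul, ofMul_mul, TensorProduct.tmul_add]

theorem BB_one_left (h : Γ₂) : BB σ₁ σ₂ 1 h = 0 := by
  simp only [BB, map_one, ofMul_one, TensorProduct.zero_tmul]

theorem BB_one_right (g : Γ₁) : BB σ₁ σ₂ g 1 = 0 := by
  simp only [BB, map_one, ofMul_one, TensorProduct.tmul_zero]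

theorem BB_ker_left {g : Γ₁} (hg : g ∈ σ₁.ker) (h : Γ₂) : BB σ₁ σ₂ g h = 0 := by
  simp only [BB, MonoidHom.mem_ker.1 hg, map_one, ofMul_one, TensorProduct.zero_tmul]

theorem BB_ker_right (g : Γ₁) {h : Γ₂} (hh : h ∈ σ₂.ker) : BB σ₁ σ₂ g h = 0 := by
  simp only [BB, MonoidHom.mem_ker.1 hh, map_one, ofMul_one, TensorProduct.tmul_zero]

/-- the Heisenberg-type extension -/
structure HP (σ₁ : Γ₁ →* Q₁) (σ₂ : Γ₂ →* Q₂) where
  x : Γ₁
  y : Γ₂
  t : TP Q₁ Q₂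

namespace HP

variable {σ₁ σ₂}

@[ext] theorem ext' {a b : HP σ₁ σ₂} (h1 : a.x = b.x) (h2 : a.y = b.y) (h3 : a.t = b.t) : a = b := by
  cases a; cases b; simp_all

instance : Mul (HP σ₁ σ₂) := ⟨fun a b => ⟨a.x * b.x, a.y * b.y, a.t + b.t + BB σ₁ σ₂ a.x b.y⟩⟩
instance : One (HP σ₁ σ₂) := ⟨⟨1, 1, 0⟩⟩
instance : Inv (HP σ₁ σ₂) := ⟨fun a => ⟨a.x⁻¹, a.y⁻¹, - a.t - BB σ₁ σ₂ a.x⁻¹ a.y⟩⟩

@[simp] theorem mul_x (a b : HP σ₁ σ₂) : (a * b).x = a.x * b.x := rfl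
@[simp] theorem mul_y (a b : HP σ₁ σ₂) : (a * b).y = a.y * b.y := rfl
@[simp] theorem mul_t (a b : HP σ₁ σ₂) : (a * b).t = a.t + b.t + BB σ₁ σ₂ a.x b.y := rfl
@[simp] theorem one_x : (1 : HP σ₁ σ₂).x = 1 := rfl
@[simp] theorem one_y : (1 : HP σ₁ σ₂).y = 1 := rfl
@[simp] theorem one_t : (1 : HP σ₁ σ₂).t = 0 := rfl
@[simp] theorem inv_x (a : HP σ₁ σ₂) : (a⁻¹).x = a.x⁻¹ := rfl
@[simp] theorem inv_y (a : HP σ₁ σ₂) : (a⁻¹).y = a.y⁻¹ := rfl
@[simp] theorem inv_t (a : HP σ₁ σ₂) : (a⁻¹).t = - a.t - BB σ₁ σ₂ a.x⁻¹ a.y := rfl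

instance : Group (HP σ₁ σ₂) :=
  Group.ofLeftAxioms
    (by
      intro a b c
      ext
      · simp [mul_assoc]
      · simp [mul_assoc]
      · simp only [mul_t, mul_x, mul_y, BB_mul_left, BB_mul_right]
        abel)
    (by
      intro a
      ext
      · simp
      · simp
      · simp [BB_one_left])
    (by
      intro a
      ext
      · simp
      · simp
      · simp only [mul_t, inv_x, inv_t, one_t]
        abel)

instance [Finite Γ₁] [Finite Γ₂] [Finite Q₁] [Finite Q₂] : Finite (HP σ₁ σ₂) := by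
  haveI := finite_TP Q₁ Q₂
  have hinj : Function.Injective (fun a : HP σ₁ σ₂ => (a.x, a.y, a.t)) := by
    intro a b h
    simp only [Prod.mk.injEq] at h
    exact ext' h.1 h.2.1 h.2.2
  exact Finite.of_injective _ hinj

variable (σ₁ σ₂)

/-- the projection -/
def proj : HP σ₁ σ₂ →* Q₁ × Q₂ where
  toFun a := (σ₁ a.x, σ₂ a.y)
  map_one' := by ext <;> simp
  map_mul' a b := by ext <;> simp

theorem mem_ker_proj (a : HP σ₁ σ₂) : a ∈ (proj σ₁ σ₂).ker ↔ a.x ∈ σ₁.ker ∧ a.y ∈ σ₂.ker := by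
  rw [MonoidHom.mem_ker, MonoidHom.mem_ker, MonoidHom.mem_ker]
  show (σ₁ a.x, σ₂ a.y) = 1 ↔ _
  rw [Prod.ext_iff]
  rfl

/-- first embedding -/
def i₁ : Γ₁ →* HP σ₁ σ₂ where
  toFun g := ⟨g, 1, 0⟩
  map_one' := rfl
  map_mul' g h := by
    ext
    · rfl
    · simp
    · simp [BB_one_right]

/-- second embedding -/
def i₂ : Γ₂ →* HP σ₁ σ₂ where
  toFun g := ⟨1, g, 0⟩
  map_one' := rfl
  map_mul' g h := by
    ext
    · simp
    · rfl
    · simp [BB_one_left]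

theorem comm_i (g : Γ₁) (h : Γ₂) : ⁅i₁ σ₁ σ₂ g, i₂ σ₁ σ₂ h⁆ = (⟨1, 1, BB σ₁ σ₂ g h⟩ : HP σ₁ σ₂) := by
  rw [commutatorElement_def]
  show (⟨g, 1, 0⟩ : HP σ₁ σ₂) * ⟨1, h, 0⟩ * (⟨g, 1, 0⟩)⁻¹ * (⟨1, h, 0⟩)⁻¹ = _
  ext
  · simp
  · simp
  · simp [BB_one_left, BB_one_right, BB_mul_left, BB_mul_right]

theorem stem_proj (h₁ : Cfsg.IsStemExtension σ₁) (h₂ : Cfsg.IsStemExtension σ₂) :
    Cfsg.IsStemExtension (proj σ₁ σ₂) := by
  refine ⟨?_, ?_, ?_⟩
  · rintro ⟨q₁, q₂⟩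
    obtain ⟨g, rfl⟩ := h₁.1 q₁
    obtain ⟨h, rfl⟩ := h₂.1 q₂
    exact ⟨⟨g, h, 0⟩, rfl⟩
  · intro a ha
    obtain ⟨ha1, ha2⟩ := (mem_ker_proj σ₁ σ₂ a).1 ha
    rw [mem_center_iff]
    intro b
    ext
    · exact mem_center_iff.1 (h₁.2.1 ha1) b.x
    · exact mem_center_iff.1 (h₂.2.1 ha2) b.y
    · simp only [mul_t, BB_ker_left σ₁ σ₂ ha1, BB_ker_right σ₁ σ₂ _ ha2]
      abel
  · intro a ha
    obtain ⟨ha1, ha2⟩ := (mem_ker_proj σ₁ σ₂ a).1 ha
    have e : a = i₁ σ₁ σ₂ a.x * i₂ σ₁ σ₂ a.y * ⟨1, 1, a.t⟩ := by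
      ext
      · simp [i₁, i₂]
      · simp [i₁, i₂]
      · simp [i₁, i₂, BB_one_right, BB_ker_left σ₁ σ₂ ha1]
    rw [e]
    refine mul_mem (mul_mem ?_ ?_) ?_
    · have h1 := h₁.2.2 ha1
      have h3 : (commutator Γ₁).map (i₁ σ₁ σ₂) ≤ commutator (HP σ₁ σ₂) := by
        rw [_root_.commutator_def, _root_.commutator_def, Subgroup.map_commutator]
        exact Subgroup.commutator_mono le_top le_top
      exact h3 (Subgroup.mem_map_of_mem _ h1)
    · have h1 := h₂.2.2 ha2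
      have h3 : (commutator Γ₂).map (i₂ σ₁ σ₂) ≤ commutator (HP σ₁ σ₂) := by
        rw [_root_.commutator_def, _root_.commutator_def, Subgroup.map_commutator]
        exact Subgroup.commutator_mono le_top le_top
      exact h3 (Subgroup.mem_map_of_mem _ h1)
    · -- the tensor part
      have key : ∀ t : TP Q₁ Q₂, (⟨1, 1, t⟩ : HP σ₁ σ₂) ∈ commutator (HP σ₁ σ₂) := by
        intro t
        induction t using TensorProduct.induction_on with
        | zero => exact one_mem _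
        | tmul p q =>
          obtain ⟨p', rfl⟩ := Additive.ofMul.surjective p
          obtain ⟨q', rfl⟩ := Additive.ofMul.surjective q
          obtain ⟨p₁, rfl⟩ := QuotientGroup.mk_surjective p'
          obtain ⟨q₁, rfl⟩ := QuotientGroup.mk_surjective q'
          obtain ⟨g, rfl⟩ := h₁.1 p₁
          obtain ⟨h, rfl⟩ := h₂.1 q₁
          have := comm_i σ₁ σ₂ g h
          have h5 : (⟨1, 1, BB σ₁ σ₂ g h⟩ : HP σ₁ σ₂) ∈ commutator (HP σ₁ σ₂) := by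
            rw [← this]
            exact Subgroup.commutator_mem_commutator (mem_top _) (mem_top _)
          exact h5
        | add x y hx hy =>
          have h6 : (⟨1, 1, x + y⟩ : HP σ₁ σ₂) = ⟨1, 1, x⟩ * ⟨1, 1, y⟩ := by
            ext
            · simp
            · simp
            · simp [BB_one_left]
          rw [h6]
          exact mul_mem hx hy
      exact key _

/-- kernel of the projection. -/
noncomputable def kerEquivHP : (proj σ₁ σ₂).ker ≃* σ₁.ker × σ₂.ker × Multiplicative (TP Q₁ Q₂) :=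
  MulEquiv.ofBijective
    (MonoidHom.mk' (fun a => (⟨a.1.x, ((mem_ker_proj σ₁ σ₂ a.1).1 a.2).1⟩, ⟨a.1.y, ((mem_ker_proj σ₁ σ₂ a.1).1 a.2).2⟩,
        Multiplicative.ofAdd a.1.t)) (by
      intro a b
      have h1 := ((mem_ker_proj σ₁ σ₂ a.1).1 a.2).1
      apply Prod.ext
      · rfl
      · apply Prod.ext
        · rfl
        · show Multiplicative.ofAdd (a.1.t + b.1.t + BB σ₁ σ₂ a.1.x b.1.y) = _
          rw [BB_ker_left σ₁ σ₂ h1, add_zero]
          rfl)) (by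
    constructor
    · intro a b hab
      have h1 := congrArg (fun p => p.1.1) hab
      have h2 := congrArg (fun p => p.2.1.1) hab
      have h3 := congrArg (fun p => p.2.2) hab
      apply Subtype.ext
      exact ext' h1 h2 (Multiplicative.ofAdd.injective h3)
    · rintro ⟨⟨g, hg⟩, ⟨h, hh⟩, t⟩
      exact ⟨⟨⟨g, h, Multiplicative.toAdd t⟩, (mem_ker_proj σ₁ σ₂ _).2 ⟨hg, hh⟩⟩, rfl⟩)

end HP

end HP

/-- first half of the product formula -/
theorem exists_stem_prod {Q₁ : Type u} {Q₂ : Type v} [Group Q₁] [Group Q₂] [Finite Q₁] [Finite Q₂]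
    {A B : Type w} [CommGroup A] [CommGroup B]
    (hA : Cfsg.HasSchurMultiplier Q₁ A) (hB : Cfsg.HasSchurMultiplier Q₂ B) :
    ∃ (Γ : Type (max u v)) (_ : Group Γ) (_ : Finite Γ) (σ : Γ →* Q₁ × Q₂), Cfsg.IsStemExtension σ ∧
      Nonempty (σ.ker ≃* (A × B × Multiplicative (TP Q₁ Q₂))) := by
  obtain ⟨⟨Γ₁, _, _, σ₁, h₁, ⟨e₁⟩⟩, -⟩ := hA
  obtain ⟨⟨Γ₂, _, _, σ₂, h₂, ⟨e₂⟩⟩, -⟩ := hB
  refine ⟨HP σ₁ σ₂, inferInstance, inferInstance, HP.proj σ₁ σ₂, HP.stem_proj σ₁ σ₂ h₁ h₂, ⟨?_⟩⟩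
  exact (HP.kerEquivHP σ₁ σ₂).trans (MulEquiv.prodCongr e₁ (MulEquiv.prodCongr e₂ (MulEquiv.refl _)))

end Cfsg.Agent.Lib.LdSM
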