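import Mathlib
import Cfsg.Prelude.Def_KGroupFacts
import Cfsg.Agent.Lib.LdSM6

/-! The multiplier of a direct product: the bound. -/

set_option autoImplicit false

namespace Cfsg.Agent.Lib.LdSM

open scoped commutatorElement TensorProduct
open Subgroup

universe u v w

theorem prod_bound {Q₁ : Type u} {Q₂ : Type v} [Group Q₁] [Group Q₂] [Finite Q₁] [Finite Q₂]
    {A B : Type w} [CommGroup A] [CommGroup B]
    (hA : Cfsg.HasSchurMultiplier Q₁ A) (hB : Cfsg.HasSchurMultiplier Q₂ B)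
    {Γ : Type*} [Group Γ] (τ : Γ →* Q₁ × Q₂) (hτ : Cfsg.IsStemExtension τ) :
    ∃ π : (A × B × Multiplicative (TP Q₁ Q₂)) →* τ.ker, Function.Surjective π := by
  classical
  obtain ⟨e₁⟩ := unique_multiplier hA (exists_hasSchurMultiplier Q₁)
  obtain ⟨e₂⟩ := unique_multiplier hB (exists_hasSchurMultiplier Q₂)
  let f₁ : Γ →* Q₁ := (MonoidHom.fst Q₁ Q₂).comp τ
  let f₂ : Γ →* Q₂ := (MonoidHom.snd Q₁ Q₂).comp τ
  let G₁ : Subgroup Γ := f₂.ker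
  let G₂ : Subgroup Γ := f₁.ker
  have hτe : ∀ x, τ x = (f₁ x, f₂ x) := fun x => rfl
  have hK : ∀ x, f₁ x = 1 → f₂ x = 1 → x ∈ τ.ker := by
    intro x h1 h2
    rw [MonoidHom.mem_ker, hτe, h1, h2]
    rfl
  have hK1 : ∀ x ∈ τ.ker, f₁ x = 1 := fun x hx => by
    show (τ x).1 = 1
    rw [MonoidHom.mem_ker.1 hx]; rfl
  have hK2 : ∀ x ∈ τ.ker, f₂ x = 1 := fun x hx => by
    show (τ x).2 = 1
    rw [MonoidHom.mem_ker.1 hx]; rfl
  letI cK : CommGroup τ.ker :=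
    { (inferInstance : Group τ.ker) with
      mul_comm := fun x y => by
        apply Subtype.ext
        exact (mem_center_iff.1 (hτ.2.1 x.2) y).symm }
  let ξ₁ : G₁ →* Q₁ := f₁.comp G₁.subtype
  let ξ₂ : G₂ →* Q₂ := f₂.comp G₂.subtype
  have hξ₁ : Function.Surjective ξ₁ := by
    intro q
    obtain ⟨x, hx⟩ := hτ.1 (q, 1)
    refine ⟨⟨x, ?_⟩, ?_⟩
    · show (τ x).2 = 1
      rw [hx]
    · show (τ x).1 = q
      rw [hx]
  have hξ₂ : Function.Surjective ξ₂ := by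
    intro q
    obtain ⟨x, hx⟩ := hτ.1 (1, q)
    refine ⟨⟨x, ?_⟩, ?_⟩
    · show (τ x).1 = 1
      rw [hx]
    · show (τ x).2 = q
      rw [hx]
  have hξ₁c : ξ₁.ker ≤ center G₁ := by
    intro x hx
    have h1 : (x : Γ) ∈ τ.ker := hK _ hx x.2
    rw [mem_center_iff]
    intro y
    apply Subtype.ext
    exact mem_center_iff.1 (hτ.2.1 h1) y.1
  have hξ₂c : ξ₂.ker ≤ center G₂ := by
    intro x hx
    have h1 : (x : Γ) ∈ τ.ker := hK _ x.2 hx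
    rw [mem_center_iff]
    intro y
    apply Subtype.ext
    exact mem_center_iff.1 (hτ.2.1 h1) y.1
  -- the two multiplier parts
  obtain ⟨φ₁, hφ₁⟩ := exists_lift (canon Q₁) ξ₁ hξ₁ hξ₁c
  obtain ⟨φ₂, hφ₂⟩ := exists_lift (canon Q₂) ξ₂ hξ₂ hξ₂c
  have him₁ := image_TT (canon Q₁) (canon_surj Q₁) hφ₁ hξ₁c hξ₁
  have him₂ := image_TT (canon Q₂) (canon_surj Q₂) hφ₂ hξ₂c hξ₂
  have hmem₁ : ∀ t : TT (canon Q₁), ((φ₁ t : G₁) : Γ) ∈ τ.ker := by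
    intro t
    have h1 : φ₁ t ∈ ξ₁.ker ⊓ commutator G₁ := by
      rw [← him₁]; exact mem_map_of_mem _ t.2
    exact hK _ (mem_inf.1 h1).1 (φ₁ t).2
  have hmem₂ : ∀ t : TT (canon Q₂), ((φ₂ t : G₂) : Γ) ∈ τ.ker := by
    intro t
    have h1 : φ₂ t ∈ ξ₂.ker ⊓ commutator G₂ := by
      rw [← him₂]; exact mem_map_of_mem _ t.2
    exact hK _ (φ₂ t).2 (mem_inf.1 h1).1
  let g₁ : TT (canon Q₁) →* τ.ker :=
    MonoidHom.codRestrict (G₁.subtype.comp (φ₁.comp (TT (canon Q₁)).subtype)) τ.ker hmem₁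
  let g₂ : TT (canon Q₂) →* τ.ker :=
    MonoidHom.codRestrict (G₂.subtype.comp (φ₂.comp (TT (canon Q₂)).subtype)) τ.ker hmem₂
  -- the pairing
  have hpair : ∀ (g : G₁) (h : G₂), ⁅(g : Γ), (h : Γ)⁆ ∈ τ.ker := by
    intro g h
    apply hK
    · rw [map_commutatorElement]
      have : f₁ (h : Γ) = 1 := h.2
      rw [this]
      exact (Commute.one_right _).commutator_eq
    · rw [map_commutatorElement]
      have : f₂ (g : Γ) = 1 := g.2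
      rw [this]
      exact (Commute.one_left _).commutator_eq
  have hcentral : ∀ (g : G₁) (h : G₂), ⁅(g : Γ), (h : Γ)⁆ ∈ center Γ := fun g h => hτ.2.1 (hpair g h)
  have hmulR : ∀ (g : G₁) (h h' : G₂), ⁅(g : Γ), ((h * h' : G₂) : Γ)⁆ = ⁅(g : Γ), (h : Γ)⁆ * ⁅(g : Γ), (h' : Γ)⁆ := by
    intro g h h'
    have hc := mem_center_iff.1 (hcentral g h') (h : Γ)
    push_cast
    simp only [commutatorElement_def] at hc ⊢
    calc (g : Γ) * (h * h') * (g : Γ)⁻¹ * ((h : Γ) * h')⁻¹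
        = (g : Γ) * h * (g : Γ)⁻¹ * (h : Γ)⁻¹ * ((h : Γ) * ((g : Γ) * h' * (g : Γ)⁻¹ * (h' : Γ)⁻¹) * (h : Γ)⁻¹) := by group
      _ = (g : Γ) * h * (g : Γ)⁻¹ * (h : Γ)⁻¹ * (((g : Γ) * h' * (g : Γ)⁻¹ * (h' : Γ)⁻¹) * (h : Γ) * (h : Γ)⁻¹) := by rw [hc]
      _ = _ := by group
  have hmulL : ∀ (g g' : G₁) (h : G₂), ⁅((g * g' : G₁) : Γ), (h : Γ)⁆ = ⁅(g : Γ), (h : Γ)⁆ * ⁅(g' : Γ), (h : Γ)⁆ := by
    intro g g' h
    have hc := mem_center_iff.1 (hcentral g' h) (g : Γ)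
    push_cast
    simp only [commutatorElement_def] at hc ⊢
    calc (g : Γ) * g' * h * ((g : Γ) * g')⁻¹ * (h : Γ)⁻¹
        = (g : Γ) * ((g' : Γ) * h * (g' : Γ)⁻¹ * (h : Γ)⁻¹) * (g : Γ)⁻¹ * ((g : Γ) * h * (g : Γ)⁻¹ * (h : Γ)⁻¹) := by group
      _ = ((g' : Γ) * h * (g' : Γ)⁻¹ * (h : Γ)⁻¹) * (g : Γ) * (g : Γ)⁻¹ * ((g : Γ) * h * (g : Γ)⁻¹ * (h : Γ)⁻¹) := by rw [hc]
      _ = ((g' : Γ) * h * (g' : Γ)⁻¹ * (h : Γ)⁻¹) * ((g : Γ) * h * (g : Γ)⁻¹ * (h : Γ)⁻¹) := by group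
      _ = ((g : Γ) * h * (g : Γ)⁻¹ * (h : Γ)⁻¹) * ((g' : Γ) * h * (g' : Γ)⁻¹ * (h : Γ)⁻¹) := by
          have hcc := mem_center_iff.1 (hcentral g h) ((g' : Γ) * h * (g' : Γ)⁻¹ * (h : Γ)⁻¹)
          rw [commutatorElement_def] at hcc
          exact hcc
  let P : G₁ → (G₂ →* τ.ker) := fun g => MonoidHom.mk' (fun h => ⟨⁅(g : Γ), (h : Γ)⁆, hpair g h⟩) (by
    intro h h'
    apply Subtype.ext
    exact hmulR g h h')
  have hPker : ∀ g, ξ₂.ker ≤ (P g).ker := by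
    intro g h hh
    rw [MonoidHom.mem_ker]
    apply Subtype.ext
    show ⁅(g : Γ), (h : Γ)⁆ = 1
    have h1 : (h : Γ) ∈ center Γ := hτ.2.1 (hK _ h.2 hh)
    exact (show Commute (g : Γ) h from (mem_center_iff.1 h1 _)).commutator_eq
  choose d hd using fun g => liftSurj ξ₂ hξ₂ (P g) (hPker g)
  have hd' : ∀ (g : G₁) (h : G₂), d g (ξ₂ h) = P g h := fun g h => congrArg (fun f => f h) (hd g)
  let D : G₁ →* (Q₂ →* τ.ker) := MonoidHom.mk' d (by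
    intro g g'
    apply MonoidHom.ext
    intro y
    obtain ⟨h, rfl⟩ := hξ₂ y
    rw [MonoidHom.mul_apply, hd', hd', hd']
    apply Subtype.ext
    exact hmulL g g' h)
  have hDker : ξ₁.ker ≤ D.ker := by
    intro g hg
    rw [MonoidHom.mem_ker]
    apply MonoidHom.ext
    intro y
    obtain ⟨h, rfl⟩ := hξ₂ y
    show d g (ξ₂ h) = 1
    rw [hd']
    apply Subtype.ext
    show ⁅(g : Γ), (h : Γ)⁆ = 1
    have h1 : (g : Γ) ∈ center Γ := hτ.2.1 (hK _ hg g.2)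
    exact (show Commute (g : Γ) h from (mem_center_iff.1 h1 _).symm).commutator_eq
  obtain ⟨D₁, hD₁⟩ := liftSurj ξ₁ hξ₁ D hDker
  have hD₁' : ∀ (g : G₁) (h : G₂), D₁ (ξ₁ g) (ξ₂ h) = ⟨⁅(g : Γ), (h : Γ)⁆, hpair g h⟩ := by
    intro g h
    have h1 : D₁ (ξ₁ g) = d g := congrArg (fun f => f g) hD₁
    rw [h1, hd']
    rfl
  -- abelianize
  let D₂ : Q₁ →* (Abelianization Q₂ →* τ.ker) := MonoidHom.mk' (fun q => Abelianization.lift (D₁ q)) (by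
    intro q q'
    apply Abelianization.hom_ext
    apply MonoidHom.ext
    intro y
    simp)
  let D₃ : Abelianization Q₁ →* (Abelianization Q₂ →* τ.ker) := Abelianization.lift D₂
  have hD₃ : ∀ (g : G₁) (h : G₂), D₃ (Abelianization.of (ξ₁ g)) (Abelianization.of (ξ₂ h)) =
      ⟨⁅(g : Γ), (h : Γ)⁆, hpair g h⟩ := by
    intro g h
    simp [D₃, D₂, hD₁']
  let L₀ : Additive (Abelianization Q₁) →+ (Additive (Abelianization Q₂) →ₗ[ℤ] Additive τ.ker) :=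
    { toFun := fun a => (MonoidHom.toAdditive (D₃ a.toMul)).toIntLinearMap
      map_zero' := by
        apply LinearMap.ext
        intro b
        simp
      map_add' := by
        intro a a'
        apply LinearMap.ext
        intro b
        simp }
  let L : Additive (Abelianization Q₁) →ₗ[ℤ] Additive (Abelianization Q₂) →ₗ[ℤ] Additive τ.ker := L₀.toIntLinearMap
  let F₃ : TP Q₁ Q₂ →ₗ[ℤ] Additive τ.ker := TensorProduct.lift L
  let g₃ : Multiplicative (TP Q₁ Q₂) →* τ.ker :=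
    MonoidHom.mk' (fun t => (F₃ (Multiplicative.toAdd t)).toMul) (by
      intro a b
      rw [toAdd_mul, map_add]
      rfl)
  have hg₃ : ∀ (g : G₁) (h : G₂),
      g₃ (Multiplicative.ofAdd ((Additive.ofMul (Abelianization.of (ξ₁ g))) ⊗ₜ[ℤ] (Additive.ofMul (Abelianization.of (ξ₂ h))))) =
        ⟨⁅(g : Γ), (h : Γ)⁆, hpair g h⟩ := by
    intro g h
    show (F₃ _).toMul = _
    simp only [F₃, TensorProduct.lift.tmul]
    rw [← hD₃]
    rfl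
  refine ⟨(g₁.comp e₁.toMonoidHom).coprod ((g₂.comp e₂.toMonoidHom).coprod g₃), ?_⟩
  -- surjectivity
  haveI hG₁n : G₁.Normal := MonoidHom.normal_ker _
  haveI hG₂n : G₂.Normal := MonoidHom.normal_ker _
  let W₁ : Subgroup Γ := ⁅G₁, G₁⁆
  let W₂ : Subgroup Γ := ⁅G₂, G₂⁆
  let W₃ : Subgroup Γ := ⁅G₁, G₂⁆
  haveI hW₁n : W₁.Normal := Subgroup.commutator_normal _ _
  haveI hW₂n : W₂.Normal := Subgroup.commutator_normal _ _
  haveI hW₃n : W₃.Normal := Subgroup.commutator_normal _ _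
  haveI hWn : (W₁ ⊔ W₂ ⊔ W₃).Normal := inferInstance
  have hcc : commutator Γ ≤ W₁ ⊔ W₂ ⊔ W₃ := by
    have hq : ∀ u v : Γ, ⁅u, v⁆ ∈ W₁ ⊔ W₂ ⊔ W₃ →
        Commute (u : Γ ⧸ (W₁ ⊔ W₂ ⊔ W₃)) (v : Γ ⧸ (W₁ ⊔ W₂ ⊔ W₃)) := by
      intro u v huv
      have h1 := (QuotientGroup.eq_one_iff _).2 huv
      have h2 : ⁅(u : Γ ⧸ (W₁ ⊔ W₂ ⊔ W₃)), (v : Γ ⧸ (W₁ ⊔ W₂ ⊔ W₃))⁆ = 1 := by
        rw [← h1]
        rfl
      exact commutatorElement_eq_one_iff_commute.1 h2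
    have hdec : ∀ g : Γ, ∃ a ∈ G₁, ∃ b ∈ G₂, g = a * b := by
      intro g
      obtain ⟨a, ha⟩ := hξ₁ (f₁ g)
      refine ⟨a, a.2, (a : Γ)⁻¹ * g, ?_, by group⟩
      rw [MonoidHom.mem_ker, map_mul, map_inv]
      have : f₁ (a : Γ) = f₁ g := ha
      rw [this]; group
    rw [_root_.commutator_def, Subgroup.commutator_le]
    intro g _ h _
    obtain ⟨a, ha, b, hb, rfl⟩ := hdec g
    obtain ⟨c, hc, d', hd'', rfl⟩ := hdec h
    have h11 : Commute (a : Γ ⧸ (W₁ ⊔ W₂ ⊔ W₃)) (c : Γ ⧸ (W₁ ⊔ W₂ ⊔ W₃)) :=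
      hq _ _ (mem_sup_left (mem_sup_left (Subgroup.commutator_mem_commutator ha hc)))
    have h12 : Commute (a : Γ ⧸ (W₁ ⊔ W₂ ⊔ W₃)) (d' : Γ ⧸ (W₁ ⊔ W₂ ⊔ W₃)) :=
      hq _ _ (mem_sup_right (Subgroup.commutator_mem_commutator ha hd''))
    have h21 : Commute (b : Γ ⧸ (W₁ ⊔ W₂ ⊔ W₃)) (c : Γ ⧸ (W₁ ⊔ W₂ ⊔ W₃)) :=
      (hq _ _ (mem_sup_right (Subgroup.commutator_mem_commutator hc hb))).symm
    have h22 : Commute (b : Γ ⧸ (W₁ ⊔ W₂ ⊔ W₃)) (d' : Γ ⧸ (W₁ ⊔ W₂ ⊔ W₃)) :=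
      hq _ _ (mem_sup_left (mem_sup_right (Subgroup.commutator_mem_commutator hb hd'')))
    rw [← QuotientGroup.eq_one_iff]
    simp only [commutatorElement_def, QuotientGroup.mk_mul, QuotientGroup.mk_inv]
    have h5 : Commute ((a : Γ ⧸ (W₁ ⊔ W₂ ⊔ W₃)) * b) ((c : Γ ⧸ (W₁ ⊔ W₂ ⊔ W₃)) * d') :=
      Commute.mul_left (h11.mul_right h12) (h21.mul_right h22)
    rw [h5.eq]
    group
  rintro ⟨k, hk⟩
  have hk1 := hcc (hτ.2.2 hk)
  obtain ⟨v, hv, c, hc, rfl⟩ := mem_sup_of_normal_right.1 hk1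
  obtain ⟨u₁, hu₁, u₂, hu₂, rfl⟩ := mem_sup_of_normal_right.1 hv
  have hW₁G : W₁ ≤ G₁ := Subgroup.commutator_le_left _ _
  have hW₂G : W₂ ≤ G₂ := Subgroup.commutator_le_left _ _
  have hW₃K : ∀ x ∈ W₃, x ∈ τ.ker := by
    intro x hx
    have h1 : W₃ ≤ τ.ker := by
      rw [Subgroup.commutator_le]
      intro g hg h hh
      exact hpair ⟨g, hg⟩ ⟨h, hh⟩
    exact h1 hx
  have hc0 := hW₃K c hc
  have h11 : f₁ (u₁ * u₂ * c) = 1 := hK1 _ hk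
  have h12 : f₂ (u₁ * u₂ * c) = 1 := hK2 _ hk
  rw [map_mul, map_mul, hK1 c hc0, show f₁ u₂ = 1 from hW₂G hu₂, mul_one, mul_one] at h11
  rw [map_mul, map_mul, hK2 c hc0, show f₂ u₁ = 1 from hW₁G hu₁, mul_one, one_mul] at h12
  -- preimages
  have hu₁' : u₁ ∈ (commutator G₁).map G₁.subtype := by
    rw [Subgroup.map_subtype_commutator]
    exact hu₁
  have hu₂' : u₂ ∈ (commutator G₂).map G₂.subtype := by
    rw [Subgroup.map_subtype_commutator]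
    exact hu₂
  obtain ⟨x₁, hx₁, rfl⟩ := hu₁'
  obtain ⟨x₂, hx₂, rfl⟩ := hu₂'
  have hx₁' : x₁ ∈ (TT (canon Q₁)).map φ₁ := by
    rw [him₁]
    exact mem_inf.2 ⟨h11, hx₁⟩
  have hx₂' : x₂ ∈ (TT (canon Q₂)).map φ₂ := by
    rw [him₂]
    exact mem_inf.2 ⟨h12, hx₂⟩
  obtain ⟨t₁, ht₁, rfl⟩ := hx₁'
  obtain ⟨t₂, ht₂, rfl⟩ := hx₂'
  -- the tensor part
  have hW₃range : ∀ x ∈ W₃, ∃ s : TP Q₁ Q₂, (g₃ (Multiplicative.ofAdd s) : Γ) = x := by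
    intro x hx
    have h1 : W₃ ≤ (g₃.range).map τ.ker.subtype := by
      rw [Subgroup.commutator_le]
      intro g hg h hh
      refine ⟨⟨⁅g, h⁆, hpair ⟨g, hg⟩ ⟨h, hh⟩⟩, ?_, rfl⟩
      exact ⟨_, hg₃ ⟨g, hg⟩ ⟨h, hh⟩⟩
    obtain ⟨y, ⟨z, rfl⟩, rfl⟩ := h1 hx
    exact ⟨Multiplicative.toAdd z, rfl⟩
  obtain ⟨s, hs⟩ := hW₃range c hc
  refine ⟨(e₁.symm ⟨t₁, ht₁⟩, e₂.symm ⟨t₂, ht₂⟩, Multiplicative.ofAdd s), ?_⟩
  apply Subtype.ext
  simp only [MonoidHom.coprod_apply, MonoidHom.comp_apply, MulEquiv.coe_toMonoidHom, MulEquiv.apply_symm_apply]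
  show ((φ₁ t₁ : G₁) : Γ) * (((φ₂ t₂ : G₂) : Γ) * (g₃ (Multiplicative.ofAdd s) : Γ)) = _
  rw [hs, mul_assoc]
  rfl

/-- S3959 -/
theorem multiplier_prod {Q₁ : Type u} {Q₂ : Type v} [Group Q₁] [Group Q₂] [Finite Q₁] [Finite Q₂]
    {A B : Type w} [CommGroup A] [CommGroup B]
    (hA : Cfsg.HasSchurMultiplier Q₁ A) (hB : Cfsg.HasSchurMultiplier Q₂ B) :
    Cfsg.HasSchurMultiplier (Q₁ × Q₂) (A × B × Multiplicative (TP Q₁ Q₂)) :=
  ⟨exists_stem_prod hA hB, fun _ _ _ τ hτ => prod_bound hA hB τ hτ⟩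

theorem subsingleton_TP {Q₁ : Type u} {Q₂ : Type v} [Group Q₁] [Group Q₂] [Finite Q₁] [Finite Q₂]
    (hcop : Nat.Coprime (Nat.card (Abelianization Q₁)) (Nat.card (Abelianization Q₂))) :
    Subsingleton (TP Q₁ Q₂) := by
  refine ⟨fun s t => ?_⟩
  have key : ∀ t : TP Q₁ Q₂, t = 0 := by
    intro t
    induction t using TensorProduct.induction_on with
    | zero => rfl
    | tmul a b =>
      have h1 : Nat.card (Abelianization Q₁) • a = 0 := by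
        exact card_nsmul_eq_zero' (G := Additive (Abelianization Q₁)) 
      have h2 : Nat.card (Abelianization Q₂) • b = 0 := by
        exact card_nsmul_eq_zero' (G := Additive (Abelianization Q₂))
      have h3 : Nat.card (Abelianization Q₁) • (a ⊗ₜ[ℤ] b) = 0 := by
        rw [TensorProduct.smul_tmul', h1, TensorProduct.zero_tmul]
      have h4 : Nat.card (Abelianization Q₂) • (a ⊗ₜ[ℤ] b) = 0 := by
        rw [← TensorProduct.tmul_smul, h2, TensorProduct.tmul_zero]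
      have h5 := Nat.Coprime.gcd_eq_one hcop
      have h6 := gcd_nsmul_eq_zero.2 ⟨h3, h4⟩
      rw [h5, one_smul] at h6
      exact h6
    | add x y hx hy =>
      rw [hx, hy, add_zero]
  rw [key s, key t]

/-- S3980 -/
theorem multiplier_prod_coprime {Q₁ : Type u} {Q₂ : Type v} [Group Q₁] [Group Q₂] [Finite Q₁] [Finite Q₂]
    {A B : Type w} [CommGroup A] [CommGroup B]
    (hA : Cfsg.HasSchurMultiplier Q₁ A) (hB : Cfsg.HasSchurMultiplier Q₂ B)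
    (hcop : Nat.Coprime (Nat.card (Abelianization Q₁)) (Nat.card (Abelianization Q₂))) :
    Cfsg.HasSchurMultiplier (Q₁ × Q₂) (A × B) := by
  haveI := subsingleton_TP hcop
  letI : Unique (Multiplicative (TP Q₁ Q₂)) :=
    { default := 1, uniq := fun x => Multiplicative.toAdd.injective (Subsingleton.elim (α := TP Q₁ Q₂) _ _) }
  refine hasSchurMultiplier_of_equiv (multiplier_prod hA hB) ?_
  exact MulEquiv.prodCongr (MulEquiv.refl A) (MulEquiv.prodUnique) 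

end Cfsg.Agent.Lib.LdSM
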