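import Cfsg.Agent.Lib.CharLin
import Cfsg.Agent.Lib.LdSM7

set_option autoImplicit false
set_option linter.unusedSectionVars false
set_option linter.unusedVariables false

open Cfsg
open Cfsg.Agent.Lib.CharBasic Cfsg.Agent.Lib.CharOrth Cfsg.Agent.Lib.CharLin

namespace Cfsg.Agent.Lib.LdSM

universe u v

section Exp

variable {Γ : Type u} [Group Γ] (K : Subgroup Γ)

/-- The central character attached to an irreducible character, for a central subgroup
inside the commutator subgroup. -/
theorem exists_central_char (hcen : K ≤ Subgroup.center Γ) (hcom : K ≤ commutator Γ)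
    (χ : IrrCharacter Γ) :
    ∃ (n : ℕ) (μ : K →* ℂˣ), (χ : Γ → ℂ) 1 = n ∧ (∀ z : K, (χ : Γ → ℂ) z = n * (μ z : ℂ)) ∧
      μ ^ n = 1 := by
  obtain ⟨χ, m, ρ, hρ, rfl⟩ := χ
  have hnt : Nontrivial (Fin m → ℂ) := by
    by_contra hnt
    rw [not_nontrivial_iff_subsingleton] at hnt
    have h1 : Nontrivial (Subrepresentation ρ) := hρ.toNontrivial
    obtain ⟨a, b, hab⟩ := h1
    apply hab
    apply Subrepresentation.toSubmodule_injective
    exact Subsingleton.elim _ _
  have hc : ∀ z : K, ∃ c : ℂ, ρ (z : Γ) = c • LinearMap.id := by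
    intro z
    apply schur ρ hρ (ρ (z : Γ))
    intro g v
    have hz : (z : Γ) * g = g * z := (Subgroup.mem_center_iff.mp (hcen z.2) g).symm
    have := congrArg (fun h => ρ h v) hz
    simpa [map_mul] using this
  choose c hc using hc
  obtain ⟨v, hv⟩ := exists_ne (0 : Fin m → ℂ)
  have hcinj : ∀ a b : ℂ, (a • (LinearMap.id : (Fin m → ℂ) →ₗ[ℂ] _)) = b • LinearMap.id → a = b := by
    intro a b h
    have h2 := congrArg (fun T => T v) h
    simp only [LinearMap.smul_apply, LinearMap.id_apply] at h2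
    exact smul_left_injective ℂ hv h2
  have hc1 : c 1 = 1 := by
    apply hcinj
    rw [← hc]
    simp
    rfl
  have hcm : ∀ x y, c (x * y) = c x * c y := by
    intro x y
    apply hcinj
    rw [← hc]
    simp only [Subgroup.coe_mul, map_mul, hc]
    ext w i
    simp [mul_smul, mul_left_comm]
  let c' : K →* ℂ := { toFun := c, map_one' := hc1, map_mul' := hcm }
  let μ : K →* ℂˣ := MonoidHom.toHomUnits c'
  have hμ : ∀ z, (μ z : ℂ) = c z := fun z => rfl
  have htr : ∀ z : K, ρ.character (z : Γ) = m * c z := by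
    intro z
    simp only [Representation.character, hc, map_smul, LinearMap.trace_id, smul_eq_mul]
    simp [mul_comm]
  refine ⟨m, μ, ?_, ?_, ?_⟩
  · simp [Representation.character]
  · intro z
    change ρ.character (z : Γ) = _
    rw [htr, hμ]
  · -- determinant
    let d : Γ →* ℂ := (LinearMap.det : ((Fin m → ℂ) →ₗ[ℂ] (Fin m → ℂ)) →* ℂ).comp ρ
    let d' : Γ →* ℂˣ := MonoidHom.toHomUnits d
    have hker : commutator Γ ≤ d'.ker := Abelianization.commutator_subset_ker d'
    ext z
    have h1 : d' z = 1 := hker (hcom z.2)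
    have h2 : d (z : Γ) = 1 := by
      have := congrArg (fun u : ℂˣ => (u : ℂ)) h1
      simpa [d'] using this
    have h3 : d (z : Γ) = c z ^ m := by
      simp only [d, MonoidHom.comp_apply, hc]
      rw [LinearMap.det_smul]
      simp
    simp only [MonoidHom.pow_apply, Units.val_pow_eq_pow_val, hμ,
      MonoidHom.one_apply, Units.val_one]
    rw [← h3, h2]

open Classical in
theorem card_mul_sq_dvd [Finite Γ] (hcen : K ≤ Subgroup.center Γ) (hcom : K ≤ commutator Γ)
    (lam : K →* ℂˣ) :
    Nat.card K * orderOf lam ^ 2 ∣ Nat.card Γ := by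
  have := Fintype.ofFinite Γ
  have := Fintype.ofFinite K
  choose n μ hn hμ hpow using exists_central_char K hcen hcom
  -- the Fourier identity
  have h1 : ∑ z : K, ((lam z)⁻¹ : ℂˣ).val * ∑ χ : IrrCharacter Γ, (χ : Γ → ℂ) 1 * (χ : Γ → ℂ) z
      = (Nat.card Γ : ℂ) := by
    simp only [sum_degree_mul]
    rw [Finset.sum_eq_single (1 : K)]
    · simp
    · intro z _ hz
      have : (z : Γ) ≠ 1 := by simpa using hz
      simp [this]
    · simp
  have h2 : ∀ χ : IrrCharacter Γ,
      ∑ z : K, ((lam z)⁻¹ : ℂˣ).val * ((χ : Γ → ℂ) 1 * (χ : Γ → ℂ) z)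
        = ((if μ χ = lam then Nat.card K * (n χ) ^ 2 else 0 : ℕ) : ℂ) := by
    intro χ
    let f : K →* ℂ := (Units.coeHom ℂ).comp (μ χ * lam⁻¹)
    have hf : ∀ z, ((lam z)⁻¹ : ℂˣ).val * ((χ : Γ → ℂ) 1 * (χ : Γ → ℂ) z) = (n χ : ℂ) ^ 2 * f z := by
      intro z
      simp only [hn, hμ, f, MonoidHom.comp_apply, MonoidHom.mul_apply, MonoidHom.inv_apply,
        Units.coeHom_apply, Units.val_mul]
      ring
    simp only [hf]
    rw [← Finset.mul_sum]
    have hf1 : f = 1 ↔ μ χ = lam := by
      constructor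
      · intro h
        ext z
        have := congrArg (fun g : K →* ℂ => g z) h
        simp only [f, MonoidHom.comp_apply, MonoidHom.mul_apply, MonoidHom.inv_apply,
          Units.coeHom_apply, MonoidHom.one_apply] at this
        have h3 : ((μ χ z * (lam z)⁻¹ : ℂˣ) : ℂ) = ((1 : ℂˣ) : ℂ) := by simpa using this
        have h4 := Units.ext h3
        rw [mul_inv_eq_one] at h4
        rw [h4]
      · intro h
        ext z
        simp [f, h]
    rw [sum_hom_units f]
    by_cases h : μ χ = lam
    · rw [if_pos (hf1.mpr h), if_pos h]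
      push_cast
      rw [Nat.card_eq_fintype_card]
      ring
    · rw [if_neg (fun h' => h (hf1.mp h')), if_neg h]
      simp
  have h3 : (Nat.card Γ : ℂ) = ((∑ χ : IrrCharacter Γ,
      if μ χ = lam then Nat.card K * (n χ) ^ 2 else 0 : ℕ) : ℂ) := by
    rw [← h1]
    push_cast
    simp only [Finset.mul_sum]
    rw [Finset.sum_comm]
    apply Finset.sum_congr rfl
    intro χ _
    have := h2 χ
    push_cast at this ⊢
    exact this
  have h4 : Nat.card Γ = ∑ χ : IrrCharacter Γ,
      if μ χ = lam then Nat.card K * (n χ) ^ 2 else 0 := by exact_mod_cast h3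
  rw [h4]
  apply Finset.dvd_sum
  intro χ _
  split_ifs with h
  · apply Nat.mul_dvd_mul_left
    apply pow_dvd_pow_of_dvd
    rw [← h]
    exact orderOf_dvd_of_pow_eq_one (hpow χ)
  · exact dvd_zero _

theorem exponent_sq_dvd {Q : Type*} [Group Q] [Finite Q] {A : Type*} [CommGroup A]
    (hA : HasSchurMultiplier Q A) : Monoid.exponent A ^ 2 ∣ Nat.card Q := by
  obtain ⟨⟨Γ, _, _, σ, ⟨hs, hcen, hcom⟩, ⟨e⟩⟩, -⟩ := hA
  have hfinK : Finite σ.ker := inferInstance
  have hfinA : Finite A := Finite.of_equiv _ e.toEquiv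
  obtain ⟨e'⟩ := CommGroup.monoidHom_mulEquiv_of_hasEnoughRootsOfUnity A ℂ
  have hexp2 : Monoid.exponent (A →* ℂˣ) = Monoid.exponent A :=
    Monoid.exponent_eq_of_mulEquiv e'
  have : Finite (A →* ℂˣ) := Finite.of_equiv _ e'.symm.toEquiv
  obtain ⟨lam', hlam'⟩ := Monoid.exists_orderOf_eq_exponent (G := A →* ℂˣ)
    (by refine ⟨Nat.card (A →* ℂˣ), Nat.card_pos, fun g => ?_⟩; exact pow_card_eq_one' (G := A →* ℂˣ))
  let lam : σ.ker →* ℂˣ := lam'.comp e.toMonoidHom
  have hlam : orderOf lam = Monoid.exponent A := by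
    rw [← hexp2, ← hlam']
    rw [orderOf_eq_orderOf_iff]
    intro n
    constructor
    · intro h
      refine MonoidHom.ext fun a => ?_
      have := congrArg (fun g : σ.ker →* ℂˣ => g (e.symm a)) h
      simpa [lam] using this
    · intro h
      refine MonoidHom.ext fun a => ?_
      have := congrArg (fun g : A →* ℂˣ => g (e a)) h
      simpa [lam] using this
  have h := card_mul_sq_dvd σ.ker hcen hcom lam
  have hcard : Nat.card Γ = Nat.card σ.ker * Nat.card Q := by
    rw [Subgroup.card_eq_card_quotient_mul_card_subgroup σ.ker, mul_comm]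
    congr 1
    exact Nat.card_congr (QuotientGroup.quotientKerEquivOfSurjective σ hs).toEquiv
  rw [hcard, hlam] at h
  exact Nat.dvd_of_mul_dvd_mul_left Nat.card_pos h

end Exp

end Cfsg.Agent.Lib.LdSM
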