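import Cfsg.Agent.Lib.LdSM7

set_option autoImplicit false
set_option linter.unusedSectionVars false
set_option linter.unusedVariables false

open Cfsg
open scoped commutatorElement
open Subgroup

namespace Cfsg.Agent.Lib.LdSM

universe u v

section Pres

variable {α : Type} {Q : Type} [Group Q] (π : FreeGroup α →* Q)

noncomputable instance Rbar_commGroup : CommGroup (pb π).ker :=
  { (inferInstance : Group (pb π).ker) with
    mul_comm := fun x y => by
      apply Subtype.ext
      exact (mem_center_iff.1 (ker_pb_le_center π x.2) y).symm }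

/-- Coordinates on the abelianization of the free group. -/
noncomputable def abL : Additive (Abelianization (FreeGroup α)) ≃+ (α →₀ ℤ) :=
  FreeAbelianGroup.equivFinsupp α

/-- The projection from the central part to the free abelian group. -/
noncomputable def PP : Additive (pb π).ker →+ (α →₀ ℤ) :=
  (abL (α := α)).toAddMonoidHom.comp (MonoidHom.toAdditive ((abF π).comp (pb π).ker.subtype))

theorem PP_apply (x : (pb π).ker) : PP π (Additive.ofMul x) = abL (Additive.ofMul (abF π x)) := rfl

theorem PP_eq_zero (x : (pb π).ker) : PP π (Additive.ofMul x) = 0 ↔ (x : Fbar π) ∈ commutator (Fbar π) := by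
  rw [PP_apply, ← ker_abF, MonoidHom.mem_ker]
  constructor
  · intro h
    have := (abL (α := α)).injective (h.trans (map_zero _).symm)
    exact this
  · intro h
    rw [h]
    exact map_zero _

variable (S : Finset (FreeGroup α)) (hS : π.ker = normalClosure (S : Set (FreeGroup α)))

include hS

theorem mem_ker_of_mem (s : S) : ((s : FreeGroup α) : Fbar π) ∈ (pb π).ker := by
  rw [MonoidHom.mem_ker, pb_mk, ← MonoidHom.mem_ker, hS]
  exact subset_normalClosure s.2

/-- the images of the relators -/
noncomputable def vv (s : S) : Additive (pb π).ker :=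
  Additive.ofMul ⟨((s : FreeGroup α) : Fbar π), mem_ker_of_mem π S hS s⟩

/-- the combination map -/
noncomputable def cc : (S →₀ ℤ) →ₗ[ℤ] Additive (pb π).ker :=
  Finsupp.linearCombination ℤ (vv π S hS)

theorem cc_surj : Function.Surjective (cc π S hS) := by
  -- the range is a subgroup of `Fbar π`
  let W : Subgroup (Fbar π) :=
    { carrier := {x | ∃ (h : x ∈ (pb π).ker) (y : S →₀ ℤ), cc π S hS y = Additive.ofMul ⟨x, h⟩}
      one_mem' := ⟨one_mem _, 0, by rw [map_zero]; rfl⟩
      mul_mem' := by
        rintro a b ⟨ha, y, hy⟩ ⟨hb, z, hz⟩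
        refine ⟨mul_mem ha hb, y + z, ?_⟩
        rw [map_add, hy, hz]
        rfl
      inv_mem' := by
        rintro a ⟨ha, y, hy⟩
        refine ⟨inv_mem ha, -y, ?_⟩
        rw [map_neg, hy]
        rfl }
  have hWcen : W ≤ center (Fbar π) := fun x hx => ker_pb_le_center π hx.1
  have hWn : W.Normal := by
    constructor
    intro n hn g
    have : g * n * g⁻¹ = n := by
      rw [(mem_center_iff.1 (hWcen hn) g)]
      group
    rw [this]
    exact hn
  have hcomap : (W.comap (QuotientGroup.mk' (CC π))).Normal := Subgroup.Normal.comap hWn _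
  have hle : π.ker ≤ W.comap (QuotientGroup.mk' (CC π)) := by
    rw [hS]
    apply normalClosure_le_normal
    intro s hs
    refine ⟨mem_ker_of_mem π S hS ⟨s, hs⟩, Finsupp.single ⟨s, hs⟩ 1, ?_⟩
    simp only [cc, Finsupp.linearCombination_single, one_smul]
    rfl
  intro x
  obtain ⟨x, hx⟩ := x
  obtain ⟨w, rfl⟩ := QuotientGroup.mk_surjective x
  have hw : w ∈ π.ker := hx
  obtain ⟨hh, y, hy⟩ := hle hw
  exact ⟨y, hy⟩

/-- the composite map to the free abelian group -/
noncomputable def qq : (S →₀ ℤ) →ₗ[ℤ] (α →₀ ℤ) :=
  (PP π).toIntLinearMap ∘ₗ cc π S hS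

theorem card_smul_mem_range [Finite Q] (l : α →₀ ℤ) : Nat.card Q • l ∈ LinearMap.range (qq π S hS) := by
  obtain ⟨a, rfl⟩ := (abL (α := α)).surjective l
  obtain ⟨a, rfl⟩ := Additive.ofMul.surjective a
  obtain ⟨w, rfl⟩ := QuotientGroup.mk_surjective a
  have hw : ((w ^ Nat.card Q : FreeGroup α) : Fbar π) ∈ (pb π).ker := by
    rw [MonoidHom.mem_ker, pb_mk, map_pow]
    exact pow_card_eq_one'
  obtain ⟨y, hy⟩ := cc_surj π S hS (Additive.ofMul ⟨_, hw⟩)
  refine ⟨y, ?_⟩
  simp only [qq, LinearMap.comp_apply, hy]
  change PP π (Additive.ofMul ⟨_, hw⟩) = _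
  rw [PP_apply, ← map_nsmul]
  congr 1

theorem finrank_ker_qq [Finite α] [Finite Q] :
    Module.finrank ℤ (LinearMap.ker (qq π S hS)) + Nat.card α ≤ S.card := by
  classical
  have := Fintype.ofFinite α
  have hN : Nat.card Q ≠ 0 := Nat.card_pos.ne'
  let f : (α →₀ ℤ) →ₗ[ℤ] LinearMap.range (qq π S hS) :=
    LinearMap.codRestrict _ (Nat.card Q • LinearMap.id) (fun l => card_smul_mem_range π S hS l)
  have hf : Function.Injective f := by
    intro a b h
    have h2 := congrArg Subtype.val h
    simp only [f, LinearMap.codRestrict_apply, LinearMap.smul_apply, LinearMap.id_apply] at h2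
    exact smul_right_injective _ hN h2
  have h1 := LinearMap.finrank_le_finrank_of_injective hf
  rw [Module.finrank_finsupp_self] at h1
  have h2 : Module.finrank ℤ (LinearMap.range (qq π S hS)) +
      Module.finrank ℤ (LinearMap.ker (qq π S hS)) = Module.finrank ℤ (S →₀ ℤ) := by
    rw [← Submodule.finrank_quotient_add_finrank (LinearMap.ker (qq π S hS)),
      (LinearMap.quotKerEquivRange (qq π S hS)).finrank_eq]
  rw [Module.finrank_finsupp_self] at h2
  simp only [Fintype.card_coe] at h2
  rw [Nat.card_eq_fintype_card]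
  omega

theorem rank_TT_le [Finite α] [Finite Q] (hπ : Function.Surjective π) :
    haveI := finite_TT π hπ
    Group.rank (TT π) + Nat.card α ≤ S.card := by
  haveI := finite_TT π hπ
  classical
  let K₀ := LinearMap.ker (qq π S hS)
  let b := Module.finBasis ℤ K₀
  have hmem : ∀ x : K₀, ((cc π S hS x).toMul : Fbar π) ∈ TT π := by
    intro x
    refine Subgroup.mem_inf.2 ⟨(cc π S hS x).toMul.2, ?_⟩
    rw [← PP_eq_zero]
    exact LinearMap.mem_ker.1 x.2
  let t : K₀ → TT π := fun x => ⟨_, hmem x⟩
  let G : Finset (TT π) := Finset.univ.image (fun i => t (b i))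
  have hG : closure (G : Set (TT π)) = ⊤ := by
    rw [eq_top_iff]
    rintro ⟨y, hy⟩ -
    have hspan : ∀ x : K₀, t x ∈ closure (G : Set (TT π)) := by
      intro x
      have hx : x ∈ Submodule.span ℤ (Set.range b) := by rw [b.span_eq]; trivial
      induction hx using Submodule.span_induction with
      | mem x h =>
        obtain ⟨i, rfl⟩ := h
        exact subset_closure (by simp [G])
      | zero =>
        have : t 0 = 1 := by
          apply Subtype.ext
          simp [t]
        rw [this]
        exact one_mem _
      | add x y _ _ hx hy =>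
        have : t (x + y) = t x * t y := by
          apply Subtype.ext
          simp [t]
        rw [this]
        exact mul_mem hx hy
      | smul a x _ hx =>
        have : t (a • x) = t x ^ a := by
          apply Subtype.ext
          simp [t]
        rw [this]
        exact zpow_mem hx a
    obtain ⟨z, hz⟩ := cc_surj π S hS (Additive.ofMul ⟨y, hy.1⟩)
    have hz0 : qq π S hS z = 0 := by
      simp only [qq, LinearMap.comp_apply, hz]
      exact (PP_eq_zero π ⟨y, hy.1⟩).2 hy.2
    have := hspan ⟨z, hz0⟩
    convert this using 1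
    apply Subtype.ext
    simp only [t, hz]
    rfl
  have h1 := Group.rank_le hG
  have h2 : G.card ≤ Module.finrank ℤ K₀ := by
    refine Finset.card_image_le.trans ?_
    simp
  have h3 : Module.finrank ℤ K₀ + Nat.card α ≤ S.card := finrank_ker_qq π S hS
  omega

end Pres

theorem rank_multiplier_presented (n : ℕ) (rels : Finset (FreeGroup (Fin n)))
    [Finite (PresentedGroup (rels : Set (FreeGroup (Fin n))))] {A : Type*} [CommGroup A] [Finite A]
    (hA : HasSchurMultiplier (PresentedGroup (rels : Set (FreeGroup (Fin n)))) A) :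
    Group.rank A ≤ rels.card - n := by
  let π := PresentedGroup.mk (rels : Set (FreeGroup (Fin n)))
  have hπ : Function.Surjective π := QuotientGroup.mk'_surjective _
  have hS : π.ker = normalClosure (rels : Set (FreeGroup (Fin n))) := QuotientGroup.ker_mk' _
  haveI := finite_TT π hπ
  have h := rank_TT_le π rels hS hπ
  obtain ⟨e⟩ := unique_multiplier hA (hasSchurMultiplier_TT hπ)
  rw [Group.rank_congr e]
  simp only [Nat.card_eq_fintype_card, Fintype.card_fin] at h
  omega

end Cfsg.Agent.Lib.LdSM
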