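import Mathlib

/-!
# An element of prime order with self-centralizing cyclic group
-/

set_option autoImplicit false

namespace Cfsg.Agent.Lib.LdSelfC

open Subgroup
open scoped commutatorElement

variable {G : Type*} [Group G] [Finite G] {p : ℕ} [hpp : Fact p.Prime] {x : G}

/-- Any `x^k ≠ 1` generates `⟨x⟩`. -/
theorem mem_zpowers_of_ne (hx : orderOf x = p) {z : G} (hz : z ∈ zpowers x) (hz1 : z ≠ 1) : x ∈ zpowers z := by
  have h1 : zpowers z ≤ zpowers x := (zpowers_le).2 hz
  have h2 : orderOf z ∣ orderOf x := orderOf_dvd_of_mem_zpowers hz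
  rw [hx] at h2
  have h3 : orderOf z = p := by
    rcases (Nat.dvd_prime hpp.out).1 h2 with h | h
    · exact absurd (orderOf_eq_one_iff.1 h) hz1
    · exact h
  have h4 : zpowers z = zpowers x := by
    apply Subgroup.eq_of_le_of_card_ge h1
    rw [Nat.card_zpowers, Nat.card_zpowers, hx, h3]
  rw [h4]; exact mem_zpowers x

theorem comm_of_comm_pow (hx : orderOf x = p) {z s : G} (hz : z ∈ zpowers x) (hz1 : z ≠ 1) (h : s * z = z * s) :
    s * x = x * s := by
  obtain ⟨k, rfl⟩ := mem_zpowers_iff.1 (mem_zpowers_of_ne hx hz hz1)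
  have : Commute s z := h
  exact (this.zpow_right k).eq

variable (hx : orderOf x = p) (hC : centralizer ({x} : Set G) = zpowers x)

include hx hC in
theorem mem_of_comm {s : G} (h : s * x = x * s) : s ∈ zpowers x := by
  rw [← hC, mem_centralizer_singleton_iff]
  exact h

include hx hC in
/-- A Sylow subgroup containing `x` equals `⟨x⟩`. -/
theorem sylow_eq (Q : Sylow p G) (hxQ : x ∈ (Q : Subgroup G)) : (Q : Subgroup G) = zpowers x := by
  classical
  have hx1 : x ≠ 1 := by
    rintro rfl
    rw [orderOf_one] at hx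
    exact hpp.out.one_lt.ne hx
  apply le_antisymm _ ((zpowers_le).2 hxQ)
  haveI : Nontrivial (Q : Subgroup G) := by
    refine ⟨⟨⟨x, hxQ⟩, 1, ?_⟩⟩
    intro h
    exact hx1 (congrArg Subtype.val h)
  have hcen := Q.isPGroup'.center_nontrivial
  obtain ⟨⟨z, hzc⟩, hz1⟩ := exists_ne (1 : center (Q : Subgroup G))
  have hz1' : (z : G) ≠ 1 := by
    intro h
    apply hz1
    apply Subtype.ext
    apply Subtype.ext
    exact h
  have hzx : (z : G) ∈ zpowers x := by
    apply mem_of_comm hx hC
    have := mem_center_iff.1 hzc ⟨x, hxQ⟩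
    exact (congrArg Subtype.val this).symm
  intro q hq
  apply mem_of_comm hx hC
  apply comm_of_comm_pow hx hzx hz1'
  have := mem_center_iff.1 hzc ⟨q, hq⟩
  exact congrArg Subtype.val this

include hx hC in
/-- Every element of order `p` is conjugate to a power of `x`. -/
theorem conj_of_order {y : G} (hy : orderOf y = p) : ∃ g : G, ∃ z ∈ zpowers x, z ≠ 1 ∧ y = g * z * g⁻¹ := by
  classical
  have hx1 : x ≠ 1 := by
    rintro rfl
    rw [orderOf_one] at hx
    exact hpp.out.one_lt.ne hx
  have hy1 : y ≠ 1 := by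
    rintro rfl
    rw [orderOf_one] at hy
    exact hpp.out.one_lt.ne hy
  have hpz : ∀ t : G, orderOf t = p → IsPGroup p (zpowers t) := by
    intro t ht
    apply IsPGroup.of_card (n := 1)
    rw [Nat.card_zpowers, ht, pow_one]
  obtain ⟨Q₀, hQ₀⟩ := (hpz x hx).exists_le_sylow
  obtain ⟨Q₁, hQ₁⟩ := (hpz y hy).exists_le_sylow
  obtain ⟨g, hg⟩ := MulAction.exists_smul_eq G Q₀ Q₁
  have hxQ : x ∈ (Q₀ : Subgroup G) := hQ₀ (mem_zpowers x)
  have hQe := sylow_eq hx hC Q₀ hxQ
  have hyQ : y ∈ (Q₁ : Subgroup G) := hQ₁ (mem_zpowers y)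
  rw [← hg, Sylow.coe_subgroup_smul, hQe] at hyQ
  obtain ⟨z, hz, hzy⟩ := (Subgroup.mem_smul_pointwise_iff_exists _ _ _).1 hyQ
  refine ⟨g, z, hz, ?_, ?_⟩
  · rintro rfl
    apply hy1
    rw [← hzy]
    simp
  · rw [← hzy]; rfl

include hx hC in
/-- Commutation relation of `N(⟨x⟩)`. -/
theorem comm_mem_of_norm {u v : G} (hu : u * x * u⁻¹ ∈ zpowers x) (hv : v * x * v⁻¹ ∈ zpowers x)
    (hun : u ∈ normalizer (zpowers x : Set G)) (hvn : v ∈ normalizer (zpowers x : Set G)) : ⁅u, v⁆ ∈ zpowers x := by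
  obtain ⟨a, ha⟩ := mem_zpowers_iff.1 hu
  obtain ⟨b, hb⟩ := mem_zpowers_iff.1 hv
  have h1 : (u * v) * x * (u * v)⁻¹ = x ^ (a * b) := by
    calc (u * v) * x * (u * v)⁻¹ = u * (v * x * v⁻¹) * u⁻¹ := by group
      _ = u * x ^ b * u⁻¹ := by rw [hb]
      _ = (u * x * u⁻¹) ^ b := by rw [conj_zpow]
      _ = x ^ (a * b) := by rw [← ha, zpow_mul]
  have h2 : (v * u) * x * (v * u)⁻¹ = x ^ (a * b) := by
    calc (v * u) * x * (v * u)⁻¹ = v * (u * x * u⁻¹) * v⁻¹ := by group
      _ = v * x ^ a * v⁻¹ := by rw [ha]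
      _ = (v * x * v⁻¹) ^ a := by rw [conj_zpow]
      _ = x ^ (a * b) := by rw [← hb, ← zpow_mul, mul_comm]
  -- (vu)⁻¹ (uv) centralizes x
  have h3 : ((v * u)⁻¹ * (u * v)) * x = x * ((v * u)⁻¹ * (u * v)) := by
    have h4 : (u * v) * x = (v * u) * x * ((v * u)⁻¹ * (u * v)) := by
      have h5 : (u * v) * x * (u * v)⁻¹ = (v * u) * x * (v * u)⁻¹ := by rw [h1, h2]
      calc (u * v) * x = (u * v) * x * (u * v)⁻¹ * (u * v) := by group
        _ = (v * u) * x * (v * u)⁻¹ * (u * v) := by rw [h5]
        _ = _ := by group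
    calc ((v * u)⁻¹ * (u * v)) * x = (v * u)⁻¹ * ((u * v) * x) := by group
      _ = (v * u)⁻¹ * ((v * u) * x * ((v * u)⁻¹ * (u * v))) := by rw [h4]
      _ = _ := by group
  have h6 := mem_of_comm hx hC h3
  have hvu : v * u ∈ normalizer (zpowers x : Set G) := Subgroup.mul_mem _ hvn hun
  have h7 := (mem_normalizer_iff.1 hvu _).1 h6
  have h8 : (v * u) * ((v * u)⁻¹ * (u * v)) * (v * u)⁻¹ = ⁅u, v⁆ := by
    rw [commutatorElement_def]; group
  rw [h8] at h7
  exact h7

/-- the action of `S` on the subgroups of order `p`. -/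
def actY (S : Subgroup G) : MulAction S {H : Subgroup G // Nat.card H = p} where
  smul s H := ⟨H.1.map (MulAut.conj (s : G)).toMonoidHom,
    (Nat.card_congr (H.1.equivMapOfInjective _ (MulAut.conj (s : G)).injective).toEquiv).symm.trans H.2⟩
  one_smul H := by
    apply Subtype.ext
    show H.1.map (MulAut.conj ((1 : S) : G)).toMonoidHom = H.1
    ext y
    simp
  mul_smul a b H := by
    apply Subtype.ext
    show H.1.map (MulAut.conj (((a * b : S)) : G)).toMonoidHom =
      (H.1.map (MulAut.conj (b : G)).toMonoidHom).map (MulAut.conj (a : G)).toMonoidHom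
    rw [Subgroup.map_map]
    congr 1
    apply MonoidHom.ext
    intro y
    simp [MulAut.conj_apply, mul_assoc]

/-- the action of `⟨x⟩` on a normal subgroup `S`. -/
def actS (T S : Subgroup G) [hS : S.Normal] : MulAction T S where
  smul t s := ⟨t.1 * s.1 * t.1⁻¹, hS.conj_mem _ s.2 _⟩
  one_smul s := by
    apply Subtype.ext
    show ((1 : T) : G) * s.1 * ((1 : T) : G)⁻¹ = s.1
    simp
  mul_smul a b s := by
    apply Subtype.ext
    show ((a * b : T) : G) * s.1 * ((a * b : T) : G)⁻¹ = a.1 * (b.1 * s.1 * b.1⁻¹) * a.1⁻¹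
    simp [mul_assoc]

include hx hC in
theorem main (S : Subgroup G) [hS : S.Normal] :
    (p ∣ Nat.card S → commutator G ≤ S) ∧
    (¬ p ∣ Nat.card S → Nat.card S ∣ Nat.card {H : Subgroup G // Nat.card H = p} ∧ Nat.card S % p = 1 ∧
      orderOf (QuotientGroup.mk x : G ⧸ S) = p ∧
      centralizer ({(QuotientGroup.mk x : G ⧸ S)} : Set (G ⧸ S)) = zpowers (QuotientGroup.mk x : G ⧸ S)) := by
  classical
  have hp := hpp.out
  have hx1 : x ≠ 1 := by
    rintro rfl
    rw [orderOf_one] at hx
    exact hp.one_lt.ne hx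
  constructor
  · intro hdvd
    obtain ⟨⟨y, hyS⟩, hy⟩ := exists_prime_orderOf_dvd_card' (G := S) p hdvd
    have hy' : orderOf y = p := by
      rw [← hy]; exact (Subgroup.orderOf_mk y hyS).symm
    obtain ⟨g, z, hz, hz1, hyz⟩ := conj_of_order hx hC hy'
    have hzS : z ∈ S := by
      have h1 : z = g⁻¹ * y * g := by rw [hyz]; group
      rw [h1]
      have := hS.conj_mem y hyS g⁻¹
      simpa using this
    have hxS : x ∈ S := by
      obtain ⟨k, rfl⟩ := mem_zpowers_iff.1 (mem_zpowers_of_ne hx hz hz1)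
      exact S.zpow_mem hzS k
    have hXS : zpowers x ≤ S := (zpowers_le).2 hxS
    have hpz : IsPGroup p (zpowers x) := by
      apply IsPGroup.of_card (n := 1)
      rw [Nat.card_zpowers, hx, pow_one]
    obtain ⟨Q₀, hQ₀⟩ := hpz.exists_le_sylow
    have hQe := sylow_eq hx hC Q₀ (hQ₀ (mem_zpowers x))
    have hF := Sylow.normalizer_sup_eq_top' (N := S) Q₀ (by
      show (Q₀ : Subgroup G) ≤ S
      rw [hQe]; exact hXS)
    have hF' : normalizer (zpowers x : Set G) ⊔ S = ⊤ := by
      rw [← hQe]; exact hF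
    rw [_root_.commutator_def, commutator_le]
    intro g _ h _
    have hg : g ∈ normalizer (zpowers x : Set G) ⊔ S := by rw [hF']; trivial
    have hh : h ∈ normalizer (zpowers x : Set G) ⊔ S := by rw [hF']; trivial
    obtain ⟨u, hu, s, hs, rfl⟩ := Subgroup.mem_sup_of_normal_right.1 hg
    obtain ⟨v, hv, t, ht, rfl⟩ := Subgroup.mem_sup_of_normal_right.1 hh
    rw [← QuotientGroup.eq_one_iff]
    have h1 : ((u * s : G) : G ⧸ S) = (u : G ⧸ S) := by
      rw [QuotientGroup.mk_mul, (QuotientGroup.eq_one_iff s).2 hs, mul_one]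
    have h2 : ((v * t : G) : G ⧸ S) = (v : G ⧸ S) := by
      rw [QuotientGroup.mk_mul, (QuotientGroup.eq_one_iff t).2 ht, mul_one]
    have h3 : ((⁅u * s, v * t⁆ : G) : G ⧸ S) = ⁅((u * s : G) : G ⧸ S), ((v * t : G) : G ⧸ S)⁆ := rfl
    rw [h3, h1, h2]
    have h4 : ⁅(u : G ⧸ S), (v : G ⧸ S)⁆ = ((⁅u, v⁆ : G) : G ⧸ S) := rfl
    rw [h4, QuotientGroup.eq_one_iff]
    apply hXS
    apply comm_mem_of_norm hx hC _ _ hu hv
    · exact (mem_normalizer_iff.1 hu x).1 (mem_zpowers x)
    · exact (mem_normalizer_iff.1 hv x).1 (mem_zpowers x)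
  · intro hdvd
    have hco : Nat.Coprime p (Nat.card S) := (Nat.Prime.coprime_iff_not_dvd hp).2 hdvd
    have hS1 : ∀ s ∈ S, s * x = x * s → s = 1 := by
      intro s hs hc
      have h1 := mem_of_comm hx hC hc
      have h2 : orderOf s ∣ p := by
        rw [← hx]; exact orderOf_dvd_of_mem_zpowers h1
      have h3 : orderOf s ∣ Nat.card S := by
        have := orderOf_dvd_natCard (⟨s, hs⟩ : S)
        rwa [Subgroup.orderOf_mk] at this
      have h4 := Nat.eq_one_of_dvd_coprimes hco h2 h3
      exact orderOf_eq_one_iff.1 h4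
    have hxS : x ∉ S := by
      intro h
      apply hdvd
      have := orderOf_dvd_natCard (⟨x, h⟩ : S)
      rwa [Subgroup.orderOf_mk, hx] at this
    refine ⟨?_, ?_, ?_, ?_⟩
    · -- free action
      letI := actY (p := p) S
      have hfree : ∀ b : {H : Subgroup G // Nat.card H = p}, MulAction.stabilizer S b = ⊥ := by
        rintro ⟨H, hH⟩
        rw [eq_bot_iff]
        rintro ⟨s, hsS⟩ hs
        have hs' : H.map (MulAut.conj s).toMonoidHom = H := congrArg Subtype.val hs
        rw [Subgroup.mem_bot]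
        apply Subtype.ext
        show s = 1
        -- a generator
        haveI : Fact (Nat.card H).Prime := by rw [hH]; exact hpp
        have : Nontrivial H := by
          apply Finite.one_lt_card_iff_nontrivial.1
          rw [hH]; exact hp.one_lt
        obtain ⟨⟨y, hyH⟩, hy1⟩ := exists_ne (1 : H)
        have hy1' : y ≠ 1 := fun h => hy1 (Subtype.ext h)
        have hoy : orderOf y = p := by
          have h1 := orderOf_dvd_natCard (⟨y, hyH⟩ : H)
          rw [hH, Subgroup.orderOf_mk] at h1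
          rcases (Nat.dvd_prime hp).1 h1 with h | h
          · exact absurd (orderOf_eq_one_iff.1 h) hy1'
          · exact h
        have hconj : s * y * s⁻¹ ∈ H := by
          rw [← hs']
          exact ⟨y, hyH, rfl⟩
        have hcom : s * y * s⁻¹ * y⁻¹ ∈ H := H.mul_mem hconj (H.inv_mem hyH)
        have hcomS : s * y * s⁻¹ * y⁻¹ ∈ S := by
          have e : s * y * s⁻¹ * y⁻¹ = s * (y * s⁻¹ * y⁻¹) := by group
          rw [e]
          exact S.mul_mem hsS (hS.conj_mem _ (S.inv_mem hsS) y)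
        have h1 : s * y * s⁻¹ * y⁻¹ = 1 := by
          have h2 : orderOf (s * y * s⁻¹ * y⁻¹) ∣ p := by
            have := orderOf_dvd_natCard (⟨_, hcom⟩ : H)
            rwa [hH, Subgroup.orderOf_mk] at this
          have h3 : orderOf (s * y * s⁻¹ * y⁻¹) ∣ Nat.card S := by
            have := orderOf_dvd_natCard (⟨_, hcomS⟩ : S)
            rwa [Subgroup.orderOf_mk] at this
          exact orderOf_eq_one_iff.1 (Nat.eq_one_of_dvd_coprimes hco h2 h3)
        have hsy : s * y = y * s := by
          have h2 := mul_inv_eq_one.1 h1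
          calc s * y = (s * y * s⁻¹) * s := by group
            _ = y * s := by rw [h2]
        obtain ⟨g, z, hz, hz1, hyz⟩ := conj_of_order hx hC hoy
        have hs'S : g⁻¹ * s * g ∈ S := by
          have := hS.conj_mem s hsS g⁻¹
          simpa using this
        have hcz : (g⁻¹ * s * g) * z = z * (g⁻¹ * s * g) := by
          rw [hyz] at hsy
          calc (g⁻¹ * s * g) * z = g⁻¹ * (s * (g * z * g⁻¹)) * g := by group
            _ = g⁻¹ * ((g * z * g⁻¹) * s) * g := by rw [hsy]
            _ = _ := by group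
        have hs1 := hS1 _ hs'S (comm_of_comm_pow hx hz hz1 hcz)
        have : s = g * (g⁻¹ * s * g) * g⁻¹ := by group
        rw [this, hs1]; group
      have e := MulAction.selfEquivOrbitsQuotientProd hfree
      rw [Nat.card_congr e, Nat.card_prod]
      exact dvd_mul_left _ _
    · -- congruence
      letI := actS (zpowers x) S
      have hpz : IsPGroup p (zpowers x) := by
        apply IsPGroup.of_card (n := 1)
        rw [Nat.card_zpowers, hx, pow_one]
      have hmod := hpz.card_modEq_card_fixedPoints S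
      have hfix : Nat.card (MulAction.fixedPoints (zpowers x) S) = 1 := by
        rw [Nat.card_eq_one_iff_unique]
        refine ⟨⟨?_⟩, ⟨⟨1, ?_⟩⟩⟩
        · rintro ⟨s, hs⟩ ⟨t, ht⟩
          have key : ∀ (u : S), u ∈ MulAction.fixedPoints (zpowers x) S → u = 1 := by
            rintro ⟨u, huS⟩ hu
            have h1 := hu ⟨x, mem_zpowers x⟩
            have h2 : x * u * x⁻¹ = u := congrArg Subtype.val h1
            have h3 : u * x = x * u := by
              calc u * x = (x * u * x⁻¹) * x := by rw [h2]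
                _ = x * u := by group
            apply Subtype.ext
            exact hS1 u huS h3
          apply Subtype.ext
          show s = t
          rw [key s hs, key t ht]
        · intro t
          apply Subtype.ext
          show t.1 * 1 * t.1⁻¹ = 1
          simp
      rw [hfix] at hmod
      have h1 : Nat.card S % p = 1 % p := hmod
      rw [h1, Nat.mod_eq_of_lt hp.one_lt]
    · -- the order
      apply orderOf_eq_prime
      · rw [← QuotientGroup.mk_pow, ← hx, pow_orderOf_eq_one]; rfl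
      · rw [Ne, QuotientGroup.eq_one_iff]; exact hxS
    · -- the centralizer
      apply le_antisymm
      · intro q hq
        obtain ⟨g, rfl⟩ := QuotientGroup.mk_surjective q
        have hq' := mem_centralizer_singleton_iff.1 hq
        -- f bijective
        let f : S → S := fun s => ⟨x⁻¹ * s.1 * x * s.1⁻¹, by
          apply S.mul_mem _ (S.inv_mem s.2)
          have := hS.conj_mem s.1 s.2 x⁻¹
          simpa using this⟩
        have hfinj : Function.Injective f := by
          intro s t hst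
          have h1 : x⁻¹ * s.1 * x * s.1⁻¹ = x⁻¹ * t.1 * x * t.1⁻¹ := congrArg Subtype.val hst
          have h2 : s.1 * x * s.1⁻¹ = t.1 * x * t.1⁻¹ := by
            have h3 : x * (x⁻¹ * s.1 * x * s.1⁻¹) = x * (x⁻¹ * t.1 * x * t.1⁻¹) := by rw [h1]
            simpa [mul_assoc] using h3
          have h4 : t.1⁻¹ * s.1 ∈ S := S.mul_mem (S.inv_mem t.2) s.2
          have h5 : (t.1⁻¹ * s.1) * x = x * (t.1⁻¹ * s.1) := by
            calc (t.1⁻¹ * s.1) * x = t.1⁻¹ * (s.1 * x * s.1⁻¹) * s.1 := by group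
              _ = t.1⁻¹ * (t.1 * x * t.1⁻¹) * s.1 := by rw [h2]
              _ = _ := by group
          have h6 := hS1 _ h4 h5
          apply Subtype.ext
          have h7 := inv_mul_eq_one.1 h6
          exact h7.symm
        have hfsurj : Function.Surjective f := Finite.surjective_of_injective hfinj
        -- the element
        have hc : x⁻¹ * g * x * g⁻¹ ∈ S := by
          rw [← QuotientGroup.eq_one_iff]
          have h1 : ((x⁻¹ * g * x * g⁻¹ : G) : G ⧸ S) = (x : G ⧸ S)⁻¹ * (g : G ⧸ S) * (x : G ⧸ S) * (g : G ⧸ S)⁻¹ := rfl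
          rw [h1]
          have h2 : (g : G ⧸ S) * (x : G ⧸ S) = (x : G ⧸ S) * (g : G ⧸ S) := hq'
          rw [mul_assoc (x : G ⧸ S)⁻¹, h2]
          group
        obtain ⟨⟨s, hsS⟩, hs⟩ := hfsurj ⟨_, hc⟩
        have hs' : x⁻¹ * s * x * s⁻¹ = x⁻¹ * g * x * g⁻¹ := congrArg Subtype.val hs
        have hconj : s * x * s⁻¹ = g * x * g⁻¹ := by
          have h3 : x * (x⁻¹ * s * x * s⁻¹) = x * (x⁻¹ * g * x * g⁻¹) := by rw [hs']
          simpa [mul_assoc] using h3
        have hmem : s⁻¹ * g ∈ zpowers x := by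
          apply mem_of_comm hx hC
          calc s⁻¹ * g * x = s⁻¹ * (g * x * g⁻¹) * g := by group
            _ = s⁻¹ * (s * x * s⁻¹) * g := by rw [hconj]
            _ = _ := by group
        obtain ⟨k, hk⟩ := mem_zpowers_iff.1 hmem
        refine mem_zpowers_iff.2 ⟨k, ?_⟩
        have h1 : ((g : G) : G ⧸ S) = ((s⁻¹ * g : G) : G ⧸ S) := by
          rw [QuotientGroup.mk_mul, QuotientGroup.mk_inv, (QuotientGroup.eq_one_iff s).2 hsS]
          simp
        rw [h1, ← hk]
        rfl
      · rw [zpowers_le, mem_centralizer_singleton_iff]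

end Cfsg.Agent.Lib.LdSelfC
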