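import Mathlib
import Cfsg.Agent.Lib.BNCount

set_option autoImplicit false
set_option linter.unusedSectionVars false
set_option linter.unusedVariables false

/-! Minimal coset representatives and the longest element of the Weyl group of a (B,N)-pair. -/

namespace Cfsg.Agent.Lib.LdSt1

open Cfsg Cfsg.Agent.Lib.BNPair Cfsg.Agent.Lib.BNCount

variable {G : Type*} [Group G] {P : Cfsg.BNPair G}

theorem inv_Sb_mul {x w : W P} (hx : x ∈ Sb P) : x * w⁻¹ = (w * x)⁻¹ := by
  simp [Sb_inv hx]

/-- The right-hand version of `typeI`. -/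
theorem typeI_right {x w : W P} (hx : x ∈ Sb P) (hle : len P w ≤ len P (w * x)) {a g : G}
    (ha : a ∈ Cw P x) (hg : g ∈ Cw P w) : g * a ∈ Cw P (w * x) := by
  have h1 : a⁻¹ ∈ Cw P x := by
    have := inv_mem_Cw ha
    rwa [Sb_inv hx] at this
  have h2 := inv_mem_Cw hg
  have h3 : len P w⁻¹ ≤ len P (x * w⁻¹) := by
    rw [inv_Sb_mul hx, len_inv, len_inv]
    exact hle
  have h4 := inv_mem_Cw (typeI hx h3 h1 h2)
  rw [inv_Sb_mul hx, inv_inv] at h4
  simpa using h4

/-- A word with length equal to the length of its product has reduced prefixes. -/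
theorem reduced_prefix {M : List (W P)} {t : W P} (hM : ∀ y ∈ M ++ [t], y ∈ Sb P)
    (hred : (M ++ [t]).length = len P (M ++ [t]).prod) : M.length = len P M.prod := by
  have hM' : ∀ y ∈ M, y ∈ Sb P := fun y hy => hM y (by simp [hy])
  have ht : t ∈ Sb P := hM t (by simp)
  have h1 : len P M.prod ≤ M.length := len_prod_le hM'
  have h2 : len P (M.prod * t) ≤ len P M.prod + 1 := len_mul_le_right ht
  simp only [List.length_append, List.length_cons, List.length_nil, List.prod_append,
    List.prod_cons, List.prod_nil, mul_one] at hred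
  omega

/-- No descents in `J` means minimal in the coset. -/
theorem min_of_no_descent {J : Set (W P)} (hJ : J ⊆ Sb P) {v : W P}
    (h : ∀ x ∈ J, len P v ≤ len P (v * x)) : ∀ u ∈ Subgroup.closure J, len P v ≤ len P (v * u) := by
  classical
  -- a minimal element in the coset
  have hne : ∃ k, ∃ u ∈ Subgroup.closure J, len P (v * u) = k := ⟨_, 1, Subgroup.one_mem _, rfl⟩
  obtain ⟨u₁, hu₁, hk⟩ := Nat.find_spec hne
  have hmin0 : ∀ u ∈ Subgroup.closure J, len P (v * u₁) ≤ len P (v * u) := by
    intro u hu
    rw [hk]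
    exact Nat.find_min' hne ⟨u, hu, rfl⟩
  set m := v * u₁ with hm
  have hmin : ∀ u ∈ Subgroup.closure J, len P m ≤ len P (m * u) := by
    intro u hu
    have := hmin0 (u₁ * u) (Subgroup.mul_mem _ hu₁ hu)
    rwa [← mul_assoc] at this
  have hv : v = m * u₁⁻¹ := by
    rw [hm]
    group
  have hu₀ : u₁⁻¹ ∈ Subgroup.closure J := Subgroup.inv_mem _ hu₁
  obtain ⟨M, hM, hMp, hMl⟩ := exists_reduced_in hJ hu₀
  rcases List.eq_nil_or_concat' M with rfl | ⟨M', t, rfl⟩
  · have : u₁⁻¹ = 1 := by simpa using hMp.symm
    rw [this, mul_one] at hv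
    rw [hv]
    exact hmin
  · exfalso
    have hMred : (M' ++ [t]).length = len P (M' ++ [t]).prod := by
      rw [hMp, hMl]
    have hM'' : ∀ y ∈ M', y ∈ J := fun y hy => hM y (by simp [hy])
    have ht : t ∈ J := hM t (by simp)
    have hM1 : ∀ y ∈ M' ++ [t], y ∈ Sb P := fun y hy => hJ (hM y hy)
    have hred' := reduced_prefix hM1 hMred
    have a1 := additive hJ hmin (M' ++ [t]) hM hMred
    have a2 := additive hJ hmin M' hM'' hred'
    rw [hMp, ← hv] at a1
    have e : v * t = m * M'.prod := by
      rw [hv, ← hMp]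
      simp only [List.prod_append, List.prod_cons, List.prod_nil, mul_one, mul_assoc]
      rw [Sb_mul_self (hJ ht), mul_one]
    have h1 := h t ht
    rw [e, a2, a1] at h1
    simp only [List.length_append, List.length_cons, List.length_nil] at h1
    omega

/-- The product of double cosets along a reduced word in `J`. -/
theorem mul_mem_Cw_word {J : Set (W P)} (hJ : J ⊆ Sb P) {v : W P}
    (hmin : ∀ u ∈ Subgroup.closure J, len P v ≤ len P (v * u)) :
    ∀ (M : List (W P)), (∀ x ∈ M, x ∈ J) → M.length = len P M.prod → ∀ {g p : G}, g ∈ Cw P v → p ∈ Cw P M.prod →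
      g * p ∈ Cw P (v * M.prod) := by
  intro M
  induction M using List.reverseRecOn with
  | nil =>
    intro _ _ g p hg hp
    simp only [List.prod_nil, mul_one] at hp ⊢
    exact mul_mem_Cw_right (mem_Cw_one.mp hp) hg
  | append_singleton M t ih =>
    intro hL hred g p hg hp
    have ht : t ∈ J := hL t (by simp)
    have hM : ∀ y ∈ M, y ∈ J := fun y hy => hL y (by simp [hy])
    have hM1 : ∀ y ∈ M ++ [t], y ∈ Sb P := fun y hy => hJ (hL y hy)
    have hred' := reduced_prefix hM1 hred
    have a1 := additive hJ hmin (M ++ [t]) hL hred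
    have a2 := additive hJ hmin M hM hred'
    simp only [List.prod_append, List.prod_cons, List.prod_nil, mul_one, List.length_append,
      List.length_cons, List.length_nil] at a1 hp ⊢
    obtain ⟨n', hn'⟩ := exists_rep M.prod
    obtain ⟨s, hs⟩ := exists_rep t
    have e : M.prod * t = mk P (n' * s) := by rw [map_mul, hn', hs]
    rw [e, mem_Cw_mk] at hp
    obtain ⟨b₁, hb₁, b₂, hb₂, rfl⟩ := hp
    have h1 : b₁ * (n' : G) ∈ Cw P M.prod := by
      rw [← hn']
      exact mul_mem_Cw_left hb₁ (rep_mem_Cw n')
    have h2 := ih hM hred' hg h1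
    have h3 : (s : G) * b₂ ∈ Cw P t := by
      rw [← hs]
      exact mul_mem_Cw_right hb₂ (rep_mem_Cw s)
    have h4 := typeI_right (hJ ht) (by rw [mul_assoc, a1, a2]; omega) h3 h2
    have e2 : g * (b₁ * ((n' * s : P.N) : G) * b₂) = g * (b₁ * (n' : G)) * ((s : G) * b₂) := by
      push_cast
      group
    rw [e2, ← mul_assoc v]
    exact h4

/-- Products with elements of a parabolic subgroup. -/
theorem mul_Cw_left {J : Set (W P)} (hJ : J ⊆ Sb P) {u : W P} (hu : u ∈ Subgroup.closure J) {p g : G} {w : W P}
    (hp : p ∈ Cw P u) (hg : g ∈ Cw P w) : ∃ u' ∈ Subgroup.closure J, p * g ∈ Cw P (u' * w) := by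
  obtain ⟨L, hL, rfl⟩ := exists_word_in hJ hu
  induction L generalizing p with
  | nil =>
    refine ⟨1, Subgroup.one_mem _, ?_⟩
    simp only [List.prod_nil] at hp
    rw [one_mul]
    exact mul_mem_Cw_left (mem_Cw_one.mp hp) hg
  | cons x L ih =>
    have hx : x ∈ J := hL x (by simp)
    have hL' : ∀ y ∈ L, y ∈ J := fun y hy => hL y (by simp [hy])
    have hLc : L.prod ∈ Subgroup.closure J := Subgroup.list_prod_mem _ (fun y hy => Subgroup.subset_closure (hL' y hy))
    simp only [List.prod_cons] at hp
    obtain ⟨n', hn'⟩ := exists_rep L.prod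
    obtain ⟨s, hs⟩ := exists_rep x
    have e : x * L.prod = mk P (s * n') := by rw [map_mul, hn', hs]
    rw [e, mem_Cw_mk] at hp
    obtain ⟨b₁, hb₁, b₂, hb₂, rfl⟩ := hp
    have h1 : (n' : G) * b₂ ∈ Cw P L.prod := by
      rw [← hn']
      exact mul_mem_Cw_right hb₂ (rep_mem_Cw n')
    obtain ⟨u', hu', h2⟩ := ih hL' hLc h1
    have h3 : b₁ * (s : G) ∈ Cw P x := by
      rw [← hs]
      exact mul_mem_Cw_left hb₁ (rep_mem_Cw s)
    have e2 : b₁ * ((s * n' : P.N) : G) * b₂ * g = b₁ * (s : G) * ((n' : G) * b₂ * g) := by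
      push_cast
      group
    rw [e2]
    rcases lemma1 (hJ hx) h3 h2 with h4 | h4
    · refine ⟨x * u', Subgroup.mul_mem _ (Subgroup.subset_closure hx) hu', ?_⟩
      rwa [mul_assoc]
    · exact ⟨u', hu', h4⟩

theorem mul_Cw_right {J : Set (W P)} (hJ : J ⊆ Sb P) {u : W P} (hu : u ∈ Subgroup.closure J) {p g : G} {w : W P}
    (hp : p ∈ Cw P u) (hg : g ∈ Cw P w) : ∃ u' ∈ Subgroup.closure J, g * p ∈ Cw P (w * u') := by
  obtain ⟨u', hu', h⟩ := mul_Cw_left hJ (Subgroup.inv_mem _ hu) (inv_mem_Cw hp) (inv_mem_Cw hg)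
  refine ⟨u'⁻¹, Subgroup.inv_mem _ hu', ?_⟩
  have := inv_mem_Cw h
  simpa using this

/-- Elements with all right descents. -/
def AllDesc (P : Cfsg.BNPair G) (w : W P) : Prop := ∀ x ∈ Sb P, len P (w * x) < len P w

theorem allDesc_factor {w : W P} (h : AllDesc P w) : ∀ (L : List (W P)), (∀ x ∈ L, x ∈ Sb P) →
    L.length = len P L.prod → ∃ v, w = v * L.prod ∧ len P w = len P v + L.length := by
  intro L
  induction L using List.reverseRecOn with
  | nil =>
    intro _ _
    exact ⟨w, by simp, by simp⟩
  | append_singleton L t ih =>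
    intro hL hred
    have ht : t ∈ Sb P := hL t (by simp)
    have hL' : ∀ y ∈ L, y ∈ Sb P := fun y hy => hL y (by simp [hy])
    have hred' := reduced_prefix hL hred
    obtain ⟨v', hw, hlen⟩ := ih hL' hred'
    obtain ⟨R, hR, hRp, hRl⟩ := exists_reduced v'
    have hA : ∀ y ∈ R ++ L, y ∈ Sb P := by
      intro y hy
      rcases List.mem_append.mp hy with h1 | h1
      · exact hR y h1
      · exact hL' y h1
    have hAp : (R ++ L).prod = w := by
      rw [List.prod_append, hRp, hw]
    have hAred : (R ++ L).length = len P (R ++ L).prod := by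
      rw [hAp, List.length_append, hRl, hlen]
    obtain ⟨i, hi⟩ := exchange_right hA hAred ht (by rw [hAp]; exact h t ht)
    rw [hAp] at hi
    by_cases hc : i.1 < R.length
    · rw [List.eraseIdx_append_of_lt_length hc, List.prod_append] at hi
      set vh := (R.eraseIdx i.1).prod with hvh
      have e : w = vh * (L ++ [t]).prod := by
        simp only [List.prod_append, List.prod_cons, List.prod_nil, mul_one]
        rw [← mul_assoc, ← hi, mul_assoc, Sb_mul_self ht, mul_one]
      refine ⟨vh, e, ?_⟩
      have h1 : len P vh ≤ (R.eraseIdx i.1).length :=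
        len_prod_le (fun y hy => hR y (List.mem_of_mem_eraseIdx hy))
      rw [List.length_eraseIdx_of_lt hc, hRl] at h1
      have h2 : len P w ≤ len P vh + (L ++ [t]).length := by
        obtain ⟨R', hR', hR'p, hR'l⟩ := exists_reduced vh
        have h3 : (R' ++ (L ++ [t])).prod = w := by
          rw [List.prod_append, hR'p, ← e]
        rw [← h3, ← hR'l]
        have := len_prod_le (P := P) (L := R' ++ (L ++ [t])) (by
          intro y hy
          rcases List.mem_append.mp hy with h5 | h5
          · exact hR' y h5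
          · exact hL y h5)
        simpa using this
      simp only [List.length_append, List.length_cons, List.length_nil] at h2 ⊢
      omega
    · exfalso
      rw [List.eraseIdx_append_of_length_le (by omega), List.prod_append] at hi
      have e : L.prod * t = (L.eraseIdx (i.1 - R.length)).prod := by
        have h5 : R.prod * (L.prod * t) = R.prod * (L.eraseIdx (i.1 - R.length)).prod := by
          rw [← hi, hw, hRp]
          group
        exact mul_left_cancel h5
      have h3 : len P (L.eraseIdx (i.1 - R.length)).prod ≤ (L.eraseIdx (i.1 - R.length)).length :=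
        len_prod_le (fun y hy => hL' y (List.mem_of_mem_eraseIdx hy))
      have h4 : (L.eraseIdx (i.1 - R.length)).length ≤ L.length := by
        rw [List.length_eraseIdx]
        split_ifs <;> omega
      simp only [List.length_append, List.length_cons, List.length_nil, List.prod_append,
        List.prod_cons, List.prod_nil, mul_one] at hred
      rw [← e] at h3
      omega

theorem allDesc_len_le {w : W P} (h : AllDesc P w) (u : W P) : len P u ≤ len P w := by
  obtain ⟨L, hL, rfl, hl⟩ := exists_reduced u
  obtain ⟨v, _, h2⟩ := allDesc_factor h L hL hl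
  rw [← hl, h2]
  omega

theorem allDesc_unique {w w' : W P} (h : AllDesc P w) (h' : AllDesc P w') : w = w' := by
  obtain ⟨L, hL, hp, hl⟩ := exists_reduced w'
  obtain ⟨v, h1, h2⟩ := allDesc_factor h L hL (by rw [hp, hl])
  have h3 := allDesc_len_le h' w
  have h4 := allDesc_len_le h w'
  rw [hl] at *
  have h5 : len P v = 0 := by omega
  rw [len_eq_zero] at h5
  rw [h1, h5, one_mul, hp]

theorem allDesc_of_max {w : W P} (h : ∀ u, len P u ≤ len P w) : AllDesc P w := by
  intro x hx
  rcases len_mul_cases_right (w := w) hx with h1 | h1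
  · have := h (w * x)
    omega
  · omega

theorem left_desc_of_max {w : W P} (h : ∀ u, len P u ≤ len P w) {x : W P} (hx : x ∈ Sb P) :
    len P (x * w) < len P w := by
  rcases len_mul_cases (w := w) hx with h1 | h1
  · have := h (x * w)
    omega
  · omega

theorem exists_allDesc [Finite (W P)] : ∃ w : W P, AllDesc P w := by
  classical
  haveI := Fintype.ofFinite (W P)
  obtain ⟨w, _, hw⟩ := Finset.exists_max_image (Finset.univ : Finset (W P)) (len P) ⟨1, Finset.mem_univ _⟩
  exact ⟨w, allDesc_of_max (fun u => hw u (Finset.mem_univ _))⟩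

end Cfsg.Agent.Lib.LdSt1
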