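import Mathlib
import Cfsg.Agent.Lib.LdSt1

set_option autoImplicit false
set_option linter.unusedSectionVars false
set_option linter.unusedVariables false

/-! Chambers: the alternating sum of the permutation characters on parabolic cosets at elements of `B`. -/

namespace Cfsg.Agent.Lib.LdSt2

open Cfsg Cfsg.Agent.Lib.BNPair Cfsg.Agent.Lib.BNCount Cfsg.Agent.Lib.LdSt1

variable {G : Type*} [Group G] {P : Cfsg.BNPair G}

/-- The Bruhat cell of an element. -/
noncomputable def cls (g : G) : W P := Classical.choose (exists_Cw (P := P) g)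

theorem cls_spec (g : G) : g ∈ Cw P (cls (P := P) g) := Classical.choose_spec (exists_Cw (P := P) g)

theorem cls_eq {g : G} {w : W P} (h : g ∈ Cw P w) : cls (P := P) g = w := eq_of_mem_Cw (cls_spec g) h

/-- The Bruhat cell of a chamber. -/
noncomputable def clsQ (c : G ⧸ P.B) : W P := cls (P := P) c.out

theorem mk_out_inv_mul (g : G) (H : Subgroup G) : (QuotientGroup.mk g : G ⧸ H).out⁻¹ * g ∈ H :=
  QuotientGroup.eq.mp (QuotientGroup.out_eq' _)

theorem clsQ_mk (g : G) : clsQ (QuotientGroup.mk g : G ⧸ P.B) = cls (P := P) g := by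
  have h := mk_out_inv_mul g P.B
  symm
  apply cls_eq
  have h2 := mul_mem_Cw_right h (cls_spec (P := P) (QuotientGroup.mk g : G ⧸ P.B).out)
  show g ∈ Cw P (cls (P := P) (QuotientGroup.mk g : G ⧸ P.B).out)
  simpa using h2

theorem clsQ_smul {b : G} (hb : b ∈ P.B) (c : G ⧸ P.B) : clsQ (b • c) = clsQ c := by
  induction c using QuotientGroup.induction_on with
  | H a =>
    have : b • (QuotientGroup.mk a : G ⧸ P.B) = QuotientGroup.mk (b * a) := rfl
    rw [this, clsQ_mk, clsQ_mk]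
    exact cls_eq (mul_mem_Cw_left hb (cls_spec a))

/-- No right descents in `J`. -/
def InJ (J : Set (W P)) (w : W P) : Prop := ∀ x ∈ J, len P w ≤ len P (w * x)

section Parabolic

variable {J : Set (W P)} {Q : Subgroup G}

theorem B_le_of (hQ : ∀ g, g ∈ Q ↔ ∃ u ∈ Subgroup.closure J, g ∈ Cw P u) : P.B ≤ Q := by
  intro b hb
  exact (hQ b).mpr ⟨1, Subgroup.one_mem _, mem_Cw_one.mpr hb⟩

/-- The projection from chambers to the cosets of a parabolic subgroup. -/
noncomputable def proj (Q : Subgroup G) (c : G ⧸ P.B) : G ⧸ Q := QuotientGroup.mk c.out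

theorem proj_mk (hBQ : P.B ≤ Q) (g : G) : proj Q (QuotientGroup.mk g : G ⧸ P.B) = QuotientGroup.mk g :=
  QuotientGroup.eq.mpr (hBQ (mk_out_inv_mul g P.B))

theorem proj_smul (hBQ : P.B ≤ Q) (g : G) (c : G ⧸ P.B) : proj Q (g • c) = g • proj Q c := by
  induction c using QuotientGroup.induction_on with
  | H a =>
    have : g • (QuotientGroup.mk a : G ⧸ P.B) = QuotientGroup.mk (g * a) := rfl
    rw [this, proj_mk hBQ, proj_mk hBQ]
    rfl

theorem exists_reduced_in' (hJ : J ⊆ Sb P) {u : W P} (hu : u ∈ Subgroup.closure J) :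
    ∃ L : List (W P), (∀ x ∈ L, x ∈ J) ∧ L.prod = u ∧ L.length = len P L.prod := by
  obtain ⟨L, h1, h2, h3⟩ := exists_reduced_in hJ hu
  exact ⟨L, h1, h2, by rw [h2, h3]⟩

/-- Injectivity of the projection on chambers without descents in `J`. -/
theorem proj_inj (hJ : J ⊆ Sb P) (hQ : ∀ g, g ∈ Q ↔ ∃ u ∈ Subgroup.closure J, g ∈ Cw P u) {c c' : G ⧸ P.B}
    (hc : InJ J (clsQ c)) (hc' : InJ J (clsQ c')) (h : proj Q c = proj Q c') : c = c' := by
  have hBQ := B_le_of hQ
  induction c using QuotientGroup.induction_on with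
  | H a =>
  induction c' using QuotientGroup.induction_on with
  | H a' =>
  rw [proj_mk hBQ, proj_mk hBQ] at h
  rw [clsQ_mk] at hc hc'
  have hp := QuotientGroup.eq.mp h
  obtain ⟨u, hu, hpu⟩ := (hQ _).mp hp
  have m1 := min_of_no_descent hJ hc
  have m2 := min_of_no_descent hJ hc'
  obtain ⟨M, hM, hMp, hMl⟩ := exists_reduced_in' hJ hu
  subst hMp
  have h1 := mul_mem_Cw_word hJ m1 M hM hMl (cls_spec a) hpu
  have e1 : a * (a⁻¹ * a') = a' := by group
  rw [e1] at h1
  have h2 : cls (P := P) a' = cls (P := P) a * M.prod := cls_eq h1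
  have a1 := additive hJ m1 M hM hMl
  obtain ⟨M', hM', hMp', hMl'⟩ := exists_reduced_in' hJ (Subgroup.inv_mem _ hu)
  have a2 := additive hJ m2 M' hM' hMl'
  have e2 : cls (P := P) a' * M'.prod = cls (P := P) a := by
    rw [h2, hMp']
    group
  rw [e2, h2, a1] at a2
  have h3 : M.length = 0 := by omega
  have h4 : M = [] := List.length_eq_zero_iff.mp h3
  subst h4
  simp only [List.prod_nil] at hpu
  exact QuotientGroup.eq.mpr (mem_Cw_one.mp hpu)

/-- Surjectivity of the projection on chambers without descents in `J`. -/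
theorem proj_surj (hJ : J ⊆ Sb P) (hQ : ∀ g, g ∈ Q ↔ ∃ u ∈ Subgroup.closure J, g ∈ Cw P u) (d : G ⧸ Q) :
    ∃ c : G ⧸ P.B, InJ J (clsQ c) ∧ proj Q c = d := by
  classical
  have hBQ := B_le_of hQ
  induction d using QuotientGroup.induction_on with
  | H a =>
  set w := cls (P := P) a with hw
  have hne : ∃ k, ∃ u ∈ Subgroup.closure J, len P (w * u) = k := ⟨_, 1, Subgroup.one_mem _, rfl⟩
  obtain ⟨u₁, hu₁, hk⟩ := Nat.find_spec hne
  have hmin0 : ∀ u ∈ Subgroup.closure J, len P (w * u₁) ≤ len P (w * u) := by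
    intro u hu
    rw [hk]
    exact Nat.find_min' hne ⟨u, hu, rfl⟩
  set v := w * u₁ with hv
  have hmin : ∀ u ∈ Subgroup.closure J, len P v ≤ len P (v * u) := by
    intro u hu
    have := hmin0 (u₁ * u) (Subgroup.mul_mem _ hu₁ hu)
    rwa [← mul_assoc] at this
  have hw2 : w = v * u₁⁻¹ := by
    rw [hv]
    group
  obtain ⟨nv, hnv⟩ := exists_rep v
  obtain ⟨nu, hnu⟩ := exists_rep u₁⁻¹
  have ha : a ∈ Cw P (mk P (nv * nu)) := by
    rw [map_mul, hnv, hnu, ← hw2]
    exact cls_spec a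
  rw [mem_Cw_mk] at ha
  obtain ⟨b₁, hb₁, b₂, hb₂, hab⟩ := ha
  have h1 : b₁ * (nv : G) ∈ Cw P v := by
    rw [← hnv]
    exact mul_mem_Cw_left hb₁ (rep_mem_Cw nv)
  have h2 : (nu : G) * b₂ ∈ Cw P u₁⁻¹ := by
    rw [← hnu]
    exact mul_mem_Cw_right hb₂ (rep_mem_Cw nu)
  refine ⟨QuotientGroup.mk (b₁ * (nv : G)), ?_, ?_⟩
  · rw [clsQ_mk, cls_eq h1]
    intro x hx
    exact hmin x (Subgroup.subset_closure hx)
  · rw [proj_mk hBQ]
    apply QuotientGroup.eq.mpr
    have e : (b₁ * (nv : G))⁻¹ * a = (nu : G) * b₂ := by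
      rw [hab]
      push_cast
      group
    rw [e]
    exact (hQ _).mpr ⟨u₁⁻¹, Subgroup.inv_mem _ hu₁, h2⟩

/-- The fixed points on the cosets of a parabolic subgroup. -/
theorem card_fixed (hJ : J ⊆ Sb P) (hQ : ∀ g, g ∈ Q ↔ ∃ u ∈ Subgroup.closure J, g ∈ Cw P u) {g : G} (hg : g ∈ P.B) :
    Nat.card (MulAction.fixedBy (G ⧸ Q) g) = Nat.card {c : G ⧸ P.B // g • c = c ∧ InJ J (clsQ c)} := by
  have hBQ := B_le_of hQ
  symm
  apply Nat.card_congr
  refine Equiv.ofBijective (fun c => ⟨proj Q c.1, ?_⟩) ⟨?_, ?_⟩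
  · rw [MulAction.mem_fixedBy, ← proj_smul hBQ, c.2.1]
  · rintro ⟨c, h1, h2⟩ ⟨c', h1', h2'⟩ e
    exact Subtype.ext (proj_inj hJ hQ h2 h2' (congrArg Subtype.val e))
  · rintro ⟨d, hd⟩
    obtain ⟨c, h1, h2⟩ := proj_surj hJ hQ d
    refine ⟨⟨c, ?_, h1⟩, Subtype.ext h2⟩
    rw [MulAction.mem_fixedBy, ← h2, ← proj_smul hBQ] at hd
    apply proj_inj hJ hQ _ h1 hd
    rw [clsQ_smul hg]
    exact h1

end Parabolic

/-- The alternating sum at an element of `B`. -/
theorem alt_sum [Finite G] {ι : Type*} [DecidableEq ι] (I : Finset ι) (x : ι → W P) (hx : ∀ i ∈ I, x i ∈ Sb P)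
    (hS : ∀ y ∈ Sb P, ∃ i ∈ I, x i = y) (Q : Finset ι → Subgroup G)
    (hQ : ∀ J, J ⊆ I → ∀ g, g ∈ Q J ↔ ∃ u ∈ Subgroup.closure (x '' (J : Set ι)), g ∈ Cw P u) {g : G} (hg : g ∈ P.B) :
    ∑ J ∈ I.powerset, (-1 : ℂ) ^ J.card * (Nat.card (MulAction.fixedBy (G ⧸ Q J) g) : ℂ) =
      (Nat.card {c : G ⧸ P.B // g • c = c ∧ AllDesc P (clsQ c)} : ℂ) := by
  classical
  haveI : Fintype (G ⧸ P.B) := Fintype.ofFinite _
  set X : Finset (G ⧸ P.B) := Finset.univ.filter (fun c => g • c = c) with hX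
  have h1 : ∀ J ∈ I.powerset, (Nat.card (MulAction.fixedBy (G ⧸ Q J) g) : ℂ) =
      ∑ c ∈ X, if InJ (x '' (J : Set ι)) (clsQ c) then (1 : ℂ) else 0 := by
    intro J hJ
    have hJ' : J ⊆ I := Finset.mem_powerset.mp hJ
    have hsub : x '' (J : Set ι) ⊆ Sb P := by
      rintro _ ⟨i, hi, rfl⟩
      exact hx i (hJ' hi)
    rw [card_fixed hsub (hQ J hJ') hg]
    rw [Nat.subtype_card (X.filter (fun c => InJ (x '' (J : Set ι)) (clsQ c)))
      (fun c => by simp [hX])]
    rw [Finset.sum_boole]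
  rw [Finset.sum_congr rfl (fun J hJ => by rw [h1 J hJ])]
  simp_rw [Finset.mul_sum]
  rw [Finset.sum_comm]
  have h2 : ∀ c ∈ X, ∑ J ∈ I.powerset, (-1 : ℂ) ^ J.card * (if InJ (x '' (J : Set ι)) (clsQ c) then (1 : ℂ) else 0) =
      if AllDesc P (clsQ c) then 1 else 0 := by
    intro c _
    set w := clsQ c with hw
    set D := I.filter (fun i => len P w ≤ len P (w * x i)) with hD
    have h3 : ∑ J ∈ I.powerset, (-1 : ℂ) ^ J.card * (if InJ (x '' (J : Set ι)) w then (1 : ℂ) else 0) =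
        ∑ J ∈ D.powerset, (-1 : ℂ) ^ J.card := by
      have h6 : I.powerset.filter (fun J : Finset ι => InJ (x '' (J : Set ι)) w) = D.powerset := by
        ext J
        simp only [Finset.mem_filter, Finset.mem_powerset]
        constructor
        · rintro ⟨h7, h8⟩ i hi
          rw [hD, Finset.mem_filter]
          exact ⟨h7 hi, h8 _ ⟨i, hi, rfl⟩⟩
        · intro h7
          refine ⟨fun i hi => (Finset.mem_filter.mp (h7 hi)).1, ?_⟩
          rintro _ ⟨i, hi, rfl⟩
          exact (Finset.mem_filter.mp (h7 hi)).2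
      simp_rw [mul_ite, mul_one, mul_zero]
      rw [← Finset.sum_filter, h6]
    rw [h3]
    have h4 := Finset.sum_powerset_neg_one_pow_card (x := D)
    have h5 : ∑ J ∈ D.powerset, (-1 : ℂ) ^ J.card = ((∑ J ∈ D.powerset, (-1 : ℤ) ^ J.card : ℤ) : ℂ) := by
      push_cast
      rfl
    rw [h5, h4]
    by_cases hall : AllDesc P w
    · rw [if_pos hall, if_pos]
      · simp
      · rw [Finset.eq_empty_iff_forall_notMem]
        intro i hi
        rw [hD, Finset.mem_filter] at hi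
        have := hall (x i) (hx i hi.1)
        omega
    · rw [if_neg hall, if_neg]
      · simp
      · intro hE
        apply hall
        intro y hy
        obtain ⟨i, hi, rfl⟩ := hS y hy
        have : i ∉ D := by
          rw [hE]
          simp
        rw [hD, Finset.mem_filter] at this
        push Not at this
        exact this hi
  rw [Finset.sum_congr rfl h2, Finset.sum_boole]
  congr 1
  rw [Nat.subtype_card (X.filter (fun c => AllDesc P (clsQ c))) (fun c => by simp [hX])]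

/-- The size of a Bruhat cell in terms of chambers. -/
theorem card_Cw_eq [Finite G] (w : W P) :
    Nat.card (Cw P w) = Nat.card {c : G ⧸ P.B // clsQ c = w} * Nat.card P.B := by
  rw [← Nat.card_prod]
  apply Nat.card_congr
  refine ⟨fun g => (⟨QuotientGroup.mk g.1, ?_⟩, ⟨(QuotientGroup.mk g.1 : G ⧸ P.B).out⁻¹ * g.1, mk_out_inv_mul _ _⟩),
    fun p => ⟨p.1.1.out * p.2.1, ?_⟩, ?_, ?_⟩
  · rw [clsQ_mk]
    exact cls_eq g.2
  · have h1 := cls_spec (P := P) p.1.1.out
    have h2 : cls (P := P) p.1.1.out = w := p.1.2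
    rw [h2] at h1
    exact mul_mem_Cw_right p.2.2 h1
  · rintro ⟨g, hg⟩
    apply Subtype.ext
    simp
  · rintro ⟨⟨c, hc⟩, ⟨b, hb⟩⟩
    have e : (QuotientGroup.mk (c.out * b) : G ⧸ P.B) = c := by
      have : (QuotientGroup.mk (c.out * b) : G ⧸ P.B) = QuotientGroup.mk c.out :=
        QuotientGroup.mk_mul_of_mem _ hb
      rw [this]
      exact QuotientGroup.out_eq' c
    ext
    · simp only
      rw [e]
    · simp only
      rw [e]
      group

/-- The stabiliser in `B` of the chamber `n B`. -/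
def Astab (P : Cfsg.BNPair G) (n : P.N) : Subgroup P.B where
  carrier := {b | (n : G)⁻¹ * b * n ∈ P.B}
  mul_mem' := by
    intro a b ha hb
    have : (n : G)⁻¹ * (a * b : P.B) * n = ((n : G)⁻¹ * a * n) * ((n : G)⁻¹ * b * n) := by
      push_cast
      group
    show (n : G)⁻¹ * (a * b : P.B) * n ∈ P.B
    rw [this]
    exact P.B.mul_mem ha hb
  one_mem' := by
    show (n : G)⁻¹ * ((1 : P.B) : G) * n ∈ P.B
    simp
  inv_mem' := by
    intro a ha
    have : (n : G)⁻¹ * (a⁻¹ : P.B) * n = ((n : G)⁻¹ * a * n)⁻¹ := by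
      push_cast
      group
    show (n : G)⁻¹ * (a⁻¹ : P.B) * n ∈ P.B
    rw [this]
    exact P.B.inv_mem ha

theorem mem_Astab {n : P.N} {b : P.B} : b ∈ Astab P n ↔ (n : G)⁻¹ * b * n ∈ P.B := Iff.rfl

/-- The chambers in a Bruhat cell form a single `B`-orbit. -/
theorem card_fixed_class [Finite G] (n : P.N) (b : P.B) :
    Nat.card {c : G ⧸ P.B // (b : G) • c = c ∧ clsQ c = mk P n} = Nat.card (MulAction.fixedBy (P.B ⧸ Astab P n) b) := by
  symm
  apply Nat.card_congr
  -- the map `a A ↦ a n B`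
  let f : P.B ⧸ Astab P n → G ⧸ P.B := fun a => QuotientGroup.mk ((a.out : P.B) * (n : G))
  have hf : ∀ a : P.B, f (QuotientGroup.mk a) = QuotientGroup.mk ((a : G) * (n : G)) := by
    intro a
    apply QuotientGroup.eq.mpr
    have h := QuotientGroup.eq.mp (QuotientGroup.out_eq' (QuotientGroup.mk a : P.B ⧸ Astab P n))
    have h2 : (n : G)⁻¹ * (((QuotientGroup.mk a : P.B ⧸ Astab P n).out⁻¹ * a : P.B) : G) * n ∈ P.B := h
    have e : (((QuotientGroup.mk a : P.B ⧸ Astab P n).out : P.B) * (n : G))⁻¹ * ((a : G) * (n : G)) =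
        (n : G)⁻¹ * (((QuotientGroup.mk a : P.B ⧸ Astab P n).out⁻¹ * a : P.B) : G) * n := by
      push_cast
      group
    rw [e]
    exact h2
  have hcl : ∀ a : P.B ⧸ Astab P n, clsQ (f a) = mk P n := by
    intro a
    simp only [f]
    rw [clsQ_mk]
    exact cls_eq (mul_mem_Cw_left (a.out : P.B).2 (rep_mem_Cw n))
  have hsm : ∀ a : P.B ⧸ Astab P n, f (b • a) = (b : G) • f a := by
    intro a
    induction a using QuotientGroup.induction_on with
    | H a =>
      have e : b • (QuotientGroup.mk a : P.B ⧸ Astab P n) = QuotientGroup.mk (b * a) := rfl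
      rw [e, hf, hf]
      have e2 : (b : G) • (QuotientGroup.mk ((a : G) * (n : G)) : G ⧸ P.B) = QuotientGroup.mk ((b : G) * ((a : G) * (n : G))) := rfl
      rw [e2]
      congr 1
      push_cast
      group
  have hinj : Function.Injective f := by
    intro a a' h
    induction a using QuotientGroup.induction_on with
    | H a =>
    induction a' using QuotientGroup.induction_on with
    | H a' =>
    rw [hf, hf] at h
    have h2 := QuotientGroup.eq.mp h
    apply QuotientGroup.eq.mpr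
    show (n : G)⁻¹ * ((a⁻¹ * a' : P.B) : G) * n ∈ P.B
    have e : (n : G)⁻¹ * ((a⁻¹ * a' : P.B) : G) * n = ((a : G) * (n : G))⁻¹ * ((a' : G) * (n : G)) := by
      push_cast
      group
    rw [e]
    exact h2
  refine Equiv.ofBijective (fun a => ⟨f a.1, ?_, hcl a.1⟩) ⟨?_, ?_⟩
  · rw [← hsm]
    have := a.2
    rw [MulAction.mem_fixedBy] at this
    rw [this]
  · rintro ⟨a, ha⟩ ⟨a', ha'⟩ e
    exact Subtype.ext (hinj (congrArg Subtype.val e))
  · rintro ⟨c, hc1, hc2⟩
    -- every chamber of the cell is in the orbit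
    induction c using QuotientGroup.induction_on with
    | H g =>
    rw [clsQ_mk] at hc2
    have hg := cls_spec (P := P) g
    rw [hc2, mem_Cw_mk] at hg
    obtain ⟨x, hx, y, hy, rfl⟩ := hg
    have e : (QuotientGroup.mk (x * (n : G) * y) : G ⧸ P.B) = QuotientGroup.mk (x * (n : G)) :=
      QuotientGroup.mk_mul_of_mem _ hy
    have hval : f (QuotientGroup.mk (⟨x, hx⟩ : P.B)) = (QuotientGroup.mk (x * (n : G) * y) : G ⧸ P.B) := by
      rw [hf, e]
    refine ⟨⟨QuotientGroup.mk (⟨x, hx⟩ : P.B), ?_⟩, Subtype.ext hval⟩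
    rw [MulAction.mem_fixedBy]
    apply hinj
    rw [hsm, hval]
    exact hc1

end Cfsg.Agent.Lib.LdSt2
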