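import Mathlib
import Cfsg.Agent.Lib.LdSt2
import Cfsg.Agent.Lib.ChevOrd
import Cfsg.Agent.Lib.ChevAll5
import Cfsg.Prelude.Def_ParabolicCharacters

set_option autoImplicit false
set_option linter.unusedSectionVars false
set_option linter.unusedVariables false

/-! The alternating sum on the Borel subgroup of a Chevalley group and the degree of the Steinberg character. -/

namespace Cfsg.Agent.Lib.LdSt3

open Cfsg Cfsg.Lie Matrix Cfsg.Agent.Lib.ChevEngine Cfsg.Agent.Lib.ChevTab Cfsg.Agent.Lib.ChevMono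
  Cfsg.Agent.Lib.ChevRel Cfsg.Agent.Lib.ChevValid Cfsg.Agent.Lib.ChevGL Cfsg.Agent.Lib.ChevGrad Cfsg.Agent.Lib.ChevL2
  Cfsg.Agent.Lib.ChevU Cfsg.Agent.Lib.ChevU2 Cfsg.Agent.Lib.ChevU3 Cfsg.Agent.Lib.ChevDiag Cfsg.Agent.Lib.ChevV3
  Cfsg.Agent.Lib.ChevH Cfsg.Agent.Lib.ChevN Cfsg.Agent.Lib.ChevN2 Cfsg.Agent.Lib.ChevN3 Cfsg.Agent.Lib.ChevBN Cfsg.Agent.Lib.ChevBN2
  Cfsg.Agent.Lib.ChevV4 Cfsg.Agent.Lib.ChevSimp Cfsg.Agent.Lib.ChevSimp2 Cfsg.Agent.Lib.ChevPar Cfsg.Agent.Lib.ChevV5 Cfsg.Agent.Lib.ChevPar2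
  Cfsg.Agent.Lib.BNPair Cfsg.Agent.Lib.BNCount Cfsg.Agent.Lib.ChevW1 Cfsg.Agent.Lib.ChevW2 Cfsg.Agent.Lib.ChevV6 Cfsg.Agent.Lib.ChevOrd
  Cfsg.Agent.Lib.LdSt1 Cfsg.Agent.Lib.LdSt2

variable {D : ChevalleyDatum} {T : Tb} {C : Tc} {X : Tc3} {Y : Tc4} {F : Type*} [Field F]

section
variable (V : Valid D T) (V2 : Valid2 D T C) (V3 : Valid3 T C X)

/-- The generators of the parabolic subgroup inside the Chevalley group. -/
def SJ (D : ChevalleyDatum) (F : Type*) [Field F] (J : Finset ℕ) : Set ↥(D.group F) :=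
  {n | ∃ j ∈ J, j < D.rank ∧ ((n : GL D.Idx F) : Matrix D.Idx D.Idx F) = D.nMat F (D.simple j) 1}

theorem SJ_sub (J : Finset ℕ) : SJ D F J ⊆ (bnPair (F := F) V V2 V3).S := by
  rintro n ⟨j, _, hj, h⟩
  exact ⟨j, hj, h⟩

theorem par_eq_parabolic (J : Finset ℕ) : D.parabolicIn F J = (bnPair (F := F) V V2 V3).parabolic (SJ D F J) := by
  apply le_antisymm
  · intro g hg
    have hg' : (g : GL D.Idx F) ∈ D.parabolicSubgroup F (↑J : Set ℕ) := hg
    have hle : D.parabolicSubgroup F (↑J : Set ℕ) ≤ ((bnPair (F := F) V V2 V3).parabolic (SJ D F J)).map (D.group F).subtype := by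
      refine sup_le ?_ ?_
      · intro b hb
        exact ⟨⟨b, B_le_G V V2 hb⟩, Subgroup.mem_sup_left hb, rfl⟩
      · rw [Subgroup.closure_le]
        rintro n ⟨j, hj, hj2, h⟩
        have hj2' : j < T.l := by rw [V.hl]; exact hj2
        have e : n = nU V (D.simple j) 1 := Units.ext (by rw [h, nU_val])
        refine ⟨⟨nU V (D.simple j) 1, nU_mem_G V (V.sim_lt hj2) 1⟩, ?_, e.symm⟩
        refine Subgroup.mem_sup_right (Subgroup.subset_closure ⟨j, hj, hj2, nU_val V _ _⟩)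
    obtain ⟨g', h1, h2⟩ := hle hg'
    have : g' = g := Subtype.ext h2
    exact this ▸ h1
  · refine sup_le ?_ ?_
    · intro b hb
      exact (le_sup_left : D.borelSubgroup F ≤ D.parabolicSubgroup F (↑J : Set ℕ)) hb
    · rw [Subgroup.closure_le]
      rintro n ⟨j, hj, hj2, h⟩
      refine (le_sup_right : _ ≤ D.parabolicSubgroup F (↑J : Set ℕ)) (Subgroup.subset_closure ⟨j, ?_, hj2, h⟩)
      exact_mod_cast hj

theorem xi_eq_mk {j : ℕ} (hj : j < T.l) {n : (bnPair (F := F) V V2 V3).N}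
    (h : (((n : ↥(D.group F)) : GL D.Idx F) : Matrix D.Idx D.Idx F) = D.nMat F (D.simple j) 1) :
    mk _ n = xi V V2 V3 F j := by
  unfold xi
  rw [dif_pos hj]
  congr 1
  apply Subtype.ext
  apply Subtype.ext
  exact Units.ext (by rw [h, nU_val])

theorem mem_closure_xi (J : Finset ℕ) (hJ : J ⊆ Finset.range D.rank) {n : ↥(D.group F)} (hn : n ∈ Subgroup.closure (SJ D F J))
    (hnN : n ∈ (bnPair (F := F) V V2 V3).N) :
    mk _ ⟨n, hnN⟩ ∈ Subgroup.closure (xi V V2 V3 F '' (J : Set ℕ)) := by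
  obtain ⟨L, hL, e⟩ := exists_word_of_mem_closure (P := bnPair (F := F) V V2 V3) (SJ_sub V V2 V3 J) hn hnN
  rw [← e]
  apply Subgroup.list_prod_mem
  intro x hx
  obtain ⟨s, hs, rfl⟩ := hL x hx
  obtain ⟨j, hj, hj2, h⟩ := hs
  have hj2' : j < T.l := by rw [V.hl]; exact hj2
  rw [xi_eq_mk V V2 V3 hj2' h]
  exact Subgroup.subset_closure ⟨j, by exact_mod_cast hj, rfl⟩

theorem exists_lift_xi (J : Finset ℕ) (hJ : J ⊆ Finset.range D.rank) {u : W (bnPair (F := F) V V2 V3)}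
    (hu : u ∈ Subgroup.closure (xi V V2 V3 F '' (J : Set ℕ))) :
    ∃ n : (bnPair (F := F) V V2 V3).N, ((n : ↥(D.group F))) ∈ Subgroup.closure (SJ D F J) ∧ mk _ n = u := by
  induction hu using Subgroup.closure_induction with
  | mem x hx =>
    obtain ⟨j, hj, rfl⟩ := hx
    have hj1 : j < D.rank := Finset.mem_range.mp (hJ hj)
    have hj2 : j < T.l := by rw [V.hl]; exact hj1
    refine ⟨⟨⟨nU V (D.simple j) 1, nU_mem_G V (V.sim_lt hj1) 1⟩, n_mem_N V V2 V3 hj2⟩, ?_, ?_⟩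
    · exact Subgroup.subset_closure ⟨j, hj, hj1, nU_val V _ _⟩
    · exact xi_eq_mk V V2 V3 hj2 (nU_val V _ _)
  | one => exact ⟨1, Subgroup.one_mem _, map_one _⟩
  | mul a b _ _ ha hb =>
    obtain ⟨n, hn, rfl⟩ := ha
    obtain ⟨m, hm, rfl⟩ := hb
    exact ⟨n * m, Subgroup.mul_mem _ hn hm, map_mul _ _ _⟩
  | inv a _ ha =>
    obtain ⟨n, hn, rfl⟩ := ha
    exact ⟨n⁻¹, Subgroup.inv_mem _ hn, map_inv _ _⟩

/-- Membership in a standard parabolic subgroup via Bruhat cells. -/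
theorem par_iff (J : Finset ℕ) (hJ : J ⊆ Finset.range D.rank) (g : ↥(D.group F)) :
    g ∈ D.parabolicIn F J ↔ ∃ u ∈ Subgroup.closure (xi V V2 V3 F '' (J : Set ℕ)), g ∈ Cw (bnPair (F := F) V V2 V3) u := by
  rw [par_eq_parabolic V V2 V3, mem_parabolic_iff (SJ_sub V V2 V3 J)]
  constructor
  · rintro ⟨n, hn, hg⟩
    have hnN : n ∈ (bnPair (F := F) V V2 V3).N := mem_closure_S_N (Subgroup.closure_mono (SJ_sub V V2 V3 J) hn)
    exact ⟨_, mem_closure_xi V V2 V3 J hJ hn hnN, mem_Cw_mk.2 hg⟩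
  · rintro ⟨u, hu, hg⟩
    obtain ⟨n, hn, rfl⟩ := exists_lift_xi V V2 V3 J hJ hu
    exact ⟨n, hn, mem_Cw_mk.1 hg⟩


variable [Finite F]

instance finG : Finite ↥(D.group F) := inferInstance

/-- The alternating sum at an element of `B`. -/
theorem st_of_mem_B {g : ↥(D.group F)} (hg : g ∈ (bnPair (F := F) V V2 V3).B) :
    D.steinbergCharacter F g =
      (Nat.card {c : ↥(D.group F) ⧸ (bnPair (F := F) V V2 V3).B // g • c = c ∧ AllDesc (bnPair (F := F) V V2 V3) (clsQ c)} : ℂ) := by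
  unfold ChevalleyDatum.steinbergCharacter fixedPointCharacter
  refine alt_sum (P := bnPair (F := F) V V2 V3) (Finset.range D.rank) (xi V V2 V3 F) ?_ ?_ (fun J => D.parabolicIn F J) ?_ hg
  · intro i hi
    exact xi_mem V V2 V3 (by rw [V.hl]; exact Finset.mem_range.mp hi)
  · intro y hy
    obtain ⟨i, hi, rfl⟩ := mem_Sb V V2 V3 hy
    exact ⟨i, Finset.mem_range.mpr (by rw [← V.hl]; exact hi), rfl⟩
  · intro J hJ g
    exact par_iff V V2 V3 J hJ g

variable (V4 : Valid4 D T C Y)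

include V4 in
/-- The inversions of the longest element. -/
theorem allDesc_len {w : W (bnPair (F := F) V V2 V3)} (h : AllDesc _ w) : len _ w = T.n / 2 := by
  have h1 : ∀ m < T.l, rho V V2 V3 w (T.sim m) < T.n / 2 := fun m hm =>
    neg_of_len_lt V V2 V3 V4 hm (h _ (xi_mem V V2 V3 hm))
  have h2 : ∀ r, T.n / 2 ≤ r → r < T.n → rho V V2 V3 w r < T.n / 2 := by
    intro r hr1 hr2
    by_contra hc
    push Not at hc
    have hlt := rho_lt V V2 V3 w hr2
    have h0 := n_even V2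
    have hneg : T.neg (rho V V2 V3 w r) < T.n / 2 := neg_lt_half V2 hc hlt
    obtain ⟨j, hj, h4⟩ := exists_coef_neg V V2 hneg
    rw [V2.coef_neg hlt hj] at h4
    have h5 := linF_rho V V2 V3 w (linF_coef V V2 V3 hj) r hr2
    simp only [] at h5
    have h6 : ∑ i ∈ Finset.range T.l, C.coef r i * C.coef (rho V V2 V3 w (T.sim i)) j ≤ 0 := by
      apply Finset.sum_nonpos
      intro i hi
      have hi' : i < T.l := by simpa using hi
      exact mul_nonpos_of_nonneg_of_nonpos (coef_nonneg_of_pos V V2 hr1 hr2 hi')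
        (coef_nonpos_of_neg V V2 (h1 i hi') hj)
    omega
  rw [len_eq V V2 V3 V4]
  have h3 : Inv V V2 V3 w = Finset.Ico (T.n / 2) T.n := by
    ext r
    rw [mem_Inv, Finset.mem_Ico]
    constructor
    · rintro ⟨a, b, _⟩
      exact ⟨a, b⟩
    · rintro ⟨a, b⟩
      exact ⟨a, b, h2 r a b⟩
  rw [h3, Nat.card_Ico]
  have h0 := n_even V2
  omega

end

section
variable (V : Valid D T) (V2 : Valid2 D T C) (V3 : Valid3 T C X) (V4 : Valid4 D T C Y) [Fintype F]

include V4 in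
/-- The number of chambers in the big cell. -/
theorem card_big {w : W (bnPair (F := F) V V2 V3)} (h : AllDesc _ w) :
    Nat.card {c : ↥(D.group F) ⧸ (bnPair (F := F) V V2 V3).B // clsQ c = w} = Fintype.card F ^ (T.n / 2) := by
  have h1 := card_Cw_eq (P := bnPair (F := F) V V2 V3) w
  have h2 := card_Cw_pow (P := bnPair (F := F) V V2 V3) (q := Nat.card F) (by
    intro x hx
    obtain ⟨i, hi, rfl⟩ := mem_Sb V V2 V3 hx
    exact card_Cw_xi V V2 V3 hi) _ w rfl
  rw [allDesc_len V V2 V3 V4 h] at h2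
  rw [h2] at h1
  have hB : 0 < Nat.card (bnPair (F := F) V V2 V3).B := Nat.card_pos
  have h3 := Nat.eq_of_mul_eq_mul_right hB h1
  rw [← h3, Nat.card_eq_fintype_card]

include V V2 V3 V4 in
/-- The degree of the Steinberg character. -/
theorem st_one : D.steinbergCharacter F 1 = (Fintype.card F : ℂ) ^ (T.n / 2) := by
  obtain ⟨w, hw⟩ := exists_allDesc (P := bnPair (F := F) V V2 V3)
  rw [st_of_mem_B V V2 V3 ((bnPair (F := F) V V2 V3).B.one_mem)]
  have : Nat.card {c : ↥(D.group F) ⧸ (bnPair (F := F) V V2 V3).B // (1 : ↥(D.group F)) • c = c ∧ AllDesc (bnPair (F := F) V V2 V3) (clsQ c)} =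
      Nat.card {c : ↥(D.group F) ⧸ (bnPair (F := F) V V2 V3).B // clsQ c = w} := by
    apply Nat.card_congr
    apply Equiv.subtypeEquivRight
    intro c
    constructor
    · rintro ⟨_, h⟩
      exact allDesc_unique h hw
    · rintro rfl
      exact ⟨one_smul _ _, hw⟩
  rw [this, card_big V V2 V3 V4 hw]
  push_cast
  rfl

/-- The diagonal subgroup inside `B`. -/
noncomputable def HB (V : Valid D T) (V2 : Valid2 D T C) (V3 : Valid3 T C X) (F : Type*) [Field F] : Subgroup (bnPair (F := F) V V2 V3).B :=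
  ((D.diagonalSubgroup F).subgroupOf (D.group F)).subgroupOf (bnPair (F := F) V V2 V3).B

include V V2 V3 V4 in
theorem card_HB : Nat.card (HB V V2 V3 F) = Nat.card (D.diagonalSubgroup F) := by
  symm
  apply Nat.card_congr
  refine Equiv.ofBijective (fun h => ⟨⟨⟨h.1, H_le_G V h.2⟩, H_le_B V V2 V3 h.2⟩, h.2⟩) ⟨?_, ?_⟩
  · intro a b e
    have e1 := congrArg (fun z : HB V V2 V3 F => ((z : (bnPair (F := F) V V2 V3).B) : ↥(D.group F))) e
    have e2 := congrArg (fun z : ↥(D.group F) => (z : GL D.Idx F)) e1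
    exact Subtype.ext e2
  · rintro ⟨⟨⟨g, h1⟩, h2⟩, h3⟩
    exact ⟨⟨g, h3⟩, rfl⟩

include V V2 V3 V4 in
theorem Astab_eq (n : (bnPair (F := F) V V2 V3).N) (hw : AllDesc _ (mk _ n)) :
    Astab (bnPair (F := F) V V2 V3) n = HB V V2 V3 F := by
  symm
  have hle : HB V V2 V3 F ≤ Astab (bnPair (F := F) V V2 V3) n := by
    intro x hx
    rw [mem_Astab]
    have hx' : (((x : (bnPair (F := F) V V2 V3).B) : ↥(D.group F)) : GL D.Idx F) ∈ D.diagonalSubgroup F := hx
    have hnN : ((n : ↥(D.group F)) : GL D.Idx F) ∈ D.monomialSubgroup F := n.2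
    have h4 := normalizer_conj_mem (N_le_normalizer_H V V2 V3 (Subgroup.inv_mem _ hnN)) hx'
    show _ ∈ D.borelSubgroup F
    have h5 := H_le_B V V2 V3 h4
    simpa using h5
  apply Subgroup.eq_of_le_of_card_ge hle
  have h1 := card_fixed_class (P := bnPair (F := F) V V2 V3) n 1
  have h2 : Nat.card {c : ↥(D.group F) ⧸ (bnPair (F := F) V V2 V3).B // (((1 : (bnPair (F := F) V V2 V3).B)) : ↥(D.group F)) • c = c ∧ clsQ c = mk _ n} =
      Nat.card {c : ↥(D.group F) ⧸ (bnPair (F := F) V V2 V3).B // clsQ c = mk _ n} := by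
    apply Nat.card_congr
    apply Equiv.subtypeEquivRight
    intro c
    constructor
    · rintro ⟨_, h⟩
      exact h
    · intro h
      exact ⟨by simp, h⟩
  have h3 : Nat.card (MulAction.fixedBy ((bnPair (F := F) V V2 V3).B ⧸ Astab (bnPair (F := F) V V2 V3) n) (1 : (bnPair (F := F) V V2 V3).B)) =
      Nat.card ((bnPair (F := F) V V2 V3).B ⧸ Astab (bnPair (F := F) V V2 V3) n) := by
    apply Nat.card_congr
    exact (Equiv.subtypeUnivEquiv (fun c => by simp [MulAction.mem_fixedBy]))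
  rw [h2, h3, card_big V V2 V3 V4 hw] at h1
  have h4 := Subgroup.card_eq_card_quotient_mul_card_subgroup (Astab (bnPair (F := F) V V2 V3) n)
  have hnr : Fintype.card F ^ (D.nroots / 2) = Fintype.card F ^ (T.n / 2) := by
    have : D.nroots = T.n := V.hn.symm
    simp only [this]
  rw [← h1, card_PB V V2 V3, card_borel V V2 V3, card_U V V2, hnr] at h4
  have h5 := card_HB V V2 V3 V4 (F := F)
  have h6 : 0 < Fintype.card F ^ (T.n / 2) := pow_pos Fintype.card_pos _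
  have h7 : Nat.card (D.diagonalSubgroup F) = Nat.card (Astab (bnPair (F := F) V V2 V3) n) :=
    Nat.eq_of_mul_eq_mul_left h6 h4
  rw [h5, h7]

include V V2 V3 V4 in
/-- The Steinberg character on `B`. -/
theorem st_borel (b : (bnPair (F := F) V V2 V3).B) :
    D.steinbergCharacter F (b : ↥(D.group F)) =
      (Nat.card (MulAction.fixedBy ((bnPair (F := F) V V2 V3).B ⧸ HB V V2 V3 F) b) : ℂ) := by
  obtain ⟨w, hw⟩ := exists_allDesc (P := bnPair (F := F) V V2 V3)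
  obtain ⟨n, rfl⟩ := mk_surjective w
  rw [st_of_mem_B V V2 V3 b.2, ← Astab_eq V V2 V3 V4 n hw, ← card_fixed_class]
  congr 1
  apply Nat.card_congr
  apply Equiv.subtypeEquivRight
  intro c
  constructor
  · rintro ⟨h1, h2⟩
    exact ⟨h1, allDesc_unique h2 hw⟩
  · rintro ⟨h1, h2⟩
    exact ⟨h1, h2 ▸ hw⟩

end

end Cfsg.Agent.Lib.LdSt3
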