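import Mathlib
import Cfsg.Agent.Lib.LdSt2
import Cfsg.Agent.Lib.CharTI

set_option autoImplicit false
set_option linter.unusedSectionVars false
set_option linter.unusedVariables false

/-! Double cosets of parabolic subgroups and reduced double coset representatives. -/

namespace Cfsg.Agent.Lib.LdSt4

open Cfsg Cfsg.Agent.Lib.BNPair Cfsg.Agent.Lib.BNCount Cfsg.Agent.Lib.LdSt1 Cfsg.Agent.Lib.LdSt2

variable {G : Type*} [Group G] {P : Cfsg.BNPair G}

/-- No left descents in `A`. -/
def LMin (A : Set (W P)) (w : W P) : Prop := ∀ x ∈ A, len P w ≤ len P (x * w)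

theorem add_right {B : Set (W P)} (hB : B ⊆ Sb P) {d : W P} (h : InJ B d) {v : W P} (hv : v ∈ Subgroup.closure B) :
    len P (d * v) = len P d + len P v := by
  obtain ⟨M, hM, rfl, hl⟩ := exists_reduced_in hB hv
  rw [additive hB (min_of_no_descent hB h) M hM hl, hl]

theorem add_left {A : Set (W P)} (hA : A ⊆ Sb P) {d : W P} (h : LMin A d) {u : W P} (hu : u ∈ Subgroup.closure A) :
    len P (u * d) = len P u + len P d := by
  have h' : InJ A d⁻¹ := by
    intro x hx
    have e : d⁻¹ * x = (x * d)⁻¹ := by simp [Sb_inv (hA hx)]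
    rw [e, len_inv, len_inv]
    exact h x hx
  have h2 := add_right hA h' (Subgroup.inv_mem _ hu)
  have e : d⁻¹ * u⁻¹ = (u * d)⁻¹ := by simp
  rw [e, len_inv, len_inv, len_inv] at h2
  omega

theorem two_sided {A B : Set (W P)} (hA : A ⊆ Sb P) (hB : B ⊆ Sb P) {d : W P} (h1 : LMin A d) (h2 : InJ B d) :
    ∀ (k : ℕ) (u v : W P), u ∈ Subgroup.closure A → v ∈ Subgroup.closure B → len P u + len P v ≤ k →
      ∃ u' ∈ Subgroup.closure A, ∃ v' ∈ Subgroup.closure B, u * d * v = u' * d * v' ∧
        len P (u' * d * v') = len P u' + len P d + len P v' ∧ len P u' + len P v' ≤ len P u + len P v := by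
  intro k
  induction k with
  | zero =>
    intro u v hu hv hk
    have hu1 : u = 1 := len_eq_zero.mp (by omega)
    have hv1 : v = 1 := len_eq_zero.mp (by omega)
    subst hu1 hv1
    exact ⟨1, hu, 1, hv, rfl, by simp [len_one], le_rfl⟩
  | succ k ih =>
    intro u v hu hv hk
    by_cases hv1 : v = 1
    · subst hv1
      exact ⟨u, hu, 1, hv, rfl, by rw [mul_one, add_left hA h1 hu, len_one, add_zero], le_rfl⟩
    obtain ⟨M, hM, hMp, hMl⟩ := exists_reduced_in hB hv
    rcases List.eq_nil_or_concat' M with rfl | ⟨M', t, rfl⟩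
    · exfalso
      apply hv1
      simpa using hMp.symm
    have ht : t ∈ B := hM t (by simp)
    have ht' : t ∈ Sb P := hB ht
    have hM' : ∀ y ∈ M', y ∈ B := fun y hy => hM y (by simp [hy])
    have hM1 : ∀ y ∈ M' ++ [t], y ∈ Sb P := fun y hy => hB (hM y hy)
    have hred := reduced_prefix hM1 (by rw [hMp, hMl])
    have ev : v = M'.prod * t := by rw [← hMp]; simp
    have hlv : len P v = M'.length + 1 := by rw [← hMl]; simp
    have hv₁ : M'.prod ∈ Subgroup.closure B := Subgroup.list_prod_mem _ (fun y hy => Subgroup.subset_closure (hM' y hy))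
    obtain ⟨u', hu', v', hv', e1, e2, e3⟩ := ih u M'.prod hu hv₁ (by omega)
    have ev2 : u * d * v = u' * d * (v' * t) := by rw [ev, ← mul_assoc, e1, mul_assoc]
    have hv't : v' * t ∈ Subgroup.closure B := Subgroup.mul_mem _ hv' (Subgroup.subset_closure ht)
    rcases len_mul_cases_right (w := v') ht' with c | c
    · rcases len_mul_cases_right (w := u' * d * v') ht' with c2 | c2
      · refine ⟨u', hu', v' * t, hv't, ev2, ?_, ?_⟩
        · rw [← mul_assoc, c2, e2, c]
          omega
        · rw [c]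
          omega
      · -- the exchange condition
        obtain ⟨Ru, hRu, pu, lu⟩ := exists_reduced_in hA hu'
        obtain ⟨Rd, hRd, pd, ld⟩ := exists_reduced d
        obtain ⟨Rv, hRv, pv, lv⟩ := exists_reduced_in hB hv'
        have hL : ∀ y ∈ Ru ++ (Rd ++ Rv), y ∈ Sb P := by
          intro y hy
          rcases List.mem_append.mp hy with h | h
          · exact hA (hRu y h)
          · rcases List.mem_append.mp h with h | h
            · exact hRd y h
            · exact hB (hRv y h)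
        have hprod : (Ru ++ (Rd ++ Rv)).prod = u' * d * v' := by
          simp only [List.prod_append, pu, pd, pv, mul_assoc]
        have hlen : (Ru ++ (Rd ++ Rv)).length = len P (Ru ++ (Rd ++ Rv)).prod := by
          rw [hprod, e2]
          simp only [List.length_append, lu, ld, lv]
          omega
        obtain ⟨i, hi⟩ := exchange_right hL hlen ht' (by rw [hprod]; omega)
        rw [hprod] at hi
        by_cases hi1 : i.1 < Ru.length
        · rw [List.eraseIdx_append_of_lt_length hi1, List.prod_append, List.prod_append, pd, pv] at hi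
          have hû : (Ru.eraseIdx i.1).prod ∈ Subgroup.closure A :=
            Subgroup.list_prod_mem _ (fun y hy => Subgroup.subset_closure (hRu y (List.mem_of_mem_eraseIdx hy)))
          have hûl : len P (Ru.eraseIdx i.1).prod + 1 ≤ len P u' := by
            have h3 : len P (Ru.eraseIdx i.1).prod ≤ (Ru.eraseIdx i.1).length :=
              len_prod_le (fun y hy => hA (hRu y (List.mem_of_mem_eraseIdx hy)))
            rw [List.length_eraseIdx_of_lt hi1] at h3
            omega
          obtain ⟨u2, hu2, v2, hv2, e4, e5, e6⟩ := ih _ v' hû hv' (by omega)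
          refine ⟨u2, hu2, v2, hv2, ?_, e5, by omega⟩
          rw [ev2, ← e4, ← mul_assoc (u' * d) v' t, hi, mul_assoc]
        · rw [List.eraseIdx_append_of_length_le (by omega), List.prod_append, pu] at hi
          exfalso
          by_cases hi2 : i.1 - Ru.length < Rd.length
          · rw [List.eraseIdx_append_of_lt_length hi2, List.prod_append, pv] at hi
            have e7 : d * (v' * t) = (Rd.eraseIdx (i.1 - Ru.length)).prod * v' := by
              apply mul_left_cancel (a := u')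
              rw [← hi]
              group
            have h3 := add_right hB h2 hv't
            rw [e7] at h3
            have hsub : ∀ y ∈ Rd.eraseIdx (i.1 - Ru.length) ++ Rv, y ∈ Sb P := by
              intro y hy
              rcases List.mem_append.mp hy with h | h
              · exact hRd y (List.mem_of_mem_eraseIdx h)
              · exact hB (hRv y h)
            have h4 := len_prod_le hsub
            simp only [List.prod_append, pv, List.length_append, lv] at h4
            rw [List.length_eraseIdx_of_lt hi2] at h4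
            omega
          · rw [List.eraseIdx_append_of_length_le (by omega), List.prod_append, pd] at hi
            have e7 : v' * t = (Rv.eraseIdx (i.1 - Ru.length - Rd.length)).prod := by
              apply mul_left_cancel (a := u' * d)
              rw [mul_assoc u' d (Rv.eraseIdx _).prod, ← hi]
              group
            have h4 : len P (Rv.eraseIdx (i.1 - Ru.length - Rd.length)).prod ≤ (Rv.eraseIdx (i.1 - Ru.length - Rd.length)).length :=
              len_prod_le (fun y hy => hB (hRv y (List.mem_of_mem_eraseIdx hy)))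
            have hlt : i.1 - Ru.length - Rd.length < Rv.length := by
              have := i.2
              simp only [List.length_append] at this
              omega
            rw [List.length_eraseIdx_of_lt hlt, ← e7, c, lv] at h4
            omega
    · have hb : len P u' + len P (v' * t) ≤ k := by omega
      obtain ⟨u2, hu2, v2, hv2, e4, e5, e6⟩ := ih u' (v' * t) hu' hv't hb
      exact ⟨u2, hu2, v2, hv2, ev2.trans e4, e5, by omega⟩

/-- Two reduced representatives of the same double coset are equal. -/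
theorem reduced_unique {A B : Set (W P)} (hA : A ⊆ Sb P) (hB : B ⊆ Sb P) {d d' : W P} (h1 : LMin A d) (h2 : InJ B d)
    (h1' : LMin A d') (h2' : InJ B d') {u v : W P} (hu : u ∈ Subgroup.closure A) (hv : v ∈ Subgroup.closure B)
    (e : d' = u * d * v) : d' = d := by
  obtain ⟨u1, hu1, v1, hv1, e1, e2, _⟩ := two_sided hA hB h1 h2 _ u v hu hv le_rfl
  have e' : d = u⁻¹ * d' * v⁻¹ := by rw [e]; group
  obtain ⟨u2, hu2, v2, hv2, e3, e4, _⟩ := two_sided hA hB h1' h2' _ u⁻¹ v⁻¹ (Subgroup.inv_mem _ hu) (Subgroup.inv_mem _ hv) le_rfl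
  rw [← e3, ← e'] at e4
  rw [← e1, ← e] at e2
  have h3 : len P u1 = 0 := by omega
  have h4 : len P v1 = 0 := by omega
  rw [len_eq_zero] at h3 h4
  rw [e, e1, h3, h4]
  simp

/-- A representative of an element of the Weyl group. -/
noncomputable def repW (d : W P) : P.N := (exists_rep d).choose

theorem mk_repW (d : W P) : mk P (repW d) = d := (exists_rep d).choose_spec

theorem repW_mem (d : W P) : (repW d : G) ∈ Cw P d := by
  have h := rep_mem_Cw (repW d)
  rwa [mk_repW] at h

section Orbits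

variable {A B : Set (W P)} (hA : A ⊆ Sb P) (hB : B ⊆ Sb P) {QA QB : Subgroup G}
  (hQA : ∀ g, g ∈ QA ↔ ∃ u ∈ Subgroup.closure A, g ∈ Cw P u)
  (hQB : ∀ g, g ∈ QB ↔ ∃ u ∈ Subgroup.closure B, g ∈ Cw P u)

include hA hB hQA hQB in
theorem orbit_card :
    Nat.card (Quotient (MulAction.orbitRel G ((G ⧸ QA) × (G ⧸ QB)))) = Nat.card {d : W P // LMin A d ∧ InJ B d} := by
  symm
  apply Nat.card_congr
  refine Equiv.ofBijective (fun d => Quotient.mk _ ((QuotientGroup.mk 1 : G ⧸ QA), (QuotientGroup.mk (repW d.1 : G) : G ⧸ QB))) ⟨?_, ?_⟩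
  · rintro ⟨d, hd1, hd2⟩ ⟨d', hd1', hd2'⟩ e
    have e1 : _ ∈ MulAction.orbit G _ := Quotient.exact e
    rw [MulAction.mem_orbit_iff] at e1
    obtain ⟨g, hg⟩ := e1
    have hg1 : g • (QuotientGroup.mk 1 : G ⧸ QA) = QuotientGroup.mk 1 := congrArg Prod.fst hg
    have hg2 : g • (QuotientGroup.mk (repW d' : G) : G ⧸ QB) = QuotientGroup.mk (repW d : G) := congrArg Prod.snd hg
    have hg1' : g ∈ QA := by
      have h3 : (QuotientGroup.mk (g * 1) : G ⧸ QA) = QuotientGroup.mk 1 := hg1
      have h4 := QuotientGroup.eq.mp h3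
      simpa using h4
    have hg2' : (g * (repW d' : G))⁻¹ * (repW d : G) ∈ QB := by
      have h3 : (QuotientGroup.mk (g * (repW d' : G)) : G ⧸ QB) = QuotientGroup.mk (repW d : G) := hg2
      exact QuotientGroup.eq.mp h3
    obtain ⟨u, hu, hgu⟩ := (hQA g).mp hg1'
    obtain ⟨v, hv, hcv⟩ := (hQB _).mp hg2'
    obtain ⟨u', hu', h5⟩ := mul_Cw_left hA hu hgu (repW_mem d')
    obtain ⟨v', hv', h6⟩ := mul_Cw_right hB hv hcv h5
    rw [mul_inv_cancel_left] at h6
    have h7 := eq_of_mem_Cw h6 (repW_mem d)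
    have h8 := reduced_unique hA hB hd1' hd2' hd1 hd2 hu' hv' h7.symm
    exact Subtype.ext h8
  · intro o
    induction o using Quotient.inductionOn with
    | _ y =>
    obtain ⟨a, b⟩ := y
    induction a using QuotientGroup.induction_on with
    | H a =>
    induction b using QuotientGroup.induction_on with
    | H b =>
    set g := a⁻¹ * b with hg
    set w := cls (P := P) g with hw
    have hwg : g ∈ Cw P w := cls_spec g
    have hne : ∃ k, ∃ d, (∃ u ∈ Subgroup.closure A, ∃ v ∈ Subgroup.closure B, d = u * w * v) ∧ len P d = k :=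
      ⟨_, w, ⟨1, Subgroup.one_mem _, 1, Subgroup.one_mem _, by simp⟩, rfl⟩
    classical
    obtain ⟨d, ⟨u, hu, v, hv, ed⟩, hk⟩ := Nat.find_spec hne
    have hmin : ∀ u' ∈ Subgroup.closure A, ∀ v' ∈ Subgroup.closure B, len P d ≤ len P (u' * w * v') := by
      intro u' hu' v' hv'
      rw [hk]
      exact Nat.find_min' hne ⟨_, ⟨u', hu', v', hv', rfl⟩, rfl⟩
    have hd1 : LMin A d := by
      intro x hx
      have e : x * d = (x * u) * w * v := by rw [ed]; group
      rw [e]
      exact hmin _ (Subgroup.mul_mem _ (Subgroup.subset_closure hx) hu) _ hv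
    have hd2 : InJ B d := by
      intro x hx
      have e : d * x = u * w * (v * x) := by rw [ed]; group
      rw [e]
      exact hmin _ hu _ (Subgroup.mul_mem _ hv (Subgroup.subset_closure hx))
    refine ⟨⟨d, hd1, hd2⟩, ?_⟩
    -- the lift
    set nu := repW (P := P) u⁻¹
    set nv := repW (P := P) v⁻¹
    set nd := repW (P := P) d
    have hmk : mk P (nu * nd * nv) = w := by
      simp only [map_mul, nu, nv, nd, mk_repW]
      rw [ed]
      group
    have hgC : g ∈ C P ((nu * nd * nv : P.N) : G) := by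
      rw [← mem_Cw_mk, hmk]
      exact hwg
    obtain ⟨b₁, hb₁, b₂, hb₂, egb⟩ := hgC
    have hnu : (nu : G) ∈ QA := (hQA _).mpr ⟨u⁻¹, Subgroup.inv_mem _ hu, repW_mem _⟩
    have hnv : (nv : G) ∈ QB := (hQB _).mpr ⟨v⁻¹, Subgroup.inv_mem _ hv, repW_mem _⟩
    have hb₁' : b₁ ∈ QA := B_le_of hQA hb₁
    have hb₂' : b₂ ∈ QB := B_le_of hQB hb₂
    apply Quotient.sound
    show _ ∈ _ 
    rw [MulAction.mem_orbit_iff]
    refine ⟨(a * b₁ * nu)⁻¹, ?_⟩
    rw [Prod.smul_mk]
    apply Prod.ext
    · show (QuotientGroup.mk ((a * b₁ * nu)⁻¹ * a) : G ⧸ QA) = QuotientGroup.mk 1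
      apply QuotientGroup.eq.mpr
      have : ((a * b₁ * nu)⁻¹ * a)⁻¹ * 1 = b₁ * nu := by group
      rw [this]
      exact QA.mul_mem hb₁' hnu
    · show (QuotientGroup.mk ((a * b₁ * nu)⁻¹ * b) : G ⧸ QB) = QuotientGroup.mk (nd : G)
      apply QuotientGroup.eq.mpr
      have e3 : b = a * g := by rw [hg]; group
      have e4 : ((a * b₁ * nu)⁻¹ * b)⁻¹ * (nd : G) = (nv * b₂)⁻¹ := by
        rw [e3, egb]
        push_cast
        group
      rw [e4]
      exact QB.inv_mem (QB.mul_mem hnv hb₂')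

theorem card_fixedBy_prod2 {X Y : Type*} [MulAction G X] [MulAction G Y] (g : G) :
    Nat.card (MulAction.fixedBy (X × Y) g) = Nat.card (MulAction.fixedBy X g) * Nat.card (MulAction.fixedBy Y g) := by
  rw [← Nat.card_prod]
  apply Nat.card_congr
  refine ⟨fun p => (⟨p.1.1, ?_⟩, ⟨p.1.2, ?_⟩), fun p => ⟨(p.1.1, p.2.1), ?_⟩, ?_, ?_⟩
  · exact congrArg Prod.fst p.2
  · exact congrArg Prod.snd p.2
  · rw [MulAction.mem_fixedBy]
    exact Prod.ext p.1.2 p.2.2
  · intro p
    rfl
  · intro p
    rfl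

include hA hB hQA hQB in
theorem inner_perm [Fintype G] :
    Cfsg.classInner (fun g : G => (Nat.card (MulAction.fixedBy (G ⧸ QA) g) : ℂ)) (fun g : G => (Nat.card (MulAction.fixedBy (G ⧸ QB) g) : ℂ)) =
      (Nat.card {d : W P // LMin A d ∧ InJ B d} : ℂ) := by
  have h := Cfsg.Agent.Lib.CharTI.sum_fixedBy_eq (G := G) ((G ⧸ QA) × (G ⧸ QB))
  rw [orbit_card hA hB hQA hQB] at h
  unfold Cfsg.classInner
  have hG : (Nat.card G : ℂ) ≠ 0 := by exact_mod_cast Nat.card_pos.ne'
  have h2 : ∑ g : G, (Nat.card (MulAction.fixedBy (G ⧸ QA) g) : ℂ) * (starRingEnd ℂ) (Nat.card (MulAction.fixedBy (G ⧸ QB) g) : ℂ) =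
      ∑ g : G, (Nat.card (MulAction.fixedBy ((G ⧸ QA) × (G ⧸ QB)) g) : ℂ) := by
    apply Finset.sum_congr rfl
    intro g _
    rw [card_fixedBy_prod2, Complex.conj_natCast]
    push_cast
    rfl
  rw [h2, h]
  field_simp

end Orbits

section Alt

variable {ι : Type*} [DecidableEq ι] (I : Finset ι) (x : ι → W P) (hx : ∀ i ∈ I, x i ∈ Sb P)
  (hS : ∀ y ∈ Sb P, ∃ i ∈ I, x i = y)

include hx hS in
open Classical in
theorem alt_indicator (w : W P) :
    ∑ J ∈ I.powerset, (-1 : ℂ) ^ J.card * (if InJ (x '' (J : Set ι)) w then (1 : ℂ) else 0) =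
      if AllDesc P w then 1 else 0 := by
  set D := I.filter (fun i => len P w ≤ len P (w * x i)) with hD
  have h3 : ∑ J ∈ I.powerset, (-1 : ℂ) ^ J.card * (if InJ (x '' (J : Set ι)) w then (1 : ℂ) else 0) =
      ∑ J ∈ D.powerset, (-1 : ℂ) ^ J.card := by
    have h6 : I.powerset.filter (fun J : Finset ι => InJ (x '' (J : Set ι)) w) = D.powerset := by
      ext J
      simp only [Finset.mem_filter, Finset.mem_powerset]
      constructor
      · rintro ⟨h7, h8⟩ i hi
        rw [hD, Finset.mem_filter]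
        exact ⟨h7 hi, h8 _ ⟨i, hi, rfl⟩⟩
      · intro h7
        refine ⟨fun i hi => (Finset.mem_filter.mp (h7 hi)).1, ?_⟩
        rintro _ ⟨i, hi, rfl⟩
        exact (Finset.mem_filter.mp (h7 hi)).2
    simp_rw [mul_ite, mul_one, mul_zero]
    rw [← Finset.sum_filter, h6]
  rw [h3]
  have h4 := Finset.sum_powerset_neg_one_pow_card (x := D)
  have h5 : ∑ J ∈ D.powerset, (-1 : ℂ) ^ J.card = ((∑ J ∈ D.powerset, (-1 : ℤ) ^ J.card : ℤ) : ℂ) := by
    push_cast
    rfl
  rw [h5, h4]
  by_cases hall : AllDesc P w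
  · rw [if_pos hall, if_pos]
    · simp
    · rw [Finset.eq_empty_iff_forall_notMem]
      intro i hi
      rw [hD, Finset.mem_filter] at hi
      have := hall (x i) (hx i hi.1)
      omega
  · rw [if_neg hall, if_neg]
    · simp
    · intro hE
      apply hall
      intro y hy
      obtain ⟨i, hi, rfl⟩ := hS y hy
      have : i ∉ D := by
        rw [hE]
        simp
      rw [hD, Finset.mem_filter] at this
      push Not at this
      exact this hi

include hx hS in
open Classical in
theorem alt_count [Finite (W P)] {J : Finset ι} (hJ : J ⊆ I) :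
    ∑ K ∈ I.powerset, (-1 : ℂ) ^ K.card * (Nat.card {d : W P // LMin (x '' (J : Set ι)) d ∧ InJ (x '' (K : Set ι)) d} : ℂ) =
      if J = ∅ then 1 else 0 := by
  haveI : Fintype (W P) := Fintype.ofFinite _
  obtain ⟨w₀, hw₀⟩ := exists_allDesc (P := P)
  have h1 : ∀ K : Finset ι, (Nat.card {d : W P // LMin (x '' (J : Set ι)) d ∧ InJ (x '' (K : Set ι)) d} : ℂ) =
      ∑ d : W P, (if LMin (x '' (J : Set ι)) d then (1 : ℂ) else 0) * (if InJ (x '' (K : Set ι)) d then (1 : ℂ) else 0) := by
    intro K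
    have : ∀ d : W P, (if LMin (x '' (J : Set ι)) d then (1 : ℂ) else 0) * (if InJ (x '' (K : Set ι)) d then (1 : ℂ) else 0) =
        if LMin (x '' (J : Set ι)) d ∧ InJ (x '' (K : Set ι)) d then 1 else 0 := by
      intro d
      by_cases a : LMin (x '' (J : Set ι)) d <;> by_cases b : InJ (x '' (K : Set ι)) d <;> simp [a, b]
    simp only [this]
    rw [Finset.sum_boole, Nat.subtype_card (Finset.univ.filter (fun d : W P => LMin (x '' (J : Set ι)) d ∧ InJ (x '' (K : Set ι)) d))
      (by simp)]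
  simp only [h1, Finset.mul_sum]
  rw [Finset.sum_comm]
  have h2 : ∀ d : W P, ∑ K ∈ I.powerset, (-1 : ℂ) ^ K.card * ((if LMin (x '' (J : Set ι)) d then (1 : ℂ) else 0) * (if InJ (x '' (K : Set ι)) d then (1 : ℂ) else 0)) =
      (if LMin (x '' (J : Set ι)) d then (1 : ℂ) else 0) * (if AllDesc P d then 1 else 0) := by
    intro d
    rw [← alt_indicator I x hx hS d, Finset.mul_sum]
    apply Finset.sum_congr rfl
    intro K _
    ring
  simp only [h2]
  rw [Finset.sum_eq_single w₀]
  · rw [if_pos hw₀, mul_one]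
    have hmax := allDesc_len_le hw₀
    by_cases hE : J = ∅
    · rw [if_pos hE, if_pos]
      subst hE
      rintro y ⟨i, hi, _⟩
      simp at hi
    · rw [if_neg hE, if_neg]
      intro hL
      obtain ⟨j, hj⟩ := Finset.nonempty_iff_ne_empty.mpr hE
      have h3 := hL (x j) ⟨j, hj, rfl⟩
      have h4 := left_desc_of_max hmax (hx j (hJ hj))
      omega
  · intro d _ hd
    rw [if_neg (fun h => hd (allDesc_unique h hw₀)), mul_zero]
  · simp

/-- The alternating sum of the permutation characters has norm one. -/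
theorem norm_alt [Fintype G] (hx : ∀ i ∈ I, x i ∈ Sb P) (hS : ∀ y ∈ Sb P, ∃ i ∈ I, x i = y) (Q : Finset ι → Subgroup G)
    (hQ : ∀ J, J ⊆ I → ∀ g, g ∈ Q J ↔ ∃ u ∈ Subgroup.closure (x '' (J : Set ι)), g ∈ Cw P u) :
    Cfsg.classInner (fun g : G => ∑ J ∈ I.powerset, (-1 : ℂ) ^ J.card * (Nat.card (MulAction.fixedBy (G ⧸ Q J) g) : ℂ))
      (fun g : G => ∑ J ∈ I.powerset, (-1 : ℂ) ^ J.card * (Nat.card (MulAction.fixedBy (G ⧸ Q J) g) : ℂ)) = 1 := by
  classical
  have hsub : ∀ J : Finset ι, J ⊆ I → x '' (J : Set ι) ⊆ Sb P := by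
    rintro J hJ _ ⟨i, hi, rfl⟩
    exact hx i (hJ hi)
  have h1 : ∀ J ∈ I.powerset, ∀ K ∈ I.powerset,
      Cfsg.classInner (fun g : G => (Nat.card (MulAction.fixedBy (G ⧸ Q J) g) : ℂ)) (fun g : G => (Nat.card (MulAction.fixedBy (G ⧸ Q K) g) : ℂ)) =
        (Nat.card {d : W P // LMin (x '' (J : Set ι)) d ∧ InJ (x '' (K : Set ι)) d} : ℂ) := by
    intro J hJ K hK
    have hJ' := Finset.mem_powerset.mp hJ
    have hK' := Finset.mem_powerset.mp hK
    exact inner_perm (hsub J hJ') (hsub K hK') (hQ J hJ') (hQ K hK')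
  have h2 : Cfsg.classInner (fun g : G => ∑ J ∈ I.powerset, (-1 : ℂ) ^ J.card * (Nat.card (MulAction.fixedBy (G ⧸ Q J) g) : ℂ))
      (fun g : G => ∑ J ∈ I.powerset, (-1 : ℂ) ^ J.card * (Nat.card (MulAction.fixedBy (G ⧸ Q J) g) : ℂ)) =
      ∑ J ∈ I.powerset, (-1 : ℂ) ^ J.card * ∑ K ∈ I.powerset, (-1 : ℂ) ^ K.card *
        Cfsg.classInner (fun g : G => (Nat.card (MulAction.fixedBy (G ⧸ Q J) g) : ℂ)) (fun g : G => (Nat.card (MulAction.fixedBy (G ⧸ Q K) g) : ℂ)) := by
    unfold Cfsg.classInner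
    have key : ∀ g : G, (∑ J ∈ I.powerset, (-1 : ℂ) ^ J.card * (Nat.card (MulAction.fixedBy (G ⧸ Q J) g) : ℂ)) *
        (starRingEnd ℂ) (∑ J ∈ I.powerset, (-1 : ℂ) ^ J.card * (Nat.card (MulAction.fixedBy (G ⧸ Q J) g) : ℂ)) =
        ∑ J ∈ I.powerset, ∑ K ∈ I.powerset, ((-1 : ℂ) ^ J.card * (-1 : ℂ) ^ K.card) *
          ((Nat.card (MulAction.fixedBy (G ⧸ Q J) g) : ℂ) * (starRingEnd ℂ) (Nat.card (MulAction.fixedBy (G ⧸ Q K) g) : ℂ)) := by
      intro g
      rw [map_sum, Finset.sum_mul_sum]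
      apply Finset.sum_congr rfl
      intro J _
      apply Finset.sum_congr rfl
      intro K _
      simp only [map_mul, map_pow, map_neg, map_one]
      ring
    simp only [key]
    rw [Finset.sum_comm, Finset.mul_sum]
    apply Finset.sum_congr rfl
    intro J _
    rw [Finset.sum_comm, Finset.mul_sum, Finset.mul_sum]
    apply Finset.sum_congr rfl
    intro K _
    rw [← Finset.mul_sum]
    ring
  rw [h2]
  have h3 : ∀ J ∈ I.powerset, (-1 : ℂ) ^ J.card * ∑ K ∈ I.powerset, (-1 : ℂ) ^ K.card *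
        Cfsg.classInner (fun g : G => (Nat.card (MulAction.fixedBy (G ⧸ Q J) g) : ℂ)) (fun g : G => (Nat.card (MulAction.fixedBy (G ⧸ Q K) g) : ℂ)) =
      (-1 : ℂ) ^ J.card * (if J = ∅ then 1 else 0) := by
    intro J hJ
    congr 1
    rw [Finset.sum_congr rfl (fun K hK => by rw [h1 J hJ K hK])]
    exact alt_count I x hx hS (Finset.mem_powerset.mp hJ)
  rw [Finset.sum_congr rfl h3, Finset.sum_eq_single ∅]
  · simp
  · intro J _ hJ
    rw [if_neg hJ, mul_zero]
  · intro h
    exact absurd (Finset.empty_mem_powerset I) h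

open Cfsg.Agent.Lib.CharAlg in
/-- The alternating sum of the permutation characters is irreducible. -/
theorem isIrr_alt [Fintype G] (hx : ∀ i ∈ I, x i ∈ Sb P) (hS : ∀ y ∈ Sb P, ∃ i ∈ I, x i = y) (Q : Finset ι → Subgroup G)
    (hQ : ∀ J, J ⊆ I → ∀ g, g ∈ Q J ↔ ∃ u ∈ Subgroup.closure (x '' (J : Set ι)), g ∈ Cw P u)
    (hdeg : ∃ m : ℕ, (∑ J ∈ I.powerset, (-1 : ℂ) ^ J.card * (Nat.card (MulAction.fixedBy (G ⧸ Q J) (1 : G)) : ℂ)) = m) :
    Cfsg.IsIrrCharacter G (fun g : G => ∑ J ∈ I.powerset, (-1 : ℂ) ^ J.card * (Nat.card (MulAction.fixedBy (G ⧸ Q J) g) : ℂ)) := by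
  classical
  have hgen : Cfsg.IsGeneralizedCharacter G (fun g : G => ∑ J ∈ I.powerset, (-1 : ℂ) ^ J.card * (Nat.card (MulAction.fixedBy (G ⧸ Q J) g) : ℂ)) := by
    have e : (fun g : G => ∑ J ∈ I.powerset, (-1 : ℂ) ^ J.card * (Nat.card (MulAction.fixedBy (G ⧸ Q J) g) : ℂ)) =
        ∑ J ∈ I.powerset, ((((-1 : ℤ) ^ J.card : ℤ) : ℂ) • (fun g : G => (Nat.card (MulAction.fixedBy (G ⧸ Q J) g) : ℂ))) := by
      funext g
      simp [Finset.sum_apply]
    rw [e]
    apply IsGeneralizedCharacter.sum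
    intro J _
    apply IsGeneralizedCharacter.zsmul
    apply IsGeneralizedCharacter.ofChar
    exact Cfsg.Agent.Lib.CharTI.isCharacter_perm (G ⧸ Q J)
  rcases exists_irr_of_gen_norm_one hgen (norm_alt I x hx hS Q hQ) with h | h
  · exact h
  · exfalso
    obtain ⟨n, hn, h1⟩ := IsIrrCharacter.map_one_pos h
    obtain ⟨m, hm⟩ := hdeg
    simp only [Pi.neg_apply] at h1
    rw [hm] at h1
    have h2 : ((m + n : ℕ) : ℂ) = 0 := by
      push_cast
      linear_combination (-1 : ℂ) * h1
    have h3 : m + n = 0 := by exact_mod_cast h2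
    omega

end Alt

end Cfsg.Agent.Lib.LdSt4
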