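import Mathlib
import Cfsg.Agent.Lib.LdSt3
import Cfsg.Agent.Lib.LdSt4

set_option autoImplicit false
set_option linter.unusedSectionVars false
set_option linter.unusedVariables false

/-! The Steinberg character is irreducible. -/

namespace Cfsg.Agent.Lib.LdSt5

open Cfsg Cfsg.Lie Cfsg.Agent.Lib.ChevTab Cfsg.Agent.Lib.ChevValid Cfsg.Agent.Lib.ChevL2 Cfsg.Agent.Lib.ChevV3 Cfsg.Agent.Lib.ChevV4
  Cfsg.Agent.Lib.ChevBN2 Cfsg.Agent.Lib.ChevW1 Cfsg.Agent.Lib.LdSt3 Cfsg.Agent.Lib.LdSt4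

variable {D : ChevalleyDatum} {T : Tb} {C : Tc} {X : Tc3} {Y : Tc4} {F : Type*} [Field F] [Fintype F]

theorem st_irr (V : Valid D T) (V2 : Valid2 D T C) (V3 : Valid3 T C X) (V4 : Valid4 D T C Y) :
    IsIrrCharacter ↥(D.group F) (D.steinbergCharacter F) := by
  classical
  haveI : Fintype ↥(D.group F) := Fintype.ofFinite _
  have h := isIrr_alt (P := bnPair (F := F) V V2 V3) (Finset.range D.rank) (xi V V2 V3 F)
    (fun i hi => xi_mem V V2 V3 (by rw [V.hl]; exact Finset.mem_range.mp hi))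
    (fun y hy => by
      obtain ⟨i, hi, rfl⟩ := mem_Sb V V2 V3 hy
      exact ⟨i, Finset.mem_range.mpr (by rw [← V.hl]; exact hi), rfl⟩)
    (fun J => D.parabolicIn F J) (fun J hJ g => par_iff V V2 V3 J hJ g)
    ⟨Fintype.card F ^ (T.n / 2), by
      have := st_one (F := F) V V2 V3 V4
      unfold ChevalleyDatum.steinbergCharacter fixedPointCharacter at this
      push_cast
      exact this⟩
  exact h

end Cfsg.Agent.Lib.LdSt5
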