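import Mathlib
import Cfsg.Agent.Lib.LdSt5
import Cfsg.Agent.Lib.ChevSyl
import Cfsg.Agent.Lib.BlockMain3
import Cfsg.Agent.Lib.BlockCanon

set_option autoImplicit false
set_option linter.unusedSectionVars false
set_option linter.unusedVariables false

/-! The Steinberg character vanishes on `p`-singular elements. -/

namespace Cfsg.Agent.Lib.LdSt6

open Cfsg Cfsg.Lie Cfsg.Agent.Lib.ChevTab Cfsg.Agent.Lib.ChevValid Cfsg.Agent.Lib.ChevL2 Cfsg.Agent.Lib.ChevV3 Cfsg.Agent.Lib.ChevV4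
  Cfsg.Agent.Lib.ChevBN2 Cfsg.Agent.Lib.ChevW1 Cfsg.Agent.Lib.LdSt3 Cfsg.Agent.Lib.LdSt4 Cfsg.Agent.Lib.LdSt5

/-- A character of `p`-defect zero vanishes on `p`-singular elements. -/
theorem vanish_of_full {G : Type*} [Group G] [Fintype G] (p : ℕ) [Fact p.Prime] (χ : IrrCharacter G)
    (h : (charDegree χ.1).factorization p = (Nat.card G).factorization p) {g : G} (hg : p ∣ orderOf g) : χ.1 g = 0 := by
  have hp : p.Prime := Fact.out
  obtain ⟨M, hM⟩ := Cfsg.Agent.Lib.BlockMain2.exists_isPModular hp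
  haveI := hM.2.1.isPrime
  obtain ⟨x, hx⟩ := Cfsg.Agent.Lib.BlockCore.exists_isPPart hp g
  apply Cfsg.Agent.Lib.BlockMain.val_eq_zero_of_not_mem_defect hM χ hx
  intro D hD hxD
  have hB : IsPBlock M (blockOf M χ.1) := ⟨χ, rfl⟩
  have hc := Cfsg.Agent.Lib.BlockMain3.card_defectGroup hM hB hD
  have hdef : blockDefect p (blockOf M χ.1) = 0 := by
    rw [Cfsg.Agent.Lib.BlockCanon.blockOf_eq_singleton hM χ h]
    unfold blockDefect
    rw [Set.image_singleton, csInf_singleton, h, Nat.sub_self]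
  rw [hdef, pow_zero] at hc
  have hD1 : D = ⊥ := Subgroup.eq_bot_of_card_eq D hc
  rw [hD1, Subgroup.mem_bot] at hxD
  obtain ⟨y, hxy, _, _, hy⟩ := hx
  rw [hxD, one_mul] at hxy
  subst hxy
  exact hy hg

variable {D : ChevalleyDatum} {T : Tb} {C : Tc} {X : Tc3} {Y : Tc4} {F : Type*} [Field F] [Fintype F]

/-- The Steinberg character vanishes on `p`-singular elements. -/
theorem st_vanish (V : Valid D T) (V2 : Valid2 D T C) (V3 : Valid3 T C X) (V4 : Valid4 D T C Y) (p : ℕ) [Fact p.Prime] [CharP F p]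
    (g : ↥(D.group F)) (hg : p ∣ orderOf g) : D.steinbergCharacter F g = 0 := by
  classical
  haveI : Fintype ↥(D.group F) := Fintype.ofFinite _
  have hirr := st_irr (F := F) V V2 V3 V4
  obtain ⟨P, hP⟩ := Cfsg.Agent.Lib.ChevSyl.sylow_U V V2 V3 V4 (F := F) p
  have hcard : Nat.card P = Fintype.card F ^ (T.n / 2) := by
    have h1 : Nat.card P = Nat.card ↥((D.posUnipotent F).subgroupOf (D.group F)) := by
      show Nat.card (P : Subgroup ↥(D.group F)) = _
      rw [hP]
    rw [h1, ← Nat.card_congr (Subgroup.subgroupOfEquivOfLe (Cfsg.Agent.Lib.ChevN2.U_le_G V V2)).toEquiv.symm, Cfsg.Agent.Lib.ChevU2.card_U V V2, V.hn]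
  have hdeg : charDegree (D.steinbergCharacter F) = Fintype.card F ^ (T.n / 2) := by
    unfold charDegree
    rw [st_one (F := F) V V2 V3 V4]
    have : (((Fintype.card F : ℂ) ^ (T.n / 2)).re) = ((Fintype.card F ^ (T.n / 2) : ℕ) : ℝ) := by
      have e : ((Fintype.card F : ℂ) ^ (T.n / 2)) = ((Fintype.card F ^ (T.n / 2) : ℕ) : ℂ) := by push_cast; rfl
      rw [e, Complex.natCast_re]
    rw [this, Nat.floor_natCast]
  have hsyl := Sylow.card_eq_multiplicity P
  have hp : p.Prime := Fact.out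
  exact vanish_of_full p ⟨D.steinbergCharacter F, hirr⟩ (by
    show (charDegree (D.steinbergCharacter F)).factorization p = _
    rw [hdeg, ← hcard, hsyl, hp.factorization_pow]
    simp) hg

end Cfsg.Agent.Lib.LdSt6
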