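import Mathlib
import Cfsg.Agent.Lib.LdTI
import Cfsg.Prelude.Def_Transfer

set_option autoImplicit false
set_option linter.unusedVariables false

/-! TI subgroups of 2-groups: S1781, S1782. -/

namespace Cfsg.Agent.Lib.LdTI

open Subgroup Cfsg.Agent.Lib.H1Cop

universe u

section Frat

variable {E : Type*} [Group E] [Finite E]

theorem frattini_eq_bot_of_sq (hE : ∀ x : E, x * x = 1) : frattini E = ⊥ := by
  classical
  have hcomm : ∀ x y : E, x * y = y * x := by
    intro x y
    have h1 := hE (x * y)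
    have h2 : x⁻¹ = x := inv_eq_of_mul_eq_one_left (hE x)
    have h3 : y⁻¹ = y := inv_eq_of_mul_eq_one_left (hE y)
    calc x * y = (x * y)⁻¹ := (inv_eq_of_mul_eq_one_left h1).symm
      _ = y⁻¹ * x⁻¹ := mul_inv_rev x y
      _ = y * x := by rw [h2, h3]
  rw [eq_bot_iff]
  intro x hx
  by_contra hx1
  have hx1' : x ≠ 1 := hx1
  have hfin : {M : Subgroup E | x ∉ M}.Finite := Set.toFinite _
  have hne : ({M : Subgroup E | x ∉ M}).Nonempty := ⟨⊥, by simpa using hx1'⟩
  obtain ⟨M, hM⟩ := hfin.exists_maximal hne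
  have hxM : x ∉ M := hM.1
  have hco : IsCoatom M := by
    constructor
    · rintro rfl
      exact hxM (Subgroup.mem_top x)
    · intro K hK
      by_contra hKtop
      obtain ⟨y, hy⟩ : ∃ y, y ∉ K := by
        by_contra h
        push_neg at h
        exact hKtop (eq_top_iff.mpr fun z _ => h z)
      have hxK : x ∈ K := by
        by_contra hxK
        have h1 : K ≤ M := hM.2 hxK hK.le
        exact absurd (h1) (not_le_of_gt hK)
      -- `M ⊔ ⟨y⟩` does not contain `x`
      have hy2 : ∀ m : E, m ∈ M → x ≠ m * y := by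
        intro m hm h
        apply hy
        have : y = m⁻¹ * x := by rw [h]; group
        rw [this]
        exact K.mul_mem (K.inv_mem (hK.le hm)) hxK
      let L : Subgroup E :=
        { carrier := {z | z ∈ M ∨ ∃ m ∈ M, z = m * y}
          one_mem' := Or.inl M.one_mem
          mul_mem' := by
            rintro a b (ha | ⟨m, hm, rfl⟩) (hb | ⟨m', hm', rfl⟩)
            · exact Or.inl (M.mul_mem ha hb)
            · exact Or.inr ⟨a * m', M.mul_mem ha hm', by group⟩
            · refine Or.inr ⟨m * b, M.mul_mem hm hb, ?_⟩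
              rw [mul_assoc, hcomm y b, mul_assoc]
            · refine Or.inl ?_
              have : m * y * (m' * y) = m * m' * (y * y) := by
                rw [mul_assoc, mul_assoc, ← mul_assoc y, hcomm y m', mul_assoc m' y y]
              rw [this, hE y, mul_one]
              exact M.mul_mem hm hm'
          inv_mem' := by
            rintro a (ha | ⟨m, hm, rfl⟩)
            · exact Or.inl (M.inv_mem ha)
            · refine Or.inr ⟨m, hm, ?_⟩
              exact inv_eq_of_mul_eq_one_left (hE _) }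
      have hxL : x ∉ L := by
        rintro (h | ⟨m, hm, h⟩)
        · exact hxM h
        · exact hy2 m hm h
      have hML : M ≤ L := fun z hz => Or.inl hz
      have hLM : L ≤ M := hM.2 hxL hML
      have hyL : y ∈ L := Or.inr ⟨1, M.one_mem, by simp⟩
      have hyM : y ∈ M := hLM hyL
      exact hy (hK.le hyM)
  exact hxM ((Subgroup.mem_iInf.mp (Subgroup.mem_iInf.mp hx M)) hco)

end Frat

/-- S1782 with the Frattini condition replaced by having a non-involution. -/
theorem comm_of_delta {S : Type u} [Group S] [Finite S] (hS : IsPGroup 2 S)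
    (Δ : Set (Subgroup S)) (hinv : ∀ s : S, ∀ R ∈ Δ, R.map (MulAut.conj s).toMonoidHom ∈ Δ)
    (hne : ∀ R ∈ Δ, ∃ x ∈ R, x * x ≠ 1) (hord : ∀ R ∈ Δ, ∀ T ∈ Δ, Nat.card ↥R = Nat.card ↥T)
    (hti : ∀ R ∈ Δ, ∀ T ∈ Δ, R = T ∨ R ⊓ T = ⊥) :
    ∀ R ∈ Δ, ∀ T ∈ Δ, R ≠ T → ⁅R, T⁆ = ⊥ := by
  induction' hc : Nat.card S using Nat.strong_induction_on with n ih generalizing S
  -- induction for proper subgroups
  have hIH : ∀ M : Subgroup S, M ≠ ⊤ → ∀ X ∈ Δ, ∀ Y ∈ Δ, X ≤ M → Y ≤ M → X ≠ Y → ⁅X, Y⁆ = ⊥ := by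
    intro M hM X hX Y hY hXM hYM hXY
    have hcard : Nat.card M < n := by
      rw [← hc]
      exact lt_of_le_of_ne (Subgroup.card_le_card_group M) (fun h => hM (Subgroup.eq_top_of_card_eq M h))
    have hmapinj : Function.Injective (Subgroup.map M.subtype) :=
      Subgroup.map_injective M.subtype_injective
    have key := ih (Nat.card M) hcard (S := ↥M) (hS.to_subgroup M)
      {X' | X'.map M.subtype ∈ Δ}
      (by
        intro s R hR
        show (R.map (MulAut.conj s).toMonoidHom).map M.subtype ∈ Δ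
        have : (R.map (MulAut.conj s).toMonoidHom).map M.subtype
            = (R.map M.subtype).map (MulAut.conj (s : S)).toMonoidHom := by
          ext y
          simp only [Subgroup.mem_map]
          constructor
          · rintro ⟨_, ⟨r, hr, rfl⟩, rfl⟩
            exact ⟨r, ⟨r, hr, rfl⟩, by simp⟩
          · rintro ⟨_, ⟨r, hr, rfl⟩, rfl⟩
            exact ⟨_, ⟨r, hr, rfl⟩, by simp⟩
        rw [this]
        exact hinv _ _ hR)
      (by
        intro R hR
        obtain ⟨x, ⟨r, hr, rfl⟩, hx⟩ := hne _ hR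
        exact ⟨r, hr, fun h => hx (by simpa using congrArg M.subtype h)⟩)
      (by
        intro R hR T hT
        have := hord _ hR _ hT
        rwa [Subgroup.card_map_of_injective M.subtype_injective,
          Subgroup.card_map_of_injective M.subtype_injective] at this)
      (by
        intro R hR T hT
        rcases hti _ hR _ hT with h | h
        · exact Or.inl (hmapinj h)
        · right
          apply hmapinj
          rw [Subgroup.map_inf _ _ _ M.subtype_injective, h, Subgroup.map_bot])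
      rfl
    have hX' : (X.subgroupOf M).map M.subtype = X := Subgroup.map_subgroupOf_eq_of_le hXM
    have hY' : (Y.subgroupOf M).map M.subtype = Y := Subgroup.map_subgroupOf_eq_of_le hYM
    have h1 := key (X.subgroupOf M) (by show _ ∈ Δ; rwa [hX']) (Y.subgroupOf M) (by show _ ∈ Δ; rwa [hY'])
      (fun h => hXY (by rw [← hX', ← hY', h]))
    have h2 := congrArg (Subgroup.map M.subtype) h1
    rw [Subgroup.map_commutator, hX', hY', Subgroup.map_bot] at h2
    exact h2
  intro A hA B hB hAB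
  have hABbot : A ⊓ B = ⊥ := (hti A hA B hB).resolve_left hAB
  have hAtop : A ≠ ⊤ := by
    rintro rfl
    rw [top_inf_eq] at hABbot
    obtain ⟨x, hx, hx2⟩ := hne B hB
    rw [hABbot, Subgroup.mem_bot] at hx
    exact hx2 (by simp [hx])
  have hBtop : B ≠ ⊤ := by
    rintro rfl
    rw [inf_top_eq] at hABbot
    obtain ⟨x, hx, hx2⟩ := hne A hA
    rw [hABbot, Subgroup.mem_bot] at hx
    exact hx2 (by simp [hx])
  haveI : Group.IsNilpotent S := hS.isNilpotent
  have hnc := normalizerCondition_of_isNilpotent (G := S)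
  have hTIC : ∀ R ∈ Δ, R ≠ ⊤ → TIC R := by
    intro R hR hRtop g hg
    obtain ⟨M, hM, hRM⟩ : ∃ M : Subgroup S, IsCoatom M ∧ R ≤ M := by
      rcases eq_top_or_exists_le_coatom R with h | h
      · exact absurd h hRtop
      · obtain ⟨M, h1, h2⟩ := h
        exact ⟨M, h1, h2⟩
    haveI hMn : M.Normal := hnc.normal_of_coatom M hM
    have hgR : R.map (MulAut.conj g).toMonoidHom ≤ M := by
      rintro _ ⟨x, hx, rfl⟩
      exact hMn.conj_mem x (hRM hx) g
    have hne' : R.map (MulAut.conj g).toMonoidHom ≠ R := fun h => hg ((conj_le_iff_normalizer R g).mp h)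
    have hc1 := hIH M hM.1 R hR _ (hinv g R hR) hRM hgR hne'.symm
    have hc2 := (hti _ (hinv g R hR) _ hR).resolve_left hne'
    constructor
    · intro x hx y hy
      rw [Subgroup.commutator_eq_bot_iff_le_centralizer] at hc1
      have h1 := hc1 hx
      have h2 := (Subgroup.mem_centralizer_iff.mp h1) _ (conj_mem_conj R g hy)
      exact h2.symm
    · intro x hx y hy hxy
      have h1 : x ∈ R.map (MulAut.conj g).toMonoidHom ⊓ R :=
        ⟨hxy ▸ conj_mem_conj R g hy, hx⟩
      rw [hc2, Subgroup.mem_bot] at h1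
      exact h1
  have hTIG : ∀ R ∈ Δ, ∀ g : S, R.map (MulAut.conj g).toMonoidHom = R ∨
      R.map (MulAut.conj g).toMonoidHom ⊓ R = ⊥ := fun R hR g => hti _ (hinv g R hR) _ hR
  by_cases hBN : B ≤ normalizer (A : Set S)
  · exact comm_of_normalizes 2 A B (hS.to_subgroup A) (hS.to_subgroup B) (hTIG B hB)
      (hord A hA B hB).le hABbot hBN
  by_cases hAN : A ≤ normalizer (B : Set S)
  · rw [Subgroup.commutator_comm]
    exact comm_of_normalizes 2 B A (hS.to_subgroup B) (hS.to_subgroup A) (hTIG A hA)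
      (hord B hB A hA).le (by rwa [inf_comm]) hAN
  exfalso
  have hall := tic_core (hTIC A hA hAtop) (hTIC B hB hBtop)
    (fun b => by obtain ⟨n, hn⟩ := hS b; exact ⟨n, hn⟩) hBN hAN
  obtain ⟨x, hx, hx2⟩ := hne A hA
  exact hx2 (hall x hx)

/-- S1782. -/
theorem comm_of_delta' {S : Type u} [Group S] [Finite S] (hS : IsPGroup 2 S)
    (Δ : Set (Subgroup S)) (hinv : ∀ s : S, ∀ R ∈ Δ, R.map (MulAut.conj s).toMonoidHom ∈ Δ)
    (hΦ : ∀ R ∈ Δ, frattini ↥R ≠ ⊥) (hord : ∀ R ∈ Δ, ∀ T ∈ Δ, Nat.card ↥R = Nat.card ↥T)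
    (hti : ∀ R ∈ Δ, ∀ T ∈ Δ, R = T ∨ R ⊓ T = ⊥) :
    ∀ R ∈ Δ, ∀ T ∈ Δ, R ≠ T → ⁅R, T⁆ = ⊥ := by
  apply comm_of_delta hS Δ hinv _ hord hti
  intro R hR
  by_contra h
  push_neg at h
  apply hΦ R hR
  apply frattini_eq_bot_of_sq
  rintro ⟨x, hx⟩
  exact Subtype.ext (h x hx)

end Cfsg.Agent.Lib.LdTI
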