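import Mathlib
import Cfsg.Agent.Lib.LdTI2
import Cfsg.Prelude.Def_Transfer

set_option autoImplicit false
set_option linter.unusedVariables false

/-! TI subgroups: S1781. -/

namespace Cfsg.Agent.Lib.LdTI

open Subgroup Cfsg.Agent.Lib.H1Cop

variable {G : Type*} [Group G]

theorem fix_of_fix_sq' {B : Type*} [Group B] (hc : ∀ x y : B, x * y = y * x) (hA : IsPGroup 2 B)
    (t : MulAut B) (ht : ∃ k : ℕ, orderOf t = 2 ^ k)
    (hC : ∀ a : B, t (t a) = a → t a = a) (a : B) : t a = a := by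
  letI : CommGroup B := { (inferInstance : Group B) with mul_comm := hc }
  exact fix_of_fix_sq hA t ht hC a

theorem ti_conj [Finite G] {A : Subgroup G}
    (hti : ∀ h : G, A.map (MulAut.conj h).toMonoidHom = A ∨ A.map (MulAut.conj h).toMonoidHom ⊓ A = ⊥)
    (g h : G) : (A.map (MulAut.conj g).toMonoidHom).map (MulAut.conj h).toMonoidHom = A.map (MulAut.conj g).toMonoidHom ∨
      (A.map (MulAut.conj g).toMonoidHom).map (MulAut.conj h).toMonoidHom ⊓ A.map (MulAut.conj g).toMonoidHom = ⊥ := by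
  have key : (A.map (MulAut.conj g).toMonoidHom).map (MulAut.conj h).toMonoidHom =
      (A.map (MulAut.conj (g⁻¹ * h * g)).toMonoidHom).map (MulAut.conj g).toMonoidHom := by
    ext y
    simp only [Subgroup.mem_map]
    constructor
    · rintro ⟨_, ⟨a, ha, rfl⟩, rfl⟩
      exact ⟨_, ⟨a, ha, rfl⟩, by simp; group⟩
    · rintro ⟨_, ⟨a, ha, rfl⟩, rfl⟩
      exact ⟨_, ⟨a, ha, rfl⟩, by simp; group⟩
  rw [key]
  rcases hti (g⁻¹ * h * g) with h1 | h1
  · left; rw [h1]
  · right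
    rw [← Subgroup.map_inf _ _ _ (MulAut.conj g).injective, h1, Subgroup.map_bot]

/-- If a nonidentity element of the TI subgroup `A` is fixed under conjugation by `b`, then `b` normalizes `A`. -/
theorem mem_normalizer_of_fix {A : Subgroup G} [Finite G]
    (hti : ∀ h : G, A.map (MulAut.conj h).toMonoidHom = A ∨ A.map (MulAut.conj h).toMonoidHom ⊓ A = ⊥)
    {x b : G} (hx : x ∈ A) (hx1 : x ≠ 1) (hb : b * x * b⁻¹ = x) : b ∈ normalizer (A : Set G) := by
  rcases hti b with h | h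
  · exact (conj_le_iff_normalizer A b).mp h
  · exfalso
    apply hx1
    have : x ∈ A.map (MulAut.conj b).toMonoidHom ⊓ A := ⟨by
      have := conj_mem_conj A b hx
      rwa [hb] at this, hx⟩
    rwa [h, Subgroup.mem_bot] at this

/-- S1781. -/
theorem ti_elem_or_comm [Finite G] (A : Subgroup G)
    (hA2 : IsPGroup 2 ↥A) (hAa : IsMulCommutative ↥A)
    (hti : ∀ h : G, A.map (MulAut.conj h).toMonoidHom = A ∨ A.map (MulAut.conj h).toMonoidHom ⊓ A = ⊥)
    (g : G) (hg : A.map (MulAut.conj g).toMonoidHom ≠ A) :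
    Cfsg.IsElementaryAbelian 2 (A ⊓ Subgroup.normalizer ((A.map (MulAut.conj g).toMonoidHom : Subgroup G) : Set G)) ∨
      ⁅A, A.map (MulAut.conj g).toMonoidHom⁆ = ⊥ := by
  obtain ⟨B, hBd⟩ : ∃ B, B = A.map (MulAut.conj g).toMonoidHom := ⟨_, rfl⟩
  rw [← hBd] at hg ⊢
  have hAcomm : ∀ x ∈ A, ∀ y ∈ A, x * y = y * x := fun x hx y hy =>
    congrArg Subtype.val (hAa.is_comm.comm (⟨x, hx⟩ : A) ⟨y, hy⟩)
  have hBcomm : ∀ x ∈ B, ∀ y ∈ B, x * y = y * x := by
    rw [hBd]
    rintro _ ⟨x, hx, rfl⟩ _ ⟨y, hy, rfl⟩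
    have := hAcomm x hx y hy
    rw [← map_mul, ← map_mul, this]
  have hBA : B ⊓ A = ⊥ := by
    have := (hti g).resolve_left (by rwa [← hBd])
    rwa [← hBd] at this
  have hAB : A ⊓ B = ⊥ := by rwa [inf_comm]
  have hB2 : IsPGroup 2 ↥B := by rw [hBd]; exact hA2.map _
  have hBti : ∀ h : G, B.map (MulAut.conj h).toMonoidHom = B ∨ B.map (MulAut.conj h).toMonoidHom ⊓ B = ⊥ := by
    intro h; rw [hBd]; exact ti_conj hti g h
  have hcard : Nat.card A ≤ Nat.card B := by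
    rw [hBd, card_conj]
  by_cases hel : ∀ a ∈ (A ⊓ normalizer (B : Set G)), a ^ 2 = 1
  · left
    refine ⟨⟨⟨fun a b => Subtype.ext (hAcomm _ a.2.1 _ b.2.1)⟩⟩, hel⟩
  right
  push_neg at hel
  obtain ⟨d, ⟨hdA, hdN⟩, hd2⟩ := hel
  have hd2' : d * d ≠ 1 := by rwa [pow_two] at hd2
  have hd1 : d ≠ 1 := by
    rintro rfl
    exact hd2' (by simp)
  have hdB : ∀ b ∈ B, d * b * d⁻¹ ∈ B := fun b hb => (Subgroup.mem_normalizer_iff.mp hdN b).1 hb
  have hdB' : ∀ b ∈ B, d⁻¹ * b * d ∈ B := fun b hb => by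
    have := (Subgroup.mem_normalizer_iff.mp hdN (d⁻¹ * b * d)).2 (by
      have h1 : d * (d⁻¹ * b * d) * d⁻¹ = b := by group
      rw [h1]; exact hb)
    exact this
  let t : MulAut ↥B :=
    { toFun := fun b => ⟨d * b * d⁻¹, hdB b b.2⟩
      invFun := fun b => ⟨d⁻¹ * b * d, hdB' b b.2⟩
      left_inv := fun b => Subtype.ext (by show d⁻¹ * (d * (b : G) * d⁻¹) * d = b; group)
      right_inv := fun b => Subtype.ext (by show d * (d⁻¹ * (b : G) * d) * d⁻¹ = b; group)
      map_mul' := fun a b => Subtype.ext (by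
        show d * ((a : G) * (b : G)) * d⁻¹ = (d * (a : G) * d⁻¹) * (d * (b : G) * d⁻¹); group) }
  have htv : ∀ b : ↥B, ((t b : ↥B) : G) = d * b * d⁻¹ := fun b => rfl
  have htpow : ∀ (m : ℕ) (b : ↥B), (((t ^ m) b : ↥B) : G) = d ^ m * b * (d ^ m)⁻¹ := by
    intro m
    induction m with
    | zero => intro b; simp
    | succ m ih =>
      intro b
      rw [pow_succ', MulAut.mul_apply, htv, ih, pow_succ']
      group
  obtain ⟨n, hn⟩ := hA2 ⟨d, hdA⟩
  have hdn : d ^ (2 ^ n) = 1 := congrArg Subtype.val hn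
  have htn : t ^ (2 ^ n) = 1 := by
    ext b
    rw [htpow, hdn]
    simp
  have hord : ∃ k : ℕ, orderOf t = 2 ^ k := by
    obtain ⟨k, _, hk⟩ := (Nat.dvd_prime_pow Nat.prime_two).mp (orderOf_dvd_of_pow_eq_one htn)
    exact ⟨k, hk⟩
  have hfix : ∀ a : ↥B, t (t a) = a → t a = a := by
    rintro ⟨b, hb⟩ h
    have h1 : d * (d * b * d⁻¹) * d⁻¹ = b := congrArg Subtype.val h
    have h2 : b⁻¹ * (d * d) * (b⁻¹)⁻¹ = d * d := by
      have h3 : d * d * b = b * (d * d) := by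
        calc d * d * b = (d * (d * b * d⁻¹) * d⁻¹) * (d * d) := by group
          _ = b * (d * d) := by rw [h1]
      calc b⁻¹ * (d * d) * (b⁻¹)⁻¹ = b⁻¹ * (d * d * b) := by group
        _ = b⁻¹ * (b * (d * d)) := by rw [h3]
        _ = d * d := by group
    have hbN := mem_normalizer_of_fix hti (A.mul_mem hdA hdA) hd2' h2
    have hbN' : b ∈ normalizer (A : Set G) := by
      simpa using (normalizer (A : Set G)).inv_mem hbN
    apply Subtype.ext
    show d * b * d⁻¹ = b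
    have h4 : d * b * d⁻¹ * b⁻¹ ∈ A ⊓ B := by
      constructor
      · have : d * b * d⁻¹ * b⁻¹ = d * (b * d⁻¹ * b⁻¹) := by group
        rw [this]
        exact A.mul_mem hdA ((Subgroup.mem_normalizer_iff.mp hbN' d⁻¹).1 (A.inv_mem hdA))
      · exact B.mul_mem (hdB b hb) (B.inv_mem hb)
    rw [hAB, Subgroup.mem_bot] at h4
    have h5 := mul_eq_one_iff_eq_inv.mp h4
    rwa [inv_inv] at h5
  have hBcomm' : ∀ x y : ↥B, x * y = y * x := fun x y => Subtype.ext (hBcomm _ x.2 _ y.2)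
  have hall := fix_of_fix_sq' hBcomm' hB2 t hord hfix
  have hBN : B ≤ normalizer (A : Set G) := by
    intro b hb
    have h1 : d * b * d⁻¹ = b := congrArg Subtype.val (hall ⟨b, hb⟩)
    have h2 : b⁻¹ * d * (b⁻¹)⁻¹ = d := by
      have h3 : d * b = b * d := by
        calc d * b = (d * b * d⁻¹) * d := by group
          _ = b * d := by rw [h1]
      calc b⁻¹ * d * (b⁻¹)⁻¹ = b⁻¹ * (d * b) := by group
        _ = b⁻¹ * (b * d) := by rw [h3]
        _ = d := by group
    have := mem_normalizer_of_fix hti hdA hd1 h2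
    simpa using (normalizer (A : Set G)).inv_mem this
  exact comm_of_normalizes 2 A B hA2 hB2 hBti hcard hAB hBN

end Cfsg.Agent.Lib.LdTI
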