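import Mathlib
import Cfsg.Agent.Lib.LRes
import Cfsg.Agent.Lib.H1Cop
import Cfsg.Prelude.Def_Transfer

/-!
# The trace from a Sylow subgroup and `V = [V, R] C_V(R)`
-/

set_option autoImplicit false

namespace Cfsg.Agent.Lib.LdTrace

open Subgroup
open scoped commutatorElement

theorem trace_lemma {A R : Type*} [Group A] [Group R] [Finite R] (hc : ∀ a b : A, a * b = b * a) (ρ : R → A →* A)
    (hmul : ∀ r s a, ρ (r * s) a = ρ r (ρ s a)) (T : Subgroup R) (v : A) (hv : ∀ t ∈ T, ρ t v = v)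
    (W : Subgroup A) (hW : ∀ r a, ρ r a * a⁻¹ ∈ W) :
    ∃ N w : A, (∀ s, ρ s N = N) ∧ w ∈ W ∧ N = v ^ T.index * w := by
  classical
  letI : CommGroup A := { (inferInstance : Group A) with mul_comm := hc }
  haveI : Fintype (R ⧸ T) := Fintype.ofFinite _
  let f : R ⧸ T → R := Quotient.out
  have hf : ∀ c : R ⧸ T, ((f c : R) : R ⧸ T) = c := fun c => QuotientGroup.out_eq' c
  refine ⟨∏ c : R ⧸ T, ρ (f c) v, ∏ c : R ⧸ T, (ρ (f c) v * v⁻¹), ?_, ?_, ?_⟩
  · intro s
    rw [map_prod]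
    have h1 : ∀ c : R ⧸ T, ρ s (ρ (f c) v) = ρ (f (s • c)) v := by
      intro c
      rw [← hmul]
      have h2 : ((s * f c : R) : R ⧸ T) = s • c := by
        conv_rhs => rw [← hf c]
        rfl
      have h3 : ((f (s • c) : R) : R ⧸ T) = ((s * f c : R) : R ⧸ T) := by rw [hf, h2]
      rw [QuotientGroup.eq] at h3
      have h4 : s * f c = f (s • c) * ((f (s • c))⁻¹ * (s * f c)) := by group
      rw [h4, hmul, hv _ h3]
    simp only [h1]
    exact Equiv.prod_comp (MulAction.toPerm s) (fun c => ρ (f c) v)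
  · exact Subgroup.prod_mem W (fun c _ => hW _ _)
  · rw [Finset.prod_mul_distrib, Finset.prod_inv_distrib, Finset.prod_const, Finset.card_univ,
      ← Nat.card_eq_fintype_card]
    change _ = v ^ T.index * _
    rw [Subgroup.index]
    rw [mul_comm (∏ c : R ⧸ T, ρ (f c) v), mul_inv_cancel_left]

variable {G : Type*} [Group G] [Finite G] {p : ℕ} [hpp : Fact p.Prime]

/-- conjugation of `V` by an element of a subgroup normalizing it -/
def rho (V R₀ : Subgroup G) (hR : R₀ ≤ normalizer (V : Set G)) (r : R₀) : V →* V where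
  toFun a := ⟨(r : G) * a * (r : G)⁻¹, (mem_normalizer_iff.1 (hR r.2) a).1 a.2⟩
  map_one' := by
    apply Subtype.ext
    simp
  map_mul' a b := by
    apply Subtype.ext
    simp only [MulMemClass.coe_mul]
    group

theorem trace_mem (V R₀ : Subgroup G) (hVc : IsMulCommutative V) (hVp : ∀ a ∈ V, a ^ p = 1)
    (hR : R₀ ≤ normalizer (V : Set G)) (S : Sylow p ↥R₀) (T : Subgroup G) (hT : T = ((S : Subgroup ↥R₀).map R₀.subtype))
    {v : G} (hv : v ∈ V ⊓ centralizer (T : Set G)) :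
    v ∈ ⁅V, R₀⁆ ⊔ (V ⊓ centralizer (R₀ : Set G)) := by
  classical
  obtain ⟨hv1, hv2⟩ := mem_inf.1 hv
  have hc : ∀ a b : V, a * b = b * a := hVc.is_comm.comm
  obtain ⟨N, w, hN, hw, hNw⟩ := trace_lemma hc (rho V R₀ hR) (by
      intro r s a
      apply Subtype.ext
      change (r * s : R₀).1 * a * (r * s : R₀).1⁻¹ = r.1 * (s.1 * a * s.1⁻¹) * r.1⁻¹
      simp only [MulMemClass.coe_mul]
      group) (S : Subgroup ↥R₀) ⟨v, hv1⟩ (by
      intro t ht
      apply Subtype.ext
      change (t : G) * v * (t : G)⁻¹ = v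
      have h1 : (t : G) ∈ T := by
        rw [hT]
        exact ⟨t, ht, rfl⟩
      have h2 := (mem_centralizer_iff.1 hv2) _ h1
      rw [h2]
      group) ((⁅V, R₀⁆ : Subgroup G).subgroupOf V) (by
      intro r a
      rw [mem_subgroupOf]
      change (r : G) * a * (r : G)⁻¹ * (a : G)⁻¹ ∈ _
      have h1 : (r : G) * a * (r : G)⁻¹ * (a : G)⁻¹ = ⁅(a : G), (r : G)⁆⁻¹ := by
        simp [commutatorElement_def]; group
      rw [h1]
      exact inv_mem (Subgroup.commutator_mem_commutator a.2 r.2))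
  set W := ⁅V, R₀⁆ ⊔ (V ⊓ centralizer (R₀ : Set G)) with hWdef
  have hNW : (N : G) ∈ W := by
    apply (le_sup_right : V ⊓ centralizer (R₀ : Set G) ≤ W)
    refine mem_inf.2 ⟨N.2, ?_⟩
    rw [mem_centralizer_iff]
    intro r hr
    have h1 := congrArg Subtype.val (hN ⟨r, hr⟩)
    change r * N * r⁻¹ = N at h1
    calc r * N = (r * N * r⁻¹) * r := by group
      _ = N * r := by rw [h1]
  have hwW : (w : G) ∈ W := (le_sup_left : ⁅V, R₀⁆ ≤ W) (mem_subgroupOf.1 hw)
  have hNw' : (N : G) = v ^ (S : Subgroup ↥R₀).index * w := by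
    have := congrArg Subtype.val hNw
    simpa using this
  have hvm : v ^ (S : Subgroup ↥R₀).index ∈ W := by
    have h1 : v ^ (S : Subgroup ↥R₀).index = N * (w : G)⁻¹ := by
      rw [hNw']; group
    rw [h1]
    exact mul_mem hNW (inv_mem hwW)
  have hcop : Nat.Coprime (S : Subgroup ↥R₀).index p := by
    have h := S.not_dvd_index
    exact ((Nat.Prime.coprime_iff_not_dvd hpp.out).2 h).symm
  -- invert the exponent
  have hord : orderOf v ∣ p := orderOf_dvd_of_pow_eq_one (hVp v hv1)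
  have hcop2 : Nat.Coprime (S : Subgroup ↥R₀).index (orderOf v) := Nat.Coprime.coprime_dvd_right hord hcop
  obtain ⟨a, -, ha⟩ := Nat.exists_mul_mod_eq_one_of_coprime hcop hpp.out.one_lt
  have h5 : (v ^ (S : Subgroup ↥R₀).index) ^ a = v := by
    rw [← pow_mul, pow_eq_pow_mod _ (hVp v hv1), ha, pow_one]
  rw [← h5]
  exact W.pow_mem hvm a

theorem main (V H : Subgroup G) (hV : Cfsg.IsElementaryAbelian p V) (hHV : H ≤ Subgroup.normalizer (V : Set G))
    (R : Subgroup G) (hR : R = (Cfsg.pResidual p ↥H).map H.subtype) (S : Sylow p ↥R) (T : Subgroup G)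
    (hT : T = ((S : Subgroup ↥R).map R.subtype))
    (hgen : ∀ W : Subgroup G, H ≤ Subgroup.normalizer (W : Set G) →
      (V ⊓ Subgroup.centralizer ((T : Subgroup G) : Set G)) ≤ W → V ≤ W) :
    ⁅V, R⁆ ⊔ (V ⊓ Subgroup.centralizer ((R : Subgroup G) : Set G)) = V := by
  obtain ⟨hVc, hVp⟩ := hV
  have hRH : R ≤ H := by
    rw [hR]
    exact Cfsg.Agent.Lib.LRes.res_le H
  have hRV : R ≤ normalizer (V : Set G) := hRH.trans hHV
  have hRn : ∀ h ∈ H, ∀ r ∈ R, h * r * h⁻¹ ∈ R := by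
    intro h hh r hr
    have hle : R ≤ R.comap (MulAut.conj h).toMonoidHom := by
      conv_lhs => rw [hR, Cfsg.Agent.Lib.LRes.res_eq_closure]
      rw [closure_le]
      rintro x ⟨hx, hxc⟩
      change h * x * h⁻¹ ∈ R
      rw [hR]
      apply Cfsg.Agent.Lib.LRes.coprime_mem_res (mul_mem (mul_mem hh hx) (inv_mem hh))
      have : orderOf (h * x * h⁻¹) = orderOf x := by
        have := orderOf_injective (MulAut.conj h).toMonoidHom (MulAut.conj h).injective x
        simpa [MulAut.conj_apply] using this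
      rwa [this]
    exact hle hr
  apply le_antisymm
  · refine sup_le ?_ inf_le_left
    rw [Subgroup.commutator_le]
    intro v hv r hr
    have h1 : r * v⁻¹ * r⁻¹ ∈ V := (mem_normalizer_iff.1 (hRV hr) v⁻¹).1 (inv_mem hv)
    have h2 : ⁅v, r⁆ = v * (r * v⁻¹ * r⁻¹) := by simp [commutatorElement_def]; group
    rw [h2]
    exact mul_mem hv h1
  · apply hgen
    · apply Cfsg.Agent.Lib.H1Cop.le_normalizer_of_forall
      intro h hh x hx
      have hle : ⁅V, R⁆ ⊔ (V ⊓ centralizer (R : Set G)) ≤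
          (⁅V, R⁆ ⊔ (V ⊓ centralizer (R : Set G))).comap (MulAut.conj h).toMonoidHom := by
        rw [sup_le_iff]
        constructor
        · rw [Subgroup.commutator_le]
          intro v hv r hr
          change h * ⁅v, r⁆ * h⁻¹ ∈ (⁅V, R⁆ ⊔ (V ⊓ centralizer (R : Set G)) : Subgroup G)
          have h1 : h * ⁅v, r⁆ * h⁻¹ = ⁅h * v * h⁻¹, h * r * h⁻¹⁆ := by
            simp [commutatorElement_def]; group
          rw [h1]
          exact (le_sup_left : ⁅V, R⁆ ≤ _) (Subgroup.commutator_mem_commutator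
            ((mem_normalizer_iff.1 (hHV hh) v).1 hv) (hRn h hh r hr))
        · intro c hc
          obtain ⟨hc1, hc2⟩ := mem_inf.1 hc
          change h * c * h⁻¹ ∈ (⁅V, R⁆ ⊔ (V ⊓ centralizer (R : Set G)) : Subgroup G)
          apply (le_sup_right : V ⊓ centralizer (R : Set G) ≤ _)
          refine mem_inf.2 ⟨(mem_normalizer_iff.1 (hHV hh) c).1 hc1, ?_⟩
          rw [mem_centralizer_iff]
          intro r hr
          have h2 := (mem_centralizer_iff.1 hc2) _ (hRn h⁻¹ (inv_mem hh) r hr)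
          have h3 : h⁻¹ * r * h⁻¹⁻¹ * c = c * (h⁻¹ * r * h⁻¹⁻¹) := h2
          calc r * (h * c * h⁻¹) = h * ((h⁻¹ * r * h⁻¹⁻¹) * c) * h⁻¹ := by group
            _ = h * (c * (h⁻¹ * r * h⁻¹⁻¹)) * h⁻¹ := by rw [h3]
            _ = _ := by group
      exact hle hx
    · intro v hv
      exact trace_mem V R hVc hVp hRV S T hT hv

end Cfsg.Agent.Lib.LdTrace
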