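import Mathlib

/-!
# Invariant commutative products and invariant symmetric trilinear forms
-/

set_option autoImplicit false

namespace Cfsg.Agent.Lib.LdTri

variable {H : Type*} [Group H] {U : Type*} [AddCommGroup U] [Module ℝ U] [FiniteDimensional ℝ U]

theorem main (ρ : Representation ℝ H U) (hirr : ∀ W : Submodule ℝ U, (∀ g : H, W.map (ρ g) ≤ W) → W = ⊥ ∨ W = ⊤)
    (B : LinearMap.BilinForm ℝ U) (hB0 : B ≠ 0) (hBs : ∀ u v, B u v = B v u)
    (hBi : ∀ (g : H) (u v : U), B (ρ g u) (ρ g v) = B u v) :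
    (∃ m : U →ₗ[ℝ] U →ₗ[ℝ] U, m ≠ 0 ∧ (∀ u v, m u v = m v u) ∧ (∀ (g : H) (u v : U), m (ρ g u) (ρ g v) = ρ g (m u v)) ∧
        ∀ m' : U →ₗ[ℝ] U →ₗ[ℝ] U, (∀ (g : H) (u v : U), m' (ρ g u) (ρ g v) = ρ g (m' u v)) → ∃ c : ℝ, m' = c • m) ↔
    (∃ t : U →ₗ[ℝ] U →ₗ[ℝ] U →ₗ[ℝ] ℝ, t ≠ 0 ∧ (∀ u v w, t u v w = t v u w ∧ t u v w = t u w v) ∧
        (∀ (g : H) (u v w : U), t (ρ g u) (ρ g v) (ρ g w) = t u v w) ∧
        ∀ t' : U →ₗ[ℝ] U →ₗ[ℝ] U →ₗ[ℝ] ℝ, (∀ (g : H) (u v w : U), t' (ρ g u) (ρ g v) (ρ g w) = t' u v w) → ∃ c : ℝ, t' = c • t) := by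
  classical
  -- nondegeneracy
  have hinv : ∀ (g : H) (u : U), ρ g⁻¹ (ρ g u) = u := by
    intro g u
    rw [← Module.End.mul_apply, ← map_mul]; simp
  have hinv' : ∀ (g : H) (u : U), ρ g (ρ g⁻¹ u) = u := by
    intro g u
    rw [← Module.End.mul_apply, ← map_mul]; simp
  have hnd : B.Nondegenerate := by
    -- radical
    let R : Submodule ℝ U := LinearMap.ker B
    have hR : R = ⊥ ∨ R = ⊤ := by
      apply hirr
      rintro g _ ⟨u, hu, rfl⟩
      show B (ρ g u) = 0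
      apply LinearMap.ext
      intro v
      have h1 : B u = 0 := hu
      have h2 := hBi g u (ρ g⁻¹ v)
      rw [hinv', h1] at h2
      exact h2
    rcases hR with hR | hR
    · have hinj : Function.Injective B := LinearMap.ker_eq_bot.1 hR
      exact LinearMap.BilinForm.nondegenerate_iff_ker_eq_bot.2 hR
    · exfalso
      apply hB0
      apply LinearMap.ext
      intro u
      have : u ∈ R := by rw [hR]; trivial
      exact this
  -- duality
  let D : U ≃ₗ[ℝ] Module.Dual ℝ U := B.toDual hnd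
  have hD : ∀ u v, D u v = B u v := fun u v => LinearMap.BilinForm.toDual_def hnd
  -- from products to forms
  let Φ : (U →ₗ[ℝ] U →ₗ[ℝ] U) → (U →ₗ[ℝ] U →ₗ[ℝ] U →ₗ[ℝ] ℝ) := fun m =>
    LinearMap.mk₂ ℝ (fun u v => B (m u v)) (by intros; simp) (by intros; simp) (by intros; simp) (by intros; simp)
  have hΦ : ∀ m u v w, Φ m u v w = B (m u v) w := fun m u v w => rfl
  -- from forms to products
  let Ψ : (U →ₗ[ℝ] U →ₗ[ℝ] U →ₗ[ℝ] ℝ) → (U →ₗ[ℝ] U →ₗ[ℝ] U) := fun t =>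
    LinearMap.mk₂ ℝ (fun u v => D.symm (t u v)) (by intros; simp) (by intros; simp) (by intros; simp) (by intros; simp)
  have hΨ : ∀ t u v w, B (Ψ t u v) w = t u v w := by
    intro t u v w
    show B (D.symm (t u v)) w = t u v w
    rw [← hD, LinearEquiv.apply_symm_apply]
  have hΦΨ : ∀ t, Φ (Ψ t) = t := by
    intro t
    ext u v w
    rw [hΦ, hΨ]
  have hΨΦ : ∀ m, Ψ (Φ m) = m := by
    intro m
    ext u v
    apply D.injective
    apply LinearMap.ext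
    intro w
    rw [hD, hD, hΨ, hΦ]
  have hΦinv : ∀ m, (∀ (g : H) (u v : U), m (ρ g u) (ρ g v) = ρ g (m u v)) →
      ∀ (g : H) (u v w : U), Φ m (ρ g u) (ρ g v) (ρ g w) = Φ m u v w := by
    intro m hm g u v w
    rw [hΦ, hΦ, hm, hBi]
  have hΨinv : ∀ t, (∀ (g : H) (u v w : U), t (ρ g u) (ρ g v) (ρ g w) = t u v w) →
      ∀ (g : H) (u v : U), Ψ t (ρ g u) (ρ g v) = ρ g (Ψ t u v) := by
    intro t ht g u v
    apply D.injective
    apply LinearMap.ext
    intro w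
    rw [hD, hD, hΨ]
    have h1 := hBi g (Ψ t u v) (ρ g⁻¹ w)
    rw [hinv'] at h1
    rw [h1, hΨ]
    have h2 := ht g u v (ρ g⁻¹ w)
    rw [hinv'] at h2
    exact h2
  have hΦsmul : ∀ (c : ℝ) m, Φ (c • m) = c • Φ m := by
    intro c m
    ext u v w
    simp [hΦ]
  have hΨsmul : ∀ (c : ℝ) t, Ψ (c • t) = c • Ψ t := by
    intro c t
    rw [← hΨΦ (c • Ψ t), hΦsmul, hΦΨ]
  constructor
  · rintro ⟨m, hm0, hmc, hme, hmu⟩
    have htne : Φ m ≠ 0 := by
      intro h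
      apply hm0
      rw [← hΨΦ m, h]
      have := hΨsmul 0 0
      simpa using this
    have ht12 : ∀ u v w, Φ m u v w = Φ m v u w := by
      intro u v w
      rw [hΦ, hΦ, hmc]
    have htinv := hΦinv m hme
    -- uniqueness
    have huniq : ∀ t' : U →ₗ[ℝ] U →ₗ[ℝ] U →ₗ[ℝ] ℝ, (∀ (g : H) (u v w : U), t' (ρ g u) (ρ g v) (ρ g w) = t' u v w) →
        ∃ c : ℝ, t' = c • Φ m := by
      intro t' ht'
      obtain ⟨c, hc⟩ := hmu (Ψ t') (hΨinv t' ht')
      refine ⟨c, ?_⟩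
      rw [← hΦsmul, ← hc, hΦΨ]
    -- swap of the last two
    let τ : U →ₗ[ℝ] U →ₗ[ℝ] U →ₗ[ℝ] ℝ :=
      LinearMap.mk₂ ℝ (fun u v => (Φ m u).flip v) (by intros; ext; simp) (by intros; ext; simp)
        (by intros; ext; simp) (by intros; ext; simp)
    have hτ : ∀ u v w, τ u v w = Φ m u w v := fun u v w => rfl
    obtain ⟨c, hc⟩ := huniq τ (by
      intro g u v w
      rw [hτ, hτ]
      exact htinv g u w v)
    have hc' : ∀ u v w, Φ m u w v = c * Φ m u v w := by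
      intro u v w
      rw [← hτ, hc]; rfl
    have hcc : ∀ u v w, Φ m u v w = c * c * Φ m u v w := by
      intro u v w
      rw [mul_assoc, ← hc', ← hc']
    have hne : ∃ u v w, Φ m u v w ≠ 0 := by
      by_contra hall
      push Not at hall
      apply htne
      ext u v w
      exact hall u v w
    obtain ⟨u₀, v₀, w₀, h0⟩ := hne
    have hc1 : c = 1 := by
      -- t(u,v,w) = c t(v,w,u) etc
      have h1 : Φ m u₀ v₀ w₀ = c * Φ m u₀ v₀ w₀ := by
        calc Φ m u₀ v₀ w₀ = Φ m v₀ u₀ w₀ := ht12 _ _ _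
          _ = c * Φ m v₀ w₀ u₀ := by rw [hc' v₀ w₀ u₀]
          _ = c * Φ m w₀ v₀ u₀ := by rw [ht12 v₀ w₀ u₀]
          _ = c * (c * Φ m w₀ u₀ v₀) := by rw [hc' w₀ u₀ v₀]
          _ = c * c * Φ m w₀ u₀ v₀ := by ring
          _ = Φ m w₀ u₀ v₀ := (hcc _ _ _).symm
          _ = Φ m u₀ w₀ v₀ := ht12 _ _ _
          _ = c * Φ m u₀ v₀ w₀ := hc' _ _ _
      have h2 : (1 - c) * Φ m u₀ v₀ w₀ = 0 := by linarith
      rcases mul_eq_zero.1 h2 with h3 | h3
      · linarith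
      · exact absurd h3 h0
    refine ⟨Φ m, htne, ?_, htinv, huniq⟩
    intro u v w
    refine ⟨ht12 u v w, ?_⟩
    have := hc' u v w
    rw [hc1, one_mul] at this
    exact this.symm
  · rintro ⟨t, ht0, hts, hti, htu⟩
    refine ⟨Ψ t, ?_, ?_, hΨinv t hti, ?_⟩
    · intro h
      apply ht0
      rw [← hΦΨ t, h]
      have := hΦsmul 0 0
      simpa using this
    · intro u v
      apply D.injective
      apply LinearMap.ext
      intro w
      rw [hD, hD, hΨ, hΨ]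
      exact (hts u v w).1
    · intro m' hm'
      obtain ⟨c, hc⟩ := htu (Φ m') (hΦinv m' hm')
      refine ⟨c, ?_⟩
      rw [← hΨsmul, ← hc, hΨΦ]

end Cfsg.Agent.Lib.LdTri
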