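import Cfsg.Agent.Lib.LeechCross
import Cfsg.Agent.Lib.GolayOrder

/-! Automorphisms of the lattice: the monomial group and the stabiliser of the standard cross. -/

set_option autoImplicit false
set_option linter.unusedSimpArgs false
set_option linter.unusedVariables false

namespace Cfsg.Agent.Lib.LeechAut

open Cfsg Cfsg.Agent.LeechBasic Cfsg.Agent.Lib.LeechCount Cfsg.Agent.Lib.LeechCross
open scoped Pointwise

/-! ### Basic facts -/

/-- the underlying permutation -/
abbrev LL : Type := ↥leechLattice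

theorem co_add (g : Co0) (v w : LL) : (g : Equiv.Perm LL) (v + w) = (g : Equiv.Perm LL) v + (g : Equiv.Perm LL) w := g.2.1 v w

theorem co_norm (g : Co0) (v : LL) : sqNorm (((g : Equiv.Perm LL) v : LL) : GolayPt → ℤ) = sqNorm (v : GolayPt → ℤ) := g.2.2 v

theorem smul_def (g : Co0) (v : LL) : g • v = (g : Equiv.Perm LL) v := rfl

theorem dot_comm (x y : GolayPt → ℤ) : dotInt x y = dotInt y x := by
  unfold dotInt
  exact Finset.sum_congr rfl fun i _ => mul_comm _ _

theorem norm_add (x y : GolayPt → ℤ) : sqNorm (x + y) = sqNorm x + 2 * dotInt x y + sqNorm y := by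
  unfold sqNorm dotInt
  rw [Finset.mul_sum, ← Finset.sum_add_distrib, ← Finset.sum_add_distrib]
  refine Finset.sum_congr rfl fun i _ => ?_
  simp only [Pi.add_apply]
  ring

theorem co_dot (g : Co0) (v w : LL) :
    dotInt (((g : Equiv.Perm LL) v : LL) : GolayPt → ℤ) (((g : Equiv.Perm LL) w : LL) : GolayPt → ℤ)
      = dotInt (v : GolayPt → ℤ) (w : GolayPt → ℤ) := by
  have h1 := co_norm g (v + w)
  rw [co_add] at h1
  have h2 := norm_add (((g : Equiv.Perm LL) v : LL) : GolayPt → ℤ) (((g : Equiv.Perm LL) w : LL) : GolayPt → ℤ)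
  have h3 := norm_add (v : GolayPt → ℤ) (w : GolayPt → ℤ)
  have h4 := co_norm g v
  have h5 := co_norm g w
  have e1 : ((((g : Equiv.Perm LL) v + (g : Equiv.Perm LL) w : LL)) : GolayPt → ℤ) =
      (((g : Equiv.Perm LL) v : LL) : GolayPt → ℤ) + (((g : Equiv.Perm LL) w : LL) : GolayPt → ℤ) := rfl
  have e2 : (((v + w : LL)) : GolayPt → ℤ) = (v : GolayPt → ℤ) + (w : GolayPt → ℤ) := rfl
  rw [e1, e2, h2, h3, h4, h5] at h1
  omega

theorem dot_single (x : GolayPt → ℤ) (i : GolayPt) (s : ℤ) : dotInt x (Pi.single i s) = x i * s := by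
  unfold dotInt
  rw [Finset.sum_eq_single i]
  · simp
  · intro j _ hj
    simp [Pi.single_eq_of_ne hj]
  · simp

theorem single_mem (i : GolayPt) {s : ℤ} (hs : s = 8 ∨ s = -8) : (Pi.single i s : GolayPt → ℤ) ∈ leechLattice := by
  refine mem_lattice.2 (mk _ 0 ∅ cd_empty (fun j => ?_) ?_)
  · simp only [ind, Finset.notMem_empty, if_false]
    by_cases h : j = i
    · subst h
      rw [Pi.single_eq_same]
      rcases hs with rfl | rfl <;> decide
    · rw [Pi.single_eq_of_ne h]
      decide
  · have : ∑ j, (Pi.single i s : GolayPt → ℤ) j = s := by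
      rw [Finset.sum_eq_single i]
      · simp
      · intro j _ hj
        exact Pi.single_eq_of_ne hj _
      · simp
    rw [this]
    rcases hs with rfl | rfl <;> decide

/-! ### The action of a signed permutation on the lattice -/

theorem cd_smul {σ : Equiv.Perm GolayPt} (hσ : σ ∈ M24) {A : Finset GolayPt} (hA : Cd A) : Cd (σ • A) := by
  have h : σ • (supports (golayCode : Set (GolayPt → ZMod 2))) = supports (golayCode : Set (GolayPt → ZMod 2)) := hσ
  show σ • A ∈ supports (golayCode : Set (GolayPt → ZMod 2))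
  rw [← h]
  exact Set.smul_mem_smul_set hA

theorem mem_M24_of {σ : Equiv.Perm GolayPt} (h : ∀ A, Cd A → Cd (σ • A)) : σ ∈ M24 := by
  show σ • (supports (golayCode : Set (GolayPt → ZMod 2))) = supports (golayCode : Set (GolayPt → ZMod 2))
  apply Set.eq_of_subset_of_ncard_le
  · rintro _ ⟨A, hA, rfl⟩
    exact h A hA
  · rw [Set.ncard_smul_set]
  · exact Set.toFinite _

theorem ind_smul (σ : Equiv.Perm GolayPt) (A : Finset GolayPt) (i : GolayPt) : ind (σ • A) i = ind A (σ.symm i) := by
  unfold ind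
  have : i ∈ σ • A ↔ σ.symm i ∈ A := by
    rw [Finset.mem_smul_finset]
    constructor
    · rintro ⟨a, ha, rfl⟩
      simpa using ha
    · intro h
      exact ⟨_, h, by simp⟩
  simp only [this]

theorem ind_symm (A C : Finset GolayPt) (i : GolayPt) : (ind (symmDiff A C) i - ind A i - ind C i) % 2 = 0 := by
  unfold ind
  by_cases h1 : i ∈ A <;> by_cases h2 : i ∈ C <;> simp [h1, h2, Finset.mem_symmDiff]

theorem sum_signed (σ : Equiv.Perm GolayPt) (c : Finset GolayPt) (x : GolayPt → ℤ) :
    ∑ i, signedPerm σ c x i = ∑ j, x j - 2 * ∑ j ∈ σ⁻¹ • c, x j := by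
  have h1 : ∀ i, signedPerm σ c x i = x (σ.symm i) - 2 * (if i ∈ c then x (σ.symm i) else 0) := by
    intro i
    unfold signedPerm
    split_ifs <;> ring
  simp only [h1]
  rw [Finset.sum_sub_distrib, ← Finset.mul_sum]
  congr 1
  · exact Equiv.sum_comp σ.symm x
  · congr 1
    rw [Finset.sum_ite_mem, Finset.univ_inter]
    have h2 : σ⁻¹ • c = c.image σ.symm := rfl
    rw [h2, Finset.sum_image (fun a _ b _ h => σ.symm.injective h)]

theorem sum_word {x : GolayPt → ℤ} {m : ℤ} {A C : Finset GolayPt} (hA : Cd A) (hC : Cd C)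
    (h4 : ∀ i, x i ≡ m + 2 * ind A i [ZMOD 4]) : (∑ j ∈ C, x j) % 4 = 0 := by
  have h1 : (∑ j ∈ C, x j) % 4 = (∑ j ∈ C, (m + 2 * ind A j)) % 4 := by
    have : (∑ j ∈ C, x j) ≡ ∑ j ∈ C, (m + 2 * ind A j) [ZMOD 4] := by
      apply Int.ModEq.sum
      intro j _
      exact h4 j
    exact this
  rw [h1, Finset.sum_add_distrib, Finset.sum_const, ← Finset.mul_sum]
  have h2 : ∑ j ∈ C, ind A j = ((C ∩ A).card : ℤ) := by
    unfold ind
    rw [Finset.sum_ite_mem, Finset.sum_const]
    simp
  rw [h2]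
  have h3 := cd_card hC
  have h4' := cd_inter hC hA
  simp only [nsmul_eq_mul]
  obtain ⟨a, ha⟩ : ∃ a, C.card = 4 * a := ⟨C.card / 4, by omega⟩
  obtain ⟨b, hb⟩ : ∃ b, (C ∩ A).card = 2 * b := ⟨(C ∩ A).card / 2, by omega⟩
  rw [ha, hb]
  push_cast
  have : ((4 : ℤ) * a * m + 2 * (2 * b)) = 4 * (a * m + b) := by ring
  rw [this]
  exact Int.mul_emod_right _ _

theorem signed_mem {σ : Equiv.Perm GolayPt} (hσ : σ ∈ M24) {c : Finset GolayPt} (hc : Cd c)
    {x : GolayPt → ℤ} (hx : x ∈ leechLattice) : signedPerm σ c x ∈ leechLattice := by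
  classical
  obtain ⟨m, A, hA, h4, hs⟩ := dec (mem_lattice.1 hx)
  have hσA := cd_smul hσ hA
  have hσc : Cd (σ⁻¹ • c) := cd_smul (inv_mem hσ) hc
  have hsum := sum_word hA hσc h4
  by_cases hm : m % 2 = 0
  · refine mem_lattice.2 (mk _ m (σ • A) hσA (fun i => ?_) ?_)
    · have h1 := h4 (σ.symm i)
      rw [ind_smul]
      unfold signedPerm
      unfold Int.ModEq at h1 ⊢
      split_ifs <;> omega
    · rw [sum_signed]
      unfold Int.ModEq at hs ⊢
      omega
  · refine mem_lattice.2 (mk _ m (symmDiff (σ • A) c) (cd_symmDiff hσA hc) (fun i => ?_) ?_)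
    · have h1 := h4 (σ.symm i)
      have h2 := ind_symm (σ • A) c i
      rw [ind_smul] at h2
      have h3 : ind c i = if i ∈ c then 1 else 0 := rfl
      unfold signedPerm
      unfold Int.ModEq at h1 ⊢
      split_ifs with hi
      · rw [if_pos hi] at h3
        rw [h3] at h2
        omega
      · rw [if_neg hi] at h3
        rw [h3] at h2
        omega
    · rw [sum_signed]
      unfold Int.ModEq at hs ⊢
      omega

theorem signed_inv (σ : Equiv.Perm GolayPt) (c : Finset GolayPt) (x : GolayPt → ℤ) :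
    signedPerm σ⁻¹ (σ⁻¹ • c) (signedPerm σ c x) = x := by
  funext j
  unfold signedPerm
  have h1 : j ∈ σ⁻¹ • c ↔ σ j ∈ c := by
    rw [Finset.mem_smul_finset]
    constructor
    · rintro ⟨a, ha, rfl⟩
      simpa using ha
    · intro h
      exact ⟨_, h, by simp⟩
  have h2 : (σ⁻¹ : Equiv.Perm GolayPt).symm j = σ j := rfl
  simp only [h1, h2, Equiv.symm_apply_apply]
  split_ifs <;> simp

theorem signed_inv' (σ : Equiv.Perm GolayPt) (c : Finset GolayPt) (x : GolayPt → ℤ) :
    signedPerm σ c (signedPerm σ⁻¹ (σ⁻¹ • c) x) = x := by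
  funext i
  unfold signedPerm
  have h1 : σ.symm i ∈ σ⁻¹ • c ↔ i ∈ c := by
    rw [Finset.mem_smul_finset]
    constructor
    · rintro ⟨a, ha, e⟩
      have e3 : a = i := σ.symm.injective e
      rw [← e3]
      exact ha
    · intro h
      exact ⟨_, h, rfl⟩
  have h2 : (σ⁻¹ : Equiv.Perm GolayPt).symm (σ.symm i) = i := by
    show σ (σ.symm i) = i
    simp
  simp only [h1, h2]
  split_ifs <;> simp

theorem signed_add (σ : Equiv.Perm GolayPt) (c : Finset GolayPt) (x y : GolayPt → ℤ) :
    signedPerm σ c (x + y) = signedPerm σ c x + signedPerm σ c y := by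
  funext i
  unfold signedPerm
  simp only [Pi.add_apply]
  split_ifs <;> ring

theorem signed_norm (σ : Equiv.Perm GolayPt) (c : Finset GolayPt) (x : GolayPt → ℤ) :
    sqNorm (signedPerm σ c x) = sqNorm x := by
  unfold sqNorm
  rw [← Equiv.sum_comp σ.symm (fun j => x j ^ 2)]
  refine Finset.sum_congr rfl fun i _ => ?_
  unfold signedPerm
  split_ifs <;> ring

/-- the monomial elements -/
noncomputable def monoEl {σ : Equiv.Perm GolayPt} (hσ : σ ∈ M24) {c : Finset GolayPt} (hc : Cd c) : Co0 :=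
  ⟨{ toFun := fun v => ⟨signedPerm σ c v.1, signed_mem hσ hc v.2⟩
     invFun := fun v => ⟨signedPerm σ⁻¹ (σ⁻¹ • c) v.1, signed_mem (inv_mem hσ) (cd_smul (inv_mem hσ) hc) v.2⟩
     left_inv := fun v => Subtype.ext (signed_inv σ c v.1)
     right_inv := fun v => Subtype.ext (signed_inv' σ c v.1) },
    ⟨fun v w => Subtype.ext (signed_add σ c v.1 w.1), fun v => signed_norm σ c v.1⟩⟩

theorem monoEl_apply {σ : Equiv.Perm GolayPt} (hσ : σ ∈ M24) {c : Finset GolayPt} (hc : Cd c) (v : LL) :
    (((monoEl hσ hc : Co0) : Equiv.Perm LL) v : GolayPt → ℤ) = signedPerm σ c v.1 := rfl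

/-! ### The stabiliser of the standard cross -/

/-- preserving the standard cross -/
def PresC (g : Co0) : Prop :=
  ∀ v : LL, (v : GolayPt → ℤ) ∈ stdCross → ((g • v : LL) : GolayPt → ℤ) ∈ stdCross

/-- the vector `s` at `i` as a vector of the lattice -/
def sv (i : GolayPt) (s : ℤ) (hs : s = 8 ∨ s = -8) : LL := ⟨Pi.single i s, single_mem i hs⟩

theorem signed_single (σ : Equiv.Perm GolayPt) (c : Finset GolayPt) (i : GolayPt) (s : ℤ) :
    signedPerm σ c (Pi.single i s) = Pi.single (σ i) (if σ i ∈ c then -s else s) := by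
  funext j
  unfold signedPerm
  by_cases h : j = σ i
  · subst h
    simp
  · have h2 : σ.symm j ≠ i := fun e => h (by rw [← e]; simp)
    rw [Pi.single_eq_of_ne h2, Pi.single_eq_of_ne h]
    simp

theorem mono_pres {σ : Equiv.Perm GolayPt} (hσ : σ ∈ M24) {c : Finset GolayPt} (hc : Cd c) : PresC (monoEl hσ hc) := by
  rintro ⟨v, hv⟩ ⟨i, s, hs, rfl⟩
  show signedPerm σ c (Pi.single i s) ∈ stdCross
  rw [signed_single]
  refine ⟨σ i, _, ?_, rfl⟩
  split_ifs
  · rcases hs with rfl | rfl
    · right; norm_num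
    · left; norm_num
  · exact hs

/-- a stabiliser element is monomial, with signs and permutation in the group of the code -/
theorem pres_mono (g : Co0) (hg : PresC g) : ∃ (σ : Equiv.Perm GolayPt) (hσ : σ ∈ M24) (c : Finset GolayPt) (hc : Cd c),
    g = monoEl hσ hc := by
  classical
  have h1 : ∀ i, ∃ j s, (s = 8 ∨ s = -8) ∧ ((g • sv i 8 (Or.inl rfl) : LL) : GolayPt → ℤ) = Pi.single j s := by
    intro i
    obtain ⟨j, s, hs, e⟩ := hg (sv i 8 (Or.inl rfl)) ⟨i, 8, Or.inl rfl, rfl⟩
    exact ⟨j, s, hs, e⟩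
  choose f s hs he using h1
  have hdot : ∀ (x : LL) i, (((g : Equiv.Perm LL) x : LL) : GolayPt → ℤ) (f i) * s i = (x : GolayPt → ℤ) i * 8 := by
    intro x i
    have h2 := co_dot g x (sv i 8 (Or.inl rfl))
    have h3 : ((((g : Equiv.Perm LL) (sv i 8 (Or.inl rfl))) : LL) : GolayPt → ℤ) = Pi.single (f i) (s i) := he i
    rw [h3, dot_single] at h2
    have h4 : ((sv i 8 (Or.inl rfl) : LL) : GolayPt → ℤ) = Pi.single i 8 := rfl
    rw [h4, dot_single] at h2
    exact h2
  have hsq : ∀ i, s i * s i = 64 := by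
    intro i
    rcases hs i with h | h <;> rw [h] <;> norm_num
  have hinj : Function.Injective f := by
    intro i k hik
    by_contra hne
    have h2 := hdot (sv k 8 (Or.inl rfl)) i
    have h5 : ((((g : Equiv.Perm LL) (sv k 8 (Or.inl rfl))) : LL) : GolayPt → ℤ) = Pi.single (f k) (s k) := he k
    rw [h5, hik, Pi.single_eq_same] at h2
    have h6 : ((sv k 8 (Or.inl rfl) : LL) : GolayPt → ℤ) i = 0 := Pi.single_eq_of_ne hne _
    rw [h6] at h2
    have h7 : s k * s i ≠ 0 := by
      rcases hs k with h | h <;> rcases hs i with h' | h' <;> rw [h, h'] <;> norm_num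
    apply h7
    simpa using h2
  let σ : Equiv.Perm GolayPt := Equiv.ofBijective f (Finite.injective_iff_bijective.1 hinj)
  have hσf : ∀ i, σ i = f i := fun i => rfl
  let c : Finset GolayPt := Finset.univ.filter (fun j => s (σ.symm j) = -8)
  have hval : ∀ (x : LL), (((g : Equiv.Perm LL) x : LL) : GolayPt → ℤ) = signedPerm σ c x.1 := by
    intro x
    funext j
    have h2 := hdot x (σ.symm j)
    have h3 : f (σ.symm j) = j := by
      rw [← hσf]
      simp
    rw [h3] at h2
    unfold signedPerm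
    by_cases hj : j ∈ c
    · rw [if_pos hj]
      have h4 : s (σ.symm j) = -8 := (Finset.mem_filter.1 hj).2
      rw [h4] at h2
      omega
    · rw [if_neg hj]
      have h4 : s (σ.symm j) = 8 := by
        rcases hs (σ.symm j) with h | h
        · exact h
        · exact absurd (show j ∈ c from Finset.mem_filter.2 ⟨Finset.mem_univ j, h⟩) hj
      rw [h4] at h2
      omega
  have hσ : σ ∈ M24 := by
    apply mem_M24_of
    intro A hA
    -- the vector twice the indicator of A
    have hxL : (fun i => 2 * ind A i) ∈ leechLattice := by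
      refine mem_lattice.2 (mk _ 0 A hA (fun i => ?_) ?_)
      · rw [zero_add]
      · have h5 : ∑ i, 2 * ind A i = 2 * (A.card : ℤ) := by
          rw [← Finset.mul_sum]
          unfold ind
          rw [Finset.sum_ite_mem, Finset.univ_inter, Finset.sum_const]
          simp
        rw [h5]
        have h6 := cd_card hA
        unfold Int.ModEq
        omega
    have h7 := hval ⟨_, hxL⟩
    have h8 : signedPerm σ c (fun i => 2 * ind A i) ∈ leechSet := by
      have h9 := ((g : Equiv.Perm LL) ⟨_, hxL⟩).2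
      have h10 : (((g : Equiv.Perm LL) ⟨_, hxL⟩ : LL) : GolayPt → ℤ) = signedPerm σ c (fun i => 2 * ind A i) := h7
      rw [h10] at h9
      exact mem_lattice.1 h9
    obtain ⟨m, -, -, hk⟩ := h8
    have h11 := hk 2
    have h12 : (Finset.univ.filter fun i => signedPerm σ c (fun i => 2 * ind A i) i ≡ 2 [ZMOD 4]) = σ • A := by
      ext i
      simp only [Finset.mem_filter, Finset.mem_univ, true_and]
      have h13 : i ∈ σ • A ↔ σ.symm i ∈ A := by
        rw [Finset.mem_smul_finset]
        constructor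
        · rintro ⟨a, ha, rfl⟩
          simpa using ha
        · intro h
          exact ⟨_, h, by simp⟩
      rw [h13]
      unfold signedPerm ind
      by_cases h14 : σ.symm i ∈ A <;> by_cases h15 : i ∈ c <;> simp [h14, h15] <;> decide
    rw [h12] at h11
    exact h11
  have hc : Cd c := by
    -- the vector with entries 1 except -3 at one point
    have hxL : (fun i => if i = none then (-3 : ℤ) else 1) ∈ leechLattice := by
      refine mem_lattice.2 (mk _ 1 ∅ cd_empty (fun i => ?_) ?_)
      · simp only [ind, Finset.notMem_empty, if_false]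
        split_ifs <;> decide
      · decide
    have h7 := hval ⟨_, hxL⟩
    have h8 : signedPerm σ c (fun i => if i = none then (-3 : ℤ) else 1) ∈ leechSet := by
      have h9 := ((g : Equiv.Perm LL) ⟨_, hxL⟩).2
      have h10 : (((g : Equiv.Perm LL) ⟨_, hxL⟩ : LL) : GolayPt → ℤ) = signedPerm σ c (fun i => if i = none then (-3 : ℤ) else 1) := h7
      rw [h10] at h9
      exact mem_lattice.1 h9
    obtain ⟨m, -, -, hk⟩ := h8
    have h11 := hk 3
    have h12 : (Finset.univ.filter fun i => signedPerm σ c (fun i => if i = none then (-3 : ℤ) else 1) i ≡ 3 [ZMOD 4]) = c := by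
      ext i
      simp only [Finset.mem_filter, Finset.mem_univ, true_and]
      unfold signedPerm
      by_cases h15 : i ∈ c <;> by_cases h14 : σ.symm i = none <;> simp [h14, h15] <;> decide
    rw [h12] at h11
    exact h11
  refine ⟨σ, hσ, c, hc, ?_⟩
  apply Subtype.ext
  apply Equiv.ext
  intro v
  apply Subtype.ext
  exact hval v

theorem mono_inj {σ σ' : Equiv.Perm GolayPt} (hσ : σ ∈ M24) (hσ' : σ' ∈ M24) {c c' : Finset GolayPt} (hc : Cd c)
    (hc' : Cd c') (h : monoEl hσ hc = monoEl hσ' hc') : σ = σ' ∧ c = c' := by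
  have key : ∀ i, signedPerm σ c (Pi.single i 8) = signedPerm σ' c' (Pi.single i 8) := by
    intro i
    have := congrArg (fun g : Co0 => (((g : Equiv.Perm LL) (sv i 8 (Or.inl rfl)) : LL) : GolayPt → ℤ)) h
    exact this
  have h1 : ∀ i, σ i = σ' i ∧ (σ i ∈ c ↔ σ i ∈ c') := by
    intro i
    have h2 := key i
    rw [signed_single, signed_single] at h2
    by_contra hne
    have h3 : σ i = σ' i := by
      by_contra h4
      have h5 := congrFun h2 (σ i)
      rw [Pi.single_eq_same, Pi.single_eq_of_ne h4] at h5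
      split_ifs at h5 <;> omega
    have h6 := congrFun h2 (σ i)
    rw [← h3, Pi.single_eq_same, Pi.single_eq_same] at h6
    apply hne
    refine ⟨h3, ?_⟩
    by_cases a : σ i ∈ c <;> by_cases b : σ i ∈ c' <;> simp only [a, b, if_true, if_false] at h6 ⊢ <;> first | trivial | omega
  have h7 : σ = σ' := Equiv.ext fun i => (h1 i).1
  refine ⟨h7, ?_⟩
  ext j
  have := (h1 (σ.symm j)).2
  simpa using this

theorem card_codes : Nat.card { c : Finset GolayPt // Cd c } = 4096 := by
  classical
  have h1 := sum_codes (fun _ => 1)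
  simp only [Finset.sum_const, smul_eq_mul, mul_one] at h1
  have h2 : Nat.card { c : Finset GolayPt // Cd c } = Codes.card := by
    rw [← Fintype.card_coe, ← Nat.card_eq_fintype_card]
    exact Nat.card_congr (Equiv.subtypeEquivRight fun c => mem_Codes.symm)
  rw [h2, h1]

/-- the stabiliser of the standard cross -/
noncomputable def monoEquiv : (M24 × { c : Finset GolayPt // Cd c }) ≃ { g : Co0 // PresC g } :=
  Equiv.ofBijective (fun p => ⟨monoEl p.1.2 p.2.2, mono_pres _ _⟩) (by
    constructor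
    · rintro ⟨⟨σ, hσ⟩, ⟨c, hc⟩⟩ ⟨⟨σ', hσ'⟩, ⟨c', hc'⟩⟩ h
      obtain ⟨a, b⟩ := mono_inj hσ hσ' hc hc' (congrArg Subtype.val h)
      subst a
      subst b
      rfl
    · rintro ⟨g, hg⟩
      obtain ⟨σ, hσ, c, hc, rfl⟩ := pres_mono g hg
      exact ⟨(⟨σ, hσ⟩, ⟨c, hc⟩), rfl⟩)

theorem card_pres : Nat.card { g : Co0 // PresC g } = 4096 * 244823040 := by
  rw [← Nat.card_congr monoEquiv, Nat.card_prod, card_codes, Cfsg.Agent.Lib.GolayOrder.card_M24, mul_comm]

/-- the vector at the extra point -/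
def v8 : LL := sv none 8 (Or.inl rfl)

theorem sqNorm_single (i : GolayPt) (s : ℤ) : sqNorm (Pi.single i s : GolayPt → ℤ) = s ^ 2 := by
  unfold sqNorm
  rw [Finset.sum_eq_single i]
  · simp
  · intro j _ hj
    simp [Pi.single_eq_of_ne hj]
  · simp

theorem std_sub : stdCross ⊆ cross (v8 : GolayPt → ℤ) := by
  rintro _ ⟨j, s, hs, rfl⟩
  have hv : (v8 : GolayPt → ℤ) = Pi.single none 8 := rfl
  refine ⟨single_mem j hs, ?_, ?_⟩
  · rw [hv, sqNorm_single, sqNorm_single]
    rcases hs with rfl | rfl <;> norm_num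
  · let z : GolayPt → ℤ := fun i => (Pi.single none 8 - Pi.single j s : GolayPt → ℤ) i / 2
    have h4 : ∀ i, (Pi.single none 8 - Pi.single j s : GolayPt → ℤ) i % 8 = 0 := by
      intro i
      simp only [Pi.sub_apply, Pi.single_apply]
      rcases hs with rfl | rfl <;> split_ifs <;> norm_num
    refine ⟨z, ?_, ?_⟩
    · refine mem_lattice.2 (mk z 0 ∅ cd_empty (fun i => ?_) ?_)
      · simp only [ind, Finset.notMem_empty, if_false, z]
        have := h4 i
        unfold Int.ModEq
        omega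
      · have h5 : ∑ i, z i = (∑ i, (Pi.single none 8 - Pi.single j s : GolayPt → ℤ) i) / 2 := by
          have h6 : ∀ i, (Pi.single none 8 - Pi.single j s : GolayPt → ℤ) i = 2 * z i := by
            intro i
            have := h4 i
            simp only [z]
            omega
          simp only [h6]
          rw [← Finset.mul_sum]
          simp
        have h7 : ∑ i, (Pi.single none 8 - Pi.single j s : GolayPt → ℤ) i = 8 - s := by
          simp only [Pi.sub_apply]
          rw [Finset.sum_sub_distrib, Finset.sum_pi_single', Finset.sum_pi_single']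
          simp
        rw [h5, h7]
        rcases hs with rfl | rfl <;> decide
    · funext i
      have := h4 i
      rw [hv, two_nsmul]
      simp only [Pi.add_apply, z]
      omega

theorem card_std : stdCross.ncard = 48 := by
  classical
  have h : stdCross = ↑((Finset.univ : Finset (GolayPt × Bool)).image
      (fun p => (Pi.single p.1 (if p.2 then 8 else -8) : GolayPt → ℤ))) := by
    ext y
    simp only [stdCross, Set.mem_ofPred_eq, Finset.coe_image, Finset.coe_univ, Set.image_univ, Set.mem_range, Prod.exists]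
    constructor
    · rintro ⟨i, s, hs, rfl⟩
      rcases hs with rfl | rfl
      · exact ⟨i, true, rfl⟩
      · exact ⟨i, false, rfl⟩
    · rintro ⟨i, b, rfl⟩
      refine ⟨i, _, ?_, rfl⟩
      cases b <;> simp
  rw [h, Set.ncard_coe_finset, Finset.card_image_of_injective, Finset.card_univ, Fintype.card_prod, card_golayPt]
  · rfl
  · rintro ⟨i, b⟩ ⟨j, b'⟩ e
    have e' : (Pi.single i (if b then 8 else -8) : GolayPt → ℤ) = Pi.single j (if b' then 8 else -8) := e
    have h1 : i = j := by
      by_contra hne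
      have := congrFun e' i
      rw [Pi.single_eq_same, Pi.single_eq_of_ne hne] at this
      cases b <;> simp at this
    subst h1
    have := congrFun e' i
    rw [Pi.single_eq_same, Pi.single_eq_same] at this
    cases b <;> cases b' <;> simp_all

theorem std_eq : stdCross = cross (v8 : GolayPt → ℤ) := by
  have hn : sqNorm (v8 : GolayPt → ℤ) = 64 := by
    show sqNorm (Pi.single none 8 : GolayPt → ℤ) = 64
    rw [sqNorm_single]
    norm_num
  have hc := cross_card _ v8.2 hn
  have hfin : (cross (v8 : GolayPt → ℤ)).Finite := Set.finite_of_ncard_ne_zero (by rw [hc]; norm_num)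
  exact Set.eq_of_subset_of_ncard_le std_sub (by rw [hc, card_std]) hfin

theorem v8_norm : sqNorm (v8 : GolayPt → ℤ) = 64 := by
  show sqNorm (Pi.single none 8 : GolayPt → ℤ) = 64
  rw [sqNorm_single]
  norm_num

theorem co_nsmul2 (g : Co0) (z : LL) : (g : Equiv.Perm LL) ((2 : ℕ) • z) = (2 : ℕ) • (g : Equiv.Perm LL) z := by
  rw [two_nsmul, two_nsmul, co_add]

theorem co_sub (g : Co0) (v w : LL) : (g : Equiv.Perm LL) (v - w) = (g : Equiv.Perm LL) v - (g : Equiv.Perm LL) w := by
  have h := co_add g (v - w) w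
  rw [sub_add_cancel] at h
  rw [h]
  abel

theorem cg_co (g : Co0) {v w : LL} (h : Cg v.1 w.1) : Cg ((g : Equiv.Perm LL) v).1 ((g : Equiv.Perm LL) w).1 := by
  obtain ⟨z, hz, e⟩ := h
  let Z : LL := ⟨z, hz⟩
  refine ⟨((g : Equiv.Perm LL) Z).1, ((g : Equiv.Perm LL) Z).2, ?_⟩
  have e2 : v - w = (2 : ℕ) • Z := Subtype.ext e
  have e3 := co_sub g v w
  rw [e2, co_nsmul2] at e3
  have e4 := congrArg Subtype.val e3
  exact e4.symm

theorem pres_of_cong (k : Co0) (h : Cg ((k : Equiv.Perm LL) v8).1 v8.1) : PresC k := by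
  intro v hv
  have hn0 : (v : GolayPt → ℤ) ∈ cross (v8 : GolayPt → ℤ) := std_sub hv
  obtain ⟨-, hn, z, hz, e⟩ := hn0
  have hc1 : Cg v8.1 v.1 := ⟨z, hz, e⟩
  have hc2 := cg_co k hc1
  rw [std_eq]
  refine ⟨((k : Equiv.Perm LL) v).2, ?_, ?_⟩
  · show sqNorm (((k : Equiv.Perm LL) v).1) = _
    rw [co_norm, hn]
  · -- chain of congruences
    obtain ⟨z1, hz1, e1⟩ := h
    obtain ⟨z2, hz2, e2⟩ := hc2
    refine ⟨-z1 + z2, add_mem (neg_mem hz1) hz2, ?_⟩
    have e3 : (v8.1 - ((k : Equiv.Perm LL) v).1) = -(((k : Equiv.Perm LL) v8).1 - v8.1) + (((k : Equiv.Perm LL) v8).1 - ((k : Equiv.Perm LL) v).1) := by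
      abel
    show v8.1 - ((k : Equiv.Perm LL) v).1 = _
    rw [e3, e1, e2]
    simp only [smul_add, smul_neg]

/-- the upper bound -/
theorem card_le : Finite Co0 ∧ Nat.card Co0 ≤ 8292375 * (4096 * 244823040) := by
  classical
  letI : Fintype QQ := Fintype.ofFinite QQ
  let Cl := (wF 64).image cc
  have hCl : Cl.card = 8292375 := images.2
  let ψ : Co0 → { q // q ∈ Cl } := fun g => ⟨cc (((g : Equiv.Perm LL) v8).1), Finset.mem_image.2 ⟨_, mem64.2
    ⟨((g : Equiv.Perm LL) v8).2, by show sqNorm (((g : Equiv.Perm LL) v8).1) = 64; rw [co_norm, v8_norm]⟩, rfl⟩⟩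
  let r : { q // q ∈ Cl } → Co0 := Function.invFun ψ
  have hr : ∀ g, ψ (r (ψ g)) = ψ g := fun g => Function.invFun_eq ⟨g, rfl⟩
  have hP : ∀ g, PresC ((r (ψ g))⁻¹ * g) := by
    intro g
    apply pres_of_cong
    set h := r (ψ g) with hh
    have h1 : cc (((h : Equiv.Perm LL) v8).1) = cc (((g : Equiv.Perm LL) v8).1) := congrArg Subtype.val (hr g)
    have h2 : Cg (((g : Equiv.Perm LL) v8).1) (((h : Equiv.Perm LL) v8).1) :=
      (cc_eq ((g : Equiv.Perm LL) v8).2 ((h : Equiv.Perm LL) v8).2).1 h1.symm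
    have h3 := cg_co h⁻¹ h2
    have h4 : ((h⁻¹ : Co0) : Equiv.Perm LL) ((h : Equiv.Perm LL) v8) = v8 := by
      show ((h : Equiv.Perm LL)⁻¹) ((h : Equiv.Perm LL) v8) = v8
      simp
    rw [h4] at h3
    exact h3
  let Φ : Co0 → { q // q ∈ Cl } × { g : Co0 // PresC g } := fun g => (ψ g, ⟨(r (ψ g))⁻¹ * g, hP g⟩)
  have hΦ : Function.Injective Φ := by
    intro a b h
    have h1 : ψ a = ψ b := congrArg Prod.fst h
    have h2 : (r (ψ a))⁻¹ * a = (r (ψ b))⁻¹ * b := congrArg (fun p => (p.2 : { g : Co0 // PresC g }).1) h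
    rw [h1] at h2
    exact mul_left_cancel h2
  haveI hfinP : Finite { g : Co0 // PresC g } := Nat.finite_of_card_ne_zero (by rw [card_pres]; norm_num)
  haveI hfinG : Finite Co0 := Finite.of_injective Φ hΦ
  refine ⟨hfinG, ?_⟩
  have h3 := Nat.card_le_card_of_injective Φ hΦ
  have h4 : Nat.card { q // q ∈ Cl } = 8292375 := by
    rw [Nat.card_eq_fintype_card, Fintype.card_coe, hCl]
  rw [Nat.card_prod, card_pres, h4] at h3
  exact h3

end Cfsg.Agent.Lib.LeechAut
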