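import Cfsg.Agent.S0359
import Cfsg.Agent.S0362
import Cfsg.Prelude.Def_SporadicCombinatorics

/-! `leechSet` is an additive group; description by an even/odd type and a code word. -/

set_option autoImplicit false

namespace Cfsg.Agent.LeechBasic

open Cfsg

/-- Supports of code words. -/
abbrev Cd (A : Finset GolayPt) : Prop := A ∈ supports (golayCode : Set (GolayPt → ZMod 2))

theorem cd_empty : Cd ∅ := by
  refine ⟨0, Submodule.zero_mem _, ?_⟩
  ext p
  simp [support₂]

theorem cd_univ : Cd Finset.univ := by
  refine ⟨1, Submodule.subset_span (Set.mem_union_right _ rfl), ?_⟩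
  ext p
  simp [support₂]

theorem cd_symmDiff {A B : Finset GolayPt} (hA : Cd A) (hB : Cd B) : Cd (symmDiff A B) := by
  obtain ⟨u, hu, rfl⟩ := hA
  obtain ⟨v, hv, rfl⟩ := hB
  refine ⟨u + v, Submodule.add_mem _ hu hv, ?_⟩
  ext p
  have key : ∀ a b : ZMod 2, a + b ≠ 0 ↔ (a ≠ 0 ∧ ¬ b ≠ 0) ∨ (b ≠ 0 ∧ ¬ a ≠ 0) := by decide
  simp only [support₂, Finset.mem_filter, Finset.mem_univ, true_and, Finset.mem_symmDiff,
    Pi.add_apply]
  exact key _ _

theorem cd_compl {A : Finset GolayPt} (hA : Cd A) : Cd Aᶜ := by
  have h := cd_symmDiff hA cd_univ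
  have h2 : symmDiff A Finset.univ = Aᶜ := by
    ext p; simp [Finset.mem_symmDiff]
  rwa [h2] at h

/-- The indicator of `A`. -/
def ind (A : Finset GolayPt) (i : GolayPt) : ℤ := if i ∈ A then 1 else 0

theorem mk (x : GolayPt → ℤ) (m : ℤ) (A : Finset GolayPt) (hA : Cd A)
    (h4 : ∀ i, x i ≡ m + 2 * ind A i [ZMOD 4]) (hs : ∑ i, x i ≡ 4 * m [ZMOD 8]) :
    x ∈ leechSet := by
  refine ⟨m, ?_, hs, ?_⟩
  · intro i
    have := h4 i
    unfold Int.ModEq at this ⊢
    unfold ind at this
    split_ifs at this <;> omega
  · intro k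
    by_cases h1 : k ≡ m [ZMOD 4]
    · have : (Finset.univ.filter fun i => x i ≡ k [ZMOD 4]) = Aᶜ := by
        ext i
        simp only [Finset.mem_filter, Finset.mem_univ, true_and, Finset.mem_compl]
        have := h4 i
        unfold Int.ModEq at this h1 ⊢
        unfold ind at this
        by_cases hi : i ∈ A
        · simp only [hi, if_true] at this
          simp only [hi, not_true_eq_false, iff_false]
          omega
        · simp only [hi, if_false] at this
          simp only [hi, not_false_eq_true, iff_true]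
          omega
      rw [this]
      exact cd_compl hA
    · by_cases h2 : k ≡ m + 2 [ZMOD 4]
      · have : (Finset.univ.filter fun i => x i ≡ k [ZMOD 4]) = A := by
          ext i
          simp only [Finset.mem_filter, Finset.mem_univ, true_and]
          have := h4 i
          unfold Int.ModEq at this h2 ⊢
          unfold ind at this
          by_cases hi : i ∈ A
          · simp only [hi, if_true] at this
            simp only [hi, iff_true]
            omega
          · simp only [hi, if_false] at this
            simp only [hi, iff_false]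
            omega
        rw [this]
        exact hA
      · have : (Finset.univ.filter fun i => x i ≡ k [ZMOD 4]) = ∅ := by
          ext i
          simp only [Finset.mem_filter, Finset.mem_univ, true_and, Finset.notMem_empty, iff_false]
          have := h4 i
          unfold Int.ModEq at this h1 h2 ⊢
          unfold ind at this
          split_ifs at this <;> omega
        rw [this]
        exact cd_empty

theorem dec {x : GolayPt → ℤ} (hx : x ∈ leechSet) : ∃ (m : ℤ) (A : Finset GolayPt), Cd A ∧
    (∀ i, x i ≡ m + 2 * ind A i [ZMOD 4]) ∧ ∑ i, x i ≡ 4 * m [ZMOD 8] := by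
  obtain ⟨m, h2, hs, hk⟩ := hx
  refine ⟨m, _, hk (m + 2), ?_, hs⟩
  intro i
  have := h2 i
  unfold ind
  by_cases h : x i ≡ m + 2 [ZMOD 4]
  · rw [if_pos (by simpa using h)]
    unfold Int.ModEq at h ⊢
    omega
  · rw [if_neg (by simpa using h)]
    unfold Int.ModEq at this h ⊢
    omega

/-- `leechSet` as an additive subgroup. -/
def L : AddSubgroup (GolayPt → ℤ) where
  carrier := leechSet
  zero_mem' := by
    refine mk 0 0 ∅ cd_empty ?_ ?_
    · intro i; simp [ind, Int.ModEq]
    · simp [Int.ModEq]
  add_mem' := by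
    intro x y hx hy
    obtain ⟨m, A, hA, h4, hs⟩ := dec hx
    obtain ⟨n, C, hC, h4', hs'⟩ := dec hy
    refine mk (x + y) (m + n) (symmDiff A C) (cd_symmDiff hA hC) ?_ ?_
    · intro i
      have h1 := h4 i
      have h2 := h4' i
      unfold Int.ModEq at h1 h2 ⊢
      simp only [Pi.add_apply]
      unfold ind at h1 h2 ⊢
      simp only [Finset.mem_symmDiff]
      by_cases ha : i ∈ A <;> by_cases hc : i ∈ C <;> simp only [ha, hc, if_true, if_false] at h1 h2 ⊢ <;>
        simp <;> omega
    · simp only [Pi.add_apply, Finset.sum_add_distrib]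
      unfold Int.ModEq at hs hs' ⊢
      omega
  neg_mem' := by
    intro x hx
    obtain ⟨m, A, hA, h4, hs⟩ := dec hx
    refine mk (-x) (-m) A hA ?_ ?_
    · intro i
      have h1 := h4 i
      unfold Int.ModEq at h1 ⊢
      simp only [Pi.neg_apply]
      unfold ind at h1 ⊢
      split_ifs at h1 ⊢ <;> omega
    · simp only [Pi.neg_apply, Finset.sum_neg_distrib]
      unfold Int.ModEq at hs ⊢
      omega

theorem lattice_eq : leechLattice = L := by
  apply le_antisymm
  · exact (AddSubgroup.closure_le L).2 (fun x hx => hx)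
  · intro x hx
    exact AddSubgroup.subset_closure hx

theorem mem_lattice {x : GolayPt → ℤ} : x ∈ leechLattice ↔ x ∈ leechSet := by
  rw [lattice_eq]; rfl

/-- Support of a binary word in terms of `ZMod 2` values. -/
theorem cd_card {A : Finset GolayPt} (hA : Cd A) : A.card % 4 = 0 := by
  obtain ⟨u, hu, rfl⟩ := hA
  have h := Cfsg.Agent.S0359.result u hu
  have h2 : (support₂ u).card = hammingNorm u := by
    rfl
  rw [h2]
  omega

theorem cd_inter {A C : Finset GolayPt} (hA : Cd A) (hC : Cd C) : (A ∩ C).card % 2 = 0 := by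
  obtain ⟨u, hu, rfl⟩ := hA
  obtain ⟨v, hv, rfl⟩ := hC
  have h := Cfsg.Agent.S0362.result u v hu hv
  have key : ∀ a b : ZMod 2, a * b = if (a ≠ 0 ∧ b ≠ 0) then 1 else 0 := by decide
  simp only [key] at h
  rw [Finset.sum_boole] at h
  have h2 : (Finset.univ.filter fun i => u i ≠ 0 ∧ v i ≠ 0) = support₂ u ∩ support₂ v := by
    ext i
    simp [support₂]
  rw [h2] at h
  have h3 := (ZMod.natCast_eq_zero_iff _ 2).1 h
  omega

end Cfsg.Agent.LeechBasic
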