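import Cfsg.Agent.Lib.LeechBasic
import Cfsg.Agent.S0360
import Cfsg.Agent.S0361

/-! Counting the vectors of the lattice with a given sum of squares, through a generating function
evaluated in the natural numbers. -/

set_option autoImplicit false
set_option linter.unusedSimpArgs false
set_option linter.unusedVariables false

namespace Cfsg.Agent.Lib.LeechCount

open Cfsg Cfsg.Agent.LeechBasic

/-! ### Digits -/

theorem digit_range {B : ℕ} (hB : 0 < B) : ∀ (n i : ℕ) (c : ℕ → ℕ), (∀ l, c l < B) → i < n →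
    ((∑ l ∈ Finset.range n, c l * B ^ l) / B ^ i) % B = c i := by
  intro n
  induction n with
  | zero =>
    intro i c _ hi
    omega
  | succ n ih =>
    intro i c hc hi
    rw [Finset.sum_range_succ']
    have h1 : ∑ l ∈ Finset.range n, c (l + 1) * B ^ (l + 1) = B * ∑ l ∈ Finset.range n, c (l + 1) * B ^ l := by
      rw [Finset.mul_sum]
      refine Finset.sum_congr rfl fun l _ => ?_
      rw [pow_succ]
      ring
    rw [h1, pow_zero, mul_one]
    cases i with
    | zero =>
      rw [pow_zero, Nat.div_one, Nat.mul_add_mod, Nat.mod_eq_of_lt (hc 0)]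
    | succ i =>
      have h2 : (B * ∑ l ∈ Finset.range n, c (l + 1) * B ^ l + c 0) / B ^ (i + 1) =
          (∑ l ∈ Finset.range n, c (l + 1) * B ^ l) / B ^ i := by
        rw [pow_succ', ← Nat.div_div_eq_div_mul]
        congr 1
        rw [Nat.mul_add_div hB, Nat.div_eq_of_lt (hc 0), add_zero]
      rw [h2]
      exact ih i (fun l => c (l + 1)) (fun l => hc _) (by omega)

theorem digit_sum {ι : Type*} {B : ℕ} (Y : Finset ι) (E : ι → ℕ)
    (hY : Y.card < B) (j : ℕ) :
    ((∑ y ∈ Y, B ^ E y) / B ^ j) % B = (Y.filter (fun y => E y = j)).card := by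
  have hB : 0 < B := by omega
  set top := j + 1 + Y.sup E with htop
  have hmaps : ∀ y ∈ Y, E y ∈ Finset.range top := by
    intro y hy
    have : E y ≤ Y.sup E := Finset.le_sup (f := E) hy
    rw [Finset.mem_range]
    omega
  have h1 : ∑ y ∈ Y, B ^ E y = ∑ l ∈ Finset.range top, (Y.filter (fun y => E y = l)).card * B ^ l := by
    rw [← Finset.sum_fiberwise_of_maps_to hmaps]
    refine Finset.sum_congr rfl fun l _ => ?_
    rw [Finset.sum_congr rfl (g := fun _ => B ^ l)]
    · rw [Finset.sum_const, smul_eq_mul]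
    · intro y hy
      rw [(Finset.mem_filter.1 hy).2]
  rw [h1]
  refine digit_range hB top j (fun l => (Y.filter (fun y => E y = l)).card) ?_ (by omega)
  intro l
  exact lt_of_le_of_lt (Finset.card_filter_le _ _) hY

/-! ### The generating function -/

/-- allowed values of a coordinate -/
noncomputable def S (Q : ℤ → Bool) (r : ℤ) : Finset ℤ :=
  (Finset.Icc (-8) 8).filter (fun a => a ≡ r [ZMOD 4] ∧ Q a = true)

/-- the base -/
def B : ℕ := 2 ^ 64

/-- the exponent of a value -/
def e (a : ℤ) : ℕ := 385 * (a * a).toNat + (a + 8).toNat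

/-- the generating function of a coordinate -/
noncomputable def P (Q : ℤ → Bool) (r : ℤ) : ℕ := ∑ a ∈ S Q r, B ^ e a

/-- the generating function of a vector -/
noncomputable def T (Q : ℤ → Bool) (m : ℤ) (k : ℕ) : ℕ := P Q (m + 2) ^ k * P Q m ^ (24 - k)

/-- the vectors with given residues -/
noncomputable def Y (Q : ℤ → Bool) (m : ℤ) (A : Finset GolayPt) : Finset (GolayPt → ℤ) :=
  Fintype.piFinset (fun i => S Q (m + 2 * ind A i))

/-- the total exponent -/
def E (x : GolayPt → ℤ) : ℕ := ∑ i, e (x i)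

theorem card_golayPt : Fintype.card GolayPt = 24 := by decide

theorem sum_Y (Q : ℤ → Bool) (m : ℤ) (A : Finset GolayPt) :
    ∑ x ∈ Y Q m A, B ^ E x = T Q m A.card := by
  have h1 := Finset.prod_univ_sum (fun i : GolayPt => S Q (m + 2 * ind A i)) (fun _ a => B ^ e a)
  have h2 : ∀ x : GolayPt → ℤ, ∏ i, B ^ e (x i) = B ^ E x := by
    intro x
    rw [Finset.prod_pow_eq_pow_sum]
    rfl
  unfold Y
  simp only [h2] at h1
  rw [← h1]
  have h3 : ∀ i : GolayPt, ∑ a ∈ S Q (m + 2 * ind A i), B ^ e a = if i ∈ A then P Q (m + 2) else P Q m := by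
    intro i
    unfold ind
    split_ifs <;> simp [P]
  simp only [h3]
  rw [Finset.prod_ite, Finset.prod_const, Finset.prod_const]
  unfold T
  have h4 : (Finset.univ.filter fun i => i ∈ A) = A := by
    ext i
    simp
  have h5 : (Finset.univ.filter fun i => ¬ i ∈ A).card = 24 - A.card := by
    have : (Finset.univ.filter fun i => ¬ i ∈ A) = Aᶜ := by
      ext i
      simp
    rw [this, Finset.card_compl, card_golayPt]
  rw [h4, h5]

theorem card_S : ∀ r : ℤ, r = 0 ∨ r = 1 ∨ r = 2 ∨ r = 3 → ∀ Q : ℤ → Bool, (S Q r).card ≤ 5 := by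
  intro r hr Q
  have h1 : (S Q r).card ≤ ((Finset.Icc (-8 : ℤ) 8).filter (fun a => a ≡ r [ZMOD 4])).card := by
    apply Finset.card_le_card
    intro a ha
    simp only [S, Finset.mem_filter] at ha ⊢
    exact ⟨ha.1, ha.2.1⟩
  refine le_trans h1 ?_
  rcases hr with rfl | rfl | rfl | rfl <;> decide

theorem ind_cases (A : Finset GolayPt) (i : GolayPt) : ind A i = 0 ∨ ind A i = 1 := by
  unfold ind
  split_ifs <;> simp

theorem card_Y (Q : ℤ → Bool) {m : ℤ} (hm : m = 0 ∨ m = 1) (A : Finset GolayPt) : (Y Q m A).card < B := by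
  unfold Y
  rw [Fintype.card_piFinset]
  have h1 : ∀ i ∈ (Finset.univ : Finset GolayPt), (S Q (m + 2 * ind A i)).card ≤ 5 := by
    intro i _
    apply card_S
    rcases hm with rfl | rfl <;> rcases ind_cases A i with h | h <;> rw [h] <;> simp
  have h2 := Finset.prod_le_pow_card (Finset.univ : Finset GolayPt) _ 5 h1
  rw [Finset.card_univ, card_golayPt] at h2
  exact lt_of_le_of_lt h2 (by decide)

theorem mem_S {Q : ℤ → Bool} {r a : ℤ} (h : a ∈ S Q r) : -8 ≤ a ∧ a ≤ 8 ∧ a ≡ r [ZMOD 4] ∧ Q a = true := by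
  simp only [S, Finset.mem_filter, Finset.mem_Icc] at h
  exact ⟨h.1.1, h.1.2, h.2.1, h.2.2⟩

theorem e_cast {a : ℤ} (h1 : -8 ≤ a) (h2 : a ≤ 8) : (e a : ℤ) = 385 * (a * a) + (a + 8) := by
  unfold e
  push_cast
  rw [Int.toNat_of_nonneg (mul_self_nonneg a), Int.toNat_of_nonneg (by omega)]

/-- the sum of the shifted coordinates -/
def sx (x : GolayPt → ℤ) : ℕ := (∑ i, (x i + 8)).toNat

theorem sum_bounds {x : GolayPt → ℤ} (h : ∀ i, -8 ≤ x i ∧ x i ≤ 8) :
    0 ≤ ∑ i, (x i + 8) ∧ ∑ i, (x i + 8) ≤ 384 := by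
  constructor
  · exact Finset.sum_nonneg fun i _ => by have := (h i).1; omega
  · have h1 : ∑ i, (x i + 8) ≤ ∑ i : GolayPt, (16 : ℤ) := Finset.sum_le_sum fun i _ => by have := (h i).2; omega
    have h2 : ∑ i : GolayPt, (16 : ℤ) = 384 := by
      rw [Finset.sum_const, Finset.card_univ, card_golayPt]
      rfl
    omega

theorem E_eq {x : GolayPt → ℤ} (h : ∀ i, -8 ≤ x i ∧ x i ≤ 8) : E x = 385 * (sqNorm x).toNat + sx x := by
  have h0 : 0 ≤ sqNorm x := Finset.sum_nonneg fun i _ => sq_nonneg _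
  obtain ⟨b1, b2⟩ := sum_bounds h
  have h1 : (E x : ℤ) = 385 * sqNorm x + ∑ i, (x i + 8) := by
    unfold E sqNorm
    push_cast
    rw [Finset.mul_sum, ← Finset.sum_add_distrib]
    refine Finset.sum_congr rfl fun i _ => ?_
    rw [e_cast (h i).1 (h i).2, sq]
  unfold sx
  have : (E x : ℤ) = ((385 * (sqNorm x).toNat + (∑ i, (x i + 8)).toNat : ℕ) : ℤ) := by
    rw [h1]
    push_cast
    rw [Int.toNat_of_nonneg h0, Int.toNat_of_nonneg b1]
  exact_mod_cast this

/-- the index set of the shifted sums -/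
noncomputable def J (m : ℤ) : Finset ℕ := (Finset.range 385).filter (fun s => (s : ℤ) ≡ 4 * m [ZMOD 8])

/-- the vectors of a given type -/
noncomputable def F (Q : ℤ → Bool) (N : ℕ) (m : ℤ) (A : Finset GolayPt) : Finset (GolayPt → ℤ) :=
  (Y Q m A).filter (fun x => sqNorm x = (N : ℤ) ∧ ∑ i, x i ≡ 4 * m [ZMOD 8])

theorem mem_Y {Q : ℤ → Bool} {m : ℤ} {A : Finset GolayPt} {x : GolayPt → ℤ} :
    x ∈ Y Q m A ↔ ∀ i, x i ∈ S Q (m + 2 * ind A i) := by
  unfold Y
  rw [Fintype.mem_piFinset]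

theorem Y_bounds {Q : ℤ → Bool} {m : ℤ} {A : Finset GolayPt} {x : GolayPt → ℤ} (hx : x ∈ Y Q m A) :
    ∀ i, -8 ≤ x i ∧ x i ≤ 8 := fun i => by
  have := mem_S (mem_Y.1 hx i)
  exact ⟨this.1, this.2.1⟩

theorem sum_shift (x : GolayPt → ℤ) : ∑ i, (x i + 8) = ∑ i, x i + 192 := by
  rw [Finset.sum_add_distrib, Finset.sum_const, Finset.card_univ, card_golayPt]
  rfl

theorem card_F (Q : ℤ → Bool) (N : ℕ) {m : ℤ} (hm : m = 0 ∨ m = 1) (A : Finset GolayPt) :
    (F Q N m A).card = ∑ s ∈ J m, (T Q m A.card / B ^ (385 * N + s)) % B := by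
  classical
  have h1 : ∀ x ∈ F Q N m A, sx x ∈ J m := by
    intro x hx
    obtain ⟨hY, hn, hs⟩ := Finset.mem_filter.1 hx
    obtain ⟨b1, b2⟩ := sum_bounds (Y_bounds hY)
    have h2 : ((sx x : ℕ) : ℤ) = ∑ i, x i + 192 := by
      unfold sx
      rw [Int.toNat_of_nonneg b1, sum_shift]
    simp only [J, Finset.mem_filter, Finset.mem_range]
    constructor
    · have h3 : ((sx x : ℕ) : ℤ) ≤ 384 := by
        unfold sx
        rw [Int.toNat_of_nonneg b1]
        exact b2
      omega
    · rw [h2]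
      unfold Int.ModEq at hs ⊢
      omega
  rw [Finset.card_eq_sum_card_fiberwise h1]
  refine Finset.sum_congr rfl fun s hs => ?_
  have hd := digit_sum (Y Q m A) E (card_Y Q hm A) (385 * N + s)
  rw [sum_Y] at hd
  rw [hd]
  clear hd h1
  apply congrArg Finset.card
  ext x
  simp only [F, Finset.mem_filter]
  constructor
  · rintro ⟨⟨hY, hn, hc⟩, h2⟩
    refine ⟨hY, ?_⟩
    rw [E_eq (Y_bounds hY), hn, h2]
    simp
  · rintro ⟨hY, h2⟩
    have hs' := Finset.mem_filter.1 hs
    have hs1 : s < 385 := Finset.mem_range.1 hs'.1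
    rw [E_eq (Y_bounds hY)] at h2
    obtain ⟨b1, b2⟩ := sum_bounds (Y_bounds hY)
    have h3 : ((sx x : ℕ) : ℤ) = ∑ i, x i + 192 := by
      unfold sx
      rw [Int.toNat_of_nonneg b1, sum_shift]
    have h4 : sx x < 385 := by
      have h5 : ((sx x : ℕ) : ℤ) ≤ 384 := by
        unfold sx
        rw [Int.toNat_of_nonneg b1]
        exact b2
      omega
    have h6 : sx x = s := by omega
    have h7 : (sqNorm x).toNat = N := by omega
    have h0 : 0 ≤ sqNorm x := Finset.sum_nonneg fun i _ => sq_nonneg _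
    refine ⟨⟨hY, ?_, ?_⟩, h6⟩
    · rw [← h7, Int.toNat_of_nonneg h0]
    · have h8 := hs'.2
      rw [← h6, h3] at h8
      unfold Int.ModEq at h8 ⊢
      omega

/-! ### The sum over the code -/

open scoped Classical in
/-- the code words -/
noncomputable def Codes : Finset (Finset GolayPt) := Finset.univ.filter Cd

theorem mem_Codes {A : Finset GolayPt} : A ∈ Codes ↔ Cd A := by
  simp [Codes]

theorem cd_weight {A : Finset GolayPt} (hA : Cd A) :
    A.card = 0 ∨ A.card = 8 ∨ A.card = 12 ∨ A.card = 16 ∨ A.card = 24 := by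
  obtain ⟨u, hu, rfl⟩ := hA
  exact Cfsg.Agent.S0359.result u hu

theorem card8 : (Codes.filter (fun A => A.card = 8)).card = 759 := by
  have h : ((Codes.filter (fun A => A.card = 8) : Finset (Finset GolayPt)) : Set (Finset GolayPt)) = octads := by
    ext A
    simp only [Finset.coe_filter, Set.mem_ofPred_eq, mem_Codes]
    rfl
  have h2 := Cfsg.Agent.S0360.result
  rw [← h, Set.ncard_coe_finset] at h2
  exact h2

theorem card12 : (Codes.filter (fun A => A.card = 12)).card = 2576 := by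
  have h : ((Codes.filter (fun A => A.card = 12) : Finset (Finset GolayPt)) : Set (Finset GolayPt)) = dodecads := by
    ext A
    simp only [Finset.coe_filter, Set.mem_ofPred_eq, mem_Codes]
    rfl
  have h2 := Cfsg.Agent.S0361.result
  rw [← h, Set.ncard_coe_finset] at h2
  exact h2

theorem card16 : (Codes.filter (fun A => A.card = 16)).card = 759 := by
  rw [← card8]
  apply Finset.card_nbij' (fun A => Aᶜ) (fun A => Aᶜ)
  · intro A hA
    have hA' := Finset.mem_filter.1 (Finset.mem_coe.1 hA)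
    refine Finset.mem_coe.2 (Finset.mem_filter.2 ⟨mem_Codes.2 (cd_compl (mem_Codes.1 hA'.1)), ?_⟩)
    rw [Finset.card_compl, card_golayPt, hA'.2]
  · intro A hA
    have hA' := Finset.mem_filter.1 (Finset.mem_coe.1 hA)
    refine Finset.mem_coe.2 (Finset.mem_filter.2 ⟨mem_Codes.2 (cd_compl (mem_Codes.1 hA'.1)), ?_⟩)
    rw [Finset.card_compl, card_golayPt, hA'.2]
  · intro A _
    simp
  · intro A _
    simp

theorem card0 : (Codes.filter (fun A => A.card = 0)).card = 1 := by
  have : Codes.filter (fun A => A.card = 0) = {∅} := by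
    ext A
    simp only [Finset.mem_filter, mem_Codes, Finset.mem_singleton, Finset.card_eq_zero]
    constructor
    · exact fun h => h.2
    · rintro rfl
      exact ⟨cd_empty, rfl⟩
  rw [this, Finset.card_singleton]

theorem card24 : (Codes.filter (fun A => A.card = 24)).card = 1 := by
  have : Codes.filter (fun A => A.card = 24) = {Finset.univ} := by
    ext A
    simp only [Finset.mem_filter, mem_Codes, Finset.mem_singleton]
    constructor
    · rintro ⟨-, h⟩
      apply Finset.eq_univ_of_card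
      rw [h, card_golayPt]
    · rintro rfl
      refine ⟨cd_univ, ?_⟩
      rw [Finset.card_univ, card_golayPt]
  rw [this, Finset.card_singleton]

theorem sum_codes (f : ℕ → ℕ) :
    ∑ A ∈ Codes, f A.card = f 0 + 759 * f 8 + 2576 * f 12 + 759 * f 16 + f 24 := by
  have hmaps : ∀ A ∈ Codes, A.card ∈ ({0, 8, 12, 16, 24} : Finset ℕ) := by
    intro A hA
    have := cd_weight (mem_Codes.1 hA)
    simp only [Finset.mem_insert, Finset.mem_singleton]
    exact this
  rw [← Finset.sum_fiberwise_of_maps_to hmaps]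
  have h : ∀ k : ℕ, ∑ A ∈ Codes.filter (fun A => A.card = k), f A.card = (Codes.filter (fun A => A.card = k)).card * f k := by
    intro k
    rw [Finset.sum_congr rfl (g := fun _ => f k)]
    · rw [Finset.sum_const, smul_eq_mul]
    · intro A hA
      rw [(Finset.mem_filter.1 hA).2]
  simp only [h]
  rw [Finset.sum_insert (by decide), Finset.sum_insert (by decide), Finset.sum_insert (by decide),
    Finset.sum_insert (by decide), Finset.sum_singleton, card0, card8, card12, card16, card24]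
  ring

/-! ### The count -/

/-- the number of vectors of a given type, numerically -/
noncomputable def cnt (Q : ℤ → Bool) (N : ℕ) (m : ℤ) (k : ℕ) : ℕ :=
  ∑ s ∈ J m, (((T Q m k / B ^ (385 * N)) % B ^ 385) / B ^ s) % B

theorem slice (X a s : ℕ) (hs : s < 385) :
    (X / B ^ (a + s)) % B = (((X / B ^ a) % B ^ 385) / B ^ s) % B := by
  have h1 : B ^ 385 = B ^ s * (B * B ^ (384 - s)) := by
    rw [← pow_succ', ← pow_add]
    congr 1
    omega
  rw [pow_add, ← Nat.div_div_eq_div_mul, h1, Nat.mod_mul_right_div_self,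
    Nat.mod_mul_right_mod]

/-- the number of vectors -/
noncomputable def tot (Q : ℤ → Bool) (N : ℕ) : ℕ :=
  (cnt Q N 0 0 + 759 * cnt Q N 0 8 + 2576 * cnt Q N 0 12 + 759 * cnt Q N 0 16 + cnt Q N 0 24) +
  (cnt Q N 1 0 + 759 * cnt Q N 1 8 + 2576 * cnt Q N 1 12 + 759 * cnt Q N 1 16 + cnt Q N 1 24)

theorem coord_le {x : GolayPt → ℤ} {N : ℕ} (hN : N ≤ 64) (hn : sqNorm x = (N : ℤ)) (i : GolayPt) :
    -8 ≤ x i ∧ x i ≤ 8 := by
  have h1 : x i ^ 2 ≤ sqNorm x :=
    Finset.single_le_sum (f := fun i => x i ^ 2) (fun i _ => sq_nonneg _) (Finset.mem_univ i)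
  have h2 : x i ^ 2 ≤ 64 := by
    rw [hn] at h1
    have : ((N : ℕ) : ℤ) ≤ 64 := by exact_mod_cast hN
    omega
  constructor <;> nlinarith

/-- the index set -/
noncomputable def II : Finset (ℤ × Finset GolayPt) := ({0, 1} : Finset ℤ) ×ˢ Codes

theorem ind_compl (A : Finset GolayPt) (i : GolayPt) : ind Aᶜ i = 1 - ind A i := by
  unfold ind
  by_cases h : i ∈ A <;> simp [h]

theorem W_eq (Q : ℤ → Bool) {N : ℕ} (hN : N ≤ 64) :
    {x : GolayPt → ℤ | x ∈ leechLattice ∧ sqNorm x = (N : ℤ) ∧ ∀ i, Q (x i) = true} =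
      ↑(II.biUnion (fun p => F Q N p.1 p.2)) := by
  classical
  ext x
  simp only [Set.mem_ofPred_eq, Finset.coe_biUnion, Set.mem_iUnion, Finset.mem_coe, exists_prop]
  constructor
  · rintro ⟨hL, hn, hQ⟩
    obtain ⟨m, A, hA, h4, hs⟩ := dec (mem_lattice.1 hL)
    have key : ∃ (m' : ℤ) (A' : Finset GolayPt), (m' = 0 ∨ m' = 1) ∧ Cd A' ∧
        (∀ i, x i ≡ m' + 2 * ind A' i [ZMOD 4]) ∧ ∑ i, x i ≡ 4 * m' [ZMOD 8] := by
      have hm : m % 4 = 0 ∨ m % 4 = 1 ∨ m % 4 = 2 ∨ m % 4 = 3 := by omega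
      rcases hm with h | h | h | h
      · refine ⟨0, A, Or.inl rfl, hA, fun i => ?_, ?_⟩
        · have := h4 i
          unfold Int.ModEq at this ⊢
          omega
        · unfold Int.ModEq at hs ⊢
          omega
      · refine ⟨1, A, Or.inr rfl, hA, fun i => ?_, ?_⟩
        · have := h4 i
          unfold Int.ModEq at this ⊢
          omega
        · unfold Int.ModEq at hs ⊢
          omega
      · refine ⟨0, Aᶜ, Or.inl rfl, cd_compl hA, fun i => ?_, ?_⟩
        · have := h4 i
          rw [ind_compl]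
          unfold Int.ModEq at this ⊢
          omega
        · unfold Int.ModEq at hs ⊢
          omega
      · refine ⟨1, Aᶜ, Or.inr rfl, cd_compl hA, fun i => ?_, ?_⟩
        · have := h4 i
          rw [ind_compl]
          unfold Int.ModEq at this ⊢
          omega
        · unfold Int.ModEq at hs ⊢
          omega
    obtain ⟨m', A', hm', hA', h4', hs'⟩ := key
    refine ⟨(m', A'), ?_, ?_⟩
    · simp only [II, Finset.mem_product, Finset.mem_insert, Finset.mem_singleton]
      exact ⟨hm', mem_Codes.2 hA'⟩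
    · refine Finset.mem_filter.2 ⟨mem_Y.2 fun i => ?_, hn, hs'⟩
      have hc := coord_le hN hn i
      simp only [S, Finset.mem_filter, Finset.mem_Icc]
      exact ⟨hc, h4' i, hQ i⟩
  · rintro ⟨⟨m, A⟩, hp, hx⟩
    simp only [II, Finset.mem_product, Finset.mem_insert, Finset.mem_singleton] at hp
    obtain ⟨hY, hn, hs⟩ := Finset.mem_filter.1 hx
    refine ⟨mem_lattice.2 (mk x m A (mem_Codes.1 hp.2) (fun i => (mem_S (mem_Y.1 hY i)).2.2.1) hs), hn,
      fun i => (mem_S (mem_Y.1 hY i)).2.2.2⟩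

theorem F_disjoint (Q : ℤ → Bool) (N : ℕ) : ∀ p ∈ II, ∀ q ∈ II, p ≠ q →
    Disjoint (F Q N p.1 p.2) (F Q N q.1 q.2) := by
  classical
  rintro ⟨m, A⟩ hp ⟨m', A'⟩ hq hne
  simp only [II, Finset.mem_product, Finset.mem_insert, Finset.mem_singleton] at hp hq
  rw [Finset.disjoint_left]
  intro x hx hx'
  apply hne
  obtain ⟨hY, -, -⟩ := Finset.mem_filter.1 hx
  obtain ⟨hY', -, -⟩ := Finset.mem_filter.1 hx'
  have h1 : ∀ i, x i ≡ m + 2 * ind A i [ZMOD 4] := fun i => (mem_S (mem_Y.1 hY i)).2.2.1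
  have h2 : ∀ i, x i ≡ m' + 2 * ind A' i [ZMOD 4] := fun i => (mem_S (mem_Y.1 hY' i)).2.2.1
  have hm : m = m' := by
    have a1 := h1 none
    have a2 := h2 none
    unfold Int.ModEq at a1 a2
    rcases hp.1 with rfl | rfl <;> rcases hq.1 with rfl | rfl <;> first | rfl | omega
  subst hm
  have hA : A = A' := by
    ext i
    have a1 := h1 i
    have a2 := h2 i
    unfold Int.ModEq at a1 a2
    unfold ind at a1 a2
    by_cases h3 : i ∈ A <;> by_cases h4 : i ∈ A' <;> simp only [h3, h4, if_true, if_false] at a1 a2 ⊢ <;> first | trivial | omega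
  rw [hA]

theorem count (Q : ℤ → Bool) {N : ℕ} (hN : N ≤ 64) :
    {x : GolayPt → ℤ | x ∈ leechLattice ∧ sqNorm x = (N : ℤ) ∧ ∀ i, Q (x i) = true}.ncard = tot Q N := by
  classical
  rw [W_eq Q hN, Set.ncard_coe_finset, Finset.card_biUnion (F_disjoint Q N)]
  unfold II
  rw [Finset.sum_product, Finset.sum_insert (by decide), Finset.sum_singleton]
  have h : ∀ m : ℤ, (m = 0 ∨ m = 1) → ∑ A ∈ Codes, (F Q N m A).card = ∑ A ∈ Codes, cnt Q N m A.card := by
    intro m hm
    refine Finset.sum_congr rfl fun A _ => ?_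
    rw [card_F Q N hm A]
    unfold cnt
    refine Finset.sum_congr rfl fun s hs => ?_
    exact slice _ _ _ (Finset.mem_range.1 (Finset.mem_filter.1 hs).1)
  simp only []
  rw [h 0 (Or.inl rfl), h 1 (Or.inr rfl), sum_codes (fun k => cnt Q N 0 k), sum_codes (fun k => cnt Q N 1 k)]
  rfl

/-- no restriction -/
def qAll : ℤ → Bool := fun _ => true

theorem count_all {N : ℕ} (hN : N ≤ 64) :
    {x : GolayPt → ℤ | x ∈ leechLattice ∧ sqNorm x = (N : ℤ)}.ncard = tot qAll N := by
  rw [← count qAll hN]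
  congr 1
  ext x
  simp [qAll]

end Cfsg.Agent.Lib.LeechCount
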