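import Cfsg.Agent.Lib.LeechTots
import Cfsg.Agent.S0391
import Cfsg.Prelude.Def_SporadicCombinatorics

/-! Classes of the lattice modulo twice the lattice: short representatives and crosses. -/

set_option autoImplicit false
set_option linter.unusedSimpArgs false
set_option linter.unusedVariables false

namespace Cfsg.Agent.Lib.LeechCross

open Cfsg Cfsg.Agent.LeechBasic Cfsg.Agent.Lib.LeechCount

theorem zero_or_norm {x : GolayPt → ℤ} (hx : x ∈ leechLattice) : x = 0 ∨ 32 ≤ sqNorm x := by
  by_cases h : x = 0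
  · exact Or.inl h
  · exact Or.inr (Cfsg.Agent.S0391.result x hx h)

theorem coord2 (y z : GolayPt → ℤ) (i : GolayPt) : (y + (2 : ℕ) • z) i = y i + 2 * z i := by
  rw [two_nsmul]
  simp only [Pi.add_apply]
  ring

theorem parallelogram (y z : GolayPt → ℤ) :
    sqNorm (y + (2 : ℕ) • z) + sqNorm y = 2 * (sqNorm z + sqNorm (y + z)) := by
  unfold sqNorm
  rw [← Finset.sum_add_distrib, ← Finset.sum_add_distrib, Finset.mul_sum]
  refine Finset.sum_congr rfl fun i _ => ?_
  rw [coord2, Pi.add_apply]
  ring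

theorem dot_eq (y z : GolayPt → ℤ) :
    2 * dotInt (y + (2 : ℕ) • z) y = sqNorm (y + (2 : ℕ) • z) + sqNorm y - 4 * sqNorm z := by
  unfold sqNorm dotInt
  rw [Finset.mul_sum, Finset.mul_sum, ← Finset.sum_add_distrib, ← Finset.sum_sub_distrib]
  refine Finset.sum_congr rfl fun i _ => ?_
  rw [coord2]
  ring

/-- congruence modulo twice the lattice -/
def Cg (x y : GolayPt → ℤ) : Prop := ∃ z ∈ leechLattice, x - y = (2 : ℕ) • z

theorem Cg.form {x y : GolayPt → ℤ} (h : Cg x y) : ∃ z ∈ leechLattice, x = y + (2 : ℕ) • z := by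
  obtain ⟨z, hz, e⟩ := h
  exact ⟨z, hz, by rw [← e]; abel⟩

/-- two congruent short vectors are equal up to sign, or orthogonal vectors of sum of squares 64 -/
theorem cong_cases {x y : GolayPt → ℤ} (hx : x ∈ leechLattice) (hy : y ∈ leechLattice) (h : Cg x y)
    (h1 : sqNorm x ≤ 64) (h2 : sqNorm y ≤ 64) :
    x = y ∨ x = -y ∨ (sqNorm x = 64 ∧ sqNorm y = 64 ∧ dotInt x y = 0) := by
  obtain ⟨z, hz, rfl⟩ := h.form
  have hp := parallelogram y z
  have hd := dot_eq y z
  rcases zero_or_norm hz with rfl | h3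
  · left
    simp
  rcases zero_or_norm (add_mem hy hz) with h4 | h4
  · right
    left
    have : z = -y := by
      rw [eq_neg_iff_add_eq_zero, add_comm]
      exact h4
    rw [this]
    simp only [smul_neg, two_nsmul]
    abel
  · right
    right
    refine ⟨by omega, by omega, by omega⟩

theorem cong_short {x y : GolayPt → ℤ} (hx : x ∈ leechLattice) (hy : y ∈ leechLattice) (h : Cg x y)
    (h1 : sqNorm x ≤ 64) (h2 : sqNorm y ≤ 64) (h3 : sqNorm x + sqNorm y < 128) : x = y ∨ x = -y := by
  rcases cong_cases hx hy h h1 h2 with h | h | ⟨a, b, -⟩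
  · exact Or.inl h
  · exact Or.inr h
  · omega

theorem sqNorm_neg (x : GolayPt → ℤ) : sqNorm (-x) = sqNorm x := by
  unfold sqNorm
  refine Finset.sum_congr rfl fun i _ => ?_
  simp

/-! ### Orthogonal families -/

theorem orth_card {ι : Type*} [Fintype ι] (u : ι → GolayPt → ℤ) (hu : ∀ i, u i ≠ 0)
    (ho : ∀ i j, i ≠ j → dotInt (u i) (u j) = 0) : Fintype.card ι ≤ 24 := by
  classical
  let v : ι → (GolayPt → ℚ) := fun i p => (u i p : ℚ)
  have hv : LinearIndependent ℚ v := by
    rw [Fintype.linearIndependent_iff]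
    intro a ha s
    have h1 : ∑ i, a i * (∑ p, v i p * v s p) = 0 := by
      have h2 : ∑ p, (∑ i, a i • v i) p * v s p = 0 := by
        rw [ha]
        simp
      rw [← h2]
      simp only [Finset.sum_apply, Pi.smul_apply, smul_eq_mul, Finset.sum_mul, Finset.mul_sum]
      rw [Finset.sum_comm]
      refine Finset.sum_congr rfl fun i _ => Finset.sum_congr rfl fun p _ => ?_
      ring
    have h3 : ∀ i, ∑ p, v i p * v s p = ((dotInt (u i) (u s) : ℤ) : ℚ) := by
      intro i
      simp only [dotInt, v]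
      push_cast
      rfl
    simp only [h3] at h1
    rw [Finset.sum_eq_single s] at h1
    · have h4 : ((dotInt (u s) (u s) : ℤ) : ℚ) ≠ 0 := by
        have : dotInt (u s) (u s) ≠ 0 := by
          intro h0
          apply hu s
          have h5 : ∀ p ∈ (Finset.univ : Finset GolayPt), u s p * u s p = 0 :=
            (Finset.sum_eq_zero_iff_of_nonneg (fun p _ => mul_self_nonneg _)).1 h0
          funext p
          have := h5 p (Finset.mem_univ p)
          simpa using this
        exact_mod_cast this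
      exact (mul_eq_zero.1 h1).resolve_right h4
    · intro b _ hb
      rw [ho b s hb]
      simp
    · simp
  have h5 := hv.fintype_card_le_finrank
  rwa [Module.finrank_fintype_fun_eq_card, card_golayPt] at h5

/-- a family of vectors, pairwise orthogonal or opposite, has at most 48 members -/
theorem cross_le (C : Finset (GolayPt → ℤ)) (h0 : ∀ x ∈ C, x ≠ 0)
    (ho : ∀ x ∈ C, ∀ y ∈ C, x = y ∨ x = -y ∨ dotInt x y = 0) : C.card ≤ 48 := by
  classical
  let f : (GolayPt → ℤ) → Finset (GolayPt → ℤ) := fun x => {x, -x}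
  have h1 : C.card ≤ 2 * (C.image f).card := by
    apply Finset.card_le_mul_card_image
    intro t ht
    obtain ⟨x, hx, rfl⟩ := Finset.mem_image.1 ht
    refine le_trans (Finset.card_le_card (t := {x, -x}) ?_) Finset.card_le_two
    intro y hy
    have hy' := (Finset.mem_filter.1 hy).2
    have : y ∈ f y := by simp [f]
    rw [hy'] at this
    exact this
  have h2 : (C.image f).card ≤ 24 := by
    have hr : ∀ t : { t // t ∈ C.image f }, ∃ x ∈ C, f x = t.1 := fun t => Finset.mem_image.1 t.2
    choose r hr1 hr2 using hr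
    have := orth_card (fun t : { t // t ∈ C.image f } => r t) (fun t => h0 _ (hr1 t)) ?_
    · simpa using this
    · intro s t hst
      rcases ho _ (hr1 s) _ (hr1 t) with h | h | h
      · exfalso
        apply hst
        apply Subtype.ext
        rw [← hr2 s, ← hr2 t, h]
      · exfalso
        apply hst
        apply Subtype.ext
        rw [← hr2 s, ← hr2 t, h]
        ext y
        simp only [f, Finset.mem_insert, Finset.mem_singleton, neg_neg]
        tauto
      · exact h
  omega

/-! ### The classes -/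

/-- twice the lattice, inside the lattice -/
noncomputable def M2 : AddSubgroup leechLattice :=
  (leechLattice.map (nsmulAddMonoidHom (α := GolayPt → ℤ) 2)).addSubgroupOf leechLattice

/-- the finite quotient -/
abbrev QQ : Type := leechLattice ⧸ M2

instance instFreeL : Module.Free ℤ ↥(leechLattice.toIntSubmodule) := inferInstance
instance instFinL : Module.Finite ℤ ↥(leechLattice.toIntSubmodule) := inferInstance

theorem card_QQ_le : Nat.card QQ ≤ 2 ^ 24 := by
  have h1 := AddSubgroup.relIndex_map_nsmul (M := GolayPt → ℤ) 2 leechLattice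
  have h2 : Module.finrank ℤ leechLattice ≤ 24 := by
    have h3 := leechLattice.toIntSubmodule.finrank_le
    rw [Module.finrank_fintype_fun_eq_card, card_golayPt] at h3
    exact h3
  have h4 : Nat.card QQ = (leechLattice.map (nsmulAddMonoidHom (α := GolayPt → ℤ) 2)).relIndex leechLattice := rfl
  rw [h4, h1]
  exact Nat.pow_le_pow_right (by norm_num) h2

theorem card_QQ_pos : Nat.card QQ ≠ 0 := by
  have h1 := AddSubgroup.relIndex_map_nsmul (M := GolayPt → ℤ) 2 leechLattice
  have h4 : Nat.card QQ = (leechLattice.map (nsmulAddMonoidHom (α := GolayPt → ℤ) 2)).relIndex leechLattice := rfl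
  rw [h4, h1]
  positivity

instance finQQ : Finite QQ := Nat.finite_of_card_ne_zero card_QQ_pos

open Classical in
/-- the class of a vector -/
noncomputable def cc (x : GolayPt → ℤ) : QQ :=
  if h : x ∈ leechLattice then QuotientAddGroup.mk ⟨x, h⟩ else 0

theorem cc_eq {x y : GolayPt → ℤ} (hx : x ∈ leechLattice) (hy : y ∈ leechLattice) : cc x = cc y ↔ Cg x y := by
  unfold cc
  rw [dif_pos hx, dif_pos hy, eq_comm, QuotientAddGroup.eq]
  constructor
  · intro h
    obtain ⟨z, hz, e⟩ := h
    refine ⟨z, hz, ?_⟩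
    have e2 : (2 : ℕ) • z = -y + x := e
    rw [e2]
    abel
  · rintro ⟨z, hz, e⟩
    refine ⟨z, hz, ?_⟩
    show (2 : ℕ) • z = -y + x
    rw [← e]
    abel

theorem mem_wF {N : ℕ} (hN : N ≤ 64) {x : GolayPt → ℤ} :
    x ∈ II.biUnion (fun p => F qAll N p.1 p.2) ↔ x ∈ leechLattice ∧ sqNorm x = (N : ℤ) := by
  have h := W_eq qAll hN
  have h2 : x ∈ ((II.biUnion (fun p => F qAll N p.1 p.2) : Finset _) : Set (GolayPt → ℤ)) ↔
      x ∈ {x : GolayPt → ℤ | x ∈ leechLattice ∧ sqNorm x = (N : ℤ) ∧ ∀ i, qAll (x i) = true} := by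
    rw [h]
  simpa [qAll] using h2

/-- the vectors of a given sum of squares -/
noncomputable def wF (N : ℕ) : Finset (GolayPt → ℤ) := II.biUnion (fun p => F qAll N p.1 p.2)

theorem card_wF {N : ℕ} (hN : N ≤ 64) : (wF N).card = tot qAll N := by
  have h := count_all hN
  rw [← h]
  have h2 := W_eq qAll hN
  have h3 : {x : GolayPt → ℤ | x ∈ leechLattice ∧ sqNorm x = (N : ℤ)} = ↑(wF N) := by
    rw [wF, ← h2]
    ext x
    simp [qAll]
  rw [h3, Set.ncard_coe_finset]

theorem mem32 {x : GolayPt → ℤ} : x ∈ wF 32 ↔ x ∈ leechLattice ∧ sqNorm x = 32 := mem_wF (N := 32) (by norm_num)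
theorem mem48 {x : GolayPt → ℤ} : x ∈ wF 48 ↔ x ∈ leechLattice ∧ sqNorm x = 48 := mem_wF (N := 48) (by norm_num)
theorem mem64 {x : GolayPt → ℤ} : x ∈ wF 64 ↔ x ∈ leechLattice ∧ sqNorm x = 64 := mem_wF (N := 64) (by norm_num)

theorem sqNorm_zero : sqNorm (0 : GolayPt → ℤ) = 0 := by
  unfold sqNorm
  simp

open scoped Classical in
theorem fib_two {N : ℕ} (hN : N ≤ 48) (q : QQ) : ((wF N).filter (fun x => cc x = q)).card ≤ 2 := by
  classical
  by_cases hne : ((wF N).filter (fun x => cc x = q)).Nonempty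
  · obtain ⟨x, hx⟩ := hne
    obtain ⟨hx1, hx2⟩ := Finset.mem_filter.1 hx
    have hx3 := (mem_wF (N := N) (by omega)).1 hx1
    refine le_trans (Finset.card_le_card (t := {x, -x}) ?_) Finset.card_le_two
    intro y hy
    obtain ⟨hy1, hy2⟩ := Finset.mem_filter.1 hy
    have hy3 := (mem_wF (N := N) (by omega)).1 hy1
    have hc : Cg y x := (cc_eq hy3.1 hx3.1).1 (by rw [hy2, hx2])
    have hN' : ((N : ℕ) : ℤ) ≤ 48 := by exact_mod_cast hN
    have := cong_short hy3.1 hx3.1 hc (by omega) (by omega) (by omega)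
    simpa using this
  · rw [Finset.not_nonempty_iff_eq_empty] at hne
    rw [hne]
    simp

open scoped Classical in
theorem fib_48 (q : QQ) : ((wF 64).filter (fun x => cc x = q)).card ≤ 48 := by
  apply cross_le
  · intro x hx h0
    have := (mem64.1 (Finset.mem_filter.1 hx).1).2
    rw [h0, sqNorm_zero] at this
    omega
  · intro x hx y hy
    obtain ⟨hx1, hx2⟩ := Finset.mem_filter.1 hx
    obtain ⟨hy1, hy2⟩ := Finset.mem_filter.1 hy
    have hx3 := mem64.1 hx1
    have hy3 := mem64.1 hy1
    have hc : Cg x y := (cc_eq hx3.1 hy3.1).1 (by rw [hx2, hy2])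
    rcases cong_cases hx3.1 hy3.1 hc (by omega) (by omega) with h | h | ⟨-, -, h⟩
    · exact Or.inl h
    · exact Or.inr (Or.inl h)
    · exact Or.inr (Or.inr h)

open scoped Classical in
theorem disjoint_images {N N' : ℕ} (h1 : N ≤ 64) (h2 : N' ≤ 64) (hlt : N < N') :
    Disjoint ((wF N).image cc) ((wF N').image cc) := by
  classical
  rw [Finset.disjoint_left]
  intro q hq hq'
  obtain ⟨x, hx, rfl⟩ := Finset.mem_image.1 hq
  obtain ⟨y, hy, e⟩ := Finset.mem_image.1 hq'
  have hx3 := (mem_wF h1).1 hx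
  have hy3 := (mem_wF h2).1 hy
  have hc : Cg x y := (cc_eq hx3.1 hy3.1).1 e.symm
  have h1' : ((N : ℕ) : ℤ) ≤ 64 := by exact_mod_cast h1
  have h2' : ((N' : ℕ) : ℤ) ≤ 64 := by exact_mod_cast h2
  have hlt' : ((N : ℕ) : ℤ) < N' := by exact_mod_cast hlt
  rcases cong_short hx3.1 hy3.1 hc (by omega) (by omega) (by omega) with h | h
  · rw [h] at hx3
    omega
  · rw [h, sqNorm_neg] at hx3
    omega

open scoped Classical in
/-- the images of the short vectors fill the quotient and have the expected sizes -/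
theorem images [Fintype QQ] : ((wF 0).image cc ∪ (wF 32).image cc ∪ (wF 48).image cc ∪ (wF 64).image cc = Finset.univ)
    ∧ ((wF 64).image cc).card = 8292375 := by
  have h0 : 1 ≤ ((wF 0).image cc).card := by
    apply Finset.card_pos.2
    refine ⟨cc 0, Finset.mem_image.2 ⟨0, (mem_wF (N := 0) (by norm_num)).2 ⟨zero_mem _, by simp [sqNorm_zero]⟩, rfl⟩⟩
  have h32 : 196560 ≤ 2 * ((wF 32).image cc).card := by
    have := Finset.card_le_mul_card_image (f := cc) (wF 32) 2 (fun q _ => fib_two (N := 32) (by norm_num) q)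
    rwa [card_wF (by norm_num), t32] at this
  have h48 : 16773120 ≤ 2 * ((wF 48).image cc).card := by
    have := Finset.card_le_mul_card_image (f := cc) (wF 48) 2 (fun q _ => fib_two (N := 48) (by norm_num) q)
    rwa [card_wF (by norm_num), t48] at this
  have h64 : 398034000 ≤ 48 * ((wF 64).image cc).card := by
    have := Finset.card_le_mul_card_image (f := cc) (wF 64) 48 (fun q _ => fib_48 q)
    rwa [card_wF (by norm_num), t64] at this
  have d1 : Disjoint ((wF 0).image cc) ((wF 32).image cc) := disjoint_images (by norm_num) (by norm_num) (by norm_num)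
  have d2 : Disjoint ((wF 0).image cc ∪ (wF 32).image cc) ((wF 48).image cc) := by
    rw [Finset.disjoint_union_left]
    exact ⟨disjoint_images (by norm_num) (by norm_num) (by norm_num),
      disjoint_images (by norm_num) (by norm_num) (by norm_num)⟩
  have d3 : Disjoint ((wF 0).image cc ∪ (wF 32).image cc ∪ (wF 48).image cc) ((wF 64).image cc) := by
    rw [Finset.disjoint_union_left, Finset.disjoint_union_left]
    exact ⟨⟨disjoint_images (by norm_num) (by norm_num) (by norm_num),
      disjoint_images (by norm_num) (by norm_num) (by norm_num)⟩,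
      disjoint_images (by norm_num) (by norm_num) (by norm_num)⟩
  have hc : ((wF 0).image cc ∪ (wF 32).image cc ∪ (wF 48).image cc ∪ (wF 64).image cc).card =
      ((wF 0).image cc).card + ((wF 32).image cc).card + ((wF 48).image cc).card + ((wF 64).image cc).card := by
    rw [Finset.card_union_of_disjoint d3, Finset.card_union_of_disjoint d2, Finset.card_union_of_disjoint d1]
  have hle : ((wF 0).image cc ∪ (wF 32).image cc ∪ (wF 48).image cc ∪ (wF 64).image cc).card ≤ Fintype.card QQ :=
    Finset.card_le_univ _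
  have hQ : Fintype.card QQ ≤ 2 ^ 24 := by
    rw [← Nat.card_eq_fintype_card]
    exact card_QQ_le
  have hpow : (2 : ℕ) ^ 24 = 16777216 := by norm_num
  rw [hpow] at hQ
  constructor
  · apply Finset.eq_univ_of_card
    omega
  · omega

/-- every class has a short representative -/
theorem exists_short (x : GolayPt → ℤ) (hx : x ∈ leechLattice) :
    ∃ y ∈ leechLattice, sqNorm y ≤ 64 ∧ ∃ z ∈ leechLattice, x - y = (2 : ℕ) • z := by
  classical
  letI : Fintype QQ := Fintype.ofFinite QQ
  have h1 : cc x ∈ (wF 0).image cc ∪ (wF 32).image cc ∪ (wF 48).image cc ∪ (wF 64).image cc := by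
    rw [images.1]
    exact Finset.mem_univ _
  have key : ∃ y ∈ leechLattice, sqNorm y ≤ 64 ∧ cc y = cc x := by
    simp only [Finset.mem_union, Finset.mem_image] at h1
    rcases h1 with ((⟨y, hy, e⟩ | ⟨y, hy, e⟩) | ⟨y, hy, e⟩) | ⟨y, hy, e⟩
    · obtain ⟨a, b⟩ := (mem_wF (N := 0) (by norm_num)).1 hy
      exact ⟨y, a, by rw [b]; norm_num, e⟩
    · obtain ⟨a, b⟩ := mem32.1 hy
      exact ⟨y, a, by omega, e⟩
    · obtain ⟨a, b⟩ := mem48.1 hy
      exact ⟨y, a, by omega, e⟩
    · obtain ⟨a, b⟩ := mem64.1 hy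
      exact ⟨y, a, by omega, e⟩
  obtain ⟨y, hy, hn, e⟩ := key
  exact ⟨y, hy, hn, (cc_eq hx hy).1 e.symm⟩

/-- the cross through a vector has 48 members -/
theorem cross_card (x : GolayPt → ℤ) (hx : x ∈ leechLattice) (hn : sqNorm x = 64) : (cross x).ncard = 48 := by
  classical
  letI : Fintype QQ := Fintype.ofFinite QQ
  have hset : cross x = ↑((wF 64).filter (fun y => cc y = cc x)) := by
    ext y
    simp only [cross, Set.mem_ofPred_eq, Finset.coe_filter, mem64]
    constructor
    · rintro ⟨a, b, z, hz, e⟩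
      refine ⟨⟨a, by rw [b, hn]⟩, ?_⟩
      exact ((cc_eq hx a).2 ⟨z, hz, e⟩).symm
    · rintro ⟨⟨a, b⟩, e⟩
      refine ⟨a, by rw [b, hn], ?_⟩
      exact (cc_eq hx a).1 e.symm
  rw [hset, Set.ncard_coe_finset]
  refine le_antisymm (fib_48 _) ?_
  by_contra hlt
  push Not at hlt
  have hsum := Finset.card_eq_sum_card_image cc (wF 64)
  rw [card_wF (by norm_num), t64] at hsum
  have hmem : cc x ∈ (wF 64).image cc := Finset.mem_image.2 ⟨x, mem64.2 ⟨hx, hn⟩, rfl⟩
  have hlt2 : ∑ q ∈ (wF 64).image cc, ((wF 64).filter (fun y => cc y = q)).card < ∑ q ∈ (wF 64).image cc, 48 :=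
    Finset.sum_lt_sum (fun q _ => fib_48 q) ⟨_, hmem, hlt⟩
  rw [Finset.sum_const, images.2, smul_eq_mul, ← hsum] at hlt2
  omega

end Cfsg.Agent.Lib.LeechCross
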