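import Cfsg.Agent.Lib.LeechCount

/-! The index of the lattice in the integer vectors. -/

set_option autoImplicit false
set_option linter.unusedSimpArgs false
set_option linter.unusedVariables false
set_option maxRecDepth 100000

namespace Cfsg.Agent.Lib.LeechIndex

open Cfsg Cfsg.Agent.LeechBasic Cfsg.Agent.Lib.LeechCount

/-- values between 0 and 7 -/
def q8 : ℤ → Bool := fun a => decide (0 ≤ a ∧ a ≤ 7)

/-- generating function of a coordinate -/
noncomputable def P8 (r : ℤ) : ℕ := ∑ a ∈ S q8 r, B ^ a.toNat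

/-- generating function of a vector -/
noncomputable def T8 (m : ℤ) (k : ℕ) : ℕ := P8 (m + 2) ^ k * P8 m ^ (24 - k)

/-- the sum of the coordinates -/
def E8 (x : GolayPt → ℤ) : ℕ := ∑ i, (x i).toNat

theorem sum_Y8 (m : ℤ) (A : Finset GolayPt) :
    ∑ x ∈ Y q8 m A, B ^ E8 x = T8 m A.card := by
  have h1 := Finset.prod_univ_sum (fun i : GolayPt => S q8 (m + 2 * ind A i)) (fun _ a => B ^ a.toNat)
  have h2 : ∀ x : GolayPt → ℤ, ∏ i, B ^ (x i).toNat = B ^ E8 x := by
    intro x
    rw [Finset.prod_pow_eq_pow_sum]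
    rfl
  unfold Y
  simp only [h2] at h1
  rw [← h1]
  have h3 : ∀ i : GolayPt, ∑ a ∈ S q8 (m + 2 * ind A i), B ^ a.toNat = if i ∈ A then P8 (m + 2) else P8 m := by
    intro i
    unfold ind
    split_ifs <;> simp [P8]
  simp only [h3]
  rw [Finset.prod_ite, Finset.prod_const, Finset.prod_const]
  unfold T8
  have h4 : (Finset.univ.filter fun i => i ∈ A) = A := by
    ext i
    simp
  have h5 : (Finset.univ.filter fun i => ¬ i ∈ A).card = 24 - A.card := by
    have : (Finset.univ.filter fun i => ¬ i ∈ A) = Aᶜ := by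
      ext i
      simp
    rw [this, Finset.card_compl, card_golayPt]
  rw [h4, h5]

theorem Y8_bounds {m : ℤ} {A : Finset GolayPt} {x : GolayPt → ℤ} (hx : x ∈ Y q8 m A) :
    ∀ i, 0 ≤ x i ∧ x i ≤ 7 := fun i => by
  have h := (mem_S (mem_Y.1 hx i)).2.2.2
  simpa [q8] using h

/-- the vectors of a given type -/
noncomputable def F8 (m : ℤ) (A : Finset GolayPt) : Finset (GolayPt → ℤ) :=
  (Y q8 m A).filter (fun x => ∑ i, x i ≡ 4 * m [ZMOD 8])

/-- the possible sums -/
noncomputable def J8 (m : ℤ) : Finset ℕ := (Finset.range 169).filter (fun s => (s : ℤ) ≡ 4 * m [ZMOD 8])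

theorem card_F8 {m : ℤ} (hm : m = 0 ∨ m = 1) (A : Finset GolayPt) :
    (F8 m A).card = ∑ s ∈ J8 m, (T8 m A.card / B ^ s) % B := by
  classical
  have cast_E : ∀ x ∈ Y q8 m A, ((E8 x : ℕ) : ℤ) = ∑ i, x i := by
    intro x hx
    unfold E8
    push_cast
    refine Finset.sum_congr rfl fun i _ => ?_
    exact Int.toNat_of_nonneg (Y8_bounds hx i).1
  have hle : ∀ x ∈ Y q8 m A, E8 x ≤ 168 := by
    intro x hx
    have h1 : ∑ i, x i ≤ ∑ i : GolayPt, (7 : ℤ) := Finset.sum_le_sum fun i _ => (Y8_bounds hx i).2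
    have h2 : ∑ i : GolayPt, (7 : ℤ) = 168 := by
      rw [Finset.sum_const, Finset.card_univ, card_golayPt]
      rfl
    have h3 := cast_E x hx
    omega
  have h1 : ∀ x ∈ F8 m A, E8 x ∈ J8 m := by
    intro x hx
    obtain ⟨hY, hs⟩ := Finset.mem_filter.1 hx
    simp only [J8, Finset.mem_filter, Finset.mem_range]
    refine ⟨by have := hle x hY; omega, ?_⟩
    rw [cast_E x hY]
    exact hs
  rw [Finset.card_eq_sum_card_fiberwise h1]
  refine Finset.sum_congr rfl fun s hs => ?_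
  have hd := digit_sum (Y q8 m A) E8 (card_Y q8 hm A) s
  rw [sum_Y8] at hd
  rw [hd]
  clear hd h1
  apply congrArg Finset.card
  ext x
  simp only [F8, Finset.mem_filter]
  constructor
  · rintro ⟨⟨hY, hc⟩, h2⟩
    exact ⟨hY, h2⟩
  · rintro ⟨hY, h2⟩
    refine ⟨⟨hY, ?_⟩, h2⟩
    have h3 := (Finset.mem_filter.1 hs).2
    rw [← cast_E x hY, h2]
    exact h3

/-- the number of vectors -/
noncomputable def cnt8 (m : ℤ) (k : ℕ) : ℕ := ∑ s ∈ J8 m, (T8 m k / B ^ s) % B

theorem vals0 : ∀ k ∈ ([0, 8, 12, 16, 24] : List ℕ), cnt8 0 k = 2 ^ 23 := by decide +kernel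
theorem vals1 : ∀ k ∈ ([0, 8, 12, 16, 24] : List ℕ), cnt8 1 k = 2 ^ 23 := by decide +kernel

theorem card_total :
    (II.biUnion (fun p => F8 p.1 p.2)).card = 2 ^ 36 := by
  classical
  have hd : ∀ p ∈ II, ∀ q ∈ II, p ≠ q → Disjoint (F8 p.1 p.2) (F8 q.1 q.2) := by
    rintro ⟨m, A⟩ hp ⟨m', A'⟩ hq hne
    simp only [II, Finset.mem_product, Finset.mem_insert, Finset.mem_singleton] at hp hq
    rw [Finset.disjoint_left]
    intro x hx hx'
    apply hne
    obtain ⟨hY, -⟩ := Finset.mem_filter.1 hx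
    obtain ⟨hY', -⟩ := Finset.mem_filter.1 hx'
    have h1 : ∀ i, x i ≡ m + 2 * ind A i [ZMOD 4] := fun i => (mem_S (mem_Y.1 hY i)).2.2.1
    have h2 : ∀ i, x i ≡ m' + 2 * ind A' i [ZMOD 4] := fun i => (mem_S (mem_Y.1 hY' i)).2.2.1
    have hm : m = m' := by
      have a1 := h1 none
      have a2 := h2 none
      unfold Int.ModEq at a1 a2
      rcases hp.1 with rfl | rfl <;> rcases hq.1 with rfl | rfl <;> first | rfl | omega
    subst hm
    have hA : A = A' := by
      ext i
      have a1 := h1 i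
      have a2 := h2 i
      unfold Int.ModEq at a1 a2
      unfold ind at a1 a2
      by_cases h3 : i ∈ A <;> by_cases h4 : i ∈ A' <;> simp only [h3, h4, if_true, if_false] at a1 a2 ⊢ <;> first | trivial | omega
    rw [hA]
  rw [Finset.card_biUnion hd]
  unfold II
  rw [Finset.sum_product, Finset.sum_insert (by decide), Finset.sum_singleton]
  have h : ∀ m : ℤ, (m = 0 ∨ m = 1) → ∑ A ∈ Codes, (F8 m A).card = ∑ A ∈ Codes, cnt8 m A.card := by
    intro m hm
    refine Finset.sum_congr rfl fun A _ => ?_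
    rw [card_F8 hm A]
    rfl
  simp only []
  rw [h 0 (Or.inl rfl), h 1 (Or.inr rfl), sum_codes (fun k => cnt8 0 k), sum_codes (fun k => cnt8 1 k)]
  have v0 := vals0
  have v1 := vals1
  simp only [List.mem_cons, List.not_mem_nil, or_false, forall_eq_or_imp, forall_eq] at v0 v1
  rw [v0.1, v0.2.1, v0.2.2.1, v0.2.2.2.1, v0.2.2.2.2, v1.1, v1.2.1, v1.2.2.1, v1.2.2.2.1, v1.2.2.2.2]
  norm_num

theorem mem_total {x : GolayPt → ℤ} : x ∈ II.biUnion (fun p => F8 p.1 p.2) ↔
    x ∈ leechLattice ∧ ∀ i, 0 ≤ x i ∧ x i ≤ 7 := by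
  classical
  simp only [Finset.mem_biUnion]
  constructor
  · rintro ⟨⟨m, A⟩, hp, hx⟩
    simp only [II, Finset.mem_product, Finset.mem_insert, Finset.mem_singleton] at hp
    obtain ⟨hY, hs⟩ := Finset.mem_filter.1 hx
    exact ⟨mem_lattice.2 (mk x m A (mem_Codes.1 hp.2) (fun i => (mem_S (mem_Y.1 hY i)).2.2.1) hs), Y8_bounds hY⟩
  · rintro ⟨hL, hb⟩
    obtain ⟨m, A, hA, h4, hs⟩ := dec (mem_lattice.1 hL)
    have key : ∃ (m' : ℤ) (A' : Finset GolayPt), (m' = 0 ∨ m' = 1) ∧ Cd A' ∧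
        (∀ i, x i ≡ m' + 2 * ind A' i [ZMOD 4]) ∧ ∑ i, x i ≡ 4 * m' [ZMOD 8] := by
      have hm : m % 4 = 0 ∨ m % 4 = 1 ∨ m % 4 = 2 ∨ m % 4 = 3 := by omega
      rcases hm with h | h | h | h
      · refine ⟨0, A, Or.inl rfl, hA, fun i => ?_, ?_⟩
        · have := h4 i
          unfold Int.ModEq at this ⊢
          omega
        · unfold Int.ModEq at hs ⊢
          omega
      · refine ⟨1, A, Or.inr rfl, hA, fun i => ?_, ?_⟩
        · have := h4 i
          unfold Int.ModEq at this ⊢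
          omega
        · unfold Int.ModEq at hs ⊢
          omega
      · refine ⟨0, Aᶜ, Or.inl rfl, cd_compl hA, fun i => ?_, ?_⟩
        · have := h4 i
          rw [ind_compl]
          unfold Int.ModEq at this ⊢
          omega
        · unfold Int.ModEq at hs ⊢
          omega
      · refine ⟨1, Aᶜ, Or.inr rfl, cd_compl hA, fun i => ?_, ?_⟩
        · have := h4 i
          rw [ind_compl]
          unfold Int.ModEq at this ⊢
          omega
        · unfold Int.ModEq at hs ⊢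
          omega
    obtain ⟨m', A', hm', hA', h4', hs'⟩ := key
    refine ⟨(m', A'), ?_, ?_⟩
    · simp only [II, Finset.mem_product, Finset.mem_insert, Finset.mem_singleton]
      exact ⟨hm', mem_Codes.2 hA'⟩
    · refine Finset.mem_filter.2 ⟨mem_Y.2 fun i => ?_, hs'⟩
      have hc := hb i
      simp only [S, Finset.mem_filter, Finset.mem_Icc]
      refine ⟨⟨by omega, by omega⟩, h4' i, ?_⟩
      simp only [q8]
      exact decide_eq_true hc

/-- reduction of the coordinates modulo 8 -/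
def π : (GolayPt → ℤ) →+ (GolayPt → ZMod 8) := AddMonoidHom.compLeft (Int.castAddHom (ZMod 8)) GolayPt

theorem π_apply (x : GolayPt → ℤ) (i : GolayPt) : π x i = (x i : ZMod 8) := rfl

/-- the standard representative -/
def ρ (y : GolayPt → ZMod 8) : GolayPt → ℤ := fun i => ((y i).val : ℤ)

theorem π_ρ (y : GolayPt → ZMod 8) : π (ρ y) = y := by
  funext i
  simp [π_apply, ρ]

theorem ker_le {x : GolayPt → ℤ} (h : π x = 0) : x ∈ leechLattice := by
  have h8 : ∀ i, (8 : ℤ) ∣ x i := by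
    intro i
    have := congrFun h i
    rw [π_apply] at this
    exact (ZMod.intCast_zmod_eq_zero_iff_dvd (x i) 8).1 this
  refine mem_lattice.2 (mk x 0 ∅ cd_empty (fun i => ?_) ?_)
  · obtain ⟨c, hc⟩ := h8 i
    simp only [ind, Finset.notMem_empty, if_false]
    unfold Int.ModEq
    omega
  · have : (8 : ℤ) ∣ ∑ i, x i := Finset.dvd_sum fun i _ => h8 i
    unfold Int.ModEq
    omega

theorem mem_map_iff (y : GolayPt → ZMod 8) : y ∈ leechLattice.map π ↔ ρ y ∈ leechLattice := by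
  constructor
  · rintro ⟨x, hx, rfl⟩
    have h1 : π (ρ (π x) - x) = 0 := by
      rw [map_sub, π_ρ, sub_self]
    have h2 := ker_le h1
    have h3 := add_mem h2 hx
    simpa using h3
  · intro h
    exact ⟨_, h, π_ρ y⟩

theorem ρ_inj : Function.Injective ρ := by
  intro a b h
  rw [← π_ρ a, ← π_ρ b, h]

theorem ρ_π {x : GolayPt → ℤ} (h : ∀ i, 0 ≤ x i ∧ x i ≤ 7) : ρ (π x) = x := by
  funext i
  simp only [ρ, π_apply]
  rw [ZMod.val_intCast]
  obtain ⟨h1, h2⟩ := h i
  exact Int.emod_eq_of_lt h1 (by norm_num; omega)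

theorem card_map : Nat.card (leechLattice.map π) = 2 ^ 36 := by
  classical
  rw [← card_total, ← Fintype.card_coe, ← Nat.card_eq_fintype_card]
  refine Nat.card_congr ⟨fun y => ⟨ρ y.1, ?_⟩, fun x => ⟨π x.1, ?_⟩, ?_, ?_⟩
  · refine mem_total.2 ⟨(mem_map_iff y.1).1 y.2, fun i => ⟨?_, ?_⟩⟩
    · exact Int.natCast_nonneg _
    · have : (y.1 i).val < 8 := ZMod.val_lt _
      simp only [ρ]
      omega
  · exact ⟨x.1, (mem_total.1 x.2).1, rfl⟩
  · intro y
    exact Subtype.ext (π_ρ y.1)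
  · intro x
    exact Subtype.ext (ρ_π (mem_total.1 x.2).2)

theorem π_surj : Function.Surjective π := fun y => ⟨ρ y, π_ρ y⟩

theorem index_eq : leechLattice.index = 2 ^ 36 := by
  have h1 : leechLattice = (leechLattice.map π).comap π := by
    rw [AddSubgroup.comap_map_eq_self]
    intro x hx
    exact ker_le hx
  have h2 : leechLattice.index = (leechLattice.map π).index := by
    conv_lhs => rw [h1]
    exact AddSubgroup.index_comap_of_surjective _ π_surj
  have h3 := AddSubgroup.index_mul_card (leechLattice.map π)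
  rw [card_map, Nat.card_eq_fintype_card, Fintype.card_fun, ZMod.card, card_golayPt, ← h2] at h3
  have h4 : leechLattice.index * 2 ^ 36 = 2 ^ 36 * 2 ^ 36 := by
    rw [h3]
    norm_num
  exact Nat.eq_of_mul_eq_mul_right (by norm_num) h4

end Cfsg.Agent.Lib.LeechIndex
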