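import Cfsg.Agent.Lib.LeechCount

/-! The values of the generating function. -/

set_option autoImplicit false
set_option maxRecDepth 100000

namespace Cfsg.Agent.Lib.LeechCount

theorem t32 : tot qAll 32 = 196560 := by decide +kernel
theorem t48 : tot qAll 48 = 16773120 := by decide +kernel
theorem t64 : tot qAll 64 = 398034000 := by decide +kernel

/-- the restriction to the shape of a dodecad -/
def q2 : ℤ → Bool := fun a => decide (a = 0 ∨ a = 2 ∨ a = -2)
/-- the restriction excluding absolute value four -/
def q4 : ℤ → Bool := fun a => decide (|a| ≠ 4)
/-- the restriction excluding absolute value five -/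
def q5 : ℤ → Bool := fun a => decide (|a| ≠ 5)
/-- the restriction to odd values of absolute value other than five -/
def q3 : ℤ → Bool := fun a => decide (a % 2 = 1 ∧ |a| ≠ 5)

theorem t2 : tot q2 48 = 5275648 := by decide +kernel
theorem t3 : tot q3 48 = 8290304 := by decide +kernel
theorem t4 : tot q4 48 = 16773120 - 3108864 := by decide +kernel
theorem t5 : tot q5 48 = 16773120 - 98304 := by decide +kernel

end Cfsg.Agent.Lib.LeechCount
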