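import Mathlib
import Cfsg.Agent.Lib.FusSimple
import Cfsg.Agent.Lib.FusGroup
import Cfsg.Agent.Lib.H1Frat
import Cfsg.Agent.Lib.GolayOut

/-!
A criterion for the simplicity of the fusion system of a finite group, and a computational certificate for
subgroups of the group of the length-24 code.
-/
set_option autoImplicit false
set_option linter.unusedSimpArgs false
set_option linter.unusedVariables false
open Cfsg
open scoped Pointwise

namespace Cfsg.Agent.Lib.MathFus
open Cfsg.Agent.Lib.FusSimple Cfsg.Agent.Lib.FusSat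

section Abstract
variable {G : Type*} [Group G] [Finite G] {p : ℕ} [Fact p.Prime]

theorem exists_conj_sylow (S₀ S : Sylow p G) :
    ∃ h : G, ∀ x, x ∈ (S : Subgroup G) ↔ h⁻¹ * x * h ∈ (S₀ : Subgroup G) := by
  obtain ⟨h, rfl⟩ := MulAction.exists_smul_eq G S₀ S
  refine ⟨h, fun x => ?_⟩
  rw [Sylow.coe_subgroup_smul, Subgroup.mem_pointwise_smul_iff_inv_smul_mem]
  show ((MulAut.conj h)⁻¹ x) ∈ _ ↔ _
  rw [MulAut.conj_inv_apply]

theorem simple_of_sylow (S₀ : Sylow p G) (hne : (S₀ : Subgroup G) ≠ ⊥)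
    (ha : ∀ T : Subgroup G, T ≤ S₀ → T ≠ ⊥ →
      (∀ x ∈ T, ∀ g : G, g * x * g⁻¹ ∈ (S₀ : Subgroup G) → g * x * g⁻¹ ∈ T) → T = S₀)
    (hc : ∀ g : G, (∀ x ∈ (S₀ : Subgroup G), g * x * g⁻¹ ∈ (S₀ : Subgroup G)) → g ∈ (S₀ : Subgroup G))
    (S : Sylow p G) : (groupFusionSystem (S : Subgroup G)).IsSimple p := by
  obtain ⟨h, hS⟩ := exists_conj_sylow S₀ S
  have hS' : ∀ x, x ∈ (S₀ : Subgroup G) ↔ h * x * h⁻¹ ∈ (S : Subgroup G) := by
    intro x
    rw [hS]
    have e : h⁻¹ * (h * x * h⁻¹) * h = x := by group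
    rw [e]
  refine isSimple_of_inner _ (Cfsg.Agent.Lib.FusGroup.saturated S) ?_ ?_ ?_
  · intro hb
    apply hne
    rw [Subgroup.eq_bot_iff_forall]
    intro x hx
    have := (hS' x).1 hx
    rw [hb, Subgroup.mem_bot] at this
    have e : x = h⁻¹ * (h * x * h⁻¹) * h := by group
    rw [e, this]
    group
  · intro T hT
    by_cases hb : T = ⊥
    · exact Or.inl hb
    right
    have hTS : T ≤ S := hT.1
    have hcl : ∀ x ∈ T, ∀ g : G, g * x * g⁻¹ ∈ (S : Subgroup G) → g * x * g⁻¹ ∈ T := by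
      intro x hx g hg
      have hφ : (conjHom (Subgroup.zpowers x) g) ∈
          (groupFusionSystem (S : Subgroup G)).Hom (Subgroup.zpowers x) := by
        refine ⟨(Subgroup.zpowers_le.2 hx).trans hTS, ?_, g, fun y => rfl⟩
        rintro ⟨y, k, rfl⟩
        have e : g * (x ^ k) * g⁻¹ = (g * x * g⁻¹) ^ k := by
          rw [conj_zpow]
        show g * (x ^ k) * g⁻¹ ∈ _
        rw [e]
        exact Subgroup.zpow_mem _ hg _
      exact hT.2 _ (Subgroup.zpowers_le.2 hx) _ hφ ⟨x, Subgroup.mem_zpowers x⟩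
    let T₀ : Subgroup G := T.comap (MulAut.conj h).toMonoidHom
    have hmem : ∀ x, x ∈ T₀ ↔ h * x * h⁻¹ ∈ T := fun x => Iff.rfl
    have hT₀ : T₀ = S₀ := by
      apply ha
      · intro x hx
        exact (hS' x).2 (hTS ((hmem x).1 hx))
      · intro hb0
        apply hb
        rw [Subgroup.eq_bot_iff_forall]
        intro x hx
        have h1 : h⁻¹ * x * h ∈ T₀ := by
          rw [hmem]
          have e : h * (h⁻¹ * x * h) * h⁻¹ = x := by group
          rwa [e]
        rw [hb0, Subgroup.mem_bot] at h1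
        have e : x = h * (h⁻¹ * x * h) * h⁻¹ := by group
        rw [e, h1]
        group
      · intro x hx g hg
        rw [hmem] at hx ⊢
        have h1 := (hS' _).1 hg
        have e : h * (g * x * g⁻¹) * h⁻¹ = (h * g * h⁻¹) * (h * x * h⁻¹) * (h * g * h⁻¹)⁻¹ := by group
        rw [e] at h1 ⊢
        exact hcl _ hx _ h1
    apply le_antisymm hTS
    intro x hx
    have h1 : h⁻¹ * x * h ∈ (S₀ : Subgroup G) := (hS x).1 hx
    rw [← hT₀, hmem] at h1
    have e : h * (h⁻¹ * x * h) * h⁻¹ = x := by group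
    rwa [e] at h1
  · intro α hα
    rw [Cfsg.Agent.Lib.FusGroup.autGroup_eq le_rfl] at hα
    obtain ⟨g, -, hg⟩ := mem_autInducedBy'.1 hα
    have hgS : g ∈ (S : Subgroup G) := by
      rw [hS]
      apply hc
      intro x hx
      have h1 := (hS' x).1 hx
      have h2 := (α ⟨_, h1⟩).2
      rw [hg, hS] at h2
      have e : h⁻¹ * (g * (h * x * h⁻¹) * g⁻¹) * h = h⁻¹ * g * h * x * (h⁻¹ * g * h)⁻¹ := by group
      rwa [e] at h2
    refine ⟨⟨g, hgS⟩, ?_⟩
    ext x
    rw [hg]
    rfl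

/-- a normaliser element has an odd power in a Sylow subgroup -/
theorem exists_odd_pow_mem (S₀ : Sylow 2 G) (g : G)
    (hg : ∀ x ∈ (S₀ : Subgroup G), g * x * g⁻¹ ∈ (S₀ : Subgroup G)) :
    ∃ m, Odd m ∧ g ^ m ∈ (S₀ : Subgroup G) := by
  have hpos : orderOf g ≠ 0 := (orderOf_pos g).ne'
  obtain ⟨a, m, hm, ho⟩ := Nat.exists_eq_two_pow_mul_odd hpos
  refine ⟨m, hm, ?_⟩
  set u := g ^ m with hu
  have hu2 : u ^ 2 ^ a = 1 := by
    rw [hu, ← pow_mul, Nat.mul_comm, ← ho, pow_orderOf_eq_one]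
  have hup : IsPGroup 2 (Subgroup.zpowers u) := by
    intro x
    obtain ⟨x, k, rfl⟩ := x
    refine ⟨a, ?_⟩
    apply Subtype.ext
    show (u ^ k) ^ 2 ^ a = 1
    rw [← zpow_natCast, ← zpow_mul, mul_comm, zpow_mul, zpow_natCast, hu2, one_zpow]
  have hun : Subgroup.zpowers u ≤ Subgroup.normalizer ((S₀ : Subgroup G) : Set G) := by
    rw [Subgroup.zpowers_le]
    have hgn : g ∈ Subgroup.normalizer ((S₀ : Subgroup G) : Set G) := by
      rw [Subgroup.mem_normalizer_iff]
      intro x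
      have hfin : Function.Bijective (fun y : (S₀ : Subgroup G) => (⟨g * y * g⁻¹, hg _ y.2⟩ : (S₀ : Subgroup G))) := by
        apply Finite.injective_iff_bijective.1
        intro a b hab
        have := congrArg Subtype.val hab
        simp only [mul_left_inj, mul_right_inj] at this
        exact Subtype.ext this
      constructor
      · intro hx; exact hg x hx
      · intro hx
        obtain ⟨y, hy⟩ := hfin.2 ⟨_, hx⟩
        have e := congrArg Subtype.val hy
        simp only [mul_left_inj, mul_right_inj] at e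
        rw [← e]; exact y.2
    exact Subgroup.pow_mem _ hgn _
  have hsup : IsPGroup 2 (Subgroup.zpowers u ⊔ (S₀ : Subgroup G) : Subgroup G) :=
    IsPGroup.to_sup_of_normal_right' hup S₀.isPGroup' hun
  have := S₀.is_maximal' hsup le_sup_right
  rw [← this]
  exact (le_sup_left : Subgroup.zpowers u ≤ _) (Subgroup.mem_zpowers u)

end Abstract

section Orb
variable {Ω : Type*}

/-- the orbit of `y` under the elements of `S₀` fixing `A` -/
def orb (S₀ : Subgroup (Equiv.Perm Ω)) (A : Set Ω) (y : Ω) : Set Ω :=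
  {x | ∃ s ∈ S₀, (∀ a ∈ A, s a = a) ∧ s y = x}

variable {S₀ : Subgroup (Equiv.Perm Ω)} {A : Set Ω}

theorem self_mem_orb (y : Ω) : y ∈ orb S₀ A y := ⟨1, S₀.one_mem, fun _ _ => rfl, rfl⟩

theorem orb_eq_of_mem {x y : Ω} (h : x ∈ orb S₀ A y) : orb S₀ A x = orb S₀ A y := by
  obtain ⟨s, hs, hsA, rfl⟩ := h
  ext z
  constructor
  · rintro ⟨t, ht, htA, rfl⟩
    exact ⟨t * s, S₀.mul_mem ht hs, fun a ha => by rw [Equiv.Perm.mul_apply, hsA a ha, htA a ha], rfl⟩
  · rintro ⟨t, ht, htA, rfl⟩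
    refine ⟨t * s⁻¹, S₀.mul_mem ht (S₀.inv_mem hs), fun a ha => ?_, by simp⟩
    rw [Equiv.Perm.mul_apply]
    have : s⁻¹ a = a := by
      rw [Equiv.Perm.inv_eq_iff_eq]
      exact (hsA a ha).symm
    rw [this, htA a ha]

theorem orb_image {g : Equiv.Perm Ω} (hnorm : ∀ s ∈ S₀, g * s * g⁻¹ ∈ S₀) (hnorm' : ∀ s ∈ S₀, g⁻¹ * s * g ∈ S₀)
    (hA : ∀ a ∈ A, g a = a) (y : Ω) : orb S₀ A (g y) = g '' orb S₀ A y := by
  have hA' : ∀ a ∈ A, g⁻¹ a = a := fun a ha => by
    rw [Equiv.Perm.inv_eq_iff_eq]; exact (hA a ha).symm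
  ext z
  constructor
  · rintro ⟨s, hs, hsA, rfl⟩
    refine ⟨(g⁻¹ * s * g) y, ⟨_, hnorm' s hs, fun a ha => ?_, rfl⟩, ?_⟩
    · simp only [Equiv.Perm.mul_apply]
      rw [hA a ha, hsA a ha, hA' a ha]
    · simp
  · rintro ⟨_, ⟨s, hs, hsA, rfl⟩, rfl⟩
    refine ⟨_, hnorm s hs, fun a ha => ?_, by simp⟩
    simp only [Equiv.Perm.mul_apply]
    rw [hA' a ha, hsA a ha, hA a ha]

theorem ncard_orb {g : Equiv.Perm Ω} (hnorm : ∀ s ∈ S₀, g * s * g⁻¹ ∈ S₀) (hnorm' : ∀ s ∈ S₀, g⁻¹ * s * g ∈ S₀)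
    (hA : ∀ a ∈ A, g a = a) (y : Ω) : (orb S₀ A (g y)).ncard = (orb S₀ A y).ncard := by
  rw [orb_image hnorm hnorm' hA, Set.ncard_image_of_injective _ g.injective]

/-- the step lemma -/
theorem step_lemma {K dom : Set Ω} (hAK : A ⊆ K) {b alt : Ω} {g : Equiv.Perm Ω}
    (hnorm : ∀ s ∈ S₀, g * s * g⁻¹ ∈ S₀) (hnorm' : ∀ s ∈ S₀, g⁻¹ * s * g ∈ S₀)
    (hK : ∀ k ∈ K, g k = k) (hdom : ∀ x ∈ dom, g x ∈ dom) {m : ℕ} (hm : Odd m) (hgm : g ^ m ∈ S₀)
    (hb : b ∈ dom) (hbK : b ∉ K) (halt : alt ∈ dom) (haltK : alt ∉ K)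
    (h1 : ∀ y ∈ dom, y ∉ K → (orb S₀ A y).ncard = (orb S₀ A b).ncard → y ∈ orb S₀ A b ∨ y ∈ orb S₀ A alt)
    (h2 : alt = b ∨ Disjoint (orb S₀ A b) (orb S₀ A alt))
    (h3 : orb S₀ A b ⊆ orb S₀ K b) : ∃ s ∈ S₀, (∀ k ∈ K, s k = k) ∧ s b = g b := by
  have hgA : ∀ a ∈ A, g a = a := fun a ha => hK a (hAK ha)
  have hnK : ∀ y, y ∉ K → g y ∉ K := by
    intro y hy hgy
    apply hy
    have := hK _ hgy
    have h' := g.injective this
    rw [← h']
    exact hgy
  have hmain : g b ∈ orb S₀ A b := by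
    rcases h1 (g b) (hdom _ hb) (hnK _ hbK) (ncard_orb hnorm hnorm' hgA b) with h | h
    · exact h
    rcases h2 with rfl | hdis
    · exact h
    exfalso
    -- `g` maps the orbit of `b` onto the orbit of `alt`
    have e1 : orb S₀ A (g b) = orb S₀ A alt := orb_eq_of_mem h
    have e2 : g '' orb S₀ A b = orb S₀ A alt := by rw [← orb_image hnorm hnorm' hgA, e1]
    have hgalt : g alt ∈ orb S₀ A b := by
      have hcard : (orb S₀ A (g alt)).ncard = (orb S₀ A b).ncard := by
        rw [ncard_orb hnorm hnorm' hgA alt, ← e1, ncard_orb hnorm hnorm' hgA b]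
      rcases h1 (g alt) (hdom _ halt) (hnK _ haltK) hcard with h' | h'
      · exact h'
      · exfalso
        have e3 : orb S₀ A (g alt) = orb S₀ A alt := orb_eq_of_mem h'
        have e4 : g '' orb S₀ A alt = orb S₀ A alt := by rw [← orb_image hnorm hnorm' hgA, e3]
        have e5 : orb S₀ A alt = orb S₀ A b := by
          apply Set.image_injective.2 g.injective
          rw [e2, e4]
        have hb' : b ∈ orb S₀ A alt := by rw [e5]; exact self_mem_orb b
        exact Set.disjoint_left.1 hdis (self_mem_orb b) hb'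
    have e3 : orb S₀ A (g alt) = orb S₀ A b := orb_eq_of_mem hgalt
    have e4 : g '' orb S₀ A alt = orb S₀ A b := by rw [← orb_image hnorm hnorm' hgA, e3]
    have hstep1 : ∀ x ∈ orb S₀ A b, g x ∈ orb S₀ A alt := fun x hx => by
      rw [← e2]; exact ⟨x, hx, rfl⟩
    have hstep2 : ∀ x ∈ orb S₀ A alt, g x ∈ orb S₀ A b := fun x hx => by
      rw [← e4]; exact ⟨x, hx, rfl⟩
    have hpar : ∀ j : ℕ, (g ^ (2 * j)) b ∈ orb S₀ A b := by
      intro j
      induction j with
      | zero => exact self_mem_orb b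
      | succ j ih =>
        have e : g ^ (2 * (j + 1)) = g * (g * g ^ (2 * j)) := by
          rw [Nat.mul_succ, pow_add, pow_two]; group
        rw [e]
        exact hstep2 _ (hstep1 _ ih)
    obtain ⟨j, rfl⟩ := hm
    have h4 : (g ^ (2 * j + 1)) b ∈ orb S₀ A alt := by
      have e : g ^ (2 * j + 1) = g * g ^ (2 * j) := by rw [pow_succ']
      rw [e]
      exact hstep1 _ (hpar j)
    have h5 : (g ^ (2 * j + 1)) b ∈ orb S₀ A b := by
      refine ⟨_, hgm, fun a ha => ?_, rfl⟩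
      have : ∀ n : ℕ, (g ^ n) a = a := by
        intro n
        induction n with
        | zero => rfl
        | succ n ih => rw [pow_succ, Equiv.Perm.mul_apply, hgA a ha, ih]
      exact this _
    exact Set.disjoint_left.1 hdis h5 h4
  exact h3 hmain

end Orb

section Cert
open Cfsg.Agent.Lib.GolayBasic Cfsg.Agent.Lib.GolayCode Cfsg.Agent.Lib.GolayPerm

theorem blt_spec {a b : ℕ} (h : Nat.blt a b = true) : a < b := by
  have : Nat.ble (a + 1) b = true := h
  exact Nat.le_of_ble_eq_true this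

theorem pack_congr {f g : ℕ → ℕ} {k : ℕ} (h : ∀ i < k, f i = g i) : pack f k = pack g k := by
  induction k with
  | zero => rfl
  | succ k ih =>
    show pack f k + (f k % 32) * 32 ^ k = pack g k + (g k % 32) * 32 ^ k
    rw [ih (fun i hi => h i (by omega)), h k (by omega)]

/-- a permutation from a packed permutation -/
noncomputable def permE (pp : ℕ) : Equiv.Perm GolayPt :=
  if h : validB pp = true then permOf pp h else 1

theorem rep_permE {pp : ℕ} (h : validB pp = true) : Rep (permE pp) pp := by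
  rw [permE, dif_pos h]
  exact rep_permOf pp h

/-- the certificate of a 2-subgroup -/
structure Cert where
  n : ℕ
  L : ℕ → ℕ
  N : ℕ
  gI : ℕ → ℕ
  tab : ℕ → ℕ → ℕ
  par : ℕ → ℕ
  pg : ℕ → ℕ
  dep : ℕ → ℕ
  idI : ℕ
  zI : ℕ
  nK : ℕ
  kI : ℕ → ℕ
  ka : ℕ → ℕ
  kb : ℕ → ℕ
  kw : ℕ → ℕ
  kT : ℕ → ℕ

namespace Cert
variable (C : Cert)

/-- generators -/
def t (j : ℕ) : ℕ := C.L (C.gI j)
/-- size -/
def sz : ℕ := Nat.pow 2 C.n

/-- each element is valid and in normal form -/
def elemOK (c : ℕ) : Bool := and (validB (C.L c)) (Nat.beq (pack (ap (C.L c)) 24) (C.L c))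
/-- the parent relation -/
def parOK (c : ℕ) : Bool :=
  or (Nat.beq c C.idI)
    (and (Nat.blt (C.dep (C.par c)) (C.dep c)) (and (Nat.blt (C.par c) C.sz) (and (Nat.blt (C.pg c) C.N)
      (Nat.beq (mulP (C.t (C.pg c)) (C.L (C.par c))) (C.L c)))))
/-- the multiplication table -/
def tabOK (j c : ℕ) : Bool :=
  and (Nat.blt (C.tab j c) C.sz) (Nat.beq (mulP (C.t j) (C.L c)) (C.L (C.tab j c)))

/-- the group part of the check -/
def groupOK : Bool :=
  and (and (Nat.blt C.idI C.sz) (Nat.beq (C.L C.idI) idP))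
    (and (allBelow (fun j => Nat.blt (C.gI j) C.sz) C.N)
      (and (allBelow C.elemOK C.sz)
        (and (allBelow (fun c => Nat.blt (C.L c) (C.L (c + 1))) (C.sz - 1))
          (and (allBelow (fun j => allBelow (C.tabOK j) C.sz) C.N)
            (allBelow C.parOK C.sz)))))

/-- the subgroup -/
noncomputable def S₀ : Subgroup (Equiv.Perm GolayPt) :=
  Subgroup.closure {g | ∃ j < C.N, g = permE (C.t j)}

variable {C}

structure GroupFacts (C : Cert) : Prop where
  hid : C.idI < C.sz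
  hidP : C.L C.idI = idP
  hg : ∀ j < C.N, C.gI j < C.sz
  helem : ∀ c < C.sz, validB (C.L c) = true
  hpack : ∀ c < C.sz, pack (ap (C.L c)) 24 = C.L c
  hsort : ∀ c < C.sz - 1, C.L c < C.L (c + 1)
  htab : ∀ j < C.N, ∀ c < C.sz, C.tab j c < C.sz ∧ mulP (C.t j) (C.L c) = C.L (C.tab j c)
  hpar : ∀ c < C.sz, c = C.idI ∨ (C.dep (C.par c) < C.dep c ∧ C.par c < C.sz ∧ C.pg c < C.N ∧
    mulP (C.t (C.pg c)) (C.L (C.par c)) = C.L c)

theorem groupFacts (h : C.groupOK = true) : GroupFacts C := by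
  simp only [groupOK, Bool.and_eq_true] at h
  obtain ⟨⟨h1, h2⟩, h3, h4, h5, h6, h7⟩ := h
  refine ⟨blt_spec h1, Nat.eq_of_beq_eq_true h2, fun j hj => blt_spec (allBelow_spec h3 j hj), ?_, ?_, ?_, ?_, ?_⟩
  · intro c hc
    have := allBelow_spec h4 c hc
    simp only [elemOK, Bool.and_eq_true] at this
    exact this.1
  · intro c hc
    have := allBelow_spec h4 c hc
    simp only [elemOK, Bool.and_eq_true] at this
    exact Nat.eq_of_beq_eq_true this.2
  · intro c hc
    exact blt_spec (allBelow_spec h5 c hc)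
  · intro j hj c hc
    have := allBelow_spec (allBelow_spec h6 j hj) c hc
    simp only [tabOK, Bool.and_eq_true] at this
    exact ⟨blt_spec this.1, Nat.eq_of_beq_eq_true this.2⟩
  · intro c hc
    have := allBelow_spec h7 c hc
    simp only [parOK, Bool.or_eq_true, Bool.and_eq_true] at this
    rcases this with h | ⟨h1, h2, h3, h4⟩
    · exact Or.inl (Nat.eq_of_beq_eq_true h)
    · exact Or.inr ⟨blt_spec h1, blt_spec h2, blt_spec h3, Nat.eq_of_beq_eq_true h4⟩

variable (hC : GroupFacts C)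
include hC

theorem rep_L {c : ℕ} (hc : c < C.sz) : Rep (permE (C.L c)) (C.L c) := rep_permE (hC.helem c hc)

theorem rep_t {j : ℕ} (hj : j < C.N) : Rep (permE (C.t j)) (C.t j) := rep_L hC (hC.hg j hj)

/-- each listed element is in the subgroup -/
theorem mem_of_lt {c : ℕ} (hc : c < C.sz) : permE (C.L c) ∈ C.S₀ := by
  have key : ∀ d c, C.dep c < d → c < C.sz → permE (C.L c) ∈ C.S₀ := by
    intro d
    induction d with
    | zero => intro c h; omega
    | succ d ih =>
      intro c hd hc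
      rcases hC.hpar c hc with rfl | ⟨h1, h2, h3, h4⟩
      · have : permE (C.L C.idI) = 1 := by
          apply (rep_L hC hc).eq
          rw [hC.hidP]
          exact rep_one
        rw [this]
        exact Subgroup.one_mem _
      · have e : permE (C.L c) = permE (C.t (C.pg c)) * permE (C.L (C.par c)) := by
          apply (rep_L hC hc).eq
          rw [← h4]
          exact (rep_t hC h3).mul (rep_L hC h2)
        rw [e]
        exact Subgroup.mul_mem _ (Subgroup.subset_closure ⟨_, h3, rfl⟩) (ih _ (by omega) h2)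
  exact key _ c (Nat.lt_succ_self _) hc

/-- each element of the subgroup is listed -/
theorem exists_of_mem {g : Equiv.Perm GolayPt} (hg : g ∈ C.S₀) : ∃ c < C.sz, Rep g (C.L c) := by
  have hg' : g ∈ Submonoid.closure {g | ∃ j < C.N, g = permE (C.t j)} := by
    rw [← Subgroup.closure_toSubmonoid_of_finite]
    exact hg
  induction hg' using Submonoid.closure_induction_left with
  | one =>
    refine ⟨C.idI, hC.hid, ?_⟩
    rw [hC.hidP]
    exact rep_one
  | mul_left x hx y hy ih =>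
    obtain ⟨j, hj, rfl⟩ := hx
    have hy' : y ∈ C.S₀ := by
      have : y ∈ (C.S₀).toSubmonoid := by
        rw [S₀, Subgroup.closure_toSubmonoid_of_finite]
        exact hy
      exact this
    obtain ⟨c, hc, hrep⟩ := ih hy'
    obtain ⟨h1, h2⟩ := hC.htab j hj c hc
    refine ⟨_, h1, ?_⟩
    rw [← h2]
    exact (rep_t hC hj).mul hrep

theorem mem_iff {g : Equiv.Perm GolayPt} : g ∈ C.S₀ ↔ ∃ c < C.sz, Rep g (C.L c) := by
  constructor
  · exact exists_of_mem hC
  · rintro ⟨c, hc, h⟩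
    have : g = permE (C.L c) := h.eq (rep_L hC hc)
    rw [this]
    exact mem_of_lt hC hc

theorem L_lt {c d : ℕ} (hcd : c < d) (hd : d < C.sz) : C.L c < C.L d := by
  induction d with
  | zero => omega
  | succ d ih =>
    have h1 : C.L d < C.L (d + 1) := hC.hsort d (by omega)
    rcases Nat.lt_succ_iff_lt_or_eq.mp hcd with h | rfl
    · exact lt_trans (ih h (by omega)) h1
    · exact h1

theorem L_inj {c d : ℕ} (hc : c < C.sz) (hd : d < C.sz) (h : permE (C.L c) = permE (C.L d)) : c = d := by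
  have hL : C.L c = C.L d := by
    rw [← hC.hpack c hc, ← hC.hpack d hd]
    apply pack_congr
    intro i hi
    have h1 := rep_L hC hc (ptOf i)
    have h2 := rep_L hC hd (ptOf i)
    rw [idx_ptOf hi] at h1 h2
    rw [← h1, ← h2, h]
  rcases Nat.lt_trichotomy c d with h' | h' | h'
  · exact absurd hL (L_lt hC h' hd).ne
  · exact h'
  · exact absurd hL.symm (L_lt hC h' hc).ne

theorem card_S₀ : Nat.card C.S₀ = C.sz := by
  have hb : Function.Bijective (fun c : Fin C.sz => (⟨permE (C.L c), mem_of_lt hC c.2⟩ : C.S₀)) := by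
    constructor
    · intro a b hab
      apply Fin.ext
      exact L_inj hC a.2 b.2 (congrArg Subtype.val hab)
    · rintro ⟨g, hg⟩
      obtain ⟨c, hc, h⟩ := exists_of_mem hC hg
      exact ⟨⟨c, hc⟩, Subtype.ext (rep_L hC hc |>.eq h)⟩
  rw [← Nat.card_congr (Equiv.ofBijective _ hb), Nat.card_fin]

end Cert

theorem allBelow_of_forall {f : ℕ → Bool} {n : ℕ} (h : ∀ i < n, f i = true) : allBelow f n = true := by
  induction n with
  | zero => rfl
  | succ n ih =>
    simp only [allBelow, Bool.and_eq_true]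
    exact ⟨ih fun i hi => h i (by omega), h n (by omega)⟩

/-! ### orbit masks -/

/-- `pp` fixes the listed points -/
def fixesL (pp : ℕ) : List ℕ → Bool
  | [] => true
  | a :: A => and (Nat.beq (ap pp a) a) (fixesL pp A)

theorem fixesL_spec {pp : ℕ} {A : List ℕ} : fixesL pp A = true ↔ ∀ a ∈ A, ap pp a = a := by
  induction A with
  | nil => simp [fixesL]
  | cons a A ih =>
    simp only [fixesL, Bool.and_eq_true, List.mem_cons, forall_eq_or_imp, ih]
    constructor
    · rintro ⟨h1, h2⟩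
      exact ⟨Nat.eq_of_beq_eq_true h1, h2⟩
    · rintro ⟨h1, h2⟩
      exact ⟨by rw [h1]; exact Nat.beq_refl a, h2⟩

/-- membership in a list -/
def memL (y : ℕ) : List ℕ → Bool
  | [] => false
  | a :: A => or (Nat.beq y a) (memL y A)

theorem memL_spec {y : ℕ} {A : List ℕ} : memL y A = true ↔ y ∈ A := by
  induction A with
  | nil => simp [memL]
  | cons a A ih =>
    simp only [memL, Bool.or_eq_true, List.mem_cons, ih]
    constructor
    · rintro (h | h)
      · exact Or.inl (Nat.eq_of_beq_eq_true h)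
      · exact Or.inr h
    · rintro (h | h)
      · left; rw [h]; exact Nat.beq_refl a
      · exact Or.inr h

namespace Cert
variable (C : Cert)

/-- orbit mask -/
def orbAux (A : List ℕ) (y : ℕ) : ℕ → ℕ
  | 0 => 0
  | c + 1 => Nat.lor (orbAux A y c) (cond (fixesL (C.L c) A) (Nat.pow 2 (ap (C.L c) y)) 0)

/-- orbit mask -/
def orbM (A : List ℕ) (y : ℕ) : ℕ := C.orbAux A y C.sz

theorem testBit_orbAux (A : List ℕ) (y x k : ℕ) :
    (C.orbAux A y k).testBit x = true ↔ ∃ c < k, fixesL (C.L c) A = true ∧ ap (C.L c) y = x := by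
  induction k with
  | zero => simp [orbAux]
  | succ k ih =>
    rw [orbAux]
    show (C.orbAux A y k ||| _).testBit x = true ↔ _
    rw [Nat.testBit_or, Bool.or_eq_true, ih]
    constructor
    · rintro (⟨c, hc, h1, h2⟩ | h)
      · exact ⟨c, by omega, h1, h2⟩
      · cases hf : fixesL (C.L k) A with
        | false => simp [hf] at h
        | true =>
          simp only [hf, cond_true] at h
          refine ⟨k, by omega, hf, ?_⟩
          have h3 : (2 ^ ap (C.L k) y).testBit x = true := h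
          rw [Nat.testBit_two_pow] at h3
          simpa using h3
    · rintro ⟨c, hc, h1, h2⟩
      rcases Nat.lt_succ_iff_lt_or_eq.mp hc with h' | rfl
      · exact Or.inl ⟨c, h', h1, h2⟩
      · right
        simp only [h1, cond_true]
        show (2 ^ ap (C.L c) y).testBit x = true
        rw [Nat.testBit_two_pow]
        simpa using h2

/-- the point set of a list -/
def ptSet (A : List ℕ) : Set GolayPt := {p | ∃ a ∈ A, a < 24 ∧ p = ptOf a}

variable {C}

theorem orb_eq (hC : GroupFacts C) (A : List ℕ) (hA : ∀ a ∈ A, a < 24) (y : GolayPt) :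
    orb C.S₀ (ptSet A) y = ↑(GolayBasic.setOf (C.orbM A (idx y))) := by
  ext x
  simp only [Finset.mem_coe, mem_setOf, orbM, testBit_orbAux]
  constructor
  · rintro ⟨s, hs, hsA, rfl⟩
    obtain ⟨c, hc, hrep⟩ := exists_of_mem hC hs
    refine ⟨c, hc, ?_, (hrep y).symm⟩
    rw [fixesL_spec]
    intro a ha
    have h1 := hsA (ptOf a) ⟨a, ha, hA a ha, rfl⟩
    have h2 := hrep (ptOf a)
    rw [h1, idx_ptOf (hA a ha)] at h2
    exact h2.symm
  · rintro ⟨c, hc, h1, h2⟩
    refine ⟨permE (C.L c), mem_of_lt hC hc, ?_, ?_⟩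
    · rintro _ ⟨a, ha, hlt, rfl⟩
      rw [(rep_L hC hc).apply_ptOf hlt, (fixesL_spec.1 h1) a ha]
    · apply idx_injective
      rw [rep_L hC hc y, h2]

theorem ncard_orb_eq (hC : GroupFacts C) (A : List ℕ) (hA : ∀ a ∈ A, a < 24) (y : GolayPt) :
    (orb C.S₀ (ptSet A) y).ncard = pc (C.orbM A (idx y)) := by
  rw [orb_eq hC A hA, Set.ncard_coe_finset, card_setOf]

variable (C)

/-- a single step of the normaliser certificate -/
def stepOK (dom : ℕ) (K A : List ℕ) (b alt : ℕ) : Bool :=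
  and (and (Nat.blt b 24) (Nat.blt alt 24)) (and (A.all (fun a => memL a K))
    (and (and (not (memL b K)) (not (memL alt K))) (and (and (tb dom b) (tb dom alt))
      (and (or (Nat.beq alt b) (Nat.beq (Nat.land (C.orbM A b) (C.orbM A alt)) 0))
        (and (allBelow (fun y => or (not (tb dom y)) (or (memL y K)
            (or (not (Nat.beq (pc (C.orbM A y)) (pc (C.orbM A b)))) (or (tb (C.orbM A b) y) (tb (C.orbM A alt) y))))) 24)
          (Nat.beq (Nat.land (C.orbM A b) (C.orbM K b)) (C.orbM A b)))))))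

/-- the whole list of steps -/
def stepsOK (dom : ℕ) : List ℕ → List (List ℕ × ℕ × ℕ) → Bool
  | _, [] => true
  | K, (A, b, alt) :: r => and (C.stepOK dom K A b alt) (stepsOK dom (b :: K) r)

/-- the final list of fixed points -/
def finalK : List ℕ → List (List ℕ × ℕ × ℕ) → List ℕ
  | K, [] => K
  | K, (_, b, _) :: r => finalK (b :: K) r

variable {C}

theorem mem_ptSet {A : List ℕ} {p : GolayPt} : p ∈ ptSet A ↔ idx p ∈ A := by
  constructor
  · rintro ⟨a, ha, hlt, rfl⟩
    rwa [idx_ptOf hlt]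
  · intro h
    exact ⟨_, h, idx_lt p, (ptOf_idx p).symm⟩

theorem step_exists (hC : GroupFacts C) {dom : ℕ} {K A : List ℕ} {b alt : ℕ}
    (hKlt : ∀ k ∈ K, k < 24) (hstep : C.stepOK dom K A b alt = true) {g : Equiv.Perm GolayPt}
    (hnorm : ∀ s, s ∈ C.S₀ ↔ g * s * g⁻¹ ∈ C.S₀)
    (hK : ∀ k ∈ K, g (ptOf k) = ptOf k)
    (hdom : ∀ p, dom.testBit (idx p) = true → dom.testBit (idx (g p)) = true) {m : ℕ} (hm : Odd m)
    (hgm : g ^ m ∈ C.S₀) : ∃ s ∈ C.S₀, (∀ k ∈ K, s (ptOf k) = ptOf k) ∧ s (ptOf b) = g (ptOf b) := by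
  simp only [stepOK, Bool.and_eq_true, List.all_eq_true, Bool.not_eq_true'] at hstep
  obtain ⟨⟨hb, halt⟩, hAK, ⟨hbK, haltK⟩, ⟨hbd, haltd⟩, h2, h1, h3⟩ := hstep
  have hb := blt_spec hb
  have halt := blt_spec halt
  have hAK' : ∀ a ∈ A, a ∈ K := fun a ha => memL_spec.1 (hAK a ha)
  have hAlt : ∀ a ∈ A, a < 24 := fun a ha => hKlt a (hAK' a ha)
  have hbK' : b ∉ K := fun h => by
    have := memL_spec.2 h
    simp [this] at hbK
  have haltK' : alt ∉ K := fun h => by
    have := memL_spec.2 h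
    simp [this] at haltK
  have hptK : ∀ x : ℕ, x < 24 → x ∉ K → ptOf x ∉ ptSet K := fun x hx hxK h => by
    rw [mem_ptSet, idx_ptOf hx] at h
    exact hxK h
  have hSub : ptSet A ⊆ ptSet K := by
    intro p hp
    rw [mem_ptSet] at hp ⊢
    exact hAK' _ hp
  have hnorm' : ∀ s ∈ C.S₀, g⁻¹ * s * g ∈ C.S₀ := fun s hs => by
    rw [hnorm]
    have e : g * (g⁻¹ * s * g) * g⁻¹ = s := by group
    rwa [e]
  have := step_lemma (S₀ := C.S₀) (A := ptSet A) (K := ptSet K)
    (dom := {p | dom.testBit (idx p) = true}) (b := ptOf b) (alt := ptOf alt) (g := g) hSub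
    (fun s hs => (hnorm s).1 hs) hnorm'
    (by
      rintro _ ⟨k, hk, hlt, rfl⟩
      exact hK k hk)
    (fun p hp => hdom p hp) hm hgm
    (by
      show dom.testBit (idx (ptOf b)) = true
      rw [idx_ptOf hb, ← tb_eq]; exact hbd)
    (hptK b hb hbK')
    (by
      show dom.testBit (idx (ptOf alt)) = true
      rw [idx_ptOf halt, ← tb_eq]; exact haltd)
    (hptK alt halt haltK')
    ?_ ?_ ?_
  · obtain ⟨s, hs, hsK, hsb⟩ := this
    exact ⟨s, hs, fun k hk => hsK _ ⟨k, hk, hKlt k hk, rfl⟩, hsb⟩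
  · intro y hyd hyK hc
    rw [ncard_orb_eq hC A hAlt, ncard_orb_eq hC A hAlt, idx_ptOf hb] at hc
    have hy := allBelow_spec h1 (idx y) (idx_lt y)
    simp only [Bool.or_eq_true, Bool.not_eq_true'] at hy
    rw [orb_eq hC A hAlt, orb_eq hC A hAlt, idx_ptOf hb, idx_ptOf halt]
    simp only [Finset.mem_coe, mem_setOf, ← tb_eq]
    rcases hy with hy | hy | hy | hy
    · exfalso
      have : tb dom (idx y) = true := by rw [tb_eq]; exact hyd
      rw [this] at hy
      exact absurd hy (by decide)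
    · exact absurd (by rw [mem_ptSet]; exact memL_spec.1 hy) hyK
    · exfalso
      rw [hc] at hy
      have : Nat.beq (pc (C.orbM A b)) (pc (C.orbM A b)) = true := Nat.beq_refl _
      rw [this] at hy
      exact absurd hy (by decide)
    · rcases hy with hy | hy
      · exact Or.inl hy
      · exact Or.inr hy
  · simp only [Bool.or_eq_true] at h2
    rcases h2 with h2 | h2
    · left
      rw [Nat.eq_of_beq_eq_true h2]
    · right
      have h0 : C.orbM A b &&& C.orbM A alt = 0 := Nat.eq_of_beq_eq_true h2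
      rw [orb_eq hC A hAlt, orb_eq hC A hAlt, idx_ptOf hb, idx_ptOf halt]
      rw [Finset.disjoint_coe, Finset.disjoint_iff_inter_eq_empty, ← setOf_land, h0]
      ext p
      simp
  · have h0 : C.orbM A b &&& C.orbM K b = C.orbM A b := Nat.eq_of_beq_eq_true h3
    rw [orb_eq hC A hAlt, orb_eq hC K hKlt, idx_ptOf hb]
    intro p hp
    simp only [Finset.mem_coe] at hp ⊢
    rw [← h0, setOf_land] at hp
    exact (Finset.mem_inter.1 hp).2

theorem norm_iff_of_mem {T : Subgroup (Equiv.Perm GolayPt)} {g : Equiv.Perm GolayPt}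
    (h : ∀ s ∈ T, g * s * g⁻¹ ∈ T) : ∀ s, s ∈ T ↔ g * s * g⁻¹ ∈ T := by
  have hb : Function.Bijective (fun y : T => (⟨g * y * g⁻¹, h _ y.2⟩ : T)) := by
    apply Finite.injective_iff_bijective.1
    intro a b hab
    have := congrArg Subtype.val hab
    simp only [mul_left_inj, mul_right_inj] at this
    exact Subtype.ext this
  intro s
  refine ⟨h s, fun hs => ?_⟩
  obtain ⟨y, hy⟩ := hb.2 ⟨_, hs⟩
  have e := congrArg Subtype.val hy
  simp only [mul_left_inj, mul_right_inj] at e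
  rw [← e]
  exact y.2

/-- The normaliser is controlled by a list of steps. -/
theorem normalizer_le (hC : GroupFacts C) {H : Subgroup (Equiv.Perm GolayPt)} (hle : C.S₀ ≤ H) {dom : ℕ}
    (hdom : ∀ g ∈ H, ∀ p, dom.testBit (idx p) = true → dom.testBit (idx (g p)) = true)
    (hodd : ∀ g ∈ H, (∀ s ∈ C.S₀, g * s * g⁻¹ ∈ C.S₀) → ∃ m, Odd m ∧ g ^ m ∈ C.S₀)
    (steps : List (List ℕ × ℕ × ℕ)) (K : List ℕ) (hKlt : ∀ k ∈ K, k < 24)
    (hsteps : C.stepsOK dom K steps = true)
    (hfin : ∀ g ∈ H, (∀ k ∈ finalK K steps, g (ptOf k) = ptOf k) → g = 1)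
    {g : Equiv.Perm GolayPt} (hg : g ∈ H) (hnorm : ∀ s ∈ C.S₀, g * s * g⁻¹ ∈ C.S₀)
    (hfix : ∀ k ∈ K, g (ptOf k) = ptOf k) : g ∈ C.S₀ := by
  induction steps generalizing K g with
  | nil =>
    rw [hfin g hg hfix]
    exact Subgroup.one_mem _
  | cons st r ih =>
    obtain ⟨A, b, alt⟩ := st
    simp only [stepsOK, Bool.and_eq_true] at hsteps
    obtain ⟨hs1, hs2⟩ := hsteps
    obtain ⟨m, hm, hgm⟩ := hodd g hg hnorm
    obtain ⟨s, hs, hsK, hsb⟩ := step_exists hC hKlt hs1 (norm_iff_of_mem hnorm) hfix (hdom g hg) hm hgm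
    have hb24 : b < 24 := by
      simp only [stepOK, Bool.and_eq_true] at hs1
      exact blt_spec hs1.1.1
    have hmem : s⁻¹ * g ∈ C.S₀ := by
      refine ih (b :: K) ?_ hs2 hfin (H.mul_mem (H.inv_mem (hle hs)) hg) ?_ ?_
      · intro k hk
        rcases List.mem_cons.1 hk with rfl | hk
        · exact hb24
        · exact hKlt k hk
      · intro x hx
        have e : s⁻¹ * g * x * (s⁻¹ * g)⁻¹ = s⁻¹ * (g * x * g⁻¹) * s⁻¹⁻¹ := by group
        rw [e]
        exact C.S₀.mul_mem (C.S₀.mul_mem (C.S₀.inv_mem hs) (hnorm x hx)) (C.S₀.inv_mem (C.S₀.inv_mem hs))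
      · intro k hk
        rcases List.mem_cons.1 hk with rfl | hk
        · rw [Equiv.Perm.mul_apply, ← hsb]
          simp
        · rw [Equiv.Perm.mul_apply, hfix k hk, Equiv.Perm.inv_eq_iff_eq]
          exact (hsK k hk).symm
    have := C.S₀.mul_mem hs hmem
    simpa using this

/-! ### the strong closure -/

variable (C)

/-- commuting packed permutations -/
def commB (a b : ℕ) : Bool := allBelow (fun i => Nat.beq (ap a (ap b i)) (ap b (ap a i))) 24

/-- the centre is as claimed -/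
def centerOK : Bool :=
  allBelow (fun c => or (Nat.beq c C.idI) (or (Nat.beq c C.zI) (not (allBelow (fun j => commB (C.t j) (C.L c)) C.N)))) C.sz

/-- the steps of the generation of the closure -/
def kstepOK (inH : ℕ → Bool) (i : ℕ) : Bool :=
  or (Nat.beq i 0) (and (Nat.blt (C.kI i) C.sz) (and (Nat.blt (C.ka i) i)
    (cond (Nat.beq (C.kw i) 0)
      (and (Nat.blt (C.kb i) i) (Nat.beq (mulP (C.L (C.kI (C.ka i))) (C.L (C.kI (C.kb i)))) (C.L (C.kI i))))
      (and (validB (C.kw i)) (and (inH (C.kw i))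
        (Nat.beq (mulP (C.kw i) (C.L (C.kI (C.ka i)))) (mulP (C.L (C.kI i)) (C.kw i))))))))

/-- the closure check -/
def closeOK (inH : ℕ → Bool) : Bool :=
  and (Nat.beq (C.kI 0) C.zI) (and (Nat.blt C.zI C.sz) (and (allBelow (C.kstepOK inH) C.nK)
    (and (allBelow (fun j => and (Nat.blt (C.kT j) C.nK) (Nat.beq (C.kI (C.kT j)) (C.gI j))) C.N)
      (and C.centerOK (allBelow (fun j => inH (C.t j)) C.N)))))

/-- all the checks -/
def allOK (inH : ℕ → Bool) (dom : ℕ) (K : List ℕ) (steps : List (List ℕ × ℕ × ℕ)) : Bool :=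
  and C.groupOK (and (C.closeOK inH) (C.stepsOK dom K steps))

variable {C}

theorem S₀_le (hC : GroupFacts C) {H : Subgroup (Equiv.Perm GolayPt)} {inH : ℕ → Bool}
    (hH : ∀ g pp, Rep g pp → inH pp = true → g ∈ H) (hc : C.closeOK inH = true) : C.S₀ ≤ H := by
  simp only [closeOK, Bool.and_eq_true] at hc
  obtain ⟨-, -, -, -, -, h6⟩ := hc
  rw [S₀, Subgroup.closure_le]
  rintro _ ⟨j, hj, rfl⟩
  exact hH _ _ (rep_t hC hj) (allBelow_spec h6 j hj)

theorem kI_mem (hC : GroupFacts C) {H : Subgroup (Equiv.Perm GolayPt)} {inH : ℕ → Bool}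
    (hH : ∀ g pp, Rep g pp → inH pp = true → g ∈ H) (hc : C.closeOK inH = true)
    {T : Subgroup (Equiv.Perm GolayPt)} (hz : permE (C.L C.zI) ∈ T)
    (hcl : ∀ x ∈ T, ∀ g ∈ H, g * x * g⁻¹ ∈ C.S₀ → g * x * g⁻¹ ∈ T) :
    ∀ i < C.nK, C.kI i < C.sz ∧ permE (C.L (C.kI i)) ∈ T := by
  have hc' := hc
  simp only [closeOK, Bool.and_eq_true] at hc
  obtain ⟨h1, h2, h3, -, -, -⟩ := hc
  have hzI := blt_spec h2
  have h0 : C.kI 0 = C.zI := Nat.eq_of_beq_eq_true h1
  intro i
  induction i using Nat.strong_induction_on with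
  | _ i ih =>
    intro hi
    have hs := allBelow_spec h3 i hi
    simp only [kstepOK, Bool.or_eq_true, Bool.and_eq_true] at hs
    rcases hs with hs | ⟨hs1, hs2, hs3⟩
    · have : i = 0 := Nat.eq_of_beq_eq_true hs
      subst this
      rw [h0]
      exact ⟨hzI, hz⟩
    · have hs1 := blt_spec hs1
      have hs2 := blt_spec hs2
      obtain ⟨ha1, ha2⟩ := ih _ hs2 (by omega)
      refine ⟨hs1, ?_⟩
      cases hw : Nat.beq (C.kw i) 0 with
      | true =>
        rw [hw, cond_true] at hs3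
        simp only [Bool.and_eq_true] at hs3
        obtain ⟨hb, he⟩ := hs3
        have hb := blt_spec hb
        obtain ⟨hb1, hb2⟩ := ih _ hb (by omega)
        have e : permE (C.L (C.kI i)) = permE (C.L (C.kI (C.ka i))) * permE (C.L (C.kI (C.kb i))) := by
          apply (rep_L hC hs1).eq
          rw [← Nat.eq_of_beq_eq_true he]
          exact (rep_L hC ha1).mul (rep_L hC hb1)
        rw [e]
        exact T.mul_mem ha2 hb2
      | false =>
        rw [hw, cond_false] at hs3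
        simp only [Bool.and_eq_true] at hs3
        obtain ⟨hv, hin, he⟩ := hs3
        have he := Nat.eq_of_beq_eq_true he
        have hrw := rep_permE hv
        have hwH := hH _ _ hrw hin
        have e : permE (C.kw i) * permE (C.L (C.kI (C.ka i))) * (permE (C.kw i))⁻¹ = permE (C.L (C.kI i)) := by
          have : permE (C.kw i) * permE (C.L (C.kI (C.ka i))) = permE (C.L (C.kI i)) * permE (C.kw i) := by
            apply (hrw.mul (rep_L hC ha1)).eq
            rw [he]
            exact (rep_L hC hs1).mul hrw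
          rw [this]
          group
        have := hcl _ ha2 _ hwH (by rw [e]; exact mem_of_lt hC hs1)
        rwa [e] at this

theorem S₀_le_of_mem (hC : GroupFacts C) {H : Subgroup (Equiv.Perm GolayPt)} {inH : ℕ → Bool}
    (hH : ∀ g pp, Rep g pp → inH pp = true → g ∈ H) (hc : C.closeOK inH = true)
    {T : Subgroup (Equiv.Perm GolayPt)} (hz : permE (C.L C.zI) ∈ T)
    (hcl : ∀ x ∈ T, ∀ g ∈ H, g * x * g⁻¹ ∈ C.S₀ → g * x * g⁻¹ ∈ T) : C.S₀ ≤ T := by
  have hk := kI_mem hC hH hc hz hcl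
  simp only [closeOK, Bool.and_eq_true] at hc
  obtain ⟨-, -, -, h4, -, -⟩ := hc
  rw [S₀, Subgroup.closure_le]
  rintro _ ⟨j, hj, rfl⟩
  have h := allBelow_spec h4 j hj
  simp only [Bool.and_eq_true] at h
  have h1 := hk _ (blt_spec h.1)
  rw [Nat.eq_of_beq_eq_true h.2] at h1
  exact h1.2

/-- the central element lies in every nontrivial closed subgroup -/
theorem z_mem (hC : GroupFacts C) {inH : ℕ → Bool} (hc : C.closeOK inH = true)
    (hn : ∀ s ∈ C.S₀, ∀ x ∈ C.S₀, s * x * s⁻¹ ∈ C.S₀) 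
    (hp : IsPGroup 2 C.S₀)
    {T : Subgroup (Equiv.Perm GolayPt)} (hTS : T ≤ C.S₀) (hne : T ≠ ⊥)
    (hcl : ∀ x ∈ T, ∀ s ∈ C.S₀, s * x * s⁻¹ ∈ T) : permE (C.L C.zI) ∈ T := by
  simp only [closeOK, Bool.and_eq_true] at hc
  obtain ⟨-, -, -, -, h5, -⟩ := hc
  haveI : Fact (Nat.Prime 2) := ⟨Nat.prime_two⟩
  haveI : Finite C.S₀ := inferInstance
  haveI : Group.IsNilpotent C.S₀ := hp.isNilpotent
  let T' : Subgroup C.S₀ := T.subgroupOf C.S₀
  haveI hNT : T'.Normal := ⟨fun x hx s => by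
    show (s : Equiv.Perm GolayPt) * x * (s : Equiv.Perm GolayPt)⁻¹ ∈ T
    exact hcl _ hx _ s.2⟩
  have hT' : T' ≠ ⊥ := by
    intro hb
    apply hne
    rw [Subgroup.eq_bot_iff_forall]
    intro x hx
    have : (⟨x, hTS hx⟩ : C.S₀) ∈ T' := hx
    rw [hb, Subgroup.mem_bot] at this
    exact congrArg Subtype.val this
  have h := Cfsg.Agent.Lib.H1Frat.normal_inf_center_ne_bot T' hT'
  obtain ⟨a, ha⟩ := (Subgroup.ne_bot_iff_exists_ne_one).1 h
  have ha1 : a.1 ≠ 1 := fun e => ha (Subtype.ext e)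
  have hat : a.1.1 ∈ T := a.2.1
  have hac : a.1 ∈ Subgroup.center C.S₀ := a.2.2
  obtain ⟨c, hc, hrep⟩ := exists_of_mem hC a.1.2
  have e : a.1.1 = permE (C.L c) := hrep.eq (rep_L hC hc)
  have h6 := allBelow_spec h5 c hc
  simp only [Bool.or_eq_true, Bool.not_eq_true'] at h6
  rcases h6 with h6 | h6 | h6
  · exfalso
    apply ha1
    apply Subtype.ext
    show a.1.1 = 1
    rw [e, Nat.eq_of_beq_eq_true h6]
    apply (rep_L hC hC.hid).eq
    rw [hC.hidP]
    exact rep_one
  · rw [← Nat.eq_of_beq_eq_true h6, ← e]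
    exact hat
  · exfalso
    have hall : allBelow (fun j => commB (C.t j) (C.L c)) C.N = true := by
      apply allBelow_of_forall
      intro j hj
      have hj1 : permE (C.t j) ∈ C.S₀ := Subgroup.subset_closure ⟨j, hj, rfl⟩
      have hcomm : permE (C.t j) * a.1.1 = a.1.1 * permE (C.t j) := by
        have := (Subgroup.mem_center_iff.1 hac) ⟨_, hj1⟩
        exact congrArg Subtype.val this
      apply allBelow_of_forall
      intro i hi
      have h7 := (rep_t hC hj).mul hrep (ptOf i)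
      have h8 := hrep.mul (rep_t hC hj) (ptOf i)
      rw [hcomm, h8, idx_ptOf hi, ap_mulP _ _ _ hi, ap_mulP _ _ _ hi] at h7
      rw [h7]
      exact Nat.beq_refl _
    rw [hall] at h6
    exact absurd h6 (by decide)

/-- The main theorem of the certificate. -/
theorem simple_of_cert (C : Cert) (H : Subgroup (Equiv.Perm GolayPt)) (inH : ℕ → Bool) (dom : ℕ) (K : List ℕ)
    (steps : List (List ℕ × ℕ × ℕ)) {d : ℕ}
    (hH : ∀ g pp, Rep g pp → inH pp = true → g ∈ H)
    (hcard : Nat.card H = 2 ^ C.n * d) (hd : ¬ 2 ∣ d) (hn : C.n ≠ 0)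
    (hdom : ∀ g ∈ H, ∀ p, dom.testBit (idx p) = true → dom.testBit (idx (g p)) = true)
    (hK : ∀ g ∈ H, ∀ k ∈ K, g (ptOf k) = ptOf k) (hKlt : ∀ k ∈ K, k < 24)
    (hfin : ∀ g ∈ H, (∀ k ∈ finalK K steps, g (ptOf k) = ptOf k) → g = 1)
    (hC : C.allOK inH dom K steps = true) (S : Sylow 2 H) :
    (groupFusionSystem (S : Subgroup H)).IsSimple 2 := by
  haveI : Fact (Nat.Prime 2) := ⟨Nat.prime_two⟩
  simp only [allOK, Bool.and_eq_true] at hC
  obtain ⟨h1, h2, h3⟩ := hC
  have hG := groupFacts h1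
  have hle := S₀_le hG hH h2
  have hSc : Nat.card C.S₀ = 2 ^ C.n := card_S₀ hG
  have hPcard : Nat.card (C.S₀.subgroupOf H) = 2 ^ C.n := by
    rw [Nat.card_congr (Subgroup.subgroupOfEquivOfLe hle).toEquiv, hSc]
  have hfac : (Nat.card H).factorization 2 = C.n := by
    have hd0 : d ≠ 0 := fun h => hd (h ▸ dvd_zero 2)
    rw [hcard, Nat.factorization_mul (by positivity) hd0, Nat.factorization_pow]
    simp [Nat.factorization_eq_zero_of_not_dvd hd, Nat.Prime.factorization_self Nat.prime_two]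
  let P : Sylow 2 H := Sylow.ofCard (C.S₀.subgroupOf H) (by rw [hPcard, hfac])
  have hP : ∀ x : H, x ∈ (P : Subgroup H) ↔ (x : Equiv.Perm GolayPt) ∈ C.S₀ := fun x => by
    show x ∈ C.S₀.subgroupOf H ↔ _
    rw [Subgroup.mem_subgroupOf]
  have hpg : IsPGroup 2 C.S₀ := IsPGroup.of_card hSc
  apply simple_of_sylow P
  · intro hb
    have : Nat.card (P : Subgroup H) = 2 ^ C.n := hPcard
    rw [hb, Subgroup.card_bot] at this
    have h2n : 1 < 2 ^ C.n := Nat.one_lt_two_pow hn
    omega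
  · intro T hTP hTne hTcl
    have hle2 : C.S₀ ≤ T.map H.subtype := by
      apply S₀_le_of_mem hG hH h2
      · apply z_mem hG h2 ?_ hpg
        · rintro _ ⟨x, hx, rfl⟩
          exact (hP x).1 (hTP hx)
        · intro hb
          apply hTne
          rw [Subgroup.eq_bot_iff_forall]
          intro x hx
          have : (x : Equiv.Perm GolayPt) ∈ T.map H.subtype := ⟨x, hx, rfl⟩
          rw [hb, Subgroup.mem_bot] at this
          exact Subtype.ext this
        · rintro _ ⟨x, hx, rfl⟩ s hs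
          have hsH := hle hs
          have := hTcl x hx ⟨s, hsH⟩ ((hP _).2 (C.S₀.mul_mem (C.S₀.mul_mem hs ((hP x).1 (hTP hx))) (C.S₀.inv_mem hs)))
          exact ⟨_, this, rfl⟩
        · intro s hs x hx
          exact C.S₀.mul_mem (C.S₀.mul_mem hs hx) (C.S₀.inv_mem hs)
      · rintro _ ⟨x, hx, rfl⟩ g hg hm
        have := hTcl x hx ⟨g, hg⟩ ((hP _).2 hm)
        exact ⟨_, this, rfl⟩
    apply le_antisymm hTP
    intro x hx
    obtain ⟨y, hy, e⟩ := hle2 ((hP x).1 hx)
    have : y = x := Subtype.ext e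
    rwa [← this]
  · intro g hg
    rw [hP]
    have hn1 : ∀ s ∈ C.S₀, (g : Equiv.Perm GolayPt) * s * (g : Equiv.Perm GolayPt)⁻¹ ∈ C.S₀ := by
      intro s hs
      exact (hP _).1 (hg ⟨s, hle hs⟩ ((hP _).2 hs))
    apply normalizer_le hG hle hdom ?_ steps K hKlt h3 hfin g.2 hn1 (hK g g.2)
    intro x hx hxn
    obtain ⟨m, hm, hxm⟩ := exists_odd_pow_mem P ⟨x, hx⟩ (fun y hy => (hP _).2 (hxn y.1 ((hP y).1 hy)))
    exact ⟨m, hm, (hP _).1 hxm⟩

/-! ### the base tests -/

theorem eq_one_of_fixStep {g : Equiv.Perm GolayPt} (hg : g ∈ Cfsg.M24) (K : List ℕ) (F : ℕ)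
    (hF : ∀ i < 24, F.testBit i = true → i ∈ K) (hlt : ∀ k ∈ K, k < 24)
    (hfix : ∀ k ∈ K, g (ptOf k) = ptOf k) (hall : Cfsg.Agent.Lib.GolayOrder.fixStep F = allMask) : g = 1 := by
  obtain ⟨pp, h⟩ := exists_rep g
  have hF' : ∀ i < 24, F.testBit i = true → ap pp i = i := by
    intro i hi hb
    have h1 := hfix i (hF i hi hb)
    rw [h.apply_ptOf hi] at h1
    have h2 := congrArg idx h1
    rwa [idx_ptOf (rep_lt h hi), idx_ptOf hi] at h2
  have h2 := Cfsg.Agent.Lib.GolayOrder.fixStep_spec hg h hF'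
  rw [hall] at h2
  have hall' : ∀ y < 24, allMask.testBit y = true := by
    intro y hy
    have := Finset.mem_univ (ptOf y)
    rwa [← setOf_allMask, mem_setOf, idx_ptOf hy] at this
  apply Equiv.ext
  intro p
  apply idx_injective
  rw [h p, h2 _ (idx_lt p) (hall' _ (idx_lt p))]
  rfl

open Cfsg.Agent.Lib.GolayM12 Cfsg.Agent.Lib.GolayChain in
theorem eq_one_of_fix5 {g : Equiv.Perm GolayPt} (hg : g ∈ Cfsg.Agent.Lib.GolayM12.H12) (Kf : ℕ → ℕ)
    (hlt : ∀ i < 5, Kf i < 24) (hmem : ∀ i < 5, Cfsg.Agent.Lib.GolayM12.D0.testBit (Kf i) = true)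
    (hne : ∀ i < 5, ∀ j < i, Kf i ≠ Kf j) (hfix : ∀ i < 5, g (ptOf (Kf i)) = ptOf (Kf i)) : g = 1 := by
  obtain ⟨w, hw, hwm⟩ := exists_move12 (fun i => ptOf (Kf i)) (fun i => ptOf (ch12.b i)) (k := 5) le_rfl
    (fun i hi => by
      rw [mem_setOf, idx_ptOf (hlt i hi)]
      exact hmem i hi)
    (fun i hi => ptOf_b12_mem hi)
    (fun i hi j hj he => by
      have h2 := congrArg idx he
      rw [idx_ptOf (hlt i hi), idx_ptOf (hlt j (by omega))] at h2
      exact hne i hi j hj h2)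
    (fun i hi j hj he => by
      have hbl : ∀ i < 5, ch12.b i < 24 := by decide +kernel
      have h2 := congrArg idx he
      rw [idx_ptOf (hbl i hi), idx_ptOf (hbl j (by omega))] at h2
      have hbinj : ∀ a < 5, ∀ c < 5, ch12.b a = ch12.b c → a = c := by decide +kernel
      have := hbinj i hi j (by omega) h2
      omega)
  have hconj : w * g * w⁻¹ ∈ FixC H12 ch12.b 5 := by
    rw [mem_FixC]
    refine ⟨H12.mul_mem (H12.mul_mem hw hg) (H12.inv_mem hw), fun j hj => ?_⟩
    have e := hwm j hj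
    rw [← e]
    simp [hfix j hj]
  rw [F5_bot, Subgroup.mem_bot] at hconj
  have : g = w⁻¹ * (w * g * w⁻¹) * w := by group
  rw [this, hconj]
  group

end Cert
end Cert

end Cfsg.Agent.Lib.MathFus
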