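import Mathlib
import Cfsg.Agent.Lib.MathFus
/-!
Certificate data for a 2-subgroup of the group of the length-24 code.
-/
set_option autoImplicit false
set_option maxRecDepth 100000
open Cfsg

namespace Cfsg.Agent.Lib.MathFus11
open Cfsg.Agent.Lib.GolayBasic Cfsg.Agent.Lib.GolayCode Cfsg.Agent.Lib.GolayPerm Cfsg.Agent.Lib.MathFus Cfsg.Agent.Lib.MathFus.Cert

def LR11 : ℕ := 70363637220314119334749784548876273346926755072395647494109560248571774085068382638583191451961648364266180294662839138002702614064455204366191866166253687617190384760585833441899759608462118367247966257297503424845293860504377542459348616524637352208162878418299514483403428602948946901686165442437315826233298435403028177866722420823741675415759411018432302504078547893339585967118009759709030855530653419620754091752722699941334223624826402700286110147765516951281258628084496305245285998882574509281121222459872595357893550824733078318315589532091383447583799906671926516128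
def gIR11 : ℕ := 162
def tabR11 : ℕ := 227837648070338974501501964821110119610
def parR11 : ℕ := 590797674267815783
def pgR11 : ℕ := 9799991808
def depR11 : ℕ := 58944874830654011381125444
def kIR11 : ℕ := 2732836822
def kaR11 : ℕ := 4675122761728
def kbR11 : ℕ := 343597645824
def kwR11 : ℕ := 2288222603446487097775948374255919285121863854283362396262467842667242880512186999386995172026107502083496130504517877665983711549336844219530513848265512618506570416673951613714432
def kTR11 : ℕ := 454
/-- the certificate -/
def C11 : Cert where
  n := 4
  L := fun c => rom LR11 120 c
  N := 2
  gI := fun j => rom gIR11 4 j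
  tab := fun j c => rom tabR11 4 (Nat.add (Nat.mul j 16) c)
  par := fun c => rom parR11 4 c
  pg := fun c => rom pgR11 3 c
  dep := fun c => rom depR11 6 c
  idI := 15
  zI := 6
  nK := 8
  kI := fun i => rom kIR11 4 i
  ka := fun i => rom kaR11 6 i
  kb := fun i => rom kbR11 6 i
  kw := fun i => rom kwR11 120 i
  kT := fun j => rom kTR11 6 j

end Cfsg.Agent.Lib.MathFus11
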