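import Cfsg.Agent.Lib.LSt1
import Cfsg.Agent.Lib.LQd4
import Cfsg.Agent.Lib.LZJD
import Cfsg.Agent.Lib.H9Two
import Cfsg.Agent.Lib.PGrp6

set_option autoImplicit false
set_option linter.unusedSectionVars false
set_option linter.unusedVariables false
set_option linter.style.haveILetI false

namespace Cfsg.Agent.Lib.OddStab

open Subgroup Cfsg

variable {G : Type*} [Group G] [Finite G] {p : ℕ} [hp' : Fact p.Prime]

theorem sylow_two_ab (hodd : Odd (Nat.card G)) (T : Sylow 2 G) : IsMulCommutative T := by
  have hc : Nat.card (T : Subgroup G) ∣ Nat.card G := Subgroup.card_subgroup_dvd_card _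
  obtain ⟨n, hn⟩ := IsPGroup.iff_card.1 T.2
  rw [hn] at hc
  have h1 : n = 0 := by
    by_contra hne
    have h2 : 2 ∣ Nat.card G := (dvd_pow_self 2 hne).trans hc
    exact (Nat.not_even_iff_odd.2 hodd) (even_iff_two_dvd.2 h2)
  rw [h1, pow_zero] at hn
  have hb := Subgroup.eq_bot_of_card_eq _ hn
  refine Cfsg.Agent.Lib.PGrp.isMulComm_of_comm fun a ha b hb' => ?_
  have ha1 : a = 1 := by
    have : a ∈ (T : Subgroup G) := ha
    rwa [hb, Subgroup.mem_bot] at this
  have hb1 : b = 1 := by
    have : b ∈ (T : Subgroup G) := hb'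
    rwa [hb, Subgroup.mem_bot] at this
  rw [ha1, hb1]

theorem npstable_odd (hodd : Odd (Nat.card G)) (hp : p ≠ 2) : IsNormalizerPStable p G :=
  Cfsg.Agent.Lib.LQd.npstable_of_not_involves hp
    (Cfsg.Agent.Lib.LSt.not_involves_qd_of_sylow_two hp (sylow_two_ab hodd))

theorem stab_odd (hodd : Odd (Nat.card G)) (hp : p ≠ 2) : Cfsg.Agent.Lib.PZJ.Stab p G :=
  Cfsg.Agent.Lib.LZJD.stab_of_normalizerPStable (npstable_odd hodd hp)

/-- The centralizer of a normal `p`-subgroup `P` with `O_p(G) ∩ C(P) ≤ P`, `O_{p'}(G) = 1`,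
in a solvable group, is a `p`-group. -/
theorem centralizer_isPGroup [Group.IsSolvable G] (P : Subgroup G) [hPn : P.Normal] (hP : IsPGroup p P)
    (hO : pPrimeCore p G = ⊥) (hle : pCore p G ⊓ centralizer (P : Set G) ≤ P) :
    IsPGroup p (centralizer (P : Set G)) := by
  classical
  have hpr : p.Prime := hp'.out
  have hc := Cfsg.Agent.Lib.H9Two.centralizer_core_le (G := G) p hO
  set D := pCore p G with hD
  haveI hDn : D.Normal := pCore_normal p G
  have hDp : IsPGroup p D := Cfsg.Agent.Lib.H1Core.pCore_isPGroup p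
  set C : Subgroup G := centralizer (P : Set G) with hCdef
  haveI hCn : C.Normal := Cfsg.Agent.Lib.PGrp.centralizer_normal_of_normal P
  -- elements of order prime to `p` are trivial
  have key : ∀ x ∈ C, (orderOf x).Coprime p → x = 1 := by
    intro x hx hcop
    have hxD : x ∈ centralizer (D : Set G) := by
      refine mem_centralizer_iff.2 fun d hd => ?_
      set y : G := x * d * x⁻¹ * d⁻¹ with hy
      have hyC : y ∈ C := by
        have h1 : d * x⁻¹ * d⁻¹ ∈ C := hCn.conj_mem _ (inv_mem hx) d
        have : y = x * (d * x⁻¹ * d⁻¹) := by rw [hy]; group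
        rw [this]
        exact mul_mem hx h1
      have hyD : y ∈ D := by
        have h1 : x * d * x⁻¹ ∈ D := hDn.conj_mem _ hd x
        exact mul_mem h1 (inv_mem hd)
      have hyP : y ∈ P := hle (mem_inf.2 ⟨hyD, hyC⟩)
      have hxy : Commute x y := (mem_centralizer_iff.1 hx y hyP).symm
      have hstep : ∀ n : ℕ, x ^ n * d * (x ^ n)⁻¹ = y ^ n * d := by
        intro n
        induction n with
        | zero => simp
        | succ n ih =>
          have h0 : x * d * x⁻¹ = y * d := by rw [hy]; group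
          calc x ^ (n + 1) * d * (x ^ (n + 1))⁻¹ = x * (x ^ n * d * (x ^ n)⁻¹) * x⁻¹ := by
                rw [pow_succ']; group
            _ = x * (y ^ n * d) * x⁻¹ := by rw [ih]
            _ = y ^ n * (x * d * x⁻¹) := by
                have := (hxy.pow_right n).eq
                calc x * (y ^ n * d) * x⁻¹ = (x * y ^ n) * d * x⁻¹ := by group
                  _ = (y ^ n * x) * d * x⁻¹ := by rw [this]
                  _ = _ := by group
            _ = y ^ (n + 1) * d := by rw [h0, pow_succ]; group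
      have h1 := hstep (orderOf x)
      rw [pow_orderOf_eq_one] at h1
      have hyn : y ^ orderOf x = 1 := by
        have : d = y ^ orderOf x * d := by simpa using h1
        exact (mul_eq_right.1 this.symm)
      have hy1 : y = 1 := by
        obtain ⟨k, hk⟩ := (isPGroup_iff_orderOf_dvd_pow.1 hDp) ⟨y, hyD⟩
        have h2 : orderOf y ∣ p ^ k := by
          rwa [Subgroup.orderOf_mk] at hk
        have h3 : orderOf y ∣ orderOf x := orderOf_dvd_of_pow_eq_one hyn
        have h4 : Nat.Coprime (orderOf x) (p ^ k) := Nat.Coprime.pow_right k hcop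
        have h5 : orderOf y = 1 := Nat.eq_one_of_dvd_coprimes h4 h3 h2
        exact orderOf_eq_one_iff.1 h5
      rw [hy1] at hy
      have h6 : x * d * x⁻¹ = d := by
        have := hy.symm
        exact mul_inv_eq_one.1 this
      have h7 : x * d = d * x := mul_inv_eq_iff_eq_mul.1 h6
      exact h7.symm
    have hxDD : x ∈ D := hc hxD
    obtain ⟨k, hk⟩ := (isPGroup_iff_orderOf_dvd_pow.1 hDp) ⟨x, hxDD⟩
    rw [Subgroup.orderOf_mk] at hk
    have h5 : orderOf x = 1 := Nat.eq_one_of_dvd_coprimes (Nat.Coprime.pow_right k hcop) dvd_rfl hk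
    exact orderOf_eq_one_iff.1 h5
  refine isPGroup_iff_pow_pow_eq_one.2 fun g => ?_
  obtain ⟨k, m, hm, hkm⟩ := Nat.exists_eq_pow_mul_and_not_dvd (n := orderOf (g : G))
    (orderOf_pos _).ne' p hpr.ne_one
  refine ⟨k, Subtype.ext ?_⟩
  have hgC : (g : G) ∈ C := g.2
  have hmem : (g : G) ^ p ^ k ∈ C := pow_mem hgC _
  have ho : orderOf ((g : G) ^ p ^ k) = m := by
    rw [orderOf_pow' _ (pow_ne_zero _ hpr.ne_zero), hkm]
    rw [Nat.gcd_eq_right (Dvd.intro _ rfl)]
    exact Nat.mul_div_cancel_left _ (pow_pos hpr.pos k)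
  have := key _ hmem (by rw [ho]; exact ((Nat.Prime.coprime_iff_not_dvd hpr).2 hm).symm)
  simpa using this

theorem s1465 [Group.IsSolvable G] (hodd : Odd (Nat.card G)) (hp : p ≠ 2) (P : Subgroup G) [hPn : P.Normal] (hP : IsPGroup p P)
    (S : Set (Subgroup G)) (hS : ∀ B ∈ S, IsMulCommutative B ∧ IsPGroup p B ∧ P ≤ Subgroup.normalizer (B : Set G)) :
    (sSup S).map (QuotientGroup.mk' (Subgroup.centralizer (P : Set G))) ≤ Cfsg.pCore p (G ⧸ Subgroup.centralizer (P : Set G)) ∧
      (Cfsg.pPrimeCore p G = ⊥ → Cfsg.pCore p G ⊓ Subgroup.centralizer (P : Set G) ≤ P → sSup S ≤ Cfsg.pCore p G) := by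
  classical
  obtain ⟨M, hMn, hCM, ⟨k, hk⟩, hAM⟩ := stab_odd hodd hp P hPn hP
  have hSM : sSup S ≤ M := sSup_le fun B hB =>
    hAM B (hS B hB).2.1 (Cfsg.Agent.Lib.PZJ.quadratic_of_normalizes (hS B hB).1 (hS B hB).2.2)
  haveI hCn : (centralizer (P : Set G)).Normal := Cfsg.Agent.Lib.PGrp.centralizer_normal_of_normal P
  constructor
  · refine (Subgroup.map_mono hSM).trans ?_
    set π := QuotientGroup.mk' (centralizer (P : Set G)) with hπ
    have hπs : Function.Surjective π := QuotientGroup.mk'_surjective _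
    have hn : (M.map π).Normal := Subgroup.Normal.map hMn π hπs
    refine Cfsg.Agent.Lib.H1Core.le_pCore hn ?_
    -- the image of `M` has `p`-power order
    have hker : π.ker = centralizer (P : Set G) := QuotientGroup.ker_mk' _
    have h1 : Nat.card (M.map π) = p ^ k := by
      rw [← hk]
      have e1 : (centralizer (P : Set G)).relIndex M = Nat.card (M ⧸ (centralizer (P : Set G)).subgroupOf M) := by
        rw [Subgroup.relIndex, Subgroup.index_eq_card]
      rw [e1]
      have hkerf : (π.comp M.subtype).ker = (centralizer (P : Set G)).subgroupOf M := by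
        ext x
        rw [MonoidHom.mem_ker, Subgroup.mem_subgroupOf]
        exact QuotientGroup.eq_one_iff _
      have hrange : (π.comp M.subtype).range = M.map π := by
        rw [MonoidHom.range_eq_map, ← Subgroup.map_map]
        congr 1
        rw [← MonoidHom.range_eq_map, Subgroup.range_subtype]
      rw [← hrange, ← hkerf]
      exact Nat.card_congr (QuotientGroup.quotientKerEquivRange (π.comp M.subtype)).toEquiv.symm
    exact IsPGroup.of_card h1
  · intro hO hle
    have hCp := centralizer_isPGroup P hP hO hle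
    obtain ⟨c, hc'⟩ := IsPGroup.iff_card.1 hCp
    have e := Cfsg.Agent.Lib.PNilp.card_mul_relIndex' _ _ hCM
    rw [hk, hc'] at e
    have hMp : IsPGroup p M := IsPGroup.of_card (n := c + k) (by rw [pow_add]; exact e.symm)
    exact hSM.trans (Cfsg.Agent.Lib.H1Core.le_pCore hMn hMp)

end Cfsg.Agent.Lib.OddStab
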