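import Cfsg.Prelude.Def_Classical
import Mathlib

set_option autoImplicit false

namespace Cfsg.Agent.Lib.OmegaIso

open Matrix Cfsg

section abstract

variable {G H P : Type*} [Group G] [Group H] [Group P]

/-- A central cover with centreless target: the projective quotient is the target. -/
theorem iso_of_surj (φ : G →* H) (hφ : Function.Surjective φ) (π : G →* P) (hπ : Function.Surjective π)
    (hπk : π.ker ≤ Subgroup.center G) (hk : φ.ker ≤ π.ker) (hP : Subgroup.center P = ⊥) :
    Nonempty ((H ⧸ Subgroup.center H) ≃* P) := by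
  let ψ : G →* H ⧸ Subgroup.center H := (QuotientGroup.mk' _).comp φ
  have hψ : Function.Surjective ψ := (QuotientGroup.mk'_surjective _).comp hφ
  have hmem : ∀ g, g ∈ ψ.ker ↔ φ g ∈ Subgroup.center H := fun g => by
    rw [MonoidHom.mem_ker]
    show ((φ g : H) : H ⧸ Subgroup.center H) = 1 ↔ _
    rw [QuotientGroup.eq_one_iff]
  have hkey : ψ.ker = π.ker := by
    ext g
    rw [hmem]
    constructor
    · intro hg
      have h1 : π g ∈ Subgroup.center P := by
        rw [Subgroup.mem_center_iff]
        intro y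
        obtain ⟨h, rfl⟩ := hπ y
        have h2 : h * g * h⁻¹ * g⁻¹ ∈ φ.ker := by
          rw [MonoidHom.mem_ker]
          have := (Subgroup.mem_center_iff.1 hg) (φ h)
          simp only [map_mul, map_inv]
          rw [this]
          group
        have h3 := hk h2
        rw [MonoidHom.mem_ker] at h3
        simp only [map_mul, map_inv] at h3
        exact mul_inv_eq_iff_eq_mul.1 (mul_inv_eq_one.1 h3)
      rw [hP] at h1
      exact (Subgroup.mem_bot.1 h1)
    · intro hg
      have h1 := hπk hg
      rw [Subgroup.mem_center_iff]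
      intro y
      obtain ⟨h, rfl⟩ := hφ y
      rw [← map_mul, ← map_mul, (Subgroup.mem_center_iff.1 h1) h]
  exact ⟨(QuotientGroup.quotientKerEquivOfSurjective ψ hψ).symm.trans
    ((QuotientGroup.quotientMulEquivOfEq hkey).trans (QuotientGroup.quotientKerEquivOfSurjective π hπ))⟩

end abstract

section rep

variable {Γ P U : Type*} [Group Γ] [Group P] {κ : Type} [Fintype κ] [DecidableEq κ] {F : Type*} [Field F]
  [AddCommGroup U] [Module F U]

/-- A linear representation preserving a quadratic function, in coordinates. -/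
theorem exists_hom (Q₁ : U → F) (Q₂ : (κ → F) → F) (e : U ≃ₗ[F] (κ → F)) (he : ∀ u, Q₂ (e u) = Q₁ u)
    (ρ : Γ →* (U →ₗ[F] U)) (hQ : ∀ g u, Q₁ (ρ g u) = Q₁ u) :
    ∃ φ : Γ →* ↥(isometryGroup F Q₂), φ.ker = ρ.ker := by
  let M : Γ →* Matrix κ κ F :=
    { toFun := fun g => LinearMap.toMatrix' (e.toLinearMap ∘ₗ ρ g ∘ₗ e.symm.toLinearMap)
      map_one' := by
        apply Matrix.mulVec_injective
        funext y
        rw [LinearMap.toMatrix'_mulVec]
        simp
      map_mul' := fun a b => by
        apply Matrix.mulVec_injective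
        funext y
        rw [← Matrix.mulVec_mulVec, LinearMap.toMatrix'_mulVec, LinearMap.toMatrix'_mulVec, LinearMap.toMatrix'_mulVec]
        simp }
  have hM : ∀ g (y : κ → F), M g *ᵥ y = e (ρ g (e.symm y)) := fun g y => by
    show LinearMap.toMatrix' _ *ᵥ y = _
    rw [LinearMap.toMatrix'_mulVec]
    simp
  have hmem : ∀ g, (M.toHomUnits g : Matrix.GeneralLinearGroup κ F) ∈ isometryGroup F Q₂ := by
    intro g y _
    show Q₂ (M g *ᵥ y) = Q₂ y
    rw [hM, he]
    obtain ⟨u, rfl⟩ := e.surjective y
    rw [LinearEquiv.symm_apply_apply, he, hQ]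
  refine ⟨M.toHomUnits.codRestrict _ hmem, ?_⟩
  ext g
  rw [MonoidHom.mem_ker, MonoidHom.mem_ker]
  constructor
  · intro h
    have h1 : M g = 1 := by
      have := congrArg (fun x : ↥(isometryGroup F Q₂) => ((x : Matrix.GeneralLinearGroup κ F) : Matrix κ κ F)) h
      exact this
    ext u : 1
    have h3 : M g *ᵥ (e u) = e u := by rw [h1, Matrix.one_mulVec]
    rw [hM, LinearEquiv.symm_apply_apply] at h3
    simpa using e.injective h3
  · intro h
    apply Subtype.ext
    apply Units.ext
    show M g = 1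
    apply Matrix.mulVec_injective
    funext y
    rw [hM, h]
    simp

/-- The main criterion. -/
theorem main [Finite Γ] [Finite F] (Q₁ : U → F) (Q₂ : (κ → F) → F) (e : U ≃ₗ[F] (κ → F)) (he : ∀ u, Q₂ (e u) = Q₁ u)
    (ρ : Γ →* (U →ₗ[F] U)) (hQ : ∀ g u, Q₁ (ρ g u) = Q₁ u)
    (π : Γ →* P) (hπ : Function.Surjective π) (hπk : π.ker ≤ Subgroup.center Γ) (hk : ρ.ker ≤ π.ker)
    (hP : Subgroup.center P = ⊥)
    (hΩ : ∀ φ : Γ →* ↥(isometryGroup F Q₂), ∀ g, φ g ∈ Omega F Q₂)
    (hcard : Nat.card Γ = Nat.card ρ.ker * Nat.card (Omega F Q₂)) :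
    Nonempty (POmega F Q₂ ≃* P) := by
  obtain ⟨φ, hφ⟩ := exists_hom Q₁ Q₂ e he ρ hQ
  let φ' : Γ →* ↥(Omega F Q₂) := φ.codRestrict _ (hΩ φ)
  have hker : φ'.ker = ρ.ker := by
    rw [← hφ]
    ext g
    rw [MonoidHom.mem_ker, MonoidHom.mem_ker]
    constructor
    · intro h
      exact congrArg Subtype.val h
    · intro h
      exact Subtype.ext h
  have hsurj : Function.Surjective φ' := by
    rw [← MonoidHom.range_eq_top]
    haveI : Finite ↥(isometryGroup F Q₂) := inferInstance
    apply Subgroup.eq_top_of_card_eq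
    have h1 := Subgroup.card_mul_index φ'.ker
    rw [Subgroup.index_ker] at h1
    rw [hker] at h1
    rw [hcard] at h1
    have h2 : 0 < Nat.card ρ.ker := Nat.card_pos
    exact Nat.eq_of_mul_eq_mul_left h2 h1
  exact iso_of_surj φ' hsurj π hπ hπk (by rw [hker]; exact hk) hP

/-- The homs from a perfect group land in `Ω`. -/
theorem mem_omega_of_perfect {Q : (κ → F) → F} (hp : commutator Γ = ⊤) (φ : Γ →* ↥(isometryGroup F Q)) (g : Γ) :
    φ g ∈ Omega F Q := by
  have h1 : g ∈ commutator Γ := by rw [hp]; trivial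
  have h2 : Subgroup.map φ (commutator Γ) ≤ Omega F Q := by
    rw [commutator, Subgroup.map_commutator]
    exact Subgroup.commutator_mono le_top le_top
  exact h2 ⟨g, h1, rfl⟩

/-- Odd order elements lie in `Ω` when it has index a power of two. -/
theorem mem_omega_of_odd {Q : (κ → F) → F} (hi : (Omega F Q).index = 4) (x : ↥(isometryGroup F Q)) {n : ℕ} (hn : Odd n)
    (hx : x ^ n = 1) : x ∈ Omega F Q := by
  have h4 : x ^ 4 ∈ Omega F Q := by
    rw [← hi]
    exact Subgroup.pow_index_mem _ _
  have hc : Nat.Coprime 4 n := by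
    have : Nat.Coprime 2 n := by
      rw [Nat.coprime_two_left]
      exact hn
    exact Nat.Coprime.pow_left 2 this
  have hb := Nat.gcd_eq_gcd_ab 4 n
  rw [hc] at hb
  have h5 : x = (x ^ 4) ^ (Nat.gcdA 4 n) * (x ^ n) ^ (Nat.gcdB 4 n) := by
    rw [← zpow_natCast, ← zpow_natCast, ← _root_.zpow_mul, ← _root_.zpow_mul, ← _root_.zpow_add]
    rw [← hb, Nat.cast_one, zpow_one]
  rw [h5, hx, _root_.one_zpow, mul_one]
  exact zpow_mem h4 _

end rep

section sandwich

variable {Γ n F K : Type*} [Group Γ] [Fintype n] [DecidableEq n] [Field F] [Field K] [Algebra F K]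

/-- A "sandwich" representation on a stable submodule of matrices. -/
theorem exists_rep (S : Submodule F (Matrix n n K)) (a b : Γ → Matrix n n K) (ha1 : a 1 = 1)
    (ha : ∀ g h, a (g * h) = a g * a h) (hb1 : b 1 = 1) (hb : ∀ g h, b (g * h) = b h * b g)
    (hS : ∀ g, ∀ A ∈ S, a g * A * b g ∈ S) :
    ∃ ρ : Γ →* (S →ₗ[F] S), ∀ g A, ((ρ g A : S) : Matrix n n K) = a g * A * b g := by
  refine ⟨{ toFun := fun g =>
              { toFun := fun A => ⟨a g * A * b g, hS g A A.2⟩
                map_add' := fun A B => Subtype.ext (by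
                  show a g * ((A : Matrix n n K) + B) * b g = a g * A * b g + a g * B * b g
                  rw [mul_add, add_mul])
                map_smul' := fun c A => Subtype.ext (by
                  show a g * (c • (A : Matrix n n K)) * b g = c • (a g * A * b g)
                  rw [Matrix.mul_smul, Matrix.smul_mul]) }
            map_one' := ?_
            map_mul' := ?_ }, fun g A => rfl⟩
  · ext A : 1
    apply Subtype.ext
    show a 1 * (A : Matrix n n K) * b 1 = A
    rw [ha1, hb1, one_mul, mul_one]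
  · intro g h
    ext A : 1
    apply Subtype.ext
    show a (g * h) * (A : Matrix n n K) * b (g * h) = a g * (a h * A * b h) * b g
    rw [ha, hb]
    simp only [mul_assoc]

end sandwich

end Cfsg.Agent.Lib.OmegaIso
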