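import Cfsg.Agent.Lib.OmegaIso
import Cfsg.Agent.Lib.H1Rigid
import Cfsg.Agent.S0251

set_option autoImplicit false

namespace Cfsg.Agent.Lib.OmegaSL2

open Matrix Cfsg
open Cfsg.Agent.Lib.OmegaIso

section

variable {n : Type*} [Fintype n] [DecidableEq n] {F : Type*} [Field F]

local notation "Tv" => Matrix.SpecialLinearGroup.transvection

theorem Tv_pow {i j : n} (hij : i ≠ j) (c : F) (m : ℕ) : (Tv hij c) ^ m = Tv hij ((m : F) * c) := by
  induction m with
  | zero =>
    apply Subtype.ext
    simp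
  | succ m ih =>
    rw [pow_succ, ih]
    apply Subtype.ext
    simp only [Matrix.SpecialLinearGroup.coe_mul, Matrix.SpecialLinearGroup.transvection]
    show Matrix.transvection i j _ * Matrix.transvection i j c = Matrix.transvection i j _
    rw [Matrix.transvection_mul_transvection_same _ _ hij]
    congr 1
    push_cast
    ring

theorem Tv_pow_card [Fintype F] {i j : n} (hij : i ≠ j) (c : F) : (Tv hij c) ^ (Fintype.card F) = 1 := by
  rw [Tv_pow]
  apply Subtype.ext
  simp [Nat.cast_card_eq_zero]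

/-- Homs from `SL` in odd characteristic land in `Ω`. -/
theorem sl_mem_omega_odd [Fintype F] {κ : Type} [Fintype κ] [DecidableEq κ] {Q : (κ → F) → F} (hodd : Odd (Fintype.card F))
    (hi : (Omega F Q).index = 4) (φ : Matrix.SpecialLinearGroup n F →* ↥(isometryGroup F Q)) (g : Matrix.SpecialLinearGroup n F) :
    φ g ∈ Omega F Q := by
  refine Cfsg.Agent.Lib.SLGen.sl_induction (fun g => φ g ∈ Omega F Q) ?_ ?_ ?_ g
  · intro i j hij c
    apply mem_omega_of_odd hi _ hodd
    rw [← map_pow, Tv_pow_card, map_one]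
  · intro A B hA hB
    rw [map_mul]
    exact mul_mem hA hB
  · rw [map_one]
    exact one_mem _

end

section

variable {F : Type*} [Field F] [Fintype F]

theorem center_A4 : Subgroup.center (alternatingGroup (Fin 4)) = ⊥ := by
  rw [eq_bot_iff]
  intro x hx
  rw [Subgroup.mem_bot]
  have h : ∀ x : alternatingGroup (Fin 4), (∀ y : alternatingGroup (Fin 4), y * x = x * y) → x = 1 := by
    decide +kernel
  exact h x (Subgroup.mem_center_iff.1 hx)

/-- A nonabelian simple group has trivial centre. -/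
theorem center_of_simple {G : Type*} [Group G] [IsSimpleGroup G] (h : commutator G = ⊤) : Subgroup.center G = ⊥ := by
  rcases IsSimpleGroup.eq_bot_or_eq_top_of_normal (Subgroup.center G) inferInstance with h1 | h1
  · exact h1
  · exfalso
    have h2 : commutator G = ⊥ := by
      rw [commutator_eq_bot_iff_center_eq_top, h1]
    rw [h2] at h
    exact bot_ne_top h

theorem center_PSL2 (hF : 3 ≤ Fintype.card F) : Subgroup.center (Matrix.ProjectiveSpecialLinearGroup (Fin 2) F) = ⊥ := by
  rcases Nat.lt_or_ge (Fintype.card F) 4 with h | h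
  · obtain ⟨e⟩ := Cfsg.Agent.S0251.result (F := F) (by omega)
    rw [eq_bot_iff]
    intro x hx
    have h1 : e x ∈ Subgroup.center (alternatingGroup (Fin 4)) := by
      rw [Subgroup.mem_center_iff]
      intro y
      obtain ⟨z, rfl⟩ := e.surjective y
      rw [← map_mul, ← map_mul, (Subgroup.mem_center_iff.1 hx) z]
    rw [center_A4, Subgroup.mem_bot] at h1
    rw [Subgroup.mem_bot]
    exact e.injective (by rw [h1, map_one])
  · obtain ⟨a, ha, hsq⟩ := Cfsg.Agent.Lib.H1Rigid.exists_non_sq_one (F := F) h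
    haveI := Cfsg.Agent.Lib.H1Rigid.PSL2_isSimple ha hsq
    apply center_of_simple
    have : Group.IsPerfect (Matrix.SpecialLinearGroup (Fin 2) F) := ⟨Cfsg.Agent.Lib.H1Rigid.commutator_SL2_eq_top ha hsq⟩
    have : Group.IsPerfect (Matrix.ProjectiveSpecialLinearGroup (Fin 2) F) := inferInstance
    exact this.commutator_eq_top

end

end Cfsg.Agent.Lib.OmegaSL2

namespace Cfsg.Agent.Lib.OmegaSL2

section

variable {F : Type*} [Field F]

open Matrix

/-- Commuting with the elementary matrices makes an element of `SL₂` central. -/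
theorem mem_center_of_comm {g : Matrix.SpecialLinearGroup (Fin 2) F}
    (h1 : (g : Matrix (Fin 2) (Fin 2) F) * !![0, 1; 0, 0] = !![0, 1; 0, 0] * (g : Matrix (Fin 2) (Fin 2) F))
    (h2 : (g : Matrix (Fin 2) (Fin 2) F) * !![0, 0; 1, 0] = !![0, 0; 1, 0] * (g : Matrix (Fin 2) (Fin 2) F)) :
    g ∈ Subgroup.center (Matrix.SpecialLinearGroup (Fin 2) F) := by
  rw [Matrix.SpecialLinearGroup.mem_center_iff]
  have h10 := congrFun (congrFun h1 0) 0
  have h11 := congrFun (congrFun h1 0) 1
  have h20 := congrFun (congrFun h2 0) 0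
  simp [Matrix.mul_apply, Fin.sum_univ_two] at h10 h11 h20
  have hdet := g.det_coe
  rw [Matrix.det_fin_two] at hdet
  refine ⟨(g : Matrix (Fin 2) (Fin 2) F) 0 0, ?_, ?_⟩
  · simp only [Fintype.card_fin]
    grind
  · ext i j
    fin_cases i <;> fin_cases j <;> simp [Matrix.scalar_apply, h10, h20, h11]

/-- Central elements commute with all matrices. -/
theorem comm_of_center {n : Type*} [Fintype n] [DecidableEq n] {g : Matrix.SpecialLinearGroup n F}
    (hg : g ∈ Subgroup.center (Matrix.SpecialLinearGroup n F)) (A : Matrix n n F) :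
    (g : Matrix n n F) * A = A * (g : Matrix n n F) := by
  rw [Matrix.SpecialLinearGroup.mem_center_iff] at hg
  obtain ⟨r, -, hr⟩ := hg
  rw [← hr]
  exact (Matrix.scalar_commute r (fun r' => mul_comm r r') A).eq

end

end Cfsg.Agent.Lib.OmegaSL2

namespace Cfsg.Agent.Lib.OmegaSL2

theorem card_two {G : Type*} [Group G] (N : Subgroup G) (s : G) (h1 : ∀ g, g ∈ N ↔ g = 1 ∨ g = s) (hs : s ≠ 1) : Nat.card N = 2 := by
  rw [Nat.card_eq_two_iff]
  refine ⟨⟨1, one_mem _⟩, ⟨s, (h1 s).2 (Or.inr rfl)⟩, ?_, ?_⟩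
  · intro h
    exact hs (congrArg Subtype.val h).symm
  · ext ⟨g, hg⟩
    simp only [Set.mem_insert_iff, Set.mem_singleton_iff, Set.mem_univ, iff_true, Subtype.mk.injEq]
    exact (h1 g).1 hg

theorem card_one {G : Type*} [Group G] (N : Subgroup G) (h1 : ∀ g, g ∈ N ↔ g = 1) : Nat.card N = 1 := by
  have : N = ⊥ := by
    ext g
    rw [h1, Subgroup.mem_bot]
  rw [this]
  exact Subgroup.card_bot

end Cfsg.Agent.Lib.OmegaSL2
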