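import Cfsg.Agent.Lib.FGSBasic

set_option autoImplicit false

/-! Counting solutions of `x ^ d = 1` through normal Hall subgroups; same order type. -/

namespace Cfsg.Agent.Lib.OrderType

universe u

variable {X : Type*} [Group X] [Finite X]

/-- Number of solutions of `y ^ d = 1` in a quotient by a normal Hall subgroup. -/
theorem card_quot_roots (N : Subgroup X) [N.Normal] (hc : (Nat.card N).Coprime (Nat.card (X ⧸ N))) (d : ℕ) :
    Nat.card {y : X ⧸ N // y ^ d = 1} * Nat.card N =
      Nat.card {x : X // x ^ (Nat.card N * (d.gcd (Nat.card (X ⧸ N)))) = 1} := by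
  classical
  set m := Nat.card N with hm
  set q := Nat.card (X ⧸ N) with hq
  set e := d.gcd q with he
  have hroot : ∀ y : X ⧸ N, y ^ d = 1 ↔ y ^ e = 1 := by
    intro y
    have hy : y ^ q = 1 := by rw [hq]; exact pow_card_eq_one'
    constructor
    · intro h
      rw [he, ← orderOf_dvd_iff_pow_eq_one]
      exact Nat.dvd_gcd (orderOf_dvd_of_pow_eq_one h) (orderOf_dvd_of_pow_eq_one hy)
    · intro h
      have : e ∣ d := Nat.gcd_dvd_left d q
      obtain ⟨t, ht⟩ := this
      rw [ht, pow_mul, h, one_pow]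
  have hiff : ∀ x : X, x ^ (m * e) = 1 ↔ (x : X ⧸ N) ^ d = 1 := by
    intro x
    rw [hroot]
    constructor
    · intro h
      have h1 : ((x : X ⧸ N) ^ e) ^ m = 1 := by
        rw [← pow_mul, mul_comm, ← QuotientGroup.mk_pow, h, QuotientGroup.mk_one]
      have h2 : ((x : X ⧸ N) ^ e) ^ q = 1 := by rw [hq]; exact pow_card_eq_one'
      have h3 := orderOf_dvd_of_pow_eq_one h1
      have h4 := orderOf_dvd_of_pow_eq_one h2
      have h5 : orderOf ((x : X ⧸ N) ^ e) = 1 := Nat.Coprime.eq_one_of_dvd (Nat.Coprime.coprime_dvd_left h3 hc) h4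
      exact orderOf_eq_one_iff.1 h5
    · intro h
      have h1 : x ^ e ∈ N := by
        rw [← QuotientGroup.eq_one_iff, QuotientGroup.mk_pow]
        exact h
      have h2 : (⟨x ^ e, h1⟩ : N) ^ m = 1 := by rw [hm]; exact pow_card_eq_one'
      have h3 : (x ^ e) ^ m = 1 := by
        have := congrArg Subtype.val h2
        simpa using this
      rw [mul_comm, pow_mul]
      exact h3
  have hequiv : {x : X // x ^ (m * e) = 1} ≃ N × {y : X ⧸ N // y ^ d = 1} := by
    have h1 : {x : X // x ^ (m * e) = 1} ≃ ((QuotientGroup.mk : X → X ⧸ N) ⁻¹' {y | y ^ d = 1}) :=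
      Equiv.subtypeEquivRight (fun x => by simpa using hiff x)
    exact h1.trans (QuotientGroup.preimageMkEquivSubgroupProdSet N {y | y ^ d = 1})
  rw [Nat.card_congr hequiv, Nat.card_prod, mul_comm]

/-- If the `p`-elements are as few as possible then the Sylow subgroup is normal. -/
theorem sylow_normal_of_count {p : ℕ} [Fact p.Prime] (P : Sylow p X)
    (hc : Nat.card {x : X // x ^ Nat.card P = 1} = Nat.card P) : (P : Subgroup X).Normal := by
  classical
  have hsub : ((P : Subgroup X) : Set X) ⊆ {x : X | x ^ Nat.card P = 1} := by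
    intro x hx
    have : (⟨x, hx⟩ : P) ^ Nat.card P = 1 := pow_card_eq_one'
    have := congrArg Subtype.val this
    simpa using this
  have heq : ((P : Subgroup X) : Set X) = {x : X | x ^ Nat.card P = 1} := by
    apply Set.eq_of_subset_of_ncard_le hsub _ (Set.toFinite _)
    rw [← Nat.card_coe_set_eq, ← Nat.card_coe_set_eq]
    exact hc.le
  constructor
  intro x hx g
  have h1 : x ∈ ((P : Subgroup X) : Set X) := hx
  rw [heq] at h1
  show g * x * g⁻¹ ∈ ((P : Subgroup X) : Set X)
  rw [heq]
  show (g * x * g⁻¹) ^ Nat.card P = 1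
  rw [conj_pow, show x ^ Nat.card P = 1 from h1]
  simp

end Cfsg.Agent.Lib.OrderType
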