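import Cfsg.Agent.Lib.OrthSimple
import Cfsg.Agent.Lib.OrthNeg
import Cfsg.Agent.Lib.OrthLocal

set_option autoImplicit false

namespace Cfsg.Agent.Lib.OrthCenter

open Matrix Cfsg.Geo Cfsg.Agent.Lib.FormVec Cfsg.Agent.Lib.OrthE Cfsg.Agent.Lib.OrthGen
  Cfsg.Agent.Lib.OrthOmega Cfsg.Agent.Lib.OrthSimple Cfsg.Agent.Lib.OrthLocal
open scoped MatrixGroups commutatorElement

variable {ι : Type} [Fintype ι] [DecidableEq ι] {F : Type*} [Field F] [Fintype F]
variable {Q : (ι → F) → F}

local notation "B" => QuadraticMap.polar Q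

/-- An isometry commuting with all Siegel transformations has eigenvectors at all singular vectors. -/
theorem eigen_of_comm (hQ : IsNondegenerateQuadraticForm Q) (hn : 5 ≤ Fintype.card ι) {z : GL ι F}
    (hz : z ∈ isometryGroup F Q)
    (hcomm : ∀ a d : ι → F, Q a = 0 → B a d = 0 → z * E Q a d = E Q a d * z) (b : ι → F) (hb : Q b = 0) :
    ∃ κ : F, ((z⁻¹ : GL ι F) : Matrix ι ι F) *ᵥ b = κ • b := by
  by_contra hcon
  push Not at hcon
  have hb0 : b ≠ 0 := by
    rintro rfl
    apply hcon 0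
    simp
  set w := ((z⁻¹ : GL ι F) : Matrix ι ι F) *ᵥ b with hw
  have hwn : w ∉ Submodule.span F {b} := by
    intro h
    obtain ⟨κ, hκ⟩ := Submodule.mem_span_singleton.mp h
    exact hcon κ hκ.symm
  -- a singular vector `d`
  have h1 := finrank_perp hQ (Submodule.span F {b})
  have h3 := finrank_span_one_le (F := F) b
  have h4 := finrank_span_two_le (F := F) b w
  have hYH : ¬ perp hQ (Submodule.span F {b}) ≤ Submodule.span F {b, w} := by
    intro h
    have := Submodule.finrank_mono h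
    omega
  have hrad : Module.finrank F (perp hQ (Submodule.span F {b}) ⊓ perp hQ (perp hQ (Submodule.span F {b})) : Submodule F (ι → F)) + 3 ≤
      Module.finrank F (perp hQ (Submodule.span F {b})) := by
    have h5 : (perp hQ (Submodule.span F {b}) ⊓ perp hQ (perp hQ (Submodule.span F {b})) : Submodule F (ι → F)) ≤ Submodule.span F {b} := by
      intro x hx
      have := hx.2
      rwa [perp_perp] at this
    have := Submodule.finrank_mono h5
    omega
  obtain ⟨d, hdY, hQd, hdn⟩ := exists_sing_outside' hQ _ _ hYH hrad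
  have hbd : B b d = 0 := (mem_perp hQ).1 hdY b (Submodule.mem_span_singleton_self b)
  have hdb : d ∉ Submodule.span F {b} := by
    intro h
    apply hdn
    exact Submodule.span_mono (by simp) h
  have hwbd : w ∉ Submodule.span F {b, d} := by
    intro h
    obtain ⟨α, β, hαβ⟩ := Submodule.mem_span_pair.mp h
    by_cases hβ : β = 0
    · subst hβ
      apply hwn
      rw [Submodule.mem_span_singleton]
      exact ⟨α, by simpa using hαβ⟩
    · apply hdn
      rw [Submodule.mem_span_pair]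
      refine ⟨-(β⁻¹ * α), β⁻¹, ?_⟩
      rw [← hαβ, smul_add, smul_smul, smul_smul, inv_mul_cancel₀ hβ, one_smul, neg_smul]
      abel
  have hnot : w ∉ perp hQ (perp hQ (Submodule.span F {b, d})) := by
    rw [perp_perp]
    exact hwbd
  rw [mem_perp] at hnot
  push Not at hnot
  obtain ⟨x, hx, hxw⟩ := hnot
  have hxb : B x b = 0 := by
    rw [B_comm hQ]
    exact hx b (Submodule.subset_span (by simp))
  have hxd : B x d = 0 := by
    rw [B_comm hQ]
    exact hx d (Submodule.subset_span (by simp))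
  have hEx : ((E Q b d : GL ι F) : Matrix ι ι F) *ᵥ x = x := by
    rw [E_mulVec hQ hb hbd, hxb, hxd]
    simp
  have h5 : ((E Q b d : GL ι F) : Matrix ι ι F) *ᵥ ((z : Matrix ι ι F) *ᵥ x) = (z : Matrix ι ι F) *ᵥ x := by
    rw [← mul_mulVec, ← hcomm b d hb hbd, mul_mulVec, hEx]
  rw [E_mulVec hQ hb hbd, hQd] at h5
  have h6 : B ((z : Matrix ι ι F) *ᵥ x) b • d = B ((z : Matrix ι ι F) *ᵥ x) d • b := by
    simp only [zero_mul, zero_smul, sub_zero] at h5
    have : (z : Matrix ι ι F) *ᵥ x + (B ((z : Matrix ι ι F) *ᵥ x) b • d - B ((z : Matrix ι ι F) *ᵥ x) d • b) = (z : Matrix ι ι F) *ᵥ x + 0 := by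
      rw [add_zero, ← add_sub_assoc]
      exact h5
    exact sub_eq_zero.mp (add_left_cancel this)
  have h7 : B ((z : Matrix ι ι F) *ᵥ x) b = 0 := by
    by_contra hne
    apply hdb
    rw [Submodule.mem_span_singleton]
    refine ⟨(B ((z : Matrix ι ι F) *ᵥ x) b)⁻¹ * B ((z : Matrix ι ι F) *ᵥ x) d, ?_⟩
    rw [mul_smul, ← h6, smul_smul, inv_mul_cancel₀ hne, one_smul]
  apply hxw
  have h8 : B ((z : Matrix ι ι F) *ᵥ x) b = B x w := by
    rw [hw]
    have := O_B hz x (((z⁻¹ : GL ι F) : Matrix ι ι F) *ᵥ b)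
    rw [mulVec_inv_mulVec] at this
    exact this
  rw [← h8]
  exact h7

/-- Central elements of `Ω` are scalars. -/
theorem center_scalar (hQ : IsNondegenerateQuadraticForm Q) (hn : 5 ≤ Fintype.card ι)
    (x : ↥(Cfsg.Omega F Q)) (hx : x ∈ Subgroup.center ↥(Cfsg.Omega F Q)) :
    ∃ l : F, ∀ v, (((x : ↥(isometryGroup F Q)) : GL ι F) : Matrix ι ι F) *ᵥ v = l • v := by
  have hcen : ∀ y ∈ Subgroup.center ↥(Cfsg.Omega F Q), ∀ a d : ι → F, Q a = 0 → B a d = 0 →
      incl Q y * E Q a d = E Q a d * incl Q y := by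
    intro y hy a d ha had
    obtain ⟨t, ht⟩ := exists_incl (E_mem_comm hQ hn ha had)
    rw [← ht, ← map_mul, ← map_mul]
    congr 1
    exact ((Subgroup.mem_center_iff.mp hy) t).symm
  have h1 := eigen_of_comm hQ hn (incl_O x⁻¹) (hcen _ (Subgroup.inv_mem _ hx))
  apply scalar_of_eigen hQ hn
  intro b hb
  obtain ⟨κ, hκ⟩ := h1 b hb
  refine ⟨κ, ?_⟩
  have e : ((incl Q x⁻¹)⁻¹ : GL ι F) = ((x : ↥(isometryGroup F Q)) : GL ι F) := by
    rw [map_inv, inv_inv]
    rfl
  rw [e] at hκ
  exact hκ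

/-- Central elements of `Ω` are `±1`. -/
theorem center_elems (hQ : IsNondegenerateQuadraticForm Q) (hn : 5 ≤ Fintype.card ι)
    (x : ↥(Cfsg.Omega F Q)) (hx : x ∈ Subgroup.center ↥(Cfsg.Omega F Q)) :
    (((x : ↥(isometryGroup F Q)) : GL ι F) : Matrix ι ι F) = 1 ∨
    (((x : ↥(isometryGroup F Q)) : GL ι F) : Matrix ι ι F) = -1 := by
  obtain ⟨l, hl⟩ := center_scalar hQ hn x hx
  obtain ⟨v, hv⟩ := Cfsg.Agent.Lib.OrthSpin2.exists_nonsingular hQ (by omega)
  have h1 := (mem_O_iff _).1 x.1.2 v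
  rw [hl, Q_smul hQ] at h1
  have h3 : l ^ 2 = 1 := by
    have : (l ^ 2 - 1) * Q v = 0 := by linear_combination h1
    have h4 := (mul_eq_zero.mp this).resolve_right hv
    linear_combination h4
  have h4 : (l - 1) * (l + 1) = 0 := by linear_combination h3
  rcases mul_eq_zero.mp h4 with h5 | h5
  · left
    have h6 : l = 1 := sub_eq_zero.mp h5
    apply Matrix.mulVec_injective
    funext w
    rw [hl, h6, one_smul, Matrix.one_mulVec]
  · right
    have h6 : l = -1 := eq_neg_of_add_eq_zero_left h5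
    apply Matrix.mulVec_injective
    funext w
    rw [hl, h6, Matrix.neg_mulVec, Matrix.one_mulVec]
    simp

/-- If `-1 ∉ Ω`, or `-1 = 1`, then the centre of `Ω` is trivial. -/
theorem card_center_one (hQ : IsNondegenerateQuadraticForm Q) (hn : 5 ≤ Fintype.card ι)
    (h : ∀ g : ↥(isometryGroup F Q), g ∈ Cfsg.Omega F Q → ((g : GL ι F) : Matrix ι ι F) = -1 →
      ((g : GL ι F) : Matrix ι ι F) = 1) :
    Nat.card (Subgroup.center ↥(Cfsg.Omega F Q)) = 1 := by
  rw [Nat.card_eq_one_iff_unique]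
  refine ⟨⟨?_⟩, ⟨1⟩⟩
  have hall : ∀ x : Subgroup.center ↥(Cfsg.Omega F Q), x = 1 := by
    rintro ⟨x, hx⟩
    apply Subtype.ext
    apply Subtype.ext
    apply Subtype.ext
    apply Units.ext
    rcases center_elems hQ hn x hx with h1 | h1
    · exact h1
    · exact h x.1 x.2 h1
  intro a b
  rw [hall a, hall b]

/-- If `-1 ∈ Ω` and `-1 ≠ 1`, then the centre of `Ω` has order two. -/
theorem card_center_two (hQ : IsNondegenerateQuadraticForm Q) (hn : 5 ≤ Fintype.card ι) (h2 : (2 : F) ≠ 0)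
    (h : ∃ g : ↥(isometryGroup F Q), g ∈ Cfsg.Omega F Q ∧ ((g : GL ι F) : Matrix ι ι F) = -1) :
    Nat.card (Subgroup.center ↥(Cfsg.Omega F Q)) = 2 := by
  obtain ⟨g, hg, hgm⟩ := h
  have hcen : (⟨g, hg⟩ : ↥(Cfsg.Omega F Q)) ∈ Subgroup.center ↥(Cfsg.Omega F Q) := by
    rw [Subgroup.mem_center_iff]
    intro y
    apply Subtype.ext
    apply Subtype.ext
    apply Units.ext
    show ((y : ↥(isometryGroup F Q)) : GL ι F).val * ((g : GL ι F) : Matrix ι ι F) =
      ((g : GL ι F) : Matrix ι ι F) * ((y : ↥(isometryGroup F Q)) : GL ι F).val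
    rw [hgm]
    simp
  have hne1 : (-1 : Matrix ι ι F) ≠ 1 := by
    intro h1
    obtain ⟨v, hv⟩ := Cfsg.Agent.Lib.OrthSpin2.exists_nonsingular hQ (by omega)
    have h3 : (-1 : Matrix ι ι F) *ᵥ v = (1 : Matrix ι ι F) *ᵥ v := by rw [h1]
    rw [Matrix.neg_mulVec, Matrix.one_mulVec] at h3
    have hv0 : v ≠ 0 := by
      rintro rfl
      exact hv (Q_zero hQ)
    have h4 : (2 : F) • v = 0 := by
      rw [two_smul]
      nth_rewrite 1 [← h3]
      simp
    exact hv0 ((smul_eq_zero.mp h4).resolve_left h2)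
  rw [Nat.card_eq_two_iff]
  refine ⟨1, ⟨⟨g, hg⟩, hcen⟩, ?_, ?_⟩
  · intro h1
    have h3 : ((1 : Subgroup.center ↥(Cfsg.Omega F Q)) : ↥(Cfsg.Omega F Q)) = ⟨g, hg⟩ := congrArg Subtype.val h1
    have h4 : (1 : ↥(isometryGroup F Q)) = g := congrArg Subtype.val h3
    have h5 : (1 : GL ι F) = g := congrArg Subtype.val h4
    have h6 : (1 : Matrix ι ι F) = ((g : GL ι F) : Matrix ι ι F) := congrArg Units.val h5
    rw [hgm] at h6
    exact hne1 h6.symm
  · rw [Set.eq_univ_iff_forall]
    rintro ⟨x, hx⟩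
    rcases center_elems hQ hn x hx with h1 | h1
    · left
      apply Subtype.ext
      apply Subtype.ext
      apply Subtype.ext
      apply Units.ext
      exact h1
    · right
      apply Subtype.ext
      apply Subtype.ext
      apply Subtype.ext
      apply Units.ext
      exact h1.trans hgm.symm

/-- The order of `PΩ`. -/
theorem card_POmega_eq : Nat.card (Cfsg.POmega F Q) * Nat.card (Subgroup.center ↥(Cfsg.Omega F Q)) =
    Nat.card (Cfsg.Omega F Q) :=
  (Subgroup.card_eq_card_quotient_mul_card_subgroup _).symm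

theorem index_Omega : (Cfsg.Omega F Q).index * Nat.card (Cfsg.Omega F Q) = Nat.card (isometryGroup F Q) :=
  Subgroup.index_mul_card _

/-- Elements of `Ω` have determinant one. -/
theorem det_Omega (g : ↥(isometryGroup F Q)) (hg : g ∈ Cfsg.Omega F Q) :
    ((g : GL ι F) : Matrix ι ι F).det = 1 := by
  have h := Abelianization.commutator_subset_ker (Matrix.GeneralLinearGroup.det.comp (isometryGroup F Q).subtype) hg
  have h1 : Matrix.GeneralLinearGroup.det (g : GL ι F) = 1 := h
  have h3 := congrArg Units.val h1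
  simpa using h3

end Cfsg.Agent.Lib.OrthCenter
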