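import Cfsg.Agent.Lib.OrthSwap
import Cfsg.Agent.Lib.OrthStd

set_option autoImplicit false

namespace Cfsg.Agent.Lib.OrthDouble

open Matrix Cfsg.Geo Cfsg.Agent.Lib.FormVec Cfsg.Agent.Lib.OrthE Cfsg.Agent.Lib.OrthGen
  Cfsg.Agent.Lib.OrthOmega Cfsg.Agent.Lib.OrthMax Cfsg.Agent.Lib.OrthLocal Cfsg.Agent.Lib.OrthNondeg
  Cfsg.Agent.Lib.OrthSub Cfsg.Agent.Lib.OrthSub2 Cfsg.Agent.Lib.OrthFam Cfsg.Agent.Lib.OrthPair
  Cfsg.Agent.Lib.OrthSwap
open scoped MatrixGroups

variable {ι : Type} [Fintype ι] [DecidableEq ι] {F : Type*} [Field F]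
variable {Q : (ι → F) → F}

local notation "B" => QuadraticMap.polar Q

/-- Complements of non-degenerate subspaces inside non-degenerate subspaces are non-degenerate. -/
theorem nondeg_compl (hQ : IsNondegenerateQuadraticForm Q) {A Y : Submodule F (ι → F)}
    (hA : A ⊓ perp hQ A = ⊥) (hYA : Y ≤ A) (hY : Y ⊓ perp hQ Y = ⊥) :
    (perp hQ Y ⊓ A) ⊓ perp hQ (perp hQ Y ⊓ A) = ⊥ := by
  rw [eq_bot_iff]
  rintro x ⟨⟨hxY, hxA⟩, hxp⟩
  have hx : x ∈ A ⊓ perp hQ A := by
    refine ⟨hxA, (mem_perp' hQ).2 fun v hv => ?_⟩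
    obtain ⟨y, hy, c, hc, rfl⟩ := exists_decomp hQ hY v
    have hcA : c ∈ A := by
      have : c = (y + c) - y := by abel
      rw [this]
      exact A.sub_mem hv (hYA hy)
    rw [B_add_right hQ, (mem_perp' hQ).1 hxY y hy, (mem_perp' hQ).1 hxp c ⟨hc, hcA⟩, add_zero]
  rwa [hA] at hx

theorem line_nondeg (hQ : IsNondegenerateQuadraticForm Q) {a : ι → F} (h : B a a ≠ 0) :
    Submodule.span F {a} ⊓ perp hQ (Submodule.span F {a}) = ⊥ := by
  rw [eq_bot_iff]
  rintro x ⟨hx, hxp⟩
  obtain ⟨c, rfl⟩ := Submodule.mem_span_singleton.mp hx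
  have := (mem_perp hQ).1 hxp a (Submodule.mem_span_singleton_self a)
  rw [B_smul_right hQ] at this
  have hc : c = 0 := (mul_eq_zero.mp this).resolve_right h
  rw [hc, zero_smul]
  exact Submodule.zero_mem _

variable [Fintype F]

theorem two_sq (hodd : Odd (Fintype.card F)) (c : F) : ∃ x z : F, x * x + z * z = c := by
  have hf : (Polynomial.X ^ 2 + Polynomial.C (-c) : Polynomial F).degree = 2 := by
    compute_degree!
  have hg : (Polynomial.X ^ 2 : Polynomial F).degree = 2 := by
    simp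
  obtain ⟨a, b, hab⟩ := FiniteField.exists_root_sum_quadratic hf hg (Nat.odd_iff.mp hodd)
  refine ⟨a, b, ?_⟩
  simp at hab
  linear_combination hab

/-- A sum of two isometric non-degenerate subspaces of even dimension has a totally singular
subspace of half its dimension. -/
theorem double_plus (hQ : IsNondegenerateQuadraticForm Q) (hodd : Odd (Fintype.card F))
    (L : (ι → F) →ₗ[F] (ι → F)) (r : ℕ) :
    ∀ W : Submodule F (ι → F), Module.finrank F W = 2 * r → W ⊓ perp hQ W = ⊥ →
      (∀ x ∈ W, Q (L x) = Q x) → (∀ x ∈ W, ∀ y ∈ W, B x (L y) = 0) →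
      ∃ U : Submodule F (ι → F), U ≤ W ⊔ W.map L ∧ IsTotallySingularQuad Q U ∧ Module.finrank F U = 2 * r := by
  induction r with
  | zero =>
    intro W _ _ _ _
    refine ⟨⊥, bot_le, ?_, by simp⟩
    intro x hx
    rw [(Submodule.mem_bot F).1 hx]
    exact Q_zero hQ
  | succ r ih =>
    intro W hWd hWn hL hLo
    have h2 : (2 : F) ≠ 0 := Cfsg.Agent.Lib.OrthStd.two_ne_zero_of_odd hodd
    obtain ⟨a, ha, hQa⟩ := exists_nonsing_rel hQ hWn (le_refl W) (by omega)
    have hBa : B a a ≠ 0 := by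
      rw [B_self hQ]
      exact mul_ne_zero h2 hQa
    have hspa : Submodule.span F {a} ≤ W := by
      rw [Submodule.span_singleton_le_iff_mem]
      exact ha
    have hna := line_nondeg hQ hBa
    have hW₁n := nondeg_compl hQ hWn hspa hna
    have hW₁d := finrank_perp_inf hQ hWn hspa
    have ha0 : a ≠ 0 := by
      rintro rfl
      exact hQa (Q_zero hQ)
    rw [finrank_span_singleton ha0] at hW₁d
    obtain ⟨b, hb, hQb⟩ := exists_nonsing_rel hQ hW₁n (le_refl _) (by omega)
    have hBb : B b b ≠ 0 := by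
      rw [B_self hQ]
      exact mul_ne_zero h2 hQb
    have hbW : b ∈ W := hb.2
    have hab : B a b = 0 := (mem_perp hQ).1 hb.1 a (Submodule.mem_span_singleton_self a)
    have hspb : Submodule.span F {b} ≤ perp hQ (Submodule.span F {a}) ⊓ W := by
      rw [Submodule.span_singleton_le_iff_mem]
      exact hb
    have hnb := line_nondeg hQ hBb
    have hW₂n := nondeg_compl hQ hW₁n hspb hnb
    have hW₂d := finrank_perp_inf hQ hW₁n hspb
    have hb0 : b ≠ 0 := by
      rintro rfl
      exact hQb (Q_zero hQ)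
    rw [finrank_span_singleton hb0] at hW₂d
    set W₂ : Submodule F (ι → F) := perp hQ (Submodule.span F {b}) ⊓ (perp hQ (Submodule.span F {a}) ⊓ W) with hW₂def
    have hW₂W : W₂ ≤ W := fun x hx => hx.2.2
    obtain ⟨U₂, hU₂le, hU₂ts, hU₂d⟩ := ih W₂ (by omega) hW₂n (fun x hx => hL x (hW₂W hx))
      (fun x hx y hy => hLo x (hW₂W hx) y (hW₂W hy))
    -- the polar form is preserved by `L`
    have hLB : ∀ x ∈ W, ∀ y ∈ W, B (L x) (L y) = B x y := by
      intro x hx y hy
      rw [QuadraticMap.polar, QuadraticMap.polar, ← map_add, hL _ (W.add_mem hx hy), hL _ hx, hL _ hy]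
    obtain ⟨x, z, hxz⟩ := two_sq hodd (-(Q b) / Q a)
    have hxz' : (x * x + z * z) * Q a + Q b = 0 := by
      rw [hxz]
      field_simp
      ring
    have hQa' : Q (L a) = Q a := hL a ha
    have hQb' : Q (L b) = Q b := hL b hbW
    have haa' : B a (L a) = 0 := hLo a ha a ha
    have hab' : B a (L b) = 0 := hLo a ha b hbW
    have hba' : B b (L a) = 0 := hLo b hbW a ha
    have hbb' : B b (L b) = 0 := hLo b hbW b hbW
    have ha'b' : B (L a) (L b) = 0 := by rw [hLB a ha b hbW, hab]
    have ha'b : B (L a) b = 0 := by rw [B_comm hQ, hba']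
    have hb'a : B (L b) a = 0 := by rw [B_comm hQ, hab']
    have ha'a : B (L a) a = 0 := by rw [B_comm hQ, haa']
    have hb'b : B (L b) b = 0 := by rw [B_comm hQ, hbb']
    have hb'a' : B (L b) (L a) = 0 := by rw [B_comm hQ, ha'b']
    have hba : B b a = 0 := by rw [B_comm hQ, hab]
    have hBa' : B (L a) (L a) = 2 * Q a := by rw [B_self hQ, hQa']
    have hBb' : B (L b) (L b) = 2 * Q b := by rw [B_self hQ, hQb']
    have hBa2 : B a a = 2 * Q a := B_self hQ a
    have hBb2 : B b b = 2 * Q b := B_self hQ b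
    let u₁ : ι → F := x • a + z • L a + b
    let u₂ : ι → F := (-z) • a + x • L a + L b
    have hQu₁ : Q u₁ = 0 := by
      simp only [u₁]
      simp only [Q_add hQ, Q_smul hQ, B_add_left hQ, B_smul_left hQ, B_smul_right hQ, hQa', haa', hab, ha'b]
      linear_combination hxz'
    have hQu₂ : Q u₂ = 0 := by
      simp only [u₂]
      simp only [Q_add hQ, Q_smul hQ, B_add_left hQ, B_smul_left hQ, B_smul_right hQ, hQa', hQb', haa', hab', ha'b']
      linear_combination hxz'
    have hu₁u₂ : B u₁ u₂ = 0 := by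
      simp only [u₁, u₂]
      simp only [B_add_left hQ, B_add_right hQ, B_smul_left hQ, B_smul_right hQ, hBa', hBa2, haa', hab', hba, ha'a, ha'b', hba', hbb']
      ring
    have hu₁b : B u₁ b = 2 * Q b := by
      simp only [u₁]
      simp only [B_add_left hQ, B_smul_left hQ, hab, ha'b, hBb2]
      ring
    have hu₁b' : B u₁ (L b) = 0 := by
      simp only [u₁]
      simp only [B_add_left hQ, B_smul_left hQ, hab', ha'b', hbb']
      ring
    have hu₂b' : B u₂ (L b) = 2 * Q b := by
      simp only [u₂]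
      simp only [B_add_left hQ, B_smul_left hQ, hab', ha'b', hBb']
      ring
    -- orthogonality to the smaller piece
    have hortho : ∀ y ∈ W₂ ⊔ W₂.map L, B y a = 0 ∧ B y b = 0 ∧ B y (L a) = 0 ∧ B y (L b) = 0 := by
      intro y hy
      obtain ⟨w, hw, v, hv, rfl⟩ := Submodule.mem_sup.mp hy
      obtain ⟨w', hw', rfl⟩ := hv
      have hwa : B w a = 0 := by
        rw [B_comm hQ]
        exact (mem_perp hQ).1 hw.2.1 a (Submodule.mem_span_singleton_self a)
      have hwb : B w b = 0 := by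
        rw [B_comm hQ]
        exact (mem_perp hQ).1 hw.1 b (Submodule.mem_span_singleton_self b)
      have hw'a : B w' a = 0 := by
        rw [B_comm hQ]
        exact (mem_perp hQ).1 hw'.2.1 a (Submodule.mem_span_singleton_self a)
      have hw'b : B w' b = 0 := by
        rw [B_comm hQ]
        exact (mem_perp hQ).1 hw'.1 b (Submodule.mem_span_singleton_self b)
      refine ⟨?_, ?_, ?_, ?_⟩
      · rw [B_add_left hQ, hwa, B_comm hQ (L w') a, hLo a ha w' (hW₂W hw'), add_zero]
      · rw [B_add_left hQ, hwb, B_comm hQ (L w') b, hLo b hbW w' (hW₂W hw'), add_zero]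
      · rw [B_add_left hQ, hLo w (hW₂W hw) a ha, hLB w' (hW₂W hw') a ha, hw'a, add_zero]
      · rw [B_add_left hQ, hLo w (hW₂W hw) b hbW, hLB w' (hW₂W hw') b hbW, hw'b, add_zero]
    have hu₁perp : u₁ ∈ perp hQ U₂ := by
      rw [mem_perp]
      intro y hy
      obtain ⟨h1, h2', h3, -⟩ := hortho y (hU₂le hy)
      simp only [u₁]
      rw [B_add_right hQ, B_add_right hQ, B_smul_right hQ, B_smul_right hQ, h1, h2', h3]
      ring
    have hu₂perp0 : ∀ y ∈ U₂, B y u₂ = 0 := by
      intro y hy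
      obtain ⟨h1, -, h3, h4⟩ := hortho y (hU₂le hy)
      simp only [u₂]
      rw [B_add_right hQ, B_add_right hQ, B_smul_right hQ, B_smul_right hQ, h1, h3, h4]
      ring
    have hU₁ts := ts_sup hQ hU₂ts hQu₁ hu₁perp
    have hu₂perp : u₂ ∈ perp hQ (U₂ ⊔ Submodule.span F {u₁}) := by
      rw [mem_perp]
      intro v hv
      obtain ⟨y, hy, w, hw, rfl⟩ := Submodule.mem_sup.mp hv
      obtain ⟨s, rfl⟩ := Submodule.mem_span_singleton.mp hw
      rw [B_add_left hQ, B_smul_left hQ, hu₂perp0 y hy, hu₁u₂, mul_zero, add_zero]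
    have hUts := ts_sup hQ hU₁ts hQu₂ hu₂perp
    have hu₁n : u₁ ∉ U₂ := by
      intro h
      have h3 := (hortho u₁ (hU₂le h)).2.1
      rw [hu₁b] at h3
      exact mul_ne_zero h2 hQb h3
    have hu₂n : u₂ ∉ U₂ ⊔ Submodule.span F {u₁} := by
      intro h
      obtain ⟨y, hy, w, hw, hyw⟩ := Submodule.mem_sup.mp h
      obtain ⟨s, rfl⟩ := Submodule.mem_span_singleton.mp hw
      have h3 : B u₂ (L b) = 0 := by
        rw [← hyw, B_add_left hQ, B_smul_left hQ, (hortho y (hU₂le hy)).2.2.2, hu₁b', mul_zero, add_zero]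
      rw [hu₂b'] at h3
      exact mul_ne_zero h2 hQb h3
    refine ⟨(U₂ ⊔ Submodule.span F {u₁}) ⊔ Submodule.span F {u₂}, ?_, hUts, ?_⟩
    · have hleL : W₂ ⊔ W₂.map L ≤ W ⊔ W.map L := sup_le_sup hW₂W (Submodule.map_mono hW₂W)
      have haS : a ∈ W ⊔ W.map L := Submodule.mem_sup_left ha
      have hbS : b ∈ W ⊔ W.map L := Submodule.mem_sup_left hbW
      have ha'S : L a ∈ W ⊔ W.map L := Submodule.mem_sup_right ⟨a, ha, rfl⟩
      have hb'S : L b ∈ W ⊔ W.map L := Submodule.mem_sup_right ⟨b, hbW, rfl⟩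
      refine sup_le (sup_le (hU₂le.trans hleL) ?_) ?_
      · rw [Submodule.span_singleton_le_iff_mem]
        exact Submodule.add_mem _ (Submodule.add_mem _ (Submodule.smul_mem _ _ haS) (Submodule.smul_mem _ _ ha'S)) hbS
      · rw [Submodule.span_singleton_le_iff_mem]
        exact Submodule.add_mem _ (Submodule.add_mem _ (Submodule.smul_mem _ _ haS) (Submodule.smul_mem _ _ ha'S)) hb'S
    · rw [finrank_sup_span _ hu₂n, finrank_sup_span _ hu₁n, hU₂d]
      ring

/-- The same in characteristic two, with no condition on the dimension. -/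
theorem double_plus_char2 (hQ : IsNondegenerateQuadraticForm Q) (h2 : (2 : F) = 0)
    (L : (ι → F) →ₗ[F] (ι → F)) (W : Submodule F (ι → F)) (hW : W ⊓ perp hQ W = ⊥)
    (hL : ∀ x ∈ W, Q (L x) = Q x) (hLo : ∀ x ∈ W, ∀ y ∈ W, B x (L y) = 0) :
    ∃ U : Submodule F (ι → F), IsTotallySingularQuad Q U ∧ Module.finrank F U = Module.finrank F W := by
  let T : (ι → F) →ₗ[F] (ι → F) := LinearMap.id + L
  have hker : LinearMap.ker (T.domRestrict W) = ⊥ := by
    rw [eq_bot_iff]
    rintro ⟨x, hx⟩ hxk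
    have hx0 : x + L x = 0 := hxk
    have hperp : x ∈ perp hQ W := by
      rw [mem_perp]
      intro w hw
      have hLx : x = - L x := eq_neg_of_add_eq_zero_left hx0
      rw [hLx, B_neg_right hQ, hLo w hw x hx, neg_zero]
    have : x ∈ W ⊓ perp hQ W := ⟨hx, hperp⟩
    rw [hW] at this
    simpa using (Submodule.mem_bot F).1 this
  refine ⟨W.map T, ?_, ?_⟩
  · rintro _ ⟨x, hx, rfl⟩
    show Q (x + L x) = 0
    rw [Q_add hQ, hL x hx, hLo x hx x hx]
    have : Q x + Q x + 0 = 2 * Q x := by ring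
    rw [this, h2, zero_mul]
  · have h1 : W.map T = LinearMap.range (T.domRestrict W) := by
      rw [LinearMap.range_domRestrict]
    rw [h1]
    exact LinearMap.finrank_range_of_inj (LinearMap.ker_eq_bot.mp hker)

/-- **Isometric complements**: a non-degenerate subspace of even dimension isometric to its
orthogonal complement forces plus type. -/
theorem plus_of_isometric_perp (hQ : IsNondegenerateQuadraticForm Q) {W : Submodule F (ι → F)}
    (hW : W ⊓ perp hQ W = ⊥) (hiso : AreIsometricFor Q W (perp hQ W))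
    (hev : Even (Module.finrank F W)) : IsPlusTypeOn Q ⊤ := by
  obtain ⟨e, he⟩ := hiso
  have hd : Module.finrank F W = Module.finrank F (perp hQ W) := LinearEquiv.finrank_eq e
  have hsum := finrank_perp hQ W
  have htop : Module.finrank F (⊤ : Submodule F (ι → F)) = Fintype.card ι := by
    rw [finrank_top]
    simp
  obtain ⟨L, hLe⟩ := LinearMap.exists_extend ((perp hQ W).subtype ∘ₗ (e : W →ₗ[F] perp hQ W))
  have hLv : ∀ x (hx : x ∈ W), L x = (e ⟨x, hx⟩ : ι → F) := by
    intro x hx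
    have := LinearMap.congr_fun hLe ⟨x, hx⟩
    simpa using this
  have hL : ∀ x ∈ W, Q (L x) = Q x := by
    intro x hx
    rw [hLv x hx]
    exact he ⟨x, hx⟩
  have hLo : ∀ x ∈ W, ∀ y ∈ W, B x (L y) = 0 := by
    intro x hx y hy
    rw [hLv y hy]
    exact (mem_perp hQ).1 (e ⟨y, hy⟩).2 x hx
  by_cases hodd : Odd (Fintype.card F)
  · obtain ⟨r, hr⟩ := hev
    obtain ⟨U, -, hUts, hUd⟩ := double_plus hQ hodd L r W (by omega) hW hL hLo
    exact ⟨U, le_top, hUts, by omega⟩
  · have h2 : (2 : F) = 0 := by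
      rw [Nat.not_odd_iff_even] at hodd
      obtain ⟨p, hp⟩ := CharP.exists F
      haveI := hp
      have hpp : p.Prime := CharP.char_is_prime F p
      obtain ⟨n, hn, hcard⟩ := FiniteField.card F p
      have hpe : p = 2 := by
        by_contra hne
        have hodd' : Odd p := hpp.odd_of_ne_two hne
        have : Odd (Fintype.card F) := by
          rw [hcard]
          exact hodd'.pow
        exact (Nat.not_even_iff_odd.mpr this) hodd
      have : ((2 : ℕ) : F) = 0 := by
        rw [← hpe]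
        exact CharP.cast_eq_zero F p
      simpa using this
    obtain ⟨U, hUts, hUd⟩ := double_plus_char2 hQ h2 L W hW hL hLo
    exact ⟨U, le_top, hUts, by omega⟩

end Cfsg.Agent.Lib.OrthDouble
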