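import Cfsg.Agent.Lib.OrthClass

set_option autoImplicit false

namespace Cfsg.Agent.Lib.OrthFam2

open Matrix Cfsg Cfsg.Geo Cfsg.Agent.Lib.FormVec Cfsg.Agent.Lib.OrthE Cfsg.Agent.Lib.OrthOmega
  Cfsg.Agent.Lib.OrthMax Cfsg.Agent.Lib.OrthClass Cfsg.Agent.Lib.OrthStd2

variable {ι : Type} [Fintype ι] [DecidableEq ι] {F : Type*} [Field F]
variable {Q : (ι → F) → F}

local notation "B" => QuadraticMap.polar Q

omit [Fintype ι] [DecidableEq ι] in
theorem finrank_sup_span' (W : Submodule F (ι → F)) [FiniteDimensional F (ι → F)] {c : ι → F} (hc : c ∉ W) :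
    Module.finrank F (W ⊔ Submodule.span F {c} : Submodule F (ι → F)) = Module.finrank F W + 1 := by
  have hc0 : c ≠ 0 := by
    rintro rfl
    exact hc W.zero_mem
  have h1 := Submodule.finrank_sup_add_finrank_inf_eq W (Submodule.span F {c})
  have h2 : W ⊓ Submodule.span F {c} = ⊥ := by
    rw [eq_bot_iff]
    rintro x ⟨hx1, hx2⟩
    obtain ⟨k, rfl⟩ := Submodule.mem_span_singleton.mp hx2
    by_cases hk : k = 0
    · simp [hk]
    · exfalso
      apply hc
      have := W.smul_mem k⁻¹ hx1
      rwa [smul_smul, inv_mul_cancel₀ hk, one_smul] at this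
  rw [h2, finrank_bot, finrank_span_singleton hc0] at h1
  omega

omit [Fintype ι] [DecidableEq ι] in
theorem ts_perp' {W : Submodule F (ι → F)} (hW : IsTotallySingularQuad Q W) {x y : ι → F} (hx : x ∈ W) (hy : y ∈ W) : B x y = 0 := by
  rw [QuadraticMap.polar, hW _ (W.add_mem hx hy), hW _ hx, hW _ hy]
  ring

variable (hQ : IsNondegenerateQuadraticForm Q)
include hQ

/-- A maximal totally singular subspace is its own perp. -/
theorem ts_perp_eq' {U : Submodule F (ι → F)} (hU : IsTotallySingularQuad Q U)
    (hdim : 2 * Module.finrank F U = Fintype.card ι) : perp hQ U = U := by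
  have hle : U ≤ perp hQ U := fun x hx w hw => ts_perp' hU hw hx
  symm
  refine Submodule.eq_of_le_of_finrank_eq hle ?_
  have := finrank_perp hQ U
  omega

theorem perp_sup' (X Y : Submodule F (ι → F)) : perp hQ (X ⊔ Y) = perp hQ X ⊓ perp hQ Y := by
  ext x
  constructor
  · intro h
    exact ⟨perp_anti hQ le_sup_left h, perp_anti hQ le_sup_right h⟩
  · rintro ⟨h1, h2⟩
    rw [mem_perp]
    intro w hw
    obtain ⟨a, ha, b, hb, rfl⟩ := Submodule.mem_sup.mp hw
    rw [B_add_left hQ, (mem_perp hQ).1 h1 a ha, (mem_perp hQ).1 h2 b hb, add_zero]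

/-- Two adjacent maximal totally singular subspaces meet a third in dimensions of opposite parity. -/
theorem parity_adj' {W U U' : Submodule F (ι → F)} (hW : IsTotallySingularQuad Q W) (hU : IsTotallySingularQuad Q U)
    (hU' : IsTotallySingularQuad Q U') (hWd : 2 * Module.finrank F W = Fintype.card ι)
    (hUd : 2 * Module.finrank F U = Fintype.card ι) (hU'd : 2 * Module.finrank F U' = Fintype.card ι)
    (hadj : Module.finrank F (U ⊓ U' : Submodule F (ι → F)) + 1 = Module.finrank F U) :
    Odd (Module.finrank F (W ⊓ U : Submodule F (ι → F)) + Module.finrank F (W ⊓ U' : Submodule F (ι → F))) := by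
  have hUp := ts_perp_eq' hQ hU hUd
  have hU'p := ts_perp_eq' hQ hU' hU'd
  have hWp := ts_perp_eq' hQ hW hWd
  let U₀ := U ⊓ U'
  have hU₀U : U₀ ≤ U := inf_le_left
  have hU₀U' : U₀ ≤ U' := inf_le_right
  have hUperp : U ≤ perp hQ U₀ := by
    rw [← hUp]
    exact perp_anti hQ hU₀U
  have hU'perp : U' ≤ perp hQ U₀ := by
    rw [← hU'p]
    exact perp_anti hQ hU₀U'
  let W₁ := W ⊓ perp hQ U₀
  let X := W ⊓ U₀
  -- dimension of W₁
  have hW₁eq : W₁ = perp hQ (W ⊔ U₀) := by
    rw [perp_sup' hQ, hWp]
  have hdimW₁ : Module.finrank F W₁ = Module.finrank F X + 1 := by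
    rw [hW₁eq]
    have h1 := finrank_perp hQ (W ⊔ U₀)
    have h2 := Submodule.finrank_sup_add_finrank_inf_eq W U₀
    have h3 : Module.finrank F U₀ + 1 = Module.finrank F U := hadj
    simp only [X]
    omega
  have hXW₁ : X ≤ W₁ := inf_le_inf_left _ (hU₀U.trans hUperp)
  have h1le : W ⊓ U ≤ W₁ := inf_le_inf_left _ hUperp
  have h2le : W ⊓ U' ≤ W₁ := inf_le_inf_left _ hU'perp
  have hX1 : X ≤ W ⊓ U := inf_le_inf_left _ hU₀U
  have hX2 : X ≤ W ⊓ U' := inf_le_inf_left _ hU₀U'
  have a1 := Submodule.finrank_mono h1le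
  have a2 := Submodule.finrank_mono h2le
  have b1 := Submodule.finrank_mono hX1
  have b2 := Submodule.finrank_mono hX2
  -- not both large
  have hnot1 : ¬ (Module.finrank F (W ⊓ U : Submodule F (ι → F)) = Module.finrank F W₁ ∧
      Module.finrank F (W ⊓ U' : Submodule F (ι → F)) = Module.finrank F W₁) := by
    rintro ⟨h1, h2⟩
    have e1 := Submodule.eq_of_le_of_finrank_eq h1le h1
    have e2 := Submodule.eq_of_le_of_finrank_eq h2le h2
    have hle : W₁ ≤ X := by
      intro z hz
      refine ⟨hz.1, ?_⟩
      have hz1 : z ∈ W ⊓ U := by rw [e1]; exact hz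
      have hz2 : z ∈ W ⊓ U' := by rw [e2]; exact hz
      exact ⟨hz1.2, hz2.2⟩
    have := Submodule.finrank_mono hle
    omega
  -- not both small
  have hnot2 : ¬ (Module.finrank F (W ⊓ U : Submodule F (ι → F)) = Module.finrank F X ∧
      Module.finrank F (W ⊓ U' : Submodule F (ι → F)) = Module.finrank F X) := by
    rintro ⟨h1, h2⟩
    have e1 : X = W ⊓ U := Submodule.eq_of_le_of_finrank_eq hX1 h1.symm
    have e2 : X = W ⊓ U' := Submodule.eq_of_le_of_finrank_eq hX2 h2.symm
    obtain ⟨w, hw, hwX⟩ : ∃ w ∈ W₁, w ∉ X := by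
      by_contra hc
      push Not at hc
      have := Submodule.finrank_mono (show W₁ ≤ X from hc)
      omega
    -- W₁ lies in U + U'
    have hsup : perp hQ U₀ = U ⊔ U' := by
      symm
      refine Submodule.eq_of_le_of_finrank_eq (sup_le hUperp hU'perp) ?_
      have h3 := finrank_perp hQ U₀
      have h4 := Submodule.finrank_sup_add_finrank_inf_eq U U'
      have h5 : Module.finrank F U₀ + 1 = Module.finrank F U := hadj
      have h6 : Module.finrank F (U ⊓ U' : Submodule F (ι → F)) = Module.finrank F U₀ := rfl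
      omega
    have hwsup : w ∈ U ⊔ U' := by
      rw [← hsup]
      exact hw.2
    obtain ⟨p, hp, p', hp', hwp⟩ := Submodule.mem_sup.mp hwsup
    have hQw : Q w = 0 := hW w hw.1
    rw [← hwp, Q_add hQ, hU p hp, hU' p' hp', zero_add, zero_add] at hQw
    -- one of p, p' lies in U₀
    have hone : p ∈ U₀ ∨ p' ∈ U₀ := by
      by_contra hc
      push Not at hc
      obtain ⟨hpn, hp'n⟩ := hc
      -- p' is orthogonal to U
      have hUdec : U ≤ U₀ ⊔ Submodule.span F {p} := by
        have hle : U₀ ⊔ Submodule.span F {p} ≤ U := by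
          rw [sup_le_iff, Submodule.span_singleton_le_iff_mem]
          exact ⟨hU₀U, hp⟩
        have hfr := finrank_sup_span' U₀ hpn
        exact (Submodule.eq_of_le_of_finrank_eq hle (by
          have h5 : Module.finrank F U₀ + 1 = Module.finrank F U := hadj
          omega)).ge
      have hp'U : p' ∈ perp hQ U := by
        rw [mem_perp]
        intro x hx
        obtain ⟨u₀, hu₀, z, hz, rfl⟩ := Submodule.mem_sup.mp (hUdec hx)
        obtain ⟨c, rfl⟩ := Submodule.mem_span_singleton.mp hz
        rw [B_add_left hQ, B_smul_left hQ, hQw, mul_zero, add_zero]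
        exact ts_perp' hU' (hU₀U' hu₀) hp'
      rw [hUp] at hp'U
      exact hp'n ⟨hp'U, hp'⟩
    apply hwX
    rcases hone with h | h
    · have : w ∈ W ⊓ U' := by
        refine ⟨hw.1, ?_⟩
        rw [← hwp]
        exact U'.add_mem (hU₀U' h) hp'
      rw [← e2] at this
      exact this
    · have : w ∈ W ⊓ U := by
        refine ⟨hw.1, ?_⟩
        rw [← hwp]
        exact U.add_mem hp (hU₀U h)
      rw [← e1] at this
      exact this
  rw [Nat.odd_iff]
  omega


/-- The parity relation on maximal totally singular subspaces. -/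
theorem parity_triple {W : Submodule F (ι → F)} (hW : IsTotallySingularQuad Q W)
    (hWd : 2 * Module.finrank F W = Fintype.card ι) (d : ℕ) :
    ∀ {U X : Submodule F (ι → F)}, IsTotallySingularQuad Q U → IsTotallySingularQuad Q X →
      2 * Module.finrank F U = Fintype.card ι → 2 * Module.finrank F X = Fintype.card ι →
      Module.finrank F U - Module.finrank F (U ⊓ X : Submodule F (ι → F)) = d →
      Even (Module.finrank F (W ⊓ U : Submodule F (ι → F)) + Module.finrank F (W ⊓ X : Submodule F (ι → F)) + d) := by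
  induction d with
  | zero =>
    intro U X hU hX hUd hXd hd
    have hle : (U ⊓ X : Submodule F (ι → F)) ≤ U := inf_le_left
    have h1 := Submodule.finrank_mono hle
    have e1 : (U ⊓ X : Submodule F (ι → F)) = U :=
      Submodule.eq_of_le_of_finrank_eq hle (by omega)
    have e2 : (U ⊓ X : Submodule F (ι → F)) = X :=
      Submodule.eq_of_le_of_finrank_eq inf_le_right (by
        rw [e1]
        omega)
    have e3 : U = X := e1.symm.trans e2
    subst e3
    exact ⟨_, rfl⟩
  | succ d ih =>
    intro U X hU hX hUd hXd hd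
    have hUp := ts_perp_eq' hQ hU hUd
    -- an element of `X` outside `U`
    have hne : ¬ X ≤ U := by
      intro hle
      have : (U ⊓ X : Submodule F (ι → F)) = X := inf_eq_right.2 hle
      rw [this] at hd
      omega
    obtain ⟨a, haX, haU⟩ := SetLike.not_le_iff_exists.1 hne
    have hQa : Q a = 0 := hX a haX
    let L := Submodule.span F {a}
    let U₁ := U ⊓ perp hQ L
    let Y := U₁ ⊔ L
    have haU₁ : a ∉ U₁ := fun h => haU h.1
    -- dimension of U₁
    have hfU₁ : Module.finrank F U₁ + 1 = Module.finrank F U := by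
      have h1 : perp hQ (U ⊔ L) = U₁ := by
        rw [perp_sup' hQ, hUp]
      have h2 := finrank_perp hQ (U ⊔ L)
      rw [h1] at h2
      have h3 := finrank_sup_span' U haU
      have h4 : U ⊔ Submodule.span F {a} = U ⊔ L := rfl
      rw [h4] at h3
      omega
    have hfY : Module.finrank F Y = Module.finrank F U := by
      have := finrank_sup_span' U₁ haU₁
      have h4 : U₁ ⊔ Submodule.span F {a} = Y := rfl
      rw [h4] at this
      omega
    have hYts : IsTotallySingularQuad Q Y := by
      intro y hy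
      obtain ⟨u, hu, l, hl, rfl⟩ := Submodule.mem_sup.1 hy
      obtain ⟨c, rfl⟩ := Submodule.mem_span_singleton.1 hl
      rw [Q_add hQ, hU u hu.1, Q_smul hQ, hQa, B_smul_right hQ]
      have : B u a = 0 := by
        have := (mem_perp' hQ).1 hu.2 a (Submodule.mem_span_singleton_self a)
        exact this
      rw [this]
      ring
    -- `Y ⊓ U = U₁`
    have hYU : (U ⊓ Y : Submodule F (ι → F)) = U₁ := by
      apply le_antisymm
      · rintro x ⟨hxU, hxY⟩
        obtain ⟨u, hu, l, hl, rfl⟩ := Submodule.mem_sup.1 hxY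
        obtain ⟨c, rfl⟩ := Submodule.mem_span_singleton.1 hl
        have hc : c = 0 := by
          by_contra hc
          apply haU
          have h1 : c • a ∈ U := by
            have := U.sub_mem hxU hu.1
            simpa using this
          have h2 := U.smul_mem c⁻¹ h1
          rwa [smul_smul, inv_mul_cancel₀ hc, one_smul] at h2
        rw [hc, zero_smul, add_zero]
        exact hu
      · intro x hx
        exact ⟨hx.1, Submodule.mem_sup_left hx⟩
    -- `Y ⊓ X`
    have hUXa : a ∉ (U ⊓ X : Submodule F (ι → F)) := fun h => haU h.1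
    have hYX : (Y ⊓ X : Submodule F (ι → F)) = (U ⊓ X) ⊔ L := by
      apply le_antisymm
      · rintro x ⟨hxY, hxX⟩
        obtain ⟨u, hu, l, hl, rfl⟩ := Submodule.mem_sup.1 hxY
        have hlX : l ∈ X := by
          obtain ⟨c, rfl⟩ := Submodule.mem_span_singleton.1 hl
          exact X.smul_mem c haX
        have huX : u ∈ X := by
          have := X.sub_mem hxX hlX
          simpa using this
        exact Submodule.add_mem_sup ⟨hu.1, huX⟩ hl
      · rw [sup_le_iff]
        constructor
        · rintro x ⟨hxU, hxX⟩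
          refine ⟨Submodule.mem_sup_left ⟨hxU, ?_⟩, hxX⟩
          refine (mem_perp' hQ).2 fun w hw => ?_
          obtain ⟨c, rfl⟩ := Submodule.mem_span_singleton.1 hw
          rw [B_smul_right hQ]
          have := ts_perp' hX hxX haX
          rw [this, mul_zero]
        · intro x hx
          refine ⟨Submodule.mem_sup_right hx, ?_⟩
          obtain ⟨c, rfl⟩ := Submodule.mem_span_singleton.1 hx
          exact X.smul_mem c haX
    have hfYX : Module.finrank F (Y ⊓ X : Submodule F (ι → F)) = Module.finrank F (U ⊓ X : Submodule F (ι → F)) + 1 := by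
      rw [hYX]
      exact finrank_sup_span' _ hUXa
    have hYd : 2 * Module.finrank F Y = Fintype.card ι := by rw [hfY]; exact hUd
    have h1 := parity_adj' hQ hW hU hYts hWd hUd hYd (by rw [hYU]; exact hfU₁)
    have hle2 : Module.finrank F (U ⊓ X : Submodule F (ι → F)) ≤ Module.finrank F U :=
      Submodule.finrank_mono inf_le_left
    have h2 := ih hYts hX hYd hXd (by rw [hfYX, hfY]; omega)
    rw [Nat.even_iff] at h2 ⊢
    rw [Nat.odd_iff] at h1
    omega

end Cfsg.Agent.Lib.OrthFam2
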