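import Cfsg.Agent.Lib.OrthBasis

set_option autoImplicit false

namespace Cfsg.Agent.Lib.OrthHc

open Matrix Cfsg Cfsg.Geo Cfsg.Agent.Lib.FormVec Cfsg.Agent.Lib.OrthE Cfsg.Agent.Lib.OrthGen
  Cfsg.Agent.Lib.OrthOmega Cfsg.Agent.Lib.OrthRefl Cfsg.Agent.Lib.OrthSpin Cfsg.Agent.Lib.OrthSpin2
  Cfsg.Agent.Lib.OrthSpin3 Cfsg.Agent.Lib.OrthNeg Cfsg.Agent.Lib.OrthChar Cfsg.Agent.Lib.OrthTrans
  Cfsg.Agent.Lib.OrthGram

variable {ι : Type} [Fintype ι] [DecidableEq ι] {F : Type*} [Field F] [Fintype F]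
variable {Q : (ι → F) → F}

local notation "B" => QuadraticMap.polar Q

variable (hQ : IsNondegenerateQuadraticForm Q)

/-- Three reflections in a plane. -/
theorem triple {a e : ι → F} {p r : F} (ha : Q a ≠ 0) (he : Q e ≠ 0) (hb : Q (p • a + r • e) ≠ 0)
    (hd : Q ((Q e * r) • a + (Q a * p) • e) ≠ 0) (h2 : (2 : F) ≠ 0) :
    rr hQ a * rr hQ (p • a + r • e) * rr hQ e = rr hQ ((Q e * r) • a + (Q a * p) • e) := by
  set α := Q a with hα
  set γ := Q e with hγ
  set β := B a e with hβ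
  have hQb : Q (p • a + r • e) = α * p ^ 2 + β * p * r + γ * r ^ 2 := by
    rw [Q_add hQ, Q_smul hQ, Q_smul hQ, B_smul_left hQ, B_smul_right hQ]
    ring
  have hQd : Q ((γ * r) • a + (α * p) • e) = α * γ * (α * p ^ 2 + β * p * r + γ * r ^ 2) := by
    rw [Q_add hQ, Q_smul hQ, Q_smul hQ, B_smul_left hQ, B_smul_right hQ]
    ring
  have hκ : α * p ^ 2 + β * p * r + γ * r ^ 2 ≠ 0 := by rwa [← hQb]
  apply Subtype.ext
  apply gl_ext
  intro x
  show ((rr hQ a : GL ι F).1 * (rr hQ (p • a + r • e) : GL ι F).1 * (rr hQ e : GL ι F).1) *ᵥ x = _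
  rw [← Matrix.mulVec_mulVec, ← Matrix.mulVec_mulVec, rr_mulVec hQ he, rr_mulVec hQ hb, rr_mulVec hQ ha,
    rr_mulVec hQ hd, hQb, hQd]
  have hee : B e e = 2 * γ := B_self hQ e
  have haa : B a a = 2 * α := B_self hQ a
  have hea : B e a = β := B_comm hQ e a
  simp only [B_sub_left hQ, B_add_left hQ, B_add_right hQ, B_smul_left hQ, B_smul_right hQ, haa, hee, hea, ← hβ, ← hα, ← hγ]
  set s := B x a with hs
  set s' := B x e with hs'
  have hα0 : α ≠ 0 := ha
  have hγ0 : γ ≠ 0 := he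
  have key : ∀ A A' E E' : F, A = A' → E = E' → x + A • a + E • e = x + A' • a + E' • e := by
    intro A A' E E' h1 h3
    rw [h1, h3]
  -- normal forms
  have e1 : ∀ t₁ t₂ t₃ : F, (x - t₁ • e - t₂ • (p • a + r • e)) - t₃ • a =
      x + (-(t₂ * p) - t₃) • a + (-t₁ - t₂ * r) • e := by
    intro t₁ t₂ t₃
    module
  have e2 : ∀ t : F, x - t • ((γ * r) • a + (α * p) • e) = x + (-(t * (γ * r))) • a + (-(t * (α * p))) • e := by
    intro t
    module
  rw [e1, e2]
  obtain ⟨κ, hκdef⟩ : ∃ κ, κ = α * p ^ 2 + β * p * r + γ * r ^ 2 := ⟨_, rfl⟩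
  rw [← hκdef] at hκ
  rw [← hκdef]
  apply key
  · field_simp
    rw [hκdef]
    ring
  · field_simp
    rw [hκdef]
    ring

/-- The `c`-class of vectors. -/
def CClass (Q : (ι → F) → F) (c : F) (w : ι → F) : Prop := Q w ≠ 0 ∧ IsSquare (Q w * c)

/-- The group generated by reflections of a class. -/
def HH (hQ : IsNondegenerateQuadraticForm Q) (c : F) : Subgroup ↥(isometryGroup F Q) :=
  Subgroup.closure {g | ∃ v, CClass Q c v ∧ g = rr hQ v}

variable {c : F}

theorem rr_mem {v : ι → F} (hv : CClass Q c v) : rr hQ v ∈ HH hQ c :=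
  Subgroup.subset_closure ⟨v, hv, rfl⟩

theorem conj_rr (g : ↥(isometryGroup F Q)) {v : ι → F} (hv : Q v ≠ 0) :
    g * rr hQ v * g⁻¹ = rr hQ ((g : GL ι F).1 *ᵥ v) := by
  have hgv : Q ((g : GL ι F).1 *ᵥ v) = Q v := (mem_O_iff _).1 g.2 v
  apply Subtype.ext
  rw [rr_eq hQ hv, rr_eq hQ (by rw [hgv]; exact hv)]
  show (g : GL ι F) * R Q v * (g : GL ι F)⁻¹ = R Q _
  exact conj_R hQ g.2 hv

theorem HH_normal (g : ↥(isometryGroup F Q)) {x : ↥(isometryGroup F Q)} (hx : x ∈ HH hQ c) :
    g * x * g⁻¹ ∈ HH hQ c := by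
  induction hx using Subgroup.closure_induction with
  | mem x hx =>
    obtain ⟨v, hv, rfl⟩ := hx
    rw [conj_rr hQ g hv.1]
    apply rr_mem
    have hgv : Q ((g : GL ι F).1 *ᵥ v) = Q v := (mem_O_iff _).1 g.2 v
    exact ⟨by rw [hgv]; exact hv.1, by rw [hgv]; exact hv.2⟩
  | one => simp [Subgroup.one_mem]
  | mul x y _ _ hx hy =>
    have : g * (x * y) * g⁻¹ = (g * x * g⁻¹) * (g * y * g⁻¹) := by group
    rw [this]
    exact Subgroup.mul_mem _ hx hy
  | inv x _ hx =>
    have : g * x⁻¹ * g⁻¹ = (g * x * g⁻¹)⁻¹ := by group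
    rw [this]
    exact Subgroup.inv_mem _ hx

variable (h2 : (2 : F) ≠ 0)

/-- The non-class vectors. -/
def NClass (Q : (ι → F) → F) (c : F) (w : ι → F) : Prop := Q w ≠ 0 ∧ ¬ IsSquare (Q w * c)

theorem rr_sq {v : ι → F} (hv : Q v ≠ 0) : rr hQ v * rr hQ v = 1 := rr_mul_self hQ hv

include h2 in
/-- The product of two reflections of the other class with a non-degenerate plane. -/
theorem pair_nondeg (hc : c ≠ 0) {a e : ι → F} (ha : NClass Q c a) (he : NClass Q c e)
    (hdisc : (B a e) ^ 2 ≠ 4 * Q a * Q e) : rr hQ a * rr hQ e ∈ HH hQ c := by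
  have hα := ha.1
  have hγ := he.1
  set α := Q a with hαdef
  set γ := Q e with hγdef
  set β := B a e with hβ
  let b₀ : ι → F := e - (β / (2 * α)) • a
  have h2α : 2 * α ≠ 0 := mul_ne_zero h2 hα
  have hab₀ : B a b₀ = 0 := by
    simp only [b₀]
    rw [B_sub_right hQ, B_smul_right hQ, B_self hQ, ← hαdef, ← hβ]
    field_simp
    ring
  have hQb₀ : Q b₀ = γ - β ^ 2 / (4 * α) := by
    simp only [b₀]
    rw [Q_sub hQ, Q_smul hQ, B_smul_right hQ, ← hαdef, ← hγdef, B_comm hQ e a, ← hβ]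
    have h4 : (4 : F) = 2 * 2 := by norm_num
    rw [h4]
    field_simp
    ring
  have hb₀ : Q b₀ ≠ 0 := by
    rw [hQb₀]
    intro h
    apply hdisc
    have h4 : (4 : F) ≠ 0 := by
      have : (4 : F) = 2 * 2 := by norm_num
      rw [this]
      exact mul_ne_zero h2 h2
    field_simp at h
    linear_combination -h
  obtain ⟨s, t, hst⟩ := value_pair h2 hQ hα hb₀ hab₀ c
  set p := s - t * (β / (2 * α)) with hp
  have hu : s • a + t • b₀ = p • a + t • e := by
    simp only [b₀, hp]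
    module
  rw [hu] at hst
  have hd : Q ((γ * t) • a + (α * p) • e) = α * γ * Q (p • a + t • e) := by
    rw [Q_add hQ, Q_add hQ, Q_smul hQ, Q_smul hQ, Q_smul hQ, Q_smul hQ, B_smul_left hQ, B_smul_left hQ,
      B_smul_right hQ, B_smul_right hQ, ← hαdef, ← hγdef, ← hβ]
    ring
  have hd0 : Q ((γ * t) • a + (α * p) • e) ≠ 0 := by
    rw [hd, hst]
    exact mul_ne_zero (mul_ne_zero hα hγ) hc
  have hu0 : Q (p • a + t • e) ≠ 0 := by
    rw [hst]
    exact hc
  have htr := triple hQ (a := a) (e := e) (p := p) (r := t) hα hγ hu0 hd0 h2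
  have hmemu : rr hQ (p • a + t • e) ∈ HH hQ c := rr_mem hQ ⟨hu0, by rw [hst]; exact ⟨c, rfl⟩⟩
  have hmemd : rr hQ ((γ * t) • a + (α * p) • e) ∈ HH hQ c := by
    apply rr_mem
    refine ⟨hd0, ?_⟩
    rw [hd, hst]
    have hsq := nonsq_mul h2 ha.2 he.2
    have e3 : α * γ * c * c = α * c * (γ * c) := by ring
    rw [e3]
    exact hsq
  have hfac : rr hQ a * rr hQ e = (rr hQ a * rr hQ (p • a + t • e) * rr hQ e) *
      (rr hQ e * rr hQ (p • a + t • e) * (rr hQ e)⁻¹) := by
    have h3 : (rr hQ e)⁻¹ = rr hQ e := inv_eq_of_mul_eq_one_left (rr_sq hQ hγ)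
    rw [h3]
    have h5 := rr_sq hQ hγ
    have h6 := rr_sq hQ hu0
    calc rr hQ a * rr hQ e = rr hQ a * (rr hQ (p • a + t • e) * rr hQ (p • a + t • e)) * rr hQ e := by
          rw [h6, mul_one]
      _ = rr hQ a * rr hQ (p • a + t • e) * (rr hQ e * rr hQ e) * rr hQ (p • a + t • e) * rr hQ e := by
          rw [h5, mul_one]
          group
      _ = _ := by group
  rw [hfac]
  refine Subgroup.mul_mem _ ?_ (HH_normal hQ _ hmemu)
  rw [htr]
  exact hmemd

theorem rr_smul {v : ι → F} {t : F} (ht : t ≠ 0) (hv : Q v ≠ 0) : rr hQ (t • v) = rr hQ v := by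
  have h1 : Q (t • v) ≠ 0 := by
    rw [Q_smul hQ]
    exact mul_ne_zero (pow_ne_zero _ ht) hv
  apply Subtype.ext
  rw [rr_eq hQ h1, rr_eq hQ hv]
  show R Q (t • v) = R Q v
  exact R_smul hQ ht hv

include hQ h2 in
/-- The middle vector in the degenerate case. -/
theorem exists_mid (h43 : ¬ (Fintype.card ι = 4 ∧ Fintype.card F = 3)) (heven : Even (Fintype.card ι))
    {a y : ι → F} (ha : Q a ≠ 0) (hy : y ≠ 0) (hQy : Q y = 0) (hay : B a y = 0) :
    ∃ z, Q z = Q a ∧ B a z = 0 ∧ (B y z) ^ 2 ≠ 4 * Q a * Q a := by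
  classical
  set α := Q a with hα
  have h2α : 2 * α ≠ 0 := mul_ne_zero h2 ha
  have h4 : (4 : F) = 2 * 2 := by norm_num
  -- a partner in the perp of a
  obtain ⟨u, hu⟩ := (hQ.nondegenerate y hy).1
  have hu' : B y u ≠ 0 := by
    rw [B_comm hQ]
    exact hu
  have hz₀ : B a (u - ((2 * α)⁻¹ * B u a) • a) = 0 := by
    rw [B_sub_right hQ, B_smul_right hQ, B_self hQ, B_comm hQ a u, ← hα]
    field_simp
    ring
  have hz₁ : B y (u - ((2 * α)⁻¹ * B u a) • a) = B y u := by
    rw [B_sub_right hQ, B_smul_right hQ, B_comm hQ y a, hay, mul_zero, sub_zero]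
  let Y : Submodule F (ι → F) := perp hQ (Submodule.span F {a})
  have hmemY : ∀ x, x ∈ Y ↔ B a x = 0 := by
    intro x
    simp only [Y, mem_perp hQ]
    constructor
    · intro h
      exact h a (Submodule.mem_span_singleton_self a)
    · intro h w hw
      obtain ⟨k, rfl⟩ := Submodule.mem_span_singleton.1 hw
      rw [B_smul_left hQ, h, mul_zero]
  obtain ⟨f, hfY, hQf, hyf⟩ := exists_hyp hQ (Y := Y) (e := y) (f := u - ((2 * α)⁻¹ * B u a) • a)
    ((hmemY _).2 hay) hQy ((hmemY _).2 hz₀) (by rw [hz₁]; exact hu')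
  have haf : B a f = 0 := (hmemY _).1 hfY
  have hyy : B y y = 0 := by rw [B_self hQ, hQy, mul_zero]
  have hff : B f f = 0 := by rw [B_self hQ, hQf, mul_zero]
  by_cases hq3 : Fintype.card F = 3
  · -- the perp of a hyperbolic pair plus a
    have hn4 : Fintype.card ι ≠ 4 := fun h => h43 ⟨h, hq3⟩
    let w : Fin 3 → (ι → F) := ![a, y, f]
    let W : Submodule F (ι → F) := Submodule.span F (Set.range w)
    have hcomb : ∀ x ∈ W, ∃ r s t : F, x = r • a + s • y + t • f := by
      intro x hx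
      obtain ⟨g, rfl⟩ := (Submodule.mem_span_range_iff_exists_fun F).1 hx
      refine ⟨g 0, g 1, g 2, ?_⟩
      simp [Fin.sum_univ_three, w]
    have hB : ∀ r s t : F, (2 * α) * r = B a (r • a + s • y + t • f) ∧
        s = B (r • a + s • y + t • f) f ∧ t = B y (r • a + s • y + t • f) := by
      intro r s t
      refine ⟨?_, ?_, ?_⟩
      · rw [B_add_right hQ, B_add_right hQ, B_smul_right hQ, B_smul_right hQ, B_smul_right hQ, hay, haf,
          B_self hQ a, ← hα]
        ring
      · rw [B_add_left hQ, B_add_left hQ, B_smul_left hQ, B_smul_left hQ, B_smul_left hQ, hff, haf, hyf]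
        ring
      · rw [B_add_right hQ, B_add_right hQ, B_smul_right hQ, B_smul_right hQ, B_smul_right hQ, hyy, hyf,
          B_comm hQ y a, hay]
        ring
    have hli : LinearIndependent F w := by
      rw [Fintype.linearIndependent_iff]
      intro g hg
      have hg' : g 0 • a + g 1 • y + g 2 • f = 0 := by
        have := hg
        simp only [Fin.sum_univ_three, w] at this
        simpa using this
      obtain ⟨h1, h3, h5⟩ := hB (g 0) (g 1) (g 2)
      rw [hg', B_zero_right hQ] at h1 h5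
      rw [hg', B_zero_left hQ] at h3
      intro i
      fin_cases i
      · exact (mul_eq_zero.1 h1).resolve_left h2α
      · exact h3
      · exact h5
    have hW3 : Module.finrank F W = 3 := by
      have := finrank_span_eq_card hli
      simpa using this
    let T := perp hQ W
    have hT : Module.finrank F T + 3 = Fintype.card ι := by
      have := finrank_perp hQ W
      rwa [hW3] at this
    have hn6 : 2 ≤ Module.finrank F T := by
      obtain ⟨m, hm⟩ := heven
      omega
    have hTT : T ⊓ perp hQ T = ⊥ := by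
      rw [eq_bot_iff]
      rintro x ⟨hxT, hxW⟩
      have hxW' : x ∈ W := by
        have : perp hQ T = W := perp_perp hQ W
        rwa [this] at hxW
      obtain ⟨r, s, t, rfl⟩ := hcomb _ hxW'
      have hmemT := (mem_perp hQ).1 hxT
      have hwa : a ∈ W := Submodule.subset_span ⟨0, rfl⟩
      have hwy : y ∈ W := Submodule.subset_span ⟨1, rfl⟩
      have hwf : f ∈ W := Submodule.subset_span ⟨2, rfl⟩
      obtain ⟨h1, h3, h5⟩ := hB r s t
      rw [hmemT a hwa] at h1
      rw [hmemT y hwy] at h5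
      have h3' : s = 0 := by
        rw [h3, B_comm hQ]
        exact hmemT f hwf
      have hr : r = 0 := (mul_eq_zero.1 h1).resolve_left h2α
      rw [hr, h3', h5]
      simp
    have hTne : T ≠ ⊥ := by
      intro h
      rw [h, finrank_bot] at hn6
      omega
    obtain ⟨t₁, ht₁, hQt₁⟩ := exists_nonsing_in hQ hTT hTne
    obtain ⟨t₂, ht₂, hQt₂, h12⟩ := exists_orth_in h2 hQ hTT hn6 ht₁ hQt₁
    obtain ⟨p, r, hpr⟩ := value_pair h2 hQ hQt₁ hQt₂ h12 α
    refine ⟨p • t₁ + r • t₂, hpr, ?_, ?_⟩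
    · exact (mem_perp hQ).1 (T.add_mem (T.smul_mem _ ht₁) (T.smul_mem _ ht₂)) a
        (Submodule.subset_span ⟨0, rfl⟩)
    · have : B y (p • t₁ + r • t₂) = 0 := (mem_perp hQ).1 (T.add_mem (T.smul_mem _ ht₁) (T.smul_mem _ ht₂)) y
        (Submodule.subset_span ⟨1, rfl⟩)
      rw [this, h4]
      intro h
      have h6 : (2 * α) * (2 * α) = 0 := by
        linear_combination -h
      exact h2α ((mul_self_eq_zero).1 h6)
  · -- q ≥ 5
    have hcard : 3 < Fintype.card F := by
      have h1 := Fintype.one_lt_card (α := F)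
      have h3 := card_ne_two h2 (F := F)
      omega
    obtain ⟨g, hg⟩ : ∃ g : F, g ∉ ({0, 2 * α, -(2 * α)} : Finset F) := by
      by_contra hcon
      push Not at hcon
      have h5 : (Finset.univ : Finset F) ⊆ {0, 2 * α, -(2 * α)} := fun x _ => hcon x
      have h6 := Finset.card_le_card h5
      have h7 : ({0, 2 * α, -(2 * α)} : Finset F).card ≤ 3 := Finset.card_le_three
      rw [Finset.card_univ] at h6
      omega
    simp only [Finset.mem_insert, Finset.mem_singleton, not_or] at hg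
    obtain ⟨hg0, hg1, hg2⟩ := hg
    refine ⟨(α / g) • y + g • f, ?_, ?_, ?_⟩
    · rw [Q_add hQ, Q_smul hQ, Q_smul hQ, hQy, hQf, B_smul_left hQ, B_smul_right hQ, hyf]
      field_simp
      ring
    · rw [B_add_right hQ, B_smul_right hQ, B_smul_right hQ, hay, haf]
      ring
    · rw [B_add_right hQ, B_smul_right hQ, B_smul_right hQ, hyy, hyf, h4]
      intro h
      have h6 : (g - 2 * α) * (g + 2 * α) = 0 := by
        linear_combination h
      rcases mul_eq_zero.1 h6 with h7 | h7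
      · exact hg1 (sub_eq_zero.1 h7)
      · exact hg2 (eq_neg_of_add_eq_zero_left h7)

include h2 in
/-- Any two reflections of the other class multiply into `HH`. -/
theorem pair_mem (hc : c ≠ 0) (h43 : ¬ (Fintype.card ι = 4 ∧ Fintype.card F = 3))
    (heven : Even (Fintype.card ι)) {a e : ι → F} (ha : NClass Q c a) (he : NClass Q c e) :
    rr hQ a * rr hQ e ∈ HH hQ c := by
  by_cases hdisc : (B a e) ^ 2 = 4 * Q a * Q e
  swap
  · exact pair_nondeg hQ h2 hc ha he hdisc
  have hα := ha.1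
  have hγ := he.1
  set α := Q a with hαdef
  set γ := Q e with hγdef
  set β := B a e with hβ
  have h4 : (4 : F) = 2 * 2 := by norm_num
  have h2α : 2 * α ≠ 0 := mul_ne_zero h2 hα
  have hβ0 : β ≠ 0 := by
    intro h0
    rw [h0] at hdisc
    have : (2 * α) * (2 * γ) = 0 := by
      rw [h4] at hdisc
      linear_combination -hdisc
    exact (mul_ne_zero h2α (mul_ne_zero h2 hγ)) this
  set l := β / (2 * α) with hl
  have hl0 : l ≠ 0 := div_ne_zero hβ0 h2α
  have hla : l * (2 * α) = β := by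
    rw [hl]
    field_simp
  have hy₀a : B a (e - l • a) = 0 := by
    rw [B_sub_right hQ, B_smul_right hQ, B_self hQ, ← hαdef, ← hβ, hla, sub_self]
  have hQy₀ : Q (e - l • a) = 0 := by
    rw [Q_sub hQ, Q_smul hQ, B_smul_right hQ, ← hαdef, ← hγdef, B_comm hQ e a, ← hβ]
    have h6 : 4 * α * γ = β ^ 2 := hdisc.symm
    have h7 : (2 * α) * (γ + l ^ 2 * α - l * β) = 0 := by
      have h8 : (2 * α) * (γ + l ^ 2 * α - l * β) = 2 * α * γ + (l * (2 * α)) ^ 2 / 2 - (l * (2 * α)) * β := by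
        field_simp
      rw [h8, hla]
      have h9 : (2 : F) * (2 * α * γ + β ^ 2 / 2 - β * β) = 0 := by
        field_simp
        rw [h4] at h6
        linear_combination h6
      exact (mul_eq_zero.1 h9).resolve_left h2
    exact (mul_eq_zero.1 h7).resolve_left h2α
  by_cases hy₀ : e - l • a = 0
  · have he' : e = l • a := sub_eq_zero.1 hy₀
    have hr : rr hQ e = rr hQ a := by
      rw [he']
      exact rr_smul hQ hl0 hα
    rw [hr, rr_sq hQ hα]
    exact Subgroup.one_mem _
  set y := l⁻¹ • (e - l • a) with hy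
  have hy0 : y ≠ 0 := by
    rw [hy]
    exact smul_ne_zero (inv_ne_zero hl0) hy₀
  have hQy : Q y = 0 := by
    rw [hy, Q_smul hQ, hQy₀, mul_zero]
  have hay : B a y = 0 := by
    rw [hy, B_smul_right hQ, hy₀a, mul_zero]
  have he' : l⁻¹ • e = a + y := by
    rw [hy, smul_sub, smul_smul, inv_mul_cancel₀ hl0, one_smul]
    abel
  have hre : rr hQ e = rr hQ (a + y) := by
    rw [← he']
    exact (rr_smul hQ (inv_ne_zero hl0) hγ).symm
  have hQe' : Q (a + y) = α := by
    rw [Q_add hQ, hQy, hay, ← hαdef]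
    ring
  obtain ⟨z, hQz, haz, hyz⟩ := exists_mid hQ h2 h43 heven hα hy0 hQy hay
  have hα4 : (4 : F) * α * α ≠ 0 := by
    rw [h4]
    have := mul_ne_zero h2α h2α
    intro h
    apply this
    linear_combination h
  have hNz : NClass Q c z := by
    unfold NClass
    rw [hQz]
    exact ha
  have hNe' : NClass Q c (a + y) := by
    unfold NClass
    rw [hQe']
    exact ha
  have h1 : rr hQ a * rr hQ z ∈ HH hQ c := by
    apply pair_nondeg hQ h2 hc ha hNz
    rw [haz, hQz]
    intro h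
    apply hα4
    rw [← h]
    ring
  have h3 : rr hQ z * rr hQ (a + y) ∈ HH hQ c := by
    apply pair_nondeg hQ h2 hc hNz hNe'
    have e5 : B z (a + y) = B y z := by
      rw [B_add_right hQ, B_comm hQ z a, haz, B_comm hQ z y, zero_add]
    rw [e5, hQz, hQe']
    exact hyz
  have : rr hQ a * rr hQ e = (rr hQ a * rr hQ z) * (rr hQ z * rr hQ (a + y)) := by
    rw [hre]
    have h5 := rr_sq hQ hNz.1
    calc rr hQ a * rr hQ (a + y) = rr hQ a * (rr hQ z * rr hQ z) * rr hQ (a + y) := by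
          rw [h5, mul_one]
      _ = _ := by group
  rw [this]
  exact Subgroup.mul_mem _ h1 h3

/-- The sign character detecting the class. -/
noncomputable def chi (Q : (ι → F) → F) (c ν : F) : ↥(isometryGroup F Q) →* ℤˣ :=
  open scoped Classical in if IsSquare c then theta ν else theta 1

include h2 in
theorem chi_rr (hc : c ≠ 0) {ν : F} (hν : ¬ IsSquare ν) {v : ι → F} (hv : Q v ≠ 0) :
    chi Q c ν (rr hQ v) = sgn (Q v * c) := by
  classical
  rw [sgn_mul h2 hv hc, rr_eq hQ hv]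
  unfold chi
  by_cases hcs : IsSquare c
  · rw [if_pos hcs, sgn_eq_one.2 hcs, mul_one]
    by_cases hs : IsSquare (Q v)
    · rw [theta_nu_sq h2 hQ hν hv hs, sgn_eq_one.2 hs]
    · rw [theta_nu_ns h2 hQ hν hv hs]
      unfold sgn
      rw [if_neg hs]
  · rw [if_neg hcs]
    have e1 : sgn c = -1 := by
      unfold sgn
      rw [if_neg hcs]
    rw [e1]
    by_cases hs : IsSquare (Q v)
    · rw [theta_one_sq h2 hQ hv hs, sgn_eq_one.2 hs]
      simp
    · rw [theta_one_ns h2 hQ hv hs]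
      unfold sgn
      rw [if_neg hs]
      simp

include h2 in
theorem HH_le_ker (hc : c ≠ 0) {ν : F} (hν : ¬ IsSquare ν) : HH hQ c ≤ (chi Q c ν).ker := by
  unfold HH
  rw [Subgroup.closure_le]
  rintro _ ⟨v, hv, rfl⟩
  show chi Q c ν (rr hQ v) = 1
  rw [chi_rr hQ h2 hc hν hv.1, sgn_eq_one]
  exact hv.2

include h2 in
/-- The main index theorem. -/
theorem HH_index (hc : c ≠ 0) (h43 : ¬ (Fintype.card ι = 4 ∧ Fintype.card F = 3))
    (heven : Even (Fintype.card ι)) (hn : 2 ≤ Fintype.card ι) : (HH hQ c).index = 2 := by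
  classical
  obtain ⟨ν, hν⟩ := FiniteField.exists_nonsquare (ringChar_ne_two h2)
  have hν0 : ν ≠ 0 := ne_zero_of_not_sq hν
  obtain ⟨w₀, hw₀⟩ := exists_value h2 hQ hn (ν / c) (div_ne_zero hν0 hc)
  have hN₀ : NClass Q c w₀ := by
    unfold NClass
    rw [hw₀]
    refine ⟨div_ne_zero hν0 hc, ?_⟩
    rwa [div_mul_cancel₀ _ hc]
  have hr₀ := rr_sq hQ hN₀.1
  have hcover : ∀ L : List (ι → F), (∀ v ∈ L, Q v ≠ 0) →
      prodR hQ L ∈ HH hQ c ∨ prodR hQ L * rr hQ w₀ ∈ HH hQ c := by
    intro L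
    induction L with
    | nil =>
      intro _
      left
      simp [Subgroup.one_mem]
    | cons v t ih =>
      intro hL
      have hv : Q v ≠ 0 := hL v List.mem_cons_self
      have hv2 := rr_sq hQ hv
      have hvi : (rr hQ v)⁻¹ = rr hQ v := inv_eq_of_mul_eq_one_left hv2
      have ht := ih (fun u hu => hL u (List.mem_cons_of_mem _ hu))
      rw [prodR_cons]
      by_cases hcl : IsSquare (Q v * c)
      · have hmem : rr hQ v ∈ HH hQ c := rr_mem hQ ⟨hv, hcl⟩
        rcases ht with h | h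
        · left
          exact Subgroup.mul_mem _ hmem h
        · right
          rw [mul_assoc]
          exact Subgroup.mul_mem _ hmem h
      · have hmem : rr hQ v * rr hQ w₀ ∈ HH hQ c := pair_mem hQ h2 hc h43 heven ⟨hv, hcl⟩ hN₀
        rcases ht with h | h
        · right
          have : rr hQ v * prodR hQ t * rr hQ w₀ =
              (rr hQ v * prodR hQ t * (rr hQ v)⁻¹) * (rr hQ v * rr hQ w₀) := by group
          rw [this]
          exact Subgroup.mul_mem _ (HH_normal hQ _ h) hmem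
        · left
          have : rr hQ v * prodR hQ t =
              (rr hQ v * (prodR hQ t * rr hQ w₀) * (rr hQ v)⁻¹) * (rr hQ v * rr hQ w₀) := by
            have h6 : rr hQ w₀ * rr hQ w₀ = 1 := hr₀
            calc rr hQ v * prodR hQ t = rr hQ v * prodR hQ t * (rr hQ w₀ * rr hQ w₀) := by
                  rw [h6, mul_one]
              _ = _ := by group
          rw [this]
          exact Subgroup.mul_mem _ (HH_normal hQ _ h) hmem
  rw [Subgroup.index_eq_two_iff]
  refine ⟨rr hQ w₀, fun g => ?_⟩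
  have hnot : rr hQ w₀ ∉ HH hQ c := by
    intro h
    have h1 : chi Q c ν (rr hQ w₀) = 1 := HH_le_ker hQ h2 hc hν h
    rw [chi_rr hQ h2 hc hν hN₀.1, sgn_eq_one] at h1
    exact hN₀.2 h1
  obtain ⟨L, hL, rfl⟩ := exists_list hQ (Or.inl (card_ne_two h2)) g
  rcases hcover L hL with h | h
  · right
    refine ⟨h, fun h' => hnot ?_⟩
    have := Subgroup.mul_mem _ (Subgroup.inv_mem _ h) h'
    simpa using this
  · left
    refine ⟨h, fun h' => hnot ?_⟩
    have := Subgroup.mul_mem _ (Subgroup.inv_mem _ h') h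
    simpa using this

end Cfsg.Agent.Lib.OrthHc
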