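import Cfsg.Agent.Lib.OrthFam

set_option autoImplicit false

namespace Cfsg.Agent.Lib.OrthPair

open Matrix Cfsg.Geo Cfsg.Agent.Lib.FormVec Cfsg.Agent.Lib.OrthE Cfsg.Agent.Lib.OrthGen
  Cfsg.Agent.Lib.OrthOmega Cfsg.Agent.Lib.OrthMax Cfsg.Agent.Lib.OrthLocal Cfsg.Agent.Lib.OrthNondeg
  Cfsg.Agent.Lib.OrthSub Cfsg.Agent.Lib.OrthSub2 Cfsg.Agent.Lib.OrthFam
open scoped MatrixGroups

variable {ι : Type} [Fintype ι] [DecidableEq ι] {F : Type*} [Field F]
variable {Q : (ι → F) → F} [Fintype F]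

local notation "B" => QuadraticMap.polar Q

/-- The basic commutator step. -/
theorem comm_step (hQ : IsNondegenerateQuadraticForm Q) {M : Subgroup (GL ι F)} {c e u w : ι → F}
    (hQc : Q c = 0) (hQe : Q e = 0) (hQu : Q u = 0) (hQw : Q w = 0) (hce : B c e = 0) (huw : B u w = 0)
    (heu : B e u = 0) (hew : B e w = 0) (hcw : B c w = 0)
    (hX : E Q c e ∈ M) (hY : E Q u w ∈ M) : E Q w (B c u • e) ∈ M := by
  have hYO := E_mem_O hQ hQu huw
  have hYc : ((E Q u w : GL ι F) : Matrix ι ι F) *ᵥ c = c + B c u • w := by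
    rw [E_mulVec hQ hQu huw, hcw, hQw]
    module
  have hYe : ((E Q u w : GL ι F) : Matrix ι ι F) *ᵥ e = e := by
    rw [E_mulVec hQ hQu huw, heu, hew, hQw]
    module
  have hconj := conj_E hQ hYO hQc hce
  rw [hYc, hYe] at hconj
  have hQκw : Q (B c u • w) = 0 := by rw [Q_smul hQ, hQw, mul_zero]
  have hadd := E_center_add hQ hQc hQκw hQe (by rw [B_smul_right hQ, hcw, mul_zero]) hce
    (by rw [B_smul_left hQ, B_comm hQ w e, hew, mul_zero])
  have hmem : E Q (B c u • w) e ∈ M := by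
    have h1 : E Q (B c u • w) e = (E Q c e)⁻¹ * E Q (c + B c u • w) e := by
      rw [hadd]
      group
    rw [h1, ← hconj]
    exact M.mul_mem (M.inv_mem hX) (M.mul_mem (M.mul_mem hY hX) (M.inv_mem hY))
  rwa [E_smul_center hQ _ hQw (by rw [B_comm hQ]; exact hew)] at hmem

section Pair

variable (hQ : IsNondegenerateQuadraticForm Q) {W₁ W₂ : Submodule F (ι → F)}
  (h₁ : IsTotallySingularQuad Q W₁) (h₂ : IsTotallySingularQuad Q W₂)
  (hd₁ : 2 * Module.finrank F W₁ = Fintype.card ι) (hd₂ : 2 * Module.finrank F W₂ = Fintype.card ι)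
  (hdisj : W₁ ⊓ W₂ = ⊥)

include hd₁ hd₂ hdisj in
theorem pair_sup : W₁ ⊔ W₂ = ⊤ := by
  apply Submodule.eq_top_of_finrank_eq
  have h1 := Submodule.finrank_sup_add_finrank_inf_eq W₁ W₂
  rw [hdisj, finrank_bot] at h1
  have h4 : Module.finrank F (ι → F) = Fintype.card ι := by simp
  omega

include hd₁ hd₂ hdisj in
theorem pair_dec (v : ι → F) : ∃ a ∈ W₁, ∃ b ∈ W₂, v = a + b := by
  have h : v ∈ W₁ ⊔ W₂ := by
    rw [pair_sup hd₁ hd₂ hdisj]
    trivial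
  obtain ⟨a, ha, b, hb, rfl⟩ := Submodule.mem_sup.mp h
  exact ⟨a, ha, b, hb, rfl⟩

include hQ h₁ hd₁ hd₂ hdisj in
/-- Separation across the pairing of `W₁` and `W₂`. -/
theorem pair_sep {X : Submodule F (ι → F)} (hX : X ≤ W₁) {y : ι → F} (hy : y ∈ W₁) (hyX : y ∉ X) :
    ∃ u ∈ W₂, B u y = 1 ∧ ∀ x ∈ X, B u x = 0 := by
  obtain ⟨u₀, h1, h0⟩ := exists_sep hQ X hyX
  obtain ⟨p, hp, u, hu, rfl⟩ := pair_dec hd₁ hd₂ hdisj u₀
  have hpW : ∀ x ∈ W₁, B p x = 0 := fun x hx => ts_perp hQ h₁ hp hx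
  refine ⟨u, hu, ?_, fun x hx => ?_⟩
  · rw [B_add_left hQ, hpW y hy, zero_add] at h1
    exact h1
  · have := h0 x hx
    rw [B_add_left hQ, hpW x (hX hx), zero_add] at this
    exact this

include hQ h₁ h₂ hd₁ hd₂ hdisj in
/-- The commutator step produces an element with both vectors in `W₁`. -/
theorem pair_gen {M : Subgroup (GL ι F)} (hk : 14 ≤ Fintype.card ι)
    (h12 : ∀ a ∈ W₁, ∀ b ∈ W₂, B a b = 0 → E Q a b ∈ M)
    {c₁ c₂ e₁ e₂ : ι → F} (hc₁ : c₁ ∈ W₁) (hc₂ : c₂ ∈ W₂) (he₁ : e₁ ∈ W₁) (he₂ : e₂ ∈ W₂)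
    (hQc : Q (c₁ + c₂) = 0) (hQe : Q (e₁ + e₂) = 0) (hce : B (c₁ + c₂) (e₁ + e₂) = 0)
    (hX : E Q (c₁ + c₂) (e₁ + e₂) ∈ M) (he₁0 : e₁ ≠ 0) (hnot : c₁ ∉ Submodule.span F {e₁}) :
    ∃ w ∈ W₁, ∃ z ∈ W₁, w ≠ 0 ∧ z ∉ Submodule.span F {w} ∧ E Q w z ∈ M := by
  have hspan : Submodule.span F {e₁} ≤ W₁ := by
    rw [Submodule.span_singleton_le_iff_mem]
    exact he₁
  obtain ⟨u, hu, hu1, hu0⟩ := pair_sep hQ h₁ hd₁ hd₂ hdisj hspan hc₁ hnot
  have hue₁ : B u e₁ = 0 := hu0 e₁ (Submodule.mem_span_singleton_self e₁)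
  have hdim : Module.finrank F (Submodule.span F {e₁}) + 3 ≤ Module.finrank F (W₁ ⊓ perp hQ (Submodule.span F {c₂, e₂} ⊔ Submodule.span F {u}) : Submodule F (ι → F)) := by
    have h1 := finrank_inf_perp_ge hQ W₁ (Submodule.span F {c₂, e₂} ⊔ Submodule.span F {u})
    have h2 := finrank_span_two_le c₂ e₂
    have h3 := finrank_span_one_le u
    have h4 := Submodule.finrank_add_le_finrank_add_finrank (Submodule.span F {c₂, e₂}) (Submodule.span F {u})
    have h5 := finrank_span_one_le e₁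
    omega
  obtain ⟨w, hw, hQw, hwn⟩ := exists_sing_gap hQ _ _ hdim
  have hwW : w ∈ W₁ := hw.1
  have hc₂w : B c₂ w = 0 := (mem_perp hQ).1 hw.2 c₂ (Submodule.mem_sup_left (Submodule.subset_span (by simp)))
  have he₂w : B e₂ w = 0 := (mem_perp hQ).1 hw.2 e₂ (Submodule.mem_sup_left (Submodule.subset_span (by simp)))
  have huw : B u w = 0 := (mem_perp hQ).1 hw.2 u (Submodule.mem_sup_right (Submodule.mem_span_singleton_self u))
  have hQu : Q u = 0 := h₂ u hu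
  have hYM : E Q u w ∈ M := by
    rw [E_swap hQ hQu hQw huw]
    exact h12 w hwW _ (W₂.neg_mem hu) (by rw [B_neg_right hQ, B_comm hQ, huw, neg_zero])
  have hcu : B (c₁ + c₂) u = 1 := by
    rw [B_add_left hQ, B_comm hQ c₁ u, hu1, ts_perp hQ h₂ hc₂ hu, add_zero]
  have heu : B (e₁ + e₂) u = 0 := by
    rw [B_add_left hQ, B_comm hQ e₁ u, hue₁, ts_perp hQ h₂ he₂ hu, add_zero]
  have hew : B (e₁ + e₂) w = 0 := by
    rw [B_add_left hQ, ts_perp hQ h₁ he₁ hwW, he₂w, add_zero]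
  have hcw : B (c₁ + c₂) w = 0 := by
    rw [B_add_left hQ, ts_perp hQ h₁ hc₁ hwW, hc₂w, add_zero]
  have hmem := comm_step hQ hQc hQe hQu hQw hce huw heu hew hcw hX hYM
  rw [hcu, one_smul] at hmem
  have hwe₁ : B w e₁ = 0 := ts_perp hQ h₁ hwW he₁
  have hwe₂ : B w e₂ = 0 := by rw [B_comm hQ]; exact he₂w
  rw [← E_mul hQ hQw hwe₁ hwe₂] at hmem
  refine ⟨w, hwW, e₁, he₁, ?_, ?_, ?_⟩
  · rintro rfl
    exact hwn (Submodule.zero_mem _)
  · intro hc
    apply hwn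
    obtain ⟨k, hk'⟩ := Submodule.mem_span_singleton.mp hc
    have hk0 : k ≠ 0 := by
      rintro rfl
      rw [zero_smul] at hk'
      exact he₁0 hk'.symm
    rw [Submodule.mem_span_singleton]
    refine ⟨k⁻¹, ?_⟩
    rw [← hk', smul_smul, inv_mul_cancel₀ hk0, one_smul]
  · have h3 : E Q w e₁ = (E Q w e₁ * E Q w e₂) * (E Q w e₂)⁻¹ := by group
    rw [h3]
    exact M.mul_mem hmem (M.inv_mem (h12 w hwW e₂ he₂ hwe₂))

include hQ h₁ hd₁ hd₂ hdisj in
/-- From one element with both vectors in `W₁` to all of them. -/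
theorem pair_all {M : Subgroup (GL ι F)} (hk : 14 ≤ Fintype.card ι)
    (h12 : ∀ a ∈ W₁, ∀ b ∈ W₂, B a b = 0 → E Q a b ∈ M)
    {w z : ι → F} (hw : w ∈ W₁) (hz : z ∈ W₁) (hw0 : w ≠ 0) (hn : z ∉ Submodule.span F {w}) (hE : E Q w z ∈ M) :
    ∀ x ∈ W₁, ∀ y ∈ W₁, E Q x y ∈ M := by
  have hfr₁ : 7 ≤ Module.finrank F W₁ := by omega
  have hB : ∀ {x y : ι → F}, x ∈ W₁ → y ∈ W₁ → B x y = 0 := fun hx hy => ts_perp hQ h₁ hx hy
  have hQ₁ : ∀ {x : ι → F}, x ∈ W₁ → Q x = 0 := fun hx => h₁ _ hx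
  -- step 1: change the first vector
  have step1 : ∀ w ∈ W₁, ∀ z ∈ W₁, w ≠ 0 → z ∉ Submodule.span F {w} → E Q w z ∈ M → ∀ p ∈ W₁, E Q p z ∈ M := by
    intro w hw z hz hw0 hn hE
    have hfar : ∀ p ∈ W₁, p ∉ Submodule.span F {w, z} → E Q p z ∈ M := by
      intro p hp hpn
      have hwn : w ∉ Submodule.span F {p, z} := by
        intro hc
        obtain ⟨α, β, h⟩ := Submodule.mem_span_pair.mp hc
        by_cases hα : α = 0
        · rw [hα, zero_smul, zero_add] at h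
          -- w is a multiple of z
          have hβ : β ≠ 0 := by
            rintro rfl
            rw [zero_smul] at h
            exact hw0 h.symm
          apply hn
          rw [Submodule.mem_span_singleton]
          refine ⟨β⁻¹, ?_⟩
          rw [← h, smul_smul, inv_mul_cancel₀ hβ, one_smul]
        · apply hpn
          have h3 : p = α⁻¹ • w + (-(α⁻¹ * β)) • z := by
            rw [← h, smul_add, smul_smul, smul_smul, inv_mul_cancel₀ hα, one_smul, neg_smul]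
            abel
          rw [h3]
          exact Submodule.add_mem _ (Submodule.smul_mem _ _ (Submodule.subset_span (by simp))) (Submodule.smul_mem _ _ (Submodule.subset_span (by simp)))
      have hXle : Submodule.span F {p, z} ≤ W₁ := by
        rw [Submodule.span_le]
        rintro _ (rfl | rfl)
        · exact hp
        · exact hz
      obtain ⟨q, hq, hq1, hq0⟩ := pair_sep hQ h₁ hd₁ hd₂ hdisj hXle hw hwn
      let d := (-1 : F) • q
      have hpq : B p q = 0 := by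
        rw [B_comm hQ]
        exact hq0 p (Submodule.subset_span (by simp))
      have hzq : B z q = 0 := by
        rw [B_comm hQ]
        exact hq0 z (Submodule.subset_span (by simp))
      have hpd : B p d = 0 := by
        simp only [d]
        rw [B_smul_right hQ, hpq, mul_zero]
      have hT := h12 p hp d (W₂.smul_mem _ hq) hpd
      have hTO := E_mem_O hQ (hQ₁ hp) hpd
      have hTw : ((E Q p d : GL ι F) : Matrix ι ι F) *ᵥ w = w + p := by
        rw [E_mulVec_of_orth hQ (hQ₁ hp) hpd (hB hw hp)]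
        simp only [d]
        rw [B_smul_right hQ, B_comm hQ w q, hq1]
        module
      have hTz : ((E Q p d : GL ι F) : Matrix ι ι F) *ᵥ z = z := by
        rw [E_mulVec_of_orth hQ (hQ₁ hp) hpd (hB hz hp)]
        simp only [d]
        rw [B_smul_right hQ, hzq]
        module
      have hc := conj_E hQ hTO (hQ₁ hw) (hB hw hz)
      rw [hTw, hTz] at hc
      have h4 : E Q (w + p) z ∈ M := by
        rw [← hc]
        exact M.mul_mem (M.mul_mem hT hE) (M.inv_mem hT)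
      have hadd := E_center_add hQ (hQ₁ hw) (hQ₁ hp) (hQ₁ hz) (hB hw hp) (hB hw hz) (hB hp hz)
      have h5 : E Q p z = (E Q w z)⁻¹ * E Q (w + p) z := by
        rw [hadd]
        group
      rw [h5]
      exact M.mul_mem (M.inv_mem hE) h4
    -- all p
    intro p hp
    -- a vector p' outside the span of w, z, p
    have hdim : Module.finrank F (Submodule.span F {w, z} ⊔ Submodule.span F {p} : Submodule F (ι → F)) + 3 ≤ Module.finrank F W₁ := by
      have h2 := finrank_span_two_le w z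
      have h3 := finrank_span_one_le p
      have h4 := Submodule.finrank_add_le_finrank_add_finrank (Submodule.span F {w, z}) (Submodule.span F {p})
      omega
    obtain ⟨p', hp', _, hp'n⟩ := exists_sing_gap hQ _ _ hdim
    have h6 : p' ∉ Submodule.span F {w, z} := fun hc => hp'n (Submodule.mem_sup_left hc)
    have h7 : p + p' ∉ Submodule.span F {w, z} := by
      intro hc
      by_cases hpin : p ∈ Submodule.span F {w, z}
      · apply h6
        have : p' = (p + p') - p := by abel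
        rw [this]
        exact Submodule.sub_mem _ hc hpin
      · -- p' would be in the sum
        apply hp'n
        have : p' = (p + p') - p := by abel
        rw [this]
        exact Submodule.sub_mem _ (Submodule.mem_sup_left hc) (Submodule.mem_sup_right (Submodule.mem_span_singleton_self p))
    have h8 := hfar p' hp' h6
    have h9 := hfar (p + p') (W₁.add_mem hp hp') h7
    have hadd := E_center_add hQ (hQ₁ hp) (hQ₁ hp') (hQ₁ hz) (hB hp hp') (hB hp hz) (hB hp' hz)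
    have h10 : E Q p z = E Q (p + p') z * (E Q p' z)⁻¹ := by
      rw [hadd]
      group
    rw [h10]
    exact M.mul_mem h9 (M.inv_mem h8)
  -- step 2
  have hallz := step1 w hw z hz hw0 hn hE
  have hz0 : z ≠ 0 := by
    rintro rfl
    exact hn (Submodule.zero_mem _)
  have hswap : ∀ p ∈ W₁, p ∉ Submodule.span F {z} → ∀ y ∈ W₁, E Q y p ∈ M := by
    intro p hp hpn y hy
    have h1 : E Q z (-p) ∈ M := by
      rw [← E_swap hQ (hQ₁ hp) (hQ₁ hz) (hB hp hz)]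
      exact hallz p hp
    have hnp : -p ∉ Submodule.span F {z} := by
      intro hc
      apply hpn
      have := Submodule.neg_mem _ hc
      rwa [neg_neg] at this
    have h2 := step1 z hz (-p) (W₁.neg_mem hp) hz0 hnp h1 y hy
    rw [E_neg hQ (hQ₁ hy) (hB hy hp)] at h2
    have := M.inv_mem h2
    rwa [inv_inv] at this
  intro x hx y hy
  by_cases hyz : y ∈ Submodule.span F {z}
  · have hdim : Module.finrank F (Submodule.span F {z}) + 3 ≤ Module.finrank F W₁ := by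
      have h3 := finrank_span_one_le z
      omega
    obtain ⟨p', hp', _, hp'n⟩ := exists_sing_gap hQ _ _ hdim
    have h7 : y + p' ∉ Submodule.span F {z} := by
      intro hc
      apply hp'n
      have : p' = (y + p') - y := by abel
      rw [this]
      exact Submodule.sub_mem _ hc hyz
    have h8 := hswap p' hp' hp'n x hx
    have h9 := hswap (y + p') (W₁.add_mem hy hp') h7 x hx
    rw [← E_mul hQ (hQ₁ hx) (hB hx hy) (hB hx hp')] at h9
    have h10 : E Q x y = (E Q x y * E Q x p') * (E Q x p')⁻¹ := by group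
    rw [h10]
    exact M.mul_mem h9 (M.inv_mem h8)
  · exact hswap y hy hyz x hx

include hQ h₁ hd₁ hd₂ hdisj in
/-- Full centres from all elements with vectors in `W₁`. -/
theorem pair_full {M : Subgroup (GL ι F)}
    (h12 : ∀ a ∈ W₁, ∀ b ∈ W₂, B a b = 0 → E Q a b ∈ M) (hall : ∀ x ∈ W₁, ∀ y ∈ W₁, E Q x y ∈ M) :
    ∀ a ∈ W₁, FullC Q M a := by
  intro a ha
  refine ⟨h₁ a ha, fun d hd => ?_⟩
  obtain ⟨d₁, hd₁', d₂, hd₂', rfl⟩ := pair_dec hd₁ hd₂ hdisj d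
  have h1 : B a d₁ = 0 := ts_perp hQ h₁ ha hd₁'
  have h2 : B a d₂ = 0 := by
    rw [B_add_right hQ, h1, zero_add] at hd
    exact hd
  rw [← E_mul hQ (h₁ a ha) h1 h2]
  exact M.mul_mem (hall a ha d₁ hd₁') (h12 a ha d₂ hd₂' h2)

include hQ h₁ h₂ hd₁ hd₂ hdisj in
/-- An element moving `W₁` off both `W₁` and `W₂` gives an element with both vectors in `W₁` or in `W₂`. -/
theorem get_elt {M : Subgroup (GL ι F)} (hk : 14 ≤ Fintype.card ι)
    (h12 : ∀ a ∈ W₁, ∀ b ∈ W₂, B a b = 0 → E Q a b ∈ M)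
    {g : GL ι F} (hgM : g ∈ M) (hgO : g ∈ isometryGroup F Q)
    (hg1 : ¬ ∀ x ∈ W₁, (g : Matrix ι ι F) *ᵥ x ∈ W₁) (hg2 : ¬ ∀ x ∈ W₁, (g : Matrix ι ι F) *ᵥ x ∈ W₂) :
    (∃ w ∈ W₁, ∃ z ∈ W₁, w ≠ 0 ∧ z ∉ Submodule.span F {w} ∧ E Q w z ∈ M) ∨
    (∃ w ∈ W₂, ∃ z ∈ W₂, w ≠ 0 ∧ z ∉ Submodule.span F {w} ∧ E Q w z ∈ M) := by
  -- a vector of W₁ mapped outside W₁ and W₂
  obtain ⟨a, ha, hga₁, hga₂⟩ : ∃ a ∈ W₁, (g : Matrix ι ι F) *ᵥ a ∉ W₁ ∧ (g : Matrix ι ι F) *ᵥ a ∉ W₂ := by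
    push Not at hg1 hg2
    obtain ⟨x₁, hx₁, hgx₁⟩ := hg1
    obtain ⟨x₂, hx₂, hgx₂⟩ := hg2
    by_cases h1 : (g : Matrix ι ι F) *ᵥ x₁ ∈ W₂
    · by_cases h2 : (g : Matrix ι ι F) *ᵥ x₂ ∈ W₁
      · refine ⟨x₁ + x₂, W₁.add_mem hx₁ hx₂, ?_, ?_⟩
        · rw [Matrix.mulVec_add]
          intro h3
          apply hgx₁
          have : (g : Matrix ι ι F) *ᵥ x₁ = ((g : Matrix ι ι F) *ᵥ x₁ + (g : Matrix ι ι F) *ᵥ x₂) - (g : Matrix ι ι F) *ᵥ x₂ := by abel
          rw [this]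
          exact W₁.sub_mem h3 h2
        · rw [Matrix.mulVec_add]
          intro h3
          apply hgx₂
          have : (g : Matrix ι ι F) *ᵥ x₂ = ((g : Matrix ι ι F) *ᵥ x₁ + (g : Matrix ι ι F) *ᵥ x₂) - (g : Matrix ι ι F) *ᵥ x₁ := by abel
          rw [this]
          exact W₂.sub_mem h3 h1
      · exact ⟨x₂, hx₂, h2, hgx₂⟩
    · exact ⟨x₁, hx₁, hgx₁, h1⟩
  have ha0 : a ≠ 0 := by
    rintro rfl
    rw [Matrix.mulVec_zero] at hga₁
    exact hga₁ W₁.zero_mem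
  have hfr₂ : 7 ≤ Module.finrank F W₂ := by omega
  have hdimY : 6 ≤ Module.finrank F (W₂ ⊓ perp hQ (Submodule.span F {a}) : Submodule F (ι → F)) := by
    have h1 := finrank_inf_perp_ge hQ W₂ (Submodule.span F {a})
    have h2 := finrank_span_one_le a
    omega
  obtain ⟨b, hb, hb0, -⟩ := exists_sing hQ _ (by omega : 3 ≤ Module.finrank F (W₂ ⊓ perp hQ (Submodule.span F {a}) : Submodule F (ι → F)))
  obtain ⟨b', hb', -, hb'n⟩ := exists_sing_gap hQ (W₂ ⊓ perp hQ (Submodule.span F {a})) (Submodule.span F {b}) (by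
    have h2 := finrank_span_one_le b
    omega)
  have hab : B a b = 0 := (mem_perp hQ).1 hb.2 a (Submodule.mem_span_singleton_self a)
  have hab' : B a b' = 0 := (mem_perp hQ).1 hb'.2 a (Submodule.mem_span_singleton_self a)
  -- the images
  let c := (g : Matrix ι ι F) *ᵥ a
  have hQc : Q c = 0 := by
    simp only [c]
    rw [(mem_O_iff g).1 hgO, h₁ a ha]
  obtain ⟨c₁, hc₁, c₂, hc₂, hcdec⟩ := pair_dec hd₁ hd₂ hdisj c
  have hc₁0 : c₁ ≠ 0 := by
    rintro rfl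
    rw [zero_add] at hcdec
    apply hga₂
    show c ∈ _
    rw [hcdec]
    exact hc₂
  have hc₂0 : c₂ ≠ 0 := by
    rintro rfl
    rw [add_zero] at hcdec
    apply hga₁
    show c ∈ _
    rw [hcdec]
    exact hc₁
  -- the general step for a vector b
  have hstep : ∀ b ∈ W₂, B a b = 0 → ∀ e₁ ∈ W₁, ∀ e₂ ∈ W₂, (g : Matrix ι ι F) *ᵥ b = e₁ + e₂ →
      ((e₁ ≠ 0 ∧ c₁ ∉ Submodule.span F {e₁}) ∨ (e₂ ≠ 0 ∧ c₂ ∉ Submodule.span F {e₂})) →
      (∃ w ∈ W₁, ∃ z ∈ W₁, w ≠ 0 ∧ z ∉ Submodule.span F {w} ∧ E Q w z ∈ M) ∨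
      (∃ w ∈ W₂, ∃ z ∈ W₂, w ≠ 0 ∧ z ∉ Submodule.span F {w} ∧ E Q w z ∈ M) := by
    intro b hb hab e₁ he₁ e₂ he₂ hedec hgood
    have hQb : Q b = 0 := h₂ b hb
    have hX : E Q c ((g : Matrix ι ι F) *ᵥ b) ∈ M := by
      have := conj_E hQ hgO (h₁ a ha) hab
      rw [← this]
      exact M.mul_mem (M.mul_mem hgM (h12 a ha b hb hab)) (M.inv_mem hgM)
    have hQe : Q ((g : Matrix ι ι F) *ᵥ b) = 0 := by
      rw [(mem_O_iff g).1 hgO, hQb]
    have hce : B c ((g : Matrix ι ι F) *ᵥ b) = 0 := by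
      simp only [c]
      rw [O_B hgO, hab]
    rw [hcdec, hedec] at hX hce
    rw [hedec] at hQe
    rw [hcdec] at hQc
    rcases hgood with ⟨h0, hn⟩ | ⟨h0, hn⟩
    · left
      exact pair_gen hQ h₁ h₂ hd₁ hd₂ hdisj hk h12 hc₁ hc₂ he₁ he₂ hQc hQe hce hX h0 hn
    · right
      have h21 : ∀ a ∈ W₂, ∀ b ∈ W₁, B a b = 0 → E Q a b ∈ M := by
        intro a ha b hb hab
        rw [E_swap hQ (h₂ a ha) (h₁ b hb) hab]
        exact h12 b hb _ (W₂.neg_mem ha) (by rw [B_neg_right hQ, B_comm hQ, hab, neg_zero])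
      refine pair_gen hQ h₂ h₁ hd₂ hd₁ (by rw [inf_comm]; exact hdisj) hk h21 hc₂ hc₁ he₂ he₁ ?_ ?_ ?_ ?_ h0 hn
      · rw [add_comm]; exact hQc
      · rw [add_comm]; exact hQe
      · rw [add_comm c₂, add_comm e₂]; exact hce
      · rw [add_comm c₂, add_comm e₂]; exact hX
  obtain ⟨e₁, he₁, e₂, he₂, hedec⟩ := pair_dec hd₁ hd₂ hdisj ((g : Matrix ι ι F) *ᵥ b)
  obtain ⟨e₁', he₁', e₂', he₂', hedec'⟩ := pair_dec hd₁ hd₂ hdisj ((g : Matrix ι ι F) *ᵥ b')
  by_cases hg : ((e₁ ≠ 0 ∧ c₁ ∉ Submodule.span F {e₁}) ∨ (e₂ ≠ 0 ∧ c₂ ∉ Submodule.span F {e₂}))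
  · exact hstep b hb.1 hab e₁ he₁ e₂ he₂ hedec hg
  by_cases hg' : ((e₁' ≠ 0 ∧ c₁ ∉ Submodule.span F {e₁'}) ∨ (e₂' ≠ 0 ∧ c₂ ∉ Submodule.span F {e₂'}))
  · exact hstep b' hb'.1 hab' e₁' he₁' e₂' he₂' hedec' hg'
  exfalso
  -- everything lies in a plane
  have hbad : ∀ {x y : ι → F}, y ≠ 0 → ¬ (x ≠ 0 ∧ y ∉ Submodule.span F {x}) → x ∈ Submodule.span F {y} := by
    intro x y hy h
    by_cases hx : x = 0
    · rw [hx]
      exact Submodule.zero_mem _
    · have h1 : y ∈ Submodule.span F {x} := by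
        by_contra hc
        exact h ⟨hx, hc⟩
      obtain ⟨k, hk'⟩ := Submodule.mem_span_singleton.mp h1
      have hk0 : k ≠ 0 := by
        rintro rfl
        rw [zero_smul] at hk'
        exact hy hk'.symm
      rw [Submodule.mem_span_singleton]
      refine ⟨k⁻¹, ?_⟩
      rw [← hk', smul_smul, inv_mul_cancel₀ hk0, one_smul]
  push Not at hg hg'
  let P := Submodule.span F {c₁, c₂}
  have hc₁P : Submodule.span F {c₁} ≤ P := Submodule.span_mono (by simp)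
  have hc₂P : Submodule.span F {c₂} ≤ P := Submodule.span_mono (by simp)
  have hg1P : (g : Matrix ι ι F) *ᵥ b ∈ P := by
    rw [hedec]
    refine P.add_mem (hc₁P (hbad hc₁0 ?_)) (hc₂P (hbad hc₂0 ?_))
    · rintro ⟨h1, h2⟩
      exact h2 (hg.1 h1)
    · rintro ⟨h1, h2⟩
      exact h2 (hg.2 h1)
  have hg2P : (g : Matrix ι ι F) *ᵥ b' ∈ P := by
    rw [hedec']
    refine P.add_mem (hc₁P (hbad hc₁0 ?_)) (hc₂P (hbad hc₂0 ?_))
    · rintro ⟨h1, h2⟩
      exact h2 (hg'.1 h1)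
    · rintro ⟨h1, h2⟩
      exact h2 (hg'.2 h1)
  have hg3P : (g : Matrix ι ι F) *ᵥ a ∈ P := by
    show c ∈ _
    rw [hcdec]
    exact P.add_mem (hc₁P (Submodule.mem_span_singleton_self c₁)) (hc₂P (Submodule.mem_span_singleton_self c₂))
  let S := (Submodule.span F {b} ⊔ Submodule.span F {b'}) ⊔ Submodule.span F {a}
  have hSfr : Module.finrank F S = 3 := by
    have h1 : Module.finrank F (Submodule.span F {b} ⊔ Submodule.span F {b'} : Submodule F (ι → F)) = 2 := by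
      rw [finrank_sup_span _ hb'n, finrank_span_singleton hb0]
    have hanot : a ∉ Submodule.span F {b} ⊔ Submodule.span F {b'} := by
      intro hc
      have hle : Submodule.span F {b} ⊔ Submodule.span F {b'} ≤ W₂ := by
        rw [sup_le_iff, Submodule.span_singleton_le_iff_mem, Submodule.span_singleton_le_iff_mem]
        exact ⟨hb.1, hb'.1⟩
      have : a ∈ W₁ ⊓ W₂ := ⟨ha, hle hc⟩
      rw [hdisj] at this
      exact ha0 ((Submodule.mem_bot F).1 this)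
    show Module.finrank F ((Submodule.span F {b} ⊔ Submodule.span F {b'}) ⊔ Submodule.span F {a} : Submodule F (ι → F)) = 3
    rw [finrank_sup_span _ hanot, h1]
  have hSP : gm g S ≤ P := by
    rintro _ ⟨x, hx, rfl⟩
    show (g : Matrix ι ι F) *ᵥ x ∈ P
    have hle : S ≤ P.comap (glEquiv g : (ι → F) →ₗ[F] (ι → F)) := by
      refine sup_le (sup_le ?_ ?_) ?_
      · rw [Submodule.span_singleton_le_iff_mem]
        exact hg1P
      · rw [Submodule.span_singleton_le_iff_mem]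
        exact hg2P
      · rw [Submodule.span_singleton_le_iff_mem]
        exact hg3P
    exact hle hx
  have h1 := Submodule.finrank_mono hSP
  rw [finrank_gm, hSfr] at h1
  have h2 : Module.finrank F P ≤ 2 := finrank_span_two_le c₁ c₂
  omega

include hQ h₁ h₂ hd₁ hd₂ hdisj in
/-- Closing the argument: elements with vectors in `W₁` and a swap give all of Ω. -/
theorem pair_close {M : Subgroup (GL ι F)} (hk : 14 ≤ Fintype.card ι) (hMO : M ≤ isometryGroup F Q)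
    (h12 : ∀ a ∈ W₁, ∀ b ∈ W₂, B a b = 0 → E Q a b ∈ M)
    {s : GL ι F} (hsM : s ∈ M) (hs1 : ∀ x ∈ W₁, (s : Matrix ι ι F) *ᵥ x ∈ W₂)
    (helt : ∃ w ∈ W₁, ∃ z ∈ W₁, w ≠ 0 ∧ z ∉ Submodule.span F {w} ∧ E Q w z ∈ M) :
    omegaGL Q ≤ M := by
  have hn5 : 5 ≤ Fintype.card ι := by omega
  obtain ⟨w, hw, z, hz, hw0, hn, hE⟩ := helt
  have hall := pair_all hQ h₁ hd₁ hd₂ hdisj hk h12 hw hz hw0 hn hE
  have hfull := pair_full hQ h₁ hd₁ hd₂ hdisj h12 hall
  have hmap : gm s W₁ = W₂ := by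
    have hle : gm s W₁ ≤ W₂ := by
      rintro _ ⟨x, hx, rfl⟩
      exact hs1 x hx
    exact Submodule.eq_of_le_of_finrank_eq hle (by rw [finrank_gm]; omega)
  have hfull2 : ∀ y ∈ W₂, FullC Q M y := by
    intro y hy
    rw [← hmap] at hy
    obtain ⟨x, hx, rfl⟩ := hy
    exact (hfull x hx).conj hQ hsM (hMO hsM)
  have hnot : w ∉ (⊥ : Submodule F (ι → F)) := fun h => hw0 ((Submodule.mem_bot F).1 h)
  obtain ⟨u, hu, hu1, -⟩ := pair_sep hQ h₁ hd₁ hd₂ hdisj bot_le hw hnot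
  refine omega_le_of_full hQ hn5 (fun x hx => ?_)
  exact all_full hQ hn5 hMO (hfull w hw) (hfull2 u hu) (by rw [hu1]; exact one_ne_zero) hx

include hQ h₁ h₂ hd₁ hd₂ hdisj in
/-- **Pairs of complementary totally singular subspaces.** -/
theorem pair_maximal (hk : 14 ≤ Fintype.card ι) (H : Subgroup (GL ι F)) (hHO : H ≤ omegaGL Q)
    (h12 : ∀ a ∈ W₁, ∀ b ∈ W₂, B a b = 0 → E Q a b ∈ H)
    {s : GL ι F} (hsH : s ∈ H) (hs1 : ∀ x ∈ W₁, (s : Matrix ι ι F) *ᵥ x ∈ W₂)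
    (hs2 : ∀ x ∈ W₂, (s : Matrix ι ι F) *ᵥ x ∈ W₁)
    (hout : ∀ g ∈ omegaGL Q, g ∉ H →
      (¬ (∀ x ∈ W₁, (g : Matrix ι ι F) *ᵥ x ∈ W₁) ∧ ¬ (∀ x ∈ W₁, (g : Matrix ι ι F) *ᵥ x ∈ W₂)) ∨
      (¬ (∀ x ∈ W₂, (g : Matrix ι ι F) *ᵥ x ∈ W₁) ∧ ¬ (∀ x ∈ W₂, (g : Matrix ι ι F) *ᵥ x ∈ W₂)))
    (hne : ∃ t ∈ omegaGL Q, t ∉ H) : IsMaximalIn (omegaGL Q) H := by
  have hdisj' : W₂ ⊓ W₁ = ⊥ := by rw [inf_comm]; exact hdisj
  constructor
  · refine lt_of_le_of_ne hHO ?_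
    intro heq
    obtain ⟨t, ht, htH⟩ := hne
    exact htH (heq ▸ ht)
  · intro M hHM hMK
    have hMO : M ≤ isometryGroup F Q := hMK.trans omega_le_O
    by_cases hMH : M ≤ H
    · exact Or.inl (le_antisymm hMH hHM)
    right
    refine le_antisymm hMK ?_
    obtain ⟨g, hgM, hgH⟩ := Set.not_subset.mp hMH
    have h12M : ∀ a ∈ W₁, ∀ b ∈ W₂, B a b = 0 → E Q a b ∈ M := fun a ha b hb hab => hHM (h12 a ha b hb hab)
    have h21M : ∀ a ∈ W₂, ∀ b ∈ W₁, B a b = 0 → E Q a b ∈ M := by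
      intro a ha b hb hab
      rw [E_swap hQ (h₂ a ha) (h₁ b hb) hab]
      exact h12M b hb _ (W₂.neg_mem ha) (by rw [B_neg_right hQ, B_comm hQ, hab, neg_zero])
    have hcase : (∃ w ∈ W₁, ∃ z ∈ W₁, w ≠ 0 ∧ z ∉ Submodule.span F {w} ∧ E Q w z ∈ M) ∨
        (∃ w ∈ W₂, ∃ z ∈ W₂, w ≠ 0 ∧ z ∉ Submodule.span F {w} ∧ E Q w z ∈ M) := by
      rcases hout g (hMK hgM) hgH with ⟨h1, h2⟩ | ⟨h1, h2⟩
      · exact get_elt hQ h₁ h₂ hd₁ hd₂ hdisj hk h12M hgM (hMO hgM) h1 h2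
      · exact (get_elt hQ h₂ h₁ hd₂ hd₁ hdisj' hk h21M hgM (hMO hgM) h2 h1).symm
    rcases hcase with h | h
    · exact pair_close hQ h₁ h₂ hd₁ hd₂ hdisj hk hMO h12M (hHM hsH) hs1 h
    · exact pair_close hQ h₂ h₁ hd₂ hd₁ hdisj' hk hMO h21M (hHM hsH) hs2 h

end Pair

end Cfsg.Agent.Lib.OrthPair
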