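import Cfsg.Agent.Lib.OrthDouble

set_option autoImplicit false

namespace Cfsg.Agent.Lib.OrthSL

open Matrix Cfsg.Geo Cfsg.Agent.Lib.TvGL Cfsg.Agent.Lib.FormVec Cfsg.Agent.Lib.OrthE Cfsg.Agent.Lib.OrthGen
  Cfsg.Agent.Lib.OrthOmega Cfsg.Agent.Lib.OrthMax Cfsg.Agent.Lib.OrthLocal Cfsg.Agent.Lib.OrthNondeg
  Cfsg.Agent.Lib.OrthSub Cfsg.Agent.Lib.OrthSub2 Cfsg.Agent.Lib.OrthFam Cfsg.Agent.Lib.OrthPair
  Cfsg.Agent.Lib.OrthSwap Cfsg.Agent.Lib.OrthDouble
open scoped MatrixGroups

variable {ι : Type} [Fintype ι] [DecidableEq ι] {F : Type*} [Field F]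
variable {Q : (ι → F) → F}

local notation "B" => QuadraticMap.polar Q

/-- Transvections described through the polar form: `x ↦ x + B x w • v`. -/
noncomputable def T (hQ : IsNondegenerateQuadraticForm Q) (v w : ι → F) : GL ι F :=
  open scoped Classical in
  if h : B v w = 0 then tv v (pv (QuadraticMap.polar Q) w) (by rw [pv_dot hQ.polar_bilinear]; exact h) else 1

section
variable (hQ : IsNondegenerateQuadraticForm Q)

theorem T_mulVec {v w : ι → F} (h : B v w = 0) (x : ι → F) :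
    ((T hQ v w : GL ι F) : Matrix ι ι F) *ᵥ x = x + B x w • v := by
  rw [T, dif_pos h, tv_mulVec, pv_dot hQ.polar_bilinear]

theorem T_mem_SL (v w : ι → F) : T hQ v w ∈ specialLinear ι F := by
  rw [T]
  split_ifs
  · exact tv_mem_SL _ _ _
  · exact (specialLinear ι F).one_mem

theorem T_add_right {v w w' : ι → F} (h : B v w = 0) (h' : B v w' = 0) :
    T hQ v w * T hQ v w' = T hQ v (w + w') := by
  have hvv : B v w' = 0 := h'
  apply gl_ext
  intro x
  rw [mul_mulVec, T_mulVec hQ h, T_mulVec hQ h', T_mulVec hQ (by rw [B_add_right hQ, h, h', add_zero]),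
    B_add_left hQ, B_smul_left hQ, B_add_right hQ, h, mul_zero, add_zero]
  module

theorem T_add_left {v v' w : ι → F} (h : B v w = 0) (h' : B v' w = 0) :
    T hQ v w * T hQ v' w = T hQ (v + v') w := by
  apply gl_ext
  intro x
  rw [mul_mulVec, T_mulVec hQ h, T_mulVec hQ h', T_mulVec hQ (by rw [B_add_left hQ, h, h', add_zero]),
    B_add_left hQ, B_smul_left hQ, h', mul_zero, add_zero]
  module

theorem T_smul (c : F) {v w : ι → F} (h : B v w = 0) : T hQ (c • v) w = T hQ v (c • w) := by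
  apply gl_ext
  intro x
  rw [T_mulVec hQ (by rw [B_smul_left hQ, h, mul_zero]), T_mulVec hQ (by rw [B_smul_right hQ, h, mul_zero]),
    B_smul_right hQ, smul_smul, mul_comm]

theorem T_zero_right (v : ι → F) : T hQ v 0 = 1 := by
  apply gl_ext
  intro x
  rw [T_mulVec hQ (B_zero_right hQ v), one_mulVec', B_zero_right hQ]
  simp

theorem T_zero_left (w : ι → F) : T hQ 0 w = 1 := by
  apply gl_ext
  intro x
  rw [T_mulVec hQ (B_zero_left hQ w), one_mulVec']
  simp

theorem T_inv {v w : ι → F} (h : B v w = 0) : (T hQ v w)⁻¹ = T hQ (-v) w := by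
  rw [eq_comm]
  apply eq_inv_of_mul_eq_one_right
  rw [T_add_left hQ h (by rw [B_neg_left hQ, h, neg_zero]), add_neg_cancel, T_zero_left hQ]

theorem T_inv' {v w : ι → F} (h : B v w = 0) : (T hQ v w)⁻¹ = T hQ v (-w) := by
  rw [eq_comm]
  apply eq_inv_of_mul_eq_one_right
  rw [T_add_right hQ h (by rw [B_neg_right hQ, h, neg_zero]), add_neg_cancel, T_zero_right hQ]

theorem T_comm {v w v' w' : ι → F} (hvw : B v w = 0) (hvw' : B v' w' = 0) (h1 : B v' w = 0) (h2 : B v w' = 0) :
    T hQ v w * T hQ v' w' = T hQ v' w' * T hQ v w := by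
  apply gl_ext
  intro x
  rw [mul_mulVec, mul_mulVec, T_mulVec hQ hvw, T_mulVec hQ hvw', T_mulVec hQ hvw, T_mulVec hQ hvw',
    B_add_left hQ, B_add_left hQ, B_smul_left hQ, B_smul_left hQ, h1, h2]
  module

theorem T_conj {h : GL ι F} (hh : h ∈ isometryGroup F Q) {v w : ι → F} (hvw : B v w = 0) :
    h * T hQ v w * h⁻¹ = T hQ ((h : Matrix ι ι F) *ᵥ v) ((h : Matrix ι ι F) *ᵥ w) := by
  apply gl_ext
  intro x
  rw [mul_mulVec, mul_mulVec, T_mulVec hQ hvw, T_mulVec hQ (by rw [O_B hh, hvw]), Matrix.mulVec_add,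
    Matrix.mulVec_smul, mulVec_inv_mulVec, O_inv_B hh]

theorem E_eq_T {a d : ι → F} (ha : Q a = 0) (had : B a d = 0) (hd : Q d = 0) :
    E Q a d = T hQ d a * T hQ (-a) d := by
  have haa : B a a = 0 := by rw [B_self hQ, ha, mul_zero]
  have hda : B d a = 0 := by rw [B_comm hQ, had]
  apply gl_ext
  intro x
  rw [E_mulVec hQ ha had, mul_mulVec, T_mulVec hQ hda, T_mulVec hQ (by rw [B_neg_left hQ, had, neg_zero]), hd,
    B_add_left hQ, B_smul_left hQ, B_neg_left hQ, haa]
  module

/-- If a subgroup contains all transvections then it contains `SL`. -/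
theorem sl_le_of_T {M : Subgroup (GL ι F)} (hM : ∀ v w, B v w = 0 → T hQ v w ∈ M) :
    specialLinear ι F ≤ M := by
  have hle : M ⊓ specialLinear ι F = specialLinear ι F := by
    apply eq_SL_of_tv_mem inf_le_right
    intro a φ h
    obtain ⟨w, rfl⟩ := exists_rep_left hQ.polar_bilinear hQ.nondegenerate φ
    have haw : B a w = 0 := by
      rw [pv_dot hQ.polar_bilinear] at h
      exact h
    have e : tv a (pv (QuadraticMap.polar Q) w) h = T hQ a w := by
      rw [T, dif_pos haw]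
    rw [e]
    exact ⟨hM a w haw, T_mem_SL hQ a w⟩
  rw [← hle]
  exact inf_le_left

theorem omega_le_SL : omegaGL Q ≤ specialLinear ι F := by
  rintro _ ⟨y, hy, rfl⟩
  have h : commutator (isometryGroup F Q) ≤
      ((Matrix.GeneralLinearGroup.det : GL ι F →* Fˣ).comp (isometryGroup F Q).subtype).ker :=
    Abelianization.commutator_subset_ker _
  have := h hy
  rw [MonoidHom.mem_ker] at this
  exact this

end

section Main

variable [Fintype F]

/-- The criterion for being a similarity. -/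
theorem sim_of_perp (hQ : IsNondegenerateQuadraticForm Q) (hn : 13 ≤ Fintype.card ι) (h2 : (2 : F) ≠ 0) {g : GL ι F}
    (H : ∀ a d x : ι → F, Q a = 0 → a ≠ 0 → Q d = 0 → B a d = 0 → d ∉ Submodule.span F {a} → B x a = 0 → B x d = 0 →
      B ((g : Matrix ι ι F) *ᵥ x) ((g : Matrix ι ι F) *ᵥ a) = 0) :
    g ∈ quadSimilarityGroup Q := by
  have hfinY : ∀ a : ι → F, Fintype.card ι ≤ Module.finrank F (perp hQ (Submodule.span F {a})) + 1 := by
    intro a
    have h1 := finrank_perp hQ (Submodule.span F {a})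
    have h3 := finrank_span_one_le (F := F) a
    omega
  -- Step 1: eigenvector property
  have step1 : ∀ a : ι → F, Q a = 0 → a ≠ 0 → ∃ l : F, ∀ x, B ((g : Matrix ι ι F) *ᵥ x) ((g : Matrix ι ι F) *ᵥ a) = l * B x a := by
    intro a hQa ha0
    let ξ : (ι → F) →ₗ[F] F :=
      { toFun := fun x => B ((g : Matrix ι ι F) *ᵥ x) ((g : Matrix ι ι F) *ᵥ a)
        map_add' := fun x y => by rw [Matrix.mulVec_add, B_add_left hQ]
        map_smul' := fun r x => by
          rw [Matrix.mulVec_smul, B_smul_left hQ]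
          rfl }
    obtain ⟨φ, hφ⟩ := exists_dot ξ
    obtain ⟨w, rfl⟩ := exists_rep_left hQ.polar_bilinear hQ.nondegenerate φ
    have hw : ∀ y, B y w = B ((g : Matrix ι ι F) *ᵥ y) ((g : Matrix ι ι F) *ᵥ a) := by
      intro y
      rw [← pv_dot hQ.polar_bilinear, hφ]
      rfl
    have hY1 := hfinY a
    have h1a := finrank_span_one_le (F := F) a
    obtain ⟨d, hdY, hQd, hdn⟩ := exists_sing_gap hQ (perp hQ (Submodule.span F {a})) (Submodule.span F {a}) (by omega)
    have h2a := finrank_span_two_le (F := F) a d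
    obtain ⟨d', hdY', hQd', hdn'⟩ := exists_sing_gap hQ (perp hQ (Submodule.span F {a})) (Submodule.span F {a, d}) (by omega)
    have had : B a d = 0 := (mem_perp hQ).1 hdY a (Submodule.mem_span_singleton_self a)
    have had' : B a d' = 0 := (mem_perp hQ).1 hdY' a (Submodule.mem_span_singleton_self a)
    have hdn'' : d' ∉ Submodule.span F {a} := fun h => hdn' (Submodule.span_mono (by simp) h)
    have hin : ∀ d₁ : ι → F, Q d₁ = 0 → B a d₁ = 0 → d₁ ∉ Submodule.span F {a} → w ∈ Submodule.span F {a, d₁} := by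
      intro d₁ hQd₁ had₁ hd₁n
      rw [← perp_perp hQ (Submodule.span F {a, d₁}), mem_perp]
      intro z hz
      rw [hw z]
      refine H a d₁ z hQa ha0 hQd₁ had₁ hd₁n ?_ ?_
      · rw [B_comm hQ]
        exact (mem_perp hQ).1 hz a (Submodule.subset_span (by simp))
      · rw [B_comm hQ]
        exact (mem_perp hQ).1 hz d₁ (Submodule.subset_span (by simp))
    obtain ⟨α, β, hαβ⟩ := Submodule.mem_span_pair.mp (hin d hQd had hdn)
    obtain ⟨α', β', hαβ'⟩ := Submodule.mem_span_pair.mp (hin d' hQd' had' hdn'')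
    have hβ' : β' = 0 := by
      by_contra hne
      apply hdn'
      rw [Submodule.mem_span_pair]
      refine ⟨β'⁻¹ * (α - α'), β'⁻¹ * β, ?_⟩
      have h3 : β' • d' = (α - α') • a + β • d := by
        have := hαβ.trans hαβ'.symm
        rw [sub_smul]
        linear_combination (exp := 1) -this
      rw [mul_smul, mul_smul, ← smul_add, ← h3, smul_smul, inv_mul_cancel₀ hne, one_smul]
    refine ⟨α', fun x => ?_⟩
    rw [← hw x, ← hαβ', hβ', zero_smul, add_zero, B_smul_right hQ]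
  -- Step 2 : a common eigenvalue
  have htop : Module.finrank F (⊤ : Submodule F (ι → F)) = Fintype.card ι := by
    rw [finrank_top]
    simp
  obtain ⟨a₀, -, ha₀0, hQa₀⟩ := exists_sing hQ (⊤ : Submodule F (ι → F)) (by omega)
  obtain ⟨l, hl⟩ := step1 a₀ hQa₀ ha₀0
  have hsame : ∀ {a b : ι → F} {la lb : F}, (∀ x, B ((g : Matrix ι ι F) *ᵥ x) ((g : Matrix ι ι F) *ᵥ a) = la * B x a) →
      (∀ x, B ((g : Matrix ι ι F) *ᵥ x) ((g : Matrix ι ι F) *ᵥ b) = lb * B x b) → B a b ≠ 0 → la = lb := by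
    intro a b la lb h1 h2' hab
    have h3 := h1 b
    have h4 := h2' a
    rw [B_comm hQ, h4, B_comm hQ b a] at h3
    exact (mul_right_cancel₀ hab h3).symm
  have hall : ∀ a : ι → F, Q a = 0 → ∀ x, B ((g : Matrix ι ι F) *ᵥ x) ((g : Matrix ι ι F) *ᵥ a) = l * B x a := by
    intro a hQa x
    by_cases ha0 : a = 0
    · subst ha0
      simp [B_zero_right hQ]
    obtain ⟨la, hla⟩ := step1 a hQa ha0
    by_cases hna : B a₀ a ≠ 0
    · rw [hla x, hsame hl hla hna]
    by_cases hsp : a ∈ Submodule.span F {a₀}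
    · obtain ⟨κ, rfl⟩ := Submodule.mem_span_singleton.mp hsp
      rw [Matrix.mulVec_smul, B_smul_right hQ, hl x, B_smul_right hQ]
      ring
    -- a common non-orthogonal singular vector
    have hnot : a₀ ∉ Submodule.span F {a₀ - a} := by
      intro h
      obtain ⟨κ, hκ⟩ := Submodule.mem_span_singleton.mp h
      have hκ0 : κ ≠ 0 := by
        rintro rfl
        rw [zero_smul] at hκ
        exact ha₀0 hκ.symm
      apply hsp
      rw [Submodule.mem_span_singleton]
      refine ⟨κ⁻¹ * (κ - 1), ?_⟩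
      have h3 : κ • a = (κ - 1) • a₀ := by
        have h7 : κ • a₀ - κ • a = a₀ := by rw [← smul_sub]; exact hκ
        calc κ • a = κ • a₀ - (κ • a₀ - κ • a) := by abel
          _ = κ • a₀ - a₀ := by rw [h7]
          _ = (κ - 1) • a₀ := by rw [sub_smul, one_smul]
      rw [mul_smul, ← h3, smul_smul, inv_mul_cancel₀ hκ0, one_smul]
    obtain ⟨u, hu1, hu0⟩ := exists_sep hQ _ hnot
    have hY1 := hfinY (a₀ - a)
    obtain ⟨c, hcY, hQc, hca⟩ := exists_sing_nonorth hQ (perp hQ (Submodule.span F {a₀ - a})) (x := a₀)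
      ⟨u, (mem_perp' hQ).2 hu0, by rw [B_comm hQ, hu1]; exact one_ne_zero⟩ (by omega)
    have hdiff : B (a₀ - a) c = 0 := (mem_perp hQ).1 hcY _ (Submodule.mem_span_singleton_self _)
    have hca' : B a c ≠ 0 := by
      rw [B_sub_left hQ, sub_eq_zero] at hdiff
      rw [← hdiff]
      exact hca
    have hc0 : c ≠ 0 := by
      rintro rfl
      exact hca (B_zero_right hQ _)
    obtain ⟨lc, hlc⟩ := step1 c hQc hc0
    have e1 := hsame hl hlc hca
    have e2 := hsame hla hlc hca'
    rw [hla x, e2, ← e1]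
  -- Step 3 : all vectors
  let S : Submodule F (ι → F) :=
    { carrier := {y | ∀ x, B ((g : Matrix ι ι F) *ᵥ x) ((g : Matrix ι ι F) *ᵥ y) = l * B x y}
      add_mem' := by
        intro y y' hy hy' x
        rw [Matrix.mulVec_add, B_add_right hQ, B_add_right hQ, hy x, hy' x]
        ring
      zero_mem' := by
        intro x
        simp [B_zero_right hQ]
      smul_mem' := by
        intro r y hy x
        rw [Matrix.mulVec_smul, B_smul_right hQ, B_smul_right hQ, hy x]
        ring }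
  have hS : (⊤ : Submodule F (ι → F)) ≤ S := by
    by_contra hcon
    obtain ⟨y, -, hQy, hyS⟩ := exists_sing_outside hQ ⊤ S hcon (by omega)
    exact hyS (hall y hQy)
  have hallf : ∀ x y, B ((g : Matrix ι ι F) *ᵥ x) ((g : Matrix ι ι F) *ᵥ y) = l * B x y :=
    fun x y => hS (Submodule.mem_top (x := y)) x
  have hl0 : l ≠ 0 := by
    rintro rfl
    have hga : (g : Matrix ι ι F) *ᵥ a₀ ≠ 0 := by
      intro h
      exact ha₀0 ((glEquiv g).map_eq_zero_iff.mp h)
    have hnot : (g : Matrix ι ι F) *ᵥ a₀ ∉ (⊥ : Submodule F (ι → F)) := fun h => hga ((Submodule.mem_bot F).1 h)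
    obtain ⟨u, hu1, -⟩ := exists_sep hQ ⊥ hnot
    have := hallf (((g⁻¹ : GL ι F) : Matrix ι ι F) *ᵥ u) a₀
    rw [mulVec_inv_mulVec, hu1, zero_mul] at this
    exact one_ne_zero this
  refine ⟨Units.mk0 l hl0, fun v => ?_⟩
  have h3 := hallf v v
  rw [B_self hQ, B_self hQ] at h3
  apply mul_left_cancel₀ h2
  rw [h3, Units.val_mk0]
  ring

/-- **Producing a transvection** from an element which is not a similarity. -/
theorem exists_T (hQ : IsNondegenerateQuadraticForm Q) (hn : 13 ≤ Fintype.card ι) (h2 : (2 : F) ≠ 0)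
    {M : Subgroup (GL ι F)} (hE : ∀ a d, Q a = 0 → B a d = 0 → E Q a d ∈ M) {g : GL ι F} (hgM : g ∈ M)
    (hs : g ∉ quadSimilarityGroup Q) :
    ∃ c w₀ : ι → F, Q c = 0 ∧ c ≠ 0 ∧ w₀ ≠ 0 ∧ B c w₀ = 0 ∧ T hQ c w₀ ∈ M := by
  by_contra hno
  apply hs
  apply sim_of_perp hQ hn h2
  intro a d x₀ hQa ha0 hQd had hdn hxa hxd
  by_contra hne
  apply hno
  let a' := (g : Matrix ι ι F) *ᵥ a
  let d' := (g : Matrix ι ι F) *ᵥ d
  let A : Submodule F (ι → F) := Submodule.span F {a, d}
  let L : Submodule F (ι → F) := gm g (perp hQ A)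
  let K : Submodule F (ι → F) := perp hQ (Submodule.span F {a', d'})
  have hAd : Module.finrank F A ≤ 2 := finrank_span_two_le a d
  have hKd0 : Module.finrank F (Submodule.span F {a', d'}) ≤ 2 := finrank_span_two_le a' d'
  have hLd : Module.finrank F L + Module.finrank F A = Fintype.card ι := by
    rw [finrank_gm]
    exact finrank_perp hQ A
  have hKd : Module.finrank F K + Module.finrank F (Submodule.span F {a', d'}) = Fintype.card ι :=
    finrank_perp hQ _
  have hx₀A : x₀ ∈ perp hQ A := by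
    rw [mem_perp']
    intro y hy
    obtain ⟨r, s, rfl⟩ := Submodule.mem_span_pair.mp hy
    rw [B_add_right hQ, B_smul_right hQ, B_smul_right hQ, hxa, hxd]
    ring
  have hx'L : (g : Matrix ι ι F) *ᵥ x₀ ∈ L := mulVec_mem_gm hx₀A
  have hx'K : (g : Matrix ι ι F) *ᵥ x₀ ∉ K := by
    intro h
    apply hne
    rw [B_comm hQ]
    exact (mem_perp hQ).1 h a' (Submodule.subset_span (by simp))
  have hLK : ¬ L ≤ K := fun h => hx'K (h hx'L)
  -- the subspace Y₀
  let Y₀ : Submodule F (ι → F) := L ⊓ K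
  have hY₀ : Fintype.card ι ≤ Module.finrank F Y₀ + 4 := by
    have h1 := Submodule.finrank_sup_add_finrank_inf_eq L K
    have h3 : Module.finrank F (L ⊔ K : Submodule F (ι → F)) ≤ Fintype.card ι := by
      have := Submodule.finrank_le (L ⊔ K : Submodule F (ι → F))
      simpa using this
    have h4 : Module.finrank F (L ⊓ K : Submodule F (ι → F)) = Module.finrank F Y₀ := rfl
    omega
  have hpY₀ := finrank_perp hQ Y₀
  obtain ⟨c, hcY₀, hQc, hcn⟩ := exists_sing_outside' hQ Y₀ (perp hQ Y₀) (by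
    intro h
    have := Submodule.finrank_mono h
    omega) (by
    have := Submodule.finrank_mono (inf_le_right : (Y₀ ⊓ perp hQ Y₀ : Submodule F (ι → F)) ≤ perp hQ Y₀)
    omega)
  have hc0 : c ≠ 0 := by
    rintro rfl
    exact hcn (Submodule.zero_mem _)
  have hcL : c ∈ L := hcY₀.1
  have hcK : c ∈ K := hcY₀.2
  -- the subspace Y₁
  let Y₁ : Submodule F (ι → F) := L ⊓ perp hQ (Submodule.span F {c})
  have hc1 := finrank_span_one_le (F := F) c
  have hY₁ : Module.finrank F L ≤ Module.finrank F Y₁ + 1 := by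
    have := finrank_inf_perp_ge hQ L (Submodule.span F {c})
    have h4 : Module.finrank F (L ⊓ perp hQ (Submodule.span F {c}) : Submodule F (ι → F)) = Module.finrank F Y₁ := rfl
    omega
  have hY₁K : ¬ Y₁ ≤ K := by
    intro h
    have hle : Y₁ ≤ Y₀ := le_inf inf_le_left h
    have hlt : Y₀ < L := lt_of_le_of_ne inf_le_left (fun h' => hLK (by
      rw [← h']
      exact inf_le_right))
    have h3 := Submodule.finrank_lt_finrank_of_lt hlt
    have heq := Submodule.eq_of_le_of_finrank_eq hle (by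
      have := Submodule.finrank_mono hle
      omega)
    apply hcn
    rw [mem_perp]
    intro y hy
    rw [← heq] at hy
    rw [B_comm hQ]
    exact (mem_perp hQ).1 hy.2 c (Submodule.mem_span_singleton_self c)
  have hpY₁ := finrank_perp hQ Y₁
  obtain ⟨b, hbY₁, hQb, hbK⟩ := exists_sing_outside' hQ Y₁ K hY₁K (by
    have := Submodule.finrank_mono (inf_le_right : (Y₁ ⊓ perp hQ Y₁ : Submodule F (ι → F)) ≤ perp hQ Y₁)
    omega)
  have hbL : b ∈ L := hbY₁.1
  have hcb : B c b = 0 := (mem_perp hQ).1 hbY₁.2 c (Submodule.mem_span_singleton_self c)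
  have hbc : B b c = 0 := by rw [B_comm hQ, hcb]
  have hbb : B b b = 0 := by rw [B_self hQ, hQb, mul_zero]
  have hcc : B c c = 0 := by rw [B_self hQ, hQc, mul_zero]
  obtain ⟨b₀, hb₀, hb₀b⟩ := hbL
  obtain ⟨c₀, hc₀, hc₀c⟩ := hcL
  have hb₀b' : (g : Matrix ι ι F) *ᵥ b₀ = b := hb₀b
  have hc₀c' : (g : Matrix ι ι F) *ᵥ c₀ = c := hc₀c
  have hinvb : ((g⁻¹ : GL ι F) : Matrix ι ι F) *ᵥ b = b₀ := by rw [← hb₀b', inv_mulVec_mulVec]
  have hinvc : ((g⁻¹ : GL ι F) : Matrix ι ι F) *ᵥ c = c₀ := by rw [← hc₀c', inv_mulVec_mulVec]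
  have hb₀a : B b₀ a = 0 := (mem_perp' hQ).1 hb₀ a (Submodule.subset_span (by simp))
  have hb₀d : B b₀ d = 0 := (mem_perp' hQ).1 hb₀ d (Submodule.subset_span (by simp))
  have hc₀a : B c₀ a = 0 := (mem_perp' hQ).1 hc₀ a (Submodule.subset_span (by simp))
  have hc₀d : B c₀ d = 0 := (mem_perp' hQ).1 hc₀ d (Submodule.subset_span (by simp))
  have ha'c : B a' c = 0 := (mem_perp hQ).1 hcK a' (Submodule.subset_span (by simp))
  have hd'c : B d' c = 0 := (mem_perp hQ).1 hcK d' (Submodule.subset_span (by simp))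
  let p := B d' b
  let p' := B a' b
  have hpp : ¬ (p = 0 ∧ p' = 0) := by
    rintro ⟨h3, h4⟩
    apply hbK
    rw [mem_perp]
    intro y hy
    obtain ⟨r, s, rfl⟩ := Submodule.mem_span_pair.mp hy
    rw [B_add_left hQ, B_smul_left hQ, B_smul_left hQ]
    have e3 : B d' b = 0 := h3
    have e4 : B a' b = 0 := h4
    rw [e3, e4]
    ring
  let w₁ := p' • d - p • a
  have hw₁0 : w₁ ≠ 0 := by
    intro h
    have h5 : p' • d = p • a := sub_eq_zero.mp h
    by_cases hp' : p' = 0
    · rw [hp', zero_smul] at h5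
      have hp : p = 0 := by
        rcases smul_eq_zero.mp h5.symm with h6 | h6
        · exact h6
        · exact absurd h6 ha0
      exact hpp ⟨hp, hp'⟩
    · apply hdn
      rw [Submodule.mem_span_singleton]
      refine ⟨p'⁻¹ * p, ?_⟩
      rw [mul_smul, ← h5, smul_smul, inv_mul_cancel₀ hp', one_smul]
  -- the elements
  let R := g * E Q a d * g⁻¹
  let R' := g * E Q a (-d) * g⁻¹
  have hRR' : R⁻¹ = R' := by
    simp only [R, R']
    rw [E_neg hQ hQa had]
    group
  have hQnd : Q (-d) = 0 := by rw [Q_neg hQ, hQd]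
  have hR : ∀ x, (R : Matrix ι ι F) *ᵥ x = x + B (((g⁻¹ : GL ι F) : Matrix ι ι F) *ᵥ x) a • d' - B (((g⁻¹ : GL ι F) : Matrix ι ι F) *ᵥ x) d • a' := by
    intro x
    simp only [R]
    rw [mul_mulVec, mul_mulVec, E_mulVec hQ hQa had, hQd, zero_mul, zero_smul, sub_zero, Matrix.mulVec_sub, Matrix.mulVec_add,
      mulVec_inv_mulVec, Matrix.mulVec_smul, Matrix.mulVec_smul]
  have hR' : ∀ x, (R' : Matrix ι ι F) *ᵥ x = x - B (((g⁻¹ : GL ι F) : Matrix ι ι F) *ᵥ x) a • d' + B (((g⁻¹ : GL ι F) : Matrix ι ι F) *ᵥ x) d • a' := by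
    intro x
    simp only [R']
    rw [mul_mulVec, mul_mulVec, E_mulVec hQ hQa (by rw [B_neg_right hQ, had, neg_zero]), hQnd, zero_mul, zero_smul, sub_zero,
      Matrix.mulVec_sub, Matrix.mulVec_add, mulVec_inv_mulVec, Matrix.mulVec_smul, Matrix.mulVec_smul, B_neg_right hQ,
      Matrix.mulVec_neg]
    simp only [a', d']
    module
  have hS : ∀ x, ((E Q b c : GL ι F) : Matrix ι ι F) *ᵥ x = x + B x b • c - B x c • b := by
    intro x
    rw [E_mulVec hQ hQb hbc, hQc, zero_mul, zero_smul, sub_zero]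
  have hQnc : Q (-c) = 0 := by rw [Q_neg hQ, hQc]
  have hS' : ∀ x, ((E Q b (-c) : GL ι F) : Matrix ι ι F) *ᵥ x = x - B x b • c + B x c • b := by
    intro x
    rw [E_mulVec hQ hQb (by rw [B_neg_right hQ, hbc, neg_zero]), hQnc, zero_mul, zero_smul, sub_zero, B_neg_right hQ]
    module
  have hRb : (R : Matrix ι ι F) *ᵥ b = b := by
    rw [hR, hinvb, hb₀a, hb₀d]
    module
  have hRc : (R : Matrix ι ι F) *ᵥ c = c := by
    rw [hR, hinvc, hc₀a, hc₀d]
    module
  let t := R * E Q b c * R' * E Q b (-c)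
  have htM : t ∈ M := by
    have hRM : R ∈ M := M.mul_mem (M.mul_mem hgM (hE a d hQa had)) (M.inv_mem hgM)
    have hR'M : R' ∈ M := by
      rw [← hRR']
      exact M.inv_mem hRM
    exact M.mul_mem (M.mul_mem (M.mul_mem hRM (hE b c hQb hbc)) hR'M)
      (hE b (-c) hQb (by rw [B_neg_right hQ, hbc, neg_zero]))
  -- the action of R' on z
  have hRR'x : ∀ x, (R : Matrix ι ι F) *ᵥ ((R' : Matrix ι ι F) *ᵥ x) = x := by
    intro x
    rw [← hRR', mulVec_inv_mulVec]
  have hginvz : ∀ x : ι → F, ((g⁻¹ : GL ι F) : Matrix ι ι F) *ᵥ (x - B x b • c + B x c • b) =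
      ((g⁻¹ : GL ι F) : Matrix ι ι F) *ᵥ x - B x b • c₀ + B x c • b₀ := by
    intro x
    rw [Matrix.mulVec_add, Matrix.mulVec_sub, Matrix.mulVec_smul, Matrix.mulVec_smul, hinvb, hinvc]
  have ht : ∀ x, (t : Matrix ι ι F) *ᵥ x = x + (B (((g⁻¹ : GL ι F) : Matrix ι ι F) *ᵥ x) w₁) • c := by
    intro x
    simp only [t]
    rw [mul_mulVec, mul_mulVec, mul_mulVec, hS', hS]
    set z := x - B x b • c + B x c • b with hz
    have hαz : B (((g⁻¹ : GL ι F) : Matrix ι ι F) *ᵥ z) a = B (((g⁻¹ : GL ι F) : Matrix ι ι F) *ᵥ x) a := by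
      rw [hz, hginvz, B_add_left hQ, B_sub_left hQ, B_smul_left hQ, B_smul_left hQ, hc₀a, hb₀a]
      ring
    have hβz : B (((g⁻¹ : GL ι F) : Matrix ι ι F) *ᵥ z) d = B (((g⁻¹ : GL ι F) : Matrix ι ι F) *ᵥ x) d := by
      rw [hz, hginvz, B_add_left hQ, B_sub_left hQ, B_smul_left hQ, B_smul_left hQ, hc₀d, hb₀d]
      ring
    have hzb : B z b = B x b := by
      rw [hz, B_add_left hQ, B_sub_left hQ, B_smul_left hQ, B_smul_left hQ, hcb, hbb]
      ring
    have hzc : B z c = B x c := by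
      rw [hz, B_add_left hQ, B_sub_left hQ, B_smul_left hQ, B_smul_left hQ, hcc, hbc]
      ring
    have hyb : B ((R' : Matrix ι ι F) *ᵥ z) b = B x b - B (((g⁻¹ : GL ι F) : Matrix ι ι F) *ᵥ x) a * p + B (((g⁻¹ : GL ι F) : Matrix ι ι F) *ᵥ x) d * p' := by
      rw [hR', B_add_left hQ, B_sub_left hQ, B_smul_left hQ, B_smul_left hQ, hzb, hαz, hβz]
    have hyc : B ((R' : Matrix ι ι F) *ᵥ z) c = B x c := by
      rw [hR', B_add_left hQ, B_sub_left hQ, B_smul_left hQ, B_smul_left hQ, hzc, hαz, hβz, ha'c, hd'c]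
      ring
    rw [Matrix.mulVec_sub, Matrix.mulVec_add, hRR'x, Matrix.mulVec_smul, Matrix.mulVec_smul, hRb, hRc, hyb, hyc, hz]
    simp only [w₁]
    rw [B_sub_right hQ, B_smul_right hQ, B_smul_right hQ]
    module
  -- the representing vector
  let ξ : (ι → F) →ₗ[F] F :=
    { toFun := fun x => B (((g⁻¹ : GL ι F) : Matrix ι ι F) *ᵥ x) w₁
      map_add' := fun x y => by rw [Matrix.mulVec_add, B_add_left hQ]
      map_smul' := fun r x => by
        rw [Matrix.mulVec_smul, B_smul_left hQ]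
        rfl }
  obtain ⟨φ, hφ⟩ := exists_dot ξ
  obtain ⟨w₀, rfl⟩ := exists_rep_left hQ.polar_bilinear hQ.nondegenerate φ
  have hw₀ : ∀ y, B y w₀ = B (((g⁻¹ : GL ι F) : Matrix ι ι F) *ᵥ y) w₁ := by
    intro y
    rw [← pv_dot hQ.polar_bilinear, hφ]
    rfl
  have hcw₀ : B c w₀ = 0 := by
    rw [hw₀, hinvc]
    simp only [w₁]
    rw [B_sub_right hQ, B_smul_right hQ, B_smul_right hQ, hc₀a, hc₀d]
    ring
  have hw₀0 : w₀ ≠ 0 := by
    rintro rfl
    have hnot : w₁ ∉ (⊥ : Submodule F (ι → F)) := fun h => hw₁0 ((Submodule.mem_bot F).1 h)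
    obtain ⟨u, hu1, -⟩ := exists_sep hQ ⊥ hnot
    have := hw₀ ((g : Matrix ι ι F) *ᵥ u)
    rw [B_zero_right hQ, inv_mulVec_mulVec, hu1] at this
    exact zero_ne_one this
  refine ⟨c, w₀, hQc, hc0, hw₀0, hcw₀, ?_⟩
  have e : t = T hQ c w₀ := by
    apply gl_ext
    intro x
    rw [ht, T_mulVec hQ hcw₀, hw₀]
  rw [← e]
  exact htM

/-- Transitivity on singular vectors, when independent. -/
theorem sing_trans (hQ : IsNondegenerateQuadraticForm Q) (hn : 5 ≤ Fintype.card ι) {a b : ι → F}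
    (ha : Q a = 0) (hb : Q b = 0) (ha0 : a ≠ 0) (hba : b ∉ Submodule.span F {a}) :
    ∃ t ∈ TT Q, (t : Matrix ι ι F) *ᵥ a = b := by
  have hnot : a ∉ Submodule.span F {a - b} := by
    intro h
    obtain ⟨κ, hκ⟩ := Submodule.mem_span_singleton.mp h
    have hκ0 : κ ≠ 0 := by
      rintro rfl
      rw [zero_smul] at hκ
      exact ha0 hκ.symm
    apply hba
    rw [Submodule.mem_span_singleton]
    refine ⟨κ⁻¹ * (κ - 1), ?_⟩
    have h3 : κ • b = (κ - 1) • a := by
      have h7 : κ • a - κ • b = a := by rw [← smul_sub]; exact hκ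
      calc κ • b = κ • a - (κ • a - κ • b) := by abel
        _ = κ • a - a := by rw [h7]
        _ = (κ - 1) • a := by rw [sub_smul, one_smul]
    rw [mul_smul, ← h3, smul_smul, inv_mul_cancel₀ hκ0, one_smul]
  obtain ⟨u, hu1, hu0⟩ := exists_sep hQ _ hnot
  have h1 := finrank_perp hQ (Submodule.span F {a - b})
  have h3 := finrank_span_one_le (F := F) (a - b)
  obtain ⟨c, hcY, hQc, hca⟩ := exists_sing_nonorth hQ (perp hQ (Submodule.span F {a - b})) (x := a)
    ⟨u, (mem_perp' hQ).2 hu0, by rw [B_comm hQ, hu1]; exact one_ne_zero⟩ (by omega)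
  have hdiff : B (a - b) c = 0 := (mem_perp hQ).1 hcY _ (Submodule.mem_span_singleton_self _)
  have hcb : B b c = B a c := by
    rw [B_sub_left hQ, sub_eq_zero] at hdiff
    exact hdiff.symm
  let c₁ := (B a c)⁻¹ • c
  have hQc₁ : Q c₁ = 0 := by
    simp only [c₁]
    rw [Q_smul hQ, hQc, mul_zero]
  have hac₁ : B a c₁ = 1 := by
    simp only [c₁]
    rw [B_smul_right hQ, inv_mul_cancel₀ hca]
  have hbc₁ : B b c₁ = 1 := by
    simp only [c₁]
    rw [B_smul_right hQ, hcb, inv_mul_cancel₀ hca]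
  have hcd : B c₁ (b - a) = 0 := by
    rw [B_sub_right hQ, B_comm hQ c₁ b, B_comm hQ c₁ a, hac₁, hbc₁, sub_self]
  refine ⟨E Q c₁ (b - a), E_mem_TT hQc₁ hcd, ?_⟩
  have haa : B a a = 0 := by rw [B_self hQ, ha, mul_zero]
  rw [E_mulVec hQ hQc₁ hcd, hac₁, Q_sub hQ, hb, ha, B_sub_right hQ, haa, B_comm hQ b a]
  have : a + (1 : F) • (b - a) - (B a b - 0) • c₁ - ((0 + 0 - B a b) * 1) • c₁ = b := by
    module
  exact this

/-- **From one transvection to all.** -/
theorem all_T (hQ : IsNondegenerateQuadraticForm Q) (hn : 13 ≤ Fintype.card ι) (hodd : Odd (Fintype.card F))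
    {M : Subgroup (GL ι F)} (hE : ∀ a d, Q a = 0 → B a d = 0 → E Q a d ∈ M)
    {c w₀ : ι → F} (hQc : Q c = 0) (hc0 : c ≠ 0) (hw0 : w₀ ≠ 0) (hcw : B c w₀ = 0) (hT : T hQ c w₀ ∈ M) :
    ∀ v w, B v w = 0 → T hQ v w ∈ M := by
  have hn5 : 5 ≤ Fintype.card ι := by omega
  have h2 : (2 : F) ≠ 0 := Cfsg.Agent.Lib.OrthStd.two_ne_zero_of_odd hodd
  have hTT : TT Q ≤ M := by
    rw [TT, Subgroup.closure_le]
    rintro _ ⟨a, d, ha, hd, rfl⟩
    exact hE a d ha hd
  have hconj : ∀ {t : GL ι F}, t ∈ TT Q → ∀ {v w : ι → F}, B v w = 0 → T hQ v w ∈ M →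
      T hQ ((t : Matrix ι ι F) *ᵥ v) ((t : Matrix ι ι F) *ᵥ w) ∈ M := by
    intro t ht v w hvw hm
    rw [← T_conj hQ (TT_le_O hQ ht) hvw]
    exact M.mul_mem (M.mul_mem (hTT ht) hm) (M.inv_mem (hTT ht))
  have hcc : B c c = 0 := by rw [B_self hQ, hQc, mul_zero]
  have hBsing : ∀ {e : ι → F}, Q e = 0 → ∀ l : F, B e (l • e) = 0 := by
    intro e he l
    rw [B_smul_right hQ, B_self hQ, he]
    ring
  -- Step (c)
  have stepc : ∀ l : F, T hQ c (l • c) ∈ M := by
    by_cases hw : w₀ ∈ Submodule.span F {c}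
    · obtain ⟨μ, rfl⟩ := Submodule.mem_span_singleton.mp hw
      have hμ : μ ≠ 0 := by
        rintro rfl
        exact hw0 (zero_smul _ _)
      have htop : Module.finrank F (⊤ : Submodule F (ι → F)) = Fintype.card ι := by
        rw [finrank_top]
        simp
      have hsc := finrank_span_one_le (F := F) c
      obtain ⟨e, -, hQe, hen⟩ := exists_sing_gap hQ (⊤ : Submodule F (ι → F)) (Submodule.span F {c}) (by omega)
      have he0 : e ≠ 0 := by
        rintro rfl
        exact hen (Submodule.zero_mem _)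
      have hscale : ∀ κ : F, T hQ c ((κ * κ * μ) • c) ∈ M := by
        intro κ
        by_cases hκ : κ = 0
        · rw [hκ]
          have : (0 * 0 * μ) • c = 0 := by simp
          rw [this, T_zero_right hQ]
          exact M.one_mem
        obtain ⟨t₁, ht₁, h1⟩ := sing_trans hQ hn5 hQc hQe hc0 hen
        have hκc : κ • c ∉ Submodule.span F {e} := by
          intro h
          obtain ⟨ρ, hρ⟩ := Submodule.mem_span_singleton.mp h
          have hρ0 : ρ ≠ 0 := by
            rintro rfl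
            rw [zero_smul] at hρ
            exact smul_ne_zero hκ hc0 hρ.symm
          apply hen
          rw [Submodule.mem_span_singleton]
          refine ⟨ρ⁻¹ * κ, ?_⟩
          rw [mul_smul, ← hρ, smul_smul, inv_mul_cancel₀ hρ0, one_smul]
        obtain ⟨t₂, ht₂, h3⟩ := sing_trans hQ hn5 hQe (by rw [Q_smul hQ, hQc, mul_zero]) he0 hκc
        have hm := hconj ((TT Q).mul_mem ht₂ ht₁) hcw hT
        have e1 : ((t₂ * t₁ : GL ι F) : Matrix ι ι F) *ᵥ c = κ • c := by
          rw [mul_mulVec, h1, h3]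
        rw [Matrix.mulVec_smul, e1] at hm
        have hB0 : B c (μ • (κ • c)) = 0 := by
          rw [B_smul_right hQ, B_smul_right hQ, hcc]
          ring
        rw [T_smul hQ κ hB0] at hm
        have e3 : κ • μ • κ • c = (κ * κ * μ) • c := by
          simp only [smul_smul]
          congr 1
          ring
        rwa [e3] at hm
      intro l
      obtain ⟨x, z, hxz⟩ := two_sq hodd (l / μ)
      have hl : l = x * x * μ + z * z * μ := by
        have : (x * x + z * z) * μ = l := by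
          rw [hxz]
          field_simp
        rw [← this]
        ring
      rw [hl, add_smul, ← T_add_right hQ (hBsing hQc _) (hBsing hQc _)]
      exact M.mul_mem (hscale x) (hscale z)
    · obtain ⟨u, hu1, hu0⟩ := exists_sep hQ _ hw
      have huc : B u c = 0 := hu0 c (Submodule.mem_span_singleton_self c)
      intro l
      have hcd : B c (l • u) = 0 := by rw [B_smul_right hQ, B_comm hQ, huc, mul_zero]
      have hh := hE c (l • u) hQc hcd
      have hfix : ((E Q c (l • u) : GL ι F) : Matrix ι ι F) *ᵥ c = c := by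
        rw [E_mulVec_of_orth hQ hQc hcd hcc, hcd]
        simp
      have hmove : ((E Q c (l • u) : GL ι F) : Matrix ι ι F) *ᵥ w₀ = w₀ - l • c := by
        rw [E_mulVec_of_orth hQ hQc hcd (by rw [B_comm hQ, hcw]), B_smul_right hQ, B_comm hQ w₀ u, hu1, mul_one]
      have hm : T hQ c (w₀ - l • c) ∈ M := by
        have := M.mul_mem (M.mul_mem hh hT) (M.inv_mem hh)
        rw [T_conj hQ (E_mem_O hQ hQc hcd) hcw, hfix, hmove] at this
        exact this
      have hB2 : B c (w₀ - l • c) = 0 := by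
        rw [B_sub_right hQ, hcw, hBsing hQc l, sub_zero]
      have e : T hQ c (l • c) = T hQ c w₀ * (T hQ c (w₀ - l • c))⁻¹ := by
        rw [T_inv' hQ hB2, T_add_right hQ hcw (by rw [B_neg_right hQ, hB2, neg_zero])]
        congr 1
        abel
      rw [e]
      exact M.mul_mem hT (M.inv_mem hm)
  -- Step (d)
  have stepd : ∀ e : ι → F, Q e = 0 → ∀ l : F, T hQ e (l • e) ∈ M := by
    intro e he l
    by_cases hsp : e ∈ Submodule.span F {c}
    · obtain ⟨κ, rfl⟩ := Submodule.mem_span_singleton.mp hsp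
      rw [T_smul hQ κ (by rw [B_smul_right hQ, B_smul_right hQ, hcc]; ring), smul_smul, smul_smul]
      exact stepc _
    · obtain ⟨t, ht, h1⟩ := sing_trans hQ hn5 hQc he hc0 hsp
      have := hconj ht (hBsing hQc l) (stepc l)
      rwa [Matrix.mulVec_smul, h1] at this
  -- Step (e)
  have stepe : ∀ e c' : ι → F, Q e = 0 → Q c' = 0 → B e c' = 0 → T hQ e c' ∈ M := by
    intro e c' he hc' hec
    by_cases hsp : c' ∈ Submodule.span F {e}
    · obtain ⟨l, rfl⟩ := Submodule.mem_span_singleton.mp hsp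
      exact stepd e he l
    let c'' := (2 : F)⁻¹ • c'
    have hc''2 : c'' + c'' = c' := by
      simp only [c'']
      rw [← add_smul, ← two_mul, mul_inv_cancel₀ h2, one_smul]
    have hQc'' : Q c'' = 0 := by
      simp only [c'']
      rw [Q_smul hQ, hc', mul_zero]
    have hec'' : B e c'' = 0 := by
      simp only [c'']
      rw [B_smul_right hQ, hec, mul_zero]
    have hc''e : B c'' e = 0 := by rw [B_comm hQ, hec'']
    have hee : B e e = 0 := by rw [B_self hQ, he, mul_zero]
    have hcc' : B c'' c'' = 0 := by rw [B_self hQ, hQc'', mul_zero]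
    have hQsum : Q (e + c'') = 0 := by rw [Q_add hQ, he, hQc'', hec'']; ring
    have hm1 := stepd _ hQsum 1
    rw [one_smul] at hm1
    have hm2 := stepd e he 1
    rw [one_smul] at hm2
    have hm3 := stepd c'' hQc'' 1
    rw [one_smul] at hm3
    have hAC : T hQ e c'' * T hQ c'' e ∈ M := by
      have h1 : T hQ (e + c'') (e + c'') = (T hQ e e * T hQ e c'') * (T hQ c'' e * T hQ c'' c'') := by
        rw [T_add_right hQ hee hec'', T_add_right hQ hc''e hcc',
          T_add_left hQ (by rw [B_add_right hQ, hee, hec'', add_zero]) (by rw [B_add_right hQ, hc''e, hcc', add_zero])]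
      have h3 : T hQ e c'' * T hQ c'' e = (T hQ e e)⁻¹ * T hQ (e + c'') (e + c'') * (T hQ c'' c'')⁻¹ := by
        rw [h1]
        group
      rw [h3]
      exact M.mul_mem (M.mul_mem (M.inv_mem hm2) hm1) (M.inv_mem hm3)
    have hEM := hE e c'' he hec''
    rw [E_eq_T hQ he hec'' hQc'', ← T_inv hQ hec''] at hEM
    have hcomm : T hQ e c'' * T hQ c'' e = T hQ c'' e * T hQ e c'' := T_comm hQ hec'' hc''e hcc' hee
    have hAA : T hQ e c'' * T hQ e c'' ∈ M := by
      have h1 : T hQ e c'' * T hQ e c'' = (T hQ e c'' * T hQ c'' e) * (T hQ c'' e * (T hQ e c'')⁻¹)⁻¹ := by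
        rw [_root_.mul_inv_rev, inv_inv]
        have e5 : (T hQ e c'' * T hQ c'' e) * (T hQ e c'' * (T hQ c'' e)⁻¹) = T hQ e c'' * (T hQ c'' e * T hQ e c'') * (T hQ c'' e)⁻¹ := by
          group
        rw [e5, ← hcomm]
        group
      rw [h1]
      exact M.mul_mem hAC (M.inv_mem hEM)
    rw [T_add_right hQ hec'' hec'', hc''2] at hAA
    exact hAA
  -- spanning by singular vectors
  have hspan : ∀ x : ι → F, perp hQ (Submodule.span F {x}) ≤
      Submodule.span F {y | y ∈ perp hQ (Submodule.span F {x}) ∧ Q y = 0} := by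
    intro x
    by_contra hcon
    have h1 := finrank_perp hQ (Submodule.span F {x})
    have h3 := finrank_span_one_le (F := F) x
    obtain ⟨y, hy, hQy, hyn⟩ := exists_sing_outside' hQ _ _ hcon (by
      have h4 := Submodule.finrank_mono (inf_le_right : (perp hQ (Submodule.span F {x}) ⊓ perp hQ (perp hQ (Submodule.span F {x})) : Submodule F (ι → F)) ≤ perp hQ (perp hQ (Submodule.span F {x})))
      have h5 : Module.finrank F (perp hQ (perp hQ (Submodule.span F {x}))) = Module.finrank F (Submodule.span F {x}) := by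
        rw [perp_perp]
      omega)
    exact hyn (Submodule.subset_span ⟨hy, hQy⟩)
  have hmemp : ∀ {x y : ι → F}, B x y = 0 → y ∈ perp hQ (Submodule.span F {x}) := by
    intro x y h
    rw [mem_perp]
    intro z hz
    obtain ⟨r, rfl⟩ := Submodule.mem_span_singleton.mp hz
    rw [B_smul_left hQ, h, mul_zero]
  have hmemp' : ∀ {x y : ι → F}, y ∈ perp hQ (Submodule.span F {x}) → B x y = 0 :=
    fun h => (mem_perp hQ).1 h _ (Submodule.mem_span_singleton_self _)
  -- Step (f)
  have stepf : ∀ e w : ι → F, Q e = 0 → B e w = 0 → T hQ e w ∈ M := by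
    intro e w he hew
    have key : ∀ w ∈ Submodule.span F {y | y ∈ perp hQ (Submodule.span F {e}) ∧ Q y = 0},
        B e w = 0 ∧ ∀ r : F, T hQ e (r • w) ∈ M := by
      intro w hw
      induction hw using Submodule.span_induction with
      | mem y hy =>
        have hB := hmemp' hy.1
        exact ⟨hB, fun r => stepe e (r • y) he (by rw [Q_smul hQ, hy.2, mul_zero]) (by rw [B_smul_right hQ, hB, mul_zero])⟩
      | zero =>
        refine ⟨B_zero_right hQ e, fun r => ?_⟩
        rw [smul_zero, T_zero_right hQ]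
        exact M.one_mem
      | add x y _ _ hx hy =>
        refine ⟨by rw [B_add_right hQ, hx.1, hy.1, add_zero], fun r => ?_⟩
        rw [smul_add, ← T_add_right hQ (by rw [B_smul_right hQ, hx.1, mul_zero]) (by rw [B_smul_right hQ, hy.1, mul_zero])]
        exact M.mul_mem (hx.2 r) (hy.2 r)
      | smul a x _ hx =>
        refine ⟨by rw [B_smul_right hQ, hx.1, mul_zero], fun r => ?_⟩
        rw [smul_smul]
        exact hx.2 _
    have := (key w (hspan e (hmemp hew))).2 1
    rwa [one_smul] at this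
  -- Step (g)
  intro v w hvw
  have key : ∀ v ∈ Submodule.span F {y | y ∈ perp hQ (Submodule.span F {w}) ∧ Q y = 0},
      B v w = 0 ∧ ∀ r : F, T hQ (r • v) w ∈ M := by
    intro v hv
    induction hv using Submodule.span_induction with
    | mem y hy =>
      have hB : B y w = 0 := by rw [B_comm hQ]; exact hmemp' hy.1
      exact ⟨hB, fun r => stepf (r • y) w (by rw [Q_smul hQ, hy.2, mul_zero]) (by rw [B_smul_left hQ, hB, mul_zero])⟩
    | zero =>
      refine ⟨B_zero_left hQ w, fun r => ?_⟩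
      rw [smul_zero, T_zero_left hQ]
      exact M.one_mem
    | add x y _ _ hx hy =>
      refine ⟨by rw [B_add_left hQ, hx.1, hy.1, add_zero], fun r => ?_⟩
      rw [smul_add, ← T_add_left hQ (by rw [B_smul_left hQ, hx.1, mul_zero]) (by rw [B_smul_left hQ, hy.1, mul_zero])]
      exact M.mul_mem (hx.2 r) (hy.2 r)
    | smul a x _ hx =>
      refine ⟨by rw [B_smul_left hQ, hx.1, mul_zero], fun r => ?_⟩
      rw [smul_smul]
      exact hx.2 _
  have := (key v (hspan w (hmemp (by rw [B_comm hQ, hvw])))).2 1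
  rwa [one_smul] at this

/-- **Similarity groups of quadratic forms are maximal in `SL`** (odd characteristic). -/
theorem sim_maximal (hQ : IsNondegenerateQuadraticForm Q) (hn : 13 ≤ Fintype.card ι) (hodd : Odd (Fintype.card F)) :
    IsMaximalIn (specialLinear ι F) (quadSimilarityGroup Q ⊓ specialLinear ι F) := by
  have h2 : (2 : F) ≠ 0 := Cfsg.Agent.Lib.OrthStd.two_ne_zero_of_odd hodd
  have hn5 : 5 ≤ Fintype.card ι := by omega
  have htop : Module.finrank F (⊤ : Submodule F (ι → F)) = Fintype.card ι := by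
    rw [finrank_top]
    simp
  have hEH : ∀ a d, Q a = 0 → B a d = 0 → E Q a d ∈ quadSimilarityGroup Q ⊓ specialLinear ι F := by
    intro a d ha had
    refine ⟨⟨1, fun v => ?_⟩, omega_le_SL (E_mem_comm hQ hn5 ha had)⟩
    rw [(mem_O_iff _).1 (E_mem_O hQ ha had) v, Units.val_one, one_mul]
  constructor
  · refine lt_of_le_of_ne inf_le_right ?_
    intro heq
    obtain ⟨c, -, hc0, hQc⟩ := exists_sing hQ (⊤ : Submodule F (ι → F)) (by omega)
    have hcc : B c c = 0 := by rw [B_self hQ, hQc, mul_zero]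
    have hmem : T hQ c c ∈ quadSimilarityGroup Q ⊓ specialLinear ι F := by
      rw [heq]
      exact T_mem_SL hQ c c
    obtain ⟨κ, hκ⟩ := hmem.1
    have hnot : c ∉ (⊥ : Submodule F (ι → F)) := fun h => hc0 ((Submodule.mem_bot F).1 h)
    obtain ⟨y, hy1, -⟩ := exists_sep hQ ⊥ hnot
    have hy : B c y ≠ 0 := by
      rw [B_comm hQ, hy1]
      exact one_ne_zero
    obtain ⟨f, -, hQf, hcf⟩ := exists_hyp hQ (Y := ⊤) Submodule.mem_top hQc Submodule.mem_top hy
    have h3 := hκ f
    rw [T_mulVec hQ hcc, hQf, mul_zero, B_comm hQ f c, hcf, one_smul, Q_add hQ, hQf, hQc, B_comm hQ f c, hcf] at h3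
    simp at h3
  · intro M hHM hMK
    by_cases hMH : M ≤ quadSimilarityGroup Q ⊓ specialLinear ι F
    · exact Or.inl (le_antisymm hMH hHM)
    right
    refine le_antisymm hMK ?_
    obtain ⟨g, hgM, hgH⟩ := Set.not_subset.mp hMH
    have hgs : g ∉ quadSimilarityGroup Q := fun h => hgH ⟨h, hMK hgM⟩
    have hE : ∀ a d, Q a = 0 → B a d = 0 → E Q a d ∈ M := fun a d ha had => hHM (hEH a d ha had)
    obtain ⟨c, w₀, hQc, hc0, hw0, hcw, hT⟩ := exists_T hQ hn h2 hE hgM hgs
    exact sl_le_of_T hQ (all_T hQ hn hodd hE hQc hc0 hw0 hcw hT)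

end Main

end Cfsg.Agent.Lib.OrthSL
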