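import Cfsg.Agent.Lib.OrthSL

set_option autoImplicit false

namespace Cfsg.Agent.Lib.OrthSimple

open Matrix Cfsg.Geo Cfsg.Agent.Lib.FormVec Cfsg.Agent.Lib.OrthE Cfsg.Agent.Lib.OrthGen
  Cfsg.Agent.Lib.OrthOmega Cfsg.Agent.Lib.OrthMax Cfsg.Agent.Lib.OrthLocal Cfsg.Agent.Lib.OrthNondeg
  Cfsg.Agent.Lib.OrthSub Cfsg.Agent.Lib.OrthSub2 Cfsg.Agent.Lib.OrthFam Cfsg.Agent.Lib.OrthPair
  Cfsg.Agent.Lib.OrthSwap Cfsg.Agent.Lib.OrthDouble Cfsg.Agent.Lib.OrthSL
open scoped MatrixGroups commutatorElement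

/-- An abstract version of Iwasawa's lemma, phrased with a maximal subgroup. -/
theorem simple_of_max {G : Type*} [Group G] (K A : Subgroup G) (hK : K ≠ ⊤)
    (hmax : ∀ M : Subgroup G, K ≤ M → M = K ∨ M = ⊤) (hAK : A ≤ K)
    (hAn : ∀ k ∈ K, ∀ x ∈ A, k * x * k⁻¹ ∈ A) (hAc : ∀ x ∈ A, ∀ y ∈ A, x * y = y * x)
    (hgen : ∀ M : Subgroup G, M.Normal → A ≤ M → M = ⊤) (hperf : commutator G = ⊤)
    (hcore : ∀ z : G, (∀ g : G, g * z * g⁻¹ ∈ K) → z ∈ Subgroup.center G) :
    IsSimpleGroup (G ⧸ Subgroup.center G) := by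
  haveI : Nontrivial (G ⧸ Subgroup.center G) := by
    by_contra hnt
    rw [not_nontrivial_iff_subsingleton] at hnt
    have hcen : Subgroup.center G = ⊤ := by
      rw [eq_top_iff]
      intro g _
      have : (g : G ⧸ Subgroup.center G) = 1 := Subsingleton.elim _ _
      exact (QuotientGroup.eq_one_iff g).mp this
    apply hK
    rw [eq_top_iff]
    intro g _
    have hz : g ∈ Subgroup.center G := by rw [hcen]; trivial
    have := hcore g (fun h => by
      rw [Subgroup.mem_center_iff.mp hz h]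
      have h1 : g ∈ (⊤ : Subgroup G) := trivial
      have hcomm : commutator G = ⊥ := by
        rw [commutator_eq_bot_iff_center_eq_top]
        exact hcen
      rw [hcomm] at hperf
      have hb : K = ⊥ ∨ True := Or.inr trivial
      have h2 : (⊤ : Subgroup G) = ⊥ := hperf.symm
      have hg : g = 1 := by
        have : g ∈ (⊥ : Subgroup G) := h2 ▸ h1
        exact Subgroup.mem_bot.mp this
      simp [hg, K.one_mem])
    have hcomm : commutator G = ⊥ := by
      rw [commutator_eq_bot_iff_center_eq_top]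
      exact hcen
    rw [hcomm] at hperf
    have h2 : (⊤ : Subgroup G) = ⊥ := hperf.symm
    have hg : g = 1 := by
      have h1 : g ∈ (⊤ : Subgroup G) := trivial
      have : g ∈ (⊥ : Subgroup G) := h2 ▸ h1
      exact Subgroup.mem_bot.mp this
    rw [hg]
    exact K.one_mem
  apply IsSimpleGroup.mk
  intro N hN
  let N' : Subgroup G := N.comap (QuotientGroup.mk' (Subgroup.center G))
  haveI hN' : N'.Normal := hN.comap _
  by_cases hle : N' ≤ K
  · left
    rw [Subgroup.eq_bot_iff_forall]
    intro n hn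
    obtain ⟨n', rfl⟩ := QuotientGroup.mk_surjective n
    have hn' : n' ∈ N' := hn
    have hc : n' ∈ Subgroup.center G := hcore n' fun g => hle (hN'.conj_mem n' hn' g)
    exact (QuotientGroup.eq_one_iff n').mpr hc
  right
  have hsup : K ⊔ N' = ⊤ := by
    rcases hmax (K ⊔ N') le_sup_left with h | h
    · exfalso
      apply hle
      rw [← h]
      exact le_sup_right
    · exact h
  -- `A ⊔ N'` is normal
  have hnorm : (A ⊔ N').Normal := by
    constructor
    intro y hy g
    have hg : g ∈ ((K ⊔ N' : Subgroup G) : Set G) := by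
      rw [hsup]
      trivial
    rw [Subgroup.mul_normal] at hg
    obtain ⟨k, hk, n, hn, rfl⟩ := hg
    have hy' : y ∈ ((A ⊔ N' : Subgroup G) : Set G) := hy
    rw [Subgroup.mul_normal] at hy'
    obtain ⟨a, ha, b, hb, rfl⟩ := hy'
    -- conjugating by k, then by n
    have h1 : k * a * k⁻¹ ∈ A := hAn k hk a ha
    have h2 : k * b * k⁻¹ ∈ N' := hN'.conj_mem b hb k
    have h3 : k * n * (a * b) * (k * n)⁻¹ =
        (k * a * k⁻¹) * (((k * a * k⁻¹)⁻¹ * (k * n * a * n⁻¹ * k⁻¹)) * (k * n * b * n⁻¹ * k⁻¹)) := by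
      group
    rw [h3]
    refine (A ⊔ N').mul_mem (Subgroup.mem_sup_left h1) (Subgroup.mem_sup_right (N'.mul_mem ?_ ?_))
    · have h4 : (k * a * k⁻¹)⁻¹ * (k * n * a * n⁻¹ * k⁻¹) = k * (a⁻¹ * (n * a * n⁻¹)) * k⁻¹ := by
        group
      rw [h4]
      refine hN'.conj_mem _ ?_ k
      have h5 : a⁻¹ * (n * a * n⁻¹) = (a⁻¹ * n * a) * n⁻¹ := by group
      rw [h5]
      refine N'.mul_mem ?_ (N'.inv_mem hn)
      have := hN'.conj_mem n hn a⁻¹
      simpa using this
    · have h6 : k * n * b * n⁻¹ * k⁻¹ = k * (n * b * n⁻¹) * k⁻¹ := by group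
      rw [h6]
      exact hN'.conj_mem _ (hN'.conj_mem b hb n) k
  have htop : A ⊔ N' = ⊤ := hgen _ hnorm le_sup_left
  -- `G/N'` is commutative
  have hcomm : commutator G ≤ N' := by
    rw [commutator_def, Subgroup.commutator_le]
    intro g _ h _
    have hg : g ∈ ((A ⊔ N' : Subgroup G) : Set G) := by
      rw [htop]
      trivial
    have hh : h ∈ ((A ⊔ N' : Subgroup G) : Set G) := by
      rw [htop]
      trivial
    rw [Subgroup.mul_normal] at hg hh
    obtain ⟨a, ha, n, hn, rfl⟩ := hg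
    obtain ⟨b, hb, m, hm, rfl⟩ := hh
    rw [← QuotientGroup.eq_one_iff]
    simp only [commutatorElement_def, QuotientGroup.mk_mul, QuotientGroup.mk_inv]
    have e1 : ((n : G) : G ⧸ N') = 1 := (QuotientGroup.eq_one_iff n).mpr hn
    have e2 : ((m : G) : G ⧸ N') = 1 := (QuotientGroup.eq_one_iff m).mpr hm
    rw [e1, e2]
    simp only [mul_one, inv_one, one_mul]
    have e3 : ((a : G) : G ⧸ N') * ((b : G) : G ⧸ N') = ((b : G) : G ⧸ N') * ((a : G) : G ⧸ N') := by
      rw [← QuotientGroup.mk_mul, ← QuotientGroup.mk_mul, hAc a ha b hb]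
    rw [e3]
    group
  rw [hperf] at hcomm
  rw [eq_top_iff]
  intro n _
  obtain ⟨n', rfl⟩ := QuotientGroup.mk_surjective n
  exact hcomm (Subgroup.mem_top n')

variable {ι : Type} [Fintype ι] [DecidableEq ι] {F : Type*} [Field F] {Q : (ι → F) → F}

local notation "B" => QuadraticMap.polar Q

/-- The embedding of Ω in GL. -/
def incl (Q : (ι → F) → F) : ↥(Cfsg.Omega F Q) →* GL ι F :=
  (Cfsg.isometryGroup F Q).subtype.comp (Cfsg.Omega F Q).subtype

theorem incl_inj : Function.Injective (incl Q) := by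
  intro x y h
  exact Subtype.ext (Subtype.ext h)

theorem incl_mem (x : ↥(Cfsg.Omega F Q)) : incl Q x ∈ omegaGL Q := ⟨x.1, x.2, rfl⟩

theorem exists_incl {g : GL ι F} (hg : g ∈ omegaGL Q) : ∃ x : ↥(Cfsg.Omega F Q), incl Q x = g := by
  obtain ⟨y, hy, rfl⟩ := hg
  exact ⟨⟨y, hy⟩, rfl⟩

theorem incl_O (x : ↥(Cfsg.Omega F Q)) : incl Q x ∈ isometryGroup F Q := x.1.2

theorem comm_eq (hQ : IsNondegenerateQuadraticForm Q) {c e u w : ι → F}
    (hQc : Q c = 0) (hQe : Q e = 0) (hQu : Q u = 0) (hQw : Q w = 0) (hce : B c e = 0) (huw : B u w = 0)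
    (heu : B e u = 0) (hew : B e w = 0) (hcw : B c w = 0) :
    E Q (B c u • w) e = (E Q c e)⁻¹ * (E Q u w * E Q c e * (E Q u w)⁻¹) := by
  have hYO := E_mem_O hQ hQu huw
  have hYc : ((E Q u w : GL ι F) : Matrix ι ι F) *ᵥ c = c + B c u • w := by
    rw [E_mulVec hQ hQu huw, hcw, hQw]
    module
  have hYe : ((E Q u w : GL ι F) : Matrix ι ι F) *ᵥ e = e := by
    rw [E_mulVec hQ hQu huw, heu, hew, hQw]
    module
  have hconj := conj_E hQ hYO hQc hce
  rw [hYc, hYe] at hconj
  have hQκw : Q (B c u • w) = 0 := by rw [Q_smul hQ, hQw, mul_zero]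
  have hadd := E_center_add hQ hQc hQκw hQe (by rw [B_smul_right hQ, hcw, mul_zero]) hce
    (by rw [B_smul_left hQ, B_comm hQ w e, hew, mul_zero])
  rw [hconj, hadd]
  group

theorem span_sing [Fintype F] (hQ : IsNondegenerateQuadraticForm Q) (hn : 5 ≤ Fintype.card ι) (x : ι → F) :
    perp hQ (Submodule.span F {x}) ≤ Submodule.span F {y | y ∈ perp hQ (Submodule.span F {x}) ∧ Q y = 0} := by
  by_contra hcon
  have h1 := finrank_perp hQ (Submodule.span F {x})
  have h3 := finrank_span_one_le (F := F) x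
  obtain ⟨y, hy, hQy, hyn⟩ := exists_sing_outside' hQ _ _ hcon (by
    have h4 := Submodule.finrank_mono (inf_le_right : (perp hQ (Submodule.span F {x}) ⊓ perp hQ (perp hQ (Submodule.span F {x})) : Submodule F (ι → F)) ≤ perp hQ (perp hQ (Submodule.span F {x})))
    have h5 : Module.finrank F (perp hQ (perp hQ (Submodule.span F {x}))) = Module.finrank F (Submodule.span F {x}) := by
      rw [perp_perp]
    omega)
  exact hyn (Submodule.subset_span ⟨hy, hQy⟩)

theorem E0 (hQ : IsNondegenerateQuadraticForm Q) (e : ι → F) : E Q (0 : ι → F) e = 1 := by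
  apply gl_ext
  intro x
  rw [E_mulVec hQ (Q_zero hQ) (B_zero_left hQ e), one_mulVec', B_zero_right hQ]
  simp

variable [Fintype F]

/-- If every singular vector is an eigenvector of `z`, then `z` is a scalar. -/
theorem scalar_of_eigen (hQ : IsNondegenerateQuadraticForm Q) (hn : 5 ≤ Fintype.card ι) (z : GL ι F)
    (h : ∀ b : ι → F, Q b = 0 → ∃ κ : F, (z : Matrix ι ι F) *ᵥ b = κ • b) :
    ∃ l : F, ∀ x, (z : Matrix ι ι F) *ᵥ x = l • x := by
  have htop : Module.finrank F (⊤ : Submodule F (ι → F)) = Fintype.card ι := by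
    rw [finrank_top]
    simp
  obtain ⟨a₀, -, ha₀0, hQa₀⟩ := exists_sing hQ (⊤ : Submodule F (ι → F)) (by omega)
  obtain ⟨l, hl⟩ := h a₀ hQa₀
  have orth : ∀ a b : ι → F, a ≠ 0 → Q a = 0 → Q b = 0 → B a b = 0 → b ∉ Submodule.span F {a} →
      (z : Matrix ι ι F) *ᵥ a = l • a → (z : Matrix ι ι F) *ᵥ b = l • b := by
    intro a b ha0 hQa hQb hab hb hza
    obtain ⟨κ, hκ⟩ := h b hQb
    obtain ⟨μ, hμ⟩ := h (a + b) (by rw [Q_add hQ, hQa, hQb, hab]; ring)
    rw [Matrix.mulVec_add, hza, hκ, smul_add] at hμ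
    have h3 : (μ - κ) • b = (l - μ) • a := by
      rw [sub_smul, sub_smul]
      linear_combination -hμ
    have h4 : μ - κ = 0 := by
      by_contra hne
      apply hb
      rw [Submodule.mem_span_singleton]
      refine ⟨(μ - κ)⁻¹ * (l - μ), ?_⟩
      rw [mul_smul, ← h3, smul_smul, inv_mul_cancel₀ hne, one_smul]
    rw [h4, zero_smul] at h3
    have h5 : l - μ = 0 := by
      rcases smul_eq_zero.mp h3.symm with h6 | h6
      · exact h6
      · exact absurd h6 ha0
    have h6 : κ = l := by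
      have e1 : μ = κ := sub_eq_zero.mp h4
      have e2 : l = μ := sub_eq_zero.mp h5
      rw [e2, e1]
    rw [hκ, h6]
  have hall : ∀ b : ι → F, Q b = 0 → (z : Matrix ι ι F) *ᵥ b = l • b := by
    intro b hQb
    by_cases hsp : b ∈ Submodule.span F {a₀}
    · obtain ⟨κ, rfl⟩ := Submodule.mem_span_singleton.mp hsp
      rw [Matrix.mulVec_smul, hl, smul_comm]
    by_cases hort : B a₀ b = 0
    · exact orth a₀ b ha₀0 hQa₀ hQb hort hsp hl
    -- an intermediate vector
    have h1 := finrank_perp hQ (Submodule.span F {a₀, b})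
    have h3 := finrank_span_two_le (F := F) a₀ b
    obtain ⟨c, hc, hc0, hQc⟩ := exists_sing hQ (perp hQ (Submodule.span F {a₀, b})) (by omega)
    have hac : B a₀ c = 0 := (mem_perp hQ).1 hc a₀ (Submodule.subset_span (by simp))
    have hbc : B b c = 0 := (mem_perp hQ).1 hc b (Submodule.subset_span (by simp))
    have hcn : c ∉ Submodule.span F {a₀} := by
      intro h4
      obtain ⟨κ, rfl⟩ := Submodule.mem_span_singleton.mp h4
      rw [B_smul_right hQ, B_comm hQ b a₀] at hbc
      have hκ : κ ≠ 0 := by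
        rintro rfl
        simp at hc0
      exact hort ((mul_eq_zero.mp hbc).resolve_left hκ)
    have hzc := orth a₀ c ha₀0 hQa₀ hQc hac hcn hl
    have hbn : b ∉ Submodule.span F {c} := by
      intro h4
      obtain ⟨κ, rfl⟩ := Submodule.mem_span_singleton.mp h4
      apply hort
      rw [B_smul_right hQ, hac, mul_zero]
    exact orth c b hc0 hQc hQb (by rw [B_comm hQ, hbc]) hbn hzc
  let S : Submodule F (ι → F) :=
    { carrier := {y | (z : Matrix ι ι F) *ᵥ y = l • y}
      add_mem' := by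
        intro x y hx hy
        simp only [Set.mem_setOf_eq] at hx hy ⊢
        rw [Matrix.mulVec_add, hx, hy, smul_add]
      zero_mem' := by
        simp
      smul_mem' := by
        intro r y hy
        simp only [Set.mem_setOf_eq] at hy ⊢
        rw [Matrix.mulVec_smul, hy, smul_comm] }
  have hS : (⊤ : Submodule F (ι → F)) ≤ S := by
    by_contra hcon
    obtain ⟨y, -, hQy, hyS⟩ := exists_sing_outside hQ ⊤ S hcon (by omega)
    exact hyS (hall y hQy)
  exact ⟨l, fun x => hS (Submodule.mem_top (x := x))⟩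

/-- **Simplicity of PΩ.** -/
theorem POmega_simple (hQ : IsNondegenerateQuadraticForm Q) (hn : 7 ≤ Fintype.card ι) :
    IsSimpleGroup (Cfsg.POmega F Q) := by
  have hn5 : 5 ≤ Fintype.card ι := by omega
  have htop : Module.finrank F (⊤ : Submodule F (ι → F)) = Fintype.card ι := by
    rw [finrank_top]
    simp
  obtain ⟨a, -, ha0, hQa⟩ := exists_sing hQ (⊤ : Submodule F (ι → F)) (by omega)
  have hsp1 : Module.finrank F (Submodule.span F {a}) = 1 := finrank_span_singleton ha0
  have haa : B a a = 0 := by rw [B_self hQ, hQa, mul_zero]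
  have hts : IsTotallySingularQuad Q (Submodule.span F {a}) := by
    intro w hw
    obtain ⟨κ, rfl⟩ := Submodule.mem_span_singleton.mp hw
    rw [Q_smul hQ, hQa, mul_zero]
  have hmaxP := parab_maximal hQ hn (Submodule.span F {a}) (by
    intro h
    rw [h, finrank_bot] at hsp1
    omega) hts (by
    intro U _ h1 h2
    omega)
  let G := ↥(Cfsg.Omega F Q)
  let K : Subgroup G := (subspaceStabilizer (Submodule.span F {a})).comap (incl Q)
  have hEΩ : ∀ {a' d : ι → F}, Q a' = 0 → B a' d = 0 → ∃ x : G, incl Q x = E Q a' d :=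
    fun h1 h2 => exists_incl (E_mem_comm hQ hn5 h1 h2)
  let A : Subgroup G :=
    { carrier := {x | ∃ d, B a d = 0 ∧ incl Q x = E Q a d}
      mul_mem' := by
        rintro x y ⟨d, hd, hx⟩ ⟨d', hd', hy⟩
        refine ⟨d + d', by rw [B_add_right hQ, hd, hd', add_zero], ?_⟩
        rw [map_mul, hx, hy, E_mul hQ hQa hd hd']
      one_mem' := ⟨0, B_zero_right hQ a, by rw [map_one, E_zero hQ hQa]⟩
      inv_mem' := by
        rintro x ⟨d, hd, hx⟩
        refine ⟨-d, by rw [B_neg_right hQ, hd, neg_zero], ?_⟩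
        rw [map_inv, hx, E_neg hQ hQa hd] }
  refine simple_of_max K A ?_ ?_ ?_ ?_ ?_ ?_ ?_ ?_
  · -- K is proper
    intro h
    apply hmaxP.1.ne
    apply le_antisymm hmaxP.1.le
    intro g hg
    obtain ⟨x, rfl⟩ := exists_incl hg
    have : x ∈ K := by
      rw [h]
      trivial
    exact ⟨this, hg⟩
  · -- K is maximal
    intro M hKM
    have hH : subspaceStabilizer (Submodule.span F {a}) ⊓ omegaGL Q ≤ M.map (incl Q) := by
      rintro g ⟨hg1, hg2⟩
      obtain ⟨x, rfl⟩ := exists_incl hg2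
      exact ⟨x, hKM hg1, rfl⟩
    have hM2 : M.map (incl Q) ≤ omegaGL Q := by
      rintro _ ⟨x, -, rfl⟩
      exact incl_mem x
    rcases hmaxP.2 _ hH hM2 with h | h
    · left
      apply le_antisymm _ hKM
      intro x hx
      have : incl Q x ∈ M.map (incl Q) := ⟨x, hx, rfl⟩
      rw [h] at this
      exact this.1
    · right
      rw [eq_top_iff]
      intro x _
      have : incl Q x ∈ M.map (incl Q) := by
        rw [h]
        exact incl_mem x
      obtain ⟨y, hy, hyx⟩ := this
      rw [← incl_inj hyx]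
      exact hy
  · -- A ≤ K
    rintro x ⟨d, hd, hx⟩
    show incl Q x ∈ subspaceStabilizer (Submodule.span F {a})
    rw [hx]
    refine mem_stab_of_le fun v hv => ?_
    obtain ⟨κ, rfl⟩ := Submodule.mem_span_singleton.mp hv
    rw [Matrix.mulVec_smul, E_mulVec_of_orth hQ hQa hd haa, hd]
    simp only [zero_smul, sub_zero]
    exact Submodule.smul_mem _ _ (Submodule.mem_span_singleton_self a)
  · -- K normalises A
    rintro k hk x ⟨d, hd, hx⟩
    have hk' : incl Q k ∈ subspaceStabilizer (Submodule.span F {a}) := hk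
    have hka := ((mem_stab_iff _ _).1 hk' a).1 (Submodule.mem_span_singleton_self a)
    obtain ⟨κ, hκ⟩ := Submodule.mem_span_singleton.mp hka
    have hkO := incl_O k
    have hB0 : B a ((incl Q k : Matrix ι ι F) *ᵥ d) = 0 := by
      have h1 := O_B hkO a d
      rw [← hκ, B_smul_left hQ, hd] at h1
      have hκ0 : κ ≠ 0 := by
        rintro rfl
        rw [zero_smul] at hκ
        exact ha0 ((glEquiv _).map_eq_zero_iff.mp hκ.symm)
      exact (mul_eq_zero.mp h1).resolve_left hκ0
    refine ⟨κ • ((incl Q k : Matrix ι ι F) *ᵥ d), by rw [B_smul_right hQ, hB0, mul_zero], ?_⟩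
    rw [map_mul, map_mul, map_inv, hx, conj_E hQ hkO hQa hd, ← hκ, E_smul_center hQ κ hQa hB0]
  · -- A is commutative
    rintro x ⟨d, hd, hx⟩ y ⟨d', hd', hy⟩
    apply incl_inj
    rw [map_mul, map_mul, hx, hy, E_mul hQ hQa hd hd', E_mul hQ hQa hd' hd, add_comm]
  · -- conjugates of A generate
    intro M hM hAM
    rw [eq_top_iff]
    have hTT : TT Q ≤ M.map (incl Q) := by
      rw [TT, Subgroup.closure_le]
      rintro _ ⟨a', d', ha', hd', rfl⟩
      by_cases hsp : a' ∈ Submodule.span F {a}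
      · obtain ⟨κ, rfl⟩ := Submodule.mem_span_singleton.mp hsp
        rw [B_smul_left hQ] at hd'
        by_cases hκ : κ = 0
        · subst hκ
          rw [zero_smul, E0 hQ]
          exact Subgroup.one_mem _
        have hd'' : B a d' = 0 := (mul_eq_zero.mp hd').resolve_left hκ
        have hB : B a (κ • d') = 0 := by rw [B_smul_right hQ, hd'']; simp
        obtain ⟨x, hx⟩ := hEΩ hQa hB
        rw [E_smul_center hQ κ hQa hd'']
        exact ⟨x, hAM ⟨_, hB, hx⟩, hx⟩
      · obtain ⟨t, ht, hta⟩ := sing_trans hQ hn5 hQa ha' ha0 hsp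
        have htΩ : t ∈ omegaGL Q := by
          rw [omega_eq hQ hn5]
          exact ht
        obtain ⟨τ, rfl⟩ := exists_incl htΩ
        have hτO := incl_O τ
        have hB : B a (((incl Q τ)⁻¹ : GL ι F).val *ᵥ d') = 0 := by
          rw [B_comm hQ, O_inv_B hτO, hta, B_comm hQ]
          exact hd'
        obtain ⟨x, hx⟩ := hEΩ hQa hB
        refine ⟨τ * x * τ⁻¹, hM.conj_mem x (hAM ⟨_, hB, hx⟩) τ, ?_⟩
        rw [map_mul, map_mul, map_inv, hx, conj_E hQ hτO hQa hB, hta, mulVec_inv_mulVec]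
    intro y _
    have : incl Q y ∈ TT Q := by
      rw [← omega_eq hQ hn5]
      exact incl_mem y
    obtain ⟨z, hz, hzy⟩ := hTT this
    rw [← incl_inj hzy]
    exact hz
  · -- perfect
    rw [eq_top_iff]
    let N : Subgroup (GL ι F) := (commutator G).map (incl Q)
    have step1 : ∀ w e : ι → F, Q w = 0 → Q e = 0 → B w e = 0 → e ∉ Submodule.span F {w} → w ≠ 0 → E Q w e ∈ N := by
      intro w e hQw hQe hwe hen hw0
      have h1 := finrank_perp hQ (Submodule.span F {w, e})
      have h3 := finrank_span_two_le (F := F) w e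
      obtain ⟨u, huY, hQu, hun⟩ := exists_sing_gap hQ (perp hQ (Submodule.span F {w, e})) (Submodule.span F {w, e}) (by omega)
      have hnot : u ∉ perp hQ (perp hQ (Submodule.span F {w, e})) := by
        rw [perp_perp]
        exact hun
      rw [mem_perp] at hnot
      push Not at hnot
      obtain ⟨y, hyY, hy⟩ := hnot
      obtain ⟨c, hcY, hQc, huc⟩ := exists_hyp hQ huY hQu hyY (by rw [B_comm hQ]; exact hy)
      have hcu : B c u = 1 := by rw [B_comm hQ, huc]
      have huw : B u w = 0 := by rw [B_comm hQ]; exact (mem_perp hQ).1 huY w (Submodule.subset_span (by simp))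
      have heu : B e u = 0 := (mem_perp hQ).1 huY e (Submodule.subset_span (by simp))
      have hcw : B c w = 0 := by rw [B_comm hQ]; exact (mem_perp hQ).1 hcY w (Submodule.subset_span (by simp))
      have hce : B c e = 0 := by rw [B_comm hQ]; exact (mem_perp hQ).1 hcY e (Submodule.subset_span (by simp))
      have hew : B e w = 0 := by rw [B_comm hQ]; exact hwe
      have heq := comm_eq hQ hQc hQe hQu hQw hce huw heu hew hcw
      rw [hcu, one_smul] at heq
      obtain ⟨x₁, hx₁⟩ := hEΩ hQc hce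
      obtain ⟨x₂, hx₂⟩ := hEΩ hQu huw
      refine ⟨⁅x₁⁻¹, x₂⁆, Subgroup.commutator_mem_commutator (Subgroup.mem_top _) (Subgroup.mem_top _), ?_⟩
      rw [map_commutatorElement, commutatorElement_def, map_inv, hx₁, hx₂, heq]
      group
    have hmemp : ∀ {x y : ι → F}, B x y = 0 → y ∈ perp hQ (Submodule.span F {x}) := by
      intro x y h
      rw [mem_perp]
      intro z hz
      obtain ⟨r, rfl⟩ := Submodule.mem_span_singleton.mp hz
      rw [B_smul_left hQ, h, mul_zero]
    have hmemp' : ∀ {x y : ι → F}, y ∈ perp hQ (Submodule.span F {x}) → B x y = 0 :=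
      fun h => (mem_perp hQ).1 h _ (Submodule.mem_span_singleton_self _)
    have step2 : ∀ w e : ι → F, Q w = 0 → B w e = 0 → E Q w e ∈ N := by
      intro w e hQw hwe
      by_cases hw0 : w = 0
      · subst hw0
        rw [E0 hQ]
        exact N.one_mem
      have key : ∀ e ∈ Submodule.span F {y | y ∈ perp hQ (Submodule.span F {w}) ∧ Q y = 0},
          B w e = 0 ∧ ∀ r : F, E Q w (r • e) ∈ N := by
        intro e he
        induction he using Submodule.span_induction with
        | mem y hy =>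
          have hB := hmemp' hy.1
          refine ⟨hB, fun r => ?_⟩
          by_cases hsp : r • y ∈ Submodule.span F {w}
          · obtain ⟨κ, hκ⟩ := Submodule.mem_span_singleton.mp hsp
            rw [← hκ]
            have e1 : E Q w (κ • w) = E Q w ((0 : ι → F) + κ • w) := by rw [zero_add]
            rw [e1, E_add_center_vec hQ κ hQw (B_zero_right hQ w), E_zero hQ hQw]
            exact N.one_mem
          · exact step1 w (r • y) hQw (by rw [Q_smul hQ, hy.2, mul_zero]) (by rw [B_smul_right hQ, hB, mul_zero]) hsp hw0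
        | zero =>
          refine ⟨B_zero_right hQ w, fun r => ?_⟩
          rw [smul_zero, E_zero hQ hQw]
          exact N.one_mem
        | add x y _ _ hx hy =>
          refine ⟨by rw [B_add_right hQ, hx.1, hy.1, add_zero], fun r => ?_⟩
          rw [smul_add, ← E_mul hQ hQw (by rw [B_smul_right hQ, hx.1, mul_zero]) (by rw [B_smul_right hQ, hy.1, mul_zero])]
          exact N.mul_mem (hx.2 r) (hy.2 r)
        | smul c x _ hx =>
          refine ⟨by rw [B_smul_right hQ, hx.1, mul_zero], fun r => ?_⟩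
          rw [smul_smul]
          exact hx.2 _
      have := (key e (span_sing hQ hn5 w (hmemp hwe))).2 1
      rwa [one_smul] at this
    have hTT : TT Q ≤ N := by
      rw [TT, Subgroup.closure_le]
      rintro _ ⟨a', d', ha', hd', rfl⟩
      exact step2 a' d' ha' hd'
    intro y _
    have : incl Q y ∈ TT Q := by
      rw [← omega_eq hQ hn5]
      exact incl_mem y
    obtain ⟨z, hz, hzy⟩ := hTT this
    rw [← incl_inj hzy]
    exact hz
  · -- the core is central
    intro z hz
    have heig : ∀ b : ι → F, Q b = 0 → ∃ κ : F, (incl Q z : Matrix ι ι F) *ᵥ b = κ • b := by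
      intro b hQb
      by_cases hb0 : b = 0
      · exact ⟨0, by rw [hb0]; simp⟩
      have h1 : ∀ (c : ι → F) (τ : G), (incl Q τ : Matrix ι ι F) *ᵥ a = c →
          ∃ κ : F, (incl Q z : Matrix ι ι F) *ᵥ c = κ • c := by
        intro c τ hτ
        subst hτ
        have h3 : incl Q (τ⁻¹ * z * τ⁻¹⁻¹) ∈ subspaceStabilizer (Submodule.span F {a}) := hz τ⁻¹
        have h4 := ((mem_stab_iff _ _).1 h3 a).1 (Submodule.mem_span_singleton_self a)
        obtain ⟨κ, hκ⟩ := Submodule.mem_span_singleton.mp h4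
        refine ⟨κ, ?_⟩
        rw [inv_inv, map_mul, map_mul, map_inv, mul_mulVec, mul_mulVec] at hκ
        have h5 := congrArg (fun v => (incl Q τ : Matrix ι ι F) *ᵥ v) hκ
        simp only [Matrix.mulVec_smul, mulVec_inv_mulVec] at h5
        exact h5.symm
      by_cases hsp : b ∈ Submodule.span F {a}
      · obtain ⟨κ, rfl⟩ := Submodule.mem_span_singleton.mp hsp
        obtain ⟨κ', hκ'⟩ := h1 a 1 (by rw [map_one, one_mulVec'])
        exact ⟨κ', by rw [Matrix.mulVec_smul, hκ', smul_comm]⟩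
      · obtain ⟨t, ht, hta⟩ := sing_trans hQ hn5 hQa hQb ha0 hsp
        have htΩ : t ∈ omegaGL Q := by
          rw [omega_eq hQ hn5]
          exact ht
        obtain ⟨τ, rfl⟩ := exists_incl htΩ
        exact h1 b τ hta
    obtain ⟨l, hl⟩ := scalar_of_eigen hQ hn5 (incl Q z) heig
    rw [Subgroup.mem_center_iff]
    intro y
    apply incl_inj
    rw [map_mul, map_mul]
    apply gl_ext
    intro x
    rw [mul_mulVec, mul_mulVec, hl, hl, Matrix.mulVec_smul]

end Cfsg.Agent.Lib.OrthSimple
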