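import Mathlib
import Cfsg.Prelude.Def_Classical

set_option autoImplicit false

namespace Cfsg.Agent.Lib.OrthSum

open Matrix Cfsg

variable {F : Type*} [Field F] {α β : Type} [Fintype α] [DecidableEq α] [Fintype β] [DecidableEq β]

/-- Block-diagonal embedding of `GL α × GL β` in `GL (α ⊕ β)`. -/
def blk : GL α F × GL β F →* GL (α ⊕ β) F where
  toFun g :=
    { val := Matrix.fromBlocks g.1.1 0 0 g.2.1
      inv := Matrix.fromBlocks (g.1⁻¹).1 0 0 (g.2⁻¹).1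
      val_inv := by
        rw [Matrix.fromBlocks_multiply]
        simp [Matrix.fromBlocks_one]
      inv_val := by
        rw [Matrix.fromBlocks_multiply]
        simp [Matrix.fromBlocks_one] }
  map_one' := by
    apply Units.ext
    simp [Matrix.fromBlocks_one]
  map_mul' a b := by
    apply Units.ext
    show Matrix.fromBlocks _ 0 0 _ = Matrix.fromBlocks _ 0 0 _ * Matrix.fromBlocks _ 0 0 _
    rw [Matrix.fromBlocks_multiply]
    simp

@[simp] theorem blk_val (g : GL α F × GL β F) :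
    (blk g).1 = Matrix.fromBlocks g.1.1 0 0 g.2.1 := rfl

theorem blk_mulVec (g : GL α F × GL β F) (v : α ⊕ β → F) :
    (blk g).1 *ᵥ v = Sum.elim (g.1.1 *ᵥ (v ∘ Sum.inl)) (g.2.1 *ᵥ (v ∘ Sum.inr)) := by
  rw [blk_val, Matrix.fromBlocks_mulVec]
  simp

/-- The orthogonal sum of two functions. -/
def sumQ (Q₁ : (α → F) → F) (Q₂ : (β → F) → F) : (α ⊕ β → F) → F :=
  fun v => Q₁ (v ∘ Sum.inl) + Q₂ (v ∘ Sum.inr)

variable {Q₁ : (α → F) → F} {Q₂ : (β → F) → F}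

theorem blk_mem {g : GL α F × GL β F} (h₁ : g.1 ∈ isometryGroup F Q₁) (h₂ : g.2 ∈ isometryGroup F Q₂) :
    blk g ∈ isometryGroup F (sumQ Q₁ Q₂) := by
  intro v _
  show sumQ Q₁ Q₂ ((blk g).1 *ᵥ v) = sumQ Q₁ Q₂ v
  rw [blk_mulVec]
  unfold sumQ
  have e1 : (Sum.elim (g.1.1 *ᵥ (v ∘ Sum.inl)) (g.2.1 *ᵥ (v ∘ Sum.inr))) ∘ Sum.inl = g.1.1 *ᵥ (v ∘ Sum.inl) := by
    ext; simp
  have e2 : (Sum.elim (g.1.1 *ᵥ (v ∘ Sum.inl)) (g.2.1 *ᵥ (v ∘ Sum.inr))) ∘ Sum.inr = g.2.1 *ᵥ (v ∘ Sum.inr) := by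
    ext; simp
  rw [e1, e2]
  have h1 := h₁ (v ∘ Sum.inl) 0
  have h2 := h₂ (v ∘ Sum.inr) 0
  simp only [Units.coeHom_apply] at h1 h2
  rw [h1, h2]

/-- Inclusion of the product of the isometry groups. -/
def blkO (Q₁ : (α → F) → F) (Q₂ : (β → F) → F) :
    isometryGroup F Q₁ × isometryGroup F Q₂ →* isometryGroup F (sumQ Q₁ Q₂) where
  toFun g := ⟨blk (g.1.1, g.2.1), blk_mem g.1.2 g.2.2⟩
  map_one' := by
    apply Subtype.ext
    exact blk.map_one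
  map_mul' a b := by
    apply Subtype.ext
    exact blk.map_mul (a.1.1, a.2.1) (b.1.1, b.2.1)

theorem map_comm_le {A B : Type*} [Group A] [Group B] (f : A →* B) :
    (commutator A).map f ≤ commutator B := by
  rw [_root_.commutator_def, _root_.commutator_def, Subgroup.map_commutator]
  exact Subgroup.commutator_mono le_top le_top

/-- `diag(g₁, g₂) ∈ Ω` when `g₁ ∈ Ω₁`, `g₂ ∈ Ω₂`. -/
theorem blk_mem_omega (g₁ : isometryGroup F Q₁) (g₂ : isometryGroup F Q₂)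
    (h₁ : g₁ ∈ Omega F Q₁) (h₂ : g₂ ∈ Omega F Q₂) :
    blkO Q₁ Q₂ (g₁, g₂) ∈ Omega F (sumQ Q₁ Q₂) := by
  have e : (g₁, g₂) = (g₁, (1 : isometryGroup F Q₂)) * ((1 : isometryGroup F Q₁), g₂) := by simp
  rw [e, map_mul]
  apply Subgroup.mul_mem
  · exact map_comm_le ((blkO Q₁ Q₂).comp (MonoidHom.inl _ _)) ⟨g₁, h₁, rfl⟩
  · exact map_comm_le ((blkO Q₁ Q₂).comp (MonoidHom.inr _ _)) ⟨g₂, h₂, rfl⟩

end Cfsg.Agent.Lib.OrthSum
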