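import Cfsg.Agent.Lib.OrthTrans
import Cfsg.Agent.Lib.OrthSum

set_option autoImplicit false

namespace Cfsg.Agent.Lib.OrthSum2

open Matrix Cfsg Cfsg.Geo Cfsg.Agent.Lib.FormVec Cfsg.Agent.Lib.OrthE Cfsg.Agent.Lib.OrthGen
  Cfsg.Agent.Lib.OrthOmega Cfsg.Agent.Lib.OrthRefl Cfsg.Agent.Lib.OrthSpin Cfsg.Agent.Lib.OrthSpin2
  Cfsg.Agent.Lib.OrthSpin3 Cfsg.Agent.Lib.OrthDick Cfsg.Agent.Lib.OrthNeg Cfsg.Agent.Lib.OrthFam
  Cfsg.Agent.Lib.OrthChar Cfsg.Agent.Lib.OrthPairs Cfsg.Agent.Lib.OrthClass Cfsg.Agent.Lib.OrthDiag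
  Cfsg.Agent.Lib.OrthGram Cfsg.Agent.Lib.OrthTrans Cfsg.Agent.Lib.OrthSum

variable {F : Type*} [Field F] {α β : Type} [Fintype α] [DecidableEq α] [Fintype β] [DecidableEq β]
variable {Q₁ : (α → F) → F} {Q₂ : (β → F) → F}

theorem polar_sum (v w : α ⊕ β → F) : QuadraticMap.polar (sumQ Q₁ Q₂) v w =
    QuadraticMap.polar Q₁ (v ∘ Sum.inl) (w ∘ Sum.inl) + QuadraticMap.polar Q₂ (v ∘ Sum.inr) (w ∘ Sum.inr) := by
  simp only [QuadraticMap.polar, sumQ]
  have e1 : (v + w) ∘ Sum.inl = v ∘ Sum.inl + w ∘ Sum.inl := rfl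
  have e2 : (v + w) ∘ Sum.inr = v ∘ Sum.inr + w ∘ Sum.inr := rfl
  rw [e1, e2]
  ring

variable (h₁ : IsNondegenerateQuadraticForm Q₁) (h₂ : IsNondegenerateQuadraticForm Q₂)

include h₁ h₂ in
theorem sumQ_nondeg : IsNondegenerateQuadraticForm (sumQ Q₁ Q₂) := by
  refine ⟨?_, ?_, ?_⟩
  · intro c v
    show Q₁ ((c • v) ∘ Sum.inl) + Q₂ ((c • v) ∘ Sum.inr) = c ^ 2 * (Q₁ (v ∘ Sum.inl) + Q₂ (v ∘ Sum.inr))
    have e1 : (c • v) ∘ Sum.inl = c • (v ∘ Sum.inl) := rfl
    have e2 : (c • v) ∘ Sum.inr = c • (v ∘ Sum.inr) := rfl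
    rw [e1, e2, h₁.smul, h₂.smul]
    ring
  · refine ⟨?_, ?_, ?_, ?_⟩
    · intro x y v
      rw [polar_sum, polar_sum, polar_sum]
      have e1 : (x + y) ∘ Sum.inl = x ∘ Sum.inl + y ∘ Sum.inl := rfl
      have e2 : (x + y) ∘ Sum.inr = x ∘ Sum.inr + y ∘ Sum.inr := rfl
      rw [e1, e2, B_add_left h₁, B_add_left h₂]
      ring
    · intro c x v
      rw [polar_sum, polar_sum]
      have e1 : (c • x) ∘ Sum.inl = c • (x ∘ Sum.inl) := rfl
      have e2 : (c • x) ∘ Sum.inr = c • (x ∘ Sum.inr) := rfl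
      rw [e1, e2, B_smul_left h₁, B_smul_left h₂]
      ring
    · intro v x y
      rw [polar_sum, polar_sum, polar_sum]
      have e1 : (x + y) ∘ Sum.inl = x ∘ Sum.inl + y ∘ Sum.inl := rfl
      have e2 : (x + y) ∘ Sum.inr = x ∘ Sum.inr + y ∘ Sum.inr := rfl
      rw [e1, e2, B_add_right h₁, B_add_right h₂]
      ring
    · intro c v x
      rw [polar_sum, polar_sum]
      have e1 : (c • x) ∘ Sum.inl = c • (x ∘ Sum.inl) := rfl
      have e2 : (c • x) ∘ Sum.inr = c • (x ∘ Sum.inr) := rfl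
      rw [e1, e2, B_smul_right h₁, B_smul_right h₂]
      ring
  · intro v hv
    have hB : ∃ x, QuadraticMap.polar (sumQ Q₁ Q₂) v x ≠ 0 := by
      by_cases h1 : v ∘ Sum.inl = 0
      · have h3 : v ∘ Sum.inr ≠ 0 := by
          intro h3
          apply hv
          ext (i | i)
          · exact congrFun h1 i
          · exact congrFun h3 i
        obtain ⟨z, hz⟩ := (h₂.nondegenerate _ h3).1
        refine ⟨Sum.elim 0 z, ?_⟩
        rw [polar_sum, h1]
        have e2 : (Sum.elim (0 : α → F) z) ∘ Sum.inr = z := by ext; simp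
        rw [e2, B_zero_left h₁, zero_add]
        exact fun h => hz (by rw [B_comm h₂]; exact h)
      · obtain ⟨z, hz⟩ := (h₁.nondegenerate _ h1).1
        refine ⟨Sum.elim z 0, ?_⟩
        rw [polar_sum]
        have e2 : (Sum.elim z (0 : β → F)) ∘ Sum.inl = z := by ext; simp
        have e3 : (Sum.elim z (0 : β → F)) ∘ Sum.inr = 0 := by ext; simp
        rw [e2, e3, B_zero_right h₂, add_zero]
        exact fun h => hz (by rw [B_comm h₁]; exact h)
    refine ⟨?_, hB⟩
    obtain ⟨x, hx⟩ := hB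
    exact ⟨x, by rw [QuadraticMap.polar_comm]; exact hx⟩

/-- First embedding. -/
def inl₀ (v : α → F) : α ⊕ β → F := Sum.elim v 0
/-- Second embedding. -/
def inr₀ (v : β → F) : α ⊕ β → F := Sum.elim 0 v

@[simp] theorem inl₀_inl (v : α → F) : (inl₀ (β := β) v) ∘ Sum.inl = v := by ext; simp [inl₀]
@[simp] theorem inl₀_inr (v : α → F) : (inl₀ (β := β) v) ∘ Sum.inr = 0 := by ext; simp [inl₀]
@[simp] theorem inr₀_inl (v : β → F) : (inr₀ (α := α) v) ∘ Sum.inl = 0 := by ext; simp [inr₀]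
@[simp] theorem inr₀_inr (v : β → F) : (inr₀ (α := α) v) ∘ Sum.inr = v := by ext; simp [inr₀]

include h₂ in
theorem Q_inl (v : α → F) : sumQ Q₁ Q₂ (inl₀ v) = Q₁ v := by
  show Q₁ (inl₀ v ∘ Sum.inl) + Q₂ (inl₀ v ∘ Sum.inr) = _
  rw [inl₀_inl, inl₀_inr, Q_zero h₂, add_zero]

include h₁ in
theorem Q_inr (v : β → F) : sumQ Q₁ Q₂ (inr₀ v) = Q₂ v := by
  show Q₁ (inr₀ v ∘ Sum.inl) + Q₂ (inr₀ v ∘ Sum.inr) = _
  rw [inr₀_inl, inr₀_inr, Q_zero h₁, zero_add]

variable [Fintype F]

theorem rr_inl {v : α → F} (hv : Q₁ v ≠ 0) :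
    rr (sumQ_nondeg h₁ h₂) (inl₀ v) = blkO Q₁ Q₂ (rr h₁ v, 1) := by
  have hv' : sumQ Q₁ Q₂ (inl₀ v) ≠ 0 := by rwa [Q_inl h₂]
  apply Subtype.ext
  apply gl_ext
  intro x
  rw [rr_mulVec _ hv', Q_inl h₂, polar_sum, inl₀_inl, inl₀_inr, B_zero_right h₂, add_zero]
  show _ = (blk (((rr h₁ v : ↥(isometryGroup F Q₁)) : GL α F), (1 : GL β F))).1 *ᵥ x
  rw [blk_mulVec, rr_mulVec h₁ hv]
  ext (i | i)
  · simp [inl₀]
  · simp [inl₀]

theorem rr_inr {v : β → F} (hv : Q₂ v ≠ 0) :
    rr (sumQ_nondeg h₁ h₂) (inr₀ v) = blkO Q₁ Q₂ (1, rr h₂ v) := by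
  have hv' : sumQ Q₁ Q₂ (inr₀ v) ≠ 0 := by rwa [Q_inr h₁]
  apply Subtype.ext
  apply gl_ext
  intro x
  rw [rr_mulVec _ hv', Q_inr h₁, polar_sum, inr₀_inl, inr₀_inr, B_zero_right h₁, zero_add]
  show _ = (blk ((1 : GL α F), ((rr h₂ v : ↥(isometryGroup F Q₂)) : GL β F))).1 *ᵥ x
  rw [blk_mulVec, rr_mulVec h₂ hv]
  ext (i | i)
  · simp [inr₀]
  · simp [inr₀]

theorem prodR_inl (L : List (α → F)) (hL : ∀ v ∈ L, Q₁ v ≠ 0) :
    prodR (sumQ_nondeg h₁ h₂) (L.map inl₀) = blkO Q₁ Q₂ (prodR h₁ L, 1) := by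
  induction L with
  | nil =>
    simp only [List.map_nil, prodR_nil]
    exact (map_one (blkO Q₁ Q₂)).symm
  | cons a t ih =>
    have hta : ∀ v ∈ t, Q₁ v ≠ 0 := fun v hv => hL v (List.mem_cons_of_mem _ hv)
    have ha := hL a List.mem_cons_self
    rw [List.map_cons, prodR_cons, prodR_cons, ih hta, rr_inl h₁ h₂ ha, ← map_mul]
    simp

theorem prodR_inr (L : List (β → F)) (hL : ∀ v ∈ L, Q₂ v ≠ 0) :
    prodR (sumQ_nondeg h₁ h₂) (L.map inr₀) = blkO Q₁ Q₂ (1, prodR h₂ L) := by
  induction L with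
  | nil =>
    simp only [List.map_nil, prodR_nil]
    exact (map_one (blkO Q₁ Q₂)).symm
  | cons a t ih =>
    have hta : ∀ v ∈ t, Q₂ v ≠ 0 := fun v hv => hL v (List.mem_cons_of_mem _ hv)
    have ha := hL a List.mem_cons_self
    rw [List.map_cons, prodR_cons, prodR_cons, ih hta, rr_inr h₁ h₂ ha, ← map_mul]
    simp

include h₂ in
theorem list_Q_inl (L : List (α → F)) :
    ((L.map (inl₀ (β := β))).map (sumQ Q₁ Q₂)).prod = (L.map Q₁).prod := by
  induction L with
  | nil => simp
  | cons a t ih =>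
    simp only [List.map_cons, List.prod_cons]
    rw [ih, Q_inl h₂]

include h₁ in
theorem list_Q_inr (L : List (β → F)) :
    ((L.map (inr₀ (α := α))).map (sumQ Q₁ Q₂)).prod = (L.map Q₂).prod := by
  induction L with
  | nil => simp
  | cons a t ih =>
    simp only [List.map_cons, List.prod_cons]
    rw [ih, Q_inr h₁]

/-- The commutator subgroup of the isometry group in dimension one is trivial. -/
theorem omega_one {ι : Type} [Fintype ι] [DecidableEq ι] {Q : (ι → F) → F} (hc : Fintype.card ι = 1)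
    {g : ↥(isometryGroup F Q)} (hg : g ∈ Omega F Q) : g = 1 := by
  obtain ⟨i₀, hi₀⟩ := Fintype.card_eq_one_iff.1 hc
  have hcomm : ∀ a b : ↥(isometryGroup F Q), a * b = b * a := by
    intro a b
    apply Subtype.ext
    apply Units.ext
    ext i j
    rw [hi₀ i, hi₀ j]
    show ((a : GL ι F).1 * (b : GL ι F).1) i₀ i₀ = ((b : GL ι F).1 * (a : GL ι F).1) i₀ i₀
    rw [Matrix.mul_apply, Matrix.mul_apply]
    rw [Fintype.sum_eq_single i₀ (fun x hx => absurd (hi₀ x) hx),
      Fintype.sum_eq_single i₀ (fun x hx => absurd (hi₀ x) hx), mul_comm]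
  have hle : Omega F Q ≤ ⊥ := by
    unfold Omega
    rw [_root_.commutator_def, Subgroup.commutator_le]
    intro a _ b _
    rw [Subgroup.mem_bot, commutatorElement_eq_one_iff_mul_comm]
    exact hcomm a b
  simpa using hle hg

include h₁ h₂ in
/-- Main criterion for `diag(g₁, 1)`. -/
theorem blk_omega_iff (h₁' : Fintype.card F ≠ 2 ∨ Fintype.card α ≠ 4)
    (h₂' : Fintype.card F ≠ 2 ∨ Fintype.card (α ⊕ β) ≠ 4) (g₁ : ↥(isometryGroup F Q₁)) :
    blkO Q₁ Q₂ (g₁, 1) ∈ Omega F (sumQ Q₁ Q₂) ↔ g₁ ∈ Omega F Q₁ := by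
  constructor
  · intro hg
    have hS := sumQ_nondeg h₁ h₂
    obtain ⟨L, hL, rfl⟩ := exists_list h₁ h₁' g₁
    rw [← prodR_inl h₁ h₂ L hL] at hg
    have hLS : ∀ v ∈ L.map (inl₀ (β := β)), sumQ Q₁ Q₂ v ≠ 0 := by
      intro v hv
      obtain ⟨w, hw, rfl⟩ := List.mem_map.1 hv
      rw [Q_inl h₂]
      exact hL w hw
    rcases Nat.lt_or_ge (Fintype.card α) 2 with hα | hα
    · -- dimension at most one
      rcases Nat.lt_or_ge (Fintype.card α) 1 with hα0 | hα1
      · -- empty
        have : IsEmpty α := Fintype.card_eq_zero_iff.1 (by omega)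
        have : prodR h₁ L = 1 := by
          apply Subtype.ext
          apply Units.ext
          ext i
          exact isEmptyElim i
        rw [this]
        exact Subgroup.one_mem _
      · by_cases h2 : (2 : F) = 0
        · haveI : CharP F 2 := CharTwo.of_one_ne_zero_of_two_eq_zero (R := F) one_ne_zero h2
          have hcard : 1 ≤ Fintype.card (α ⊕ β) := by
            simp only [Fintype.card_sum]
            omega
          have he := (list_mem_omega_iff_even hS hcard h₂' _ hLS).1 hg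
          rw [List.length_map] at he
          exact (list_mem_omega_iff_even h₁ hα1 h₁' L hL).2 he
        · have hα' : Fintype.card α = 1 := by omega
          have hone : prodR h₁ L = 1 := by
            rcases Nat.lt_or_ge (Fintype.card (α ⊕ β)) 2 with hs | hs
            · have hcs : Fintype.card (α ⊕ β) = 1 := by
                simp only [Fintype.card_sum] at hs ⊢
                omega
              have h0 := omega_one hcs hg
              rw [prodR_inl h₁ h₂ L hL] at h0
              obtain ⟨i₀, hi₀⟩ := Fintype.card_eq_one_iff.1 hα'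
              apply Subtype.ext
              apply Units.ext
              ext i j
              have h3 := congrArg (fun x : ↥(isometryGroup F (sumQ Q₁ Q₂)) => ((x : GL (α ⊕ β) F) : Matrix (α ⊕ β) (α ⊕ β) F) (Sum.inl i) (Sum.inl j)) h0
              have e5 : (1 : Matrix (α ⊕ β) (α ⊕ β) F) (Sum.inl i) (Sum.inl j) = (1 : Matrix α α F) i j := by
                simp [Matrix.one_apply]
              exact h3.trans e5
            · have he := ((list_mem_omega_iff hS h2 hs _ hLS).1 hg).1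
              rw [List.length_map] at he
              have hd := det_prodR h₁ h2 L hL
              rw [he.neg_one_pow] at hd
              obtain ⟨i₀, hi₀⟩ := Fintype.card_eq_one_iff.1 hα'
              haveI : Unique α := ⟨⟨i₀⟩, hi₀⟩
              apply Subtype.ext
              apply Units.ext
              ext i j
              rw [Matrix.det_unique] at hd
              rw [Subsingleton.elim i default, Subsingleton.elim j default]
              simpa using hd
          rw [hone]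
          exact Subgroup.one_mem _
    · have hs : 2 ≤ Fintype.card (α ⊕ β) := by
        simp only [Fintype.card_sum]
        omega
      by_cases h2 : (2 : F) = 0
      · haveI : CharP F 2 := CharTwo.of_one_ne_zero_of_two_eq_zero (R := F) one_ne_zero h2
        have he := (list_mem_omega_iff_even hS (by omega) h₂' _ hLS).1 hg
        rw [List.length_map] at he
        exact (list_mem_omega_iff_even h₁ (by omega) h₁' L hL).2 he
      · obtain ⟨he, hsq⟩ := (list_mem_omega_iff hS h2 hs _ hLS).1 hg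
        rw [List.length_map] at he
        rw [list_Q_inl h₂] at hsq
        exact (list_mem_omega_iff h₁ h2 hα L hL).2 ⟨he, hsq⟩
  · intro hg
    exact blk_mem_omega g₁ 1 hg (Subgroup.one_mem _)

/-- The fixed space of a block-diagonal element. -/
theorem finrank_fix_blk (g₁ : GL α F) (g₂ : GL β F) :
    Module.finrank F (fixS (blk (g₁, g₂))) = Module.finrank F (fixS g₁) + Module.finrank F (fixS g₂) := by
  let e : ↥(fixS (blk (g₁, g₂))) ≃ₗ[F] ↥(fixS g₁) × ↥(fixS g₂) :=
    { toFun := fun x => (⟨x.1 ∘ Sum.inl, by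
          have h := mem_fixS.1 x.2
          rw [blk_mulVec] at h
          apply mem_fixS.2
          ext i
          exact congrFun h (Sum.inl i)⟩, ⟨x.1 ∘ Sum.inr, by
          have h := mem_fixS.1 x.2
          rw [blk_mulVec] at h
          apply mem_fixS.2
          ext i
          exact congrFun h (Sum.inr i)⟩)
      map_add' := fun _ _ => rfl
      map_smul' := fun _ _ => rfl
      invFun := fun p => ⟨Sum.elim p.1.1 p.2.1, by
          apply mem_fixS.2
          rw [blk_mulVec]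
          have h1 := mem_fixS.1 p.1.2
          have h3 := mem_fixS.1 p.2.2
          ext (i | i)
          · simpa using congrFun h1 i
          · simpa using congrFun h3 i⟩
      left_inv := by
        intro x
        apply Subtype.ext
        ext (i | i) <;> rfl
      right_inv := by
        rintro ⟨x, y⟩
        rfl }
  rw [e.finrank_eq, Module.finrank_prod]

include h₁ in
/-- `diag(g, g)` lies in `Ω`. -/
theorem diag_mem_omega (h : Fintype.card F ≠ 2 ∨ Fintype.card α ≠ 2) (g : ↥(isometryGroup F Q₁)) :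
    blkO Q₁ Q₁ (g, g) ∈ Omega F (sumQ Q₁ Q₁) := by
  have hS := sumQ_nondeg h₁ h₁
  rcases Nat.eq_zero_or_pos (Fintype.card α) with hα | hα
  · have : IsEmpty α := Fintype.card_eq_zero_iff.1 hα
    have : blkO Q₁ Q₁ (g, g) = 1 := by
      apply Subtype.ext
      apply Units.ext
      ext i
      rcases i with i | i <;> exact isEmptyElim i
    rw [this]
    exact Subgroup.one_mem _
  have hcard : Fintype.card (α ⊕ α) = 2 * Fintype.card α := by
    simp only [Fintype.card_sum]
    ring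
  have h' : Fintype.card F ≠ 2 ∨ Fintype.card (α ⊕ α) ≠ 4 := by
    rcases h with h | h
    · exact Or.inl h
    · right
      rw [hcard]
      omega
  by_cases h2 : (2 : F) = 0
  · haveI : CharP F 2 := CharTwo.of_one_ne_zero_of_two_eq_zero (R := F) one_ne_zero h2
    rw [omega_eq_dick hS (by omega) h', MonoidHom.mem_ker]
    show dick (Fintype.card (α ⊕ α)) (blk ((g : GL α F), (g : GL α F))) = 1
    rw [dick, finrank_fix_blk, hcard, ← two_mul, ← mul_add, pow_mul]
    simp
  · have hs : 2 ≤ Fintype.card (α ⊕ α) := by omega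
    obtain ⟨L, hL, rfl⟩ := exists_list h₁ (Or.inl (card_ne_two h2)) g
    have hfac : blkO Q₁ Q₁ (prodR h₁ L, prodR h₁ L) =
        prodR hS (L.map inl₀ ++ L.map inr₀) := by
      rw [prodR_append, prodR_inl h₁ h₁ L hL, prodR_inr h₁ h₁ L hL, ← map_mul]
      simp
    rw [hfac]
    refine (list_mem_omega_iff hS h2 hs _ ?_).2 ⟨?_, ?_⟩
    · intro v hv
      rcases List.mem_append.1 hv with hv | hv
      · obtain ⟨w, hw, rfl⟩ := List.mem_map.1 hv
        rw [Q_inl h₁]
        exact hL w hw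
      · obtain ⟨w, hw, rfl⟩ := List.mem_map.1 hv
        rw [Q_inr h₁]
        exact hL w hw
    · rw [List.length_append, List.length_map, List.length_map]
      exact Even.add_self _
    · rw [List.map_append, List.prod_append, list_Q_inl h₁, list_Q_inr h₁]
      exact ⟨_, rfl⟩

end Cfsg.Agent.Lib.OrthSum2
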