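import Cfsg.Agent.Lib.OrthPair

set_option autoImplicit false

namespace Cfsg.Agent.Lib.OrthSwap

open Matrix Cfsg.Geo Cfsg.Agent.Lib.FormVec Cfsg.Agent.Lib.OrthE Cfsg.Agent.Lib.OrthGen
  Cfsg.Agent.Lib.OrthOmega Cfsg.Agent.Lib.OrthMax Cfsg.Agent.Lib.OrthLocal Cfsg.Agent.Lib.OrthNondeg
  Cfsg.Agent.Lib.OrthSub Cfsg.Agent.Lib.OrthSub2 Cfsg.Agent.Lib.OrthFam Cfsg.Agent.Lib.OrthPair
open scoped MatrixGroups

variable {ι : Type} [Fintype ι] [DecidableEq ι] {F : Type*} [Field F]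
variable {Q : (ι → F) → F}

local notation "B" => QuadraticMap.polar Q

/-- A product of three Siegel transformations swapping two singular planes. -/
theorem swap_step (hQ : IsNondegenerateQuadraticForm Q) {e0 e1 f0 f1 : ι → F}
    (hQe0 : Q e0 = 0) (hQe1 : Q e1 = 0) (hQf0 : Q f0 = 0) (hQf1 : Q f1 = 0)
    (hee : B e0 e1 = 0) (hff : B f0 f1 = 0)
    (h00 : B e0 f0 = 1) (h01 : B e0 f1 = 0) (h10 : B e1 f0 = 0) (h11 : B e1 f1 = 1) :
    ∃ s ∈ TT Q, (s : Matrix ι ι F) *ᵥ e0 = f1 ∧ (s : Matrix ι ι F) *ᵥ e1 = -f0 ∧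
      (s : Matrix ι ι F) *ᵥ f0 = e1 ∧ (s : Matrix ι ι F) *ᵥ f1 = -e0 ∧
      ∀ x, B x e0 = 0 → B x e1 = 0 → B x f0 = 0 → B x f1 = 0 → (s : Matrix ι ι F) *ᵥ x = x := by
  have hu : ∀ x, ((E Q f0 f1 : GL ι F) : Matrix ι ι F) *ᵥ x = x + B x f0 • f1 - B x f1 • f0 := by
    intro x
    rw [E_mulVec hQ hQf0 hff, hQf1]
    module
  have hv : ∀ x, ((E Q e0 e1 : GL ι F) : Matrix ι ι F) *ᵥ x = x + B x e0 • e1 - B x e1 • e0 := by
    intro x
    rw [E_mulVec hQ hQe0 hee, hQe1]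
    module
  have hf0f0 : B f0 f0 = 0 := by rw [B_self hQ, hQf0, mul_zero]
  have hf1f1 : B f1 f1 = 0 := by rw [B_self hQ, hQf1, mul_zero]
  have he0e0 : B e0 e0 = 0 := by rw [B_self hQ, hQe0, mul_zero]
  have he1e1 : B e1 e1 = 0 := by rw [B_self hQ, hQe1, mul_zero]
  have hu_e0 : ((E Q f0 f1 : GL ι F) : Matrix ι ι F) *ᵥ e0 = e0 + f1 := by
    rw [hu, h00, h01]
    module
  have hu_e1 : ((E Q f0 f1 : GL ι F) : Matrix ι ι F) *ᵥ e1 = e1 - f0 := by
    rw [hu, h10, h11]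
    module
  have hu_f0 : ((E Q f0 f1 : GL ι F) : Matrix ι ι F) *ᵥ f0 = f0 := by
    rw [hu, hf0f0, hff]
    module
  have hu_f1 : ((E Q f0 f1 : GL ι F) : Matrix ι ι F) *ᵥ f1 = f1 := by
    rw [hu, hf1f1, B_comm hQ f1 f0, hff]
    module
  have hv_e0 : ((E Q e0 e1 : GL ι F) : Matrix ι ι F) *ᵥ e0 = e0 := by
    rw [hv, he0e0, hee]
    module
  have hv_e1 : ((E Q e0 e1 : GL ι F) : Matrix ι ι F) *ᵥ e1 = e1 := by
    rw [hv, he1e1, B_comm hQ e1 e0, hee]
    module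
  have hv_f0 : ((E Q e0 e1 : GL ι F) : Matrix ι ι F) *ᵥ f0 = f0 + e1 := by
    rw [hv, B_comm hQ f0 e0, B_comm hQ f0 e1, h00, h10]
    module
  have hv_f1 : ((E Q e0 e1 : GL ι F) : Matrix ι ι F) *ᵥ f1 = f1 - e0 := by
    rw [hv, B_comm hQ f1 e0, B_comm hQ f1 e1, h01, h11]
    module
  refine ⟨E Q f0 f1 * E Q e0 e1 * E Q f0 f1, ?_, ?_, ?_, ?_, ?_, ?_⟩
  · exact (TT Q).mul_mem ((TT Q).mul_mem (E_mem_TT hQf0 hff) (E_mem_TT hQe0 hee)) (E_mem_TT hQf0 hff)
  · simp only [mul_mulVec, Matrix.mulVec_add, Matrix.mulVec_sub, hu_e0, hu_e1, hu_f0, hu_f1, hv_e0, hv_e1, hv_f0, hv_f1]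
    abel
  · simp only [mul_mulVec, Matrix.mulVec_add, Matrix.mulVec_sub, Matrix.mulVec_neg, hu_e0, hu_e1, hu_f0, hu_f1, hv_e0, hv_e1, hv_f0, hv_f1]
    abel
  · simp only [mul_mulVec, Matrix.mulVec_add, Matrix.mulVec_sub, Matrix.mulVec_neg, hu_e0, hu_e1, hu_f0, hu_f1, hv_e0, hv_e1, hv_f0, hv_f1]
    abel
  · simp only [mul_mulVec, Matrix.mulVec_add, Matrix.mulVec_sub, Matrix.mulVec_neg, hu_e0, hu_e1, hu_f0, hu_f1, hv_e0, hv_e1, hv_f0, hv_f1]
    abel
  · intro x h1 h2 h3 h4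
    have hux : ((E Q f0 f1 : GL ι F) : Matrix ι ι F) *ᵥ x = x := by
      rw [hu, h3, h4]
      module
    have hvx : ((E Q e0 e1 : GL ι F) : Matrix ι ι F) *ᵥ x = x := by
      rw [hv, h1, h2]
      module
    simp only [mul_mulVec, hux, hvx]

/-- Iterating `swap_step` over a set of index pairs. -/
theorem swap_all (hQ : IsNondegenerateQuadraticForm Q) {J : Type*} [DecidableEq J]
    (e f : J → Bool → (ι → F)) (hQe : ∀ j c, Q (e j c) = 0) (hQf : ∀ j c, Q (f j c) = 0)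
    (hee : ∀ j c j' c', B (e j c) (e j' c') = 0) (hff : ∀ j c j' c', B (f j c) (f j' c') = 0)
    (hef : ∀ j c j' c', B (e j c) (f j' c') = if j = j' ∧ c = c' then 1 else 0) (S : Finset J) :
    ∃ s ∈ TT Q, ∀ j, (j ∈ S → (s : Matrix ι ι F) *ᵥ e j false = f j true ∧
        (s : Matrix ι ι F) *ᵥ e j true = - f j false ∧
        (s : Matrix ι ι F) *ᵥ f j false = e j true ∧ (s : Matrix ι ι F) *ᵥ f j true = - e j false) ∧
      (j ∉ S → ∀ c, (s : Matrix ι ι F) *ᵥ e j c = e j c ∧ (s : Matrix ι ι F) *ᵥ f j c = f j c) := by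
  induction S using Finset.induction_on with
  | empty =>
    refine ⟨1, (TT Q).one_mem, fun j => ⟨fun h => absurd h (by simp), fun _ c => ?_⟩⟩
    simp [one_mulVec']
  | insert j₀ S hj₀ ih =>
    obtain ⟨s, hs, hsa⟩ := ih
    obtain ⟨s₀, hs₀, h1, h2, h3, h4, h5⟩ := swap_step hQ (hQe j₀ false) (hQe j₀ true) (hQf j₀ false) (hQf j₀ true)
      (hee _ _ _ _) (hff _ _ _ _) (by rw [hef]; simp) (by rw [hef]; simp) (by rw [hef]; simp) (by rw [hef]; simp)
    have hfixe : ∀ j c, j ≠ j₀ → (s₀ : Matrix ι ι F) *ᵥ e j c = e j c := by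
      intro j c hj
      apply h5
      · exact hee _ _ _ _
      · exact hee _ _ _ _
      · rw [hef]; simp [hj]
      · rw [hef]; simp [hj]
    have hfixf : ∀ j c, j ≠ j₀ → (s₀ : Matrix ι ι F) *ᵥ f j c = f j c := by
      intro j c hj
      apply h5
      · rw [B_comm hQ, hef]; simp [hj.symm]
      · rw [B_comm hQ, hef]; simp [hj.symm]
      · exact hff _ _ _ _
      · exact hff _ _ _ _
    refine ⟨s₀ * s, (TT Q).mul_mem hs₀ hs, fun j => ⟨fun hj => ?_, fun hj c => ?_⟩⟩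
    · rcases Finset.mem_insert.mp hj with rfl | hjS
      · have hfix := (hsa j).2 hj₀
        simp only [mul_mulVec, (hfix false).1, (hfix false).2, (hfix true).1, (hfix true).2, h1, h2, h3, h4]
        simp
      · have hne : j ≠ j₀ := fun h => hj₀ (h ▸ hjS)
        obtain ⟨a1, a2, a3, a4⟩ := (hsa j).1 hjS
        simp only [mul_mulVec, a1, a2, a3, a4, Matrix.mulVec_neg, hfixe _ _ hne, hfixf _ _ hne]
        simp
    · have hne : j ≠ j₀ := fun h => hj (h ▸ Finset.mem_insert_self _ _)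
      have hjS : j ∉ S := fun h => hj (Finset.mem_insert_of_mem h)
      obtain ⟨a1, a2⟩ := (hsa j).2 hjS c
      simp only [mul_mulVec, a1, a2, hfixe _ _ hne, hfixf _ _ hne]
      simp

variable [Fintype F]

/-- **Swaps**: if the dimension is even then there is an element of `TT Q` swapping a pair of
complementary maximal totally singular subspaces. -/
theorem exists_swap (hQ : IsNondegenerateQuadraticForm Q) {W₁ W₂ : Submodule F (ι → F)}
    (h₁ : IsTotallySingularQuad Q W₁) (h₂ : IsTotallySingularQuad Q W₂)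
    (hd₁ : 2 * Module.finrank F W₁ = Fintype.card ι) (hd₂ : 2 * Module.finrank F W₂ = Fintype.card ι)
    (hdisj : W₁ ⊓ W₂ = ⊥) (hev : Even (Module.finrank F W₁)) :
    ∃ s ∈ TT Q, (∀ x ∈ W₁, (s : Matrix ι ι F) *ᵥ x ∈ W₂) ∧ (∀ x ∈ W₂, (s : Matrix ι ι F) *ᵥ x ∈ W₁) := by
  obtain ⟨r, hr⟩ := hev
  have hcard : Fintype.card (Fin r × Bool) = Module.finrank F W₁ := by
    simp [hr]
    ring
  let b : Module.Basis (Fin r × Bool) F W₁ :=
    (Module.finBasis F W₁).reindex (Fintype.equivFinOfCardEq hcard).symm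
  let e : Fin r → Bool → (ι → F) := fun j c => (b (j, c) : ι → F)
  have he_mem : ∀ j c, e j c ∈ W₁ := fun j c => (b (j, c)).2
  -- the dual family
  have hdual : ∀ i : Fin r × Bool, ∃ u ∈ W₂, B u (e i.1 i.2) = 1 ∧ ∀ i' : Fin r × Bool, i' ≠ i → B u (e i'.1 i'.2) = 0 := by
    intro i
    let X : Submodule F (ι → F) := (LinearMap.ker (b.coord i)).map W₁.subtype
    have hX : X ≤ W₁ := by
      rintro _ ⟨y, -, rfl⟩
      exact y.2
    have hnot : e i.1 i.2 ∉ X := by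
      rintro ⟨y, hy, hye⟩
      have hyb : y = b i := Subtype.ext hye
      rw [hyb] at hy
      simp [LinearMap.mem_ker] at hy
    obtain ⟨u, hu, hu1, hu0⟩ := pair_sep hQ h₁ hd₁ hd₂ hdisj hX (he_mem _ _) hnot
    refine ⟨u, hu, hu1, fun i' hi' => hu0 _ ⟨b i', ?_, rfl⟩⟩
    simp [LinearMap.mem_ker, Module.Basis.coord_apply, Finsupp.single_apply, hi']
  choose f' hf'W hf'1 hf'0 using hdual
  let f : Fin r → Bool → (ι → F) := fun j c => f' (j, c)
  have hf_mem : ∀ j c, f j c ∈ W₂ := fun j c => hf'W _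
  have hef : ∀ j c j' c', B (e j c) (f j' c') = if j = j' ∧ c = c' then 1 else 0 := by
    intro j c j' c'
    rw [B_comm hQ]
    by_cases h : j = j' ∧ c = c'
    · obtain ⟨rfl, rfl⟩ := h
      rw [if_pos ⟨rfl, rfl⟩]
      exact hf'1 (j, c)
    · rw [if_neg h]
      exact hf'0 (j', c') (j, c) (fun hh => h ⟨congrArg Prod.fst hh, congrArg Prod.snd hh⟩)
  obtain ⟨s, hs, hsa⟩ := swap_all hQ e f (fun j c => h₁ _ (he_mem j c)) (fun j c => h₂ _ (hf_mem j c))
    (fun j c j' c' => ts_perp hQ h₁ (he_mem _ _) (he_mem _ _))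
    (fun j c j' c' => ts_perp hQ h₂ (hf_mem _ _) (hf_mem _ _)) hef Finset.univ
  have hact : ∀ j, (s : Matrix ι ι F) *ᵥ e j false = f j true ∧
        (s : Matrix ι ι F) *ᵥ e j true = - f j false ∧
        (s : Matrix ι ι F) *ᵥ f j false = e j true ∧ (s : Matrix ι ι F) *ᵥ f j true = - e j false :=
    fun j => (hsa j).1 (Finset.mem_univ j)
  have h12 : ∀ x ∈ W₁, (s : Matrix ι ι F) *ᵥ x ∈ W₂ := by
    intro x hx
    have hsp := b.mem_span ⟨x, hx⟩
    have key : ∀ y : W₁, y ∈ Submodule.span F (Set.range b) → (s : Matrix ι ι F) *ᵥ (y : ι → F) ∈ W₂ := by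
      intro y hy
      induction hy using Submodule.span_induction with
      | mem z hz =>
        obtain ⟨⟨j, c⟩, rfl⟩ := hz
        cases c
        · show (s : Matrix ι ι F) *ᵥ e j false ∈ W₂
          rw [(hact j).1]
          exact hf_mem _ _
        · show (s : Matrix ι ι F) *ᵥ e j true ∈ W₂
          rw [(hact j).2.1]
          exact W₂.neg_mem (hf_mem _ _)
      | zero => simp
      | add y z _ _ hy hz =>
        simp only [Submodule.coe_add, Matrix.mulVec_add]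
        exact W₂.add_mem hy hz
      | smul a y _ hy =>
        simp only [Submodule.coe_smul, Matrix.mulVec_smul]
        exact W₂.smul_mem a hy
    exact key ⟨x, hx⟩ hsp
  have hneg : ∀ x ∈ W₁, (s : Matrix ι ι F) *ᵥ ((s : Matrix ι ι F) *ᵥ x) = -x := by
    intro x hx
    have hsp := b.mem_span ⟨x, hx⟩
    have key : ∀ y : W₁, y ∈ Submodule.span F (Set.range b) → (s : Matrix ι ι F) *ᵥ ((s : Matrix ι ι F) *ᵥ (y : ι → F)) = -(y : ι → F) := by
      intro y hy
      induction hy using Submodule.span_induction with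
      | mem z hz =>
        obtain ⟨⟨j, c⟩, rfl⟩ := hz
        cases c
        · show (s : Matrix ι ι F) *ᵥ ((s : Matrix ι ι F) *ᵥ e j false) = - e j false
          rw [(hact j).1, (hact j).2.2.2]
        · show (s : Matrix ι ι F) *ᵥ ((s : Matrix ι ι F) *ᵥ e j true) = - e j true
          rw [(hact j).2.1, Matrix.mulVec_neg, (hact j).2.2.1]
      | zero => simp
      | add y z _ _ hy hz =>
        simp only [Submodule.coe_add, Matrix.mulVec_add, hy, hz, neg_add]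
      | smul a y _ hy =>
        simp only [Submodule.coe_smul, Matrix.mulVec_smul, hy, smul_neg]
    exact key ⟨x, hx⟩ hsp
  refine ⟨s, hs, h12, ?_⟩
  have hmap : gm s W₁ = W₂ := by
    refine Submodule.eq_of_le_of_finrank_eq ?_ (by rw [finrank_gm]; omega)
    rintro _ ⟨x, hx, rfl⟩
    exact h12 x hx
  intro y hy
  rw [← hmap] at hy
  obtain ⟨x, hx, rfl⟩ := hy
  show (s : Matrix ι ι F) *ᵥ ((s : Matrix ι ι F) *ᵥ x) ∈ W₁
  rw [hneg x hx]
  exact W₁.neg_mem hx

/-- Data about two-member decompositions into totally singular subspaces. -/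
theorem decomp_disjoint {W : Fin 2 → Submodule F (ι → F)} {k : ℕ} (hD : IsMDecomposition k W) :
    W 0 ⊓ W 1 = ⊥ := by
  have h := hD.indep.pairwiseDisjoint (show (0 : Fin 2) ≠ 1 by decide)
  exact h.eq_bot

theorem map_eq_of_le {g : GL ι F} {U T : Submodule F (ι → F)} (h : ∀ x ∈ U, (g : Matrix ι ι F) *ᵥ x ∈ T)
    (hf : Module.finrank F U = Module.finrank F T) : U.map (Matrix.toLin' (g : Matrix ι ι F)) = T := by
  refine Submodule.eq_of_le_of_finrank_eq ?_ ?_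
  · rintro _ ⟨x, hx, rfl⟩
    exact h x hx
  · rw [← hf]
    exact LinearEquiv.finrank_map_eq (glEquiv g) U

theorem decomp_mem_of_pres {D : Fin 2 → Submodule F (ι → F)} {g : GL ι F}
    (h0 : ∀ x ∈ D 0, (g : Matrix ι ι F) *ᵥ x ∈ D 0) (h1 : ∀ x ∈ D 1, (g : Matrix ι ι F) *ᵥ x ∈ D 1) :
    g ∈ decompositionStabilizer D := by
  refine ⟨1, fun i => ?_⟩
  have : ∀ i : Fin 2, i = 0 ∨ i = 1 := by decide
  rcases this i with rfl | rfl
  · exact map_eq_of_le h0 rfl
  · exact map_eq_of_le h1 rfl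

theorem decomp_mem_of_swap {D : Fin 2 → Submodule F (ι → F)} {g : GL ι F}
    (hf : Module.finrank F (D 0) = Module.finrank F (D 1))
    (h0 : ∀ x ∈ D 0, (g : Matrix ι ι F) *ᵥ x ∈ D 1) (h1 : ∀ x ∈ D 1, (g : Matrix ι ι F) *ᵥ x ∈ D 0) :
    g ∈ decompositionStabilizer D := by
  refine ⟨Equiv.swap 0 1, fun i => ?_⟩
  have : ∀ i : Fin 2, i = 0 ∨ i = 1 := by decide
  rcases this i with rfl | rfl
  · rw [Equiv.swap_apply_left]
    exact map_eq_of_le h0 hf
  · rw [Equiv.swap_apply_right]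
    exact map_eq_of_le h1 hf.symm

theorem not_both {g : GL ι F} {U V T : Submodule F (ι → F)} (h1 : ∀ x ∈ U, (g : Matrix ι ι F) *ᵥ x ∈ T)
    (h2 : ∀ x ∈ V, (g : Matrix ι ι F) *ᵥ x ∈ T) (hf : Module.finrank F U = Module.finrank F T)
    (hdisj : U ⊓ V = ⊥) {x : ι → F} (hx : x ∈ V) : x = 0 := by
  have hmap := map_eq_of_le h1 hf
  have hg := h2 x hx
  rw [← hmap] at hg
  obtain ⟨z, hz, hzx⟩ := hg
  have hzx' : z = x := (glEquiv g).injective hzx
  subst hzx'
  have : z ∈ U ⊓ V := ⟨hz, hx⟩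
  rw [hdisj] at this
  exact (Submodule.mem_bot F).1 this

theorem exists_not_mem_decomp (hQ : IsNondegenerateQuadraticForm Q) (hn : 5 ≤ Fintype.card ι)
    {D : Fin 2 → Submodule F (ι → F)} {k : ℕ} (hD : IsMDecomposition k D)
    (hts : ∀ i, IsTotallySingularQuad Q (D i)) (hk : 2 * k = Fintype.card ι) :
    ∃ t ∈ omegaGL Q, t ∈ subspaceStabilizer (D 0) ∧ t ∉ decompositionStabilizer D := by
  have hf0 := hD.finrank_eq 0
  have hf1 := hD.finrank_eq 1
  have hdisj := decomp_disjoint hD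
  have hd₁ : 2 * Module.finrank F (D 0) = Fintype.card ι := by rw [hf0, hk]
  have hd₂ : 2 * Module.finrank F (D 1) = Fintype.card ι := by rw [hf1, hk]
  have hne : D 0 ≠ ⊥ := by
    intro h
    rw [h, finrank_bot] at hf0
    omega
  obtain ⟨y, hy, hy0⟩ := Submodule.exists_mem_ne_zero_of_ne_bot hne
  have hlt : Submodule.span F {y} < D 0 := by
    refine lt_of_le_of_ne ?_ ?_
    · rw [Submodule.span_singleton_le_iff_mem]
      exact hy
    · intro heq
      have h1 := finrank_span_one_le (F := F) y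
      rw [heq, hf0] at h1
      omega
  obtain ⟨x, hx, hxy⟩ := SetLike.exists_of_lt hlt
  have hle : Submodule.span F {y} ≤ D 0 := hlt.le
  obtain ⟨u, hu, hu1, hu0⟩ := pair_sep hQ (hts 0) hd₁ hd₂ hdisj hle hx hxy
  have huy : B u y = 0 := hu0 y (Submodule.mem_span_singleton_self y)
  have hQx : Q x = 0 := hts 0 x hx
  have hQy : Q y = 0 := hts 0 y hy
  have hxy0 : B x y = 0 := ts_perp hQ (hts 0) hx hy
  have hfix : ∀ v ∈ D 0, ((E Q x y : GL ι F) : Matrix ι ι F) *ᵥ v = v := by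
    intro v hv
    rw [E_mulVec hQ hQx hxy0, ts_perp hQ (hts 0) hv hx, ts_perp hQ (hts 0) hv hy]
    module
  refine ⟨E Q x y, E_mem_comm hQ hn hQx hxy0, mem_stab_of_le fun v hv => ?_, ?_⟩
  · rw [hfix v hv]
    exact hv
  · rintro ⟨σ, hσ⟩
    have hm0 : (D 0).map (Matrix.toLin' ((E Q x y : GL ι F) : Matrix ι ι F)) = D 0 := by
      refine map_eq_of_le (fun v hv => ?_) rfl
      rw [hfix v hv]
      exact hv
    have h00 : σ 0 = 0 := by
      by_contra hne'
      have h1 : σ 0 = 1 := by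
        have : ∀ x : Fin 2, x ≠ 0 → x = 1 := by decide
        exact this _ hne'
      have h2 := hσ 0
      rw [hm0, h1] at h2
      have h3 : y ∈ D 0 ⊓ D 1 := ⟨hy, h2 ▸ hy⟩
      rw [hdisj] at h3
      exact hy0 ((Submodule.mem_bot F).1 h3)
    have h11 : σ 1 = 1 := by
      have hinj := σ.injective
      by_contra hne'
      have h1 : σ 1 = 0 := by
        have : ∀ x : Fin 2, x ≠ 1 → x = 0 := by decide
        exact this _ hne'
      have := hinj (h00.trans h1.symm)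
      exact absurd this (by decide)
    have h2 := hσ 1
    rw [h11] at h2
    have h3 : ((E Q x y : GL ι F) : Matrix ι ι F) *ᵥ u ∈ D 1 := by
      rw [← h2]
      exact ⟨u, hu, rfl⟩
    rw [E_mulVec hQ hQx hxy0, hu1, huy, hQy] at h3
    have h4 : y = (u + (1 : F) • y - (0 : F) • x - ((0 : F) * 1) • x) - u := by module
    have h5 : y ∈ D 1 := by
      rw [h4]
      exact (D 1).sub_mem h3 hu
    have h6 : y ∈ D 0 ⊓ D 1 := ⟨hy, h5⟩
    rw [hdisj] at h6
    exact hy0 ((Submodule.mem_bot F).1 h6)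

end Cfsg.Agent.Lib.OrthSwap
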