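import Cfsg.Agent.Lib.PGrp9

set_option autoImplicit false
set_option linter.unusedSectionVars false
set_option linter.unusedVariables false
set_option linter.style.haveILetI false

/-! `p`-groups of `p`-rank two (`p > 3`). -/

namespace Cfsg.Agent.Lib.PGrp

open Subgroup Cfsg
open scoped commutatorElement IsMulCommutative

universe u

variable {p : ℕ} [hp : Fact p.Prime]

/-- Rank is inherited by subgroups. -/
theorem rank_of_subgroup {R : Type*} [Group R] {n : ℕ} (hrk : ∀ E : Subgroup R, IsElementaryAbelian p E → Nat.card E ≤ n)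
    (M : Subgroup R) : ∀ E : Subgroup M, IsElementaryAbelian p E → Nat.card E ≤ n := by
  intro E hE
  have h1 := hrk (E.map M.subtype) ⟨by
      apply isMulComm_of_comm
      rintro _ ⟨a, ha, rfl⟩ _ ⟨b, hb, rfl⟩
      exact congrArg Subtype.val (comm_of_isMulComm hE.1 ha hb), by
      rintro _ ⟨a, ha, rfl⟩
      exact congrArg Subtype.val (hE.2 a ha)⟩
  have h2 : Nat.card (E.map M.subtype) = Nat.card E :=
    Nat.card_congr (E.equivMapOfInjective M.subtype M.subtype_injective).symm.toEquiv
  omega

/-- S0128. -/
theorem omega_exponent_of_rank_two : ∀ (N : ℕ) (R : Type u) [Group R] [Finite R], Nat.card R = N → 3 < p → IsPGroup p R →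
    (∀ E : Subgroup R, IsElementaryAbelian p E → Nat.card E ≤ p ^ 2) →
    ∀ g ∈ closure {x : R | x ^ p = 1}, g ^ p = 1 := by
  intro N
  induction N using Nat.strong_induction_on with
  | _ N ih =>
  intro R _ _ hN hp3 hR hrk g hg
  have hp1 := hp.out.one_lt
  have hppos := hp.out.pos
  by_cases hΩ : closure {x : R | x ^ p = 1} = ⊤
  · -- class at most three
    suffices hcl : ⁅⁅commutator R, (⊤ : Subgroup R)⁆, (⊤ : Subgroup R)⁆ = ⊥ from
      closure_pow_eq_one (mul_pow_eq_one_of_class3 hcl hp3) hg
    by_cases hcyc : IsCyclic R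
    · have h1 : IsMulCommutative R := IsCyclic.isMulCommutative
      have h2 : commutator R = ⊥ := by
        rw [_root_.commutator_def, eq_bot_iff, commutator_le]
        intro a _ b _
        rw [mem_bot, commutatorElement_eq_one_iff_mul_comm]
        exact h1.is_comm.comm a b
      rw [h2, commutator_bot_left, commutator_bot_left]
    have hp2 : p ≠ 2 := by omega
    obtain ⟨E, hEn, hEe, hEc⟩ := exists_elem_sq_of_noncyclic hp2 hR hcyc
    haveI := hEn
    obtain ⟨Z₁, hZn, hZE, hZc, -⟩ := exists_chain hR E hEe.1 2 hEc 1 (by norm_num)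
    haveI := hZn
    have hZlt : Z₁ < E := by
      refine lt_of_le_of_ne hZE ?_
      intro h
      rw [h, hEc] at hZc
      have := Nat.pow_right_injective hp.out.two_le hZc
      omega
    obtain ⟨V, -, -, hVE, hVc, hVcom, -⟩ := exists_normal_between hR Z₁ E hZlt
    have hVeq : V = E := by
      apply Subgroup.eq_of_le_of_card_ge hVE
      rw [hVc, hEc, hZc, pow_one, pow_two]
    subst hVeq
    have hZcen : Z₁ ≤ center R := le_center_of_card_eq hR Z₁ (by rw [hZc, pow_one])
    -- `E` is self-centralizing among elements of order `p`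
    have hself : ∀ y : R, y ^ p = 1 → y ∈ centralizer (V : Set R) → y ∈ V := by
      intro y hy hyc
      by_contra hyV
      let T : Subgroup R := zpowers y ⊔ V
      have hform : ∀ w ∈ T, ∃ k : ℤ, ∃ a ∈ V, w = y ^ k * a := by
        intro w hw
        obtain ⟨s, hs, a, ha, rfl⟩ := Subgroup.mem_sup_of_normal_right.1 hw
        obtain ⟨k, rfl⟩ := mem_zpowers_iff.1 hs
        exact ⟨k, a, ha, rfl⟩
      have hya : ∀ a ∈ V, Commute a y := fun a ha => (mem_centralizer_iff.1 hyc) a ha
      have hTe : IsElementaryAbelian p T := by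
        refine ⟨?_, ?_⟩
        · apply isMulComm_of_comm
          intro w hw w' hw'
          obtain ⟨k, a, ha, rfl⟩ := hform w hw
          obtain ⟨l, b, hb, rfl⟩ := hform w' hw'
          have h1 : Commute a b := comm_of_isMulComm hEe.1 ha hb
          have h2 : Commute (y ^ k) (y ^ l) := (Commute.refl y).zpow_zpow k l
          have h3 : Commute (y ^ k) b := ((hya b hb).zpow_right k).symm
          have h4 : Commute a (y ^ l) := (hya a ha).zpow_right l
          exact ((h2.mul_right h3).mul_left (h4.mul_right h1))
        · intro w hw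
          obtain ⟨k, a, ha, rfl⟩ := hform w hw
          have h3 : Commute (y ^ k) a := ((hya a ha).zpow_right k).symm
          rw [h3.mul_pow, hEe.2 a ha, mul_one, ← zpow_natCast, zpow_comm, zpow_natCast, hy, one_zpow]
      have hVT : V < T := by
        refine lt_of_le_of_ne le_sup_right ?_
        intro h
        apply hyV
        rw [h]
        exact (le_sup_left : zpowers y ≤ T) (mem_zpowers y)
      have h1 := hrk T hTe
      have h2 := Cfsg.Agent.Lib.PNilp.card_lt_of_lt' hVT
      omega
    -- key: elements of order `p` are central modulo `E`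
    have hW : ∀ x : R, x ^ p = 1 → ∀ g : R, ⁅x, g⁆ ∈ V := by
      intro x hx g
      by_cases hxV : x ∈ V
      · exact hVcom x hxV g |> fun h => hZE h
      let T : Subgroup R := zpowers x ⊔ V
      by_cases hTt : T = ⊤
      · have hgT : g ∈ T := hTt ▸ mem_top g
        obtain ⟨s, hs, a, ha, rfl⟩ := Subgroup.mem_sup_of_normal_right.1 hgT
        obtain ⟨k, rfl⟩ := mem_zpowers_iff.1 hs
        have e : ⁅x, x ^ k * a⁆ = x ^ k * ⁅x, a⁆ * (x ^ k)⁻¹ := by
          have hc : x * x ^ k = x ^ k * x := ((Commute.refl x).zpow_right k).eq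
          simp only [commutatorElement_def]
          calc x * (x ^ k * a) * x⁻¹ * (x ^ k * a)⁻¹ = (x * x ^ k) * a * x⁻¹ * a⁻¹ * (x ^ k)⁻¹ := by group
            _ = (x ^ k * x) * a * x⁻¹ * a⁻¹ * (x ^ k)⁻¹ := by rw [hc]
            _ = _ := by group
        rw [e]
        have h1 : ⁅x, a⁆ ∈ V := by
          rw [commutatorElement_def]
          exact mul_mem (hEn.conj_mem a ha x) (inv_mem ha)
        exact hEn.conj_mem _ h1 _
      · obtain ⟨M, hM, hTM⟩ := (eq_top_or_exists_le_coatom T).resolve_left hTt
        obtain ⟨hMn, -, -⟩ := coatom_index_of_isPGroup hR hM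
        haveI := hMn
        have hMlt : Nat.card M < N := by
          have := Cfsg.Agent.Lib.PNilp.card_lt_of_lt' (lt_top_iff_ne_top.2 hM.1)
          rwa [Subgroup.card_top, hN] at this
        have hih := ih _ hMlt M rfl hp3 (hR.to_subgroup M) (rank_of_subgroup hrk M)
        let Ω : Subgroup M := closure {y : M | y ^ p = 1}
        let D : Subgroup R := Ω.map M.subtype
        have hDn : D.Normal := map_subtype_normal_of_char M Ω
        have hDe : ∀ y ∈ D, y ^ p = 1 := by
          rintro _ ⟨y, hy, rfl⟩
          exact congrArg Subtype.val (hih y hy)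
        have hVM : V ≤ M := le_sup_right.trans hTM
        have hxM : x ∈ M := hTM ((le_sup_left : zpowers x ≤ T) (mem_zpowers x))
        have hmemD : ∀ y ∈ M, y ^ p = 1 → y ∈ D := by
          intro y hyM hy
          refine ⟨⟨y, hyM⟩, Subgroup.subset_closure ?_, rfl⟩
          exact Subtype.ext hy
        have hVD : V ≤ D := fun a ha => hmemD a (hVM ha) (hEe.2 a ha)
        have hxD : x ∈ D := hmemD x hxM hx
        have hVDlt : V < D := lt_of_le_of_ne hVD (fun h => hxV (h ▸ hxD))
        obtain ⟨V₂, -, -, hV₂D, hV₂c, hV₂com, -⟩ := exists_normal_between hR V D hVDlt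
        have hV₂eq : V₂ = D := by
          apply Subgroup.eq_of_le_of_card_ge hV₂D
          have h1 := card_inf_le_mul_index D (centralizer (V : Set R))
          have h2 := index_centralizer_le hR V hEe.1 2 hEc
          have h3 : D ⊓ centralizer (V : Set R) ≤ V := by
            intro y hy
            obtain ⟨h4, h5⟩ := mem_inf.1 hy
            exact hself y (hDe y h4) h5
          have h4 := Subgroup.card_le_of_le h3
          rw [hV₂c, hEc]
          refine h1.trans ((Nat.mul_le_mul h4 h2).trans ?_)
          rw [hEc]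
          simp [mul_comm]
        exact hV₂com x (hV₂eq ▸ hxD) g
    have hcommE : commutator R ≤ V := by
      let W : Subgroup R := (center (R ⧸ V)).comap (QuotientGroup.mk' V)
      have hmemW : ∀ y : R, y ∈ W ↔ ∀ g : R, ⁅y, g⁆ ∈ V := by
        intro y
        change (y : R ⧸ V) ∈ center (R ⧸ V) ↔ _
        rw [mem_center_iff]
        constructor
        · intro h g
          have h1 := h (g : R ⧸ V)
          rw [← QuotientGroup.eq_one_iff]
          have e : ((⁅y, g⁆ : R) : R ⧸ V) = ⁅(y : R ⧸ V), (g : R ⧸ V)⁆ := by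
            simp [commutatorElement_def]
          rw [e, commutatorElement_eq_one_iff_mul_comm]
          exact h1.symm
        · intro h q
          obtain ⟨g, rfl⟩ := QuotientGroup.mk'_surjective V q
          have h1 := h g
          rw [← QuotientGroup.eq_one_iff] at h1
          have e : ((⁅y, g⁆ : R) : R ⧸ V) = ⁅(y : R ⧸ V), (g : R ⧸ V)⁆ := by
            simp [commutatorElement_def]
          rw [e, commutatorElement_eq_one_iff_mul_comm] at h1
          exact h1.symm
      have hΩW : closure {x : R | x ^ p = 1} ≤ W := by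
        rw [closure_le]
        intro x hx
        exact (hmemW x).2 (hW x hx)
      rw [hΩ] at hΩW
      rw [_root_.commutator_def, commutator_le]
      intro a _ b _
      exact (hmemW a).1 (hΩW (mem_top a)) b
    rw [eq_bot_iff]
    have h1 : ⁅commutator R, (⊤ : Subgroup R)⁆ ≤ Z₁ := by
      rw [commutator_le]
      intro a ha b _
      exact hVcom a (hcommE ha) b
    have h2 : ⁅⁅commutator R, (⊤ : Subgroup R)⁆, (⊤ : Subgroup R)⁆ ≤ ⁅Z₁, (⊤ : Subgroup R)⁆ :=
      commutator_mono h1 le_rfl
    refine h2.trans ?_
    rw [commutator_le]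
    intro a ha b _
    rw [mem_bot, commutatorElement_eq_one_iff_mul_comm]
    exact ((mem_center_iff.1 (hZcen ha)) b).symm
  · -- pass to the subgroup generated by elements of order `p`
    set Ω : Subgroup R := closure {x : R | x ^ p = 1} with hΩdef
    have hlt : Nat.card Ω < N := by
      have := Cfsg.Agent.Lib.PNilp.card_lt_of_lt' (lt_top_iff_ne_top.2 hΩ)
      rwa [Subgroup.card_top, hN] at this
    have hgen : closure {y : Ω | y ^ p = 1} = ⊤ := by
      have h1 := Subgroup.closure_closure_coe_preimage (k := {x : R | x ^ p = 1})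
      rw [eq_top_iff, ← h1]
      apply Subgroup.closure_mono
      intro y hy
      exact Subtype.ext hy
    have h2 := ih _ hlt Ω rfl hp3 (hR.to_subgroup Ω) (rank_of_subgroup hrk Ω) ⟨g, hg⟩ (hgen ▸ mem_top _)
    exact congrArg Subtype.val h2

end Cfsg.Agent.Lib.PGrp
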