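import Cfsg.Agent.Lib.PGrp10

set_option autoImplicit false
set_option linter.unusedSectionVars false
set_option linter.unusedVariables false
set_option linter.style.haveILetI false

/-! Coprime automorphism groups trivial on characteristic abelian subgroups. -/

namespace Cfsg.Agent.Lib.PGrp

open Subgroup Cfsg
open scoped commutatorElement IsMulCommutative

universe u

variable {p : ℕ} [hp : Fact p.Prime]

section

variable {G : Type*} [Group G] [Finite G]

/-- The trace argument: elements fixed by `A` lie in `G'` if `G = [G, A]`. -/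
theorem fixed_mem_commutator (hG : IsPGroup p G) (A : Subgroup (MulAut G)) (hA : Nat.Coprime (Nat.card A) p)
    (hGA : closure {x : G | ∃ g : G, ∃ a ∈ A, x = g⁻¹ * a g} = ⊤) (g : G) (hg : ∀ a ∈ A, a g = g) :
    g ∈ commutator G := by
  classical
  haveI : Fintype A := Fintype.ofFinite A
  let Q := Abelianization G
  let τ : G →* Q := ∏ a : A, (Abelianization.of.comp (a : MulAut G).toMonoidHom)
  have hτ : ∀ x, τ x = ∏ a : A, Abelianization.of ((a : MulAut G) x) := by
    intro x
    simp only [τ, MonoidHom.finsetProd_apply]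
    rfl
  have hinv : ∀ (b : A) (x : G), τ ((b : MulAut G) x) = τ x := by
    intro b x
    rw [hτ, hτ]
    refine Fintype.prod_equiv (Equiv.mulRight b) _ _ ?_
    intro a
    rfl
  have hall : ∀ x, τ x = 1 := by
    have h1 : (⊤ : Subgroup G) ≤ τ.ker := by
      rw [← hGA, closure_le]
      rintro _ ⟨x, a, ha, rfl⟩
      change τ (x⁻¹ * a x) = 1
      rw [map_mul, map_inv]
      have := hinv ⟨a, ha⟩ x
      change τ (a x) = τ x at this
      rw [this, inv_mul_cancel]
    exact fun x => h1 (mem_top x)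
  have h2 : τ g = (Abelianization.of g) ^ Nat.card A := by
    rw [hτ, Nat.card_eq_fintype_card, ← Finset.card_univ, ← Finset.prod_const]
    refine Finset.prod_congr rfl fun a _ => ?_
    rw [hg a a.2]
  have h3 : (Abelianization.of g) ^ Nat.card A = 1 := by
    rw [← h2, hall]
  obtain ⟨k, hk⟩ := hG g
  have h4 : (Abelianization.of g) ^ p ^ k = 1 := by
    rw [← map_pow, hk, map_one]
  have h5 : orderOf (Abelianization.of g) = 1 := by
    have h6 := orderOf_dvd_of_pow_eq_one h3
    have h7 := orderOf_dvd_of_pow_eq_one h4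
    exact Nat.Coprime.eq_one_of_dvd ((hA.pow_right k).coprime_dvd_left h6) h7
  have h8 : Abelianization.of g = 1 := orderOf_eq_one_iff.1 h5
  have h9 : g ∈ (Abelianization.of : G →* Abelianization G).ker := h8
  rwa [Abelianization.ker_of] at h9

/-- S0119. -/
theorem special_of_coprime_trivial_char (hG : IsPGroup p G) (A : Subgroup (MulAut G)) (hA : Nat.Coprime (Nat.card A) p)
    (hGA : closure {x : G | ∃ g : G, ∃ a ∈ A, x = g⁻¹ * a g} = ⊤)
    (hchar : ∀ H : Subgroup G, H.Characteristic → IsMulCommutative H → ∀ a ∈ A, ∀ h ∈ H, a h = h) :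
    IsSpecial p G ∧ (∀ g : G, (g ∈ center G ↔ ∀ a ∈ A, a g = g)) := by
  -- characteristic abelian subgroups are central
  have hcen : ∀ H : Subgroup G, H.Characteristic → IsMulCommutative H → H ≤ center G := by
    intro H hH hHc x hx
    have hgen : (⊤ : Subgroup G) ≤ centralizer {x} := by
      rw [← hGA, closure_le]
      rintro _ ⟨g, a, ha, rfl⟩
      have h1 : g * x * g⁻¹ ∈ H := (inferInstance : H.Normal).conj_mem x hx g
      have h2 := hchar H hH hHc a ha _ h1
      rw [map_mul, map_mul, map_inv, hchar H hH hHc a ha x hx] at h2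
      change _ ∈ centralizer {x}
      rw [mem_centralizer_singleton_iff]
      calc g⁻¹ * a g * x = g⁻¹ * (a g * x * (a g)⁻¹) * a g := by group
        _ = g⁻¹ * (g * x * g⁻¹) * a g := by rw [h2]
        _ = x * (g⁻¹ * a g) := by group
    rw [mem_center_iff]
    intro g
    have := hgen (mem_top g)
    rw [mem_centralizer_singleton_iff] at this
    exact this
  obtain ⟨H, hHc, hf, hcomm, hself⟩ := exists_critical hG
  have hZH : H ⊓ centralizer (H : Set G) ≤ center G := by
    apply hcen
    · infer_instance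
    · apply isMulComm_of_comm
      intro a ha b hb
      exact (mem_centralizer_iff.1 (mem_inf.1 hb).2) a (mem_inf.1 ha).1
  have hCZ : centralizer (H : Set G) ≤ center G := fun x hx => hZH (mem_inf.2 ⟨hself hx, hx⟩)
  have hHx : ∀ x ∈ H, ∀ g : G, ⁅g, x⁆ ∈ center G := by
    intro x hx g
    rw [← commutatorElement_inv]
    exact inv_mem (hZH (hcomm (commutator_mem_commutator hx (mem_top g))))
  have hconj : ∀ x ∈ H, ∀ g : G, g * x * g⁻¹ = ⁅g, x⁆ * x := by
    intro x hx g
    rw [commutatorElement_def]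
    group
  -- commutators are central
  have hcc : ∀ g g' : G, ⁅g, g'⁆ ∈ center G := by
    intro g g'
    apply hCZ
    rw [mem_centralizer_iff]
    intro x hx
    have hxH : x ∈ H := hx
    have h1 : g * g' * x * (g * g')⁻¹ = g' * g * x * (g' * g)⁻¹ := by
      have e1 : g * g' * x * (g * g')⁻¹ = g * (g' * x * g'⁻¹) * g⁻¹ := by group
      have e2 : g' * g * x * (g' * g)⁻¹ = g' * (g * x * g⁻¹) * g'⁻¹ := by group
      have hcen1 : ∀ z ∈ center G, ∀ y : G, z * y = y * z := fun z hz y => ((mem_center_iff.1 hz) y).symm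
      rw [e1, e2, hconj x hxH g', hconj x hxH g]
      have e3 : g * (⁅g', x⁆ * x) * g⁻¹ = ⁅g', x⁆ * (g * x * g⁻¹) := by
        rw [← mul_assoc, ← hcen1 _ (hHx x hxH g') g]
        group
      have e4 : g' * (⁅g, x⁆ * x) * g'⁻¹ = ⁅g, x⁆ * (g' * x * g'⁻¹) := by
        rw [← mul_assoc, ← hcen1 _ (hHx x hxH g) g']
        group
      rw [e3, e4, hconj x hxH g', hconj x hxH g, ← mul_assoc, ← mul_assoc, hcen1 _ (hHx x hxH g') ⁅g, x⁆]
    have h2 : ⁅g, g'⁆ = (g * g') * (g' * g)⁻¹ := by
      rw [commutatorElement_def]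
      group
    rw [h2]
    have h3 : (g' * g)⁻¹ * x * (g' * g) = (g * g')⁻¹ * x * (g * g') ∨ True := Or.inr trivial
    -- from `h1`: `(g g') x (g g')⁻¹ = (g' g) x (g' g)⁻¹`
    have h4 : (g * g') * (g' * g)⁻¹ * (g' * g) * x * (g' * g)⁻¹ = g * g' * x * (g' * g)⁻¹ := by group
    have h5 : g * g' * x = g' * g * x * (g' * g)⁻¹ * (g * g') := by
      rw [← h1]
      group
    -- we want: `x * c = c * x` with `c = (g g') (g' g)⁻¹`
    -- conjugation by `c` fixes conjugates of `x`; reduce using normality of `H`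
    have key : ∀ y ∈ H, g * g' * y * (g * g')⁻¹ = g' * g * y * (g' * g)⁻¹ := by
      intro y hy
      have hcen1 : ∀ z ∈ center G, ∀ y : G, z * y = y * z := fun z hz y => ((mem_center_iff.1 hz) y).symm
      have e1 : g * g' * y * (g * g')⁻¹ = g * (g' * y * g'⁻¹) * g⁻¹ := by group
      have e2 : g' * g * y * (g' * g)⁻¹ = g' * (g * y * g⁻¹) * g'⁻¹ := by group
      rw [e1, e2, hconj y hy g', hconj y hy g]
      have e3 : g * (⁅g', y⁆ * y) * g⁻¹ = ⁅g', y⁆ * (g * y * g⁻¹) := by
        rw [← mul_assoc, ← hcen1 _ (hHx y hy g') g]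
        group
      have e4 : g' * (⁅g, y⁆ * y) * g'⁻¹ = ⁅g, y⁆ * (g' * y * g'⁻¹) := by
        rw [← mul_assoc, ← hcen1 _ (hHx y hy g) g']
        group
      rw [e3, e4, hconj y hy g', hconj y hy g, ← mul_assoc, ← mul_assoc, hcen1 _ (hHx y hy g') ⁅g, y⁆]
    have hy : (g' * g) * x * (g' * g)⁻¹ ∈ H ∨ True := Or.inr trivial
    have hz : (g' * g)⁻¹ * x * (g' * g) ∈ H := by
      have := (inferInstance : H.Normal).conj_mem x hxH (g' * g)⁻¹
      simpa using this
    have h6 := key _ hz
    have e5 : g' * g * ((g' * g)⁻¹ * x * (g' * g)) * (g' * g)⁻¹ = x := by group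
    rw [e5] at h6
    -- `h6 : (g g') ((g' g)⁻¹ x (g' g)) (g g')⁻¹ = x`
    calc x * ((g * g') * (g' * g)⁻¹) = (g * g' * ((g' * g)⁻¹ * x * (g' * g)) * (g * g')⁻¹) * ((g * g') * (g' * g)⁻¹) := by rw [h6]
      _ = (g * g') * (g' * g)⁻¹ * x := by group
  have hcommZ : commutator G ≤ center G := by
    rw [_root_.commutator_def, commutator_le]
    intro a _ b _
    exact hcc a b
  -- powers are central
  have hpow : ∀ g : G, g ^ p ∈ center G := by
    intro g
    apply hCZ
    rw [mem_centralizer_iff]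
    intro x hx
    have hxH : x ∈ H := hx
    have hcen1 : ∀ z ∈ center G, ∀ y : G, Commute z y := fun z hz y => ((mem_center_iff.1 hz) y).symm
    -- `⁅g, x⁆ ^ p = 1`
    have hxp : x ^ p ∈ center G :=
      hZH (mem_inf.2 ⟨pow_mem hxH p, hf (pow_mem_frattini_map H (hG.to_subgroup H) x hxH)⟩)
    have h1 : g * x ^ p * g⁻¹ = x ^ p := by
      rw [(hcen1 _ hxp g).symm.eq]
      group
    have h2 : ⁅g, x⁆ ^ p = 1 := by
      rw [← conj_pow, hconj x hxH g, (hcen1 _ (hHx x hxH g) x).mul_pow] at h1
      exact mul_eq_right.1 h1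
    have h3 : ∀ n : ℕ, g ^ n * x * (g ^ n)⁻¹ = ⁅g, x⁆ ^ n * x := by
      intro n
      induction n with
      | zero => simp
      | succ n ih =>
        have e : g ^ (n + 1) * x * (g ^ (n + 1))⁻¹ = g * (g ^ n * x * (g ^ n)⁻¹) * g⁻¹ := by
          rw [pow_succ']
          group
        rw [e, ih]
        have h4 : g * (⁅g, x⁆ ^ n * x) * g⁻¹ = ⁅g, x⁆ ^ n * (g * x * g⁻¹) := by
          have h5 : Commute (⁅g, x⁆ ^ n) g := ((hcen1 _ (hHx x hxH g) g).pow_left n)
          rw [← mul_assoc, ← h5.eq]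
          group
        rw [h4, hconj x hxH g, ← mul_assoc, pow_succ]
    have h4 := h3 p
    rw [h2, one_mul] at h4
    have := mul_inv_eq_iff_eq_mul.1 h4
    exact this.symm
  have hfr : frattini G ≤ center G := frattini_le_of hG _ hcommZ hpow
  have hcar : center G ≤ commutator G := by
    intro z hz
    apply fixed_mem_commutator hG A hA hGA z
    intro a ha
    exact hchar (center G) inferInstance (isMulComm_of_comm fun x hx y hy => ((mem_center_iff.1 hy) x)) a ha z hz
  have hceq : commutator G = center G := le_antisymm hcommZ hcar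
  refine ⟨⟨hG, le_antisymm hfr (hceq ▸ commutator_le_frattini hG), hceq⟩, fun g => ⟨fun hg a ha => ?_, fun hg => ?_⟩⟩
  · exact hchar (center G) inferInstance (isMulComm_of_comm fun x hx y hy => ((mem_center_iff.1 hy) x)) a ha g hg
  · exact hcommZ (fixed_mem_commutator hG A hA hGA g hg)

end

end Cfsg.Agent.Lib.PGrp
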