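import Cfsg.Agent.Lib.PHall

set_option autoImplicit false
set_option linter.unusedSectionVars false
set_option linter.unusedVariables false
set_option linter.style.haveILetI false

/-! Abelian Hall subgroups: conjugacy, Burnside's transfer theorem for Hall subgroups. -/

namespace Cfsg.Agent.Lib.PHall

open Subgroup Cfsg Cfsg.Agent.Lib.PNilp
open scoped commutatorElement IsMulCommutative

universe u

theorem card_map_mk_mul {Q : Type*} [Group Q] [Finite Q] (R : Subgroup Q) [R.Normal] (A : Subgroup Q) (hRA : R ≤ A) :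
    Nat.card (A.map (QuotientGroup.mk' R)) * Nat.card R = Nat.card A ∧ (A.map (QuotientGroup.mk' R)).index = A.index := by
  have hidx : (A.map (QuotientGroup.mk' R)).index = A.index := by
    rw [Subgroup.index_map, QuotientGroup.ker_mk', sup_eq_left.2 hRA,
      MonoidHom.range_eq_top.2 (QuotientGroup.mk'_surjective _), Subgroup.index_top, mul_one]
  refine ⟨?_, hidx⟩
  have h1 := Subgroup.card_mul_index (A.map (QuotientGroup.mk' R))
  have h2 := Subgroup.card_mul_index A
  have h3 := Subgroup.card_mul_index R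
  have h4 : R.index = Nat.card (Q ⧸ R) := rfl
  rw [hidx] at h1
  have hpos : 0 < A.index := Nat.pos_of_ne_zero Subgroup.index_ne_zero_of_finite
  apply Nat.eq_of_mul_eq_mul_right hpos
  rw [mul_right_comm, h1, h2, ← h3, h4]
  ring

/-- Abelian Hall subgroups of the same order are conjugate. -/
theorem conj_of_abelian_hall : ∀ (N : ℕ) (G : Type u) [Group G] [Finite G], Nat.card G = N → ∀ H K : Subgroup G,
    IsMulCommutative H → IsMulCommutative K → Nat.Coprime (Nat.card H) H.index → Nat.card H = Nat.card K →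
    ∃ g : G, ∀ x ∈ H, g * x * g⁻¹ ∈ K := by
  intro N
  induction N using Nat.strong_induction_on with
  | _ N ih =>
  intro G _ _ hN H K hH hK hHall hcard
  by_cases h1 : Nat.card H = 1
  · refine ⟨1, fun x hx => ?_⟩
    have : H = ⊥ := Subgroup.eq_bot_of_card_eq _ h1
    rw [this, mem_bot] at hx
    rw [hx]
    simp [one_mem]
  obtain ⟨q, hqp, hqd⟩ := Nat.exists_prime_and_dvd h1
  haveI : Fact q.Prime := ⟨hqp⟩
  have hidxeq : K.index = H.index := by
    have h2 := Subgroup.card_mul_index H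
    have h3 := Subgroup.card_mul_index K
    rw [← hcard, ← h2] at h3
    exact Nat.eq_of_mul_eq_mul_left Nat.card_pos h3
  have hKHall : Nat.Coprime (Nat.card K) K.index := by rw [← hcard, hidxeq]; exact hHall
  obtain ⟨P, hPH, hPc⟩ := exists_sylow_of_hall H hHall q hqd
  obtain ⟨P₂, hP₂K, -⟩ := exists_sylow_of_hall K hKHall q (hcard ▸ hqd)
  obtain ⟨g, hg⟩ := MulAction.exists_smul_eq G P₂ P
  let K₁ : Subgroup G := K.map (MulAut.conj g).toMonoidHom
  have hPK₁ : (P : Subgroup G) ≤ K₁ := by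
    intro y hy
    have h2 : y ∈ (g • P₂ : Sylow q G) := by rw [hg]; exact hy
    have h3 := mem_smul_sylow.1 h2
    exact mem_map_conj.2 (hP₂K h3)
  have hK₁card : Nat.card K₁ = Nat.card K :=
    Nat.card_congr (K.equivMapOfInjective _ (MulAut.conj g).injective).symm.toEquiv
  have hK₁c : ∀ a ∈ K₁, ∀ b ∈ K₁, a * b = b * a := by
    rintro _ ⟨a, ha, rfl⟩ _ ⟨b, hb, rfl⟩
    have h2 : a * b = b * a := congrArg Subtype.val (hK.is_comm.comm ⟨a, ha⟩ ⟨b, hb⟩)
    change g * a * g⁻¹ * (g * b * g⁻¹) = g * b * g⁻¹ * (g * a * g⁻¹)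
    calc g * a * g⁻¹ * (g * b * g⁻¹) = g * (a * b) * g⁻¹ := by group
      _ = g * (b * a) * g⁻¹ := by rw [h2]
      _ = _ := by group
  have hHc : ∀ a ∈ H, ∀ b ∈ H, a * b = b * a := fun a ha b hb =>
    congrArg Subtype.val (hH.is_comm.comm ⟨a, ha⟩ ⟨b, hb⟩)
  let C : Subgroup G := centralizer ((P : Subgroup G) : Set G)
  have hHC : H ≤ C := by
    intro x hx
    rw [mem_centralizer_iff]
    intro y hy
    exact hHc y (hPH hy) x hx
  have hK₁C : K₁ ≤ C := by
    intro x hx
    rw [mem_centralizer_iff]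
    intro y hy
    exact hK₁c y (hPK₁ hy) x hx
  have hPC : (P : Subgroup G) ≤ C := hPH.trans hHC
  let R : Subgroup C := (P : Subgroup G).subgroupOf C
  haveI hRn : R.Normal := by
    refine ⟨fun n hn c => ?_⟩
    have h2 : (c : G) * n * (c : G)⁻¹ = n := by
      have h3 := (mem_centralizer_iff.1 c.2) n hn
      rw [← h3]
      group
    have h4 : c * n * c⁻¹ = n := Subtype.ext h2
    rw [h4]
    exact hn
  have hRcard : Nat.card R = Nat.card (P : Subgroup G) := Nat.card_congr (subgroupOfEquivOfLe hPC).toEquiv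
  have hPcard : 1 < Nat.card (P : Subgroup G) := by
    rw [hPc]
    apply Nat.one_lt_pow _ hqp.one_lt
    exact (hqp.factorization_pos_of_dvd Nat.card_pos.ne' hqd).ne'
  let Hb : Subgroup (C ⧸ R) := (H.subgroupOf C).map (QuotientGroup.mk' R)
  let Kb : Subgroup (C ⧸ R) := (K₁.subgroupOf C).map (QuotientGroup.mk' R)
  have hRH : R ≤ H.subgroupOf C := fun r hr => hPH hr
  have hRK : R ≤ K₁.subgroupOf C := fun r hr => hPK₁ hr
  obtain ⟨hHb1, hHb2⟩ := card_map_mk_mul R (H.subgroupOf C) hRH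
  obtain ⟨hKb1, hKb2⟩ := card_map_mk_mul R (K₁.subgroupOf C) hRK
  have hcH : Nat.card (H.subgroupOf C) = Nat.card H := Nat.card_congr (subgroupOfEquivOfLe hHC).toEquiv
  have hcK : Nat.card (K₁.subgroupOf C) = Nat.card K₁ := Nat.card_congr (subgroupOfEquivOfLe hK₁C).toEquiv
  have hcardbar : Nat.card Hb = Nat.card Kb := by
    apply Nat.eq_of_mul_eq_mul_right (Nat.card_pos (α := R))
    rw [hHb1, hKb1, hcH, hcK, hK₁card, hcard]
  have hlt : Nat.card (C ⧸ R) < N := by
    have h2 := Subgroup.card_mul_index R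
    have h3 : R.index = Nat.card (C ⧸ R) := rfl
    rw [h3, hRcard] at h2
    have h4 : Nat.card C ≤ N := by
      rw [← hN]
      have := Subgroup.card_le_of_le (le_top : C ≤ ⊤)
      rwa [Subgroup.card_top] at this
    have h5 : 0 < Nat.card (C ⧸ R) := Nat.card_pos
    have h6 : 1 * Nat.card (C ⧸ R) < Nat.card (P : Subgroup G) * Nat.card (C ⧸ R) :=
      Nat.mul_lt_mul_of_pos_right hPcard h5
    omega
  have hHbcomm : IsMulCommutative Hb := by
    refine IsMulCommutative.of_setLike_mul_comm ?_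
    rintro _ ⟨a, ha, rfl⟩ _ ⟨b, hb, rfl⟩
    rw [← map_mul, ← map_mul]
    congr 1
    exact Subtype.ext (hHc a ha b hb)
  have hKbcomm : IsMulCommutative Kb := by
    refine IsMulCommutative.of_setLike_mul_comm ?_
    rintro _ ⟨a, ha, rfl⟩ _ ⟨b, hb, rfl⟩
    rw [← map_mul, ← map_mul]
    congr 1
    exact Subtype.ext (hK₁c a ha b hb)
  have hHbHall : Nat.Coprime (Nat.card Hb) Hb.index := by
    rw [hHb2]
    have h2 : Nat.card Hb ∣ Nat.card H := by
      rw [← hcH, ← hHb1]
      exact Dvd.intro _ rfl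
    have h3 : (H.subgroupOf C).index ∣ H.index := Subgroup.relIndex_dvd_index_of_le hHC
    exact Nat.Coprime.coprime_dvd_left h2 (Nat.Coprime.coprime_dvd_right h3 hHall)
  obtain ⟨cb, hcb⟩ := ih _ hlt (C ⧸ R) rfl Hb Kb hHbcomm hKbcomm hHbHall hcardbar
  obtain ⟨c, rfl⟩ := QuotientGroup.mk'_surjective R cb
  refine ⟨g⁻¹ * c, fun x hx => ?_⟩
  have hx' : (⟨x, hHC hx⟩ : C) ∈ H.subgroupOf C := hx
  have h2 := hcb _ (mem_map_of_mem (QuotientGroup.mk' R) hx')
  obtain ⟨k, hk, hke⟩ := h2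
  rw [← map_inv, ← map_mul, ← map_mul] at hke
  have h3 := QuotientGroup.eq.1 hke
  have hk' : (k : G) ∈ K₁ := hk
  have h4 : (c : G) * x * (c : G)⁻¹ ∈ K₁ := by
    have h5 : ((k⁻¹ * (c * ⟨x, hHC hx⟩ * c⁻¹) : C) : G) ∈ (P : Subgroup G) := h3
    have h6 : (c : G) * x * (c : G)⁻¹ = k * ((k⁻¹ * (c * ⟨x, hHC hx⟩ * c⁻¹) : C) : G) := by
      simp
    rw [h6]
    exact mul_mem hk' (hPK₁ h5)
  have h7 := mem_map_conj.1 h4
  have e : g⁻¹ * c * x * (g⁻¹ * c)⁻¹ = g⁻¹ * (c * x * (c : G)⁻¹) * g := by group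
  rw [e]
  exact h7

/-- S0087. -/
theorem hall_central_in_normalizer {G : Type u} [Group G] [Finite G] (H : Subgroup G)
    (hHall : Nat.Coprime (Nat.card H) H.index) (h : normalizer (H : Set G) ≤ centralizer (H : Set G)) :
    ∃ N : Subgroup G, N.Normal ∧ N.IsComplement' H := by
  have hHc : ∀ a ∈ H, ∀ b ∈ H, a * b = b * a := by
    intro a ha b hb
    exact (mem_centralizer_iff.1 (h (le_normalizer hb))) a ha
  have hcomm : IsMulCommutative H := IsMulCommutative.of_setLike_mul_comm hHc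
  have hnil : Group.IsNilpotent H := by
    letI : CommGroup H := { (inferInstance : Group H) with mul_comm := hcomm.is_comm.comm }
    infer_instance
  apply exists_normal_complement_of_fusion H hnil hHall
  rintro x hx y hy ⟨g, rfl⟩
  refine ⟨1, one_mem _, ?_⟩
  simp only [one_mul, inv_one, mul_one]
  -- `x` and `g x g⁻¹` coincide
  set y := g * x * g⁻¹ with hydef
  let L : Subgroup G := centralizer {y}
  let H₂ : Subgroup G := H.map (MulAut.conj g).toMonoidHom
  have hHL : H ≤ L := by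
    intro a ha
    rw [mem_centralizer_singleton_iff]
    exact hHc a ha y hy
  have hH₂mem : ∀ a ∈ H, g * a * g⁻¹ ∈ H₂ := fun a ha => ⟨a, ha, rfl⟩
  have hH₂c : ∀ a ∈ H₂, ∀ b ∈ H₂, a * b = b * a := by
    rintro _ ⟨a, ha, rfl⟩ _ ⟨b, hb, rfl⟩
    change g * a * g⁻¹ * (g * b * g⁻¹) = g * b * g⁻¹ * (g * a * g⁻¹)
    calc g * a * g⁻¹ * (g * b * g⁻¹) = g * (a * b) * g⁻¹ := by group
      _ = g * (b * a) * g⁻¹ := by rw [hHc a ha b hb]
      _ = _ := by group
  have hH₂L : H₂ ≤ L := by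
    intro a ha
    rw [mem_centralizer_singleton_iff]
    exact hH₂c a ha y (hH₂mem x hx)
  have hH₂card : Nat.card H₂ = Nat.card H :=
    Nat.card_congr (H.equivMapOfInjective _ (MulAut.conj g).injective).symm.toEquiv
  have hc1 : Nat.card (H.subgroupOf L) = Nat.card H := Nat.card_congr (subgroupOfEquivOfLe hHL).toEquiv
  have hc2 : Nat.card (H₂.subgroupOf L) = Nat.card H₂ := Nat.card_congr (subgroupOfEquivOfLe hH₂L).toEquiv
  obtain ⟨c, hc⟩ := conj_of_abelian_hall _ L rfl (H.subgroupOf L) (H₂.subgroupOf L)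
    (IsMulCommutative.of_setLike_mul_comm fun a ha b hb => Subtype.ext (hHc a ha b hb))
    (IsMulCommutative.of_setLike_mul_comm fun a ha b hb => Subtype.ext (hH₂c a ha b hb))
    (by
      rw [hc1]
      exact Nat.Coprime.coprime_dvd_right (Subgroup.relIndex_dvd_index_of_le hHL) hHall)
    (by rw [hc1, hc2, hH₂card])
  have hcy : (c : G) * y = y * c := by
    have := c.2
    rw [mem_centralizer_singleton_iff] at this
    exact this
  -- `n = c⁻¹ g` normalizes `H`
  have hmap : H.map (MulAut.conj (c : G)).toMonoidHom = H₂ := by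
    apply Subgroup.eq_of_le_of_card_ge
    · rintro _ ⟨a, ha, rfl⟩
      exact hc ⟨a, hHL ha⟩ ha
    · rw [hH₂card]
      exact (Nat.card_congr (H.equivMapOfInjective _ (MulAut.conj (c : G)).injective).symm.toEquiv).ge
  have hn : (c : G)⁻¹ * g ∈ normalizer (H : Set G) := by
    rw [mem_normalizer_iff]
    intro a
    constructor
    · intro ha
      have h1 : g * a * g⁻¹ ∈ H.map (MulAut.conj (c : G)).toMonoidHom := by
        rw [hmap]
        exact hH₂mem a ha
      have h2 := mem_map_conj.1 h1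
      have e : (c : G)⁻¹ * g * a * ((c : G)⁻¹ * g)⁻¹ = (c : G)⁻¹ * (g * a * g⁻¹) * c := by group
      rw [e]
      exact h2
    · intro ha
      have e : (c : G)⁻¹ * g * a * ((c : G)⁻¹ * g)⁻¹ = (c : G)⁻¹ * (g * a * g⁻¹) * c := by group
      rw [e] at ha
      have h1 : g * a * g⁻¹ ∈ H.map (MulAut.conj (c : G)).toMonoidHom := mem_map_conj.2 ha
      rw [hmap] at h1
      obtain ⟨b, hb, hbe⟩ := h1
      have h2 : g * b * g⁻¹ = g * a * g⁻¹ := hbe
      have h3 : b = a := by
        have h4 := mul_right_cancel h2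
        exact mul_left_cancel h4
      rw [← h3]
      exact hb
  have h1 := (mem_centralizer_iff.1 (h hn)) x hx
  -- `x n = n x`
  have h2 : (c : G)⁻¹ * y * c = y := by
    rw [mul_assoc, ← hcy]
    group
  have h3 : (c : G)⁻¹ * g * x * ((c : G)⁻¹ * g)⁻¹ = y := by
    rw [← h2, hydef]
    group
  have h4 : (c : G)⁻¹ * g * x * ((c : G)⁻¹ * g)⁻¹ = x := by
    rw [← h1]
    group
  rw [← h3, h4]

end Cfsg.Agent.Lib.PHall
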