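import Mathlib
import Cfsg.Prelude.Def_PLocal
import Cfsg.Agent.Lib.PGrp2
import Cfsg.Agent.Lib.PNilp

set_option autoImplicit false
set_option linter.unusedSectionVars false
set_option linter.unusedVariables false
set_option linter.style.haveILetI false

namespace Cfsg.Agent.Lib.PReg

open Cfsg
open scoped commutatorElement

/-- S0642. -/
theorem regular_two_iff {G : Type*} [Group G] [Finite G] (hG : IsPGroup 2 G) :
    IsRegularPGroup 2 G ↔ ∀ a b : G, a * b = b * a := by
  classical
  constructor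
  · intro hreg a b
    by_contra hab
    set K : Subgroup G := Subgroup.closure ({a, b} : Set G) with hK
    have haK : a ∈ K := Subgroup.subset_closure (by simp)
    have hbK : b ∈ K := Subgroup.subset_closure (by simp)
    let a' : K := ⟨a, haK⟩
    let b' : K := ⟨b, hbK⟩
    have hKp : IsPGroup 2 K := hG.to_subgroup K
    let D' : Subgroup K := commutator K
    have hD'ne : ⊥ < D' := by
      rw [bot_lt_iff_ne_bot]
      intro h
      have h1 : ⁅a', b'⁆ ∈ D' := Cfsg.Agent.Lib.PGrp.comm_mem_commutator a' b'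
      rw [h, Subgroup.mem_bot, commutatorElement_eq_one_iff_mul_comm] at h1
      exact hab (congrArg Subtype.val h1)
    -- a maximal normal subgroup below `D'`
    have hfin : {N : Subgroup K | N.Normal ∧ N < D'}.Finite := Set.toFinite _
    have hne : {N : Subgroup K | N.Normal ∧ N < D'}.Nonempty := ⟨⊥, inferInstance, hD'ne⟩
    obtain ⟨N', ⟨hN'n, hN'lt⟩, hN'max⟩ := Set.exists_max_image _ (fun N : Subgroup K => Nat.card N) hfin hne
    haveI := hN'n
    haveI : D'.Normal := inferInstance
    obtain ⟨V, hVn, hNV, hVD, hVc, -⟩ := Cfsg.Agent.Lib.PGrp.exists_normal_between hKp N' D' hN'lt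
    have hVeq : V = D' := by
      by_contra hne'
      have h1 := hN'max V ⟨hVn, lt_of_le_of_ne hVD hne'⟩
      rw [hVc] at h1
      have hpos : 0 < Nat.card N' := Nat.card_pos
      omega
    have hDc : Nat.card D' = 2 * Nat.card N' := by rw [← hVeq]; exact hVc
    have hidx : (N'.subgroupOf D').index = 2 := by
      have h1 := Cfsg.Agent.Lib.PNilp.card_mul_relIndex' N' D' hN'lt.le
      rw [hDc, mul_comm] at h1
      exact Nat.eq_of_mul_eq_mul_right Nat.card_pos h1
    have hsq : ∀ x ∈ D', x ^ 2 ∈ N' := by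
      intro x hx
      exact Subgroup.sq_mem_of_index_two hidx (⟨x, hx⟩ : D')
    obtain ⟨c, hc, he⟩ := hreg.2 a b 1
    -- `c` lies in `N'`
    have hcN : ∃ hcK : c ∈ K, (⟨c, hcK⟩ : K) ∈ N' := by
      have hle : Cfsg.powerClosure 2 1 ⁅K, K⁆ ≤ N'.map K.subtype := by
        rw [Cfsg.powerClosure, Subgroup.closure_le]
        rintro y ⟨x, hx, rfl⟩
        rw [← Subgroup.map_subtype_commutator] at hx
        obtain ⟨d, hd, rfl⟩ := hx
        exact ⟨d ^ 2, hsq d hd, by simp⟩
      obtain ⟨d, hd, hdc⟩ := hle hc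
      have hdc' : (d : G) = c := hdc
      have hcK0 : c ∈ K := hdc' ▸ d.2
      refine ⟨hcK0, ?_⟩
      have : (⟨c, hcK0⟩ : K) = d := Subtype.ext hdc'.symm
      rw [this]
      exact hd
    obtain ⟨hcK, hcN'⟩ := hcN
    have hcomm : ⁅b'⁻¹, a'⁻¹⁆ ∈ N' := by
      have h1 : (a' * b') ^ (2 ^ 1) = a' ^ (2 ^ 1) * b' ^ (2 ^ 1) * ⟨c, hcK⟩ := Subtype.ext (by simpa using he)
      have h2 : (⟨c, hcK⟩ : K) = (b' ^ (2 ^ 1))⁻¹ * (a' ^ (2 ^ 1))⁻¹ * (a' * b') ^ (2 ^ 1) := by
        rw [h1]; group
      rw [h2] at hcN'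
      have h3 : (b' ^ (2 ^ 1))⁻¹ * (a' ^ (2 ^ 1))⁻¹ * (a' * b') ^ (2 ^ 1) = b'⁻¹ * ⁅b'⁻¹, a'⁻¹⁆ * b' := by
        rw [commutatorElement_def]
        simp only [pow_one, sq, mul_inv_rev]
        group
      rw [h3] at hcN'
      have h4 := hN'n.conj_mem _ hcN' b'
      have h5 : b' * (b'⁻¹ * ⁅b'⁻¹, a'⁻¹⁆ * b') * b'⁻¹ = ⁅b'⁻¹, a'⁻¹⁆ := by group
      rwa [h5] at h4
    -- the quotient is commutative
    let π : K →* K ⧸ N' := QuotientGroup.mk' N'
    have hcomm2 : π a' * π b' = π b' * π a' := by
      have h1 : π ⁅b'⁻¹, a'⁻¹⁆ = 1 := (QuotientGroup.eq_one_iff _).2 hcomm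
      rw [map_commutatorElement, commutatorElement_eq_one_iff_mul_comm, map_inv, map_inv] at h1
      have h2 : Commute (π b')⁻¹ (π a')⁻¹ := h1
      simpa using h2.inv_inv.symm.eq
    have hclos : Subgroup.closure ({a', b'} : Set K) = ⊤ := by
      have h0 := Subgroup.closure_closure_coe_preimage (k := ({a, b} : Set G))
      convert h0 using 2
      ext x
      simp only [Set.mem_insert_iff, Set.mem_singleton_iff, Set.mem_preimage]
      constructor
      · rintro (rfl | rfl)
        · exact Or.inl rfl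
        · exact Or.inr rfl
      · rintro (h | h)
        · exact Or.inl (Subtype.ext h)
        · exact Or.inr (Subtype.ext h)
    have hQclos : Subgroup.closure ({π a', π b'} : Set (K ⧸ N')) = ⊤ := by
      have h1 := congrArg (Subgroup.map π) hclos
      rw [MonoidHom.map_closure, Set.image_pair,
        Subgroup.map_top_of_surjective _ (QuotientGroup.mk'_surjective N')] at h1
      exact h1
    have hQcomm : ∀ x y : K ⧸ N', x * y = y * x := by
      have hk : ∀ x ∈ ({π a', π b'} : Set (K ⧸ N')), ∀ y ∈ ({π a', π b'} : Set (K ⧸ N')), x * y = y * x := by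
        intro x hx y hy
        simp only [Set.mem_insert_iff, Set.mem_singleton_iff] at hx hy
        rcases hx with rfl | rfl <;> rcases hy with rfl | rfl
        · rfl
        · exact hcomm2
        · exact hcomm2.symm
        · rfl
      letI := Subgroup.closureCommGroupOfComm hk
      intro x y
      have hx : x ∈ Subgroup.closure ({π a', π b'} : Set (K ⧸ N')) := by rw [hQclos]; exact Subgroup.mem_top _
      have hy : y ∈ Subgroup.closure ({π a', π b'} : Set (K ⧸ N')) := by rw [hQclos]; exact Subgroup.mem_top _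
      exact congrArg Subtype.val (mul_comm (⟨x, hx⟩ : Subgroup.closure ({π a', π b'} : Set (K ⧸ N'))) ⟨y, hy⟩)
    have hDle : D' ≤ N' := by
      change commutator K ≤ N'
      rw [commutator_def, Subgroup.commutator_le]
      intro x _ y _
      apply (QuotientGroup.eq_one_iff _).1
      change π ⁅x, y⁆ = 1
      rw [map_commutatorElement, commutatorElement_eq_one_iff_mul_comm]
      exact hQcomm _ _
    exact absurd hDle (not_le_of_gt hN'lt)
  · intro h
    refine ⟨hG, fun a b n => ⟨1, one_mem _, ?_⟩⟩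
    have hc : Commute a b := h a b
    rw [mul_one, hc.mul_pow]

end Cfsg.Agent.Lib.PReg
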