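import Cfsg.Agent.Lib.SLGen

set_option autoImplicit false

namespace Cfsg.Agent.Lib.PSLGen2

open Matrix Matrix.SpecialLinearGroup Cfsg.Agent.Lib.SLGen
open scoped commutatorElement

variable {K : Type*} [Field K] {n : ℕ}

local notation "Tv" => Matrix.SpecialLinearGroup.transvection
local notation "SLK" => Matrix.SpecialLinearGroup (Fin (n + 1)) K

theorem Tv_mul_same {a b : Fin (n + 1)} (hab : a ≠ b) (s r : K) : Tv hab s * Tv hab r = Tv hab (s + r) := by
  apply SL_ext_mulVec
  intro x
  ext l
  simp only [Matrix.SpecialLinearGroup.coe_mul, ← Matrix.mulVec_mulVec]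
  rw [T_mulVec_apply, T_mulVec_apply, T_mulVec_apply, T_mulVec_apply]
  by_cases hl : l = a
  · subst hl
    simp [hab.symm]
    ring
  · simp [hl]

theorem Tv_inv' {a b : Fin (n + 1)} (hab : a ≠ b) (s : K) : (Tv hab s)⁻¹ = Tv hab (-s) := by
  rw [Matrix.SpecialLinearGroup.transvection_inv]

theorem nsm_val (m : ℕ) : (m • (1 : Fin (n + 1))).val = m % (n + 1) := by
  induction m with
  | zero => simp
  | succ m ih =>
    rw [succ_nsmul, Fin.val_add, ih, Fin.val_one']
    simp

theorem eq_nsm (i : Fin (n + 1)) : i = i.val • (1 : Fin (n + 1)) := by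
  apply Fin.ext
  rw [nsm_val, Nat.mod_eq_of_lt i.isLt]

/-- the conjugation formula -/
theorem Tv_mul_w {ε : Fin (n + 1) → K} (hε : ∀ l, ε l ≠ 0) {w : SLK}
    (hw : ∀ (x : Fin (n + 1) → K) (l : Fin (n + 1)), ((w : Matrix (Fin (n + 1)) (Fin (n + 1)) K) *ᵥ x) l = ε l * x (l + 1))
    {a b : Fin (n + 1)} (hab : a ≠ b) (hab' : a + 1 ≠ b + 1) (s : K) :
    Tv hab s * w = w * Tv hab' (s * ε b / ε a) := by
  apply SL_ext_mulVec
  intro x
  ext l
  simp only [Matrix.SpecialLinearGroup.coe_mul, ← Matrix.mulVec_mulVec]
  rw [T_mulVec_apply, hw, hw, hw, T_mulVec_apply]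
  by_cases hl : l = a
  · subst hl
    simp only [if_true]
    have := hε l
    field_simp
  · have hl' : l + 1 ≠ a + 1 := fun h => hl (add_right_cancel h)
    simp [hl, hl']

/-- Root subgroups spread around the cycle. -/
theorem top_of_root (hn : 1 ≤ n) {ε : Fin (n + 1) → K} (hε : ∀ l, ε l ≠ 0) {w : SLK}
    (hw : ∀ (x : Fin (n + 1) → K) (l : Fin (n + 1)), ((w : Matrix (Fin (n + 1)) (Fin (n + 1)) K) *ᵥ x) l = ε l * x (l + 1))
    (H : Subgroup SLK) (hwH : w ∈ H) (h01 : (0 : Fin (n + 1)) ≠ 1) (hT : ∀ t, Tv h01 t ∈ H) : H = ⊤ := by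
  -- root groups
  let R : Fin (n + 1) → Fin (n + 1) → Prop := fun i j => ∀ (h : i ≠ j) (t : K), Tv h t ∈ H
  have hstep : ∀ a b, R a b → R (a + 1) (b + 1) := by
    intro a b hR h t
    have hab : a ≠ b := fun e => h (by rw [e])
    have h1 := Tv_mul_w hε hw hab h (t * ε a / ε b)
    have h2 : t * ε a / ε b * ε b / ε a = t := by
      have := hε a
      have := hε b
      field_simp
    rw [h2] at h1
    have h3 : Tv h t = w⁻¹ * (Tv hab (t * ε a / ε b) * w) := by
      rw [h1]
      group
    rw [h3]
    exact H.mul_mem (H.inv_mem hwH) (H.mul_mem (hR hab _) hwH)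
  have hadj : ∀ m : ℕ, R (m • (1 : Fin (n + 1))) (m • (1 : Fin (n + 1)) + 1) := by
    intro m
    induction m with
    | zero =>
      intro h t
      have e : (0 : ℕ) • (1 : Fin (n + 1)) + 1 = 1 := by simp
      have e' : (0 : ℕ) • (1 : Fin (n + 1)) = 0 := by simp
      revert h
      rw [e, e']
      intro h
      exact hT t
    | succ m ih =>
      have := hstep _ _ ih
      rw [succ_nsmul]
      exact this
  have hadj' : ∀ i : Fin (n + 1), R i (i + 1) := by
    intro i
    have := hadj i.val
    rwa [← eq_nsm] at this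
  have hne : ∀ k : ℕ, 1 ≤ k → k ≤ n → (k • (1 : Fin (n + 1))) ≠ 0 := by
    intro k h1 h2 h0
    have h3 := congrArg Fin.val h0
    rw [nsm_val, Fin.val_zero, Nat.mod_eq_of_lt (by omega)] at h3
    omega
  have hk : ∀ k : ℕ, 1 ≤ k → k ≤ n → ∀ i : Fin (n + 1), R i (i + (k • (1 : Fin (n + 1)))) := by
    intro k h1
    induction k, h1 using Nat.le_induction with
    | base =>
      intro _ i
      simpa using hadj' i
    | succ k h1 ih =>
      intro h2 i h t
      have hik : i ≠ i + (k • (1 : Fin (n + 1))) := by
        intro e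
        apply hne k h1 (by omega)
        have : i + (k • (1 : Fin (n + 1))) = i + 0 := by rw [← e, add_zero]
        exact add_left_cancel this
      have hkj : i + (k • (1 : Fin (n + 1))) ≠ i + ((k + 1) • (1 : Fin (n + 1))) := by
        intro e
        have h3 := add_left_cancel e
        rw [succ_nsmul] at h3
        have h4 : (k • (1 : Fin (n + 1))) + 0 = (k • (1 : Fin (n + 1))) + 1 := by rw [add_zero]; exact h3
        exact h01 (add_left_cancel h4)
      have h5 := commutator_T_T (F := K) hik hkj h t 1
      rw [mul_one] at h5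
      rw [← h5]
      have h8 := ih (by omega) i hik t
      have h9 : Tv hkj 1 ∈ H := by
        have h6 := hadj' (i + (k • (1 : Fin (n + 1))))
        have h7 : i + (k • (1 : Fin (n + 1))) + 1 = i + ((k + 1) • (1 : Fin (n + 1))) := by
          rw [succ_nsmul, add_assoc]
        rw [h7] at h6
        exact h6 hkj 1
      rw [commutatorElement_def]
      exact H.mul_mem (H.mul_mem (H.mul_mem h8 h9) (H.inv_mem h8)) (H.inv_mem h9)
  have hall : ∀ i j : Fin (n + 1), R i j := by
    intro i j h t
    have e1 : j = i + ((j - i).val • (1 : Fin (n + 1))) := by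
      rw [← eq_nsm]
      abel
    have hji : j - i ≠ 0 := sub_ne_zero.2 h.symm
    have h1 : 1 ≤ (j - i).val := by
      rcases Nat.eq_zero_or_pos (j - i).val with h0 | h0
      · exact absurd (Fin.ext h0) hji
      · exact h0
    have h2 : (j - i).val ≤ n := by
      have := (j - i).isLt
      omega
    have := hk _ h1 h2 i
    rw [← e1] at this
    exact this h t
  rw [eq_top_iff]
  intro A _
  exact sl_induction (· ∈ H) (fun i j hij c => hall i j hij c) (fun _ _ h1 h2 => H.mul_mem h1 h2) H.one_mem A

/-- the matrix in the statements -/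
theorem w_mulVec (hn : 1 ≤ n) (x : Fin (n + 1) → K) (l : Fin (n + 1)) :
    ((Matrix.of (fun i j : Fin (n + 1) => if j.val = i.val + 1 then (1 : K) else if i.val = n ∧ j.val = 0 then (-1) ^ n else 0)) *ᵥ x) l =
      (if l.val < n then 1 else (-1) ^ n) * x (l + 1) := by
  classical
  simp only [Matrix.mulVec, dotProduct, Matrix.of_apply]
  rw [Finset.sum_eq_single (l + 1)]
  · by_cases h : l.val < n
    · have e : (l + 1).val = l.val + 1 := Fin.val_add_one_of_lt' (by omega)
      simp [h, e]
    · have hl : l.val = n := by have := l.isLt; omega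
      have e : (l + 1).val = 0 := by
        have : l = Fin.last n := Fin.ext hl
        rw [this]
        simp
      simp [h, e, hl]
  · intro j _ hj
    by_cases h : l.val < n
    · have e : (l + 1).val = l.val + 1 := Fin.val_add_one_of_lt' (by omega)
      have h1 : j.val ≠ l.val + 1 := by
        intro h2
        apply hj
        apply Fin.ext
        rw [h2, e]
      have h2 : ¬ (l.val = n) := by
        omega
      simp [h1, h2]
    · have hl : l.val = n := by have := l.isLt; omega
      have e : (l + 1).val = 0 := by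
        have : l = Fin.last n := Fin.ext hl
        rw [this]
        simp
      have h1 : j.val ≠ l.val + 1 := by
        have := j.isLt
        omega
      have h2 : j.val ≠ 0 := by
        intro h3
        apply hj
        apply Fin.ext
        rw [h3, e]
      simp [h1, h2]
  · simp

end Cfsg.Agent.Lib.PSLGen2
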