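import Cfsg.Agent.Lib.PHall2
import Cfsg.Agent.Lib.H1SZ
import Cfsg.Agent.Lib.PGrp6

set_option autoImplicit false
set_option linter.unusedSectionVars false
set_option linter.unusedVariables false
set_option linter.style.haveILetI false

/-! Splitting over `O^p(G)` when its Sylow `p`-subgroups are abelian. -/

namespace Cfsg.Agent.Lib.PSplit

open Subgroup Cfsg Cfsg.Agent.Lib.PNilp Cfsg.Agent.Lib.PGrp
open scoped commutatorElement IsMulCommutative Pointwise

universe u

variable {G : Type u} [Group G] [Finite G] {p : ℕ} [hp : Fact p.Prime]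

theorem isSolvable_of_comm {X : Type*} [Group X] (h : IsMulCommutative X) : Group.IsSolvable X := by
  letI : CommGroup X := { (inferInstance : Group X) with mul_comm := h.is_comm.comm }
  infer_instance

/-- S0092. -/
theorem splits_over_pResidual (h : ∀ Q : Sylow p (pResidual p G), IsMulCommutative Q) :
    ∃ K : Subgroup G, K.IsComplement' (pResidual p G) := by
  classical
  set R := pResidual p G with hRdef
  haveI hRn : R.Normal := pResidual_normal
  let P : Sylow p G := default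
  let T : Sylow p R := sylowOfNormal P R
  have hT : IsMulCommutative T := h T
  let Q : Subgroup G := (T : Subgroup R).map R.subtype
  have hQmem : ∀ x, x ∈ Q ↔ x ∈ (P : Subgroup G) ∧ x ∈ R := by
    intro x
    constructor
    · rintro ⟨y, hy, rfl⟩
      exact ⟨hy, y.2⟩
    · rintro ⟨h1, h2⟩
      exact ⟨⟨x, h2⟩, h1, rfl⟩
  have hQR : Q ≤ R := fun x hx => ((hQmem x).1 hx).2
  have hQP : IsPGroup p Q := T.2.map _
  have hQc : ∀ a ∈ Q, ∀ b ∈ Q, a * b = b * a := by
    rintro _ ⟨a, ha, rfl⟩ _ ⟨b, hb, rfl⟩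
    exact congrArg Subtype.val (comm_of_isMulComm hT ha hb)
  let N : Subgroup G := normalizer (Q : Set G)
  have hQN : Q ≤ N := le_normalizer
  have hNR : N ⊔ R = ⊤ := Sylow.normalizer_sup_eq_top T
  let R₁ : Subgroup G := N ⊓ R
  have hQR₁ : Q ≤ R₁ := le_inf hQN hQR
  -- the Sylow property of `Q` in `R₁`
  let Q' : Subgroup R₁ := Q.subgroupOf R₁
  haveI hQ'n : Q'.Normal := by
    apply (normal_subgroupOf_iff_le_normalizer hQR₁).2
    exact inf_le_left
  have hQ'card : Nat.card Q' = Nat.card Q := Nat.card_congr (subgroupOfEquivOfLe hQR₁).toEquiv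
  obtain ⟨a, ha⟩ := IsPGroup.iff_card.1 hQP
  have hidxT : ¬ p ∣ Q.relIndex R := by
    have h1 : Q.subgroupOf R = (T : Subgroup R) := comap_map_eq_self_of_injective R.subtype_injective _
    have h2 : Q.relIndex R = (T : Subgroup R).index := by
      rw [Subgroup.relIndex, h1]
    rw [h2]
    exact T.not_dvd_index
  have hidxQ' : ¬ p ∣ Q'.index := by
    have h1 : Q'.index = Q.relIndex R₁ := rfl
    rw [h1]
    intro hd
    apply hidxT
    have h2 := Subgroup.relIndex_mul_relIndex Q R₁ R hQR₁ inf_le_right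
    rw [← h2]
    exact Dvd.dvd.mul_right hd _
  have hcop : Nat.Coprime (Nat.card Q') Q'.index := by
    rw [hQ'card, ha]
    exact Nat.Coprime.pow_left _ ((Nat.Prime.coprime_iff_not_dvd hp.out).2 hidxQ')
  obtain ⟨U', hU'⟩ := Subgroup.exists_right_complement'_of_coprime hcop
  let U : Subgroup G := U'.map R₁.subtype
  have hUR₁ : U ≤ R₁ := by
    rintro _ ⟨y, -, rfl⟩
    exact y.2
  have hUcard : Nat.card U = Nat.card U' :=
    Nat.card_congr (U'.equivMapOfInjective R₁.subtype R₁.subtype_injective).symm.toEquiv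
  have hU'cop : Nat.Coprime (Nat.card U') p := by
    have h1 := hU'.symm.index_eq_card
    rw [← h1]
    exact ((Nat.Prime.coprime_iff_not_dvd hp.out).2 hidxQ').symm
  have hUcop : Nat.Coprime (Nat.card U) p := by rw [hUcard]; exact hU'cop
  have hQ'comm : IsMulCommutative Q' :=
    IsMulCommutative.of_setLike_mul_comm fun a ha b hb => Subtype.ext (hQc a ha b hb)
  -- every element of `R₁` is a product
  have hR₁form : ∀ x ∈ R₁, ∃ q ∈ Q, ∃ u ∈ U, x = q * u := by
    intro x hx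
    have h1 : (⟨x, hx⟩ : R₁) ∈ Q' ⊔ U' := by
      rw [hU'.sup_eq_top]
      exact mem_top _
    obtain ⟨q, hq, u, hu, hqu⟩ := Subgroup.mem_sup_of_normal_left.1 h1
    refine ⟨q, hq, u, ⟨u, hu, rfl⟩, ?_⟩
    have := congrArg Subtype.val hqu
    exact this.symm
  have hQUdisj : ∀ x, x ∈ Q → x ∈ U → x = 1 := by
    rintro x hxQ ⟨u, hu, rfl⟩
    have h1 : u ∈ Q' ⊓ U' := mem_inf.2 ⟨hxQ, hu⟩
    have h2 := hU'.disjoint.le_bot h1
    rw [mem_bot] at h2
    rw [h2]
    rfl
  -- `Q = [Q, R₁]`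
  have hQcomm : Q ≤ ⁅Q, R₁⁆ := by
    have h1 := inf_pResidual_eq_of_abelian T hT
    rw [pResidual_pResidual, inf_top_eq] at h1
    have h2 : (normalizer ((T : Subgroup R) : Set R)).map R.subtype ≤ R₁ := by
      rintro _ ⟨n, hn, rfl⟩
      refine mem_inf.2 ⟨?_, n.2⟩
      have hn' := Subgroup.mem_normalizer_iff.1 hn
      change (n : G) ∈ normalizer (Q : Set G)
      have key : ∀ n : R, n ∈ normalizer ((T : Subgroup R) : Set R) → ∀ x ∈ Q, (n : G) * x * (n : G)⁻¹ ∈ Q := by
        rintro n hn _ ⟨y, hy, rfl⟩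
        have := (Subgroup.mem_normalizer_iff.1 hn y).1 hy
        exact ⟨_, this, rfl⟩
      rw [Subgroup.mem_normalizer_iff]
      intro x
      refine ⟨fun hx => key n hn x hx, fun hx => ?_⟩
      have h3 := key n⁻¹ (inv_mem hn) _ hx
      have e : ((n⁻¹ : R) : G) * ((n : G) * x * (n : G)⁻¹) * ((n⁻¹ : R) : G)⁻¹ = x := by
        simp only [InvMemClass.coe_inv]
        group
      rwa [e] at h3
    intro x hx
    obtain ⟨y, hy, rfl⟩ := hx
    have hy' : y ∈ ⁅(T : Subgroup R), normalizer ((T : Subgroup R) : Set R)⁆ := h1 ▸ hy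
    have h3 : (y : G) ∈ (⁅(T : Subgroup R), normalizer ((T : Subgroup R) : Set R)⁆).map R.subtype :=
      mem_map_of_mem _ hy'
    rw [Subgroup.map_commutator] at h3
    exact commutator_mono le_rfl h2 h3
  have hQ'top : Q' ≤ ⁅Q', (⊤ : Subgroup R₁)⁆ := by
    intro x hx
    have h1 : (x : G) ∈ ⁅Q, R₁⁆ := hQcomm hx
    have h2 : ⁅Q', (⊤ : Subgroup R₁)⁆.map R₁.subtype = ⁅Q, R₁⁆ := by
      rw [Subgroup.map_commutator, Subgroup.map_subgroupOf_eq_of_le hQR₁, ← MonoidHom.range_eq_map, Subgroup.range_subtype]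
    rw [← h2] at h1
    obtain ⟨y, hy, hyx⟩ := h1
    have : y = x := Subtype.ext hyx
    rwa [← this]
  -- fixed points of `U` on `Q` are trivial
  have hfix : ∀ q ∈ Q, (∀ u ∈ U, q * u = u * q) → q = 1 := by
    intro q hq hqU
    obtain ⟨h1, h2, -⟩ := Cfsg.Agent.Lib.PNilp3.abelian_normal_hall Q' hQ'comm hcop
    have hqR₁ := hQR₁ hq
    have hqcen : (⟨q, hqR₁⟩ : R₁) ∈ center R₁ := by
      rw [mem_center_iff]
      intro x
      apply Subtype.ext
      obtain ⟨q', hq', u, hu, hx⟩ := hR₁form x x.2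
      change (x : G) * q = q * x
      rw [hx]
      have h3 : Commute q q' := hQc q hq q' hq'
      have h4 : Commute q u := hqU u hu
      exact ((h3.mul_right h4).eq).symm
    have hq' : (⟨q, hqR₁⟩ : R₁) ∈ Q' := hq
    have h3 : (⟨q, hqR₁⟩ : R₁) ∈ (commutator R₁ ⊓ Q') ⊓ (center R₁ ⊓ Q') := by
      refine mem_inf.2 ⟨?_, mem_inf.2 ⟨hqcen, hq'⟩⟩
      rw [← h1]
      exact hQ'top hq'
    rw [h2, mem_bot] at h3
    exact congrArg Subtype.val h3
  -- second Frattini argument
  let M : Subgroup G := N ⊓ normalizer (U : Set G)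
  have hNform : ∀ g ∈ N, ∃ q ∈ Q, ∃ m ∈ M, g = q * m := by
    intro g hg
    let V : Subgroup G := U.map (MulAut.conj g).toMonoidHom
    have hVcard : Nat.card V = Nat.card U :=
      Nat.card_congr (U.equivMapOfInjective _ (MulAut.conj g).injective).symm.toEquiv
    have hVR₁ : V ≤ R₁ := by
      rintro _ ⟨u, hu, rfl⟩
      have huR₁ := hUR₁ hu
      exact mem_inf.2 ⟨mul_mem (mul_mem hg (mem_inf.1 huR₁).1) (inv_mem hg),
        hRn.conj_mem _ (mem_inf.1 huR₁).2 g⟩
    have hV'card : Nat.card (V.subgroupOf R₁) = Nat.card V := Nat.card_congr (subgroupOfEquivOfLe hVR₁).toEquiv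
    have hcard : Nat.card Q' * Nat.card U' = Nat.card R₁ := hU'.card_mul_card
    have hccop : (Nat.card Q').Coprime (Nat.card U') := by
      rw [hQ'card, ha]
      exact Nat.Coprime.pow_left _ hU'cop.symm
    obtain ⟨q, hq, hqe⟩ := Cfsg.Agent.Lib.H1SZ.sz_conj_mem Q' U' (V.subgroupOf R₁)
      (Or.inl (isSolvable_of_comm hQ'comm)) hccop hcard (by rw [hV'card, hVcard, hUcard])
    have hconj : ∀ u ∈ U, (q : G) * u * (q : G)⁻¹ ∈ V := by
      rintro _ ⟨u, hu, rfl⟩
      have h1 : q * u * q⁻¹ ∈ V.subgroupOf R₁ := by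
        rw [← hqe]
        exact ⟨u, hu, rfl⟩
      exact h1
    have hqQ : (q : G) ∈ Q := hq
    refine ⟨q, hqQ, (q : G)⁻¹ * g, mem_inf.2 ⟨mul_mem (inv_mem (hQN hqQ)) hg, ?_⟩, by group⟩
    -- normalizes `U`
    have hVeq : U.map (MulAut.conj (q : G)).toMonoidHom = V := by
      apply Subgroup.eq_of_le_of_card_ge
      · rintro _ ⟨u, hu, rfl⟩
        exact hconj u hu
      · rw [hVcard]
        exact (Nat.card_congr (U.equivMapOfInjective _ (MulAut.conj (q : G)).injective).symm.toEquiv).ge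
    rw [mem_normalizer_iff_map']
    apply Subgroup.eq_of_le_of_card_ge
    · rintro _ ⟨u, hu, rfl⟩
      have h1 : g * u * g⁻¹ ∈ U.map (MulAut.conj (q : G)).toMonoidHom := by
        rw [hVeq]
        exact ⟨u, hu, rfl⟩
      have h2 := mem_map_conj.1 h1
      change ((q : G)⁻¹ * g) * u * ((q : G)⁻¹ * g)⁻¹ ∈ U
      have e : ((q : G)⁻¹ * g) * u * ((q : G)⁻¹ * g)⁻¹ = (q : G)⁻¹ * (g * u * g⁻¹) * q := by group
      rw [e]
      exact h2
    · exact (Nat.card_congr (U.equivMapOfInjective _ (MulAut.conj _).injective).symm.toEquiv).ge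
  have hMtop : M ⊔ R = ⊤ := by
    rw [eq_top_iff]
    intro g _
    have hg : g ∈ N ⊔ R := hNR ▸ mem_top g
    obtain ⟨n, hn, r, hr, rfl⟩ := Subgroup.mem_sup_of_normal_right.1 hg
    obtain ⟨q, hq, m, hm, rfl⟩ := hNform n hn
    have e : q * m * r = m * ((m⁻¹ * q * m) * r) := by group
    rw [e]
    refine mul_mem_sup hm (mul_mem ?_ hr)
    have := hRn.conj_mem q (hQR hq) m⁻¹
    simpa using this
  have hMR : M ⊓ R ≤ U := by
    intro x hx
    obtain ⟨hxM, hxR⟩ := mem_inf.1 hx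
    obtain ⟨hxN, hxU⟩ := mem_inf.1 hxM
    obtain ⟨q, hq, u, hu, rfl⟩ := hR₁form x (mem_inf.2 ⟨hxN, hxR⟩)
    have hUnorm : ∀ u ∈ U, u ∈ normalizer (U : Set G) := fun u hu => le_normalizer hu
    have hqU : q ∈ normalizer (U : Set G) := by
      have : q = (q * u) * u⁻¹ := by group
      rw [this]
      exact mul_mem hxU (inv_mem (hUnorm u hu))
    have hq1 : q = 1 := by
      apply hfix q hq
      intro u' hu'
      have h1 : q * u' * q⁻¹ ∈ U := (Subgroup.mem_normalizer_iff.1 hqU u').1 hu'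
      have h2 : q * u' * q⁻¹ * u'⁻¹ ∈ U := mul_mem h1 (inv_mem hu')
      have h3 : q * u' * q⁻¹ * u'⁻¹ ∈ Q := by
        have hu'N : u' ∈ N := (mem_inf.1 (hUR₁ hu')).1
        have h4 := (Subgroup.mem_normalizer_iff.1 hu'N q⁻¹).1 (inv_mem hq)
        have e : q * u' * q⁻¹ * u'⁻¹ = q * (u' * q⁻¹ * u'⁻¹) := by group
        rw [e]
        exact mul_mem hq h4
      have h5 := hQUdisj _ h3 h2
      have h6 := mul_inv_eq_one.1 h5
      exact mul_inv_eq_iff_eq_mul.1 h6
    rw [hq1, one_mul]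
    exact hu
  -- the complement
  let L' : Sylow p M := default
  let K : Subgroup G := (L' : Subgroup M).map M.subtype
  have hKcard : Nat.card K = Nat.card L' :=
    Nat.card_congr ((L' : Subgroup M).equivMapOfInjective M.subtype M.subtype_injective).symm.toEquiv
  obtain ⟨k, hk⟩ := IsPGroup.iff_card.1 (isPGroup_quotient_pResidual (p := p) (G := G))
  have hRidx : R.index = p ^ k := hk
  have hMcard : Nat.card M = Nat.card ↥(M ⊓ R) * p ^ k := by
    have h1 := card_mul_relIndex' (M ⊓ R) M inf_le_left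
    have h2 : (M ⊓ R).relIndex M = R.relIndex M := by
      rw [inf_comm]
      exact Subgroup.inf_relIndex_right _ _
    have h3 : R.relIndex M = R.relIndex (M ⊔ R) := (Subgroup.relIndex_sup_right M R).symm
    rw [h2, h3, hMtop, Subgroup.relIndex_top_right, hRidx] at h1
    exact h1.symm
  have hcopMR : Nat.Coprime (Nat.card ↥(M ⊓ R)) p :=
    Nat.Coprime.coprime_dvd_left (Subgroup.card_dvd_of_le hMR) hUcop
  have hL'card : Nat.card L' = p ^ k := by
    rw [L'.card_eq_multiplicity, hMcard, Nat.factorization_mul Nat.card_pos.ne' (pow_pos hp.out.pos k).ne',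
      Finsupp.add_apply, hp.out.factorization_pow, Finsupp.single_eq_same,
      Nat.factorization_eq_zero_of_not_dvd ((Nat.Prime.coprime_iff_not_dvd hp.out).1 hcopMR.symm), zero_add]
  refine ⟨K, Subgroup.isComplement'_of_card_mul_and_disjoint ?_ ?_⟩
  · rw [hKcard, hL'card, ← hRidx, mul_comm]
    exact Subgroup.card_mul_index R
  · rw [disjoint_iff, eq_bot_iff]
    intro x hx
    obtain ⟨⟨y, hy, rfl⟩, hxR⟩ := mem_inf.1 hx
    have hyU : (y : G) ∈ U := hMR (mem_inf.2 ⟨y.2, hxR⟩)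
    have h1 := Subgroup.orderOf_dvd_natCard U hyU
    obtain ⟨j, hj⟩ := IsPGroup.iff_orderOf.1 L'.2 ⟨y, hy⟩
    have hj' : orderOf (y : G) = p ^ j := by
      rw [← hj, Subgroup.orderOf_mk, Subgroup.orderOf_coe]
    rw [mem_bot]
    have h2 : orderOf (y : G) = 1 :=
      Nat.Coprime.eq_one_of_dvd (Nat.Coprime.coprime_dvd_left h1 (hUcop.pow_right j)) (by rw [hj'])
    exact orderOf_eq_one_iff.1 h2

end Cfsg.Agent.Lib.PSplit
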