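import Cfsg.Agent.Lib.PermChain2
/-!
Permutation chains: elements fixing the base are trivial; permutations acting on two blocks.
-/
set_option autoImplicit false
set_option linter.unusedSimpArgs false
set_option linter.unusedVariables false
set_option linter.style.haveILetI false

namespace Cfsg.Agent.Lib.PermChain3
open Cfsg.Agent.Lib.PChain Cfsg.Agent.Lib.PermChain Cfsg.Agent.Lib.PermChain2

section chain
variable {D : PD}

theorem pv_mul' {N : ℕ} (g h : Equiv.Perm (Fin N)) {b : ℕ} (hb : b < N) : pv (g * h) b = pv h (pv g b) := by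
  have h1 : pv g b < N := by simp [pv, hb]
  simp only [pv, dif_pos hb, dif_pos h1, mul_inv_rev, Equiv.Perm.coe_mul, Function.comp_apply]
  simp

theorem pv_one {N : ℕ} (b : ℕ) : pv (1 : Equiv.Perm (Fin N)) b = b := by
  by_cases h : b < N
  · simp [pv, h]
  · simp [pv, h]

theorem pv_lt {N : ℕ} (g : Equiv.Perm (Fin N)) {b : ℕ} (hb : b < N) : pv g b < N := by
  simp [pv, hb]

theorem pv_inv {N : ℕ} (g : Equiv.Perm (Fin N)) {b : ℕ} (hb : b < N) : pv g⁻¹ (pv g b) = b := by
  rw [← pv_mul' g g⁻¹ hb, mul_inv_cancel, pv_one]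

theorem pv_inv' {N : ℕ} (g : Equiv.Perm (Fin N)) {b : ℕ} (hb : b < N) : pv g (pv g⁻¹ b) = b := by
  rw [← pv_mul' g⁻¹ g hb, inv_mul_cancel, pv_one]

theorem ext_pv {N : ℕ} {g h : Equiv.Perm (Fin N)} (e : ∀ b, b < N → pv g b = pv h b) : g = h := by
  have h1 : g⁻¹ = h⁻¹ := by
    ext p
    have := e p p.2
    simpa [pv] using this
  exact inv_inj.1 h1

/-- the root of a level is the base point -/
theorem idx_base (hC : Cert D) {j : ℕ} (hj : j < D.k) : D.idx j (lget j D.B) = D.off j := by
  have h0 : InLevel (cd D) j (D.off j) := ⟨le_rfl, off_lt hC.shape hj⟩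
  have h3 := nodeOK_spec hC.sem (levelOK_spec (hC.levels j hj) h0).1
  have h4 := h3.1
  rcases h3.2 with h5 | h5
  · have h6 : D.V (D.off j) = D.B := h5.2.2
    change D.idx j (lget j (D.V (D.off j))) = D.off j at h4
    rw [h6] at h4
    exact h4
  · have h7 := h5.1
    have h8 := h5.2.1
    exact absurd h8 (not_le.2 h7)

theorem finite_level (hC : Cert D) {j : ℕ} (hj : j ≤ D.k) : Finite (KK D j) :=
  (hC.card (r := D.k - j) (j := j) (by omega)).1

/-- an element of the chain fixing the base is trivial -/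
theorem fix_base_trivial (hC : Cert D) (hB : ∀ j, j < D.k → j < D.B.length) :
    ∀ r j, j + r = D.k → ∀ g ∈ KK D j, (∀ i, j ≤ i → i < D.k → pv g (lget i D.B) = lget i D.B) → g = 1 := by
  intro r
  induction r with
  | zero =>
    intro j hj g hg _
    have : j = D.k := by omega
    subst this
    have h1 : KK D D.k = ⊥ := K_top hC.sem
    rw [h1] at hg
    simpa using hg
  | succ r ih =>
    intro j hj g hg hfix
    have hj2 : j < D.k := by omega
    haveI := finite_level hC (j := j + 1) (by omega)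
    have h1 : g ∈ KK D (j + 1) := by
      refine mem_next hC.sem hC.checked hj2 hg ?_
      show D.idx j (lget j (enc D g)) = D.off j
      rw [lget_eq, getD_enc g j hC.base, if_pos (hB j hj2), ← lget_eq, hfix j le_rfl hj2]
      exact idx_base hC hj2
    exact ih (j + 1) (by omega) g h1 (fun i h2 h3 => hfix i (by omega) h3)

end chain

section block

/-- the relation between a permutation on two blocks and its two restrictions -/
def Block {n a b : ℕ} (σ : Equiv.Perm (Fin n)) (τ : Equiv.Perm (Fin a)) (ρ : Equiv.Perm (Fin b)) : Prop :=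
  (∀ p, p < a → pv σ p = pv τ p) ∧ (∀ p, p < b → pv σ (a + p) = a + pv ρ p)

/-- the group of the triples -/
def BlockG (n a b : ℕ) (hn : n = a + b) : Subgroup (Equiv.Perm (Fin n) × Equiv.Perm (Fin a) × Equiv.Perm (Fin b)) where
  carrier := {t | Block t.1 t.2.1 t.2.2}
  mul_mem' := by
    rintro ⟨σ, τ, ρ⟩ ⟨σ', τ', ρ'⟩ ⟨h1, h2⟩ ⟨h1', h2'⟩
    refine ⟨fun p hp => ?_, fun p hp => ?_⟩
    · show pv (σ * σ') p = pv (τ * τ') p
      have hpn : p < n := by omega
      rw [pv_mul' _ _ hpn, pv_mul' _ _ hp, h1 p hp, h1' _ (pv_lt τ hp)]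
    · show pv (σ * σ') (a + p) = a + pv (ρ * ρ') p
      have hpn : a + p < n := by omega
      rw [pv_mul' _ _ hpn, pv_mul' _ _ hp, h2 p hp, h2' _ (pv_lt ρ hp)]
  one_mem' := by
    refine ⟨fun p hp => ?_, fun p hp => ?_⟩
    · show pv 1 p = pv 1 p
      rw [pv_one, pv_one]
    · show pv 1 (a + p) = a + pv 1 p
      rw [pv_one, pv_one]
  inv_mem' := by
    rintro ⟨σ, τ, ρ⟩ ⟨h1, h2⟩
    refine ⟨fun p hp => ?_, fun p hp => ?_⟩
    · show pv σ⁻¹ p = pv τ⁻¹ p
      have hpn : p < n := by omega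
      have h3 := h1 _ (pv_lt τ⁻¹ hp)
      rw [pv_inv' τ hp] at h3
      have h4 := pv_inv σ (b := pv τ⁻¹ p) (by have := pv_lt τ⁻¹ hp; omega)
      rw [h3] at h4
      exact h4
    · show pv σ⁻¹ (a + p) = a + pv ρ⁻¹ p
      have h3 := h2 _ (pv_lt ρ⁻¹ hp)
      rw [pv_inv' ρ hp] at h3
      have h4 := pv_inv σ (b := a + pv ρ⁻¹ p) (by have := pv_lt ρ⁻¹ hp; omega)
      rw [h3] at h4
      exact h4

theorem block_one_left {n a b : ℕ} (hn : n = a + b) {τ : Equiv.Perm (Fin a)} {ρ : Equiv.Perm (Fin b)}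
    (h : Block (1 : Equiv.Perm (Fin n)) τ ρ) : τ = 1 ∧ ρ = 1 := by
  constructor
  · apply ext_pv
    intro p hp
    rw [← h.1 p hp, pv_one, pv_one]
  · apply ext_pv
    intro p hp
    have := h.2 p hp
    rw [pv_one] at this
    rw [pv_one]
    omega

end block

section triple
variable {G₁ G₂ G₃ : Type*} [Group G₁] [Group G₂] [Group G₃]

/-- the restriction of a projection to a subgroup is an isomorphism on its image -/
noncomputable def equivOfInj {G H : Type*} [Group G] [Group H] (f : G →* H) (K : Subgroup G) (L : Subgroup H)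
    (hinj : ∀ g ∈ K, f g = 1 → g = 1) (hmap : K.map f = L) : K ≃* L := by
  have h1 : Function.Injective (f.comp K.subtype) := by
    rw [injective_iff_map_eq_one]
    intro g hg
    exact Subtype.ext (hinj g.1 g.2 hg)
  have h2 : (f.comp K.subtype).range = L := by
    rw [← hmap, MonoidHom.range_comp, Subgroup.range_subtype]
  exact (MonoidHom.ofInjective h1).trans (MulEquiv.subgroupCongr h2)

end triple

end Cfsg.Agent.Lib.PermChain3
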