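import Cfsg.Agent.Lib.PermChain3
/-!
Permutation chains: faithfulness on a base from an invariant graph given by its rows, the invariance being checked
through delta swap networks.
-/
set_option autoImplicit false
set_option linter.unusedSimpArgs false
set_option linter.unusedVariables false
set_option linter.style.haveILetI false

namespace Cfsg.Agent.Lib.PermChain4
open Cfsg.Agent.Lib.PChain Cfsg.Agent.Lib.PermChain Cfsg.Agent.Lib.PermChain2 Cfsg.Agent.Lib.PermChain3

/-- a swap of the bits at `i` and `i + s`, for the bits `i` of the mask -/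
noncomputable def dswap (s m x : ℕ) : ℕ :=
  Nat.xor (Nat.xor x (Nat.land (Nat.xor x (Nat.shiftRight x s)) m))
    (Nat.shiftLeft (Nat.land (Nat.xor x (Nat.shiftRight x s)) m) s)

theorem dswap_xor (s m a b : ℕ) : dswap s m (a ^^^ b) = dswap s m a ^^^ dswap s m b := by
  apply Nat.eq_of_testBit_eq
  intro i
  show (((a ^^^ b) ^^^ ((a ^^^ b) ^^^ ((a ^^^ b) >>> s)) &&& m) ^^^ ((((a ^^^ b) ^^^ ((a ^^^ b) >>> s)) &&& m) <<< s)).testBit i =
    (((a ^^^ ((a ^^^ (a >>> s)) &&& m)) ^^^ (((a ^^^ (a >>> s)) &&& m) <<< s)) ^^^
      ((b ^^^ ((b ^^^ (b >>> s)) &&& m)) ^^^ (((b ^^^ (b >>> s)) &&& m) <<< s))).testBit i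
  simp only [Nat.testBit_xor, Nat.testBit_and, Nat.testBit_shiftRight, Nat.testBit_shiftLeft]
  by_cases h : s ≤ i
  · simp only [h, decide_true, Bool.true_and]
    cases a.testBit i <;> cases b.testBit i <;> cases a.testBit (s + i) <;> cases b.testBit (s + i) <;>
      cases a.testBit (i - s) <;> cases b.testBit (i - s) <;> cases a.testBit (s + (i - s)) <;> cases b.testBit (s + (i - s)) <;>
      cases m.testBit i <;> cases m.testBit (i - s) <;> rfl
  · simp only [h, decide_false, Bool.false_and, Bool.xor_false]
    cases a.testBit i <;> cases b.testBit i <;> cases a.testBit (s + i) <;> cases b.testBit (s + i) <;>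
      cases m.testBit i <;> rfl

theorem dswap_zero (s m : ℕ) : dswap s m 0 = 0 := by
  apply Nat.eq_of_testBit_eq
  intro i
  show ((0 ^^^ ((0 ^^^ (0 >>> s)) &&& m)) ^^^ (((0 ^^^ (0 >>> s)) &&& m) <<< s)).testBit i = _
  simp

/-- the network -/
noncomputable def netF (l : List (ℕ × ℕ)) (x : ℕ) : ℕ :=
  List.rec (motive := fun _ => ℕ → ℕ) (fun x => x) (fun a _ ih x => ih (dswap (Prod.fst a) (Prod.snd a) x)) l x

theorem netF_xor (l : List (ℕ × ℕ)) (a b : ℕ) : netF l (a ^^^ b) = netF l a ^^^ netF l b := by
  induction l generalizing a b with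
  | nil => rfl
  | cons c l ih =>
    show netF l (dswap c.1 c.2 (a ^^^ b)) = netF l (dswap c.1 c.2 a) ^^^ netF l (dswap c.1 c.2 b)
    rw [dswap_xor, ih]

theorem netF_zero (l : List (ℕ × ℕ)) : netF l 0 = 0 := by
  induction l with
  | nil => rfl
  | cons c l ih =>
    show netF l (dswap c.1 c.2 0) = 0
    rw [dswap_zero, ih]

/-- the bits of the image under a network acting on the bits by a map -/
theorem testBit_linear {f g : ℕ → ℕ} (hx : ∀ a b, f (a ^^^ b) = f a ^^^ f b) (h0 : f 0 = 0) {N : ℕ}
    (hinj : ∀ p q, p < N → q < N → g p = g q → p = q)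
    (hb : ∀ q, q < N → f (2 ^ q) = 2 ^ g q) :
    ∀ n, n ≤ N → ∀ r, r < 2 ^ n → ∀ t, (f r).testBit t = true ↔ ∃ q, q < n ∧ r.testBit q = true ∧ g q = t := by
  intro n
  induction n with
  | zero =>
    intro _ r hr t
    have : r = 0 := by simpa using hr
    subst this
    simp [h0]
  | succ n ih =>
    intro hn r hr t
    have hn' : n ≤ N := by omega
    have hnN : n < N := by omega
    have hr1 : r % 2 ^ n < 2 ^ n := Nat.mod_lt _ (by positivity)
    by_cases hbit : r.testBit n = true
    · have hdec : r = (r % 2 ^ n) ^^^ 2 ^ n := by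
        apply Nat.eq_of_testBit_eq
        intro i
        rw [Nat.testBit_xor, Nat.testBit_mod_two_pow, Nat.testBit_two_pow]
        by_cases h1 : i < n
        · have h2 : n ≠ i := by omega
          simp [h1, h2]
        · by_cases h2 : i = n
          · subst h2
            simp [hbit]
          · have h3 : n ≠ i := fun h => h2 h.symm
            have h4 : n + 1 ≤ i := by omega
            have h5 : r.testBit i = false := by
              apply Nat.testBit_lt_two_pow
              exact lt_of_lt_of_le hr (Nat.pow_le_pow_right (by norm_num) h4)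
            simp [h1, h3, h5]
      have hfr : f r = f (r % 2 ^ n) ^^^ 2 ^ g n := by
        conv_lhs => rw [hdec]
        rw [hx, hb n hnN]
      rw [hfr, Nat.testBit_xor, Nat.testBit_two_pow]
      have hI := ih hn' _ hr1 t
      constructor
      · intro h
        by_cases hgn : g n = t
        · exact ⟨n, by omega, hbit, hgn⟩
        · have h1 : (f (r % 2 ^ n)).testBit t = true := by
            simpa [hgn] using h
          obtain ⟨q, hq, hq2, hq3⟩ := hI.1 h1
          rw [Nat.testBit_mod_two_pow] at hq2
          simp only [Bool.and_eq_true, decide_eq_true_eq] at hq2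
          exact ⟨q, by omega, hq2.2, hq3⟩
      · rintro ⟨q, hq, hq2, hq3⟩
        by_cases hqn : q = n
        · subst hqn
          have hnot : (f (r % 2 ^ q)).testBit t = false := by
            rw [← Bool.not_eq_true, hI]
            rintro ⟨q', hq', _, hq3'⟩
            have := hinj q' q (by omega) hnN (hq3'.trans hq3.symm)
            omega
          simp [hnot, hq3]
        · have hlt : q < n := by omega
          have h1 : (f (r % 2 ^ n)).testBit t = true := by
            rw [hI]
            refine ⟨q, hlt, ?_, hq3⟩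
            rw [Nat.testBit_mod_two_pow]
            simp [hlt, hq2]
          have h2 : g n ≠ t := by
            intro h
            have := hinj q n (by omega) hnN (hq3.trans h.symm)
            omega
          simp [h1, h2]
    · have hbit' : r.testBit n = false := by simpa using hbit
      have hdec : r = r % 2 ^ n := by
        apply Nat.eq_of_testBit_eq
        intro i
        rw [Nat.testBit_mod_two_pow]
        by_cases h1 : i < n
        · simp [h1]
        · by_cases h2 : i = n
          · subst h2
            simp [hbit']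
          · have h4 : n + 1 ≤ i := by omega
            have h5 : r.testBit i = false := by
              apply Nat.testBit_lt_two_pow
              exact lt_of_lt_of_le hr (Nat.pow_le_pow_right (by norm_num) h4)
            simp [h1, h5]
      rw [hdec]
      have hI := ih hn' _ hr1 t
      rw [hI]
      constructor
      · rintro ⟨q, hq, hq2, hq3⟩
        exact ⟨q, by omega, hq2, hq3⟩
      · rintro ⟨q, hq, hq2, hq3⟩
        have hqn : q ≠ n := by
          rintro rfl
          rw [Nat.testBit_mod_two_pow] at hq2
          simp at hq2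
        exact ⟨q, by omega, hq2, hq3⟩

/-- the data of a graph given by its rows, and of a derivation of the points from the base -/
structure GB where
  /-- the rows -/
  rw : ℕ → ℕ
  /-- the networks of the letters -/
  net : ℕ → List (ℕ × ℕ)
  /-- the number of invariant sets -/
  nS : ℕ
  /-- the invariant sets, as masks -/
  st : ℕ → ℕ
  /-- a set of points, of which the neighbours form an invariant set -/
  pts : ℕ → List ℕ
  /-- its derivation from the previous invariant sets -/
  dgs : ℕ → List ℕ
  /-- the derivation of the singletons -/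
  der : ℕ → List ℕ

/-- a letter preserves the graph -/
noncomputable def presY (D : PD) (E : GB) (x v : ℕ) : Bool :=
  band(Nat.beq (Nat.shiftRight (E.rw v) D.N) 0, Nat.beq (netF (E.net x) (E.rw v)) (E.rw (letter D x v)))

/-- the network of a letter acts by the letter on the bits -/
noncomputable def bitY (D : PD) (E : GB) (x q : ℕ) : Bool :=
  Nat.beq (netF (E.net x) (Nat.shiftLeft 1 q)) (Nat.shiftLeft 1 (letter D x q))

/-- an invariant set or its complement -/
noncomputable def sel (N : ℕ) (E : GB) (d : ℕ) : ℕ :=
  Nat.xor (E.st (Nat.shiftRight d 1)) (Nat.mul (Nat.land d 1) (allOnes N))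

/-- the intersection of sets and of complements -/
noncomputable def foldD (N : ℕ) (E : GB) (l : List ℕ) : ℕ :=
  List.rec (motive := fun _ => ℕ) (allOnes N) (fun d _ ih => Nat.land ih (sel N E d)) l

/-- the neighbours of a list of points -/
noncomputable def orRows (E : GB) (l : List ℕ) : ℕ :=
  List.rec (motive := fun _ => ℕ) 0 (fun y _ ih => Nat.lor ih (E.rw y)) l

/-- the check of an invariant set -/
noncomputable def setY (D : PD) (E : GB) (e : ℕ) : Bool :=
  Bool.rec (motive := fun _ => Bool)
    (band(digOK e (E.dgs e), band(Nat.beq (foldD D.N E (E.dgs e)) (maskL (E.pts e)), Nat.beq (E.st e) (orRows E (E.pts e)))))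
    (Nat.beq (E.st e) (Nat.shiftLeft 1 (lget e D.B)))
    (Nat.blt e D.B.length)

/-- the check of a point -/
noncomputable def pointY (D : PD) (E : GB) (x : ℕ) : Bool :=
  band(digOK E.nS (E.der x), Nat.beq (foldD D.N E (E.der x)) (Nat.shiftLeft 1 x))

/-- the subgroup preserving the graph -/
def presB (N : ℕ) (E : GB) : Subgroup (Equiv.Perm (Fin N)) where
  carrier := {τ | ∀ v, v < N → ∀ q, q < N → (E.rw v).testBit q = true → (E.rw (tn τ v)).testBit (tn τ q) = true}
  mul_mem' := by
    intro σ τ hσ hτ v hv q hq h
    rw [tn_mul, tn_mul]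
    exact hσ _ (tn_lt τ hv) _ (tn_lt τ hq) (hτ v hv q hq h)
  one_mem' := by
    intro v hv q hq h
    rw [tn_one, tn_one]
    exact h
  inv_mem' := by
    intro τ hτ
    have hpow : ∀ n : ℕ, τ ^ n ∈ {τ : Equiv.Perm (Fin N) | ∀ v, v < N → ∀ q, q < N → (E.rw v).testBit q = true → (E.rw (tn τ v)).testBit (tn τ q) = true} := by
      intro n
      induction n with
      | zero =>
        intro v hv q hq h
        rw [pow_zero, tn_one, tn_one]
        exact h
      | succ n ih =>
        intro v hv q hq h
        rw [pow_succ, tn_mul, tn_mul]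
        exact ih _ (tn_lt τ hv) _ (tn_lt τ hq) (hτ v hv q hq h)
    have h1 : τ⁻¹ = τ ^ (orderOf τ - 1) := by
      have h2 : 0 < orderOf τ := orderOf_pos τ
      rw [inv_eq_iff_mul_eq_one, ← pow_succ']
      rw [show orderOf τ - 1 + 1 = orderOf τ by omega]
      exact pow_orderOf_eq_one τ
    rw [h1]
    exact hpow _

theorem inv_gp_pres {D : PD} {E : GB} (hL : lettersOK D) {x : ℕ} (h : RangeOK (presY D E x) 0 D.N)
    (hb : RangeOK (bitY D E x) 0 D.N) : (gp D x)⁻¹ ∈ presB D.N E := by
  intro v hv q hq hbit
  have htn : ∀ p, p < D.N → tn (gp D x)⁻¹ p = letter D x p := by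
    intro p hp
    simp only [tn, dif_pos hp]
    exact gp_inv_apply hL x ⟨p, hp⟩
  rw [htn v hv, htn q hq]
  have h1 := h v (Nat.zero_le _) hv
  simp only [presY, band_eq, Bool.and_eq_true, Nat.beq_eq] at h1
  rw [← h1.2]
  have hlt : E.rw v < 2 ^ D.N := by
    have h2 : E.rw v >>> D.N = 0 := h1.1
    rw [Nat.shiftRight_eq_div_pow] at h2
    exact (Nat.div_eq_zero_iff_lt (by positivity)).1 h2
  have hinj : ∀ p q, p < D.N → q < D.N → letter D x p = letter D x q → p = q := by
    intro p q hp hq he
    have h2 := letter_invW hL x hp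
    rw [he, letter_invW hL x hq] at h2
    exact h2.symm
  have hbits : ∀ q, q < D.N → netF (E.net x) (2 ^ q) = 2 ^ letter D x q := by
    intro q hq
    have h2 := hb q (Nat.zero_le _) hq
    simp only [bitY, Nat.beq_eq] at h2
    have e : ∀ a, Nat.shiftLeft 1 a = 2 ^ a := fun a => Nat.one_shiftLeft a
    rw [e, e] at h2
    exact h2
  exact (testBit_linear (netF_xor _) (netF_zero _) hinj hbits D.N le_rfl _ hlt _).2 ⟨q, hq, hbit, rfl⟩

/-- the checks for the graph -/
structure GCertB (D : PD) (E : GB) : Prop where
  pres : ∀ x, D.lt 0 ≤ x → x < D.lt 1 → RangeOK (presY D E x) 0 D.N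
  bits : ∀ x, D.lt 0 ≤ x → x < D.lt 1 → RangeOK (bitY D E x) 0 D.N
  sets : RangeOK (setY D E) 0 E.nS
  points : RangeOK (pointY D E) 0 D.N

theorem KK_le_pres {D : PD} {E : GB} (hL : lettersOK D) (hG : GCertB D E) : KK D 0 ≤ presB D.N E := by
  refine (Subgroup.closure_le _).2 ?_
  rintro _ ⟨x, ⟨h1, h2⟩, rfl⟩
  have h3 := inv_gp_pres hL (hG.pres x h1 h2) (hG.bits x h1 h2)
  have h4 := (presB D.N E).inv_mem h3
  simpa using h4

section rigid
variable {D : PD} {E : GB}

/-- the group of the elements preserving the graph and fixing the base -/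
def FixB (D : PD) (E : GB) (τ : Equiv.Perm (Fin D.N)) : Prop := τ ∈ presB D.N E ∧ ∀ b ∈ D.B, tn τ b = b

theorem FixB.inv {τ : Equiv.Perm (Fin D.N)} (h : FixB D E τ) : FixB D E τ⁻¹ := by
  refine ⟨inv_mem h.1, fun b hb => ?_⟩
  have := tn_inv_tn τ b
  rw [h.2 b hb] at this
  exact this

/-- a mask is invariant -/
def InvM (D : PD) (E : GB) (m : ℕ) : Prop :=
  ∀ τ, FixB D E τ → ∀ p, p < D.N → m.testBit (tn τ p) = m.testBit p

theorem InvM.of_forward {m : ℕ}
    (h : ∀ τ, FixB D E τ → ∀ p, p < D.N → m.testBit p = true → m.testBit (tn τ p) = true) : InvM D E m := by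
  intro τ hτ p hp
  cases h1 : m.testBit p with
  | true => exact h τ hτ p hp h1
  | false =>
    by_contra h2
    have h3 : m.testBit (tn τ p) = true := by
      cases h4 : m.testBit (tn τ p) with
      | true => rfl
      | false => exact absurd h4 h2
    have h4 := h τ⁻¹ hτ.inv _ (tn_lt τ hp) h3
    rw [tn_inv_tn, h1] at h4
    cases h4

theorem invM_allOnes : InvM D E (allOnes D.N) := by
  intro τ hτ p hp
  rw [testBit_allOnes, testBit_allOnes]
  simp [hp, tn_lt τ hp]

theorem InvM.land {m n : ℕ} (h1 : InvM D E m) (h2 : InvM D E n) : InvM D E (Nat.land m n) := by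
  intro τ hτ p hp
  show (m &&& n).testBit _ = (m &&& n).testBit _
  rw [Nat.testBit_and, Nat.testBit_and, h1 τ hτ p hp, h2 τ hτ p hp]

theorem InvM.xor {m n : ℕ} (h1 : InvM D E m) (h2 : InvM D E n) : InvM D E (Nat.xor m n) := by
  intro τ hτ p hp
  show (m ^^^ n).testBit _ = (m ^^^ n).testBit _
  rw [Nat.testBit_xor, Nat.testBit_xor, h1 τ hτ p hp, h2 τ hτ p hp]

theorem invM_zero : InvM D E 0 := by
  intro τ hτ p hp
  simp

theorem invM_sel {d : ℕ} (h : InvM D E (E.st (Nat.shiftRight d 1))) : InvM D E (sel D.N E d) := by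
  unfold sel
  refine InvM.xor h ?_
  have h1 : Nat.land d 1 = 0 ∨ Nat.land d 1 = 1 := by
    have : d &&& 1 = d % 2 := Nat.and_one_is_mod d
    show d &&& 1 = 0 ∨ d &&& 1 = 1
    omega
  rcases h1 with h1 | h1
  · rw [h1]
    simpa using invM_zero
  · rw [h1]
    simpa using invM_allOnes

theorem invM_foldD {e : ℕ} (he : ∀ i, i < e → InvM D E (E.st i)) :
    ∀ l : List ℕ, digOK e l = true → InvM D E (foldD D.N E l) := by
  intro l
  induction l with
  | nil => intro _; exact invM_allOnes
  | cons d l ih =>
    intro h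
    rw [digOK_cons] at h
    exact InvM.land (ih h.2) (invM_sel (he _ h.1))

theorem foldD_lt (N : ℕ) (E : GB) : ∀ (l : List ℕ) (y : ℕ), (foldD N E l).testBit y = true → y < N := by
  intro l
  induction l with
  | nil =>
    intro y h
    have h1 : (allOnes N).testBit y = true := h
    rw [testBit_allOnes] at h1
    simpa using h1
  | cons d l ih =>
    intro y h
    have h1 : (Nat.land (foldD N E l) (sel N E d)).testBit y = true := h
    have h2 : (foldD N E l &&& sel N E d).testBit y = true := h1
    rw [Nat.testBit_and, Bool.and_eq_true] at h2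
    exact ih y h2.1

theorem testBit_orRows (l : List ℕ) (q : ℕ) :
    (orRows E l).testBit q = true ↔ ∃ y ∈ l, (E.rw y).testBit q = true := by
  induction l with
  | nil =>
    have h : orRows E [] = 0 := rfl
    simp [h]
  | cons a l ih =>
    have h1 : orRows E (a :: l) = orRows E l ||| E.rw a := rfl
    rw [h1, Nat.testBit_or, Bool.or_eq_true, ih]
    simp only [List.mem_cons, exists_eq_or_imp]
    exact or_comm

/-- all the invariant sets are invariant -/
theorem invM_st (hG : GCertB D E) : ∀ e, e < E.nS → InvM D E (E.st e) := by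
  intro e
  induction e using Nat.strong_induction_on with
  | _ e ih =>
    intro he
    have h1 := hG.sets e (Nat.zero_le _) he
    unfold setY at h1
    by_cases hb : e < D.B.length
    · have h2 : Nat.blt e D.B.length = true := by simp [Nat.blt_eq, hb]
      simp only [h2, Nat.beq_eq] at h1
      rw [h1]
      intro τ hτ p hp
      have hmem : lget e D.B ∈ D.B := by
        rw [lget_eq]
        simp [List.getD, hb]
      have hfix := hτ.2 _ hmem
      have e1 : Nat.shiftLeft 1 (lget e D.B) = 2 ^ (lget e D.B) := Nat.one_shiftLeft _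
      rw [e1, Nat.testBit_two_pow, Nat.testBit_two_pow]
      by_cases h3 : lget e D.B = p
      · rw [← h3, hfix]
      · have h4 : lget e D.B ≠ tn τ p := by
          intro h5
          rw [← hfix] at h5
          exact h3 (tn_inj τ h5)
        simp [h3, h4]
    · have h2 : Nat.blt e D.B.length = false := by
        rw [← Bool.not_eq_true, Nat.blt_eq]
        exact hb
      simp only [h2, band_eq, Bool.and_eq_true, Nat.beq_eq] at h1
      obtain ⟨h3, h4, h5⟩ := h1
      have hC := invM_foldD (fun i hi => ih i hi (by omega)) _ h3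
      rw [h5]
      apply InvM.of_forward
      intro τ hτ p hp hbit
      obtain ⟨y, hy, hy2⟩ := (testBit_orRows _ _).1 hbit
      have hy3 : (foldD D.N E (E.dgs e)).testBit y = true := by
        rw [h4]
        exact (testBit_maskL _ _).2 hy
      have hyN := foldD_lt _ _ _ _ hy3
      have hy4 := hC τ hτ y hyN
      rw [hy3, h4] at hy4
      refine (testBit_orRows _ _).2 ⟨tn τ y, (testBit_maskL _ _).1 hy4, ?_⟩
      exact hτ.1 y hyN p hp hy2

/-- the elements fixing the base fix everything -/
theorem fix_all (hG : GCertB D E) {τ : Equiv.Perm (Fin D.N)} (hτ : FixB D E τ) : ∀ x, x < D.N → tn τ x = x := by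
  intro x hx
  have h1 := hG.points x (Nat.zero_le _) hx
  unfold pointY at h1
  rw [band_eq, Bool.and_eq_true, Nat.beq_eq] at h1
  have h2 := invM_foldD (fun i hi => invM_st hG i hi) _ h1.1
  have h3 := h2 τ hτ x hx
  have e1 : Nat.shiftLeft 1 x = 2 ^ x := Nat.one_shiftLeft _
  rw [h1.2, e1, Nat.testBit_two_pow, Nat.testBit_two_pow] at h3
  simp only [decide_true, decide_eq_true_eq] at h3
  exact h3.symm

end rigid

/-- faithfulness on the base from the derivation -/
theorem faith_of_graph {D : PD} {E : GB} (hL : lettersOK D) (hB : baseOK D = true) (hG : GCertB D E) :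
    ∀ g ∈ KK D 0, enc D g = D.B → g = 1 := by
  intro g hg he
  have hτ : g⁻¹ ∈ presB D.N E := KK_le_pres hL hG (inv_mem hg)
  have hfix : ∀ b ∈ D.B, tn g⁻¹ b = b := by
    intro b hb
    have h2 : ∀ (l : List ℕ), b ∈ l → l.map (pv g) = l → pv g b = b := by
      intro l
      induction l with
      | nil => simp
      | cons a l ih =>
        intro h3 h4
        simp only [List.map_cons, List.cons.injEq] at h4
        rcases List.mem_cons.1 h3 with h5 | h5
        · rw [h5]; exact h4.1
        · exact ih h5 h4.2
    exact h2 D.B hb he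
  have h2 : ∀ x, x < D.N → tn g⁻¹ x = x := fix_all hG ⟨hτ, hfix⟩
  have h3 : g⁻¹ = 1 := by
    ext p
    have := h2 p p.2
    simpa [tn] using this
  simpa using h3


end Cfsg.Agent.Lib.PermChain4
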