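import Mathlib

/-! Modular tools for permutation modules: fixed vectors of `p`-groups, transitivity of Sylow
subgroups in `p`-power degree. -/

set_option autoImplicit false

namespace Cfsg.Agent.Lib.PermMod

open MulAction

/-- A finite `p`-group acting additively on a group of exponent `p` has a nonzero fixed vector in
the additive span of the orbit of any nonzero vector. -/
theorem exists_fixed_of_pgroup {P : Type*} [Group P] [Finite P] {p : ℕ} [Fact p.Prime] (hP : IsPGroup p P)
    {V : Type*} [AddCommGroup V] (hp : ∀ x : V, p • x = 0) (ρ : P →* AddMonoid.End V) (v₀ : V) (hv₀ : v₀ ≠ 0) :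
    ∃ v, v ∈ AddSubgroup.closure (Set.range fun g : P => ρ g v₀) ∧ v ≠ 0 ∧ ∀ g : P, ρ g v = v := by
  classical
  set A := AddSubgroup.closure (Set.range fun g : P => ρ g v₀) with hA
  have hinv : ∀ (g : P) (x : V), x ∈ A → ρ g x ∈ A := by
    intro g x hx
    induction hx using AddSubgroup.closure_induction with
    | mem y hy =>
      obtain ⟨h, rfl⟩ := hy
      apply AddSubgroup.subset_closure
      refine ⟨g * h, ?_⟩
      simp [map_mul]
    | zero => simp [A.zero_mem]
    | add y z _ _ hy hz => rw [map_add]; exact A.add_mem hy hz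
    | neg y _ hy => rw [map_neg]; exact A.neg_mem hy
  have hfg : AddGroup.FG A := by
    rw [AddGroup.fg_iff_addSubgroup_fg, hA]
    exact ⟨(Set.finite_range (fun g : P => ρ g v₀)).toFinset, by rw [Set.Finite.coe_toFinset]⟩
  have htors : IsAddTorsion A := by
    intro x
    rw [isOfFinAddOrder_iff_nsmul_eq_zero]
    exact ⟨p, (Fact.out : p.Prime).pos, Subtype.ext (hp x.1)⟩
  have hfin : Finite A := AddCommGroup.finite_of_fg_isAddTorsion A htors
  letI act : MulAction P A :=
    { smul := fun g x => ⟨ρ g x.1, hinv g x.1 x.2⟩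
      one_smul := fun x => Subtype.ext (by show ρ 1 x.1 = x.1; simp)
      mul_smul := fun g h x => Subtype.ext (by show ρ (g * h) x.1 = ρ g (ρ h x.1); simp [map_mul]) }
  have hv₀A : v₀ ∈ A := by
    apply AddSubgroup.subset_closure
    exact ⟨1, by simp⟩
  have hdvd : p ∣ Nat.card A := by
    have h1 : addOrderOf (⟨v₀, hv₀A⟩ : A) = p := by
      apply addOrderOf_eq_prime
      · exact Subtype.ext (hp v₀)
      · intro e; exact hv₀ (congrArg Subtype.val e)
    rw [← h1]
    exact addOrderOf_dvd_natCard _
  have h0 : (0 : A) ∈ fixedPoints P A := by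
    intro g
    exact Subtype.ext (by show ρ g 0 = 0; simp)
  obtain ⟨b, hb, hne⟩ := hP.exists_fixed_point_of_prime_dvd_card_of_fixed_point A hdvd h0
  refine ⟨b.1, b.2, fun e => hne (Subtype.ext e.symm), fun g => ?_⟩
  exact congrArg Subtype.val (hb g)

/-- A Sylow `p`-subgroup of a transitive group of `p`-power degree is transitive. -/
theorem sylow_transitive {G Ω : Type*} [Group G] [Finite G] [MulAction G Ω] [Finite Ω] [IsPretransitive G Ω]
    {p f : ℕ} [hp : Fact p.Prime] (hcard : Nat.card Ω = p ^ f) (S : Sylow p G) :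
    IsPretransitive S Ω := by
  classical
  have horb : ∀ a : Ω, orbit S a = Set.univ := by
    intro a
    have h1 : Nat.card (orbit S a) * Nat.card (stabilizer S a) = Nat.card S := by
      rw [← Nat.card_prod, Nat.card_congr (orbitProdStabilizerEquivGroup S a)]
    have h2 : Nat.card (orbit G a) * Nat.card (stabilizer G a) = Nat.card G := by
      rw [← Nat.card_prod, Nat.card_congr (orbitProdStabilizerEquivGroup G a)]
    have h3 : Nat.card (orbit G a) = p ^ f := by
      rw [orbit_eq_univ, Nat.card_coe_set_eq, Set.ncard_univ, hcard]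
    rw [h3] at h2
    have hSp : IsPGroup p (stabilizer S a) := S.2.to_subgroup _
    obtain ⟨t, ht⟩ := IsPGroup.iff_card.1 hSp
    have hinj : Function.Injective (fun u : stabilizer S a => (⟨u.1.1, u.2⟩ : stabilizer G a)) := by
      intro u v e
      apply Subtype.ext
      apply Subtype.ext
      have e' : ((⟨u.1.1, u.2⟩ : stabilizer G a) : G) = ((⟨v.1.1, v.2⟩ : stabilizer G a) : G) := congrArg Subtype.val e
      exact e'
    have hdiv : p ^ t ∣ Nat.card (stabilizer G a) := by
      rw [← ht]
      let φ : stabilizer S a →* stabilizer G a :=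
        { toFun := fun u => ⟨u.1.1, u.2⟩
          map_one' := rfl
          map_mul' := fun _ _ => rfl }
      have := Subgroup.card_dvd_of_injective φ hinj
      exact this
    have hSc := S.card_eq_multiplicity
    have hGne : Nat.card G ≠ 0 := Nat.card_pos.ne'
    have hle : t + f ≤ (Nat.card G).factorization p := by
      rw [← (hp.out).pow_dvd_iff_le_factorization hGne, ← h2, add_comm, pow_add]
      exact Nat.mul_dvd_mul_left _ hdiv
    rw [ht, hSc] at h1
    have hpt : 0 < p ^ t := pow_pos hp.out.pos _
    have h4 : Nat.card (orbit S a) = p ^ ((Nat.card G).factorization p - t) := by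
      apply Nat.eq_of_mul_eq_mul_right hpt
      rw [h1, ← pow_add]
      congr 1
      omega
    have hfin : (orbit S a).Finite := Set.toFinite _
    apply Set.eq_of_subset_of_ncard_le (Set.subset_univ _)
    rw [Set.ncard_univ, hcard, ← Nat.card_coe_set_eq, h4]
    exact Nat.pow_le_pow_right hp.out.pos (by omega)
  refine ⟨fun a b => ?_⟩
  have : b ∈ orbit S a := by rw [horb]; trivial
  obtain ⟨g, hg⟩ := this
  exact ⟨g, hg⟩

end Cfsg.Agent.Lib.PermMod
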