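import Mathlib

/-! Functions on the prime field with values in a field of the same characteristic: the
translation-invariant subspaces are the spaces of polynomial functions of bounded degree. -/

set_option autoImplicit false

namespace Cfsg.Agent.Lib.PolyFunK

open Polynomial

variable {p : ℕ} [hp : Fact p.Prime] {K : Type*} [Field K] [hK : CharP K p]

/-- the embedding of the prime field. -/
noncomputable def ι : ZMod p →+* K := ZMod.castHom (dvd_refl p) K

theorem ι_apply (j : ZMod p) : (ι j : K) = ZMod.cast j := rfl

theorem ι_inj : Function.Injective (ι : ZMod p → K) := ZMod.castHom_injective _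

theorem ι_injOn : Set.InjOn (ι : ZMod p → K) (Finset.univ : Finset (ZMod p)) := ι_inj.injOn

theorem card_univ_p : (Finset.univ : Finset (ZMod p)).card = p := by
  rw [Finset.card_univ, ZMod.card]

/-- canonical polynomial of a function -/
noncomputable def rep : (ZMod p → K) →ₗ[K] K[X] := Lagrange.interpolate Finset.univ ι

theorem rep_deg (f : ZMod p → K) : (rep f).degree < p := by
  have := Lagrange.degree_interpolate_lt (s := Finset.univ) (v := (ι : ZMod p → K)) (r := f) ι_injOn
  rwa [card_univ_p] at this

theorem eval_rep (f : ZMod p → K) (j : ZMod p) : (rep f).eval (ι j) = f j :=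
  Lagrange.eval_interpolate_at_node f ι_injOn (Finset.mem_univ j)

theorem rep_eq {P : K[X]} {f : ZMod p → K} (hP : P.degree < p) (h : ∀ j, P.eval (ι j) = f j) : rep f = P :=
  (Lagrange.eq_interpolate_of_eval_eq f ι_injOn (by rwa [card_univ_p]) (fun j _ => h j)).symm

theorem rep_inj : Function.Injective (rep : (ZMod p → K) → K[X]) := by
  intro f g h
  funext j
  rw [← eval_rep f, ← eval_rep g, h]

/-- backward difference on polynomials -/
noncomputable def nab : K[X] →ₗ[K] K[X] := LinearMap.id - taylor (-1)

theorem eval_nab (P : K[X]) (y : K) : (nab P).eval y = P.eval y - P.eval (y - 1) := by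
  simp [nab, taylor_eval, sub_eq_add_neg]

theorem coeff_taylor_gen (r : K) {P : K[X]} {N : ℕ} (h : P.natDegree < N) (m : ℕ) :
    (taylor r P).coeff m = ∑ i ∈ Finset.range N, P.coeff i * (r ^ (i - m) * (i.choose m : K)) := by
  conv_lhs => rw [as_sum_range' P N h]
  rw [map_sum, finsetSum_coeff]
  refine Finset.sum_congr rfl fun i _ => ?_
  rw [taylor_monomial, coeff_C_mul, coeff_X_add_C_pow]

theorem nab_coeff_high (P : K[X]) {m : ℕ} (h : P.natDegree ≤ m) : (nab P).coeff m = 0 := by
  have h1 : (nab P).coeff m = P.coeff m - (taylor (-1 : K) P).coeff m := by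
    simp [nab]
  rw [h1, coeff_taylor_gen _ (Nat.lt_succ_of_le h) m, Finset.sum_range_succ, Finset.sum_eq_zero]
  · simp
  · intro i hi
    rw [Nat.choose_eq_zero_of_lt (Finset.mem_range.1 hi)]
    simp

theorem nab_coeff_top (P : K[X]) {m : ℕ} (h : P.natDegree ≤ m + 1) :
    (nab P).coeff m = ((m + 1 : ℕ) : K) * P.coeff (m + 1) := by
  have h1 : (nab P).coeff m = P.coeff m - (taylor (-1 : K) P).coeff m := by
    simp [nab]
  rw [h1, coeff_taylor_gen _ (Nat.lt_succ_of_le h) m, Finset.sum_range_succ, Finset.sum_range_succ, Finset.sum_eq_zero]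
  · simp
    ring
  · intro i hi
    rw [Nat.choose_eq_zero_of_lt (Finset.mem_range.1 hi)]
    simp

theorem cast_ne_zero_of_lt {n : ℕ} (h0 : 0 < n) (hn : n < p) : (n : K) ≠ 0 := by
  intro e
  have := (CharP.cast_eq_zero_iff K p n).1 e
  exact absurd (Nat.le_of_dvd h0 this) (by omega)

/-- The classification of translation invariant subspaces. -/
theorem invariant_subspace (W : Submodule K (ZMod p → K)) (hW : ∀ f ∈ W, (fun j => f (j - 1)) ∈ W) :
    ∃ r : ℕ, r ≤ p ∧ Module.finrank K W = r ∧ ∀ f : ZMod p → K, f ∈ W ↔ ∃ P : K[X], P.degree < r ∧ ∀ j : ZMod p, f j = P.eval (ι j) := by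
  classical
  let U : Submodule K K[X] := W.map rep
  have hUmem : ∀ P, P ∈ U ↔ ∃ f ∈ W, rep f = P := fun P => by
    simp [U, Submodule.mem_map]
  have hUdeg : ∀ P ∈ U, P.degree < p := by
    intro P hP
    obtain ⟨f, _, rfl⟩ := (hUmem P).1 hP
    exact rep_deg f
  have hnabU : ∀ P ∈ U, nab P ∈ U := by
    intro P hP
    obtain ⟨f, hf, rfl⟩ := (hUmem P).1 hP
    refine (hUmem _).2 ⟨fun j => f j - f (j - 1), W.sub_mem hf (hW f hf), ?_⟩
    apply rep_eq
    · rw [degree_lt_iff_coeff_zero]
      intro m hm
      apply nab_coeff_high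
      have := rep_deg f
      by_cases h0 : rep f = 0
      · rw [h0]; simp
      · have h1 := (natDegree_lt_iff_degree_lt h0).2 this
        omega
    · intro j
      rw [eval_nab, eval_rep]
      have : (ι j : K) - 1 = ι (j - 1) := by simp
      rw [this, eval_rep]
  have hex : ∃ r : ℕ, ∀ P ∈ U, P.degree < r := ⟨p, hUdeg⟩
  let r := Nat.find hex
  have hr : ∀ P ∈ U, P.degree < r := Nat.find_spec hex
  have hrp : r ≤ p := Nat.find_min' hex hUdeg
  have hall : ∀ d, d ≤ r → ∀ Q : K[X], Q.degree < d → Q ∈ U := by
    intro d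
    induction d with
    | zero =>
      intro _ Q hQ
      have : Q = 0 := by
        rw [← degree_eq_bot]
        simpa using hQ
      rw [this]
      exact U.zero_mem
    | succ d ih =>
      intro hd Q hQ
      -- an element of top degree
      have hmin : ¬ ∀ P ∈ U, P.degree < (r - 1 : ℕ) := Nat.find_min hex (by
        show r - 1 < r
        omega)
      push Not at hmin
      obtain ⟨P₀, hP₀, hP₀2⟩ := hmin
      have hP₀3 : P₀.natDegree ≤ r - 1 := by
        have h1 := hr P₀ hP₀
        by_cases h0 : P₀ = 0
        · rw [h0]; simp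
        · have := (natDegree_lt_iff_degree_lt h0).2 h1
          omega
      have hP₀4 : P₀.coeff (r - 1) ≠ 0 := by
        intro h0
        apply not_lt.2 hP₀2
        rw [degree_lt_iff_coeff_zero]
        intro m hm
        rcases Nat.eq_or_lt_of_le hm with rfl | hm'
        · exact h0
        · exact coeff_eq_zero_of_natDegree_lt (by omega)
      have hstep : ∀ k, k ≤ r - 1 → (nab^[k] P₀) ∈ U ∧ (nab^[k] P₀).natDegree ≤ r - 1 - k ∧ (nab^[k] P₀).coeff (r - 1 - k) ≠ 0 := by
        intro k
        induction k with
        | zero =>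
          intro _
          exact ⟨hP₀, hP₀3, hP₀4⟩
        | succ k ihk =>
          intro hk
          obtain ⟨h1, h2, h3⟩ := ihk (by omega)
          rw [Function.iterate_succ_apply']
          refine ⟨hnabU _ h1, ?_, ?_⟩
          · rw [natDegree_le_iff_coeff_eq_zero]
            intro m hm
            exact nab_coeff_high _ (by omega)
          · have e : r - 1 - k = (r - 1 - (k + 1)) + 1 := by omega
            rw [e] at h2 h3
            rw [nab_coeff_top _ h2]
            refine mul_ne_zero (cast_ne_zero_of_lt (by omega) (by omega)) h3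
      obtain ⟨hA1, hA2, hA3⟩ := hstep (r - 1 - d) (by omega)
      have e : r - 1 - (r - 1 - d) = d := by omega
      rw [e] at hA2 hA3
      set A := nab^[r - 1 - d] P₀ with hA
      set a := Q.coeff d / A.coeff d with ha
      have hR : (Q - a • A).degree < d := by
        rw [degree_lt_iff_coeff_zero]
        intro m hm
        rw [coeff_sub, coeff_smul, smul_eq_mul]
        rcases Nat.eq_or_lt_of_le hm with rfl | hm'
        · rw [ha]
          field_simp
          ring
        · have h1 : Q.coeff m = 0 := by
            rw [degree_lt_iff_coeff_zero] at hQ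
            exact hQ m (by omega)
          have h2 : A.coeff m = 0 := coeff_eq_zero_of_natDegree_lt (by omega)
          rw [h1, h2]
          simp
      have hRU := ih (by omega) _ hR
      have : Q = (Q - a • A) + a • A := by abel
      rw [this]
      exact U.add_mem hRU (U.smul_mem _ hA1)
  have hUeq : U = degreeLT K r := by
    ext P
    rw [mem_degreeLT]
    exact ⟨hr P, hall r le_rfl P⟩
  refine ⟨r, hrp, ?_, ?_⟩
  · have h1 := (Submodule.equivMapOfInjective rep rep_inj W).finrank_eq
    rw [h1]
    show Module.finrank K U = r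
    rw [hUeq, (degreeLTEquiv K r).finrank_eq, Module.finrank_fin_fun]
  · intro f
    constructor
    · intro hf
      have hm : rep f ∈ U := (hUmem _).2 ⟨f, hf, rfl⟩
      exact ⟨rep f, hr _ hm, fun j => (eval_rep f j).symm⟩
    · rintro ⟨P, hP, hPf⟩
      have hm : P ∈ U := hall r le_rfl P hP
      obtain ⟨f₁, hf₁, hf₁2⟩ := (hUmem _).1 hm
      have hdeg : P.degree < p := hUdeg P hm
      have h2 : rep f = P := rep_eq hdeg (fun j => (hPf j).symm)
      have : f = f₁ := rep_inj (h2.trans hf₁2.symm)
      rw [this]
      exact hf₁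

end Cfsg.Agent.Lib.PolyFunK
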