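import Mathlib

set_option autoImplicit false

namespace Cfsg.Agent.Lib.ProjLine

open Matrix Projectivization
open scoped MatrixGroups LinearAlgebra.Projectivization

variable {F : Type*} [Field F]

/-- Basis vectors of `F²`. -/
def e0 : Fin 2 → F := ![1, 0]
def e1 : Fin 2 → F := ![0, 1]
def e2 : Fin 2 → F := ![1, 1]

theorem e0_ne : (e0 : Fin 2 → F) ≠ 0 := by
  intro h; have := congrFun h 0; simp [e0] at this
theorem e1_ne : (e1 : Fin 2 → F) ≠ 0 := by
  intro h; have := congrFun h 1; simp [e1] at this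
theorem e2_ne : (e2 : Fin 2 → F) ≠ 0 := by
  intro h; have := congrFun h 1; simp [e2] at this

noncomputable def P0 : ℙ F (Fin 2 → F) := mk F e0 e0_ne
noncomputable def P1 : ℙ F (Fin 2 → F) := mk F e1 e1_ne
noncomputable def P2 : ℙ F (Fin 2 → F) := mk F e2 e2_ne

/-- `det(u,v)=0` implies same projective point. -/
theorem mk_eq_of_det_zero {u v : Fin 2 → F} (hu : u ≠ 0) (hv : v ≠ 0)
    (h : u 0 * v 1 - u 1 * v 0 = 0) : mk F u hu = mk F v hv := by
  rw [mk_eq_mk_iff']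
  by_cases hv0 : v 0 = 0
  · have hv1 : v 1 ≠ 0 := by
      intro h1
      apply hv
      ext i
      fin_cases i
      · simpa using hv0
      · simpa using h1
    have hu0 : u 0 = 0 := by
      have : u 0 * v 1 = 0 := by rw [hv0, mul_zero, sub_zero] at h; exact h
      rcases mul_eq_zero.mp this with h | h
      · exact h
      · exact absurd h hv1
    refine ⟨u 1 / v 1, ?_⟩
    ext i
    fin_cases i
    · simp [hu0, hv0]
    · simp; field_simp
  · have hu0 : u 0 ≠ 0 := by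
      intro h0
      apply hu
      have hu1 : u 1 = 0 := by
        have : u 1 * v 0 = 0 := by rw [h0, zero_mul, zero_sub, neg_eq_zero] at h; exact h
        rcases mul_eq_zero.mp this with h | h
        · exact h
        · exact absurd h hv0
      ext i
      fin_cases i
      · simpa using h0
      · simpa using hu1
    refine ⟨u 0 / v 0, ?_⟩
    ext i
    fin_cases i
    · simp; field_simp
    · simp; field_simp; linear_combination h

/-- Distinct points have nonzero determinant. -/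
theorem det_ne_of_ne {u v : Fin 2 → F} (hu : u ≠ 0) (hv : v ≠ 0)
    (h : mk F u hu ≠ mk F v hv) : u 0 * v 1 - u 1 * v 0 ≠ 0 :=
  fun h0 => h (mk_eq_of_det_zero hu hv h0)

theorem gl_smul_mk (g : GL (Fin 2) F) {v : Fin 2 → F} (hv : v ≠ 0) :
    g • mk F v hv = mk F ((g : Matrix (Fin 2) (Fin 2) F) *ᵥ v) ((smul_ne_zero_iff_ne g).mpr hv) := rfl

theorem exists_gl_three (a b c : ℙ F (Fin 2 → F)) (hab : a ≠ b) (hac : a ≠ c) (hbc : b ≠ c) :
    ∃ h : GL (Fin 2) F, h • P0 = a ∧ h • P1 = b ∧ h • P2 = c := by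
  classical
  induction a using Projectivization.ind with | h u hu =>
  induction b using Projectivization.ind with | h v hv =>
  induction c using Projectivization.ind with | h w hw =>
  have d1 := det_ne_of_ne hu hv hab
  have d2 := det_ne_of_ne hu hw hac
  have d3 := det_ne_of_ne hv hw hbc
  set D := u 0 * v 1 - u 1 * v 0 with hD
  set α := (w 0 * v 1 - w 1 * v 0) / D with hα
  set β := (u 0 * w 1 - u 1 * w 0) / D with hβ
  have hα0 : α ≠ 0 := by
    apply div_ne_zero _ d1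
    intro h
    apply d3
    linear_combination -h
  have hβ0 : β ≠ 0 := div_ne_zero d2 d1
  have hw0 : w 0 = α * u 0 + β * v 0 := by
    rw [hα, hβ]; field_simp; rw [hD]; ring
  have hw1 : w 1 = α * u 1 + β * v 1 := by
    rw [hα, hβ]; field_simp; rw [hD]; ring
  let M : Matrix (Fin 2) (Fin 2) F := !![α * u 0, β * v 0; α * u 1, β * v 1]
  have hdet : M.det ≠ 0 := by
    rw [Matrix.det_fin_two_of]
    have : α * u 0 * (β * v 1) - β * v 0 * (α * u 1) = α * β * D := by rw [hD]; ring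
    rw [this]
    exact mul_ne_zero (mul_ne_zero hα0 hβ0) d1
  let g : GL (Fin 2) F := Matrix.GeneralLinearGroup.mkOfDetNeZero M hdet
  have hg : (g : Matrix (Fin 2) (Fin 2) F) = M := rfl
  refine ⟨g, ?_, ?_, ?_⟩
  · simp only [P0, gl_smul_mk]
    rw [mk_eq_mk_iff']
    refine ⟨α, ?_⟩
    rw [hg]
    ext i
    fin_cases i <;> simp [M, e0, Matrix.mulVec, dotProduct, Fin.sum_univ_two, hα0]
  · simp only [P1, gl_smul_mk]
    rw [mk_eq_mk_iff']
    refine ⟨β, ?_⟩
    rw [hg]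
    ext i
    fin_cases i <;> simp [M, e1, Matrix.mulVec, dotProduct, Fin.sum_univ_two, hβ0]
  · simp only [P2, gl_smul_mk]
    rw [mk_eq_mk_iff']
    refine ⟨1, ?_⟩
    rw [hg]
    ext i
    fin_cases i
    · simp [M, e2, Matrix.mulVec, dotProduct, Fin.sum_univ_two, hw0]
    · simp [M, e2, Matrix.mulVec, dotProduct, Fin.sum_univ_two, hw1]

theorem P0_ne_P1 : (P0 : ℙ F (Fin 2 → F)) ≠ P1 := by
  intro h
  rw [P0, P1, mk_eq_mk_iff'] at h
  obtain ⟨c, hc⟩ := h
  have := congrFun hc 0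
  simp [e0, e1] at this
theorem P0_ne_P2 : (P0 : ℙ F (Fin 2 → F)) ≠ P2 := by
  intro h
  rw [P0, P2, mk_eq_mk_iff'] at h
  obtain ⟨c, hc⟩ := h
  have h0 := congrFun hc 0
  have h1 := congrFun hc 1
  simp [e0, e2] at h0 h1
  rw [h1] at h0
  exact zero_ne_one h0
theorem P1_ne_P2 : (P1 : ℙ F (Fin 2 → F)) ≠ P2 := by
  intro h
  rw [P1, P2, mk_eq_mk_iff'] at h
  obtain ⟨c, hc⟩ := h
  have h0 := congrFun hc 0
  have h1 := congrFun hc 1
  simp [e1, e2] at h0 h1
  rw [h0] at h1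
  exact zero_ne_one h1

/-- An element fixing `P0, P1` is diagonal. -/
theorem fix_diag (g : Matrix (Fin 2) (Fin 2) F) (hne0 : g *ᵥ e0 ≠ 0) (hne1 : g *ᵥ e1 ≠ 0)
    (h0 : mk F (g *ᵥ e0) hne0 = P0) (h1 : mk F (g *ᵥ e1) hne1 = P1) :
    g 1 0 = 0 ∧ g 0 1 = 0 := by
  rw [P0, mk_eq_mk_iff'] at h0
  rw [P1, mk_eq_mk_iff'] at h1
  obtain ⟨c0, hc0⟩ := h0
  obtain ⟨c1, hc1⟩ := h1
  have a1 := congrFun hc0 1
  have a2 := congrFun hc1 0
  simp [e0, e1, Matrix.mulVec, dotProduct, Fin.sum_univ_two] at a1 a2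
  exact ⟨a1.symm, a2.symm⟩

theorem fix_scalar (g : GL (Fin 2) F) (h0 : g • (P0 : ℙ F (Fin 2 → F)) = P0)
    (h1 : g • (P1 : ℙ F (Fin 2 → F)) = P1) (h2 : g • (P2 : ℙ F (Fin 2 → F)) = P2) :
    ∃ u : Fˣ, g = Matrix.GeneralLinearGroup.scalar (Fin 2) u := by
  simp only [P0, P1, P2, gl_smul_mk] at h0 h1 h2
  obtain ⟨h10, h01⟩ := fix_diag (g : Matrix (Fin 2) (Fin 2) F) _ _ h0 h1
  rw [mk_eq_mk_iff'] at h2
  obtain ⟨c, hc⟩ := h2
  have a0 := congrFun hc 0
  have a1 := congrFun hc 1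
  simp [e2, Matrix.mulVec, dotProduct, Fin.sum_univ_two, h10, h01] at a0 a1
  have hdet : (g : Matrix (Fin 2) (Fin 2) F).det ≠ 0 := by
    have := (Matrix.isUnit_iff_isUnit_det _).mp g.isUnit
    exact this.ne_zero
  rw [Matrix.det_fin_two, h10, h01] at hdet
  simp only [mul_zero, sub_zero] at hdet
  have hg00 : (g : Matrix (Fin 2) (Fin 2) F) 0 0 ≠ 0 := left_ne_zero_of_mul hdet
  refine ⟨Units.mk0 _ hg00, ?_⟩
  apply Units.ext
  ext i j
  fin_cases i <;> fin_cases j <;> simp [Matrix.GeneralLinearGroup.scalar, h10, h01, ← a0, ← a1]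

end Cfsg.Agent.Lib.ProjLine
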