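import Cfsg.Agent.Lib.TvConj
import Cfsg.Agent.Lib.ClassicalBasic

set_option autoImplicit false

namespace Cfsg.Agent.Lib.Psl34

open Matrix

variable {F : Type*} [Field F] [Fintype F]

theorem two_eq_zero (hF : Fintype.card F = 4) : (2 : F) = 0 := by
  have h : ((Fintype.card F : ℕ) : F) = 0 := Nat.cast_card_eq_zero F
  rw [hF] at h
  have h2 : (2 : F) * 2 = 0 := by
    have : (2 : F) * 2 = ((4 : ℕ) : F) := by norm_num
    rw [this, h]
  simpa using h2

/-- An element of square one different from one is a transvection in dimension three. -/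
theorem isTransvection_of_sq (h2 : (2 : F) = 0) {t : Matrix (Fin 3) (Fin 3) F} (ht : t * t = 1) (ht1 : t ≠ 1) : Cfsg.IsTransvection t := by
  classical
  have hsq : (t - 1) * (t - 1) = 0 := by
    have e : (t - 1) * (t - 1) = t * t - (2 : F) • t + 1 := by
      rw [two_smul]
      noncomm_ring
    rw [e, ht, h2, zero_smul, sub_zero]
    have h3 : (1 : Matrix (Fin 3) (Fin 3) F) + 1 = (2 : F) • 1 := by rw [two_smul]
    rw [h3, h2, zero_smul]
  refine ⟨?_, hsq⟩
  have h0 : t - 1 ≠ 0 := sub_ne_zero.2 ht1
  have h1 : (t - 1).rank ≠ 0 := by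
    intro hr
    apply h0
    have : LinearMap.range (Matrix.mulVecLin (t - 1)) = ⊥ := by
      rw [← Submodule.finrank_eq_zero]
      exact hr
    rw [LinearMap.range_eq_bot] at this
    apply Matrix.mulVec_injective
    funext x
    rw [Matrix.zero_mulVec]
    exact LinearMap.congr_fun this x
  have hle : LinearMap.range (Matrix.mulVecLin (t - 1)) ≤ LinearMap.ker (Matrix.mulVecLin (t - 1)) := by
    rintro _ ⟨x, rfl⟩
    rw [LinearMap.mem_ker, Matrix.mulVecLin_apply, Matrix.mulVecLin_apply, Matrix.mulVec_mulVec, hsq, Matrix.zero_mulVec]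
  have h4 := Submodule.finrank_mono hle
  have h5 := LinearMap.finrank_range_add_finrank_ker (Matrix.mulVecLin (t - 1))
  have h6 : Module.finrank F (LinearMap.range (Matrix.mulVecLin (t - 1))) = (t - 1).rank := rfl
  rw [h6] at h4 h5
  rw [Module.finrank_pi, Fintype.card_fin] at h5
  omega

/-- Lifting an involution of `PSL₃(4)` to a transvection. -/
theorem inv_lift (hF : Fintype.card F = 4) (x : Matrix.ProjectiveSpecialLinearGroup (Fin 3) F) (hx : orderOf x = 2) :
    ∃ t : SpecialLinearGroup (Fin 3) F, (QuotientGroup.mk t : Matrix.ProjectiveSpecialLinearGroup (Fin 3) F) = x ∧ Cfsg.IsTransvection (t : Matrix (Fin 3) (Fin 3) F) := by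
  classical
  obtain ⟨s, rfl⟩ := QuotientGroup.mk_surjective x
  have h2 := two_eq_zero hF
  have hs2 : (QuotientGroup.mk (s * s) : Matrix.ProjectiveSpecialLinearGroup (Fin 3) F) = 1 := by
    have := pow_orderOf_eq_one (QuotientGroup.mk s : Matrix.ProjectiveSpecialLinearGroup (Fin 3) F)
    rw [hx] at this
    rw [QuotientGroup.mk_mul, ← sq]
    exact this
  have hz : s * s ∈ Subgroup.center (SpecialLinearGroup (Fin 3) F) := (QuotientGroup.eq_one_iff _).1 hs2
  obtain ⟨r, hr3, hr⟩ := (Matrix.SpecialLinearGroup.mem_center_iff).1 hz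
  simp only [Fintype.card_fin] at hr3
  have hcomm : ∀ y : SpecialLinearGroup (Fin 3) F, y * (s * s) = (s * s) * y := Subgroup.mem_center_iff.1 hz
  let t := s * (s * s)
  have htt : t * t = 1 := by
    have e : t * t = (s * s) * (s * s) * (s * s) := by
      show s * (s * s) * (s * (s * s)) = _
      calc s * (s * s) * (s * (s * s)) = (s * (s * s) * s) * (s * s) := by group
        _ = ((s * s) * s * s) * (s * s) := by rw [hcomm s]
        _ = _ := by group
    rw [e]
    apply Subtype.ext
    show (s * s : SpecialLinearGroup (Fin 3) F).1 * (s * s : SpecialLinearGroup (Fin 3) F).1 * (s * s : SpecialLinearGroup (Fin 3) F).1 = 1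
    rw [← hr]
    simp only [Matrix.scalar_apply, Matrix.diagonal_mul_diagonal]
    rw [← Matrix.diagonal_one]
    congr 1
    funext i
    rw [← hr3]
    ring
  have hmk : (QuotientGroup.mk t : Matrix.ProjectiveSpecialLinearGroup (Fin 3) F) = QuotientGroup.mk s := by
    show (QuotientGroup.mk (s * (s * s)) : Matrix.ProjectiveSpecialLinearGroup (Fin 3) F) = _
    rw [QuotientGroup.mk_mul, hs2, mul_one]
  refine ⟨t, hmk, ?_⟩
  apply isTransvection_of_sq h2
  · exact congrArg (fun y : SpecialLinearGroup (Fin 3) F => (y : Matrix (Fin 3) (Fin 3) F)) htt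
  · intro h1
    have ht1 : t = 1 := Subtype.ext h1
    rw [ht1] at hmk
    have : (QuotientGroup.mk s : Matrix.ProjectiveSpecialLinearGroup (Fin 3) F) = 1 := hmk.symm
    rw [this, orderOf_one] at hx
    omega

/-- All involutions of `PSL₃(4)` are conjugate. -/
theorem involutions_conj (hF : Fintype.card F = 4) (x y : Matrix.ProjectiveSpecialLinearGroup (Fin 3) F) (hx : orderOf x = 2) (hy : orderOf y = 2) :
    IsConj x y := by
  obtain ⟨s, rfl, hs⟩ := inv_lift hF x hx
  obtain ⟨t, rfl, ht⟩ := inv_lift hF y hy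
  have h := Cfsg.Agent.Lib.TvConj.isConj_SL (by simp) s t hs ht
  exact MonoidHom.map_isConj (QuotientGroup.mk' _) h

end Cfsg.Agent.Lib.Psl34
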