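import Cfsg.Agent.Lib.Psl34

set_option autoImplicit false

namespace Cfsg.Agent.Lib.Psl34b

open Matrix Polynomial Cfsg.Agent.Lib.Psl34

variable {F : Type*} [Field F] [Fintype F]

theorem cube_eq_one (hF : Fintype.card F = 4) {a : F} (ha : a ≠ 0) : a ^ 3 = 1 := by
  have := FiniteField.pow_card_sub_one_eq_one a ha
  rwa [hF] at this

theorem exists_omega (hF : Fintype.card F = 4) : ∃ ω : F, ω ≠ 0 ∧ ω ≠ 1 ∧ ω ^ 2 + ω + 1 = 0 := by
  classical
  have h : ∃ ω : F, ω ≠ 0 ∧ ω ≠ 1 := by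
    by_contra hcon
    push Not at hcon
    have hsub : (Finset.univ : Finset F) ⊆ {0, 1} := by
      intro a _
      by_cases ha : a = 0
      · simp [ha]
      · simp [hcon a ha]
    have h5 := Finset.card_le_card hsub
    have h6 : ({0, 1} : Finset F).card ≤ 2 := Finset.card_le_two
    rw [Finset.card_univ] at h5
    omega
  obtain ⟨ω, h0, h1⟩ := h
  refine ⟨ω, h0, h1, ?_⟩
  have h3 := cube_eq_one hF h0
  have h4 : (ω - 1) * (ω ^ 2 + ω + 1) = 0 := by linear_combination h3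
  exact (mul_eq_zero.1 h4).resolve_left (sub_ne_zero.2 h1)

/-- Nonzero elements. -/
theorem elements (hF : Fintype.card F = 4) {ω : F} (h0 : ω ≠ 0) (h1 : ω ≠ 1) (hω : ω ^ 2 + ω + 1 = 0) (a : F) (ha : a ≠ 0) :
    a = 1 ∨ a = ω ∨ a = ω ^ 2 := by
  have h3 := cube_eq_one hF ha
  have hω3 : ω ^ 3 = 1 := cube_eq_one hF h0
  have e : (a - 1) * (a - ω) * (a - ω ^ 2) = 0 := by
    linear_combination h3 - hω3 - a ^ 2 * hω + a * ω * hω
  rcases mul_eq_zero.1 e with h | h
  · rcases mul_eq_zero.1 h with h | h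
    · exact Or.inl (sub_eq_zero.1 h)
    · exact Or.inr (Or.inl (sub_eq_zero.1 h))
  · exact Or.inr (Or.inr (sub_eq_zero.1 h))

/-- The determinant of `t - s`. -/
theorem det_sub_three (s : Matrix (Fin 3) (Fin 3) F) (t : F) :
    (t • (1 : Matrix (Fin 3) (Fin 3) F) - s).det =
      t ^ 3 - (s 0 0 + s 1 1 + s 2 2) * t ^ 2 +
        (s 0 0 * s 1 1 + s 0 0 * s 2 2 + s 1 1 * s 2 2 - s 0 1 * s 1 0 - s 0 2 * s 2 0 - s 1 2 * s 2 1) * t - s.det := by
  rw [Matrix.det_fin_three, Matrix.det_fin_three]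
  simp [Matrix.one_apply]
  ring

/-- Elements of `SL₃(4)` of order dividing three which are not scalars have all eigenvalues. -/
theorem exists_eigen (hF : Fintype.card F = 4) {s : Matrix (Fin 3) (Fin 3) F} (hd : s.det = 1) (hs : s ^ 3 = 1)
    (hns : ∀ c : F, s ≠ c • 1) (t : F) (ht : t ≠ 0) : ∃ v : Fin 3 → F, v ≠ 0 ∧ s *ᵥ v = t • v := by
  classical
  have h2 := two_eq_zero hF
  obtain ⟨ω, h0, h1, hω⟩ := exists_omega hF
  -- the adjugate is the square
  have hadj : s.adjugate = s ^ 2 := by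
    have e1 : s.adjugate * s = 1 := by
      rw [Matrix.adjugate_mul, hd, one_smul]
    have e2 : s ^ 2 * s = 1 := by
      rw [← pow_succ, hs]
    calc s.adjugate = s.adjugate * (s * s ^ 2) := by
          rw [← pow_succ', hs, mul_one]
      _ = (s.adjugate * s) * s ^ 2 := by rw [mul_assoc]
      _ = s ^ 2 := by rw [e1, one_mul]
  have hval : ∀ i, s.adjugate i i = (s ^ 2) i i := fun i => by rw [hadj]
  have h00 := hval 0
  have h11 := hval 1
  have h22 := hval 2
  simp only [Matrix.adjugate_fin_three, sq, Matrix.mul_apply, Fin.sum_univ_three] at h00 h11 h22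
  simp at h00 h11 h22
  set c₂ := s 0 0 + s 1 1 + s 2 2 with hc₂
  have hc₁ : s 0 0 * s 1 1 + s 0 0 * s 2 2 + s 1 1 * s 2 2 - s 0 1 * s 1 0 - s 0 2 * s 2 0 - s 1 2 * s 2 1 = c₂ ^ 2 := by
    have h2' : ∀ x : F, 2 * x = 0 := fun x => by rw [h2, zero_mul]
    rw [hc₂]
    linear_combination h00 + h11 + h22 + h2' (s 0 1 * s 1 0 + s 0 2 * s 2 0 + s 1 2 * s 2 1) - h2' (s 0 0 * s 1 1 + s 0 0 * s 2 2 + s 1 1 * s 2 2)
  have hχ : ∀ x : F, x ≠ 0 → (x • (1 : Matrix (Fin 3) (Fin 3) F) - s).det = c₂ * x * (x + c₂) := by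
    intro x hx
    have h3 := cube_eq_one hF hx
    rw [det_sub_three, hc₁, hd, h3, ← hc₂]
    have h2' : ∀ y : F, 2 * y = 0 := fun y => by rw [h2, zero_mul]
    linear_combination - h2' (c₂ * x ^ 2)
  -- the trace vanishes
  have hc0 : c₂ = 0 := by
    by_contra hne
    -- the two other eigenvalues are not eigenvalues
    have hunit : ∀ x : F, x ≠ 0 → x ≠ c₂ → IsUnit (x • (1 : Matrix (Fin 3) (Fin 3) F) - s) := by
      intro x hx hxc
      rw [Matrix.isUnit_iff_isUnit_det, hχ x hx, isUnit_iff_ne_zero]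
      have hsum : x + c₂ ≠ 0 := by
        intro h
        apply hxc
        have : x = -c₂ := eq_neg_of_add_eq_zero_left h
        rw [this]
        have h2'' : c₂ + c₂ = 0 := by
          rw [← two_mul, h2, zero_mul]
        exact (eq_neg_of_add_eq_zero_left h2'').symm
      exact mul_ne_zero (mul_ne_zero hne hx) hsum
    -- the product vanishes
    have hprod : ∀ a b c : F, a + b + c = 0 → a * b + a * c + b * c = 0 → a * b * c = 1 → (a • (1 : Matrix (Fin 3) (Fin 3) F) - s) * ((b • (1 : Matrix (Fin 3) (Fin 3) F) - s) * (c • (1 : Matrix (Fin 3) (Fin 3) F) - s)) = 0 := by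
      intro a b c h1' h2' h3'
      have e : (a • (1 : Matrix (Fin 3) (Fin 3) F) - s) * ((b • (1 : Matrix (Fin 3) (Fin 3) F) - s) * (c • (1 : Matrix (Fin 3) (Fin 3) F) - s)) =
          (a * b * c) • 1 - (a * b + a * c + b * c) • s + (a + b + c) • (s ^ 2) - s ^ 3 := by
        have e3 : s ^ 3 = s * (s * s) := by noncomm_ring
        rw [e3, sq]
        simp only [sub_mul, mul_sub, smul_mul_assoc, mul_smul_comm, one_mul, mul_one, smul_sub, smul_smul]
        module
      rw [e, h1', h2', h3', hs, one_smul, zero_smul, zero_smul]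
      simp
    have hω3 : ω ^ 3 = 1 := cube_eq_one hF h0
    have hsum0 : 1 + ω + ω ^ 2 = 0 := by linear_combination hω
    have h12 : 1 * ω + 1 * ω ^ 2 + ω * ω ^ 2 = 0 := by linear_combination ω * hω
    have h123 : 1 * ω * ω ^ 2 = 1 := by linear_combination hω3
    have hP := hprod 1 ω (ω ^ 2) hsum0 h12 h123
    have hω2 : ω ^ 2 ≠ 0 := pow_ne_zero _ h0
    have hne1 : ω ≠ ω ^ 2 := by
      intro h
      have : ω * (ω - 1) = 0 := by linear_combination -h
      exact (mul_ne_zero h0 (sub_ne_zero.2 h1)) this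
    have hne2 : (1 : F) ≠ ω ^ 2 := by
      intro h
      apply h1
      have h3 : ω ^ 3 = ω := by
        rw [pow_succ, ← h, one_mul]
      rw [← h3, hω3]
    -- `c₂` is one of them, and we cancel the others
    have hcancel : ∀ a b c : F, a ≠ 0 → b ≠ 0 → c ≠ 0 → a ≠ b → a ≠ c → b ≠ c → (a = c₂ ∨ b = c₂ ∨ c = c₂) →
      (a • (1 : Matrix (Fin 3) (Fin 3) F) - s) * ((b • (1 : Matrix (Fin 3) (Fin 3) F) - s) * (c • (1 : Matrix (Fin 3) (Fin 3) F) - s)) = 0 → ∃ d : F, s = d • 1 := by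
      intro a b c ha hb hc hab hac hbc hor hz
      have hcomm : ∀ x y : F, (x • (1 : Matrix (Fin 3) (Fin 3) F) - s) * (y • (1 : Matrix (Fin 3) (Fin 3) F) - s) = (y • (1 : Matrix (Fin 3) (Fin 3) F) - s) * (x • (1 : Matrix (Fin 3) (Fin 3) F) - s) := by
        intro x y
        simp only [sub_mul, mul_sub, smul_mul_assoc, mul_smul_comm, one_mul, mul_one, smul_sub, smul_smul]
        module
      have hleft : ∀ (U V : Matrix (Fin 3) (Fin 3) F), IsUnit U → U * V = 0 → V = 0 := by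
        intro U V hU hUV
        exact (hU.mul_right_eq_zero).1 hUV
      rcases hor with h | h | h
      · -- a = c₂
        have hbu := hunit b hb (fun e => hab (h.trans e.symm))
        have hcu := hunit c hc (fun e => hac (h.trans e.symm))
        have e1 : (b • (1 : Matrix (Fin 3) (Fin 3) F) - s) * ((c • (1 : Matrix (Fin 3) (Fin 3) F) - s) * (a • (1 : Matrix (Fin 3) (Fin 3) F) - s)) = 0 := by
          calc (b • (1 : Matrix (Fin 3) (Fin 3) F) - s) * ((c • (1 : Matrix (Fin 3) (Fin 3) F) - s) * (a • (1 : Matrix (Fin 3) (Fin 3) F) - s))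
              = (b • (1 : Matrix (Fin 3) (Fin 3) F) - s) * ((a • (1 : Matrix (Fin 3) (Fin 3) F) - s) * (c • (1 : Matrix (Fin 3) (Fin 3) F) - s)) := by rw [hcomm c a]
            _ = ((b • (1 : Matrix (Fin 3) (Fin 3) F) - s) * (a • (1 : Matrix (Fin 3) (Fin 3) F) - s)) * (c • (1 : Matrix (Fin 3) (Fin 3) F) - s) := by rw [mul_assoc]
            _ = ((a • (1 : Matrix (Fin 3) (Fin 3) F) - s) * (b • (1 : Matrix (Fin 3) (Fin 3) F) - s)) * (c • (1 : Matrix (Fin 3) (Fin 3) F) - s) := by rw [hcomm b a]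
            _ = (a • (1 : Matrix (Fin 3) (Fin 3) F) - s) * ((b • (1 : Matrix (Fin 3) (Fin 3) F) - s) * (c • (1 : Matrix (Fin 3) (Fin 3) F) - s)) := by rw [mul_assoc]
            _ = 0 := hz
        have e2 := hleft _ _ hbu e1
        have e3 := hleft _ _ hcu e2
        exact ⟨a, (sub_eq_zero.1 e3).symm⟩
      · have hau := hunit a ha (fun e => hab (e.trans h.symm))
        have hcu := hunit c hc (fun e => hbc (h.trans e.symm))
        have e2 := hleft _ _ hau hz
        have e1 : (c • (1 : Matrix (Fin 3) (Fin 3) F) - s) * (b • (1 : Matrix (Fin 3) (Fin 3) F) - s) = 0 := by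
          rw [hcomm c b]
          exact e2
        have e3 := hleft _ _ hcu e1
        exact ⟨b, (sub_eq_zero.1 e3).symm⟩
      · have hau := hunit a ha (fun e => hac (e.trans h.symm))
        have hbu := hunit b hb (fun e => hbc (e.trans h.symm))
        have e2 := hleft _ _ hau hz
        have e3 := hleft _ _ hbu e2
        exact ⟨c, (sub_eq_zero.1 e3).symm⟩
    have hc₂mem := elements hF h0 h1 hω c₂ hne
    obtain ⟨d, hd'⟩ := hcancel 1 ω (ω ^ 2) one_ne_zero h0 hω2 (Ne.symm h1) hne2 hne1 (by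
      rcases hc₂mem with h | h | h
      · exact Or.inl h.symm
      · exact Or.inr (Or.inl h.symm)
      · exact Or.inr (Or.inr h.symm)) hP
    exact hns d hd'
  -- hence every nonzero scalar is an eigenvalue
  have hdet : (t • (1 : Matrix (Fin 3) (Fin 3) F) - s).det = 0 := by
    rw [hχ t ht, hc0]
    ring
  obtain ⟨v, hv, hv2⟩ := Matrix.exists_mulVec_eq_zero_iff.2 hdet
  refine ⟨v, hv, ?_⟩
  rw [Matrix.sub_mulVec, Matrix.smul_mulVec, Matrix.one_mulVec, sub_eq_zero] at hv2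
  exact hv2.symm

/-- The standard diagonal element. -/
def Dm (ω : F) : Matrix (Fin 3) (Fin 3) F := Matrix.diagonal ![1, ω, ω ^ 2]

theorem det_Dm {ω : F} (hω3 : ω ^ 3 = 1) : (Dm ω).det = 1 := by
  rw [Dm, Matrix.det_diagonal, Fin.prod_univ_three]
  simp
  linear_combination hω3

/-- Non-scalar elements of order three are conjugate to the standard diagonal element. -/
theorem exists_diag (hF : Fintype.card F = 4) {ω : F} (h0 : ω ≠ 0) (h1 : ω ≠ 1) (hω : ω ^ 2 + ω + 1 = 0) {s : Matrix (Fin 3) (Fin 3) F} (hd : s.det = 1) (hs : s ^ 3 = 1)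
    (hns : ∀ c : F, s ≠ c • 1) : ∃ g : Matrix (Fin 3) (Fin 3) F, g.det = 1 ∧ s * g = g * Dm ω := by
  classical
  have hω3 : ω ^ 3 = 1 := cube_eq_one hF h0
  have h2 := two_eq_zero hF
  obtain ⟨v₁, hv₁0, hv₁⟩ := exists_eigen hF hd hs hns 1 one_ne_zero
  obtain ⟨v₂, hv₂0, hv₂⟩ := exists_eigen hF hd hs hns ω h0
  obtain ⟨v₃, hv₃0, hv₃⟩ := exists_eigen hF hd hs hns (ω ^ 2) (pow_ne_zero _ h0)
  let P : Matrix (Fin 3) (Fin 3) F := Matrix.of fun i j => ![v₁ i, v₂ i, v₃ i] j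
  have hP : s * P = P * Dm ω := by
    apply Matrix.ext
    intro i j
    rw [Matrix.mul_apply, Dm, Matrix.mul_diagonal]
    have e : ∀ (v : Fin 3 → F), ∑ k, s i k * v k = (s *ᵥ v) i := fun v => rfl
    fin_cases j
    · have := e v₁
      simp only [P, Matrix.of_apply]
      simp only [Fin.zero_eta, Matrix.cons_val_zero]
      rw [e, hv₁]
      simp
    · have := e v₂
      simp only [P, Matrix.of_apply]
      simp only [Fin.mk_one, Matrix.cons_val_one, Matrix.cons_val_zero]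
      rw [e, hv₂]
      simp [mul_comm]
    · have := e v₃
      simp only [P, Matrix.of_apply]
      simp only [Fin.reduceFinMk, Matrix.cons_val]
      rw [e, hv₃]
      simp [mul_comm]
  have hdetP : P.det ≠ 0 := by
    intro h
    obtain ⟨c, hc0, hc⟩ := Matrix.exists_mulVec_eq_zero_iff.2 h
    have e1 : c 0 • v₁ + c 1 • v₂ + c 2 • v₃ = 0 := by
      rw [← hc]
      funext i
      simp [P, Matrix.mulVec, dotProduct, Fin.sum_univ_three, mul_comm]
    have e2 : c 0 • v₁ + (c 1 * ω) • v₂ + (c 2 * ω ^ 2) • v₃ = 0 := by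
      have := congrArg (fun y => s *ᵥ y) e1
      simp only [Matrix.mulVec_add, Matrix.mulVec_smul, hv₁, hv₂, hv₃, Matrix.mulVec_zero, smul_smul, mul_one, one_smul] at this
      exact this
    have e3 : c 0 • v₁ + (c 1 * ω ^ 2) • v₂ + (c 2 * ω) • v₃ = 0 := by
      have := congrArg (fun y => s *ᵥ y) e2
      simp only [Matrix.mulVec_add, Matrix.mulVec_smul, hv₁, hv₂, hv₃, Matrix.mulVec_zero, smul_smul, mul_one, one_smul] at this
      have e4 : c 1 * ω * ω = c 1 * ω ^ 2 := by ring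
      have e5 : c 2 * ω ^ 2 * ω ^ 2 = c 2 * ω := by
        linear_combination c 2 * ω * hω3
      rw [e4, e5] at this
      exact this
    have h3 : (3 : F) = 1 := by linear_combination h2
    have hsum : (1 : F) + ω + ω ^ 2 = 0 := by linear_combination hω
    have w1 : c 0 • v₁ = 0 := by
      have : c 0 • v₁ = (c 0 • v₁ + c 1 • v₂ + c 2 • v₃) + (c 0 • v₁ + (c 1 * ω) • v₂ + (c 2 * ω ^ 2) • v₃) + (c 0 • v₁ + (c 1 * ω ^ 2) • v₂ + (c 2 * ω) • v₃) := by
        have e6 : c 1 + c 1 * ω + c 1 * ω ^ 2 = 0 := by linear_combination c 1 * hsum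
        have e7 : c 2 + c 2 * ω ^ 2 + c 2 * ω = 0 := by linear_combination c 2 * hsum
        have e8 : c 0 + c 0 + c 0 = c 0 := by linear_combination c 0 * h3
        have : (c 0 • v₁ + c 1 • v₂ + c 2 • v₃) + (c 0 • v₁ + (c 1 * ω) • v₂ + (c 2 * ω ^ 2) • v₃) + (c 0 • v₁ + (c 1 * ω ^ 2) • v₂ + (c 2 * ω) • v₃)
            = (c 0 + c 0 + c 0) • v₁ + (c 1 + c 1 * ω + c 1 * ω ^ 2) • v₂ + (c 2 + c 2 * ω ^ 2 + c 2 * ω) • v₃ := by module
        rw [this, e6, e7, e8]
        module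
      rw [this, e1, e2, e3]
      simp
    have w2 : c 1 • v₂ = 0 := by
      have : c 1 • v₂ = (c 0 • v₁ + c 1 • v₂ + c 2 • v₃) + ω ^ 2 • (c 0 • v₁ + (c 1 * ω) • v₂ + (c 2 * ω ^ 2) • v₃) + ω • (c 0 • v₁ + (c 1 * ω ^ 2) • v₂ + (c 2 * ω) • v₃) := by
        have e6 : c 0 + ω ^ 2 * c 0 + ω * c 0 = 0 := by linear_combination c 0 * hsum
        have e7 : c 1 + ω ^ 2 * (c 1 * ω) + ω * (c 1 * ω ^ 2) = c 1 := by linear_combination (2 * c 1) * hω3 + c 1 * h2
        have e8 : c 2 + ω ^ 2 * (c 2 * ω ^ 2) + ω * (c 2 * ω) = 0 := by linear_combination c 2 * hsum + c 2 * ω * hω3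
        have : (c 0 • v₁ + c 1 • v₂ + c 2 • v₃) + ω ^ 2 • (c 0 • v₁ + (c 1 * ω) • v₂ + (c 2 * ω ^ 2) • v₃) + ω • (c 0 • v₁ + (c 1 * ω ^ 2) • v₂ + (c 2 * ω) • v₃)
            = (c 0 + ω ^ 2 * c 0 + ω * c 0) • v₁ + (c 1 + ω ^ 2 * (c 1 * ω) + ω * (c 1 * ω ^ 2)) • v₂ + (c 2 + ω ^ 2 * (c 2 * ω ^ 2) + ω * (c 2 * ω)) • v₃ := by module
        rw [this, e6, e7, e8]
        module
      rw [this, e1, e2, e3]
      simp
    have w3 : c 2 • v₃ = 0 := by
      have : c 2 • v₃ = (c 0 • v₁ + c 1 • v₂ + c 2 • v₃) + ω • (c 0 • v₁ + (c 1 * ω) • v₂ + (c 2 * ω ^ 2) • v₃) + ω ^ 2 • (c 0 • v₁ + (c 1 * ω ^ 2) • v₂ + (c 2 * ω) • v₃) := by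
        have e6 : c 0 + ω * c 0 + ω ^ 2 * c 0 = 0 := by linear_combination c 0 * hsum
        have e7 : c 1 + ω * (c 1 * ω) + ω ^ 2 * (c 1 * ω ^ 2) = 0 := by linear_combination c 1 * hsum + c 1 * ω * hω3
        have e8 : c 2 + ω * (c 2 * ω ^ 2) + ω ^ 2 * (c 2 * ω) = c 2 := by linear_combination (2 * c 2) * hω3 + c 2 * h2
        have : (c 0 • v₁ + c 1 • v₂ + c 2 • v₃) + ω • (c 0 • v₁ + (c 1 * ω) • v₂ + (c 2 * ω ^ 2) • v₃) + ω ^ 2 • (c 0 • v₁ + (c 1 * ω ^ 2) • v₂ + (c 2 * ω) • v₃)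
            = (c 0 + ω * c 0 + ω ^ 2 * c 0) • v₁ + (c 1 + ω * (c 1 * ω) + ω ^ 2 * (c 1 * ω ^ 2)) • v₂ + (c 2 + ω * (c 2 * ω ^ 2) + ω ^ 2 * (c 2 * ω)) • v₃ := by module
        rw [this, e6, e7, e8]
        module
      rw [this, e1, e2, e3]
      simp
    apply hc0
    funext i
    fin_cases i
    · exact (smul_eq_zero.1 w1).resolve_right hv₁0
    · exact (smul_eq_zero.1 w2).resolve_right hv₂0
    · exact (smul_eq_zero.1 w3).resolve_right hv₃0
  let E : Matrix (Fin 3) (Fin 3) F := Matrix.diagonal ![P.det⁻¹, 1, 1]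
  have hEdet : E.det = P.det⁻¹ := by
    rw [Matrix.det_diagonal, Fin.prod_univ_three]
    simp
  have hEcomm : E * Dm ω = Dm ω * E := by
    simp only [E, Dm, Matrix.diagonal_mul_diagonal]
    congr 1
    funext i
    ring
  refine ⟨P * E, ?_, ?_⟩
  · rw [Matrix.det_mul, hEdet, mul_inv_cancel₀ hdetP]
  · rw [← mul_assoc, hP, mul_assoc, mul_assoc, hEcomm]

/-- An element commuting with the standard diagonal element is diagonal. -/
theorem diag_of_comm {ω : F} (h0 : ω ≠ 0) (h1 : ω ≠ 1) (hω : ω ^ 2 + ω + 1 = 0) (M : Matrix (Fin 3) (Fin 3) F) (hM : M * Dm ω = Dm ω * M) :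
    M = Matrix.diagonal ![M 0 0, M 1 1, M 2 2] := by
  have hne1 : ω ≠ ω ^ 2 := by
    intro h
    have : ω * (ω - 1) = 0 := by linear_combination -h
    exact (mul_ne_zero h0 (sub_ne_zero.2 h1)) this
  have hne2 : (1 : F) ≠ ω ^ 2 := by
    intro h
    apply h1
    have h3 : ω ^ 2 + ω + 1 = 0 := hω
    rw [← h] at h3
    have h4 : ω + 2 = 0 := by linear_combination h3
    by_contra hne
    have h5 : ω = -2 := by linear_combination h4
    have h6 : (1 : F) = 4 := by
      rw [h5] at h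
      linear_combination h
    have h7 : (3 : F) = 0 := by linear_combination -h6
    have h8 : (ω - 1) * (ω + 2) = ω ^ 2 + ω - 2 := by ring
    have h9 : ω ^ 2 + ω - 2 = 0 := by
      rw [← h8, h4, mul_zero]
    have h10 : (3 : F) = 0 := h7
    -- `ω = 1` in characteristic three
    apply hne
    linear_combination h4 - h7
  have hoff : ∀ i j, i ≠ j → M i j = 0 := by
    intro i j hij
    have h3 := congrFun (congrFun hM i) j
    rw [Dm, Matrix.mul_diagonal, Matrix.diagonal_mul] at h3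
    have hd : (![1, ω, ω ^ 2] : Fin 3 → F) i ≠ ![1, ω, ω ^ 2] j := by
      fin_cases i <;> fin_cases j <;> first | exact absurd rfl hij | exact h1.symm | exact hne2 | exact h1 | exact hne1 | exact hne2.symm | exact hne1.symm
    have h4 : M i j * ((![1, ω, ω ^ 2] : Fin 3 → F) j - ![1, ω, ω ^ 2] i) = 0 := by
      linear_combination h3
    exact (mul_eq_zero.1 h4).resolve_right (sub_ne_zero.2 hd.symm)
  ext i j
  by_cases hij : i = j
  · subst hij
    rw [Matrix.diagonal_apply_eq]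
    fin_cases i <;> rfl
  · rw [hoff i j hij, Matrix.diagonal_apply_ne _ hij]

/-- No cube roots of non-trivial scalars with determinant one. -/
theorem cube_scalar (hF : Fintype.card F = 4) {s : Matrix (Fin 3) (Fin 3) F} (hd : s.det = 1) {r : F} (hr3 : r ^ 3 = 1) (hs : s ^ 3 = r • 1) : r = 1 := by
  classical
  by_contra hr
  have hr0 : r ≠ 0 := by
    rintro rfl
    simp at hr3
  let f : F[X] := X ^ 3 - C r
  have hfm : f.Monic := monic_X_pow_sub_C r (by norm_num)
  have hfd : f.natDegree = 3 := natDegree_X_pow_sub_C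
  have hirr : Irreducible f := by
    apply irreducible_of_degree_le_three_of_not_isRoot
    · rw [hfd]
      simp
    · intro a ha
      have h1 : a ^ 3 = r := by
        simp only [f, IsRoot.def, eval_sub, eval_pow, eval_X, eval_C] at ha
        exact sub_eq_zero.1 ha
      by_cases ha0 : a = 0
      · rw [ha0] at h1
        simp at h1
        exact hr0 h1.symm
      · rw [cube_eq_one hF ha0] at h1
        exact hr h1.symm
  have hev : aeval s f = 0 := by
    simp only [f, map_sub, map_pow, aeval_X, aeval_C, hs]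
    rw [Algebra.algebraMap_eq_smul_one, sub_self]
  have hmin : f = minpoly F s := minpoly.eq_of_irreducible_of_monic hirr hev hfm
  have hdvd : f ∣ s.charpoly := by
    rw [hmin]
    exact minpoly.dvd F s (Matrix.aeval_self_charpoly s)
  have hχ : s.charpoly = f := eq_of_monic_of_dvd_of_natDegree_le hfm (Matrix.charpoly_monic s) hdvd (by
    rw [Matrix.charpoly_natDegree_eq_dim, hfd]
    simp)
  have h3 := Matrix.det_eq_sign_charpoly_coeff s
  rw [hχ, hd] at h3
  simp [f] at h3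
  exact hr (by linear_combination -h3)

local notation "SL3" => SpecialLinearGroup (Fin 3) F
local notation "PSL3" => Matrix.ProjectiveSpecialLinearGroup (Fin 3) F

/-- Lifting elements of order three. -/
theorem lift_cube (hF : Fintype.card F = 4) (x : PSL3) (hx : x ^ 3 = 1) (hx1 : x ≠ 1) :
    ∃ s : SL3, (QuotientGroup.mk s : PSL3) = x ∧ (s : Matrix (Fin 3) (Fin 3) F) ^ 3 = 1 ∧ ∀ c : F, (s : Matrix (Fin 3) (Fin 3) F) ≠ c • 1 := by
  classical
  obtain ⟨s, rfl⟩ := QuotientGroup.mk_surjective x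
  have h1 : (QuotientGroup.mk (s ^ 3) : PSL3) = 1 := by
    rw [QuotientGroup.mk_pow]
    exact hx
  have hz : s ^ 3 ∈ Subgroup.center SL3 := (QuotientGroup.eq_one_iff _).1 h1
  obtain ⟨r, hr3, hr⟩ := (Matrix.SpecialLinearGroup.mem_center_iff).1 hz
  simp only [Fintype.card_fin] at hr3
  have hs3 : (s : Matrix (Fin 3) (Fin 3) F) ^ 3 = r • 1 := by
    have e1 : ((s ^ 3 : SL3) : Matrix (Fin 3) (Fin 3) F) = (s : Matrix (Fin 3) (Fin 3) F) ^ 3 := rfl
    rw [← e1, ← hr, Matrix.smul_one_eq_diagonal]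
    rfl
  have hr1 := cube_scalar hF s.2 hr3 hs3
  rw [hr1, one_smul] at hs3
  refine ⟨s, rfl, hs3, ?_⟩
  intro c hc
  apply hx1
  apply (QuotientGroup.eq_one_iff _).2
  rw [Matrix.SpecialLinearGroup.mem_center_iff]
  refine ⟨c, ?_, ?_⟩
  · have := s.2
    rw [hc, Matrix.det_smul, Matrix.det_one, mul_one] at this
    exact this
  · rw [hc, Matrix.smul_one_eq_diagonal]
    rfl

/-- The diagonal element in `SL₃`. -/
def Dh (hF : Fintype.card F = 4) {ω : F} (h0 : ω ≠ 0) : SL3 := ⟨Dm ω, det_Dm (cube_eq_one hF h0)⟩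

theorem exists_diag' (hF : Fintype.card F = 4) {ω : F} (h0 : ω ≠ 0) (h1 : ω ≠ 1) (hω : ω ^ 2 + ω + 1 = 0) (s : SL3) (hs : (s : Matrix (Fin 3) (Fin 3) F) ^ 3 = 1)
    (hns : ∀ c : F, (s : Matrix (Fin 3) (Fin 3) F) ≠ c • 1) : ∃ g : SL3, s = g * Dh hF h0 * g⁻¹ := by
  obtain ⟨g, hg, he⟩ := exists_diag hF h0 h1 hω s.2 hs hns
  let G : SL3 := ⟨g, hg⟩
  refine ⟨G, ?_⟩
  rw [eq_mul_inv_iff_mul_eq]
  exact Subtype.ext he

/-- Elements of order three of `PSL₃(4)` are conjugate. -/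
theorem order_three_conj (hF : Fintype.card F = 4) (x y : PSL3) (hx : x ^ 3 = 1) (hx1 : x ≠ 1) (hy : y ^ 3 = 1) (hy1 : y ≠ 1) : IsConj x y := by
  obtain ⟨ω, h0, h1, hω⟩ := exists_omega hF
  obtain ⟨s, rfl, hs, hsn⟩ := lift_cube hF x hx hx1
  obtain ⟨t, rfl, ht, htn⟩ := lift_cube hF y hy hy1
  obtain ⟨g, rfl⟩ := exists_diag' hF h0 h1 hω s hs hsn
  obtain ⟨g', rfl⟩ := exists_diag' hF h0 h1 hω t ht htn
  apply MonoidHom.map_isConj (QuotientGroup.mk' (Subgroup.center SL3))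
  rw [isConj_iff]
  refine ⟨g' * g⁻¹, ?_⟩
  group

/-- The ninth power of an element normalising `⟨D⟩` modulo the centre. -/
theorem pow_nine (hF : Fintype.card F = 4) {ω : F} (h0 : ω ≠ 0) (h1 : ω ≠ 1) (hω : ω ^ 2 + ω + 1 = 0) (w z : SL3) (hz : z ∈ Subgroup.center SL3)
    (he : Dh hF h0 * w = w * Dh hF h0 * z) : w ^ 9 = 1 := by
  classical
  obtain ⟨r, hr3, hr⟩ := (Matrix.SpecialLinearGroup.mem_center_iff).1 hz
  simp only [Fintype.card_fin] at hr3
  have hz3 : z ^ 3 = 1 := by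
    apply Subtype.ext
    show (z : Matrix (Fin 3) (Fin 3) F) ^ 3 = 1
    rw [← hr]
    simp only [Matrix.scalar_apply, Matrix.diagonal_pow]
    rw [← Matrix.diagonal_one]
    congr 1
    funext i
    simpa using hr3
  have hzc : ∀ y : SL3, y * z = z * y := Subgroup.mem_center_iff.1 hz
  -- `w ^ 3` commutes with `D`
  have hc : Dh hF h0 * w ^ 3 = w ^ 3 * Dh hF h0 := by
    have step : ∀ k : ℕ, Dh hF h0 * w ^ k = w ^ k * Dh hF h0 * z ^ k := by
      intro k
      induction k with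
      | zero => simp
      | succ k ih =>
        rw [pow_succ w k, ← mul_assoc, ih]
        calc w ^ k * Dh hF h0 * z ^ k * w = w ^ k * Dh hF h0 * (z ^ k * w) := by group
          _ = w ^ k * Dh hF h0 * (w * z ^ k) := by
            congr 1
            have : ∀ m : ℕ, z ^ m * w = w * z ^ m := by
              intro m
              induction m with
              | zero => simp
              | succ m ihm =>
                rw [pow_succ, mul_assoc, (hzc w).symm, ← mul_assoc, ihm, mul_assoc]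
            exact this k
          _ = w ^ k * (Dh hF h0 * w) * z ^ k := by group
          _ = w ^ k * (w * Dh hF h0 * z) * z ^ k := by rw [he]
          _ = w ^ (k + 1) * Dh hF h0 * z ^ (k + 1) := by
            rw [pow_succ w k, pow_succ z k]
            have : z * z ^ k = z ^ k * z := by rw [← pow_succ', pow_succ]
            calc w ^ k * (w * Dh hF h0 * z) * z ^ k = w ^ k * w * Dh hF h0 * (z * z ^ k) := by simp only [mul_assoc]
              _ = w ^ k * w * Dh hF h0 * (z ^ k * z) := by rw [this]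
    rw [step 3, hz3, mul_one]
  -- so it is diagonal
  have hM : ((w ^ 3 : SL3) : Matrix (Fin 3) (Fin 3) F) * Dm ω = Dm ω * ((w ^ 3 : SL3) : Matrix (Fin 3) (Fin 3) F) :=
    (congrArg (fun y : SL3 => (y : Matrix (Fin 3) (Fin 3) F)) hc).symm
  have hdiag := diag_of_comm h0 h1 hω _ hM
  set M : Matrix (Fin 3) (Fin 3) F := ((w ^ 3 : SL3) : Matrix (Fin 3) (Fin 3) F) with hMdef
  have hdet : M.det = 1 := (w ^ 3).2
  have hne : M 0 0 ≠ 0 ∧ M 1 1 ≠ 0 ∧ M 2 2 ≠ 0 := by
    rw [hdiag, Matrix.det_diagonal, Fin.prod_univ_three] at hdet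
    simp only [Matrix.cons_val] at hdet
    refine ⟨?_, ?_, ?_⟩ <;> intro h00
    · rw [h00] at hdet
      simp at hdet
    · rw [h00] at hdet
      simp at hdet
    · rw [h00] at hdet
      simp at hdet
  have hM3 : M ^ 3 = 1 := by
    rw [hdiag, Matrix.diagonal_pow, ← Matrix.diagonal_one]
    congr 1
    funext i
    fin_cases i
    · exact cube_eq_one hF hne.1
    · exact cube_eq_one hF hne.2.1
    · exact cube_eq_one hF hne.2.2
  have : w ^ 9 = (w ^ 3) ^ 3 := by rw [← pow_mul]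
  rw [this]
  exact Subtype.ext hM3

/-- There is no element of order fifteen in `PSL₃(4)`. -/
theorem no_order_fifteen (hF : Fintype.card F = 4) (g : PSL3) : orderOf g ≠ 15 := by
  intro hg
  obtain ⟨ω, h0, h1, hω⟩ := exists_omega hF
  have hg15 : g ^ 15 = 1 := by
    rw [← hg]
    exact pow_orderOf_eq_one g
  have hx3 : (g ^ 5) ^ 3 = 1 := by
    rw [← pow_mul]
    exact hg15
  have hx1 : g ^ 5 ≠ 1 := by
    intro h
    have := orderOf_dvd_of_pow_eq_one h
    rw [hg] at this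
    omega
  have hy5 : (g ^ 3) ^ 5 = 1 := by
    rw [← pow_mul]
    exact hg15
  have hy1 : g ^ 3 ≠ 1 := by
    intro h
    have := orderOf_dvd_of_pow_eq_one h
    rw [hg] at this
    omega
  obtain ⟨s, hs, hs3, hsn⟩ := lift_cube hF (g ^ 5) hx3 hx1
  obtain ⟨q, rfl⟩ := exists_diag' hF h0 h1 hω s hs3 hsn
  obtain ⟨y, hy⟩ := QuotientGroup.mk_surjective (g ^ 3)
  -- commuting modulo the centre
  have hc : (g ^ 5) * (g ^ 3) = (g ^ 3) * (g ^ 5) := by
    rw [← pow_add, ← pow_add]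
  rw [← hs, ← hy, ← QuotientGroup.mk_mul, ← QuotientGroup.mk_mul] at hc
  have hz := (QuotientGroup.eq).1 hc
  obtain ⟨z₀, hz₀⟩ : ∃ z₀, z₀ = (q * Dh hF h0 * q⁻¹ * y)⁻¹ * (y * (q * Dh hF h0 * q⁻¹)) := ⟨_, rfl⟩
  rw [← hz₀] at hz
  have hz1 : y * (q * Dh hF h0 * q⁻¹) = q * Dh hF h0 * q⁻¹ * y * z₀ := by
    rw [hz₀]
    group
  have hzc : ∀ a : SL3, a * z₀ = z₀ * a := Subgroup.mem_center_iff.1 hz
  let w : SL3 := q⁻¹ * y * q
  have he : Dh hF h0 * w = w * Dh hF h0 * z₀⁻¹ := by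
    have e1 : w * Dh hF h0 = q⁻¹ * (y * (q * Dh hF h0 * q⁻¹)) * q := by
      simp only [w]
      group
    have e2 : w * Dh hF h0 = Dh hF h0 * w * z₀ := by
      rw [e1, hz1]
      calc q⁻¹ * (q * Dh hF h0 * q⁻¹ * y * z₀) * q = q⁻¹ * (q * Dh hF h0 * q⁻¹ * y) * (z₀ * q) := by simp only [mul_assoc]
        _ = q⁻¹ * (q * Dh hF h0 * q⁻¹ * y) * (q * z₀) := by rw [hzc q]
        _ = Dh hF h0 * w * z₀ := by
          simp only [w]
          group
    rw [e2]
    group
  have hw9 := pow_nine hF h0 h1 hω w z₀⁻¹ (Subgroup.inv_mem _ hz) he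
  have hy9 : y ^ 9 = 1 := by
    have e : y = q * w * q⁻¹ := by
      simp only [w]
      group
    rw [e, conj_pow, hw9]
    simp
  have hg39 : (g ^ 3) ^ 9 = 1 := by
    rw [← hy, ← QuotientGroup.mk_pow, hy9]
    rfl
  have h5 := orderOf_dvd_of_pow_eq_one hy5
  have h9 := orderOf_dvd_of_pow_eq_one hg39
  have h10 : orderOf (g ^ 3) ∣ Nat.gcd 5 9 := Nat.dvd_gcd h5 h9
  norm_num at h10
  exact hy1 h10

end Cfsg.Agent.Lib.Psl34b
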