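import Cfsg.Agent.Lib.OddStab
import Cfsg.Agent.Lib.H1Puig

set_option autoImplicit false
set_option linter.unusedSectionVars false
set_option linter.unusedVariables false
set_option linter.style.haveILetI false

namespace Cfsg.Agent.Lib.PuigOdd

open Subgroup Cfsg Cfsg.Agent.Lib.H1Puig

universe u

variable {G : Type u} [Group G]

/-- The family of abelian subgroups of `Q` normalized by `X`. -/
def Fam (Q X : Subgroup G) : Set (Subgroup G) :=
  {A | A ≤ Q ∧ IsMulCommutative A ∧ X ≤ normalizer (A : Set G)}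

theorem mem_Fam {Q X A : Subgroup G} :
    A ∈ Fam Q X ↔ A ≤ Q ∧ IsMulCommutative A ∧ X ≤ normalizer (A : Set G) := Iff.rfl

/-- The Puig series of `Q`, inside `G`. -/
def L (Q : Subgroup G) (n : ℕ) : Subgroup G := (puigSeq ↥Q n).map Q.subtype

theorem L_succ (Q : Subgroup G) (n : ℕ) : L Q (n + 1) = sSup (Fam Q (L Q n)) := by
  apply le_antisymm
  · rw [L, puigSeq_succ, puigStep, Subgroup.map_le_iff_le_comap]
    refine sSup_le ?_
    rintro A' ⟨hAc, hAn⟩ x hx
    rw [Subgroup.mem_comap]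
    refine (le_sSup (a := A'.map Q.subtype) (mem_Fam.2 ⟨Subgroup.map_subtype_le _, ?_, ?_⟩)) ⟨x, hx, rfl⟩
    · refine Cfsg.Agent.Lib.PGrp.isMulComm_of_comm ?_
      rintro _ ⟨a, ha, rfl⟩ _ ⟨b, hb, rfl⟩
      rw [← map_mul, ← map_mul, Cfsg.Agent.Lib.PGrp.comm_of_isMulComm hAc ha hb]
    · exact (Subgroup.map_mono hAn).trans (Subgroup.le_normalizer_map Q.subtype)
  · refine sSup_le ?_
    rintro A ⟨hAQ, hAc, hAn⟩ x hx
    have hxQ : x ∈ Q := hAQ hx
    refine ⟨⟨x, hxQ⟩, ?_, rfl⟩
    rw [puigSeq_succ, puigStep]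
    refine (le_sSup (a := A.subgroupOf Q) (show _ ∧ _ from ⟨?_, ?_⟩)) (Subgroup.mem_subgroupOf.2 hx)
    · refine Cfsg.Agent.Lib.PGrp.isMulComm_of_comm ?_
      intro a ha b hb
      apply Subtype.ext
      exact Cfsg.Agent.Lib.PGrp.comm_of_isMulComm hAc (Subgroup.mem_subgroupOf.1 ha) (Subgroup.mem_subgroupOf.1 hb)
    · intro y hy
      rw [mem_normalizer_iff]
      intro h
      rw [Subgroup.mem_subgroupOf, Subgroup.mem_subgroupOf]
      have hy' : (y : G) ∈ L Q n := ⟨y, hy, rfl⟩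
      have := mem_normalizer_iff.1 (hAn hy') (h : G)
      simpa using this

theorem L_normal (Q : Subgroup G) (hQ : Q.Normal) (n : ℕ) : (L Q n).Normal := by
  induction n with
  | zero =>
    have : L Q 0 = ⊥ := by
      rw [L, puigSeq_zero, Subgroup.map_bot]
    rw [this]
    infer_instance
  | succ n ih =>
    rw [L_succ]
    refine ⟨fun x hx g => ?_⟩
    have hle : sSup (Fam Q (L Q n)) ≤ (sSup (Fam Q (L Q n))).comap (MulAut.conj g).toMonoidHom := by
      refine sSup_le ?_
      rintro A ⟨hAQ, hAc, hAn⟩ a ha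
      rw [Subgroup.mem_comap]
      refine (le_sSup (a := A.map (MulAut.conj g).toMonoidHom) (mem_Fam.2 ⟨?_, ?_, ?_⟩)) ⟨a, ha, rfl⟩
      · rintro _ ⟨b, hb, rfl⟩
        exact hQ.conj_mem _ (hAQ hb) g
      · refine Cfsg.Agent.Lib.PGrp.isMulComm_of_comm ?_
        rintro _ ⟨b, hb, rfl⟩ _ ⟨c, hc, rfl⟩
        rw [← map_mul, ← map_mul, Cfsg.Agent.Lib.PGrp.comm_of_isMulComm hAc hb hc]
      · intro y hy
        have hy' : g⁻¹ * y * g ∈ L Q n := by
          have := ih.conj_mem y hy g⁻¹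
          simpa using this
        have hyN := hAn hy'
        rw [mem_normalizer_iff]
        intro h
        have hmem : ∀ w : G, w ∈ ((A.map (MulAut.conj g).toMonoidHom : Subgroup G) : Set G) ↔ g⁻¹ * w * g ∈ A := by
          intro w
          constructor
          · rintro ⟨b, hb, rfl⟩
            have : g⁻¹ * ((MulAut.conj g).toMonoidHom b) * g = b := by
              simp [MulAut.conj_apply]
              group
            rw [this]
            exact hb
          · intro h1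
            refine ⟨_, h1, ?_⟩
            simp [MulAut.conj_apply]
            group
        have h1 := hmem h
        have h2 := hmem (y * h * y⁻¹)
        simp only [SetLike.mem_coe] at h1 h2
        rw [h1, h2]
        have h3 := mem_normalizer_iff.1 hyN (g⁻¹ * h * g)
        rw [h3]
        have : g⁻¹ * y * g * (g⁻¹ * h * g) * (g⁻¹ * y * g)⁻¹ = g⁻¹ * (y * h * y⁻¹) * g := by group
        rw [this]
    exact hle hx

variable [Finite G] {p : ℕ} [hp' : Fact p.Prime]

theorem ladder [Group.IsSolvable G] (hodd : Odd (Nat.card G)) (hp : p ≠ 2) (hO : pPrimeCore p G = ⊥) (S : Sylow p G) (n : ℕ) :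
    L (S : Subgroup G) (2 * n) ≤ L (pCore p G) (2 * n) ∧ L (pCore p G) (2 * n + 1) ≤ L (S : Subgroup G) (2 * n + 1) := by
  have hTS : pCore p G ≤ (S : Subgroup G) := Cfsg.Agent.Lib.H1Core.pCore_le_sylow p S
  have hTp : IsPGroup p (pCore p G) := Cfsg.Agent.Lib.H1Core.pCore_isPGroup p
  haveI hTn : (pCore p G).Normal := pCore_normal p G
  have stepB : ∀ n : ℕ, L (S : Subgroup G) (2 * n) ≤ L (pCore p G) (2 * n) →
      L (pCore p G) (2 * n + 1) ≤ L (S : Subgroup G) (2 * n + 1) := by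
    intro n h
    rw [L_succ (pCore p G) (2 * n), L_succ (S : Subgroup G) (2 * n)]
    refine sSup_le ?_
    rintro A ⟨hAQ, hAc, hAn⟩
    exact le_sSup (mem_Fam.2 ⟨hAQ.trans hTS, hAc, h.trans hAn⟩)
  induction n with
  | zero =>
    have h0 : L (S : Subgroup G) (2 * 0) ≤ L (pCore p G) (2 * 0) := by
      have : L (S : Subgroup G) (2 * 0) = ⊥ := by
        rw [L, Nat.mul_zero, puigSeq_zero, Subgroup.map_bot]
      rw [this]
      exact bot_le
    exact ⟨h0, stepB 0 h0⟩
  | succ n ih =>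
    have h1 : L (S : Subgroup G) (2 * (n + 1)) ≤ L (pCore p G) (2 * (n + 1)) := by
      rw [show 2 * (n + 1) = (2 * n + 1) + 1 by ring, L_succ (S : Subgroup G) (2 * n + 1), L_succ (pCore p G) (2 * n + 1)]
      refine sSup_le ?_
      rintro A ⟨hAQ, hAc, hAn⟩
      haveI hPn : (L (pCore p G) (2 * n + 1)).Normal := L_normal _ hTn _
      have hPp : IsPGroup p (L (pCore p G) (2 * n + 1)) := hTp.to_le (Subgroup.map_subtype_le _)
      have hle : pCore p G ⊓ centralizer ((L (pCore p G) (2 * n + 1) : Subgroup G) : Set G) ≤ L (pCore p G) (2 * n + 1) := by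
        intro x hx
        obtain ⟨hx1, hx2⟩ := Subgroup.mem_inf.1 hx
        refine ⟨⟨x, hx1⟩, ?_, rfl⟩
        apply centralizer_le_of_pgroup hTp (2 * n + 1) (by omega)
        rw [Subgroup.mem_centralizer_iff]
        intro h hh
        apply Subtype.ext
        exact Subgroup.mem_centralizer_iff.1 hx2 _ ⟨h, hh, rfl⟩
      have hfam := (Cfsg.Agent.Lib.OddStab.s1465 hodd hp (L (pCore p G) (2 * n + 1)) hPp {A}
        (by
          rintro B rfl
          exact ⟨hAc, S.2.to_le hAQ, ih.2.trans hAn⟩)).2 hO hle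
      rw [sSup_singleton] at hfam
      exact le_sSup (mem_Fam.2 ⟨hfam, hAc, ih.2.trans hAn⟩)
    exact ⟨h1, stepB (n + 1) h1⟩

theorem s1468 [Group.IsSolvable G] (hodd : Odd (Nat.card G)) (hp : p ≠ 2) (hO : pPrimeCore p G = ⊥) (S : Sylow p G) :
    (puigLower ↥(S : Subgroup G)).map (S : Subgroup G).subtype ≤ (puigLower ↥(pCore p G)).map (pCore p G).subtype ∧
      (puigLower ↥(pCore p G)).map (pCore p G).subtype ≤ (puigSubgroup ↥(pCore p G)).map (pCore p G).subtype ∧
      (puigSubgroup ↥(pCore p G)).map (pCore p G).subtype ≤ (puigSubgroup ↥(S : Subgroup G)).map (S : Subgroup G).subtype := by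
  refine ⟨?_, Subgroup.map_mono puigLower_le_puigSubgroup, ?_⟩
  · rw [puigLower, Subgroup.map_le_iff_le_comap]
    refine iSup_le fun n => ?_
    rw [← Subgroup.map_le_iff_le_comap]
    refine (ladder hodd hp hO S n).1.trans ?_
    exact Subgroup.map_mono (le_iSup (fun n => puigSeq ↥(pCore p G) (2 * n)) n)
  · rintro _ ⟨y, hy, rfl⟩
    have hTS : pCore p G ≤ (S : Subgroup G) := Cfsg.Agent.Lib.H1Core.pCore_le_sylow p S
    refine ⟨⟨y, hTS y.2⟩, SetLike.mem_coe.2 ?_, rfl⟩
    rw [puigSubgroup, Subgroup.mem_iInf]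
    intro n
    have hy' : y ∈ puigSubgroup ↥(pCore p G) := hy
    rw [puigSubgroup, Subgroup.mem_iInf] at hy'
    have h1 : (y : G) ∈ L (pCore p G) (2 * n + 1) := ⟨y, hy' n, rfl⟩
    obtain ⟨z, hz, hze⟩ := (ladder hodd hp hO S n).2 h1
    have : z = ⟨y, hTS y.2⟩ := Subtype.ext hze
    rwa [← this]

end Cfsg.Agent.Lib.PuigOdd
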