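import Mathlib
import Cfsg.Prelude.Def_ClassicalGeometry

set_option autoImplicit false

namespace Cfsg.Agent.Lib.QuadForm

open Matrix

variable {ι : Type} [Fintype ι] [DecidableEq ι] {F : Type*} [Field F]

theorem polarVec_dot (Q : QuadraticForm F (ι → F)) (v x : ι → F) :
    Cfsg.polarVec ⇑Q v ⬝ᵥ x = QuadraticMap.polar ⇑Q v x := by
  have hx : x = ∑ j, x j • (Pi.single j (1 : F) : ι → F) := by
    ext i
    simp [Finset.sum_apply, Pi.single_apply]
  conv_rhs => rw [hx]
  have h := map_sum (QuadraticMap.polarBilin Q v) (fun j => x j • (Pi.single j (1 : F) : ι → F)) Finset.univ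
  simp only [QuadraticMap.polarBilin_apply_apply] at h
  rw [h]
  simp only [QuadraticMap.polar_smul_right, dotProduct, Cfsg.polarVec, smul_eq_mul]
  exact Finset.sum_congr rfl (fun j _ => mul_comm _ _)

theorem vecMulVec_polarVec_mulVec (Q : QuadraticForm F (ι → F)) (u v x : ι → F) :
    (Matrix.vecMulVec u (Cfsg.polarVec ⇑Q v)) *ᵥ x = QuadraticMap.polar ⇑Q v x • u := by
  rw [Matrix.vecMulVec_mulVec, polarVec_dot]
  ext i
  simp [mul_comm]

/-- Action of the reflection matrix -/
theorem reflection_mulVec (Q : QuadraticForm F (ι → F)) (v x : ι → F) :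
    (Cfsg.reflectionMatrix ⇑Q v) *ᵥ x = x - ((Q v)⁻¹ * QuadraticMap.polar ⇑Q v x) • v := by
  unfold Cfsg.reflectionMatrix
  rw [Matrix.sub_mulVec, Matrix.one_mulVec, Matrix.smul_mulVec, vecMulVec_polarVec_mulVec, smul_smul]

theorem polar_self' (Q : QuadraticForm F (ι → F)) (v : ι → F) :
    QuadraticMap.polar ⇑Q v v = 2 * Q v := by
  rw [QuadraticMap.polar_self]
  simp [two_mul, add_smul, two_smul]

theorem reflection_preserves (Q : QuadraticForm F (ι → F)) (v : ι → F) (hv : Q v ≠ 0) (x : ι → F) :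
    Q ((Cfsg.reflectionMatrix ⇑Q v) *ᵥ x) = Q x := by
  rw [reflection_mulVec, sub_eq_add_neg, QuadraticMap.map_add (⇑Q), ← neg_smul, QuadraticMap.map_smul,
    QuadraticMap.polar_smul_right Q _ x v, QuadraticMap.polar_comm (⇑Q) x v]
  simp only [smul_eq_mul]
  field_simp
  ring

theorem reflection_self (Q : QuadraticForm F (ι → F)) (v : ι → F) (hv : Q v ≠ 0) :
    (Cfsg.reflectionMatrix ⇑Q v) *ᵥ v = -v := by
  rw [reflection_mulVec, polar_self']
  have : (Q v)⁻¹ * (2 * Q v) = 2 := by field_simp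
  rw [this, two_smul]
  abel

theorem reflection_det (Q : QuadraticForm F (ι → F)) (v : ι → F) (hv : Q v ≠ 0) :
    (Cfsg.reflectionMatrix ⇑Q v).det = -1 := by
  unfold Cfsg.reflectionMatrix
  rw [Matrix.vecMulVec_eq Unit, ← Matrix.smul_mul, sub_eq_add_neg, ← Matrix.neg_mul, Matrix.det_one_add_mul_comm]
  have h : ∀ i j, ((Matrix.replicateRow Unit (Cfsg.polarVec ⇑Q v)) * (-((Q v)⁻¹ • Matrix.replicateCol Unit v))) i j = -2 := by
    intro i j
    simp only [Matrix.mul_neg, Matrix.mul_smul, Matrix.neg_apply, Matrix.smul_apply, smul_eq_mul]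
    rw [Matrix.mul_apply]
    simp only [Matrix.replicateRow_apply, Matrix.replicateCol_apply]
    have := polarVec_dot Q v v
    rw [polar_self'] at this
    have h2 : (Q v)⁻¹ * (2 * Q v) = 2 := by field_simp
    rw [← h2, ← this]
    rfl
  rw [Matrix.det_unique, Matrix.add_apply, Matrix.one_apply_eq, h]
  ring

end Cfsg.Agent.Lib.QuadForm
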