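import Cfsg.Agent.S1452
import Cfsg.Agent.Lib.PGrp7

set_option autoImplicit false
set_option linter.unusedSectionVars false
set_option linter.unusedVariables false
set_option linter.style.haveILetI false

namespace Cfsg.Agent.Lib.R3Max

open Subgroup Cfsg
open scoped commutatorElement
open Cfsg.Agent.Lib

variable {R : Type*} [Group R] [Finite R] {p : ℕ} [hp : Fact p.Prime]

theorem sup_elem {A B : Subgroup R} (hA : IsElementaryAbelian p A) (hB : IsElementaryAbelian p B)
    (hAB : ∀ a ∈ A, ∀ b ∈ B, a * b = b * a) : IsElementaryAbelian p (A ⊔ B) := by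
  have hcomm : ∀ a ∈ A ⊔ B, ∀ b ∈ A ⊔ B, a * b = b * a := by
    have h1 : A ⊔ B ≤ centralizer (A : Set R) :=
      sup_le (fun x hx => mem_centralizer_iff.2 fun y hy => PGrp.comm_of_isMulComm hA.1 hy hx)
        (fun x hx => mem_centralizer_iff.2 fun y hy => hAB y hy x hx)
    have h2 : A ⊔ B ≤ centralizer (B : Set R) :=
      sup_le (fun x hx => mem_centralizer_iff.2 fun y hy => (hAB x hx y hy).symm)
        (fun x hx => mem_centralizer_iff.2 fun y hy => PGrp.comm_of_isMulComm hB.1 hy hx)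
    have h3 : A ⊔ B ≤ centralizer ((A ⊔ B : Subgroup R) : Set R) :=
      sup_le (fun x hx => mem_centralizer_iff.2 fun y hy => (mem_centralizer_iff.1 (h1 hy) x hx).symm)
        (fun x hx => mem_centralizer_iff.2 fun y hy => (mem_centralizer_iff.1 (h2 hy) x hx).symm)
    intro a ha b hb
    exact mem_centralizer_iff.1 (h3 hb) a ha
  refine ⟨PGrp.isMulComm_of_comm hcomm, ?_⟩
  let Q : Subgroup R :=
    { carrier := {x | x ∈ A ⊔ B ∧ x ^ p = 1}
      mul_mem' := by
        rintro a b ⟨ha, ha'⟩ ⟨hb, hb'⟩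
        refine ⟨mul_mem ha hb, ?_⟩
        have hc : Commute a b := hcomm a ha b hb
        rw [hc.mul_pow, ha', hb', one_mul]
      one_mem' := ⟨one_mem _, one_pow _⟩
      inv_mem' := by
        rintro a ⟨ha, ha'⟩
        refine ⟨inv_mem ha, ?_⟩
        rw [inv_pow, ha', inv_one] }
  have hQ : A ⊔ B ≤ Q := sup_le
    (fun x hx => ⟨(le_sup_left : A ≤ A ⊔ B) hx, hA.2 x hx⟩)
    (fun x hx => ⟨(le_sup_right : B ≤ A ⊔ B) hx, hB.2 x hx⟩)
  exact fun a ha => (hQ ha).2

theorem zpowers_elem {x : R} (hx : x ^ p = 1) : IsElementaryAbelian p (zpowers x) := by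
  refine ⟨PGrp.isMulComm_of_comm ?_, ?_⟩
  · rintro _ ⟨m, rfl⟩ _ ⟨n, rfl⟩
    exact (Commute.refl x).zpow_zpow m n
  · rintro _ ⟨m, rfl⟩
    change (x ^ m) ^ p = 1
    rw [← zpow_natCast, ← zpow_mul, mul_comm, zpow_mul, zpow_natCast, hx, one_zpow]

theorem comm_pow {x y : R} (hz : ⁅y, x⁆ ∈ center R) (hy : y ^ p = 1) : ⁅y, x⁆ ^ p = 1 := by
  have h := PGrp.pow_mul_comm_aux (x := x) (y := y) (c := ⁅y, x⁆) PGrp.eq_comm_mul_of
    (PGrp.central_comm hz y) p
  rw [hy, one_mul, mul_one] at h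
  exact mul_eq_right.1 h.symm

theorem mem_Z2 {x : R} : x ∈ Subgroup.upperCentralSeries R 2 ↔ ∀ y : R, ⁅x, y⁆ ∈ center R := by
  rw [show (2 : ℕ) = 1 + 1 from rfl, Subgroup.mem_upperCentralSeries_succ_iff, Subgroup.upperCentralSeries_one]

theorem main (hp2 : p ≠ 2) (hR : IsPGroup p R) (hr : ¬ Cfsg.PRankLE p 2 R)
    (E : Subgroup R) (hE : Cfsg.IsElementaryAbelian p E) (hE2 : Nat.card E = p ^ 2)
    (hEmax : ∀ B : Subgroup R, Cfsg.IsElementaryAbelian p B → E ≤ B → B = E) :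
    ¬ E ≤ Subgroup.centralizer ((Subgroup.closure {x : R | x ∈ Subgroup.upperCentralSeries R 2 ∧ x ^ p = 1} : Subgroup R) : Set R) ∧
      Nat.card ↥(Subgroup.closure {x : R | x ∈ Subgroup.center R ∧ x ^ p = 1}) = p ∧
      (Cfsg.IsElementaryAbelian p (Subgroup.closure {x : R | x ∈ Subgroup.upperCentralSeries R 2 ∧ x ^ p = 1}) ∧
        Nat.card ↥(Subgroup.closure {x : R | x ∈ Subgroup.upperCentralSeries R 2 ∧ x ^ p = 1}) = p ^ 2) ∧
      (Subgroup.centralizer ((Subgroup.closure {x : R | x ∈ Subgroup.upperCentralSeries R 2 ∧ x ^ p = 1} : Subgroup R) : Set R)).Characteristic ∧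
      (Subgroup.centralizer ((Subgroup.closure {x : R | x ∈ Subgroup.upperCentralSeries R 2 ∧ x ^ p = 1} : Subgroup R) : Set R)).index = p := by
  classical
  have hpr : p.Prime := hp.out
  have hEc : IsMulCommutative E := hE.1
  have hEe : ∀ a ∈ E, a ^ p = 1 := hE.2
  have hp2' : p ^ 2 = p * p := by ring
  have hp2gt : p < p ^ 2 := by
    rw [hp2']
    exact lt_mul_of_one_lt_left hpr.pos hpr.one_lt
  -- elements of order `p` centralizing `E` lie in `E`
  have L1 : ∀ x : R, x ∈ centralizer (E : Set R) → x ^ p = 1 → x ∈ E := by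
    intro x hx hxp
    have h1 : zpowers x ≤ centralizer (E : Set R) := (zpowers_le).2 hx
    have := hEmax (E ⊔ zpowers x)
      (sup_elem hE (zpowers_elem hxp) (fun a ha b hb => mem_centralizer_iff.1 (h1 hb) a ha)) le_sup_left
    rw [← this]
    exact (le_sup_right : zpowers x ≤ E ⊔ zpowers x) (mem_zpowers x)
  -- `E` is not normal
  have hEnn : ¬ E.Normal := by
    intro hn
    haveI := hn
    obtain ⟨A, hEA, hAn, hAc, hAr⟩ := Cfsg.Agent.S1452.result p hp2 hR hr E hE hE2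
    apply hAr
    intro B hBc hBe
    have hAcomm : ∀ a ∈ A, ∀ b ∈ A, a * b = b * a := by
      intro a ha b hb
      have : b ∈ centralizer (A : Set R) := by rw [hAc]; exact hb
      exact mem_centralizer_iff.1 this a ha
    have hB' : IsElementaryAbelian p (B.map A.subtype) := by
      refine ⟨PGrp.isMulComm_of_comm ?_, ?_⟩
      · rintro _ ⟨a, -, rfl⟩ _ ⟨b, -, rfl⟩
        exact hAcomm _ a.2 _ b.2
      · rintro _ ⟨a, ha, rfl⟩
        have := hBe a ha
        simpa using congrArg Subtype.val this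
    have h1 := hEmax (E ⊔ B.map A.subtype) (sup_elem hE hB' (by
      rintro a ha _ ⟨b, -, rfl⟩
      exact hAcomm _ (hEA ha) _ b.2)) le_sup_left
    have h2 : B.map A.subtype ≤ E := by
      rw [← h1]
      exact le_sup_right
    have h3 : Nat.card (B.map A.subtype) = Nat.card B :=
      Nat.card_congr (Subgroup.equivMapOfInjective B A.subtype A.subtype_injective).toEquiv.symm
    rw [← h3, ← hE2]
    exact Subgroup.card_le_of_le h2
  -- the subgroup `Q₁`
  let Q₁ : Subgroup R :=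
    { carrier := {x | x ∈ center R ∧ x ^ p = 1}
      mul_mem' := by
        rintro a b ⟨ha, ha'⟩ ⟨hb, hb'⟩
        refine ⟨mul_mem ha hb, ?_⟩
        rw [(PGrp.central_comm ha b).mul_pow, ha', hb', one_mul]
      one_mem' := ⟨one_mem _, one_pow _⟩
      inv_mem' := by
        rintro a ⟨ha, ha'⟩
        exact ⟨inv_mem ha, by rw [inv_pow, ha', inv_one]⟩ }
  have hQ1 : Subgroup.closure {x : R | x ∈ center R ∧ x ^ p = 1} = Q₁ :=
    le_antisymm ((Subgroup.closure_le _).2 fun x hx => hx) (fun x hx => Subgroup.subset_closure hx)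
  have hQ1E : Q₁ ≤ E := fun x hx =>
    L1 x (mem_centralizer_iff.2 fun y _ => ((mem_center_iff.1 hx.1) y)) hx.2
  have hQ1ne : Q₁ ≠ E := by
    intro h
    apply hEnn
    refine ⟨fun n hn g => ?_⟩
    have hc : n ∈ center R := by
      rw [← h] at hn
      exact hn.1
    rw [(mem_center_iff.1 hc g), mul_inv_cancel_right]
    exact hn
  haveI hnt : Nontrivial R := by
    by_contra hnt
    rw [not_nontrivial_iff_subsingleton] at hnt
    have : Nat.card E = 1 := Nat.card_unique (α := E) |> fun h => by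
      have : Subsingleton E := inferInstance
      exact Nat.card_of_subsingleton (1 : E)
    rw [hE2] at this
    have h4 := hpr.one_lt
    have : p ^ 2 > 1 := by omega
    omega
  have hcenter : p ∣ Nat.card (center R) := by
    obtain ⟨n, hn⟩ := IsPGroup.iff_card.1 (hR.to_subgroup (center R))
    have hnt2 : Nontrivial (center R) := hR.center_nontrivial
    rw [hn]
    apply dvd_pow_self
    rintro rfl
    rw [pow_zero] at hn
    have := Finite.one_lt_card (α := center R)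
    omega
  obtain ⟨z, hz⟩ := exists_prime_orderOf_dvd_card' p hcenter
  have hzQ : (z : R) ∈ Q₁ := ⟨z.2, by
    have := pow_orderOf_eq_one z
    rw [hz] at this
    simpa using congrArg Subtype.val this⟩
  have hQ1bot : Q₁ ≠ ⊥ := by
    intro h
    rw [h, mem_bot] at hzQ
    have h1 : z = 1 := Subtype.ext hzQ
    rw [h1, orderOf_one] at hz
    exact hpr.one_lt.ne hz
  have hQ1card : Nat.card Q₁ = p := by
    have h1 : Nat.card Q₁ ∣ p ^ 2 := by
      rw [← hE2]
      exact Subgroup.card_dvd_of_le hQ1E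
    obtain ⟨k, hk, hk2⟩ := (Nat.dvd_prime_pow hpr).1 h1
    have hk0 : k ≠ 0 := by
      rintro rfl
      rw [pow_zero] at hk2
      exact hQ1bot (Subgroup.eq_bot_of_card_eq _ hk2)
    have hk3 : k ≠ 2 := by
      rintro rfl
      exact hQ1ne (Subgroup.eq_of_le_of_card_ge hQ1E (by rw [hE2, hk2]))
    have : k = 1 := by omega
    rw [hk2, this, pow_one]
  -- the subgroup `Q₂`
  have hcl2 : ∀ a b : R, a ∈ Subgroup.upperCentralSeries R 2 → a ^ p = 1 → b ^ p = 1 → (a * b) ^ p = 1 := by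
    intro a b ha ha' hb'
    have hz' : ⁅a, b⁆ ∈ center R := mem_Z2.1 ha b
    have hz2 : ⁅b, a⁆ ∈ center R := by
      rw [← commutatorElement_inv]
      exact inv_mem hz'
    rw [PGrp.pow_mul_class2 (c := ⁅b, a⁆) PGrp.eq_comm_mul_of (PGrp.central_comm hz2 a)
      (PGrp.central_comm hz2 b) p, ha', hb', one_mul, one_mul]
    exact PGrp.pow_eq_one_of_dvd' (comm_pow hz2 hb') (PGrp.prime_dvd_choose_two hpr hp2)
  let Q₂ : Subgroup R :=
    { carrier := {x | x ∈ Subgroup.upperCentralSeries R 2 ∧ x ^ p = 1}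
      mul_mem' := by
        rintro a b ⟨ha, ha'⟩ ⟨hb, hb'⟩
        exact ⟨mul_mem ha hb, hcl2 a b ha ha' hb'⟩
      one_mem' := ⟨one_mem _, one_pow _⟩
      inv_mem' := by
        rintro a ⟨ha, ha'⟩
        exact ⟨inv_mem ha, by rw [inv_pow, ha', inv_one]⟩ }
  have hQ2 : Subgroup.closure {x : R | x ∈ Subgroup.upperCentralSeries R 2 ∧ x ^ p = 1} = Q₂ :=
    le_antisymm ((Subgroup.closure_le _).2 fun x hx => hx) (fun x hx => Subgroup.subset_closure hx)
  have hQ1Q2 : Q₁ ≤ Q₂ := fun x hx => ⟨mem_Z2.2 fun y => by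
    have : ⁅x, y⁆ = 1 := by
      rw [commutatorElement_eq_one_iff_mul_comm]
      exact ((mem_center_iff.1 hx.1) y).symm
    rw [this]
    exact one_mem _, hx.2⟩
  -- a normal elementary abelian subgroup of order `p ^ 2`
  obtain ⟨F, hFn, hFc, hFe, hFcard⟩ : ∃ F : Subgroup R, F.Normal ∧ IsMulCommutative F ∧ (∀ a ∈ F, a ^ p = 1) ∧ Nat.card F = p ^ 3 := by
    by_contra hno
    apply hr
    intro A hAc hAe
    refine PGrp.card_le_of_no_normal_elem_cube hp2 hR ?_ A hAc hAe
    intro B hBn hBc hBe hBcard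
    exact hno ⟨B, hBn, hBc, hBe, hBcard⟩
  haveI := hFn
  obtain ⟨U, hUn, hUF, hUcard, -⟩ := PGrp.exists_chain hR F hFc 3 hFcard 2 (by norm_num)
  haveI := hUn
  have hUc : IsMulCommutative U := PGrp.isMulComm_of_comm fun a ha b hb =>
    PGrp.comm_of_isMulComm hFc (hUF ha) (hUF hb)
  have hUe : ∀ a ∈ U, a ^ p = 1 := fun a ha => hFe a (hUF ha)
  obtain ⟨U₁, hU₁n, hU₁U, hU₁card, -⟩ := PGrp.exists_chain hR U hUc 2 hUcard 1 (by norm_num)
  haveI := hU₁n
  rw [pow_one] at hU₁card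
  have hU₁c : U₁ ≤ center R := PGrp.le_center_of_card_eq hR U₁ hU₁card
  have hU₁Q : U₁ = Q₁ := Subgroup.eq_of_le_of_card_ge
    (fun x hx => ⟨hU₁c hx, hUe x (hU₁U hx)⟩) (by rw [hQ1card, hU₁card])
  -- `U ≤ Z₂`
  have hUZ : ∀ u ∈ U, ∀ y : R, ⁅u, y⁆ ∈ center R := by
    let π : R →* R ⧸ U₁ := QuotientGroup.mk' U₁
    have hπs : Function.Surjective π := QuotientGroup.mk'_surjective U₁
    haveI hNn : (U.map π).Normal := Subgroup.Normal.map hUn π hπs
    have hRq : IsPGroup p (R ⧸ U₁) := hR.to_quotient U₁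
    haveI : Group.IsNilpotent (R ⧸ U₁) := hRq.isNilpotent
    have hNne : U.map π ≠ ⊥ := by
      intro hb
      have h1 : U ≤ U₁ := by
        intro x hx
        have : π x ∈ U.map π := ⟨x, hx, rfl⟩
        rw [hb, mem_bot] at this
        exact (QuotientGroup.eq_one_iff x).1 this
      have h2 := Subgroup.card_le_of_le h1
      rw [hUcard, hU₁card] at h2
      omega
    have h1 := Cfsg.Agent.Lib.H1Frat.normal_inf_center_ne_bot (U.map π) hNne
    obtain ⟨w', hw', hw'1⟩ := (Subgroup.bot_or_exists_ne_one _).resolve_left h1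
    obtain ⟨⟨w, hw, hwe⟩, hw2⟩ := Subgroup.mem_inf.1 hw'
    have hwU₁ : w ∉ U₁ := by
      intro h
      apply hw'1
      rw [← hwe]
      exact (QuotientGroup.eq_one_iff w).2 h
    have hX : U₁ ⊔ zpowers w = U := by
      refine PGrp.eq_of_card_prime_mul (U := U₁) le_sup_left
        (sup_le hU₁U ((zpowers_le).2 hw)) ?_ (by rw [hUcard, hU₁card, hp2'])
      intro h
      apply hwU₁
      rw [h]
      exact (le_sup_right : zpowers w ≤ U₁ ⊔ zpowers w) (mem_zpowers w)
    have hUY : U ≤ (center (R ⧸ U₁)).comap π := by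
      rw [← hX]
      refine sup_le (fun x hx => ?_) ((zpowers_le).2 ?_)
      · rw [Subgroup.mem_comap]
        have : π x = 1 := (QuotientGroup.eq_one_iff x).2 hx
        rw [this]
        exact one_mem _
      · rw [Subgroup.mem_comap, hwe]
        exact hw2
    intro u hu y
    have h2 : π ⁅u, y⁆ = 1 := by
      rw [map_commutatorElement, commutatorElement_eq_one_iff_mul_comm]
      exact ((mem_center_iff.1 (hUY hu)) (π y)).symm
    exact hU₁c ((QuotientGroup.eq_one_iff _).1 h2)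
  have hUQ2 : U ≤ Q₂ := fun u hu => ⟨mem_Z2.2 (hUZ u hu), hUe u hu⟩
  have hUE : ¬ U ≤ E := by
    intro h
    have := Subgroup.eq_of_le_of_card_ge h (by rw [hUcard, hE2])
    apply hEnn
    rw [← this]
    exact hUn
  obtain ⟨u, hu, huE⟩ := SetLike.not_le_iff_exists.1 hUE
  have hEZ : ¬ E ≤ Q₂ := by
    intro h
    apply hEnn
    refine ⟨fun n hn g => ?_⟩
    have hin : n⁻¹ ∈ E := inv_mem hn
    have hZ : ⁅n⁻¹, g⁆ ∈ center R := mem_Z2.1 (h hin).1 g
    have hpw : ⁅n⁻¹, g⁆ ^ p = 1 := comm_pow hZ (hEe _ hin)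
    have hmem : ⁅n⁻¹, g⁆ ∈ E := hQ1E ⟨hZ, hpw⟩
    have : g * n * g⁻¹ = n * ⁅n⁻¹, g⁆ := by
      rw [commutatorElement_def]
      group
    rw [this]
    exact mul_mem hn hmem
  obtain ⟨e₀, he₀, hne⟩ : ∃ e₀ ∈ E, e₀ * u ≠ u * e₀ := by
    by_contra hall
    apply huE
    apply L1 u _ (hUe u hu)
    refine mem_centralizer_iff.2 fun e he => ?_
    by_contra hne
    exact hall ⟨e, he, hne⟩
  set c : R := ⁅e₀, u⁆ with hcdef
  have hcne : c ≠ 1 := by
    intro h
    rw [hcdef, commutatorElement_eq_one_iff_mul_comm] at h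
    exact hne h
  have hcZ : c ∈ center R := by
    rw [hcdef, ← commutatorElement_inv]
    exact inv_mem (hUZ u hu e₀)
  have hcp : c ^ p = 1 := comm_pow hcZ (hEe e₀ he₀)
  have hcQ : c ∈ Q₁ := ⟨hcZ, hcp⟩
  have hco : orderOf c = p := orderOf_eq_prime hcp hcne
  have hQz : zpowers c = Q₁ := Subgroup.eq_of_le_of_card_ge ((zpowers_le).2 hcQ)
    (by rw [hQ1card, Nat.card_zpowers, hco])
  have he₀Q : e₀ ∉ Q₁ := by
    intro h
    exact hne ((mem_center_iff.1 h.1) u).symm
  have hEX : Q₁ ⊔ zpowers e₀ = E := by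
    refine PGrp.eq_of_card_prime_mul (U := Q₁) le_sup_left
      (sup_le hQ1E ((zpowers_le).2 he₀)) ?_ (by rw [hE2, hQ1card, hp2'])
    intro h
    apply he₀Q
    rw [h]
    exact (le_sup_right : zpowers e₀ ≤ Q₁ ⊔ zpowers e₀) (mem_zpowers e₀)
  have hinf : E ⊓ Q₂ = Q₁ := by
    by_contra hne'
    have := PGrp.eq_of_card_prime_mul (U := Q₁) (X := E ⊓ Q₂) (V := E) (le_inf hQ1E hQ1Q2) inf_le_left
      (Ne.symm hne') (by rw [hE2, hQ1card, hp2'])
    exact hEZ (inf_eq_left.1 this)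
  have hQ2U : Q₂ ≤ U := by
    intro x hx
    have hxZ : ⁅e₀, x⁆ ∈ center R := by
      rw [← commutatorElement_inv]
      exact inv_mem (mem_Z2.1 hx.1 e₀)
    have hxp : ⁅e₀, x⁆ ^ p = 1 := comm_pow hxZ (hEe _ he₀)
    have hmem : ⁅e₀, x⁆ ∈ zpowers c := by
      rw [hQz]
      exact ⟨hxZ, hxp⟩
    obtain ⟨k, hk⟩ := hmem
    have hk' : c ^ k = ⁅e₀, x⁆ := hk
    have h1 : e₀ * x * e₀⁻¹ = c ^ k * x := by
      rw [hk', commutatorElement_def]
      group
    have h2 : e₀ * u * e₀⁻¹ = c * u := by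
      rw [hcdef, commutatorElement_def]
      group
    have h3 : e₀ * u ^ k * e₀⁻¹ = c ^ k * u ^ k := by
      rw [← conj_zpow, h2, (PGrp.central_comm hcZ u).mul_zpow]
    have hck : c ^ k ∈ center R := zpow_mem hcZ k
    have hconj : e₀ * (x * (u ^ k)⁻¹) * e₀⁻¹ = x * (u ^ k)⁻¹ := by
      calc e₀ * (x * (u ^ k)⁻¹) * e₀⁻¹ = (e₀ * x * e₀⁻¹) * (e₀ * u ^ k * e₀⁻¹)⁻¹ := by group
        _ = (c ^ k * x) * (c ^ k * u ^ k)⁻¹ := by rw [h1, h3]
        _ = (c ^ k * (x * (u ^ k)⁻¹)) * (c ^ k)⁻¹ := by group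
        _ = ((x * (u ^ k)⁻¹) * c ^ k) * (c ^ k)⁻¹ := by rw [(mem_center_iff.1 hck) (x * (u ^ k)⁻¹)]
        _ = x * (u ^ k)⁻¹ := by rw [mul_inv_cancel_right]
    set v : R := x * (u ^ k)⁻¹ with hv
    have hvQ : v ∈ Q₂ := mul_mem hx (inv_mem (zpow_mem (hUQ2 hu) k))
    have hve₀ : e₀ * v = v * e₀ := by
      calc e₀ * v = (e₀ * v * e₀⁻¹) * e₀ := by group
        _ = v * e₀ := by rw [hconj]
    have hle : E ≤ centralizer ({v} : Set R) := by
      rw [← hEX]
      refine sup_le (fun q hq => ?_) ((zpowers_le).2 ?_)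
      · refine mem_centralizer_iff.2 fun h hh => ?_
        rw [Set.mem_singleton_iff] at hh
        subst hh
        exact ((mem_center_iff.1 hq.1) _)
      · refine mem_centralizer_iff.2 fun h hh => ?_
        rw [Set.mem_singleton_iff] at hh
        subst hh
        exact hve₀.symm
    have hvcomm : v ∈ centralizer (E : Set R) :=
      mem_centralizer_iff.2 fun e he => (mem_centralizer_iff.1 (hle he) v rfl).symm
    have hvE : v ∈ E := L1 v hvcomm hvQ.2
    have hvQ1 : v ∈ Q₁ := by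
      rw [← hinf]
      exact Subgroup.mem_inf.2 ⟨hvE, hvQ⟩
    have hvU : v ∈ U := hU₁U (hU₁Q ▸ hvQ1)
    have hxv : x = v * u ^ k := by
      rw [hv, inv_mul_cancel_right]
    rw [hxv]
    exact mul_mem hvU (zpow_mem hu k)
  have hQU : Q₂ = U := le_antisymm hQ2U hUQ2
  rw [hQ1, hQ2]
  have hnotE : ¬ E ≤ centralizer (Q₂ : Set R) := by
    intro h
    have h5 := mem_centralizer_iff.1 (h he₀) u (hUQ2 hu)
    exact hne h5.symm
  refine ⟨hnotE, hQ1card, ⟨?_, ?_⟩, ?_, ?_⟩
  · rw [hQU]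
    exact ⟨hUc, hUe⟩
  · rw [hQU]
    exact hUcard
  · rw [Subgroup.characteristic_iff_comap_le]
    intro φ g hg
    have hg' : φ g ∈ centralizer (Q₂ : Set R) := hg
    refine mem_centralizer_iff.2 fun h hh => ?_
    have hφc : ∀ z ∈ center R, φ z ∈ center R := by
      intro z hz
      refine mem_center_iff.2 fun g => ?_
      obtain ⟨g', rfl⟩ := φ.surjective g
      rw [← map_mul, ← map_mul, (mem_center_iff.1 hz) g']
    have hφh : φ h ∈ Q₂ := by
      refine ⟨mem_Z2.2 fun y => ?_, ?_⟩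
      · obtain ⟨y', rfl⟩ := φ.surjective y
        rw [← map_commutatorElement]
        exact hφc _ (mem_Z2.1 hh.1 y')
      · rw [← map_pow, hh.2, map_one]
    have := mem_centralizer_iff.1 hg' (φ h) hφh
    apply φ.injective
    rw [map_mul, map_mul]
    exact this
  · rw [hQU] at hnotE ⊢
    have h1 := PGrp.index_centralizer_le hR U hUc 2 hUcard
    simp only [Nat.choose_self, pow_one] at h1
    obtain ⟨n, hn⟩ := hR.index (centralizer (U : Set R))
    rw [hn] at h1 ⊢
    rcases n with _ | _ | n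
    · exfalso
      rw [pow_zero] at hn
      rw [Subgroup.index_eq_one] at hn
      apply hnotE
      rw [hn]
      exact le_top
    · rw [zero_add, pow_one]
    · exfalso
      have h6 : p ^ 2 ≤ p ^ (n + 1 + 1) := Nat.pow_le_pow_right hpr.pos (by omega)
      omega

end Cfsg.Agent.Lib.R3Max
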