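import Cfsg.Agent.Lib.ReeA
import Cfsg.Agent.Lib.ChevAut
import Cfsg.Agent.Lib.ChevSimp2

/-! Faithfulness of the block representations, without simplicity. -/

set_option autoImplicit false
set_option linter.unusedVariables false
set_option linter.unusedSectionVars false
set_option linter.unusedFintypeInType false
set_option linter.unusedDecidableInType false

namespace Cfsg.Agent.Lib.RF4A

open Cfsg.Lie Matrix Cfsg.Agent.Lib.ChevEngine Cfsg.Agent.Lib.ChevTab Cfsg.Agent.Lib.ChevMono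
  Cfsg.Agent.Lib.ChevRel Cfsg.Agent.Lib.ChevValid Cfsg.Agent.Lib.ChevGL Cfsg.Agent.Lib.ChevGrad Cfsg.Agent.Lib.ChevL2
  Cfsg.Agent.Lib.ChevU Cfsg.Agent.Lib.ChevU2 Cfsg.Agent.Lib.ChevU3 Cfsg.Agent.Lib.ChevDiag Cfsg.Agent.Lib.ChevV3
  Cfsg.Agent.Lib.ChevH Cfsg.Agent.Lib.ChevN Cfsg.Agent.Lib.ChevN2 Cfsg.Agent.Lib.ChevN3 Cfsg.Agent.Lib.ChevBN Cfsg.Agent.Lib.ChevBN2
  Cfsg.Agent.Lib.ChevV4 Cfsg.Agent.Lib.ChevSimp Cfsg.Agent.Lib.ChevSimp2 Cfsg.Agent.Lib.ChevAut3 Cfsg.Agent.Lib.ReeA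

section bn
open Cfsg.Agent.Lib.BNPair Cfsg.Agent.Lib.BNPair2

variable {G : Type*} [Group G] {P : Cfsg.BNPair G}

/-- Normal subgroups and irreducible `(B,N)`-pairs. -/
theorem normal_dich (hirr : P.Irreducible) (K : Subgroup G) [hK : K.Normal] : K ≤ P.B ∨ K ⊔ P.B = ⊤ := by
  set M := K ⊔ P.B with hM
  have hBM : P.B ≤ M := le_sup_right
  have hMeq := eq_parabolic_of_le M hBM
  set J := P.S ∩ (M : Set G) with hJ
  by_cases h1 : J.Nonempty
  · by_cases h2 : (P.S \ J).Nonempty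
    · exfalso
      obtain ⟨s, hsJ, s', hs'J, hcomm⟩ := hirr J Set.inter_subset_left h1 h2
      apply hcomm
      have hs's : s' ∈ P.S := hs'J.1
      have hs'M : s' ∉ M := fun h => hs'J.2 ⟨hs's, h⟩
      exact commute_of_normal K ⟨s, S_mem_N hsJ.1⟩ ⟨s', S_mem_N hs's⟩ hsJ.1 hs's hsJ.2 hs'M
    · right
      have hJS : J = P.S := by
        apply Set.Subset.antisymm Set.inter_subset_left
        intro s hs
        by_contra hn
        exact h2 ⟨s, hs, hn⟩
      have : M = ⊤ := by rw [hMeq, hJS, parabolic_S_eq_top]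
      exact this
  · left
    have hJ0 : J = ∅ := Set.not_nonempty_iff_eq_empty.1 h1
    have hMB : M = P.B := by
      rw [hMeq, hJ0]
      show P.B ⊔ Subgroup.closure ∅ = P.B
      simp
    have : K ≤ M := le_sup_left
    rwa [hMB] at this

end bn

section group

variable {D : ChevalleyDatum} {T : Tb} {C : Tc} {X : Tc3} {Y : Tc4} {F : Type*} [Field F] {m : ℕ} {e1 e2 : Fin m → D.Idx}
variable (V : Valid D T) (V2 : Valid2 D T C) (V3 : Valid3 T C X) (V4 : Valid4 D T C Y) (he : Function.Bijective (Sum.elim e1 e2))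
  (hblk : ∀ r < T.n, ∀ t : F, Blk e1 e2 (D.x F r t))

include V V2 V3 V4 he hblk

theorem e1_inj : Function.Injective e1 := by
  intro a b h
  have := he.1 (a₁ := Sum.inl a) (a₂ := Sum.inl b) h
  exact Sum.inl_injective this

/-- The row of elements of `U`. -/
theorem U_row (i0 : Fin m)
    (hU : ∀ r, T.n / 2 ≤ r → r < T.n → ∀ (t : F) (j : Fin m), blA e1 (D.x F r t) i0 j = (1 : Matrix (Fin m) (Fin m) F) i0 j)
    {g : GL D.Idx F} (hg : g ∈ D.posUnipotent F) : ∀ j, blA e1 (g : Matrix D.Idx D.Idx F) i0 j = (1 : Matrix (Fin m) (Fin m) F) i0 j := by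
  have hS := G_le_blkS V he hblk
  have hUG : ∀ {g : GL D.Idx F}, g ∈ D.posUnipotent F → g ∈ D.group F := fun h => U_le_G V V2 h
  have mulrow : ∀ {a b : GL D.Idx F}, b ∈ D.group F → (∀ j, blA e1 (a : Matrix D.Idx D.Idx F) i0 j = (1 : Matrix (Fin m) (Fin m) F) i0 j) →
      ∀ j, blA e1 ((a * b : GL D.Idx F) : Matrix D.Idx D.Idx F) i0 j = blA e1 (b : Matrix D.Idx D.Idx F) i0 j := by
    intro a b hb ha j
    rw [Units.val_mul, blA_mul he (hS hb).1, Matrix.mul_apply]
    simp_rw [ha]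
    simp [Matrix.one_apply]
  rw [posUnipotent_eq V] at hg
  induction hg using Subgroup.closure_induction with
  | mem x hx =>
    obtain ⟨r, t, hr, rfl⟩ := hx
    obtain ⟨h1, h2⟩ := (isPos_iff V V2 r).mp hr
    intro j
    rw [xU_val]
    exact hU r h1 (by rw [V.hn]; exact h2) t j
  | one =>
    intro j
    rw [Units.val_one, blA_one he]
  | mul a b ha hb h1 h2 =>
    have hb' : b ∈ D.posUnipotent F := by rw [posUnipotent_eq V]; exact hb
    intro j
    rw [mulrow (hUG hb') h1 j]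
    exact h2 j
  | inv a ha h1 =>
    have ha' : a ∈ D.posUnipotent F := by rw [posUnipotent_eq V]; exact ha
    have hinv := Subgroup.inv_mem _ (hUG ha')
    intro j
    have := mulrow hinv h1 j
    rw [← this, mul_inv_cancel, Units.val_one, blA_one he]

/-- Faithfulness of the block `A`. -/
theorem inj_of_row (i0 : Fin m) {i : ℕ} (hi : i < D.rank)
    (hU : ∀ r, T.n / 2 ≤ r → r < T.n → ∀ (t : F) (j : Fin m), blA e1 (D.x F r t) i0 j = (1 : Matrix (Fin m) (Fin m) F) i0 j)
    (hn : D.nMat F (D.simple i) 1 (e1 i0) (e1 i0) = 0) :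
    ∀ g ∈ D.group F, blA e1 (g : Matrix D.Idx D.Idx F) = 1 → g = 1 := by
  have hS := G_le_blkS V he hblk
  let f : ↥(D.group F) →* Matrix (Fin m) (Fin m) F :=
    { toFun := fun g => blA e1 ((g : GL D.Idx F) : Matrix D.Idx D.Idx F)
      map_one' := by
        show blA e1 (((1 : GL D.Idx F) : GL D.Idx F) : Matrix D.Idx D.Idx F) = 1
        rw [Units.val_one, blA_one he]
      map_mul' := by
        intro a b
        show blA e1 (((a : GL D.Idx F) * (b : GL D.Idx F) : GL D.Idx F) : Matrix D.Idx D.Idx F) = _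
        rw [Units.val_mul, blA_mul he (hS b.2).1] }
  let K : Subgroup ↥(D.group F) :=
    { carrier := {g | f g = 1}
      mul_mem' := by
        intro a b ha hb
        show f (a * b) = 1
        rw [map_mul, ha, hb, mul_one]
      one_mem' := map_one f
      inv_mem' := by
        intro a ha
        show blA e1 (((a : GL D.Idx F)⁻¹ : GL D.Idx F) : Matrix D.Idx D.Idx F) = 1
        have h3 := blA_mul_inv he (hS a.2)
        have ha' : blA e1 ((a : GL D.Idx F) : Matrix D.Idx D.Idx F) = 1 := ha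
        rwa [ha', mul_one] at h3 }
  have hN : K.Normal := by
    constructor
    intro n hn g
    show f (g * n * g⁻¹) = 1
    have hn' : f n = 1 := hn
    rw [map_mul, map_mul, hn', mul_one, ← map_mul, mul_inv_cancel, map_one]
  have hdich := normal_dich (P := bnPair (F := F) V V2 V3) (bn_irreducible V V2 V3 V4) K
  intro g hg h1
  have hgK : (⟨g, hg⟩ : ↥(D.group F)) ∈ K := h1
  rcases hdich with hle | htop
  · have hcore : K ≤ ((D.borelSubgroup F).subgroupOf (D.group F)).normalCore :=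
      (Subgroup.normal_le_normalCore).2 hle
    rw [core_trivial V V2 V3 V4] at hcore
    have := hcore hgK
    rw [Subgroup.mem_bot] at this
    exact congrArg Subtype.val this
  · exfalso
    have hrr : D.simple i < D.nroots := by
      have := sim_lt' V V2 V3 (i := i) (by rw [V.hl]; exact hi)
      rw [V.simple_eq hi, ← V.hn]
      exact this
    have hnG := nU_mem_G V hrr (1 : F)
    have hmem : (⟨nU V (D.simple i) 1, hnG⟩ : ↥(D.group F)) ∈ K ⊔ (bnPair (F := F) V V2 V3).B := by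
      rw [htop]; trivial
    obtain ⟨k, hk, b, hb, e⟩ := (Subgroup.mem_sup_of_normal_left (s := K) (t := (bnPair (F := F) V V2 V3).B)).1 hmem
    have hk2 : b⁻¹ * k * (b⁻¹)⁻¹ ∈ K := hN.conj_mem k hk b⁻¹
    have e2 : b⁻¹ * k * (b⁻¹)⁻¹ = b⁻¹ * ⟨nU V (D.simple i) 1, hnG⟩ := by
      rw [← e]; group
    rw [e2] at hk2
    have hbB : ((b : ↥(D.group F)) : GL D.Idx F) ∈ D.borelSubgroup F := hb
    obtain ⟨u, hu, h, hh, ebu⟩ := B_form V V2 V3 (Subgroup.inv_mem _ hbB)
    have hAeq : blA e1 ((u * h * nU V (D.simple i) 1 : GL D.Idx F) : Matrix D.Idx D.Idx F) = 1 := by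
      rw [← ebu]
      exact hk2
    have hHG := H_le_G V hh
    have hinj := e1_inj V V2 V3 V4 he hblk
    have e3 : blA e1 ((u * h * nU V (D.simple i) 1 : GL D.Idx F) : Matrix D.Idx D.Idx F) i0 i0 = 0 := by
      rw [Units.val_mul, blA_mul he (hS hnG).1, Units.val_mul, blA_mul he (hS hHG).1, nU_val]
      have e4 : ∀ j, (blA e1 (u : Matrix D.Idx D.Idx F) * blA e1 (h : Matrix D.Idx D.Idx F)) i0 j = blA e1 (h : Matrix D.Idx D.Idx F) i0 j := by
        intro j
        rw [Matrix.mul_apply]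
        simp_rw [U_row V V2 V3 V4 he hblk i0 hU hu]
        simp [Matrix.one_apply]
      rw [Matrix.mul_apply]
      simp_rw [e4]
      obtain ⟨c, rfl⟩ := (mem_H_iff V V2 V3).mp hh
      have hdiag : ∀ x, x ≠ i0 → blA e1 ((dgC D T C c : GL D.Idx F) : Matrix D.Idx D.Idx F) i0 x = 0 := by
        intro x hx
        show Matrix.diagonal _ (e1 i0) (e1 x) = 0
        rw [Matrix.diagonal_apply_ne]
        exact fun h => hx (hinj h).symm
      rw [Finset.sum_eq_single i0 (fun x _ hx => by rw [hdiag x hx, zero_mul]) (by simp)]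
      show _ * D.nMat F (D.simple i) 1 (e1 i0) (e1 i0) = 0
      rw [hn, mul_zero]
    rw [hAeq, Matrix.one_apply_eq] at e3
    exact one_ne_zero e3

end group

section tables

variable (D : ChevalleyDatum) {m : ℕ} (e1 : Fin m → D.Idx)

/-- The row check. -/
def chkRow (P0 : ℤ) (i0 : Fin m) : Prop :=
  ∀ r, r < D.nroots → D.nroots / 2 ≤ r → ∀ j : Fin m,
    eqP P0 (lookup (colX D r varT (code D (e1 j))) (code D (e1 i0))) (if i0 = j then Pl.const 1 else []) = true

/-- The entry check. -/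
def chkN (P0 : ℤ) (r : ℕ) (i : D.Idx) : Prop :=
  divP P0 (lookup (applyWord D [(r, Pl.const 1), (D.neg r, Pl.const (-1)), (r, Pl.const 1)] [(code D i, Pl.const 1)]) (code D i)) = true

variable {D e1}

theorem row_of_chk {F : Type*} [Field F] {P0 : ℕ} [CharP F P0] {i0 : Fin m} (h : chkRow D e1 (P0 : ℤ) i0) {r : ℕ} (hr : r < D.nroots)
    (hr2 : D.nroots / 2 ≤ r) (t : F) (j : Fin m) :
    blA e1 (D.x F r t) i0 j = (1 : Matrix (Fin m) (Fin m) F) i0 j := by
  have e := x_entry D t t t hr varT (e1 i0) (e1 j)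
  rw [eval_varT] at e
  show D.x F r t (e1 i0) (e1 j) = _
  rw [e, eval_of_eqP t t t (h r hr hr2 j)]
  by_cases hij : i0 = j
  · subst hij
    simp [Pl.eval_const]
  · rw [if_neg hij, Matrix.one_apply_ne hij]
    simp [Pl.eval]

theorem n_of_chk {F : Type*} [Field F] {P0 : ℕ} [CharP F P0] {r : ℕ} {i : D.Idx} (h : chkN D (P0 : ℤ) r i) :
    D.nMat F r 1 i i = 0 := by
  have h1 := eval_of_divP (1 : F) 1 1 h
  rw [← eval_lookup, ← word_mulVec_eval, SV.eval_cons', Pl.eval_const] at h1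
  have e3 : D.nMat F r 1 = D.wordMat F (SWord.eval (1 : F) 1 1 [(r, Pl.const 1), (D.neg r, Pl.const (-1)), (r, Pl.const 1)]) := by
    simp [ChevalleyDatum.nMat, ChevalleyDatum.nWord, SWord.eval, Pl.eval_const]
  rw [e3]
  have e4 := mulVec_bas_code D (D.wordMat F (SWord.eval (1 : F) 1 1 [(r, Pl.const 1), (D.neg r, Pl.const (-1)), (r, Pl.const 1)])) i i
  rw [← e4]
  simpa [SV.eval] using h1

end tables

end Cfsg.Agent.Lib.RF4A
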