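import Cfsg.Agent.Lib.RF4A
import Cfsg.Agent.Lib.ReeB
import Cfsg.Agent.Lib.ChevValidB2
import Cfsg.Agent.Lib.ChevV2B2
import Cfsg.Agent.Lib.ChevV3B2
import Cfsg.Agent.Lib.ChevV4B2

/-! The exceptional isogeny of `B2` in characteristic 2. -/

set_option autoImplicit false
set_option linter.unusedVariables false
set_option linter.unusedSectionVars false
set_option linter.unusedFintypeInType false
set_option linter.unusedDecidableInType false

namespace Cfsg.Agent.Lib.RF4B_B2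

open Cfsg.Lie Matrix Cfsg.Agent.Lib.ChevEngine Cfsg.Agent.Lib.ChevTab Cfsg.Agent.Lib.ChevMono
  Cfsg.Agent.Lib.ChevRel Cfsg.Agent.Lib.ChevValid Cfsg.Agent.Lib.ChevGL Cfsg.Agent.Lib.ChevGrad Cfsg.Agent.Lib.ChevL2
  Cfsg.Agent.Lib.ChevU Cfsg.Agent.Lib.ChevU2 Cfsg.Agent.Lib.ChevU3 Cfsg.Agent.Lib.ChevDiag Cfsg.Agent.Lib.ChevV3
  Cfsg.Agent.Lib.ChevH Cfsg.Agent.Lib.ChevN Cfsg.Agent.Lib.ChevN2 Cfsg.Agent.Lib.ChevN3 Cfsg.Agent.Lib.ChevBN Cfsg.Agent.Lib.ChevBN2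
  Cfsg.Agent.Lib.ChevSimp2 Cfsg.Agent.Lib.ChevAut3 Cfsg.Agent.Lib.ReeA Cfsg.Agent.Lib.RF4A
  Cfsg.Agent.Lib.ChevTbB2 Cfsg.Agent.Lib.ChevValidB2 Cfsg.Agent.Lib.ChevV2B2 Cfsg.Agent.Lib.ChevV3B2 Cfsg.Agent.Lib.ChevV4B2

/-- coordinates of the invariant block -/
def e1 : Fin 5 → chevB2.Idx :=
  ![Sum.inl ⟨0, by decide⟩, Sum.inr ⟨1, by decide⟩, Sum.inr ⟨2, by decide⟩, Sum.inr ⟨5, by decide⟩, Sum.inr ⟨6, by decide⟩]

/-- coordinates of the quotient block -/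
def e2 : Fin 5 → chevB2.Idx :=
  ![Sum.inl ⟨1, by decide⟩, Sum.inr ⟨0, by decide⟩, Sum.inr ⟨3, by decide⟩, Sum.inr ⟨4, by decide⟩, Sum.inr ⟨7, by decide⟩]

def rhoG (r : ℕ) : ℕ := [1, 0, 3, 2, 5, 4, 7, 6].getD r 0

def kG (r : ℕ) : ℕ := [1, 2, 2, 1, 1, 2, 2, 1].getD r 1

theorem he : Function.Bijective (Sum.elim e1 e2) := by decide +kernel

theorem chkB : chkBlk chevB2 e1 e2 ((2 : ℕ) : ℤ) := by
  unfold chkBlk
  decide +kernel

theorem chkC : chkAB chevB2 e1 e2 ((2 : ℕ) : ℤ) rhoG kG := by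
  unfold chkAB
  decide +kernel

theorem rho_lt : ∀ r, r < chevB2.nroots → rhoG r < chevB2.nroots := by decide +kernel

theorem n_eq : T.n = chevB2.nroots := valid.hn

theorem chkR : chkRow chevB2 e1 ((2 : ℕ) : ℤ) 1 := by
  unfold chkRow
  decide +kernel

theorem chkN0 : chkN chevB2 ((2 : ℕ) : ℤ) (chevB2.simple 1) (e1 1) := by
  unfold chkN
  decide +kernel

section
variable {K : Type*} [Field K] [CharP K 2]

theorem hblk (r : ℕ) (hr : r < T.n) (t : K) : Blk e1 e2 (chevB2.x K r t) :=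
  Blk_of_chk (P0 := 2) chkB (by rw [← n_eq]; exact hr) t

theorem A_inj0 : ∀ g ∈ chevB2.group K, blA e1 (g : Matrix chevB2.Idx chevB2.Idx K) = 1 → g = 1 :=
  inj_of_row valid valid2 valid3 valid4 he (hblk (K := K)) 1 (i := 1) (by decide)
    (fun r h1 h2 t j => row_of_chk (P0 := 2) chkR (by rw [← n_eq]; exact h2) (by
      have : chevB2.nroots = T.n := n_eq.symm
      rw [this]; exact h1) t j) (n_of_chk (P0 := 2) chkN0)

/-- The exceptional isogeny. -/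
theorem exists_sigma0 : ∃ σ : ↥(chevB2.group K) →* ↥(chevB2.group K), ∀ {r : ℕ} (hr : r < T.n) (t : K),
    ((σ (xG valid hr t) : ↥(chevB2.group K)) : GL chevB2.Idx K) = xU valid (rhoG r) (t ^ kG r) := by
  have hρ : ∀ r < T.n, rhoG r < T.n := fun r hr => by
    rw [n_eq] at hr ⊢
    exact rho_lt r hr
  obtain ⟨σ, hσ⟩ := exists_sigma (c := fun r t => t ^ kG r) valid he (hblk (K := K)) hρ
    (fun r hr t => AB_of_chk (P0 := 2) chkC rho_lt (by rw [← n_eq]; exact hr) t) A_inj0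
  refine ⟨σ, fun {r} hr t => ?_⟩
  have hS := G_le_blkS valid he (hblk (K := K))
  have h1 := hσ (xG valid hr t)
  have hmem : xU valid (rhoG r) (t ^ kG r) ∈ chevB2.group K :=
    xU_mem_group valid (by rw [← n_eq]; exact hρ r hr) _
  have h2 : blB e2 (((xG valid hr t : ↥(chevB2.group K)) : GL chevB2.Idx K) : Matrix chevB2.Idx chevB2.Idx K) =
      blA e1 ((xU valid (rhoG r) (t ^ kG r) : GL chevB2.Idx K) : Matrix chevB2.Idx chevB2.Idx K) :=
    AB_of_chk (P0 := 2) chkC rho_lt (by rw [← n_eq]; exact hr) t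
  rw [h2] at h1
  set a : GL chevB2.Idx K := ((σ (xG valid hr t) : ↥(chevB2.group K)) : GL chevB2.Idx K) with ha
  have haG : a ∈ chevB2.group K := (σ (xG valid hr t)).2
  have h3 : a⁻¹ * xU valid (rhoG r) (t ^ kG r) = 1 := by
    apply A_inj0 _ (Subgroup.mul_mem _ (Subgroup.inv_mem _ haG) hmem)
    rw [Units.val_mul, blA_mul he (hS hmem).1, ← h1, blA_mul_inv he (hS haG)]
  exact (inv_mul_eq_one.mp h3)

end

end Cfsg.Agent.Lib.RF4B_B2
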