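import Cfsg.Agent.Lib.RF4A
import Cfsg.Agent.Lib.ReeB
import Cfsg.Agent.Lib.ChevValidF4
import Cfsg.Agent.Lib.ChevV2F4
import Cfsg.Agent.Lib.ChevV3F4
import Cfsg.Agent.Lib.ChevV4F4

/-! The exceptional isogeny of `F4` in characteristic 2. -/

set_option autoImplicit false
set_option linter.unusedVariables false
set_option linter.unusedSectionVars false
set_option linter.unusedFintypeInType false
set_option linter.unusedDecidableInType false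

namespace Cfsg.Agent.Lib.RF4B_F4

open Cfsg.Lie Matrix Cfsg.Agent.Lib.ChevEngine Cfsg.Agent.Lib.ChevTab Cfsg.Agent.Lib.ChevMono
  Cfsg.Agent.Lib.ChevRel Cfsg.Agent.Lib.ChevValid Cfsg.Agent.Lib.ChevGL Cfsg.Agent.Lib.ChevGrad Cfsg.Agent.Lib.ChevL2
  Cfsg.Agent.Lib.ChevU Cfsg.Agent.Lib.ChevU2 Cfsg.Agent.Lib.ChevU3 Cfsg.Agent.Lib.ChevDiag Cfsg.Agent.Lib.ChevV3
  Cfsg.Agent.Lib.ChevH Cfsg.Agent.Lib.ChevN Cfsg.Agent.Lib.ChevN2 Cfsg.Agent.Lib.ChevN3 Cfsg.Agent.Lib.ChevBN Cfsg.Agent.Lib.ChevBN2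
  Cfsg.Agent.Lib.ChevSimp2 Cfsg.Agent.Lib.ChevAut3 Cfsg.Agent.Lib.ReeA Cfsg.Agent.Lib.RF4A
  Cfsg.Agent.Lib.ChevTbF4 Cfsg.Agent.Lib.ChevValidF4 Cfsg.Agent.Lib.ChevV2F4 Cfsg.Agent.Lib.ChevV3F4 Cfsg.Agent.Lib.ChevV4F4

/-- coordinates of the invariant block -/
def e1 : Fin 26 → chevF4.Idx :=
  ![Sum.inl ⟨0, by decide⟩, Sum.inl ⟨1, by decide⟩, Sum.inr ⟨3, by decide⟩, Sum.inr ⟨7, by decide⟩, Sum.inr ⟨8, by decide⟩, Sum.inr ⟨9, by decide⟩, Sum.inr ⟨10, by decide⟩, Sum.inr ⟨11, by decide⟩, Sum.inr ⟨12, by decide⟩, Sum.inr ⟨13, by decide⟩, Sum.inr ⟨14, by decide⟩, Sum.inr ⟨18, by decide⟩, Sum.inr ⟨19, by decide⟩, Sum.inr ⟨20, by decide⟩, Sum.inr ⟨27, by decide⟩, Sum.inr ⟨28, by decide⟩, Sum.inr ⟨29, by decide⟩, Sum.inr ⟨33, by decide⟩, Sum.inr ⟨34, by decide⟩, Sum.inr ⟨35, by decide⟩, Sum.inr ⟨36, by decide⟩, Sum.inr ⟨37, by decide⟩, Sum.inr ⟨38, by decide⟩,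 Sum.inr ⟨39, by decide⟩, Sum.inr ⟨40, by decide⟩, Sum.inr ⟨44, by decide⟩]

/-- coordinates of the quotient block -/
def e2 : Fin 26 → chevF4.Idx :=
  ![Sum.inl ⟨3, by decide⟩, Sum.inl ⟨2, by decide⟩, Sum.inr ⟨0, by decide⟩, Sum.inr ⟨1, by decide⟩, Sum.inr ⟨2, by decide⟩, Sum.inr ⟨4, by decide⟩, Sum.inr ⟨15, by decide⟩, Sum.inr ⟨5, by decide⟩, Sum.inr ⟨16, by decide⟩, Sum.inr ⟨21, by decide⟩, Sum.inr ⟨23, by decide⟩, Sum.inr ⟨6, by decide⟩, Sum.inr ⟨17, by decide⟩, Sum.inr ⟨22, by decide⟩, Sum.inr ⟨25, by decide⟩, Sum.inr ⟨30, by decide⟩, Sum.inr ⟨41, by decide⟩, Sum.inr ⟨24, by decide⟩, Sum.inr ⟨26, by decide⟩, Sum.inr ⟨31, by decide⟩, Sum.inr ⟨42, by decide⟩, Sum.inr ⟨32, by decide⟩, Sum.inr ⟨43, by decide⟩, Sum.inr ⟨45, by decide⟩, Sum.inr ⟨46, by decide⟩, Sum.inr ⟨47, by decide⟩]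

def rhoG (r : ℕ) : ℕ := [3, 7, 8, 0, 9, 11, 18, 1, 2, 4, 15, 5, 16, 21, 23, 10, 12, 19, 6, 17, 22, 13, 20, 14, 33, 27, 34, 25, 30, 41, 28, 35, 37, 24, 26, 31, 42, 32, 43, 45, 46, 29, 36, 38, 47, 39, 40, 44].getD r 0

def kG (r : ℕ) : ℕ := [1, 1, 1, 2, 1, 1, 1, 2, 2, 2, 2, 2, 2, 2, 2, 1, 1, 1, 2, 2, 2, 1, 1, 1, 1, 1, 1, 2, 2, 2, 1, 1, 1, 2, 2, 2, 2, 2, 2, 2, 2, 1, 1, 1, 2, 1, 1, 1].getD r 1

theorem he : Function.Bijective (Sum.elim e1 e2) := by decide +kernel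

theorem chkB : chkBlk chevF4 e1 e2 ((2 : ℕ) : ℤ) := by
  unfold chkBlk
  decide +kernel

theorem chkC : chkAB chevF4 e1 e2 ((2 : ℕ) : ℤ) rhoG kG := by
  unfold chkAB
  decide +kernel

theorem rho_lt : ∀ r, r < chevF4.nroots → rhoG r < chevF4.nroots := by decide +kernel

theorem n_eq : T.n = chevF4.nroots := valid.hn

theorem chkR : chkRow chevF4 e1 ((2 : ℕ) : ℤ) 2 := by
  unfold chkRow
  decide +kernel

theorem chkN0 : chkN chevF4 ((2 : ℕ) : ℤ) (chevF4.simple 0) (e1 2) := by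
  unfold chkN
  decide +kernel

section
variable {K : Type*} [Field K] [CharP K 2]

theorem hblk (r : ℕ) (hr : r < T.n) (t : K) : Blk e1 e2 (chevF4.x K r t) :=
  Blk_of_chk (P0 := 2) chkB (by rw [← n_eq]; exact hr) t

theorem A_inj0 : ∀ g ∈ chevF4.group K, blA e1 (g : Matrix chevF4.Idx chevF4.Idx K) = 1 → g = 1 :=
  inj_of_row valid valid2 valid3 valid4 he (hblk (K := K)) 2 (i := 0) (by decide)
    (fun r h1 h2 t j => row_of_chk (P0 := 2) chkR (by rw [← n_eq]; exact h2) (by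
      have : chevF4.nroots = T.n := n_eq.symm
      rw [this]; exact h1) t j) (n_of_chk (P0 := 2) chkN0)

/-- The exceptional isogeny. -/
theorem exists_sigma0 : ∃ σ : ↥(chevF4.group K) →* ↥(chevF4.group K), ∀ {r : ℕ} (hr : r < T.n) (t : K),
    ((σ (xG valid hr t) : ↥(chevF4.group K)) : GL chevF4.Idx K) = xU valid (rhoG r) (t ^ kG r) := by
  have hρ : ∀ r < T.n, rhoG r < T.n := fun r hr => by
    rw [n_eq] at hr ⊢
    exact rho_lt r hr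
  obtain ⟨σ, hσ⟩ := exists_sigma (c := fun r t => t ^ kG r) valid he (hblk (K := K)) hρ
    (fun r hr t => AB_of_chk (P0 := 2) chkC rho_lt (by rw [← n_eq]; exact hr) t) A_inj0
  refine ⟨σ, fun {r} hr t => ?_⟩
  have hS := G_le_blkS valid he (hblk (K := K))
  have h1 := hσ (xG valid hr t)
  have hmem : xU valid (rhoG r) (t ^ kG r) ∈ chevF4.group K :=
    xU_mem_group valid (by rw [← n_eq]; exact hρ r hr) _
  have h2 : blB e2 (((xG valid hr t : ↥(chevF4.group K)) : GL chevF4.Idx K) : Matrix chevF4.Idx chevF4.Idx K) =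
      blA e1 ((xU valid (rhoG r) (t ^ kG r) : GL chevF4.Idx K) : Matrix chevF4.Idx chevF4.Idx K) :=
    AB_of_chk (P0 := 2) chkC rho_lt (by rw [← n_eq]; exact hr) t
  rw [h2] at h1
  set a : GL chevF4.Idx K := ((σ (xG valid hr t) : ↥(chevF4.group K)) : GL chevF4.Idx K) with ha
  have haG : a ∈ chevF4.group K := (σ (xG valid hr t)).2
  have h3 : a⁻¹ * xU valid (rhoG r) (t ^ kG r) = 1 := by
    apply A_inj0 _ (Subgroup.mul_mem _ (Subgroup.inv_mem _ haG) hmem)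
    rw [Units.val_mul, blA_mul he (hS hmem).1, ← h1, blA_mul_inv he (hS haG)]
  exact (inv_mul_eq_one.mp h3)

end

end Cfsg.Agent.Lib.RF4B_F4
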