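import Cfsg.Agent.Lib.RF4B_B2
import Cfsg.Agent.Lib.RF4B_F4

/-! The graph automorphism is bijective over perfect fields. -/

set_option autoImplicit false
set_option linter.unusedVariables false
set_option linter.unusedSectionVars false
set_option linter.unusedFintypeInType false
set_option linter.unusedDecidableInType false

namespace Cfsg.Agent.Lib.RF4C

open Cfsg.Lie Matrix Cfsg.Agent.Lib.ChevEngine Cfsg.Agent.Lib.ChevTab Cfsg.Agent.Lib.ChevMono
  Cfsg.Agent.Lib.ChevRel Cfsg.Agent.Lib.ChevValid Cfsg.Agent.Lib.ChevGL Cfsg.Agent.Lib.ChevGrad Cfsg.Agent.Lib.ChevL2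
  Cfsg.Agent.Lib.ChevU Cfsg.Agent.Lib.ChevU2 Cfsg.Agent.Lib.ChevU3 Cfsg.Agent.Lib.ChevDiag Cfsg.Agent.Lib.ChevV3
  Cfsg.Agent.Lib.ChevH Cfsg.Agent.Lib.ChevN Cfsg.Agent.Lib.ChevN2 Cfsg.Agent.Lib.ChevN3 Cfsg.Agent.Lib.ChevBN Cfsg.Agent.Lib.ChevBN2
  Cfsg.Agent.Lib.ChevSimp2 Cfsg.Agent.Lib.ChevAut3 Cfsg.Agent.Lib.ReeA Cfsg.Agent.Lib.ReeB Cfsg.Agent.Lib.RF4A

variable {D : ChevalleyDatum} {T : Tb} {K : Type*} [Field K] (V : Valid D T)

/-- Homomorphisms agreeing on root elements. -/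
theorem hom_extG {H : Type*} [Group H] {f1 f2 : ↥(D.group K) →* H}
    (h : ∀ {r : ℕ} (hr : r < T.n) (t : K), f1 (xG V hr t) = f2 (xG V hr t)) : f1 = f2 := by
  ext ⟨g, hg⟩
  have hg' := hg
  rw [group_eq V] at hg'
  induction hg' using Subgroup.closure_induction with
  | mem x hx =>
    obtain ⟨r, t, hr, rfl⟩ := hx
    exact h (by rw [V.hn]; exact hr) t
  | one => exact (map_one f1).trans (map_one f2).symm
  | mul a b ha hb h1 h2 =>
    have e : (⟨a * b, hg⟩ : ↥(D.group K)) = ⟨a, by rw [group_eq V]; exact ha⟩ * ⟨b, by rw [group_eq V]; exact hb⟩ := rfl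
    rw [e, map_mul, map_mul, h1, h2]
  | inv a ha h1 =>
    have e : (⟨a⁻¹, hg⟩ : ↥(D.group K)) = (⟨a, by rw [group_eq V]; exact ha⟩)⁻¹ := rfl
    rw [e, map_inv, map_inv, h1]

theorem fld_comp (φ ψ : K ≃+* K) : (fld V φ).comp (fld V ψ) = fld V (ψ.trans φ) := by
  apply hom_extG V
  intro r hr t
  apply Subtype.ext
  show ((fld V φ (fld V ψ (xG V hr t)) : ↥(D.group K)) : GL D.Idx K) = _
  have h1 : fld V ψ (xG V hr t) = xG V hr (ψ t) := Subtype.ext (fld_x V ψ hr t)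
  rw [h1, fld_x, fld_x]
  rfl

theorem fld_refl : fld V (RingEquiv.refl K) = MonoidHom.id _ := by
  apply hom_extG V
  intro r hr t
  apply Subtype.ext
  rw [fld_x]
  rfl

theorem fld_bij (φ : K ≃+* K) : Function.Bijective (fld V φ) := by
  have h1 : (fld V φ).comp (fld V φ.symm) = MonoidHom.id _ := by
    rw [fld_comp]
    have : φ.symm.trans φ = RingEquiv.refl K := by
      ext x
      simp
    rw [this, fld_refl]
  have h2 : (fld V φ.symm).comp (fld V φ) = MonoidHom.id _ := by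
    rw [fld_comp]
    have : φ.trans φ.symm = RingEquiv.refl K := by
      ext x
      simp
    rw [this, fld_refl]
  constructor
  · intro a b e
    have := congrArg (fld V φ.symm) e
    have ea := congrFun (congrArg DFunLike.coe h2) a
    have eb := congrFun (congrArg DFunLike.coe h2) b
    simp only [MonoidHom.comp_apply, MonoidHom.id_apply] at ea eb
    rwa [ea, eb] at this
  · intro a
    refine ⟨fld V φ.symm a, ?_⟩
    have ea := congrFun (congrArg DFunLike.coe h1) a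
    simpa using ea

/-- The graph automorphism. -/
theorem exists_aut [CharP K 2] (hperf : ∀ x : K, ∃ y : K, y ^ 2 = x) {ρ k : ℕ → ℕ}
    (hρ : ∀ {r}, r < T.n → ρ r < T.n) (hρρ : ∀ {r}, r < T.n → ρ (ρ r) = r) (hk : ∀ {r}, r < T.n → k r * k (ρ r) = 2)
    {σ : ↥(D.group K) →* ↥(D.group K)}
    (hσ : ∀ {r : ℕ} (hr : r < T.n) (t : K), ((σ (xG V hr t) : ↥(D.group K)) : GL D.Idx K) = xU V (ρ r) (t ^ k r)) :
    ∃ α : ↥(D.group K) ≃* ↥(D.group K), ∀ {r : ℕ} (hr : r < T.n) (t : K), ((α (xG V hr t) : ↥(D.group K)) : GL D.Idx K) = xU V (ρ r) (t ^ k r) := by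
  haveI : Fact (Nat.Prime 2) := ⟨Nat.prime_two⟩
  have hbij : Function.Bijective (frobenius K 2) :=
    ⟨(frobenius K 2).injective, fun x => by
      obtain ⟨y, hy⟩ := hperf x
      exact ⟨y, by rw [frobenius_def, hy]⟩⟩
  let φ : K ≃+* K := RingEquiv.ofBijective (frobenius K 2) hbij
  have hφ : ∀ x, φ x = x ^ 2 := fun x => frobenius_def 2 x
  have hcomp : σ.comp σ = fld V φ := by
    apply hom_extG V
    intro r hr t
    apply Subtype.ext
    show ((σ (σ (xG V hr t)) : ↥(D.group K)) : GL D.Idx K) = _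
    have h1 : σ (xG V hr t) = xG V (hρ hr) (t ^ k r) := Subtype.ext (hσ hr t)
    rw [h1, hσ, fld_x, hρρ hr, hφ, ← pow_mul, hk hr]
  have hb := fld_bij V φ
  rw [← hcomp] at hb
  have hinj : Function.Injective σ := by
    intro a b e
    exact hb.1 (by simp [e])
  have hsurj : Function.Surjective σ := by
    intro a
    obtain ⟨b, hb'⟩ := hb.2 a
    exact ⟨σ b, hb'⟩
  exact ⟨MulEquiv.ofBijective σ ⟨hinj, hsurj⟩, fun hr t => hσ hr t⟩

end Cfsg.Agent.Lib.RF4C
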