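import Cfsg.Agent.Lib.RF4B_F4
import Cfsg.Agent.Lib.ReeC

/-! `²F₄`: the twisting endomorphism and the fixed points in the rank one groups. -/

set_option autoImplicit false
set_option linter.unusedVariables false
set_option linter.unusedSectionVars false
set_option linter.unusedFintypeInType false
set_option linter.unusedDecidableInType false

namespace Cfsg.Agent.Lib.RF4D

open Cfsg.Lie Matrix Cfsg.Agent.Lib.ChevEngine Cfsg.Agent.Lib.ChevTab Cfsg.Agent.Lib.ChevMono
  Cfsg.Agent.Lib.ChevRel Cfsg.Agent.Lib.ChevValid Cfsg.Agent.Lib.ChevGL Cfsg.Agent.Lib.ChevGrad Cfsg.Agent.Lib.ChevL2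
  Cfsg.Agent.Lib.ChevU Cfsg.Agent.Lib.ChevU2 Cfsg.Agent.Lib.ChevU3 Cfsg.Agent.Lib.ChevDiag Cfsg.Agent.Lib.ChevV3
  Cfsg.Agent.Lib.ChevH Cfsg.Agent.Lib.ChevN Cfsg.Agent.Lib.ChevN2 Cfsg.Agent.Lib.ChevN3 Cfsg.Agent.Lib.ChevBN Cfsg.Agent.Lib.ChevBN2
  Cfsg.Agent.Lib.ChevSimp2 Cfsg.Agent.Lib.ChevAut3 Cfsg.Agent.Lib.ChevTw4 Cfsg.Agent.Lib.ReeA
  Cfsg.Agent.Lib.RF4A Cfsg.Agent.Lib.RF4B_F4
  Cfsg.Agent.Lib.ChevTbF4 Cfsg.Agent.Lib.ChevValidF4 Cfsg.Agent.Lib.ChevV2F4 Cfsg.Agent.Lib.ChevV3F4 Cfsg.Agent.Lib.ChevV4F4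

open Cfsg.Agent.Lib.ReeB (fld fld_x)
open Cfsg.Agent.Lib.ReeC (chkW word_eq_of_chk mT)

def piG (i : ℕ) : ℕ := [3, 2, 1, 0].getD i 0

theorem tT_n : T.n = 48 := by decide +kernel
theorem tT_l : T.l = 4 := by decide +kernel

theorem rho_pos_tbl : ∀ r, r < 48 → 24 ≤ r → 24 ≤ rhoG r := by decide +kernel
theorem rho_neg_tbl : ∀ r, r < 48 → rhoG (T.neg r) = T.neg (rhoG r) := by decide +kernel
theorem rho_sim_tbl : ∀ i, i < 4 → rhoG (T.sim i) = T.sim (piG i) := by decide +kernel
theorem pi_lt_tbl : ∀ i, i < 4 → piG i < 4 := by decide +kernel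
theorem k_tbl : ∀ r, r < 48 → (kG r = 1 ∨ kG r = 2) ∧ kG (T.neg r) = kG r := by decide +kernel
theorem supp_tbl : ∀ r, r < 48 → ∀ i, i < 4 → (C.coef (rhoG r) (piG i) = 0 ↔ C.coef r i = 0) := by decide +kernel

section
variable {K : Type*} [Field K] [CharP K 2] (θ : K ≃+* K)

local notation "xr" => xU valid

noncomputable def sig0 : ↥(chevF4.group K) →* ↥(chevF4.group K) := Classical.choose (exists_sigma0 (K := K))

theorem sig0_x {r : ℕ} (hr : r < T.n) (t : K) :
    ((sig0 (xG valid hr t) : ↥(chevF4.group K)) : GL chevF4.Idx K) = xU valid (rhoG r) (t ^ kG r) :=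
  Classical.choose_spec (exists_sigma0 (K := K)) hr t

/-- The twisting endomorphism. -/
noncomputable def sigma : ↥(chevF4.group K) →* ↥(chevF4.group K) := (fld valid θ).comp sig0

theorem rho_lt' {r : ℕ} (hr : r < T.n) : rhoG r < T.n := by
  rw [n_eq] at hr ⊢
  exact rho_lt r hr

theorem sigma_x {r : ℕ} (hr : r < T.n) (t : K) :
    ((sigma θ (xG valid hr t) : ↥(chevF4.group K)) : GL chevF4.Idx K) = xU valid (rhoG r) (θ (t ^ kG r)) := by
  have h1 : sig0 (xG valid hr t) = xG valid (rho_lt' hr) (t ^ kG r) := Subtype.ext (sig0_x hr t)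
  show ((fld valid θ (sig0 (xG valid hr t)) : ↥(chevF4.group K)) : GL chevF4.Idx K) = _
  rw [h1, fld_x]

theorem neg2 (x : K) : -x = x := CharTwo.neg_eq x

/-- The twist as a structure. -/
noncomputable def tw : TwAut valid C K where
  σ := sigma θ
  ρ := rhoG
  π := piG
  c := fun r t => θ (t ^ kG r)
  hσ := fun hr t => sigma_x θ hr t
  ρ_lt := fun h => rho_lt' h
  ρ_pos := by
    intro r h1 h2
    have h3 : T.n / 2 = 24 := by rw [tT_n]
    rw [h3] at h1 ⊢
    rw [tT_n] at h2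
    exact rho_pos_tbl r h2 h1
  ρ_neg := by
    intro r h
    rw [tT_n] at h
    exact rho_neg_tbl r h
  ρ_sim := by
    intro i h
    rw [tT_l] at h
    exact rho_sim_tbl i h
  π_lt := by
    intro i h
    rw [tT_l] at h ⊢
    exact pi_lt_tbl i h
  c_ne := by
    intro r t hr ht
    simp only [ne_eq, map_eq_zero_iff θ θ.injective]
    exact pow_ne_zero _ ht
  c_inv := by
    intro r t hr ht
    rw [tT_n] at hr
    obtain ⟨h1, h2⟩ := k_tbl r hr
    rw [h2]
    rcases h1 with h1 | h1 <;> rw [h1]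
    · simp
    · rw [neg2, neg2, ← map_inv₀, inv_pow]
  supp := by
    intro r i hr hi
    rw [tT_n] at hr
    rw [tT_l] at hi
    exact supp_tbl r hr i hi

theorem mT_eval (k : ℤ) (a b : ℕ) (t u v : K) : Pl.eval t u v (mT k a b) = (k : K) * t ^ a * u ^ b := by
  simp [mT, Tm.eval]

/-- Words of two symbolic root elements commute -/
theorem comm_of_chk {i j : ℕ} (h : chkW chevF4 ((2 : ℕ) : ℤ) [(i, mT 1 1 0), (j, mT 1 0 1)] [(j, mT 1 0 1), (i, mT 1 1 0)] = true) (a b : K) :
    Commute (xr i a) (xr j b) := by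
  have h1 := word_eq_of_chk (P0 := 2) chevF4 h a b 0
  apply Units.ext
  simpa [ChevalleyDatum.wordMat, SWord.eval, mT_eval] using h1

theorem c_33_24 (a b : K) : Commute (xr 33 a) (xr 24 b) := comm_of_chk (by decide +kernel) a b
theorem c_27_28 (a b : K) : Commute (xr 27 a) (xr 28 b) := comm_of_chk (by decide +kernel) a b
theorem c_27_30 (a b : K) : Commute (xr 27 a) (xr 30 b) := comm_of_chk (by decide +kernel) a b
theorem c_25_28 (a b : K) : Commute (xr 25 a) (xr 28 b) := comm_of_chk (by decide +kernel) a b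
theorem c_25_30 (a b : K) : Commute (xr 25 a) (xr 30 b) := comm_of_chk (by decide +kernel) a b
theorem c_28_30 (a b : K) : Commute (xr 28 a) (xr 30 b) := comm_of_chk (by decide +kernel) a b

theorem R1 (t s : K) : xr 25 t * xr 27 s = xr 27 s * (xr 25 t * (xr 28 (t * s) * xr 30 (t * s ^ 2))) := by
  have h1 := word_eq_of_chk (P0 := 2) chevF4 (w1 := [(25, mT 1 1 0), (27, mT 1 0 1)])
    (w2 := [(27, mT 1 0 1), (25, mT 1 1 0), (28, mT 1 1 1), (30, mT 1 1 2)]) (by decide +kernel) t s 0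
  apply Units.ext
  simpa [ChevalleyDatum.wordMat, SWord.eval, mT_eval] using h1

/-- The central part. -/
noncomputable def WW (v w : K) : GL chevF4.Idx K := xr 28 v * xr 30 w

theorem WW_mul (v w v' w' : K) : WW v w * WW v' w' = WW (v + v') (w + w') := by
  unfold WW
  rw [(c_28_30 v' w).symm.mul_mul_mul_comm, xU_mul, xU_mul]

theorem WW_a (v w s : K) : Commute (WW v w) (xr 27 s) :=
  ((c_27_28 s v).mul_right (c_27_30 s w)).symm

theorem WW_b (v w s : K) : Commute (WW v w) (xr 25 s) :=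
  ((c_25_28 s v).mul_right (c_25_30 s w)).symm

/-- A general element of `XP` for the `B₂` orbit. -/
noncomputable def UA (s t v w : K) : GL chevF4.Idx K := xr 27 s * (xr 25 t * WW v w)

theorem UA_mul (s t v w s' t' v' w' : K) : UA s t v w * UA s' t' v' w' =
    UA (s + s') (t + t') (v + v' + t * s') (w + w' + t * s' ^ 2) := by
  unfold UA
  calc xr 27 s * (xr 25 t * WW v w) * (xr 27 s' * (xr 25 t' * WW v' w'))
      = xr 27 s * (xr 25 t * (WW v w * xr 27 s') * (xr 25 t' * WW v' w')) := by simp only [mul_assoc]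
    _ = xr 27 s * ((xr 25 t * xr 27 s') * (WW v w * (xr 25 t' * WW v' w'))) := by rw [(WW_a v w s').eq]; simp only [mul_assoc]
    _ = xr 27 s * ((xr 25 t * xr 27 s') * (xr 25 t' * (WW v w * WW v' w'))) := by
        rw [← mul_assoc (WW v w), (WW_b v w t').eq]; simp only [mul_assoc]
    _ = (xr 27 s * xr 27 s') * (xr 25 t * (WW (t * s') (t * s' ^ 2) * (xr 25 t' * (WW v w * WW v' w')))) := by
        rw [R1]; unfold WW; simp only [mul_assoc]
    _ = (xr 27 s * xr 27 s') * ((xr 25 t * xr 25 t') * (WW (t * s') (t * s' ^ 2) * (WW v w * WW v' w'))) := by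
        rw [← mul_assoc (WW (t * s') (t * s' ^ 2)), (WW_b _ _ t').eq]; simp only [mul_assoc]
    _ = _ := by
        rw [xU_mul, xU_mul, WW_mul, WW_mul]
        congr 3 <;> ring

theorem add2 (x y : K) : x + (y + x) = y := by
  rw [add_comm y, ← add_assoc, CharTwo.add_self_eq_zero, zero_add]

theorem UA_as (s t v w : K) : UA s t v w = xr 25 t * (xr 27 s * WW (v + t * s) (w + t * s ^ 2)) := by
  rw [← mul_assoc, R1, UA, mul_assoc, mul_assoc]
  congr 2
  have e : xr 28 (t * s) * xr 30 (t * s ^ 2) = WW (t * s) (t * s ^ 2) := rfl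
  rw [e, WW_mul, add2, add2]

/-- The coordinates as a function -/
def coordA (s t v w : K) (r : ℕ) : K :=
  if r = 25 then t else if r = 27 then s else if r = 28 then v else if r = 30 then w else 0

theorem UA_eq_pfr (s t v w : K) : UA s t v w = pfr valid (coordA s t (v + t * s) (w + t * s ^ 2)) 24 24 := by
  rw [UA_as]
  simp only [pfr, coordA, WW]
  simp [mul_assoc, xU_zero]

theorem UA_inj {s t v w s' t' v' w' : K} (h : UA s t v w = UA s' t' v' w') :
    s = s' ∧ t = t' ∧ v = v' ∧ w = w' := by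
  rw [UA_eq_pfr, UA_eq_pfr] at h
  have h0 := pfr_inj valid valid2 24 24 (by decide +kernel) (by decide) h
  have h25 := h0 25 (by omega) (by omega)
  have h27 := h0 27 (by omega) (by omega)
  have h28 := h0 28 (by omega) (by omega)
  have h30 := h0 30 (by omega) (by omega)
  simp only [coordA] at h25 h27 h28 h30
  norm_num at h25 h27 h28 h30
  subst h25 h27
  refine ⟨rfl, rfl, ?_, ?_⟩
  · exact add_right_cancel h28
  · exact add_right_cancel h30

theorem U0_inj {a b a' b' : K} (h : xr 33 a * xr 24 b = xr 33 a' * xr 24 b') : a = a' ∧ b = b' := by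
  have e : ∀ a b : K, xr 33 a * xr 24 b = pfr valid (fun r => if r = 24 then b else if r = 33 then a else 0) 24 24 := by
    intro a b
    rw [(c_33_24 a b).eq]
    simp only [pfr]
    simp [xU_zero]
  rw [e, e] at h
  have h0 := pfr_inj valid valid2 24 24 (by decide +kernel) (by decide) h
  have h24 := h0 24 (by omega) (by omega)
  have h33 := h0 33 (by omega) (by omega)
  norm_num at h24 h33
  exact ⟨h33, h24⟩

end

end Cfsg.Agent.Lib.RF4D
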