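import Cfsg.Agent.Lib.RF4D
import Cfsg.Agent.Lib.RF4C

/-! `²F₄`: the fixed points and the negative part. -/

set_option autoImplicit false
set_option linter.unusedVariables false
set_option linter.unusedSectionVars false
set_option linter.unusedFintypeInType false
set_option linter.unusedDecidableInType false

namespace Cfsg.Agent.Lib.RF4E

open Cfsg.Lie Matrix Cfsg.Agent.Lib.ChevEngine Cfsg.Agent.Lib.ChevTab Cfsg.Agent.Lib.ChevMono
  Cfsg.Agent.Lib.ChevRel Cfsg.Agent.Lib.ChevValid Cfsg.Agent.Lib.ChevGL Cfsg.Agent.Lib.ChevGrad Cfsg.Agent.Lib.ChevL2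
  Cfsg.Agent.Lib.ChevU Cfsg.Agent.Lib.ChevU2 Cfsg.Agent.Lib.ChevU3 Cfsg.Agent.Lib.ChevDiag Cfsg.Agent.Lib.ChevV3
  Cfsg.Agent.Lib.ChevH Cfsg.Agent.Lib.ChevN Cfsg.Agent.Lib.ChevN2 Cfsg.Agent.Lib.ChevN3 Cfsg.Agent.Lib.ChevBN Cfsg.Agent.Lib.ChevBN2
  Cfsg.Agent.Lib.ChevSimp2 Cfsg.Agent.Lib.ChevAut3 Cfsg.Agent.Lib.ChevTw1 Cfsg.Agent.Lib.ChevTw2 Cfsg.Agent.Lib.ChevTw4 Cfsg.Agent.Lib.ChevPar
  Cfsg.Agent.Lib.ReeA Cfsg.Agent.Lib.RF4A Cfsg.Agent.Lib.RF4B_F4 Cfsg.Agent.Lib.RF4C Cfsg.Agent.Lib.RF4D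
  Cfsg.Agent.Lib.ChevTbF4 Cfsg.Agent.Lib.ChevValidF4 Cfsg.Agent.Lib.ChevV2F4 Cfsg.Agent.Lib.ChevV3F4 Cfsg.Agent.Lib.ChevV4F4

open Cfsg.Agent.Lib.ReeC (chkW word_eq_of_chk mT)

/-- The involution on coordinates. -/
def omI : chevF4.Idx ≃ chevF4.Idx := Equiv.sumCongr (Equiv.refl _) Fin.revPerm

theorem omI_symm : omI.symm = omI := by
  ext i
  rcases i with i | i <;> simp [omI]

theorem omI_omI (i : chevF4.Idx) : omI (omI i) = i := by
  rcases i with i | i <;> simp [omI]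

theorem tau_tbl : ∀ r, r < 48 → ∀ i j : chevF4.Idx,
    eqP ((2 : ℕ) : ℤ) (lookup (colX chevF4 r varT (code chevF4 (omI j))) (code chevF4 (omI i)))
      (lookup (colX chevF4 (47 - r) varT (code chevF4 j)) (code chevF4 i)) = true := by
  decide +kernel

theorem neg_tbl : ∀ r, r < 48 → T.neg r = 47 - r := by decide +kernel
theorem vals : rhoG 33 = 24 ∧ rhoG 24 = 33 ∧ rhoG 27 = 25 ∧ rhoG 25 = 27 ∧ rhoG 28 = 30 ∧ rhoG 30 = 28 ∧
    kG 33 = 2 ∧ kG 24 = 1 ∧ kG 27 = 2 ∧ kG 25 = 1 ∧ kG 28 = 2 ∧ kG 30 = 1 := by decide +kernel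

theorem half : T.n / 2 = 24 := by rw [tT_n]

section
variable {K : Type*} [Field K] [CharP K 2]

local notation "xr" => xU valid

/-- The automorphism `x_r(t) ↦ x_{-r}(t)`. -/
noncomputable def tau : GL chevF4.Idx K →* GL chevF4.Idx K := Units.map (Matrix.reindexRingEquiv K omI).toMonoidHom

theorem tau_val (g : GL chevF4.Idx K) (i j : chevF4.Idx) : ((tau g : GL chevF4.Idx K) : Matrix chevF4.Idx chevF4.Idx K) i j = (g : Matrix chevF4.Idx chevF4.Idx K) (omI i) (omI j) := by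
  show (Matrix.reindexRingEquiv K omI (g : Matrix chevF4.Idx chevF4.Idx K)) i j = _
  simp only [Matrix.coe_reindexRingEquiv, Matrix.reindex_apply, Matrix.submatrix_apply, omI_symm]

theorem tau_tau (g : GL chevF4.Idx K) : tau (tau g) = g := by
  apply Units.ext
  ext i j
  rw [tau_val, tau_val, omI_omI, omI_omI]

theorem tau_x {r : ℕ} (hr : r < 48) (t : K) : tau (xr r t) = xr (47 - r) t := by
  apply Units.ext
  ext i j
  rw [tau_val, xU_val, xU_val]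
  have h1 := x_entry chevF4 t t t (r := r) hr varT (omI i) (omI j)
  rw [eval_varT] at h1
  have h2 := x_entry chevF4 t t t (r := 47 - r) (by show 47 - r < 48; omega) varT i j
  rw [eval_varT] at h2
  rw [h1, h2]
  exact eval_of_eqP (P0 := 2) t t t (tau_tbl r hr i j)

theorem tau_mem_G {g : GL chevF4.Idx K} (hg : g ∈ chevF4.group K) : tau g ∈ chevF4.group K := by
  rw [group_eq valid] at hg
  induction hg using Subgroup.closure_induction with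
  | mem x hx =>
    obtain ⟨r, t, hr, rfl⟩ := hx
    rw [tau_x hr]
    exact xU_mem_group valid (by show 47 - r < 48; omega) _
  | one => rw [map_one]; exact Subgroup.one_mem _
  | mul a b _ _ h1 h2 =>
    rw [map_mul]
    exact Subgroup.mul_mem _ h1 h2
  | inv a _ h1 =>
    rw [map_inv]
    exact Subgroup.inv_mem _ h1

noncomputable def tauG : ↥(chevF4.group K) →* ↥(chevF4.group K) :=
  (tau.comp (chevF4.group K).subtype).codRestrict _ (fun g => tau_mem_G g.2)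

variable (θ : K ≃+* K)

theorem sigma_tau (g : ↥(chevF4.group K)) : sigma θ (tauG g) = tauG (sigma θ g) := by
  have h := hom_extG (K := K) valid (f1 := (sigma θ).comp tauG) (f2 := tauG.comp (sigma θ)) (by
    intro r hr t
    have hr' : r < 48 := by rwa [tT_n] at hr
    apply Subtype.ext
    have h1 : tauG (xG valid hr t) = xG valid (r := 47 - r) (by rw [tT_n]; omega) t := Subtype.ext (tau_x hr' t)
    show ((sigma θ (tauG (xG valid hr t)) : ↥(chevF4.group K)) : GL chevF4.Idx K) = tau ((sigma θ (xG valid hr t) : ↥(chevF4.group K)) : GL chevF4.Idx K)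
    rw [h1, sigma_x, sigma_x]
    have h2 : rhoG r < 48 := rho_lt r hr'
    rw [tau_x h2]
    have h3 := rho_neg_tbl r hr'
    rw [neg_tbl r hr', neg_tbl _ h2] at h3
    rw [h3]
    obtain ⟨h4, h5⟩ := k_tbl r hr'
    rw [neg_tbl r hr'] at h5
    rw [h5])
  exact congrFun (congrArg DFunLike.coe h) g

variable {θ}

theorem tau_mem_Fix {g : GL chevF4.Idx K} (hg : g ∈ (tw θ).Fix) : tau g ∈ (tw θ).Fix := by
  rw [TwAut.mem_Fix] at hg ⊢
  obtain ⟨h, e⟩ := hg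
  refine ⟨tau_mem_G h, ?_⟩
  have h1 := sigma_tau θ ⟨g, h⟩
  have e2 : sigma θ ⟨g, h⟩ = ⟨g, h⟩ := Subtype.ext e
  rw [e2] at h1
  exact congrArg Subtype.val h1

theorem pos_iff (r : ℕ) : chevF4.IsPosRoot r ↔ 24 ≤ r ∧ r < 48 := by
  rw [isPos_iff valid valid2]
  rw [half]
  rfl

theorem neg_iff (r : ℕ) : chevF4.IsNegRoot r ↔ r < 24 := by
  rw [isNeg_iff valid valid2]
  rw [half]

/-- The subsets of simple roots. -/
def A0 : Set ℕ := {0, 3}
def A1 : Set ℕ := {1, 2}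
def AA : Fin 2 → Set ℕ := ![A0, A1]

theorem inJ0_iff (r : ℕ) : InJ C T.l A0 r ↔ C.coef r 1 = 0 ∧ C.coef r 2 = 0 := by
  constructor
  · intro h
    exact ⟨h 1 (by rw [tT_l]; omega) (by simp [A0]), h 2 (by rw [tT_l]; omega) (by simp [A0])⟩
  · rintro ⟨h1, h2⟩ i hi hn
    rw [tT_l] at hi
    have : i ≠ 0 ∧ i ≠ 3 := by
      simpa [A0] using hn
    have h3 : i = 1 ∨ i = 2 := by omega
    rcases h3 with rfl | rfl <;> assumption

theorem inJ1_iff (r : ℕ) : InJ C T.l A1 r ↔ C.coef r 0 = 0 ∧ C.coef r 3 = 0 := by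
  constructor
  · intro h
    exact ⟨h 0 (by rw [tT_l]; omega) (by simp [A1]), h 3 (by rw [tT_l]; omega) (by simp [A1])⟩
  · rintro ⟨h1, h2⟩ i hi hn
    rw [tT_l] at hi
    have : i ≠ 1 ∧ i ≠ 2 := by
      simpa [A1] using hn
    have h3 : i = 0 ∨ i = 3 := by omega
    rcases h3 with rfl | rfl <;> assumption

theorem tb0 : ∀ r, r < 48 → 24 ≤ r → ((C.coef r 1 = 0 ∧ C.coef r 2 = 0) ↔ (r = 33 ∨ r = 24)) := by decide +kernel
theorem tb1 : ∀ r, r < 48 → 24 ≤ r → ((C.coef r 0 = 0 ∧ C.coef r 3 = 0) ↔ (r = 25 ∨ r = 27 ∨ r = 28 ∨ r = 30)) := by decide +kernel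
theorem stb0 : ∀ r, r < 48 → 24 ≤ r → ((C.coef (rhoG r) 1 = 0 ∧ C.coef (rhoG r) 2 = 0) ↔ (C.coef r 1 = 0 ∧ C.coef r 2 = 0)) := by decide +kernel
theorem stb1 : ∀ r, r < 48 → 24 ≤ r → ((C.coef (rhoG r) 0 = 0 ∧ C.coef (rhoG r) 3 = 0) ↔ (C.coef r 0 = 0 ∧ C.coef r 3 = 0)) := by decide +kernel

theorem PJ0_iff {r : ℕ} : PJ T C A0 r ↔ r = 33 ∨ r = 24 := by
  constructor
  · rintro ⟨h1, h2, h3⟩
    rw [half] at h1
    rw [tT_n] at h2
    exact (tb0 r h2 h1).1 ((inJ0_iff r).1 h3)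
  · intro h
    have h' : 24 ≤ r ∧ r < 48 := by omega
    exact ⟨by rw [half]; exact h'.1, by rw [tT_n]; exact h'.2, (inJ0_iff r).2 ((tb0 r h'.2 h'.1).2 h)⟩

theorem PJ1_iff {r : ℕ} : PJ T C A1 r ↔ r = 25 ∨ r = 27 ∨ r = 28 ∨ r = 30 := by
  constructor
  · rintro ⟨h1, h2, h3⟩
    rw [half] at h1
    rw [tT_n] at h2
    exact (tb1 r h2 h1).1 ((inJ1_iff r).1 h3)
  · intro h
    have h' : 24 ≤ r ∧ r < 48 := by omega
    exact ⟨by rw [half]; exact h'.1, by rw [tT_n]; exact h'.2, (inJ1_iff r).2 ((tb1 r h'.2 h'.1).2 h)⟩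

theorem stable0 : (tw θ).Stable A0 := by
  constructor
  · rintro r ⟨h1, h2, h3⟩
    refine ⟨(tw θ).ρ_pos h1 h2, (tw θ).ρ_lt h2, ?_⟩
    rw [half] at h1
    rw [tT_n] at h2
    rw [inJ0_iff] at h3 ⊢
    exact (stb0 r h2 h1).2 h3
  · rintro r ⟨h1, h2, h3⟩
    refine ⟨(tw θ).ρ_pos h1 h2, (tw θ).ρ_lt h2, ?_⟩
    rw [half] at h1
    rw [tT_n] at h2
    rw [inJ0_iff] at h3 ⊢
    exact fun h => h3 ((stb0 r h2 h1).1 h)

theorem stable1 : (tw θ).Stable A1 := by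
  constructor
  · rintro r ⟨h1, h2, h3⟩
    refine ⟨(tw θ).ρ_pos h1 h2, (tw θ).ρ_lt h2, ?_⟩
    rw [half] at h1
    rw [tT_n] at h2
    rw [inJ1_iff] at h3 ⊢
    exact (stb1 r h2 h1).2 h3
  · rintro r ⟨h1, h2, h3⟩
    refine ⟨(tw θ).ρ_pos h1 h2, (tw θ).ρ_lt h2, ?_⟩
    rw [half] at h1
    rw [tT_n] at h2
    rw [inJ1_iff] at h3 ⊢
    exact fun h => h3 ((stb1 r h2 h1).1 h)

theorem xr_mem_XP0 {r : ℕ} (h : r = 33 ∨ r = 24) (t : K) : xr r t ∈ XP valid C K A0 :=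
  Subgroup.subset_closure ⟨r, t, PJ0_iff.2 h, rfl⟩

theorem xr_mem_XP1 {r : ℕ} (h : r = 25 ∨ r = 27 ∨ r = 28 ∨ r = 30) (t : K) : xr r t ∈ XP valid C K A1 :=
  Subgroup.subset_closure ⟨r, t, PJ1_iff.2 h, rfl⟩

/-- The general element of `XP` for the orthogonal orbit. -/
noncomputable def U0 (a b : K) : GL chevF4.Idx K := xr 33 a * xr 24 b

theorem U0_mul (a b a' b' : K) : U0 a b * U0 a' b' = U0 (a + a') (b + b') := by
  unfold U0
  rw [(c_33_24 a' b).symm.mul_mul_mul_comm, xU_mul, xU_mul]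

theorem U0_inv (a b : K) : (U0 a b)⁻¹ = U0 a b := by
  apply inv_eq_of_mul_eq_one_right
  rw [U0_mul, CharTwo.add_self_eq_zero, CharTwo.add_self_eq_zero]
  simp [U0, xU_zero]

theorem U0_mem (a b : K) : U0 a b ∈ XP valid C K A0 :=
  Subgroup.mul_mem _ (xr_mem_XP0 (Or.inl rfl) _) (xr_mem_XP0 (Or.inr rfl) _)

theorem XP0_form {x : GL chevF4.Idx K} (hx : x ∈ XP valid C K A0) : ∃ a b, x = U0 a b := by
  unfold XP at hx
  induction hx using Subgroup.closure_induction with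
  | mem x hx =>
    obtain ⟨r, t, hr, rfl⟩ := hx
    rcases PJ0_iff.1 hr with rfl | rfl
    · exact ⟨t, 0, by simp [U0, xU_zero]⟩
    · exact ⟨0, t, by simp [U0, xU_zero]⟩
  | one => exact ⟨0, 0, by simp [U0, xU_zero]⟩
  | mul a b _ _ h1 h2 =>
    obtain ⟨a1, b1, rfl⟩ := h1
    obtain ⟨a2, b2, rfl⟩ := h2
    exact ⟨_, _, U0_mul _ _ _ _⟩
  | inv a _ h1 =>
    obtain ⟨a1, b1, rfl⟩ := h1
    exact ⟨a1, b1, U0_inv _ _⟩

theorem UA_one : UA (0 : K) 0 0 0 = 1 := by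
  simp [UA, WW, xU_zero]

theorem UA_inv (s t v w : K) : (UA s t v w)⁻¹ = UA s t (v + t * s) (w + t * s ^ 2) := by
  apply inv_eq_of_mul_eq_one_right
  rw [UA_mul, CharTwo.add_self_eq_zero, CharTwo.add_self_eq_zero, ← add_assoc, CharTwo.add_self_eq_zero, ← add_assoc, CharTwo.add_self_eq_zero,
    zero_add, zero_add, CharTwo.add_self_eq_zero, CharTwo.add_self_eq_zero, UA_one]

theorem UA_mem (s t v w : K) : UA s t v w ∈ XP valid C K A1 := by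
  refine Subgroup.mul_mem _ (xr_mem_XP1 (by simp) _) (Subgroup.mul_mem _ (xr_mem_XP1 (by simp) _) (Subgroup.mul_mem _ (xr_mem_XP1 (by simp) _) (xr_mem_XP1 (by simp) _)))

theorem XP1_form {x : GL chevF4.Idx K} (hx : x ∈ XP valid C K A1) : ∃ s t v w, x = UA s t v w := by
  unfold XP at hx
  induction hx using Subgroup.closure_induction with
  | mem x hx =>
    obtain ⟨r, c, hr, rfl⟩ := hx
    rcases PJ1_iff.1 hr with rfl | rfl | rfl | rfl
    · exact ⟨0, c, 0, 0, by simp [UA, WW, xU_zero]⟩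
    · exact ⟨c, 0, 0, 0, by simp [UA, WW, xU_zero]⟩
    · exact ⟨0, 0, c, 0, by simp [UA, WW, xU_zero]⟩
    · exact ⟨0, 0, 0, c, by simp [UA, WW, xU_zero]⟩
  | one => exact ⟨0, 0, 0, 0, UA_one.symm⟩
  | mul a b _ _ h1 h2 =>
    obtain ⟨s1, t1, v1, w1, rfl⟩ := h1
    obtain ⟨s2, t2, v2, w2, rfl⟩ := h2
    exact ⟨_, _, _, _, UA_mul _ _ _ _ _ _ _ _⟩
  | inv a _ h1 =>
    obtain ⟨s1, t1, v1, w1, rfl⟩ := h1
    exact ⟨_, _, _, _, UA_inv _ _ _ _⟩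

/-- The group elements. -/
noncomputable def xg (r : ℕ) (h : r < 48 := by omega) (t : K) : ↥(chevF4.group K) := xG valid (r := r) (by rw [tT_n]; exact h) t

noncomputable def U0G (a b : K) : ↥(chevF4.group K) := xg 33 (by omega) a * xg 24 (by omega) b

noncomputable def UAG (s t v w : K) : ↥(chevF4.group K) :=
  xg 27 (by omega) s * (xg 25 (by omega) t * (xg 28 (by omega) v * xg 30 (by omega) w))

theorem sg_xg (θ : K ≃+* K) {r : ℕ} (h : r < 48) (t : K) : ((sigma θ (xg r h t) : ↥(chevF4.group K)) : GL chevF4.Idx K) = xr (rhoG r) (θ (t ^ kG r)) :=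
  sigma_x θ _ t

theorem sigma_U0 (θ : K ≃+* K) (a b : K) : ((sigma θ (U0G a b) : ↥(chevF4.group K)) : GL chevF4.Idx K) = U0 (θ b) (θ a ^ 2) := by
  obtain ⟨e1, e2, e3, e4, e5, e6, k1, k2, k3, k4, k5, k6⟩ := vals
  unfold U0G
  simp only [map_mul, Subgroup.coe_mul, sg_xg]
  rw [e1, e2, k1, k2, pow_one, map_pow]
  exact (c_33_24 _ _).symm.eq

theorem sigma_UA (θ : K ≃+* K) (s t v w : K) : ((sigma θ (UAG s t v w) : ↥(chevF4.group K)) : GL chevF4.Idx K) =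
    UA (θ t) (θ s ^ 2) (θ s ^ 2 * θ t + θ w) (θ s ^ 2 * θ t ^ 2 + θ v ^ 2) := by
  obtain ⟨e1, e2, e3, e4, e5, e6, k1, k2, k3, k4, k5, k6⟩ := vals
  unfold UAG
  simp only [map_mul, Subgroup.coe_mul, sg_xg]
  rw [e3, e4, e5, e6, k3, k4, k5, k6, pow_one, pow_one, map_pow, map_pow]
  set T' := θ s ^ 2
  set S := θ t
  have h1 : xr 30 (θ v ^ 2) * xr 28 (θ w) = WW (θ w) (θ v ^ 2) := (c_28_30 _ _).symm.eq
  rw [h1]
  calc xr 25 T' * (xr 27 S * WW (θ w) (θ v ^ 2))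
      = (xr 25 T' * xr 27 S) * WW (θ w) (θ v ^ 2) := by simp only [mul_assoc]
    _ = xr 27 S * (xr 25 T' * (WW (T' * S) (T' * S ^ 2) * WW (θ w) (θ v ^ 2))) := by
        rw [R1]; unfold WW; simp only [mul_assoc]
    _ = _ := by
        rw [WW_mul]
        rfl

/-- The words. -/
noncomputable def wd0 (θ : K ≃+* K) (t : K) : GL chevF4.Idx K := U0 (θ t) t

noncomputable def wd1 (θ : K ≃+* K) (t u : K) : GL chevF4.Idx K := UA (θ t) t (θ t * t + u) (θ u ^ 2)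

theorem U0G_val (a b : K) : ((U0G a b : ↥(chevF4.group K)) : GL chevF4.Idx K) = U0 a b := rfl
theorem UAG_val (s t v w : K) : ((UAG s t v w : ↥(chevF4.group K)) : GL chevF4.Idx K) = UA s t v w := rfl

theorem mem_Fix_U0 {a b : K} : U0 a b ∈ (tw θ).Fix ↔ U0 (θ b) (θ a ^ 2) = U0 a b := by
  rw [TwAut.mem_Fix]
  constructor
  · rintro ⟨h, e1⟩
    rw [← sigma_U0 θ]
    exact e1
  · intro h
    refine ⟨(U0G a b).2, ?_⟩
    have e1 : (tw θ).sg ⟨U0 a b, (U0G a b).2⟩ = ((sigma θ (U0G a b) : ↥(chevF4.group K)) : GL chevF4.Idx K) := rfl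
    rw [e1, sigma_U0, h]

theorem mem_Fix_UA {s t v w : K} : UA s t v w ∈ (tw θ).Fix ↔
    UA (θ t) (θ s ^ 2) (θ s ^ 2 * θ t + θ w) (θ s ^ 2 * θ t ^ 2 + θ v ^ 2) = UA s t v w := by
  rw [TwAut.mem_Fix]
  constructor
  · rintro ⟨h, e1⟩
    rw [← sigma_UA θ]
    exact e1
  · intro h
    refine ⟨(UAG s t v w).2, ?_⟩
    have e1 : (tw θ).sg ⟨UA s t v w, (UAG s t v w).2⟩ = ((sigma θ (UAG s t v w) : ↥(chevF4.group K)) : GL chevF4.Idx K) := rfl
    rw [e1, sigma_UA, h]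

variable (hθ : ∀ x, θ (θ x) ^ 2 = x)
include hθ

theorem wd0_mem_Fix (t : K) : wd0 θ t ∈ (tw θ).Fix := by
  unfold wd0
  rw [mem_Fix_U0, hθ]

theorem wd1_mem_Fix (t u : K) : wd1 θ t u ∈ (tw θ).Fix := by
  unfold wd1
  have h2 : (2 : K) = 0 := by exact_mod_cast CharP.cast_eq_zero K 2
  have e : θ (θ t * t + u) ^ 2 = t * θ t ^ 2 + θ u ^ 2 := by
    simp only [map_add, map_mul, add_sq, mul_pow, hθ]
    rw [h2]
    ring
  have e1 : θ (θ u ^ 2) = u := by rw [map_pow, hθ]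
  rw [mem_Fix_UA, hθ t, e1, e]
  congr 1
  · ring
  · linear_combination (t * θ t ^ 2) * h2

omit hθ in
theorem fix_wd0 {g : GL chevF4.Idx K} (hg : g ∈ XP valid C K A0) (hF : g ∈ (tw θ).Fix) : ∃ t, g = wd0 θ t := by
  obtain ⟨a, b, rfl⟩ := XP0_form hg
  rw [mem_Fix_U0] at hF
  obtain ⟨h1, h2⟩ := U0_inj hF
  exact ⟨b, by unfold wd0; rw [h1]⟩

theorem fix_wd1 {g : GL chevF4.Idx K} (hg : g ∈ XP valid C K A1) (hF : g ∈ (tw θ).Fix) : ∃ t u, g = wd1 θ t u := by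
  obtain ⟨s, t, v, w, rfl⟩ := XP1_form hg
  rw [mem_Fix_UA] at hF
  obtain ⟨h1, h2, h3, h4⟩ := UA_inj hF
  refine ⟨t, θ w, ?_⟩
  unfold wd1
  subst h1
  rw [hθ w, ← h3, h2, mul_comm]

omit hθ in
theorem wd0_inj {t t' : K} (h : wd0 θ t = wd0 θ t') : t = t' := (U0_inj h).2

omit hθ in
theorem wd1_inj {t u t' u' : K} (h : wd1 θ t u = wd1 θ t' u') : t = t' ∧ u = u' := by
  obtain ⟨h1, h2, h3, h4⟩ := UA_inj h
  subst h2
  exact ⟨rfl, add_left_cancel h3⟩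

omit hθ in
theorem wd0_mul (t t' : K) : wd0 θ t * wd0 θ t' = wd0 θ (t + t') := by
  unfold wd0
  rw [U0_mul, map_add]

/-- The law in the group of the `B₂` orbit. -/
theorem wd1_mul (t u t' u' : K) : wd1 θ t u * wd1 θ t' u' = wd1 θ (t + t') (u + u' + θ t * t') := by
  unfold wd1
  rw [UA_mul]
  have h2 : (2 : K) = 0 := by exact_mod_cast CharP.cast_eq_zero K 2
  have e3 : θ (u + u' + θ t * t') ^ 2 = θ u ^ 2 + θ u' ^ 2 + t * θ t' ^ 2 := by
    simp only [map_add, map_mul, add_sq, mul_pow, hθ]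
    rw [h2]
    ring
  congr 1
  · rw [map_add]
  · simp only [map_add]
    linear_combination (-(θ t * t')) * h2
  · rw [e3]

end

end Cfsg.Agent.Lib.RF4E
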