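import Cfsg.Agent.Lib.RF4E

/-! `²F₄`: the fixed point structure and the group generated. -/

set_option autoImplicit false
set_option linter.unusedVariables false
set_option linter.unusedSectionVars false
set_option linter.unusedFintypeInType false
set_option linter.unusedDecidableInType false

namespace Cfsg.Agent.Lib.RF4F

open Cfsg.Lie Matrix Cfsg.Agent.Lib.ChevEngine Cfsg.Agent.Lib.ChevTab Cfsg.Agent.Lib.ChevMono
  Cfsg.Agent.Lib.ChevRel Cfsg.Agent.Lib.ChevValid Cfsg.Agent.Lib.ChevGL Cfsg.Agent.Lib.ChevGrad Cfsg.Agent.Lib.ChevL2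
  Cfsg.Agent.Lib.ChevU Cfsg.Agent.Lib.ChevU2 Cfsg.Agent.Lib.ChevU3 Cfsg.Agent.Lib.ChevDiag Cfsg.Agent.Lib.ChevV3
  Cfsg.Agent.Lib.ChevH Cfsg.Agent.Lib.ChevN Cfsg.Agent.Lib.ChevN2 Cfsg.Agent.Lib.ChevN3 Cfsg.Agent.Lib.ChevBN Cfsg.Agent.Lib.ChevBN2
  Cfsg.Agent.Lib.ChevSimp2 Cfsg.Agent.Lib.ChevAut3 Cfsg.Agent.Lib.ChevTw1 Cfsg.Agent.Lib.ChevTw2 Cfsg.Agent.Lib.ChevTw3 Cfsg.Agent.Lib.ChevTw4 Cfsg.Agent.Lib.ChevPar
  Cfsg.Agent.Lib.ReeA Cfsg.Agent.Lib.RF4A Cfsg.Agent.Lib.RF4B_F4 Cfsg.Agent.Lib.RF4C Cfsg.Agent.Lib.RF4D Cfsg.Agent.Lib.RF4E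
  Cfsg.Agent.Lib.ChevTbF4 Cfsg.Agent.Lib.ChevValidF4 Cfsg.Agent.Lib.ChevV2F4 Cfsg.Agent.Lib.ChevV3F4 Cfsg.Agent.Lib.ChevV4F4

section
variable {K : Type*} [Field K] [CharP K 2]

local notation "xr" => xU valid

theorem tau_XP {J : Set ℕ} {g : GL chevF4.Idx K} (hg : g ∈ XP valid C K J) : tau g ∈ XM valid C K J := by
  unfold XP at hg
  induction hg using Subgroup.closure_induction with
  | mem x hx =>
    obtain ⟨r, t, hr, rfl⟩ := hx
    have h2 : r < 48 := by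
      have := hr.2.1
      rwa [tT_n] at this
    rw [tau_x h2, ← neg_tbl r h2]
    exact Subgroup.subset_closure ⟨r, t, hr, rfl⟩
  | one => rw [map_one]; exact Subgroup.one_mem _
  | mul a b _ _ h1 h2 =>
    rw [map_mul]
    exact Subgroup.mul_mem _ h1 h2
  | inv a _ h1 =>
    rw [map_inv]
    exact Subgroup.inv_mem _ h1

theorem tau_XM {J : Set ℕ} {g : GL chevF4.Idx K} (hg : g ∈ XM valid C K J) : tau g ∈ XP valid C K J := by
  unfold XM at hg
  induction hg using Subgroup.closure_induction with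
  | mem x hx =>
    obtain ⟨r, t, hr, rfl⟩ := hx
    have h2 : r < 48 := by
      have := hr.2.1
      rwa [tT_n] at this
    rw [neg_tbl r h2, tau_x (by omega), show 47 - (47 - r) = r by omega]
    exact Subgroup.subset_closure ⟨r, t, hr, rfl⟩
  | one => rw [map_one]; exact Subgroup.one_mem _
  | mul a b _ _ h1 h2 =>
    rw [map_mul]
    exact Subgroup.mul_mem _ h1 h2
  | inv a _ h1 =>
    rw [map_inv]
    exact Subgroup.inv_mem _ h1

variable {θ : K ≃+* K} (hθ : ∀ x, θ (θ x) ^ 2 = x)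

theorem wd0_ne_one : wd0 θ (1 : K) ≠ 1 := by
  intro h
  have h0 : wd0 θ (0 : K) = 1 := by simp [wd0, U0, xU_zero]
  rw [← h0] at h
  exact one_ne_zero (wd0_inj h)

theorem wd1_ne_one : wd1 θ (0 : K) 1 ≠ 1 := by
  intro h
  have h0 : wd1 θ (0 : K) 0 = 1 := by simp [wd1, UA, WW, xU_zero]
  rw [← h0] at h
  exact one_ne_zero (wd1_inj h).2

include hθ in
theorem exists_Yn (j : Fin 2) : ∃ y ∈ XM valid C K (AA j), y ∈ (tw θ).Fix ∧ y ≠ 1 := by
  fin_cases j
  · refine ⟨tau (wd0 θ 1), tau_XP (U0_mem _ _), tau_mem_Fix (wd0_mem_Fix hθ _), ?_⟩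
    intro h
    have h1 := congrArg tau h
    rw [tau_tau, map_one] at h1
    exact wd0_ne_one h1
  · refine ⟨tau (wd1 θ 0 1), tau_XP (UA_mem _ _ _ _), tau_mem_Fix (wd1_mem_Fix hθ _ _), ?_⟩
    intro h
    have h1 := congrArg tau h
    rw [tau_tau, map_one] at h1
    exact wd1_ne_one h1

/-- The fixed point structure. -/
noncomputable def WF (hθ : ∀ x, θ (θ x) ^ 2 = x) : ChevTw2.TwFix valid valid2 valid3 K (Fin 2) :=
  (tw θ).toFix valid2 valid3 valid4 AA
    (by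
      intro j
      fin_cases j
      · exact stable0
      · exact stable1)
    (by
      intro j i hi
      fin_cases j
      · rcases hi with rfl | rfl <;> rw [tT_l] <;> omega
      · rcases hi with rfl | rfl <;> rw [tT_l] <;> omega)
    (by
      intro j i hi
      fin_cases j
      · rcases hi with rfl | rfl
        · exact Or.inr (show piG 0 = 3 by decide)
        · exact Or.inl (show piG 3 = 0 by decide)
      · rcases hi with rfl | rfl
        · exact Or.inr (show piG 1 = 2 by decide)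
        · exact Or.inl (show piG 2 = 1 by decide))
    (by
      intro j i hi i' hi'
      fin_cases j
      · rcases hi with rfl | rfl <;> rcases hi' with rfl | rfl
        · exact ⟨0, rfl⟩
        · exact ⟨1, (by decide : piG 0 = 3)⟩
        · exact ⟨1, (by decide : piG 3 = 0)⟩
        · exact ⟨0, rfl⟩
      · rcases hi with rfl | rfl <;> rcases hi' with rfl | rfl
        · exact ⟨0, rfl⟩
        · exact ⟨1, (by decide : piG 1 = 2)⟩
        · exact ⟨1, (by decide : piG 2 = 1)⟩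
        · exact ⟨0, rfl⟩)
    (by
      intro i hi
      rw [tT_l] at hi
      interval_cases i
      · exact ⟨0, Or.inl rfl⟩
      · exact ⟨1, Or.inl rfl⟩
      · exact ⟨1, Or.inr rfl⟩
      · exact ⟨0, Or.inr rfl⟩)
    (by
      intro i j j' h1 h2
      fin_cases j <;> fin_cases j'
      · rfl
      · exfalso
        rcases h1 with rfl | h1
        · rcases h2 with h2 | h2 <;> simp at h2
        · have h1' : i = 3 := h1
          subst h1'
          rcases h2 with h2 | h2 <;> simp at h2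
      · exfalso
        rcases h2 with rfl | h2
        · rcases h1 with h1 | h1 <;> simp at h1
        · have h2' : i = 3 := h2
          subst h2'
          rcases h1 with h1 | h1 <;> simp at h1
      · rfl)
    (by
      intro j
      fin_cases j
      · exact ⟨0, Or.inl rfl⟩
      · exact ⟨1, Or.inl rfl⟩)
    (exists_Yn hθ)

include hθ

theorem mem_Yp0 {x : GL chevF4.Idx K} : x ∈ (WF hθ).Yp 0 ↔ ∃ t, x = wd0 θ t := by
  constructor
  · rintro ⟨h1, h2⟩
    exact fix_wd0 h1 h2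
  · rintro ⟨t, rfl⟩
    exact ⟨U0_mem _ _, wd0_mem_Fix hθ _⟩

theorem mem_Yp1 {x : GL chevF4.Idx K} : x ∈ (WF hθ).Yp 1 ↔ ∃ t u, x = wd1 θ t u := by
  constructor
  · rintro ⟨h1, h2⟩
    exact fix_wd1 hθ h1 h2
  · rintro ⟨t, u, rfl⟩
    exact ⟨UA_mem _ _ _ _, wd1_mem_Fix hθ _ _⟩

theorem mem_Ym0 {x : GL chevF4.Idx K} : x ∈ (WF hθ).Ym 0 ↔ ∃ t, x = tau (wd0 θ t) := by
  constructor
  · rintro ⟨h1, h2⟩
    obtain ⟨t, e⟩ := fix_wd0 (tau_XM h1) (tau_mem_Fix h2)
    refine ⟨t, ?_⟩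
    rw [← e, tau_tau]
  · rintro ⟨t, rfl⟩
    exact ⟨tau_XP (U0_mem _ _), tau_mem_Fix (wd0_mem_Fix hθ _)⟩

theorem mem_Ym1 {x : GL chevF4.Idx K} : x ∈ (WF hθ).Ym 1 ↔ ∃ t u, x = tau (wd1 θ t u) := by
  constructor
  · rintro ⟨h1, h2⟩
    obtain ⟨t, u, e⟩ := fix_wd1 hθ (tau_XM h1) (tau_mem_Fix h2)
    refine ⟨t, u, ?_⟩
    rw [← e, tau_tau]
  · rintro ⟨t, u, rfl⟩
    exact ⟨tau_XP (UA_mem _ _ _ _), tau_mem_Fix (wd1_mem_Fix hθ _ _)⟩

omit hθ in
theorem word_p (e : ℕ) (hθe : ∀ a, θ a = a ^ e) (t : K) : wordU valid (f4PairWord e f4p1 f4p4 t) = wd0 θ t := by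
  unfold wd0 U0 f4PairWord
  simp only [wordU_cons, wordU_nil, mul_one, hθe]
  rfl

omit hθ in
theorem word_pm (e : ℕ) (hθe : ∀ a, θ a = a ^ e) (t : K) : wordU valid (f4PairWord e f4m1 f4m4 t) = tau (wd0 θ t) := by
  unfold wd0 U0 f4PairWord
  simp only [wordU_cons, wordU_nil, mul_one, hθe, map_mul]
  rw [tau_x (by norm_num), tau_x (by norm_num)]
  rfl

omit hθ in
theorem word_q (e : ℕ) (hθe : ∀ a, θ a = a ^ e) (t u : K) : wordU valid (b2ClassWord e f4a f4b f4ab f4aab t u) = wd1 θ t u := by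
  unfold wd1 UA WW b2ClassWord
  simp only [wordU_cons, wordU_nil, mul_one, hθe]
  have h1 : t ^ (e + 1) = t ^ e * t := pow_succ t e
  have h2 : u ^ (2 * e) = (u ^ e) ^ 2 := by
    rw [mul_comm 2 e, pow_mul]
  rw [h1, h2]
  rfl

omit hθ in
theorem word_qm (e : ℕ) (hθe : ∀ a, θ a = a ^ e) (t u : K) : wordU valid (b2ClassWord e f4ma f4mb f4mab f4maab t u) = tau (wd1 θ t u) := by
  unfold wd1 UA WW b2ClassWord
  simp only [wordU_cons, wordU_nil, mul_one, hθe, map_mul]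
  rw [tau_x (by norm_num), tau_x (by norm_num), tau_x (by norm_num), tau_x (by norm_num)]
  have h1 : t ^ (e + 1) = t ^ e * t := pow_succ t e
  have h2 : u ^ (2 * e) = (u ^ e) ^ 2 := by
    rw [mul_comm 2 e, pow_mul]
  rw [h1, h2]
  rfl

/-- The group generated. -/
theorem G1_eq (e : ℕ) (hθe : ∀ a, θ a = a ^ e) : (WF hθ).G1 = twistedF4 K e := by
  apply le_antisymm
  · unfold ChevTw2.TwFix.G1
    rw [Subgroup.closure_le]
    intro g hg
    obtain ⟨j, h | h⟩ := Set.mem_iUnion.1 hg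
    · fin_cases j
      · obtain ⟨t, rfl⟩ := (mem_Yp0 hθ).1 h
        rw [← word_p e hθe]
        exact Subgroup.subset_closure ⟨_, Or.inl ⟨t, Or.inl rfl⟩, wordU_val valid _⟩
      · obtain ⟨t, u, rfl⟩ := (mem_Yp1 hθ).1 h
        rw [← word_q e hθe]
        exact Subgroup.subset_closure ⟨_, Or.inr ⟨t, u, Or.inl rfl⟩, wordU_val valid _⟩
    · fin_cases j
      · obtain ⟨t, rfl⟩ := (mem_Ym0 hθ).1 h
        rw [← word_pm e hθe]
        exact Subgroup.subset_closure ⟨_, Or.inl ⟨t, Or.inr rfl⟩, wordU_val valid _⟩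
      · obtain ⟨t, u, rfl⟩ := (mem_Ym1 hθ).1 h
        rw [← word_qm e hθe]
        exact Subgroup.subset_closure ⟨_, Or.inr ⟨t, u, Or.inr rfl⟩, wordU_val valid _⟩
  · unfold twistedF4 ChevalleyDatum.genSubgroup
    rw [Subgroup.closure_le]
    rintro g ⟨w, ⟨t, rfl | rfl⟩ | ⟨t, u, rfl | rfl⟩, hg⟩
    · have e1 : g = wordU valid (f4PairWord e f4p1 f4p4 t) := Units.ext (hg.trans (wordU_val valid _).symm)
      rw [e1, word_p e hθe]
      exact (WF hθ).Yp_le 0 ((mem_Yp0 hθ).2 ⟨t, rfl⟩)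
    · have e1 : g = wordU valid (f4PairWord e f4m1 f4m4 t) := Units.ext (hg.trans (wordU_val valid _).symm)
      rw [e1, word_pm e hθe]
      exact (WF hθ).Ym_le 0 ((mem_Ym0 hθ).2 ⟨t, rfl⟩)
    · have e1 : g = wordU valid (b2ClassWord e f4a f4b f4ab f4aab t u) := Units.ext (hg.trans (wordU_val valid _).symm)
      rw [e1, word_q e hθe]
      exact (WF hθ).Yp_le 1 ((mem_Yp1 hθ).2 ⟨t, u, rfl⟩)
    · have e1 : g = wordU valid (b2ClassWord e f4ma f4mb f4mab f4maab t u) := Units.ext (hg.trans (wordU_val valid _).symm)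
      rw [e1, word_qm e hθe]
      exact (WF hθ).Ym_le 1 ((mem_Ym1 hθ).2 ⟨t, u, rfl⟩)

theorem card_Yp0 [Finite K] : Nat.card ↥((WF hθ).Yp 0) = Nat.card K ^ 1 := by
  have h : Function.Bijective (fun t : K => (⟨wd0 θ t, (mem_Yp0 hθ).mpr ⟨_, rfl⟩⟩ : ↥((WF hθ).Yp 0))) := by
    constructor
    · intro a b e
      exact wd0_inj (congrArg Subtype.val e)
    · rintro ⟨x, hx⟩
      obtain ⟨t, rfl⟩ := (mem_Yp0 hθ).mp hx
      exact ⟨t, rfl⟩
  rw [← Nat.card_congr (Equiv.ofBijective _ h), pow_one]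

theorem card_Yp1 [Finite K] : Nat.card ↥((WF hθ).Yp 1) = Nat.card K ^ 2 := by
  have h : Function.Bijective (fun p : K × K => (⟨wd1 θ p.1 p.2, (mem_Yp1 hθ).mpr ⟨_, _, rfl⟩⟩ : ↥((WF hθ).Yp 1))) := by
    constructor
    · rintro ⟨a, b⟩ ⟨a', b'⟩ e
      obtain ⟨h1, h2⟩ := wd1_inj (congrArg Subtype.val e)
      subst h1 h2
      rfl
    · rintro ⟨x, hx⟩
      obtain ⟨t, u, rfl⟩ := (mem_Yp1 hθ).mp hx
      exact ⟨(t, u), rfl⟩
  rw [← Nat.card_congr (Equiv.ofBijective _ h), Nat.card_prod]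
  ring

def aF : Fin 2 → ℕ := ![1, 2]

omit hθ in
theorem PJs0 : PJs T C A0 = {33, 24} := by
  ext r
  rw [mem_PJs valid valid2 valid3 valid4, PJ0_iff]
  simp

omit hθ in
theorem PJs1 : PJs T C A1 = {25, 27, 28, 30} := by
  ext r
  rw [mem_PJs valid valid2 valid3 valid4, PJ1_iff]
  simp

theorem hYF [Finite K] (j : Fin 2) : Nat.card ↥((WF hθ).Yp j) = Nat.card K ^ aF j := by
  fin_cases j
  · exact card_Yp0 hθ
  · exact card_Yp1 hθ

theorem hPF (j : Fin 2) : (PJs T C ((WF hθ).A j)).card = 2 * aF j := by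
  fin_cases j
  · show (PJs T C A0).card = _
    rw [PJs0]
    decide
  · show (PJs T C A1).card = _
    rw [PJs1]
    decide

theorem card_U1 [Finite K] : Nat.card ↥(chevF4.posUnipotent K ⊓ (WF hθ).G1) = Nat.card K ^ 12 :=
  Cfsg.Agent.Lib.ChevTw3.TwFix.card_U1 (WF hθ) valid4 (hYF hθ) (hPF hθ) (by norm_num) (by rw [half])

end

section ex
variable {K : Type*} [Field K] [Fintype K] {m : ℕ}

theorem char2 (hK : Fintype.card K = 2 ^ (2 * m + 1)) : CharP K 2 := by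
  obtain ⟨p, hp⟩ := CharP.exists K
  obtain ⟨n, hp2, hn⟩ := FiniteField.card K p
  have h1 : p ∣ 2 ^ (2 * m + 1) := by
    rw [← hK, hn]
    exact dvd_pow_self _ (Nat.pos_iff_ne_zero.mp n.2)
  have h2 : p = 2 := (Nat.prime_dvd_prime_iff_eq hp2 Nat.prime_two).mp (hp2.dvd_of_dvd_pow h1)
  rw [h2] at hp
  exact hp

theorem exists_theta (hK : Fintype.card K = 2 ^ (2 * m + 1)) :
    ∃ θ : K ≃+* K, (∀ a, θ a = a ^ (2 ^ m)) ∧ ∀ x, θ (θ x) ^ 2 = x := by
  haveI : CharP K 2 := char2 hK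
  haveI : Fact (Nat.Prime 2) := ⟨Nat.prime_two⟩
  let f : K →+* K := iterateFrobenius K 2 m
  have hf : Function.Bijective f := by
    have h1 : Function.Injective f := RingHom.injective f
    exact ⟨h1, Finite.injective_iff_surjective.mp h1⟩
  refine ⟨RingEquiv.ofBijective f hf, fun a => ?_, fun x => ?_⟩
  · show f a = _
    exact iterateFrobenius_def 2 m a
  · have e : ∀ a, (RingEquiv.ofBijective f hf) a = a ^ (2 ^ m) := fun a => iterateFrobenius_def 2 m a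
    rw [e, e, ← pow_mul, ← pow_mul]
    have : 2 ^ m * (2 ^ m * 2) = Fintype.card K := by
      rw [hK]; ring
    rw [this, FiniteField.pow_card]

end ex

end Cfsg.Agent.Lib.RF4F
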