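import Cfsg.Agent.Lib.RF4F
import Cfsg.Agent.Lib.ChevTw20

/-! `²F₄`: diagonal elements. -/

set_option autoImplicit false
set_option linter.unusedVariables false
set_option linter.unusedSectionVars false
set_option linter.unusedFintypeInType false
set_option linter.unusedDecidableInType false

namespace Cfsg.Agent.Lib.RF4G

open Cfsg.Lie Matrix Cfsg.Agent.Lib.ChevEngine Cfsg.Agent.Lib.ChevTab Cfsg.Agent.Lib.ChevMono
  Cfsg.Agent.Lib.ChevRel Cfsg.Agent.Lib.ChevValid Cfsg.Agent.Lib.ChevGL Cfsg.Agent.Lib.ChevGrad Cfsg.Agent.Lib.ChevL2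
  Cfsg.Agent.Lib.ChevU Cfsg.Agent.Lib.ChevU2 Cfsg.Agent.Lib.ChevU3 Cfsg.Agent.Lib.ChevDiag Cfsg.Agent.Lib.ChevV3
  Cfsg.Agent.Lib.ChevH Cfsg.Agent.Lib.ChevN Cfsg.Agent.Lib.ChevN2 Cfsg.Agent.Lib.ChevN3 Cfsg.Agent.Lib.ChevBN Cfsg.Agent.Lib.ChevBN2
  Cfsg.Agent.Lib.ChevSimp2 Cfsg.Agent.Lib.ChevAut3 Cfsg.Agent.Lib.ChevTw1 Cfsg.Agent.Lib.ChevTw2 Cfsg.Agent.Lib.ChevTw3 Cfsg.Agent.Lib.ChevTw4 Cfsg.Agent.Lib.ChevPar
  Cfsg.Agent.Lib.ChevW1 Cfsg.Agent.Lib.ChevTw6 Cfsg.Agent.Lib.ChevW3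
  Cfsg.Agent.Lib.ReeA Cfsg.Agent.Lib.RF4A Cfsg.Agent.Lib.RF4B_F4 Cfsg.Agent.Lib.RF4C Cfsg.Agent.Lib.RF4D Cfsg.Agent.Lib.RF4E Cfsg.Agent.Lib.RF4F
  Cfsg.Agent.Lib.ChevTbF4 Cfsg.Agent.Lib.ChevValidF4 Cfsg.Agent.Lib.ChevV2F4 Cfsg.Agent.Lib.ChevV3F4 Cfsg.Agent.Lib.ChevV4F4

theorem tl : T.l = 4 := by decide +kernel

def Bm : List (List ℤ) := [[2, 3, 4, 2], [3, 6, 8, 4], [2, 4, 6, 3], [1, 2, 3, 2]]
def Am : List (List ℤ) := [[2, -1, 0, 0], [-1, 2, -2, 0], [0, -1, 2, -1], [0, 0, -1, 2]]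

/-- entries -/
def mE (M : List (List ℤ)) (i j : ℕ) : ℤ := (M.getD i []).getD j 0

theorem ca_tbl : ∀ s, s < 48 → ∀ i, i < 4 → T.ca i s = mE Am i 0 * C.coef s 0 + mE Am i 1 * C.coef s 1 + mE Am i 2 * C.coef s 2 + mE Am i 3 * C.coef s 3 := by
  decide +kernel

theorem co_tbl : ∀ s, s < 48 → ∀ j, j < 4 → C.coef s j = mE Bm j 0 * T.ca 0 s + mE Bm j 1 * T.ca 1 s + mE Bm j 2 * T.ca 2 s + mE Bm j 3 * T.ca 3 s := by
  decide +kernel

section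
variable {A : Type*} [CommGroup A]

/-- Collecting powers. -/
theorem collect (a b c d : A) (p0 p1 p2 p3 q0 q1 q2 q3 r0 r1 r2 r3 s0 s1 s2 s3 e0 e1 e2 e3 : ℤ) :
    (a ^ p0 * b ^ p1 * c ^ p2 * d ^ p3) ^ e0 * (a ^ q0 * b ^ q1 * c ^ q2 * d ^ q3) ^ e1 *
    (a ^ r0 * b ^ r1 * c ^ r2 * d ^ r3) ^ e2 * (a ^ s0 * b ^ s1 * c ^ s2 * d ^ s3) ^ e3 =
    a ^ (p0 * e0 + q0 * e1 + r0 * e2 + s0 * e3) * b ^ (p1 * e0 + q1 * e1 + r1 * e2 + s1 * e3) *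
    c ^ (p2 * e0 + q2 * e1 + r2 * e2 + s2 * e3) * d ^ (p3 * e0 + q3 * e1 + r3 * e2 + s3 * e3) := by
  simp only [mul_zpow, _root_.zpow_add, _root_.zpow_mul]
  ac_rfl

end

section
variable {K : Type*} [Field K]

local notation "xr" => xU valid

/-- the coroot parameters -/
noncomputable def hcc (a b c d : Kˣ) : ℕ → Kˣ := fun i =>
  a ^ mE Bm 0 i * b ^ mE Bm 1 i * c ^ mE Bm 2 i * d ^ mE Bm 3 i

/-- the general diagonal element -/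
noncomputable def dd (a b c d : Kˣ) : GL chevF4.Idx K := dgC chevF4 T C (hcc a b c d)

theorem dd_mem (a b c d : Kˣ) : dd a b c d ∈ chevF4.diagonalSubgroup K := dgC_mem_H valid valid2 valid3 _

theorem cc_four (c : ℕ → Kˣ) {s : ℕ} (hs : s < 48) : cc T C c s = c 0 ^ T.ca 0 s * c 1 ^ T.ca 1 s * c 2 ^ T.ca 2 s * c 3 ^ T.ca 3 s := by
  unfold cc
  have hs' : s < T.n := by rw [tT_n]; exact hs
  rw [tl, Finset.prod_range_succ, Finset.prod_range_succ, Finset.prod_range_succ, Finset.prod_range_one,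
    aG_eq valid3 _ hs', aG_eq valid3 _ hs', aG_eq valid3 _ hs', aG_eq valid3 _ hs',
    aa_sim valid3 (by rw [tl]; omega), aa_sim valid3 (by rw [tl]; omega), aa_sim valid3 (by rw [tl]; omega), aa_sim valid3 (by rw [tl]; omega)]

/-- The character of a diagonal element -/
noncomputable def chi (a b c d : Kˣ) (s : ℕ) : Kˣ := a ^ C.coef s 0 * b ^ C.coef s 1 * c ^ C.coef s 2 * d ^ C.coef s 3

theorem chi_dd (a b c d : Kˣ) {s : ℕ} (hs : s < 48) : cc T C (hcc a b c d) s = chi a b c d s := by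
  rw [cc_four _ hs]
  simp only [hcc]
  rw [collect, chi, co_tbl s hs 0 (by norm_num), co_tbl s hs 1 (by norm_num), co_tbl s hs 2 (by norm_num), co_tbl s hs 3 (by norm_num)]

theorem dd_val (a b c d : Kˣ) : dd a b c d = dgU chevF4 (cc T C (hcc a b c d)) := rfl

theorem dd_mul (a b c d a' b' c' d' : Kˣ) : dd a b c d * dd a' b' c' d' = dd (a * a') (b * b') (c * c') (d * d') := by
  unfold dd
  rw [dgC_mul]
  unfold dgC
  apply dgU_congr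
  intro s hs
  have hs' : s < 48 := hs
  rw [cc_mul, Pi.mul_apply, chi_dd _ _ _ _ hs', chi_dd _ _ _ _ hs', chi_dd _ _ _ _ hs']
  simp only [chi, mul_zpow]
  ac_rfl

theorem dd_one : dd (1 : Kˣ) 1 1 1 = 1 := by
  unfold dd
  rw [← dgC_one (D := chevF4) (T := T) (C := C)]
  unfold dgC
  apply dgU_congr
  intro s hs
  have hs' : s < 48 := hs
  rw [chi_dd _ _ _ _ hs', cc_one]
  simp [chi]

theorem dd_inv (a b c d : Kˣ) : (dd a b c d)⁻¹ = dd a⁻¹ b⁻¹ c⁻¹ d⁻¹ := by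
  rw [inv_eq_of_mul_eq_one_right]
  rw [dd_mul, mul_inv_cancel, mul_inv_cancel, mul_inv_cancel, mul_inv_cancel, dd_one]

theorem dd_conj (a b c d : Kˣ) {s : ℕ} (hs : s < 48) (t : K) :
    dd a b c d * xr s t * (dd a b c d)⁻¹ = xr s ((chi a b c d s : K) * t) := by
  have h1 := conj_dg (F := K) valid (isCh_cc valid valid2 (hcc a b c d)) (s := s) hs t
  rw [dd_val, h1, mul_assoc, mul_inv_cancel, mul_one, chi_dd _ _ _ _ hs]

theorem xU_inj {s : ℕ} (hs : s < 48) {a b : K} (h : xr s a = xr s b) : a = b := by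
  by_contra hc
  have h1 : xr s (a - b) = 1 := by
    have h2 : xr s (a - b) = xr s a * xr s (-b) := by
      rw [xU_mul]
      ring_nf
    rw [h2, h, xU_mul, add_neg_cancel, xU_zero]
  exact xU_ne_one valid valid2 valid3 valid4 (s := s) (by rw [tT_n]; exact hs) (sub_ne_zero.mpr hc) h1

theorem H_eq_dd {z : GL chevF4.Idx K} (hz : z ∈ chevF4.diagonalSubgroup K) : ∃ a b c d : Kˣ, z = dd a b c d := by
  obtain ⟨c, rfl⟩ := (mem_H_iff valid valid2 valid3).1 hz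
  refine ⟨c 0 ^ mE Am 0 0 * c 1 ^ mE Am 1 0 * c 2 ^ mE Am 2 0 * c 3 ^ mE Am 3 0,
    c 0 ^ mE Am 0 1 * c 1 ^ mE Am 1 1 * c 2 ^ mE Am 2 1 * c 3 ^ mE Am 3 1,
    c 0 ^ mE Am 0 2 * c 1 ^ mE Am 1 2 * c 2 ^ mE Am 2 2 * c 3 ^ mE Am 3 2,
    c 0 ^ mE Am 0 3 * c 1 ^ mE Am 1 3 * c 2 ^ mE Am 2 3 * c 3 ^ mE Am 3 3, ?_⟩
  unfold dd dgC
  apply dgU_congr
  intro s hs
  have hs' : s < 48 := hs
  rw [chi_dd _ _ _ _ hs', chi, collect, cc_four _ hs', ca_tbl s hs' 0 (by norm_num), ca_tbl s hs' 1 (by norm_num), ca_tbl s hs' 2 (by norm_num), ca_tbl s hs' 3 (by norm_num)]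

theorem coefs : (C.coef 33 0 = 1 ∧ C.coef 33 1 = 0 ∧ C.coef 33 2 = 0 ∧ C.coef 33 3 = 0) ∧
    (C.coef 27 0 = 0 ∧ C.coef 27 1 = 1 ∧ C.coef 27 2 = 0 ∧ C.coef 27 3 = 0) ∧
    (C.coef 25 0 = 0 ∧ C.coef 25 1 = 0 ∧ C.coef 25 2 = 1 ∧ C.coef 25 3 = 0) ∧
    (C.coef 24 0 = 0 ∧ C.coef 24 1 = 0 ∧ C.coef 24 2 = 0 ∧ C.coef 24 3 = 1) ∧
    (C.coef 28 0 = 0 ∧ C.coef 28 1 = 1 ∧ C.coef 28 2 = 1 ∧ C.coef 28 3 = 0) ∧
    (C.coef 30 0 = 0 ∧ C.coef 30 1 = 2 ∧ C.coef 30 2 = 1 ∧ C.coef 30 3 = 0) := by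
  decide +kernel

theorem chi33 (a b c d : Kˣ) : chi a b c d 33 = a := by
  obtain ⟨⟨h0, h1, h2, h3⟩, -⟩ := coefs
  simp [chi, h0, h1, h2, h3]

theorem chi27 (a b c d : Kˣ) : chi a b c d 27 = b := by
  obtain ⟨-, ⟨h0, h1, h2, h3⟩, -⟩ := coefs
  simp [chi, h0, h1, h2, h3]

theorem chi25 (a b c d : Kˣ) : chi a b c d 25 = c := by
  obtain ⟨-, -, ⟨h0, h1, h2, h3⟩, -⟩ := coefs
  simp [chi, h0, h1, h2, h3]

theorem chi24 (a b c d : Kˣ) : chi a b c d 24 = d := by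
  obtain ⟨-, -, -, ⟨h0, h1, h2, h3⟩, -⟩ := coefs
  simp [chi, h0, h1, h2, h3]

theorem chi28 (a b c d : Kˣ) : chi a b c d 28 = b * c := by
  obtain ⟨-, -, -, -, ⟨h0, h1, h2, h3⟩, -⟩ := coefs
  simp [chi, h0, h1, h2, h3]

theorem chi30 (a b c d : Kˣ) : chi a b c d 30 = b ^ 2 * c := by
  obtain ⟨-, -, -, -, -, ⟨h0, h1, h2, h3⟩⟩ := coefs
  simp only [chi, h0, h1, h2, h3, zpow_zero, one_mul, mul_one, zpow_one]
  norm_cast

theorem conj_mul {G : Type*} [Group G] (g a b : G) : g * (a * b) * g⁻¹ = (g * a * g⁻¹) * (g * b * g⁻¹) := by group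

section
variable [CharP K 2]

theorem U0_conj (a b c d : Kˣ) (s t : K) : dd a b c d * U0 s t * (dd a b c d)⁻¹ = U0 ((a : K) * s) ((d : K) * t) := by
  unfold U0
  rw [conj_mul, dd_conj _ _ _ _ (by norm_num), dd_conj _ _ _ _ (by norm_num), chi33, chi24]

theorem UA_conj (a b c d : Kˣ) (s t v w : K) : dd a b c d * UA s t v w * (dd a b c d)⁻¹ =
    UA ((b : K) * s) ((c : K) * t) ((b : K) * c * v) ((b : K) ^ 2 * c * w) := by
  unfold UA WW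
  rw [conj_mul, conj_mul, conj_mul, dd_conj _ _ _ _ (by norm_num), dd_conj _ _ _ _ (by norm_num), dd_conj _ _ _ _ (by norm_num), dd_conj _ _ _ _ (by norm_num),
    chi27, chi25, chi28, chi30]
  simp

variable (θ : K ≃+* K)

/-- The units version of `θ`. -/
noncomputable def uθ : Kˣ →* Kˣ := Units.map (θ : K →* K)

@[simp] theorem uθ_val (c : Kˣ) : ((uθ θ c : Kˣ) : K) = θ c := rfl

/-- The torus of `²F₄`. -/
noncomputable def hh (c d : Kˣ) : GL chevF4.Idx K := dd (uθ θ d) (uθ θ c) c d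

theorem hh_mem (c d : Kˣ) : hh θ c d ∈ chevF4.diagonalSubgroup K := dd_mem _ _ _ _

theorem hh_mul (c d c' d' : Kˣ) : hh θ c d * hh θ c' d' = hh θ (c * c') (d * d') := by
  unfold hh
  rw [dd_mul, map_mul, map_mul]

theorem hh_one : hh θ (1 : Kˣ) 1 = 1 := by
  unfold hh
  rw [map_one, dd_one]

theorem hh_inv (c d : Kˣ) : (hh θ c d)⁻¹ = hh θ c⁻¹ d⁻¹ := by
  unfold hh
  rw [dd_inv, map_inv, map_inv]

theorem dd_inj {a b c d a' b' c' d' : Kˣ} (h : dd a b c d = dd a' b' c' d') : a = a' ∧ b = b' ∧ c = c' ∧ d = d' := by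
  have e : ∀ s (hs : s < 48), xr s ((chi a b c d s : K) * 1) = xr s ((chi a' b' c' d' s : K) * 1) := fun s hs => by
    rw [← dd_conj _ _ _ _ hs, ← dd_conj _ _ _ _ hs, h]
  have h33 := xU_inj (by norm_num) (e 33 (by norm_num))
  have h27 := xU_inj (by norm_num) (e 27 (by norm_num))
  have h25 := xU_inj (by norm_num) (e 25 (by norm_num))
  have h24 := xU_inj (by norm_num) (e 24 (by norm_num))
  rw [chi33, chi33, mul_one, mul_one] at h33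
  rw [chi27, chi27, mul_one, mul_one] at h27
  rw [chi25, chi25, mul_one, mul_one] at h25
  rw [chi24, chi24, mul_one, mul_one] at h24
  exact ⟨Units.ext h33, Units.ext h27, Units.ext h25, Units.ext h24⟩

theorem hh_inj {c d c' d' : Kˣ} (h : hh θ c d = hh θ c' d') : c = c' ∧ d = d' := by
  obtain ⟨-, -, h3, h4⟩ := dd_inj h
  exact ⟨h3, h4⟩

variable {θ} (hθ : ∀ x, θ (θ x) ^ 2 = x)
include hθ

omit hθ in
theorem wd0_conj (c d : Kˣ) (t : K) : hh θ c d * wd0 θ t * (hh θ c d)⁻¹ = wd0 θ ((d : K) * t) := by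
  unfold hh wd0
  rw [U0_conj]
  simp

theorem wd1_conj (c d : Kˣ) (t u : K) : hh θ c d * wd1 θ t u * (hh θ c d)⁻¹ = wd1 θ ((c : K) * t) (θ c * (c : K) * u) := by
  unfold hh wd1
  rw [UA_conj]
  simp only [uθ_val, map_mul, map_add]
  congr 1
  · ring
  · simp only [mul_pow]
    rw [hθ c]
    ring

end

end

end Cfsg.Agent.Lib.RF4G
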