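import Cfsg.Agent.Lib.RF4G

/-! `²F₄`: the torus of the group, the core, perfectness. -/

set_option autoImplicit false
set_option linter.unusedVariables false
set_option linter.unusedSectionVars false
set_option linter.unusedFintypeInType false
set_option linter.unusedDecidableInType false

namespace Cfsg.Agent.Lib.RF4H

open Cfsg.Lie Matrix Cfsg.Agent.Lib.ChevEngine Cfsg.Agent.Lib.ChevTab Cfsg.Agent.Lib.ChevMono
  Cfsg.Agent.Lib.ChevRel Cfsg.Agent.Lib.ChevValid Cfsg.Agent.Lib.ChevGL Cfsg.Agent.Lib.ChevGrad Cfsg.Agent.Lib.ChevL2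
  Cfsg.Agent.Lib.ChevU Cfsg.Agent.Lib.ChevU2 Cfsg.Agent.Lib.ChevU3 Cfsg.Agent.Lib.ChevDiag Cfsg.Agent.Lib.ChevV3
  Cfsg.Agent.Lib.ChevH Cfsg.Agent.Lib.ChevN Cfsg.Agent.Lib.ChevN2 Cfsg.Agent.Lib.ChevN3 Cfsg.Agent.Lib.ChevBN Cfsg.Agent.Lib.ChevBN2
  Cfsg.Agent.Lib.ChevSimp2 Cfsg.Agent.Lib.ChevAut3 Cfsg.Agent.Lib.ChevTw1 Cfsg.Agent.Lib.ChevTw2 Cfsg.Agent.Lib.ChevTw3 Cfsg.Agent.Lib.ChevTw4 Cfsg.Agent.Lib.ChevPar
  Cfsg.Agent.Lib.ChevW1 Cfsg.Agent.Lib.ChevTw6 Cfsg.Agent.Lib.ChevW3 Cfsg.Agent.Lib.ChevTw3.TwFix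
  Cfsg.Agent.Lib.ReeA Cfsg.Agent.Lib.RF4A Cfsg.Agent.Lib.RF4B_F4 Cfsg.Agent.Lib.RF4C Cfsg.Agent.Lib.RF4D Cfsg.Agent.Lib.RF4E Cfsg.Agent.Lib.RF4F Cfsg.Agent.Lib.RF4G
  Cfsg.Agent.Lib.ChevTbF4 Cfsg.Agent.Lib.ChevValidF4 Cfsg.Agent.Lib.ChevV2F4 Cfsg.Agent.Lib.ChevV3F4 Cfsg.Agent.Lib.ChevV4F4

open Cfsg.Agent.Lib.ChevTw20 (KK comm_mem_KK conj_mem_KK comm_top_of_le)

def E0 : List ℕ := [0, 1, 0, 2, 1, 0, 2, 1, 2, 3, 2, 1, 0, 2, 1, 2, 3, 2, 1, 0, 2, 1, 2, 3]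

theorem top_tbl : ∀ r, r < 48 → wact T E0 r = 47 - r := by decide +kernel
theorem coef_neg : ∀ s, s < 48 → ∀ i, i < 4 → C.coef (47 - s) i = - C.coef s i := by decide +kernel

section
variable {K : Type*} [Field K] [CharP K 2]

local notation "xr" => xU valid
local notation "GLK" => GL chevF4.Idx K

theorem chi_inv (a b c d : Kˣ) (s : ℕ) : chi a⁻¹ b⁻¹ c⁻¹ d⁻¹ s = (chi a b c d s)⁻¹ := by
  simp only [chi, _root_.inv_zpow, mul_inv]

theorem chi_neg (a b c d : Kˣ) {s : ℕ} (hs : s < 48) : chi a b c d (47 - s) = (chi a b c d s)⁻¹ := by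
  simp only [chi, coef_neg s hs 0 (by norm_num), coef_neg s hs 1 (by norm_num), coef_neg s hs 2 (by norm_num), coef_neg s hs 3 (by norm_num),
    _root_.zpow_neg, mul_inv]

/-- Conjugation of the negative elements -/
theorem tau_dd (a b c d : Kˣ) : tau (dd a b c d) = dd a⁻¹ b⁻¹ c⁻¹ d⁻¹ := by
  apply Units.ext
  ext i j
  rw [tau_val]
  unfold dd dgC
  rw [dgU_val, dgU_val]
  rcases i with i | i <;> rcases j with j | j
  · simp [omI, Matrix.diagonal_apply]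
  · simp [omI, Matrix.diagonal_apply]
  · simp [omI, Matrix.diagonal_apply]
  · simp only [omI, Equiv.sumCongr_apply, Sum.map_inr, Matrix.diagonal_apply, Sum.inr.injEq, Fin.revPerm_apply, Fin.rev_inj]
    by_cases hij : i = j
    · subst hij
      simp only [if_true, Sum.elim_inr]
      have hi : i.val < 48 := i.isLt
      have hr : (Fin.rev i).val = 47 - i.val := by
        rw [Fin.val_rev]
        have : chevF4.nroots = 48 := rfl
        omega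
      rw [hr, chi_dd _ _ _ _ (show 47 - i.val < 48 by omega), chi_dd _ _ _ _ hi, chi_neg _ _ _ _ hi, chi_inv]
    · simp [hij]

/-- the top element of `N`. -/
noncomputable def topW (K : Type*) [Field K] : ↥(chevF4.monomialSubgroup K) := nW valid valid2 valid3 K E0

theorem topW_rho {r : ℕ} (hr : r < 48) : rho0 valid valid2 valid3 (topW K) r = 47 - r := by
  unfold topW
  rw [rho0_nW valid valid2 valid3 valid4 (by
    intro i hi
    rw [tl]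
    simp only [E0, List.mem_cons, List.not_mem_nil, or_false] at hi
    omega) (by rw [tT_n]; exact hr)]
  exact top_tbl r hr

theorem inJ_univ (r : ℕ) : InJ C T.l Set.univ r := fun i _ h => absurd (Set.mem_univ i) h

theorem flip_univ (m : ↥(chevF4.monomialSubgroup K)) (h : ∀ r, 24 ≤ r → r < 48 → rho0 valid valid2 valid3 m r < 24) :
    Flip valid valid2 valid3 Set.univ m := by
  intro r h1 h2
  rw [half] at h1 ⊢
  rw [tT_n] at h2
  exact ⟨fun _ => ⟨h r h1 h2, inJ_univ _⟩, fun h' => absurd (inJ_univ r) h'⟩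

theorem rho_lt48 (m : ↥(chevF4.monomialSubgroup K)) {r : ℕ} (h : r < 48) : rho0 valid valid2 valid3 m r < 48 := by
  have := rho0_lt valid valid2 valid3 m (r := r) (by rw [tT_n]; exact h)
  rwa [tT_n] at this

theorem isW_univ (m : ↥(chevF4.monomialSubgroup K)) (h : ∀ r, 24 ≤ r → r < 48 → rho0 valid valid2 valid3 m r < 24) :
    IsW valid valid2 valid3 Set.univ m := by
  refine ⟨flip_univ m h, flip_univ m⁻¹ ?_⟩
  intro r h1 h2
  by_contra hc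
  have h3 := rho0_inv_apply valid valid2 valid3 valid4 m⁻¹ r
  rw [inv_inv] at h3
  have h4 := h _ (by omega) (rho_lt48 m⁻¹ h2)
  rw [h3] at h4
  omega

theorem rho_of_pos (m : ↥(chevF4.monomialSubgroup K)) (h : ∀ r, 24 ≤ r → r < 48 → rho0 valid valid2 valid3 m r < 24) {r : ℕ} (hr : r < 48) :
    rho0 valid valid2 valid3 m r = 47 - r := by
  have h1 := isW_univ m h
  have h2 : IsW valid valid2 valid3 Set.univ (topW K) := isW_univ _ (by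
    intro r h3 h4
    rw [topW_rho h4]
    omega)
  rw [rho0_flip_eq valid valid2 valid3 valid4 h1 h2, topW_rho hr]

/-- A flip inverts the torus. -/
theorem top_inv {m : ↥(chevF4.monomialSubgroup K)} (h : ∀ r, r < 48 → rho0 valid valid2 valid3 m r = 47 - r) (a b c d : Kˣ) :
    (m : GLK) * dd a b c d * (m : GLK)⁻¹ = (dd a b c d)⁻¹ := by
  have hH : (m : GLK) * dd a b c d * (m : GLK)⁻¹ ∈ chevF4.diagonalSubgroup K :=
    normalizer_conj_mem (N_le_normalizer_H valid valid2 valid3 m.2) (dd_mem _ _ _ _)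
  obtain ⟨a', b', c', d', e⟩ := H_eq_dd hH
  rw [e, dd_inv]
  have key : ∀ s, s < 48 → ((chi a' b' c' d' s : Kˣ) : K) = ((chi a⁻¹ b⁻¹ c⁻¹ d⁻¹ s : Kˣ) : K) := by
    intro s hs
    have hr : 47 - s < T.n := by rw [tT_n]; omega
    obtain ⟨u, hu, hm⟩ := conj_x valid valid2 valid3 valid4 m hr
    have hm1 := hm 1
    rw [h _ (show 47 - s < 48 by omega), show 47 - (47 - s) = s by omega] at hm1
    have h1 : dd a' b' c' d' * xU valid s (u * 1) * (dd a' b' c' d')⁻¹ = (m : GLK) * (dd a b c d * xU valid (47 - s) 1 * (dd a b c d)⁻¹) * (m : GLK)⁻¹ := by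
      rw [← hm1, ← e]
      group
    rw [dd_conj _ _ _ _ hs, dd_conj _ _ _ _ (show 47 - s < 48 by omega), hm] at h1
    rw [h _ (show 47 - s < 48 by omega), show 47 - (47 - s) = s by omega] at h1
    have h2 := xU_inj hs h1
    have hu' : u * 1 ≠ 0 := by simpa using hu
    have h3 : ((chi a' b' c' d' s : Kˣ) : K) * (u * 1) = ((chi a b c d (47 - s) : Kˣ) : K) * (u * 1) := by
      rw [h2]
      ring
    have h4 := mul_right_cancel₀ hu' h3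
    rw [h4, chi_neg _ _ _ _ hs, chi_inv]
  have k33 := key 33 (by norm_num)
  have k27 := key 27 (by norm_num)
  have k25 := key 25 (by norm_num)
  have k24 := key 24 (by norm_num)
  rw [chi33, chi33] at k33
  rw [chi27, chi27] at k27
  rw [chi25, chi25] at k25
  rw [chi24, chi24] at k24
  rw [Units.ext k33, Units.ext k27, Units.ext k25, Units.ext k24]

variable {θ : K ≃+* K} (hθ : ∀ x, θ (θ x) ^ 2 = x)

set_option quotPrecheck false in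
local notation "G1" => (WF hθ).G1

include hθ

theorem hh_conj_G1 (c d : Kˣ) {g : GLK} (hg : g ∈ G1) : hh θ c d * g * (hh θ c d)⁻¹ ∈ G1 := by
  refine conj_closure_mem _ ?_ hg
  intro s hs
  obtain ⟨j, h | h⟩ := Set.mem_iUnion.1 hs
  · fin_cases j
    · obtain ⟨t, rfl⟩ := (mem_Yp0 hθ).1 h
      rw [wd0_conj]
      exact (WF hθ).Yp_le 0 ((mem_Yp0 hθ).mpr ⟨_, rfl⟩)
    · obtain ⟨t, u, rfl⟩ := (mem_Yp1 hθ).1 h
      rw [wd1_conj hθ]
      exact (WF hθ).Yp_le 1 ((mem_Yp1 hθ).mpr ⟨_, _, rfl⟩)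
  · have e : hh θ c d = tau (hh θ c⁻¹ d⁻¹) := by
      unfold hh
      rw [tau_dd, map_inv, inv_inv, inv_inv, map_inv, inv_inv, inv_inv]
    fin_cases j
    · obtain ⟨t, rfl⟩ := (mem_Ym0 hθ).1 h
      have e2 : hh θ c d * tau (wd0 θ t) * (hh θ c d)⁻¹ = tau (hh θ c⁻¹ d⁻¹ * wd0 θ t * (hh θ c⁻¹ d⁻¹)⁻¹) := by
        rw [map_mul, map_mul, map_inv, ← e]
      rw [e2, wd0_conj]
      exact (WF hθ).Ym_le 0 ((mem_Ym0 hθ).mpr ⟨_, rfl⟩)
    · obtain ⟨t, u, rfl⟩ := (mem_Ym1 hθ).1 h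
      have e2 : hh θ c d * tau (wd1 θ t u) * (hh θ c d)⁻¹ = tau (hh θ c⁻¹ d⁻¹ * wd1 θ t u * (hh θ c⁻¹ d⁻¹)⁻¹) := by
        rw [map_mul, map_mul, map_inv, ← e]
      rw [e2, wd1_conj hθ]
      exact (WF hθ).Ym_le 1 ((mem_Ym1 hθ).mpr ⟨_, _, rfl⟩)

/-- Squares are in the group. -/
theorem hh_sq_mem [Finite K] (c d : Kˣ) : hh θ (c ^ 2) (d ^ 2) ∈ G1 := by
  obtain ⟨m0, hG, htop⟩ := exists_top (WF hθ) valid4
  have htop' : ∀ r, 24 ≤ r → r < 48 → rho0 valid valid2 valid3 m0 r < 24 := by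
    intro r h1 h2
    have := htop r (by rw [half]; exact h1) (by rw [tT_n]; exact h2)
    rwa [half] at this
  have hr : ∀ r, r < 48 → rho0 valid valid2 valid3 m0 r = 47 - r := fun r hr => rho_of_pos m0 htop' hr
  have h1 : hh θ c d * m0 * (hh θ c d)⁻¹ ∈ G1 := hh_conj_G1 hθ c d hG
  have h2 := Subgroup.mul_mem _ h1 (Subgroup.inv_mem _ hG)
  have e : hh θ c d * m0 * (hh θ c d)⁻¹ * (m0 : GLK)⁻¹ = hh θ c d * ((m0 : GLK) * (hh θ c d)⁻¹ * (m0 : GLK)⁻¹) := by group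
  rw [e, hh_inv] at h2
  have e3 : (m0 : GLK) * hh θ c⁻¹ d⁻¹ * (m0 : GLK)⁻¹ = hh θ c d := by
    unfold hh
    rw [top_inv hr, dd_inv, map_inv, map_inv, inv_inv, inv_inv, inv_inv, inv_inv]
  rw [e3, hh_mul, ← pow_two, ← pow_two] at h2
  exact h2

theorem u_sq (c : Kˣ) : uθ θ (uθ θ c) ^ 2 = c := by
  apply Units.ext
  simp [hθ]

/-- The whole torus is in the group. -/
theorem hh_mem_G1 [Finite K] (c d : Kˣ) : hh θ c d ∈ G1 := by
  have := hh_sq_mem hθ (uθ θ (uθ θ c)) (uθ θ (uθ θ d))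
  rwa [u_sq hθ, u_sq hθ] at this

/-- An element of `H ∩ G¹` -/
theorem H1_form {z : GLK} (hz : z ∈ chevF4.diagonalSubgroup K) (hG : z ∈ G1) : ∃ c d : Kˣ, z = hh θ c d := by
  obtain ⟨a, b, c, d, rfl⟩ := H_eq_dd hz
  have h0 : wd0 θ (1 : K) ∈ G1 := (WF hθ).Yp_le 0 ((mem_Yp0 hθ).mpr ⟨_, rfl⟩)
  have h1 : wd1 θ (1 : K) 0 ∈ G1 := (WF hθ).Yp_le 1 ((mem_Yp1 hθ).mpr ⟨_, _, rfl⟩)
  have h2 := Subgroup.mul_mem _ (Subgroup.mul_mem _ hG h0) (Subgroup.inv_mem _ hG)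
  have h3 := Subgroup.mul_mem _ (Subgroup.mul_mem _ hG h1) (Subgroup.inv_mem _ hG)
  have f2 := (WF hθ).G1_le_Fix h2
  have f3 := (WF hθ).G1_le_Fix h3
  unfold wd0 at f2
  unfold wd1 at f3
  rw [U0_conj] at f2
  rw [UA_conj] at f3
  obtain ⟨t, e1⟩ := fix_wd0 (U0_mem _ _) f2
  obtain ⟨t', u', e2⟩ := fix_wd1 hθ (UA_mem _ _ _ _) f3
  unfold wd0 at e1
  unfold wd1 at e2
  obtain ⟨e3, e4⟩ := U0_inj e1
  obtain ⟨e5, e6, -, -⟩ := UA_inj e2
  simp only [map_one, mul_one] at e3 e4 e5 e6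
  refine ⟨c, d, ?_⟩
  have ea : a = uθ θ d := by
    apply Units.ext
    rw [uθ_val, e3, e4]
  have eb : b = uθ θ c := by
    apply Units.ext
    rw [uθ_val, e5, e6]
  unfold hh
  rw [ea, eb]

/-- The torus of `²F₄`. -/
noncomputable def torusH [Finite K] : Kˣ × Kˣ →* ↥(chevF4.diagonalSubgroup K ⊓ G1) where
  toFun := fun p => ⟨hh θ p.1 p.2, hh_mem θ _ _, hh_mem_G1 hθ _ _⟩
  map_one' := Subtype.ext (hh_one θ)
  map_mul' := fun a b => Subtype.ext (hh_mul θ _ _ _ _).symm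

theorem torusH_bij [Finite K] : Function.Bijective (torusH hθ) :=
  ⟨fun a b h => by
      obtain ⟨h1, h2⟩ := hh_inj θ (congrArg Subtype.val h)
      exact Prod.ext h1 h2, by
      rintro ⟨z, hz, hG⟩
      obtain ⟨c, d, rfl⟩ := H1_form hθ hz hG
      exact ⟨(c, d), rfl⟩⟩

noncomputable def torusE [Finite K] : (Kˣ × Kˣ) ≃* ↥(chevF4.diagonalSubgroup K ⊓ G1) :=
  MulEquiv.ofBijective (torusH hθ) (torusH_bij hθ)

@[simp] theorem torusE_val [Finite K] (p : Kˣ × Kˣ) :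
    ((torusE hθ p : ↥(chevF4.diagonalSubgroup K ⊓ G1)) : GLK) = hh θ p.1 p.2 := rfl

/-- `z` diagonal and centralizing -/
theorem dd_trivial {z : GLK} (hz : z ∈ chevF4.diagonalSubgroup K)
    (h0 : z * wd0 θ (1 : K) * z⁻¹ = wd0 θ (1 : K)) (h1 : z * wd1 θ (1 : K) 0 * z⁻¹ = wd1 θ (1 : K) 0) : z = 1 := by
  obtain ⟨a, b, c, d, rfl⟩ := H_eq_dd hz
  unfold wd0 at h0
  unfold wd1 at h1
  rw [U0_conj] at h0
  rw [UA_conj] at h1
  obtain ⟨e3, e4⟩ := U0_inj h0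
  obtain ⟨e5, e6, -, -⟩ := UA_inj h1
  simp only [map_one, mul_one] at e3 e4 e5 e6
  have ea : a = 1 := Units.ext e3
  have eb : b = 1 := Units.ext e5
  have ec : c = 1 := Units.ext e6
  have ed : d = 1 := Units.ext e4
  rw [ea, eb, ec, ed, dd_one]

theorem core_bot [Finite K] : ((chevF4.borelSubgroup K ⊓ G1).subgroupOf G1).normalCore = ⊥ := by
  set W' := WF hθ with hW'
  set Z := ((chevF4.borelSubgroup K ⊓ W'.G1).subgroupOf W'.G1).normalCore with hZ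
  have hZB : ∀ z ∈ Z, ((z : ↥W'.G1) : GLK) ∈ chevF4.borelSubgroup K := by
    intro z hz
    exact (W'.mem_sof valid4).mp (Subgroup.normalCore_le _ hz)
  obtain ⟨m0, hm0G, htop⟩ := exists_top W' valid4
  have hZH : ∀ z ∈ Z, ((z : ↥W'.G1) : GLK) ∈ chevF4.diagonalSubgroup K := by
    intro z hz
    set g : ↥W'.G1 := ⟨m0, hm0G⟩ with hg
    have h1 : g⁻¹ * z * g⁻¹⁻¹ ∈ Z := (inferInstance : Z.Normal).conj_mem z hz g⁻¹
    have h2 := hZB _ h1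
    obtain ⟨u, hu, h, hh, e⟩ := B_form valid valid2 valid3 h2
    have e1 : ((z : ↥W'.G1) : GLK) = (m0 : GLK) * (u * h) * (m0 : GLK)⁻¹ := by
      rw [← e]
      show _ = (m0 : GLK) * ((m0 : GLK)⁻¹ * (z : GLK) * ((m0 : GLK)⁻¹)⁻¹) * (m0 : GLK)⁻¹
      group
    have h3 : (m0 : GLK) * u * (m0 : GLK)⁻¹ ∈ chevF4.negUnipotent K := top_conj W' valid4 htop hu
    have h4 : (m0 : GLK) * h * (m0 : GLK)⁻¹ ∈ chevF4.diagonalSubgroup K := normalizer_conj_mem (N_le_normalizer_H valid valid2 valid3 m0.2) hh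
    have h5 : ((z : ↥W'.G1) : GLK) ∈ chevF4.negUnipotent K ⊔ chevF4.diagonalSubgroup K := by
      rw [e1]
      have e2 : (m0 : GLK) * (u * h) * (m0 : GLK)⁻¹ = ((m0 : GLK) * u * (m0 : GLK)⁻¹) * ((m0 : GLK) * h * (m0 : GLK)⁻¹) := by group
      rw [e2]
      exact Subgroup.mul_mem _ (Subgroup.mem_sup_left h3) (Subgroup.mem_sup_right h4)
    have h6 : ((z : ↥W'.G1) : GLK) ∈ chevF4.borelSubgroup K ⊓ (chevF4.negUnipotent K ⊔ chevF4.diagonalSubgroup K) := ⟨hZB z hz, h5⟩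
    rwa [B_inf_VH valid valid2 valid3] at h6
  have hfix : ∀ z ∈ Z, ∀ y ∈ chevF4.posUnipotent K ⊓ W'.G1, ((z : ↥W'.G1) : GLK) * y * ((z : ↥W'.G1) : GLK)⁻¹ = y := by
    intro z hz y hy
    have h1 : (⟨y, hy.2⟩ : ↥W'.G1) * z⁻¹ * (⟨y, hy.2⟩ : ↥W'.G1)⁻¹ ∈ Z := (inferInstance : Z.Normal).conj_mem _ (Subgroup.inv_mem _ hz) _
    have h2 := hZH _ h1
    have h3 : ((z : ↥W'.G1) : GLK) * (y * ((z : ↥W'.G1) : GLK)⁻¹ * y⁻¹) ∈ chevF4.diagonalSubgroup K :=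
      Subgroup.mul_mem _ (hZH z hz) h2
    have h4 : ((z : ↥W'.G1) : GLK) * y * ((z : ↥W'.G1) : GLK)⁻¹ ∈ chevF4.posUnipotent K :=
      normalizer_conj_mem (H_le_normalizer_U valid valid2 valid3 (hZH z hz)) hy.1
    have h5 : ((z : ↥W'.G1) : GLK) * y * ((z : ↥W'.G1) : GLK)⁻¹ * y⁻¹ ∈ chevF4.posUnipotent K ⊓ chevF4.diagonalSubgroup K := by
      refine ⟨Subgroup.mul_mem _ h4 (Subgroup.inv_mem _ hy.1), ?_⟩
      have e : ((z : ↥W'.G1) : GLK) * y * ((z : ↥W'.G1) : GLK)⁻¹ * y⁻¹ = ((z : ↥W'.G1) : GLK) * (y * ((z : ↥W'.G1) : GLK)⁻¹ * y⁻¹) := by group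
      rw [e]
      exact h3
    rw [U_inf_H valid valid2 valid3, Subgroup.mem_bot] at h5
    exact mul_inv_eq_one.mp h5
  rw [eq_bot_iff]
  intro z hz
  rw [Subgroup.mem_bot]
  apply Subtype.ext
  show ((z : ↥W'.G1) : GLK) = 1
  have h0 : wd0 θ (1 : K) ∈ chevF4.posUnipotent K ⊓ W'.G1 :=
    ⟨XP_le_U valid valid2 valid3 valid4 _ (U0_mem _ _), W'.Yp_le 0 ((mem_Yp0 hθ).mpr ⟨_, rfl⟩)⟩
  have h1 : wd1 θ (1 : K) 0 ∈ chevF4.posUnipotent K ⊓ W'.G1 :=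
    ⟨XP_le_U valid valid2 valid3 valid4 _ (UA_mem _ _ _ _), W'.Yp_le 1 ((mem_Yp1 hθ).mpr ⟨_, _, rfl⟩)⟩
  exact dd_trivial hθ (hZH z hz) (hfix z hz _ h0) (hfix z hz _ h1)

end

end Cfsg.Agent.Lib.RF4H
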