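import Cfsg.Agent.Lib.RF4H
import Cfsg.Agent.Lib.ChevTw19
import Cfsg.Agent.Lib.ChevTw17

/-! `²F₄`: the Weyl group, perfectness, simplicity, the order. -/

set_option autoImplicit false
set_option linter.unusedVariables false
set_option linter.unusedSectionVars false
set_option linter.unusedFintypeInType false
set_option linter.unusedDecidableInType false

namespace Cfsg.Agent.Lib.RF4I

open Cfsg.Lie Matrix Cfsg.Agent.Lib.ChevEngine Cfsg.Agent.Lib.ChevTab Cfsg.Agent.Lib.ChevMono
  Cfsg.Agent.Lib.ChevRel Cfsg.Agent.Lib.ChevValid Cfsg.Agent.Lib.ChevGL Cfsg.Agent.Lib.ChevGrad Cfsg.Agent.Lib.ChevL2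
  Cfsg.Agent.Lib.ChevU Cfsg.Agent.Lib.ChevU2 Cfsg.Agent.Lib.ChevU3 Cfsg.Agent.Lib.ChevDiag Cfsg.Agent.Lib.ChevV3
  Cfsg.Agent.Lib.ChevH Cfsg.Agent.Lib.ChevN Cfsg.Agent.Lib.ChevN2 Cfsg.Agent.Lib.ChevN3 Cfsg.Agent.Lib.ChevBN Cfsg.Agent.Lib.ChevBN2
  Cfsg.Agent.Lib.ChevSimp2 Cfsg.Agent.Lib.ChevAut3 Cfsg.Agent.Lib.ChevTw1 Cfsg.Agent.Lib.ChevTw2 Cfsg.Agent.Lib.ChevTw3 Cfsg.Agent.Lib.ChevTw4 Cfsg.Agent.Lib.ChevPar
  Cfsg.Agent.Lib.ChevW1 Cfsg.Agent.Lib.ChevTw6 Cfsg.Agent.Lib.ChevW3 Cfsg.Agent.Lib.ChevTw3.TwFix Cfsg.Agent.Lib.BNPair Cfsg.Agent.Lib.ChevTw11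
  Cfsg.Agent.Lib.ChevTw17 Cfsg.Agent.Lib.ChevTw19
  Cfsg.Agent.Lib.ReeA Cfsg.Agent.Lib.RF4A Cfsg.Agent.Lib.RF4B_F4 Cfsg.Agent.Lib.RF4C Cfsg.Agent.Lib.RF4D Cfsg.Agent.Lib.RF4E Cfsg.Agent.Lib.RF4F Cfsg.Agent.Lib.RF4G Cfsg.Agent.Lib.RF4H
  Cfsg.Agent.Lib.ChevTbF4 Cfsg.Agent.Lib.ChevValidF4 Cfsg.Agent.Lib.ChevV2F4 Cfsg.Agent.Lib.ChevV3F4 Cfsg.Agent.Lib.ChevV4F4

open Cfsg.Agent.Lib.ChevTw20 (KK comm_mem_KK conj_mem_KK comm_top_of_le)

def genF : Fin 2 → List ℕ := ![[0, 3], [1, 2, 1, 2]]
def gens : List (List ℕ) := [[0, 3], [1, 2, 1, 2]]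

def tbl : List ℕ := [96533667595335344311200144916688449305687896108635671, 480405830142937821206689843020442644301632417188288783, 24520687259219365531188653517979388939970792772909536536, 26153827574242422446187672332677398733157483738026088964, 122601156055443386628979907066782602266469189139023073312, 125481693829391067262267018541082241974767927234704842498, 416940208159598676145320428888812458459815077535561680427, 420870595230544689153274991132813978759290776813529213186, 736085410899549412416458745693697086169378658048469304877, 740015797970495425424413307937698606468854357326436837636, 1031474312300703034307466718285428822953901507627293675565, 1034354850074650714940753829759728462662200245722975444751, 1130802178555851679123546064493833666195511951123972429099, 1132435318870874736038545083308531675988698642089088981527, 1156475600299951163748527046983490622284367802444810229280, 1156859472462498766225422536681594376479363746965889882392]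

theorem t1 : tblOk1 T gens tbl = true := by decide +kernel
theorem t2 : tblOk2 T gens tbl = true := by decide +kernel
theorem tL : tbl.map (lenP T (T.n / 2)) = [24, 20, 22, 18, 18, 14, 16, 12, 12, 8, 10, 6, 6, 2, 4, 0] := by decide +kernel
theorem hg1 : ∀ j, genF j ∈ gens := by decide +kernel
theorem hg2 : ∀ E ∈ gens, ∃ j, genF j = E := by decide +kernel
theorem h256 : T.n ≤ 256 := by decide +kernel
theorem fl0 : FlipChk T C [0, 3] [0, 3] := by decide +kernel
theorem fl0' : FlipChk T C [0, 3] [0, 3].reverse := by decide +kernel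
theorem fl1 : FlipChk T C [1, 2] [1, 2, 1, 2] := by decide +kernel
theorem fl1' : FlipChk T C [1, 2] [1, 2, 1, 2].reverse := by decide +kernel
theorem ord01 : ordW T (genF 0 ++ genF 1) 8 = true := by decide +kernel
theorem ord00 : ordW T (genF 0 ++ genF 0) 1 = true := by decide +kernel
theorem ord11 : ordW T (genF 1 ++ genF 1) 1 = true := by decide +kernel
theorem ord10 : ordW T (genF 1 ++ genF 0) 8 = true := by decide +kernel

section
variable {K : Type*} [Field K] [CharP K 2]

local notation "xr" => xU valid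
local notation "GLK" => GL chevF4.Idx K

theorem setL0 : setL [0, 3] = A0 := by
  ext i
  simp [setL, A0]

theorem setL1 : setL [1, 2] = A1 := by
  ext i
  simp [setL, A1]

theorem genF_lt (j : Fin 2) : ∀ i ∈ genF j, i < T.l := by
  fin_cases j <;> (intro i hi; rw [tl]; simp [genF] at hi; omega)

variable {θ : K ≃+* K} (hθ : ∀ x, θ (θ x) ^ 2 = x)

set_option quotPrecheck false in
local notation "G1" => (WF hθ).G1

include hθ

/-- The action of the generators of the Weyl group. -/
theorem hgen (j : Fin 2) : ∀ r < T.n, rho1 (WF hθ) valid4 (xj (WF hθ) valid4 j) r = wact T (genF j) r := by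
  intro r hr
  show rho1 (WF hθ) valid4 (wm (WF hθ) valid4 _ _) r = _
  rw [rho1_wm, ← rho0_nW (F := K) valid valid2 valid3 valid4 (genF_lt j) hr]
  have h1 := (WF hθ).nj_isW valid4 j
  have h2 : IsW valid valid2 valid3 ((WF hθ).A j) (nW valid valid2 valid3 K (genF j)) := by
    fin_cases j
    · have := isW_of_chk (F := K) valid valid2 valid3 valid4 (L := [0, 3]) (E := [0, 3]) (by intro i hi; rw [tl]; simp at hi; omega) fl0 fl0'
      rw [setL0] at this
      exact this
    · have := isW_of_chk (F := K) valid valid2 valid3 valid4 (L := [1, 2]) (E := [1, 2, 1, 2]) (by intro i hi; rw [tl]; simp at hi; omega) fl1 fl1'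
      rw [setL1] at this
      exact this
  rw [rho0_flip_eq valid valid2 valid3 valid4 h1 h2]

theorem finW : Finite (W ((WF hθ).bn valid4)) :=
  finite_W (WF hθ) valid4 (hgen hθ) hg1 hg2 h256 t1 t2

/-- The order of the Weyl group -/
theorem card_W : Nat.card (W ((WF hθ).bn valid4)) = 16 := by
  classical
  haveI := finW hθ
  letI : Fintype (W ((WF hθ).bn valid4)) := Fintype.ofFinite _
  have h := sum_table (WF hθ) valid4 (hgen hθ) hg1 hg2 h256 t1 t2 (fun _ => 1)
  rw [Nat.card_eq_fintype_card]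
  have e : ∑ w : W ((WF hθ).bn valid4), (fun _ : ℕ => 1) (XX (WF hθ) valid4 w) = Fintype.card (W ((WF hθ).bn valid4)) := by
    simp
  rw [← e, h]
  decide +kernel

/-- The sum over the Weyl group. -/
theorem sum_W [Fintype (W ((WF hθ).bn valid4))] (q : ℕ) :
    ∑ w : W ((WF hθ).bn valid4), q ^ ((InvN (WF hθ) valid4 w).card / 2) =
      (1 + q) * (1 + q ^ 2) * (1 + q ^ 3) * (1 + q ^ 6) := by
  have h := sum_table (WF hθ) valid4 (hgen hθ) hg1 hg2 h256 t1 t2 (fun x => q ^ (lenP T (T.n / 2) x / 2))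
  have e : ∑ w : W ((WF hθ).bn valid4), q ^ ((InvN (WF hθ) valid4 w).card / 2) =
      ∑ w : W ((WF hθ).bn valid4), (fun x => q ^ (lenP T (T.n / 2) x / 2)) (XX (WF hθ) valid4 w) := by
    apply Finset.sum_congr rfl
    intro w _
    simp only
    rw [lenP_XX (WF hθ) valid4 h256]
  rw [e, h]
  have h3 : (tbl.map fun x => q ^ (lenP T (T.n / 2) x / 2)) = (tbl.map (lenP T (T.n / 2))).map (fun e => q ^ (e / 2)) := by
    rw [List.map_map]
    rfl
  rw [h3, tL]
  simp only [List.map_cons, List.map_nil, List.sum_cons, List.sum_nil]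
  norm_num
  ring

theorem card_G1' [Finite K] [Fintype (W ((WF hθ).bn valid4))] : Nat.card ↥G1 =
    Nat.card K ^ 12 * Nat.card ↥(chevF4.diagonalSubgroup K ⊓ G1) * ((1 + Nat.card K) * (1 + Nat.card K ^ 2) * (1 + Nat.card K ^ 3) * (1 + Nat.card K ^ 6)) := by
  have h := Cfsg.Agent.Lib.ChevTw3.TwFix.card_G1 (WF hθ) valid4 (hYF hθ) (hPF hθ) (by norm_num)
  rw [h, card_U1 hθ, sum_W hθ]

/-- Elements of the torus. -/
theorem card_H1 [Fintype K] : Nat.card ↥(chevF4.diagonalSubgroup K ⊓ G1) = (Fintype.card K - 1) ^ 2 := by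
  rw [← Nat.card_congr (torusE hθ).toEquiv, Nat.card_prod, Cfsg.Agent.Lib.ChevHOrd.card_units_nat]
  ring

end

end Cfsg.Agent.Lib.RF4I
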