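import Cfsg.Agent.Lib.RF4I

/-! `²F₄`: perfectness, simplicity, the order, the quotient `N¹/H¹`. -/

set_option autoImplicit false
set_option linter.unusedVariables false
set_option linter.unusedSectionVars false
set_option linter.unusedFintypeInType false
set_option linter.unusedDecidableInType false

namespace Cfsg.Agent.Lib.RF4J

open Cfsg.Lie Matrix Cfsg.Agent.Lib.ChevEngine Cfsg.Agent.Lib.ChevTab Cfsg.Agent.Lib.ChevMono
  Cfsg.Agent.Lib.ChevRel Cfsg.Agent.Lib.ChevValid Cfsg.Agent.Lib.ChevGL Cfsg.Agent.Lib.ChevGrad Cfsg.Agent.Lib.ChevL2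
  Cfsg.Agent.Lib.ChevU Cfsg.Agent.Lib.ChevU2 Cfsg.Agent.Lib.ChevU3 Cfsg.Agent.Lib.ChevDiag Cfsg.Agent.Lib.ChevV3
  Cfsg.Agent.Lib.ChevH Cfsg.Agent.Lib.ChevN Cfsg.Agent.Lib.ChevN2 Cfsg.Agent.Lib.ChevN3 Cfsg.Agent.Lib.ChevBN Cfsg.Agent.Lib.ChevBN2
  Cfsg.Agent.Lib.ChevSimp2 Cfsg.Agent.Lib.ChevAut3 Cfsg.Agent.Lib.ChevTw1 Cfsg.Agent.Lib.ChevTw2 Cfsg.Agent.Lib.ChevTw3 Cfsg.Agent.Lib.ChevTw4 Cfsg.Agent.Lib.ChevPar
  Cfsg.Agent.Lib.ChevW1 Cfsg.Agent.Lib.ChevTw6 Cfsg.Agent.Lib.ChevW3 Cfsg.Agent.Lib.ChevTw3.TwFix Cfsg.Agent.Lib.BNPair Cfsg.Agent.Lib.ChevTw11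
  Cfsg.Agent.Lib.ChevTw17 Cfsg.Agent.Lib.ChevTw19
  Cfsg.Agent.Lib.ReeA Cfsg.Agent.Lib.RF4A Cfsg.Agent.Lib.RF4B_F4 Cfsg.Agent.Lib.RF4C Cfsg.Agent.Lib.RF4D Cfsg.Agent.Lib.RF4E Cfsg.Agent.Lib.RF4F Cfsg.Agent.Lib.RF4G Cfsg.Agent.Lib.RF4H Cfsg.Agent.Lib.RF4I
  Cfsg.Agent.Lib.ChevTbF4 Cfsg.Agent.Lib.ChevValidF4 Cfsg.Agent.Lib.ChevV2F4 Cfsg.Agent.Lib.ChevV3F4 Cfsg.Agent.Lib.ChevV4F4

open Cfsg.Agent.Lib.ChevTw20 (KK comm_mem_KK conj_mem_KK comm_top_of_le)

section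
variable {K : Type*} [Field K] [CharP K 2]

local notation "xr" => xU valid
local notation "GLK" => GL chevF4.Idx K

variable {θ : K ≃+* K} (hθ : ∀ x, θ (θ x) ^ 2 = x)

set_option quotPrecheck false in
local notation "G1" => (WF hθ).G1

omit [CharP K 2] in
theorem add_ne_of_ne {d : K} [CharP K 2] (h : d ≠ 1) : d + 1 ≠ 0 := by
  intro h2
  apply h
  have := CharTwo.add_eq_zero.mp h2
  exact this

theorem wd0_zero : wd0 θ (0 : K) = 1 := by simp [wd0, U0, xU_zero]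

theorem wd1_zero : wd1 θ (0 : K) 0 = 1 := by simp [wd1, UA, WW, xU_zero]

theorem wd0_inv (t : K) : (wd0 θ t)⁻¹ = wd0 θ t := by
  apply inv_eq_of_mul_eq_one_right
  rw [wd0_mul, CharTwo.add_self_eq_zero, wd0_zero]

include hθ

theorem wd1_inv (t u : K) : (wd1 θ t u)⁻¹ = wd1 θ t (u + θ t * t) := by
  apply inv_eq_of_mul_eq_one_right
  rw [wd1_mul hθ, CharTwo.add_self_eq_zero, ← add_assoc, CharTwo.add_self_eq_zero, zero_add, CharTwo.add_self_eq_zero, wd1_zero]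

theorem e_ne {c : K} (hc0 : c ≠ 0) (hc : c ≠ 1) : θ c * c + 1 ≠ 0 := by
  intro h
  have h1 : θ c * c = 1 := CharTwo.add_eq_zero.mp h
  apply hc
  have h2 : θ (θ c) * θ c = 1 := by
    have := congrArg θ h1
    simpa using this
  have h3 : θ c ≠ 0 := by
    intro h4
    rw [h4] at h1
    simp at h1
  have h4 : θ (θ c) = c := by
    apply mul_right_cancel₀ h3
    rw [h2, mul_comm c, h1]
  have h5 := hθ c
  rw [h4] at h5
  have h6 : c * (c - 1) = 0 := by linear_combination h5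
  have h7 := (mul_eq_zero.mp h6).resolve_left hc0
  exact sub_eq_zero.mp h7

theorem wd0_G1 (t : K) : wd0 θ t ∈ G1 := (WF hθ).Yp_le 0 ((mem_Yp0 hθ).mpr ⟨_, rfl⟩)

theorem wd1_G1 (t u : K) : wd1 θ t u ∈ G1 := (WF hθ).Yp_le 1 ((mem_Yp1 hθ).mpr ⟨_, _, rfl⟩)

omit hθ in
theorem aux_d {e v : K} (h : e + 1 ≠ 0) : (e + 1) * (v / (e + 1)) = v := mul_div_cancel₀ _ h

variable [Finite K] {c d : Kˣ} (hc : c ≠ 1) (hd : d ≠ 1)
include hc hd

theorem z0_mem (t : K) : wd0 θ t ∈ KK G1 := by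
  have hd1 : (d : K) + 1 ≠ 0 := add_ne_of_ne (fun h => hd (Units.ext h))
  have h3 := comm_mem_KK (D := chevF4) (F := K) (hh_mem_G1 hθ c d) (wd0_G1 hθ (t / ((d : K) + 1)))
  rw [wd0_conj, wd0_inv, wd0_mul] at h3
  have e : (d : K) * (t / ((d : K) + 1)) + t / ((d : K) + 1) = ((d : K) + 1) * (t / ((d : K) + 1)) := by ring
  rw [e, aux_d hd1] at h3
  exact h3

theorem z1_mem (u : K) : wd1 θ 0 u ∈ KK G1 := by
  have hc1 : θ c * (c : K) + 1 ≠ 0 := e_ne hθ c.ne_zero (fun h => hc (Units.ext h))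
  have h3 := comm_mem_KK (D := chevF4) (F := K) (hh_mem_G1 hθ c d) (wd1_G1 hθ 0 (u / (θ c * (c : K) + 1)))
  rw [wd1_conj hθ, wd1_inv hθ, wd1_mul hθ] at h3
  simp only [mul_zero, map_zero, zero_mul, add_zero] at h3
  have e : θ c * (c : K) * (u / (θ c * (c : K) + 1)) + u / (θ c * (c : K) + 1) = (θ c * (c : K) + 1) * (u / (θ c * (c : K) + 1)) := by ring
  rw [e, aux_d hc1] at h3
  exact h3

theorem z2_mem (t : K) : wd1 θ t 0 ∈ KK G1 := by
  have hc1 : (c : K) + 1 ≠ 0 := add_ne_of_ne (fun h => hc (Units.ext h))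
  set t' := t / ((c : K) + 1) with ht'
  have h3 := comm_mem_KK (D := chevF4) (F := K) (hh_mem_G1 hθ c d) (wd1_G1 hθ t' 0)
  rw [wd1_conj hθ, wd1_inv hθ, wd1_mul hθ] at h3
  have e : (c : K) * t' + t' = t := by
    have := aux_d (v := t) hc1
    rw [← ht'] at this
    linear_combination this
  rw [e] at h3
  set x := θ c * (c : K) * 0 + (0 + θ t' * t') + θ ((c : K) * t') * t' with hx
  have h4 := Subgroup.mul_mem _ h3 (z1_mem hθ hc hd x)
  rw [wd1_mul hθ, add_zero, CharTwo.add_self_eq_zero] at h4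
  simpa using h4

theorem z_mem (t u : K) : wd1 θ t u ∈ KK G1 := by
  have h4 := Subgroup.mul_mem _ (z2_mem hθ hc hd t) (z1_mem hθ hc hd u)
  rw [wd1_mul hθ] at h4
  simpa using h4

/-- The group is perfect as soon as the field has more than two elements. -/
theorem perfect_of : commutator ↥G1 = ⊤ := by
  apply comm_top_of_le (D := chevF4) (F := K)
  conv_lhs => rw [Cfsg.Agent.Lib.ChevTw2.TwFix.G1]
  rw [Subgroup.closure_le]
  intro g hg
  have hY : ∀ j, ∀ g ∈ (WF hθ).Yp j, g ∈ KK G1 := by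
    intro j g h
    fin_cases j
    · obtain ⟨t, rfl⟩ := (mem_Yp0 hθ).1 h
      exact z0_mem hθ hc hd t
    · obtain ⟨t, u, rfl⟩ := (mem_Yp1 hθ).1 h
      exact z_mem hθ hc hd t u
  obtain ⟨j, h | h⟩ := Set.mem_iUnion.1 hg
  · exact hY j g h
  · have hn := (WF hθ).nj_mem valid4 j
    have hW := (WF hθ).nj_isW valid4 j
    have h3 := (WF hθ).conj_Ym valid4 hW.1 ((WF hθ).G1_le_Fix hn) h
    have h4 := conj_mem_KK (D := chevF4) (F := K) (hY j _ h3) (Subgroup.inv_mem _ hn)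
    have e2 : ((WF hθ).nj valid4 j : GLK)⁻¹ * (((WF hθ).nj valid4 j : GLK) * g * ((WF hθ).nj valid4 j : GLK)⁻¹) * ((WF hθ).nj valid4 j : GLK)⁻¹⁻¹ = g := by group
    rwa [e2] at h4

omit hc hd

theorem irreducible_G1 : ((WF hθ).bn valid4).Irreducible :=
  irreducibleT (WF hθ) valid4 (n := 2) (Equiv.refl _) (gen := genF) (fun _ => 8) (hgen hθ) (by
    intro i hi
    have : i = 0 := by omega
    subst this
    exact ⟨by norm_num, ord01⟩)

theorem simple_of (hperf : commutator ↥G1 = ⊤) : IsSimpleGroup ↥G1 ∧ ¬ IsMulCommutative ↥G1 := by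
  set W' := WF hθ with hW'
  have hN : Nontrivial ↥W'.G1 := by
    have h1 : wd0 θ (1 : K) ∈ W'.G1 := wd0_G1 hθ 1
    refine ⟨⟨⟨_, h1⟩, 1, ?_⟩⟩
    intro h
    exact wd0_ne_one (θ := θ) (congrArg Subtype.val h)
  constructor
  · refine Cfsg.Agent.Lib.BNPair2.isSimpleGroup_of_irreducible (P := W'.bn valid4) (irreducible_G1 hθ) ?_ hperf (core_bot hθ)
    have h1 := B_solvable (F := K) valid valid2 valid3
    let f : ↥((W'.bn valid4).B) →* ↥(chevF4.borelSubgroup K) :=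
      { toFun := fun x => ⟨(x.1 : GLK), (W'.mem_sof valid4).mp x.2⟩
        map_one' := rfl
        map_mul' := fun _ _ => rfl }
    refine solvable_of_solvable_injective (f := f) ?_
    intro a b hab
    apply Subtype.ext
    apply Subtype.ext
    have h : ((f a : ↥(chevF4.borelSubgroup K)) : GLK) = f b := congrArg Subtype.val hab
    exact h
  · intro hc
    have hcomm : ∀ a b : ↥W'.G1, a * b = b * a := fun a b => hc.is_comm.comm a b
    have h2 : commutator ↥W'.G1 = ⊥ := by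
      rw [eq_bot_iff, commutator_eq_closure, Subgroup.closure_le]
      rintro _ ⟨a, b, rfl⟩
      simp [commutatorElement_def, hcomm a b]
    rw [h2] at hperf
    exact bot_ne_top hperf

end

section fin
variable {K : Type*} [Field K] [Fintype K] [CharP K 2]
variable {θ : K ≃+* K} (hθ : ∀ x, θ (θ x) ^ 2 = x)

set_option quotPrecheck false in
local notation "G1" => (WF hθ).G1

variable {m : ℕ} (hK : Fintype.card K = 2 ^ (2 * m + 1))
include hθ hK

theorem card_G1_final : Nat.card ↥G1 =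
    (2 ^ (2 * m + 1)) ^ 12 * (2 ^ (2 * m + 1) - 1) * ((2 ^ (2 * m + 1)) ^ 3 + 1) * ((2 ^ (2 * m + 1)) ^ 4 - 1) * ((2 ^ (2 * m + 1)) ^ 6 + 1) := by
  haveI := finW hθ
  letI : Fintype (W ((WF hθ).bn valid4)) := Fintype.ofFinite _
  rw [card_G1' hθ, card_H1 hθ, Nat.card_eq_fintype_card, hK]
  have h1 : 1 ≤ 2 ^ (2 * m + 1) := Nat.one_le_two_pow
  obtain ⟨s, hs⟩ : ∃ s, 2 ^ (2 * m + 1) = s + 1 := ⟨2 ^ (2 * m + 1) - 1, by omega⟩
  rw [hs]
  have e4 : (s + 1) ^ 4 - 1 = s * (s ^ 3 + 4 * s ^ 2 + 6 * s + 4) := by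
    apply Nat.sub_eq_of_eq_add
    ring
  rw [e4]
  simp only [Nat.add_sub_cancel]
  ring

theorem exists_ne_one (hm : 1 ≤ m) : ∃ c : Kˣ, c ≠ 1 := by
  classical
  have h : 1 < Fintype.card Kˣ := by
    rw [Fintype.card_units, hK]
    calc 1 < 2 ^ 3 - 1 := by norm_num
      _ ≤ 2 ^ (2 * m + 1) - 1 := Nat.sub_le_sub_right (Nat.pow_le_pow_right (by norm_num) (by omega)) 1
  haveI := Fintype.one_lt_card_iff_nontrivial.mp h
  exact exists_ne 1

theorem perfect_final (hm : 1 ≤ m) : commutator ↥G1 = ⊤ := by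
  obtain ⟨c, hc⟩ := exists_ne_one hθ hK hm
  exact perfect_of hθ hc hc

theorem simple_final (hm : 1 ≤ m) : IsSimpleGroup ↥G1 ∧ ¬ IsMulCommutative ↥G1 :=
  simple_of hθ (perfect_final hθ hK hm)

end fin

section dih
variable {K : Type*} [Field K] [Finite K] [CharP K 2]
variable {θ : K ≃+* K} (hθ : ∀ x, θ (θ x) ^ 2 = x)

set_option quotPrecheck false in
local notation "G1" => (WF hθ).G1

include hθ

open DihedralGroup in
/-- `N¹/H¹` is dihedral of order 16. -/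
theorem weyl_dih : ∃ φ : ↥(chevF4.monomialSubgroup K ⊓ G1) →* DihedralGroup 8, Function.Surjective φ ∧
      φ.ker = (chevF4.diagonalSubgroup K ⊓ G1).subgroupOf (chevF4.monomialSubgroup K ⊓ G1) := by
  classical
  let M : CoxeterMatrix (Fin 2) := CoxeterMatrix.I 6
  have hM : ∀ i j : Fin 2, ordW T (genF (Equiv.refl _ i) ++ genF (Equiv.refl _ j)) (M i j) = true := by
    intro i j
    fin_cases i <;> fin_cases j
    · exact ord00
    · exact ord01
    · exact ord10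
    · exact ord11
  obtain ⟨φ0, h1, h2⟩ := N_quotT (WF hθ) valid4 (Equiv.refl _) M (hgen hθ) hM
  obtain ⟨ψ, -⟩ := weyl_isoT (WF hθ) valid4 (Equiv.refl _) M (hgen hθ) hM
  have hlift : M.IsLiftable (fun i : Fin 2 => (sr (i.val : ZMod 8) : DihedralGroup 8)) := by
    intro i j
    fin_cases i <;> fin_cases j <;> decide
  let ψ' : M.Group →* DihedralGroup 8 := M.toCoxeterSystem.lift ⟨_, hlift⟩
  have hs : ∀ i : Fin 2, ψ' (M.toCoxeterSystem.simple i) = sr (i.val : ZMod 8) := fun i =>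
    M.toCoxeterSystem.lift_apply_simple hlift i
  have hsurj : Function.Surjective ψ' := by
    have h0 := hs 0
    have h1' := hs 1
    have hr1 : ψ' (M.toCoxeterSystem.simple 0 * M.toCoxeterSystem.simple 1) = r 1 := by
      rw [map_mul, h0, h1', sr_mul_sr]
      rfl
    have hrk : ∀ k : ℕ, ∃ g, ψ' g = r (k : ZMod 8) := fun k =>
      ⟨(M.toCoxeterSystem.simple 0 * M.toCoxeterSystem.simple 1) ^ k, by rw [map_pow, hr1, r_one_pow]⟩
    intro x
    rcases x with k | k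
    · obtain ⟨g, hg⟩ := hrk k.val
      rw [ZMod.natCast_zmod_val] at hg
      exact ⟨g, hg⟩
    · obtain ⟨g, hg⟩ := hrk k.val
      rw [ZMod.natCast_zmod_val] at hg
      refine ⟨M.toCoxeterSystem.simple 0 * g, ?_⟩
      rw [map_mul, h0, hg, sr_mul_r]
      simp
  have hW := card_W hθ
  have hfin : Finite M.Group := by
    haveI := finW hθ
    exact Finite.of_equiv _ ψ.toEquiv
  have hinj : Function.Injective ψ' := by
    have hc : Nat.card M.Group = Nat.card (DihedralGroup 8) := by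
      rw [← Nat.card_congr ψ.toEquiv, hW, DihedralGroup.nat_card]
    exact ((Nat.bijective_iff_surjective_and_card ψ').mpr ⟨hsurj, hc⟩).1
  refine ⟨ψ'.comp φ0, hsurj.comp h1, ?_⟩
  rw [← h2]
  ext g
  rw [MonoidHom.mem_ker, MonoidHom.mem_ker, MonoidHom.comp_apply, map_eq_one_iff _ hinj]

end dih

end Cfsg.Agent.Lib.RF4J
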