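import Cfsg.Agent.Lib.RF4J

/-! `²F₄`: `U` has exponent dividing `32`, elements of `2`-power order. -/

set_option autoImplicit false
set_option linter.unusedVariables false
set_option linter.unusedSectionVars false
set_option linter.unusedFintypeInType false
set_option linter.unusedDecidableInType false

namespace Cfsg.Agent.Lib.RF4K

open Cfsg.Lie Matrix Cfsg.Agent.Lib.ChevEngine Cfsg.Agent.Lib.ChevTab Cfsg.Agent.Lib.ChevMono
  Cfsg.Agent.Lib.ChevRel Cfsg.Agent.Lib.ChevValid Cfsg.Agent.Lib.ChevGL Cfsg.Agent.Lib.ChevGrad Cfsg.Agent.Lib.ChevL2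
  Cfsg.Agent.Lib.ChevU Cfsg.Agent.Lib.ChevU2 Cfsg.Agent.Lib.ChevU3 Cfsg.Agent.Lib.ChevDiag Cfsg.Agent.Lib.ChevV3
  Cfsg.Agent.Lib.ChevH Cfsg.Agent.Lib.ChevN Cfsg.Agent.Lib.ChevN2 Cfsg.Agent.Lib.ChevN3 Cfsg.Agent.Lib.ChevBN Cfsg.Agent.Lib.ChevBN2
  Cfsg.Agent.Lib.ChevSimp2 Cfsg.Agent.Lib.ChevAut3 Cfsg.Agent.Lib.ChevTw1 Cfsg.Agent.Lib.ChevTw2 Cfsg.Agent.Lib.ChevTw3 Cfsg.Agent.Lib.ChevTw4 Cfsg.Agent.Lib.ChevPar
  Cfsg.Agent.Lib.ChevW1 Cfsg.Agent.Lib.ChevTw6 Cfsg.Agent.Lib.ChevW3 Cfsg.Agent.Lib.ChevTw3.TwFix Cfsg.Agent.Lib.BNPair Cfsg.Agent.Lib.ChevTw11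
  Cfsg.Agent.Lib.ChevTw17 Cfsg.Agent.Lib.ChevTw19
  Cfsg.Agent.Lib.ReeA Cfsg.Agent.Lib.RF4A Cfsg.Agent.Lib.RF4B_F4 Cfsg.Agent.Lib.RF4C Cfsg.Agent.Lib.RF4D Cfsg.Agent.Lib.RF4E Cfsg.Agent.Lib.RF4F Cfsg.Agent.Lib.RF4G Cfsg.Agent.Lib.RF4H Cfsg.Agent.Lib.RF4I Cfsg.Agent.Lib.RF4J
  Cfsg.Agent.Lib.ChevTbF4 Cfsg.Agent.Lib.ChevValidF4 Cfsg.Agent.Lib.ChevV2F4 Cfsg.Agent.Lib.ChevV3F4 Cfsg.Agent.Lib.ChevV4F4

/-- The height. -/
noncomputable def hgt : chevF4.Idx → ℤ
  | Sum.inl _ => 0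
  | Sum.inr r => C.coef r.val 0 + C.coef r.val 1 + C.coef r.val 2 + C.coef r.val 3

theorem hgt_bd : ∀ i, -11 ≤ hgt i ∧ hgt i ≤ 11 := by decide +kernel

theorem up_tbl : ∀ r, r < 48 → 24 ≤ r → ∀ i j : chevF4.Idx, hgt j < hgt i ∨
    eqP ((2 : ℕ) : ℤ) (lookup (colX chevF4 r varT (code chevF4 j)) (code chevF4 i)) (if i = j then Pl.const 1 else []) = true := by
  decide +kernel

section up

variable {K : Type*} [Field K]

/-- Unipotent with respect to the height. -/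
def Up (M : Matrix chevF4.Idx chevF4.Idx K) : Prop := ∀ i j, hgt i ≤ hgt j → M i j = (1 : Matrix chevF4.Idx chevF4.Idx K) i j

theorem Up_mul {M M' : Matrix chevF4.Idx chevF4.Idx K} (h : Up M) (h' : Up M') : Up (M * M') := by
  intro i j hij
  rw [Matrix.mul_apply]
  rw [Finset.sum_eq_single i]
  · rw [h i i le_rfl, Matrix.one_apply_eq, one_mul, h' i j hij]
  · intro k _ hk
    by_cases hl : hgt i ≤ hgt k
    · rw [h i k hl, Matrix.one_apply_ne hk.symm, zero_mul]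
    · have hl2 : hgt k ≤ hgt j := by
        push Not at hl
        omega
      by_cases hkj : k = j
      · subst hkj
        rw [h i k hij, Matrix.one_apply_ne hk.symm, zero_mul]
      · rw [h' k j hl2, Matrix.one_apply_ne hkj, mul_zero]
  · simp

/-- The level of a matrix. -/
def Lev (k : ℕ) (N : Matrix chevF4.Idx chevF4.Idx K) : Prop := ∀ i j, hgt i < hgt j + k → N i j = 0

theorem Lev_mul {a b : ℕ} {M N : Matrix chevF4.Idx chevF4.Idx K} (h : Lev a M) (h' : Lev b N) : Lev (a + b) (M * N) := by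
  intro i j hij
  rw [Matrix.mul_apply]
  apply Finset.sum_eq_zero
  intro k _
  by_cases hl : hgt i < hgt k + a
  · rw [h i k hl, zero_mul]
  · have h2 : hgt k < hgt j + b := by
      push Not at hl
      push_cast at hij
      omega
    rw [h' k j h2, mul_zero]

theorem Lev_pow {N : Matrix chevF4.Idx chevF4.Idx K} (h : Lev 1 N) (k : ℕ) : Lev k (N ^ k) := by
  induction k with
  | zero =>
    intro i j hij
    rw [pow_zero, Matrix.one_apply_ne]
    rintro rfl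
    simp at hij
  | succ k ih =>
    rw [pow_succ]
    exact Lev_mul ih h

theorem Lev_of_Up {M : Matrix chevF4.Idx chevF4.Idx K} (h : Up M) : Lev 1 (M - 1) := by
  intro i j hij
  rw [Matrix.sub_apply, h i j (by push_cast at hij; omega), sub_self]

theorem Lev_top {N : Matrix chevF4.Idx chevF4.Idx K} (h : Lev 23 N) : N = 0 := by
  ext i j
  apply h
  have h1 := hgt_bd i
  have h2 := hgt_bd j
  push_cast
  omega

section
variable [CharP K 2]

theorem pow32_of_Up {M : Matrix chevF4.Idx chevF4.Idx K} (h : Up M) : M ^ 32 = 1 := by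
  haveI : Fact (Nat.Prime 2) := ⟨Nat.prime_two⟩
  haveI : Nonempty chevF4.Idx := ⟨Sum.inl ⟨0, by decide⟩⟩
  haveI : CharP (Matrix chevF4.Idx chevF4.Idx K) 2 := Matrix.charP 2
  have h1 := Lev_pow (Lev_of_Up h) 23
  have h2 := Lev_top h1
  have e : M = (M - 1) + 1 := by abel
  have h3 : M ^ (2 ^ 5) = (M - 1) ^ (2 ^ 5) + 1 ^ (2 ^ 5) := by
    conv_lhs => rw [e]
    exact add_pow_char_pow_of_commute 2 5 (Commute.one_right _)
  have h4 : (M - 1) ^ (2 ^ 5) = 0 := by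
    have : (2 ^ 5 : ℕ) = 23 + 9 := by norm_num
    rw [this, pow_add, h2, zero_mul]
  rw [show (32 : ℕ) = 2 ^ 5 by norm_num, h3, h4, one_pow, zero_add]

theorem Up_x {r : ℕ} (h1 : 24 ≤ r) (h2 : r < 48) (t : K) : Up (chevF4.x K r t) := by
  intro i j hij
  have e := x_entry chevF4 t t t (r := r) h2 varT i j
  rw [eval_varT] at e
  rcases up_tbl r h2 h1 i j with h | h
  · omega
  · rw [e, eval_of_eqP (P0 := 2) t t t h]
    by_cases hi : i = j
    · subst hi
      simp [Pl.eval_const]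
    · rw [if_neg hi, Matrix.one_apply_ne hi]
      simp [Pl.eval]

theorem Up_pfr (f : ℕ → K) (k j : ℕ) (h1 : 24 ≤ j) (h2 : j + k ≤ 48) : Up (pfr valid f k j : Matrix chevF4.Idx chevF4.Idx K) := by
  induction k generalizing j with
  | zero =>
    intro i j' _
    simp [pfr]
  | succ k ih =>
    simp only [pfr, Units.val_mul, xU_val]
    exact Up_mul (Up_x h1 (by omega) _) (ih (j + 1) (by omega) (by omega))

/-- `U` has exponent dividing `32`. -/
theorem U_pow32 {g : GL chevF4.Idx K} (hg : g ∈ chevF4.posUnipotent K) : g ^ 32 = 1 := by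
  rw [posUnipotent_eq_uge valid valid2] at hg
  obtain ⟨f, rfl⟩ := exists_pfr valid valid2 24 (T.n / 2) (by rw [half]) (by decide +kernel) hg
  apply Units.ext
  rw [Units.val_pow_eq_pow_val, Units.val_one]
  rw [half]
  exact pow32_of_Up (Up_pfr f 24 24 le_rfl (by norm_num))

end

end up

section fin
variable {K : Type*} [Field K] [Fintype K] [CharP K 2]
variable {θ : K ≃+* K} (hθ : ∀ x, θ (θ x) ^ 2 = x)

set_option quotPrecheck false in
local notation "G1" => (WF hθ).G1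
set_option quotPrecheck false in
local notation "U1" => (chevF4.posUnipotent K ⊓ (WF hθ).G1).subgroupOf (WF hθ).G1

variable {m : ℕ} (hK : Fintype.card K = 2 ^ (2 * m + 1))
include hθ hK

theorem card_U1' : Nat.card ↥U1 = 2 ^ (12 * (2 * m + 1)) := by
  have e1 : Nat.card ↥(chevF4.posUnipotent K ⊓ G1) = Nat.card ↥U1 :=
    Nat.card_congr (Subgroup.subgroupOfEquivOfLe inf_le_right).toEquiv.symm
  rw [← e1, card_U1 hθ, Nat.card_eq_fintype_card, hK, ← pow_mul, mul_comm]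

theorem not_dvd_index : ¬ 2 ∣ Subgroup.index U1 := by
  have h1 := Subgroup.card_mul_index U1
  rw [card_U1' hθ hK, card_G1_final hθ hK, ← pow_mul, mul_comm (2 * m + 1) 12, mul_assoc, mul_assoc, mul_assoc] at h1
  have hpos : 0 < 2 ^ (12 * (2 * m + 1)) := by positivity
  have h2 := Nat.eq_of_mul_eq_mul_left hpos h1
  rw [h2]
  obtain ⟨r, hr⟩ : ∃ r, 2 ^ (2 * m + 1) = 2 * r := ⟨2 ^ (2 * m), by rw [pow_succ]; ring⟩
  have hr1 : 1 ≤ r := by
    by_contra hc
    have : r = 0 := by omega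
    rw [this] at hr
    have : 0 < 2 ^ (2 * m + 1) := by positivity
    omega
  have hodd : ∀ k, 1 ≤ k → (2 * r) ^ k % 2 = 0 := by
    intro k hk
    obtain ⟨l, rfl⟩ : ∃ l, k = l + 1 := ⟨k - 1, by omega⟩
    have e3 : (2 * r) ^ (l + 1) = 2 * ((2 * r) ^ l * r) := by ring
    rw [e3]
    exact Nat.mul_mod_right _ _
  have h3 : 1 ≤ 2 ^ (2 * m + 1) := Nat.one_le_two_pow
  rw [hr]
  intro h
  have p2 := Nat.prime_two
  rcases (Nat.Prime.dvd_mul p2).mp h with h4 | h4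
  · omega
  rcases (Nat.Prime.dvd_mul p2).mp h4 with h4 | h4
  · have := hodd 3 (by norm_num)
    omega
  rcases (Nat.Prime.dvd_mul p2).mp h4 with h4 | h4
  · have := hodd 4 (by norm_num)
    have h5 : 1 ≤ (2 * r) ^ 4 := Nat.one_le_pow _ _ (by omega)
    omega
  · have := hodd 6 (by norm_num)
    omega

/-- Elements of `2`-power order have order at most `32`. -/
theorem order_le (x : ↥G1) (hx : ∃ j : ℕ, orderOf x = 2 ^ j) : orderOf x ≤ 32 := by
  haveI : Fact (Nat.Prime 2) := ⟨Nat.prime_two⟩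
  have hp : IsPGroup 2 ↥U1 := IsPGroup.of_card (card_U1' hθ hK)
  set S : Sylow 2 ↥G1 := hp.toSylow (not_dvd_index hθ hK) with hS
  have hScoe : (S : Subgroup ↥G1) = U1 := rfl
  have hz : IsPGroup 2 (Subgroup.zpowers x) := by
    obtain ⟨j, hj⟩ := hx
    apply IsPGroup.of_card (n := j)
    rw [Nat.card_zpowers, hj]
  obtain ⟨Q, hQ⟩ := hz.exists_le_sylow
  obtain ⟨a, rfl⟩ := MulAction.exists_smul_eq ↥G1 S Q
  have hxQ := hQ (Subgroup.mem_zpowers x)
  rw [Sylow.coe_subgroup_smul, Subgroup.mem_pointwise_smul_iff_inv_smul_mem] at hxQ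
  have e : (MulAut.conj a)⁻¹ • x = a⁻¹ * x * a := by
    rw [MulAut.smul_def, MulAut.conj_inv_apply]
  have hxQ' : a⁻¹ * x * a ∈ U1 := by
    rw [← e]
    exact hxQ
  have h1 : (a⁻¹ * x * a) ^ 32 = 1 := by
    apply Subtype.ext
    have h2 := U_pow32 (K := K) ((Subgroup.mem_subgroupOf.mp hxQ').1)
    simpa using h2
  have h2 : x ^ 32 = 1 := by
    have e2 : x = a * (a⁻¹ * x * a) * a⁻¹ := by group
    rw [e2, conj_pow, h1]
    simp
  have h3 := orderOf_dvd_of_pow_eq_one h2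
  exact Nat.le_of_dvd (by norm_num) h3

end fin

end Cfsg.Agent.Lib.RF4K
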