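import Cfsg.Prelude.Def_RootSubgroups

/-!
Rank one groups: basic theory (conjugation calculus, the action on the set of unipotent subgroups,
double transitivity, the kernel of that action).
-/

set_option autoImplicit false

open Cfsg
open scoped commutatorElement

namespace Cfsg.Agent.Lib.RankOne

variable {G : Type*} [Group G]

/-! ### Conjugation calculus -/

theorem mem_conjBy {A : Subgroup G} {g x : G} : x ∈ conjBy A g ↔ g⁻¹ * x * g ∈ A := by
  constructor
  · rintro ⟨a, ha, rfl⟩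
    simpa [MulAut.conj_apply, mul_assoc] using ha
  · intro h
    refine ⟨_, h, ?_⟩
    simp [MulAut.conj_apply, mul_assoc]

theorem conj_mem_conjBy {A : Subgroup G} {g a : G} (ha : a ∈ A) : g * a * g⁻¹ ∈ conjBy A g :=
  ⟨a, ha, by simp [MulAut.conj_apply]⟩

@[simp] theorem conjBy_one (A : Subgroup G) : conjBy A 1 = A := by
  ext x; simp

theorem conjBy_mul (A : Subgroup G) (g h : G) : conjBy A (g * h) = conjBy (conjBy A h) g := by
  ext x; simp only [mem_conjBy, mul_inv_rev]; simp only [mul_assoc]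

theorem conjBy_conjBy (A : Subgroup G) (g h : G) : conjBy (conjBy A h) g = conjBy A (g * h) :=
  (conjBy_mul A g h).symm

theorem conjBy_of_mem {A : Subgroup G} {a : G} (ha : a ∈ A) : conjBy A a = A := by
  ext x
  simp only [mem_conjBy]
  constructor
  · intro h
    have := A.mul_mem (A.mul_mem ha h) (A.inv_mem ha)
    simpa [mul_assoc] using this
  · intro h
    exact A.mul_mem (A.mul_mem (A.inv_mem ha) h) ha

theorem conjBy_inv_conjBy (A : Subgroup G) (g : G) : conjBy (conjBy A g) g⁻¹ = A := by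
  rw [conjBy_conjBy]; simp

theorem conjBy_conjBy_inv (A : Subgroup G) (g : G) : conjBy (conjBy A g⁻¹) g = A := by
  rw [conjBy_conjBy]; simp

theorem conjBy_injective (g : G) : Function.Injective (fun A : Subgroup G => conjBy A g) := by
  intro A B h
  have h' : conjBy A g = conjBy B g := h
  rw [← conjBy_inv_conjBy A g, ← conjBy_inv_conjBy B g, h']

theorem mem_normalizer_iff_conjBy {A : Subgroup G} {g : G} :
    g ∈ Subgroup.normalizer (A : Set G) ↔ conjBy A g = A := by
  rw [Subgroup.mem_normalizer_iff]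
  constructor
  · intro h
    ext x
    rw [mem_conjBy]
    have := h (g⁻¹ * x * g)
    rw [this]
    simp [mul_assoc]
  · intro h x
    conv_rhs => rw [← h]
    rw [mem_conjBy]
    simp [mul_assoc]

theorem conjBy_le_iff {A B : Subgroup G} {g : G} :
    conjBy A g ≤ B ↔ ∀ a ∈ A, g * a * g⁻¹ ∈ B := by
  constructor
  · intro h a ha
    exact h (conj_mem_conjBy ha)
  · rintro h _ ⟨a, ha, rfl⟩
    exact h a ha

theorem conjBy_le_of_le_of_mem {A X : Subgroup G} {x : G} (hA : A ≤ X) (hx : x ∈ X) :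
    conjBy A x ≤ X := by
  rw [conjBy_le_iff]
  intro a ha
  exact X.mul_mem (X.mul_mem hx (hA ha)) (X.inv_mem hx)

/-! ### Rank one pairs -/

section RankOnePair

variable {A B : Subgroup G} (h : IsRankOnePair A B)

include h

theorem ne_bot_left : A ≠ ⊥ := by
  rintro rfl
  apply h.ne
  symm
  rw [eq_bot_iff]
  intro b hb
  by_contra hb1
  obtain ⟨a, ha, ha1, -⟩ := h.cond_right b hb (by simpa using hb1)
  exact ha1 (by simpa using ha)

theorem ne_bot_right : B ≠ ⊥ := ne_bot_left (RankOnePair_symm h)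

theorem exists_ne_one_left : ∃ a ∈ A, a ≠ 1 := by
  by_contra hcon
  push Not at hcon
  apply ne_bot_left h
  rw [eq_bot_iff]
  intro a ha
  simpa using hcon a ha

theorem exists_ne_one_right : ∃ b ∈ B, b ≠ 1 := exists_ne_one_left (RankOnePair_symm h)

/-- `B ∩ N(A) = 1`. -/
theorem eq_one_of_mem_normalizer_right {x : G} (hx : x ∈ B)
    (hxn : x ∈ Subgroup.normalizer (A : Set G)) : x = 1 := by
  by_contra hx1
  obtain ⟨a, ha, -, hab⟩ := h.cond_right x hx hx1
  have hn : conjBy A x⁻¹ = A :=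
    mem_normalizer_iff_conjBy.1 ((Subgroup.normalizer (A : Set G)).inv_mem hxn)
  rw [hn] at hab
  apply h.ne
  have h2 : conjBy (conjBy B a⁻¹) a = B := conjBy_conjBy_inv B a
  rw [hab, conjBy_of_mem ha] at h2
  exact h2

/-- `A ∩ N(B) = 1`. -/
theorem eq_one_of_mem_normalizer_left {x : G} (hx : x ∈ A)
    (hxn : x ∈ Subgroup.normalizer (B : Set G)) : x = 1 :=
  eq_one_of_mem_normalizer_right (RankOnePair_symm h) hx hxn

theorem inf_normalizer_right : B ⊓ Subgroup.normalizer (A : Set G) = ⊥ := by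
  rw [eq_bot_iff]
  rintro x ⟨hx, hxn⟩
  exact (Subgroup.mem_bot).2 (eq_one_of_mem_normalizer_right h hx hxn)

theorem inf_normalizer_left : A ⊓ Subgroup.normalizer (B : Set G) = ⊥ :=
  inf_normalizer_right (RankOnePair_symm h)

/-- Uniqueness of `b(a)`. -/
theorem unique_partner_right {b b' a : G} (hb : b ∈ B) (hb' : b' ∈ B)
    (e : conjBy A b⁻¹ = conjBy B a⁻¹) (e' : conjBy A b'⁻¹ = conjBy B a⁻¹) : b = b' := by
  have h1 : b * b'⁻¹ = 1 := by
    apply eq_one_of_mem_normalizer_right h (B.mul_mem hb (B.inv_mem hb'))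
    rw [mem_normalizer_iff_conjBy, conjBy_mul, e', ← e, conjBy_conjBy_inv]
  exact mul_inv_eq_one.1 h1

theorem unique_partner_left {a a' b : G} (ha : a ∈ A) (ha' : a' ∈ A)
    (e : conjBy A b⁻¹ = conjBy B a⁻¹) (e' : conjBy A b⁻¹ = conjBy B a'⁻¹) : a = a' :=
  unique_partner_right (RankOnePair_symm h) ha ha' e.symm e'.symm

/-! ### The set of unipotent subgroups -/

/-- Conjugating `A` by an element of `B` lands in the `A`-conjugates of `B` (or is `A`). -/
theorem conjBy_left_mem_right {b : G} (hb : b ∈ B) : conjBy A b = A ∨ ∃ a ∈ A, conjBy A b = conjBy B a := by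
  by_cases hb1 : b = 1
  · left; simp [hb1]
  · right
    obtain ⟨a, ha, -, e⟩ := h.cond_right b⁻¹ (B.inv_mem hb) (by simpa using hb1)
    refine ⟨a⁻¹, A.inv_mem ha, ?_⟩
    rw [e, inv_inv]

/-- The set `T = {A} ∪ {a B a⁻¹}`. -/
def theSet (A B : Subgroup G) : Set (Subgroup G) := {C | C = A ∨ ∃ a ∈ A, C = conjBy B a}

theorem left_mem_theSet : A ∈ theSet A B := Or.inl rfl

theorem right_mem_theSet : B ∈ theSet A B := Or.inr ⟨1, A.one_mem, by simp⟩

theorem theSet_conj_mem_left {C : Subgroup G} {a : G} (ha : a ∈ A) (hC : C ∈ theSet A B) :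
    conjBy C a ∈ theSet A B := by
  rcases hC with rfl | ⟨a', ha', rfl⟩
  · exact Or.inl (conjBy_of_mem ha)
  · exact Or.inr ⟨a * a', A.mul_mem ha ha', conjBy_conjBy _ _ _⟩

theorem theSet_conj_mem_right {C : Subgroup G} {b : G} (hb : b ∈ B) (hC : C ∈ theSet A B) :
    conjBy C b ∈ theSet A B := by
  rcases hC with rfl | ⟨a', ha', rfl⟩
  · rcases conjBy_left_mem_right h hb with e | ⟨a, ha, e⟩
    · exact Or.inl e
    · exact Or.inr ⟨a, ha, e⟩
  · by_cases ha1 : a' = 1
    · subst ha1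
      rw [conjBy_one, conjBy_of_mem hb]
      exact right_mem_theSet h
    · obtain ⟨b', hb', -, e⟩ := h.cond_left a'⁻¹ (A.inv_mem ha') (by simpa using ha1)
      rw [inv_inv] at e
      rw [← e, conjBy_conjBy]
      rcases conjBy_left_mem_right h (B.mul_mem hb (B.inv_mem hb')) with e' | ⟨a, ha, e'⟩
      · exact Or.inl e'
      · exact Or.inr ⟨a, ha, e'⟩

theorem theSet_conj_mem_both {x : G} (hx : x ∈ A ⊔ B) :
    ∀ {C : Subgroup G}, C ∈ theSet A B → conjBy C x ∈ theSet A B ∧ conjBy C x⁻¹ ∈ theSet A B := by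
  rw [Subgroup.sup_eq_closure] at hx
  induction hx using Subgroup.closure_induction with
  | mem x hx =>
    intro C hC
    rcases hx with hx | hx
    · exact ⟨theSet_conj_mem_left h hx hC, theSet_conj_mem_left h (A.inv_mem hx) hC⟩
    · exact ⟨theSet_conj_mem_right h hx hC, theSet_conj_mem_right h (B.inv_mem hx) hC⟩
  | one => intro C hC; simpa using hC
  | mul x y _ _ hx hy =>
    intro C hC
    refine ⟨?_, ?_⟩
    · rw [conjBy_mul]; exact (hx (hy hC).1).1
    · rw [mul_inv_rev, conjBy_mul]; exact (hy (hx hC).2).2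
  | inv x _ hx =>
    intro C hC
    rw [inv_inv]
    exact ⟨(hx hC).2, (hx hC).1⟩

theorem theSet_conj_mem {C : Subgroup G} {x : G} (hx : x ∈ A ⊔ B) (hC : C ∈ theSet A B) :
    conjBy C x ∈ theSet A B := (theSet_conj_mem_both h hx hC).1

/-- The unipotent subgroups are exactly `A` and the `A`-conjugates of `B`. -/
theorem mem_unipotentSubgroups_iff {C : Subgroup G} :
    C ∈ unipotentSubgroups A B ↔ C ∈ theSet A B := by
  constructor
  · rintro ⟨x, hx, rfl⟩
    exact theSet_conj_mem h hx (left_mem_theSet h)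
  · rintro (rfl | ⟨a, ha, rfl⟩)
    · exact ⟨1, Subgroup.one_mem _, by simp⟩
    · -- a B a⁻¹ is a conjugate of A
      obtain ⟨a₀, ha₀, ha₀1⟩ := exists_ne_one_left h
      -- write (a a₀⁻¹) ... using the rank one condition
      obtain ⟨b₀, hb₀, -, e⟩ := h.cond_left a₀ ha₀ ha₀1
      have key : conjBy B a = conjBy A (a * a₀ * b₀⁻¹) := by
        rw [conjBy_mul, conjBy_mul, e, conjBy_conjBy_inv]
      refine ⟨a * a₀ * b₀⁻¹, ?_, key⟩
      exact Subgroup.mul_mem _ (Subgroup.mul_mem _ (Subgroup.mem_sup_left ha)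
        (Subgroup.mem_sup_left ha₀)) (Subgroup.mem_sup_right (B.inv_mem hb₀))


theorem left_mem_unipotent : A ∈ unipotentSubgroups A B :=
  (mem_unipotentSubgroups_iff h).2 (left_mem_theSet h)

theorem right_mem_unipotent : B ∈ unipotentSubgroups A B :=
  (mem_unipotentSubgroups_iff h).2 (right_mem_theSet h)

theorem unipotent_conj_mem {C : Subgroup G} {x : G} (hx : x ∈ A ⊔ B)
    (hC : C ∈ unipotentSubgroups A B) : conjBy C x ∈ unipotentSubgroups A B :=
  (mem_unipotentSubgroups_iff h).2 (theSet_conj_mem h hx ((mem_unipotentSubgroups_iff h).1 hC))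

theorem unipotent_le {C : Subgroup G} (hC : C ∈ unipotentSubgroups A B) : C ≤ A ⊔ B := by
  obtain ⟨x, hx, rfl⟩ := hC
  exact conjBy_le_of_le_of_mem le_sup_left hx

/-- every member of the set other than `A` is an `A`-conjugate of `B`. -/
theorem exists_conj_of_ne_left {C : Subgroup G} (hC : C ∈ unipotentSubgroups A B) (hCA : C ≠ A) :
    ∃ a ∈ A, C = conjBy B a := by
  rcases (mem_unipotentSubgroups_iff h).1 hC with rfl | h'
  · exact absurd rfl hCA
  · exact h'

theorem conjBy_right_ne_left {a : G} (ha : a ∈ A) : conjBy B a ≠ A := by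
  intro e
  apply h.ne
  have h2 : conjBy (conjBy B a) a⁻¹ = B := conjBy_inv_conjBy B a
  rw [e, conjBy_of_mem (A.inv_mem ha)] at h2
  exact h2

/-- `a ∈ A` fixing a point other than `A` of the set is trivial. -/
theorem eq_one_of_fixes {a : G} {C : Subgroup G} (ha : a ∈ A)
    (hC : C ∈ unipotentSubgroups A B) (hCA : C ≠ A) (hfix : conjBy C a = C) : a = 1 := by
  obtain ⟨a', ha', rfl⟩ := exists_conj_of_ne_left h hC hCA
  have h1 : a'⁻¹ * a * a' = 1 := by
    apply eq_one_of_mem_normalizer_left h (A.mul_mem (A.mul_mem (A.inv_mem ha') ha) ha')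
    rw [mem_normalizer_iff_conjBy, conjBy_mul, conjBy_mul]
    rw [conjBy_conjBy] at hfix
    have : conjBy (conjBy (conjBy B a') a) a'⁻¹ = B := by
      rw [conjBy_conjBy B a a'] ; rw [hfix]; exact conjBy_inv_conjBy B a'
    exact this
  have h2 : a = a' * 1 * a'⁻¹ := by rw [← h1]; group
  simpa using h2

/-- Regularity: two elements of `A` acting identically on a point other than `A` are equal. -/
theorem eq_of_conj_eq {a a' : G} {C : Subgroup G} (ha : a ∈ A) (ha' : a' ∈ A)
    (hC : C ∈ unipotentSubgroups A B) (hCA : C ≠ A) (e : conjBy C a = conjBy C a') : a = a' := by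
  have : a'⁻¹ * a = 1 := by
    apply eq_one_of_fixes h (A.mul_mem (A.inv_mem ha') ha) hC hCA
    rw [conjBy_mul, e, conjBy_inv_conjBy]
  exact (inv_mul_eq_one.1 this).symm

/-- Transitivity of `A` on the points other than `A`. -/
theorem exists_conj_eq_of_ne_left {C D : Subgroup G} (hC : C ∈ unipotentSubgroups A B) (hCA : C ≠ A)
    (hD : D ∈ unipotentSubgroups A B) (hDA : D ≠ A) : ∃ a ∈ A, conjBy C a = D := by
  obtain ⟨a₁, ha₁, rfl⟩ := exists_conj_of_ne_left h hC hCA
  obtain ⟨a₂, ha₂, rfl⟩ := exists_conj_of_ne_left h hD hDA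
  refine ⟨a₂ * a₁⁻¹, A.mul_mem ha₂ (A.inv_mem ha₁), ?_⟩
  rw [conjBy_conjBy]
  simp

/-- Two-point transitivity: any two different points can be moved to `(A, B)`. -/
theorem exists_move_to_pair {C₁ C₂ : Subgroup G} (h₁ : C₁ ∈ unipotentSubgroups A B)
    (h₂ : C₂ ∈ unipotentSubgroups A B) (hne : C₁ ≠ C₂) :
    ∃ x ∈ A ⊔ B, conjBy C₁ x = A ∧ conjBy C₂ x = B := by
  obtain ⟨x₁, hx₁, rfl⟩ := h₁
  have hy : x₁⁻¹ ∈ A ⊔ B := Subgroup.inv_mem _ hx₁
  have hC₂' : conjBy C₂ x₁⁻¹ ∈ unipotentSubgroups A B := unipotent_conj_mem h hy h₂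
  have hne' : conjBy C₂ x₁⁻¹ ≠ A := by
    intro e
    apply hne
    have := conjBy_conjBy_inv C₂ x₁
    rw [e] at this
    exact this
  obtain ⟨a, ha, e⟩ := exists_conj_of_ne_left h hC₂' hne'
  refine ⟨a⁻¹ * x₁⁻¹, Subgroup.mul_mem _ (Subgroup.mem_sup_left (A.inv_mem ha)) hy, ?_, ?_⟩
  · rw [conjBy_mul, conjBy_inv_conjBy, conjBy_of_mem (A.inv_mem ha)]
  · rw [conjBy_mul, e, conjBy_inv_conjBy]

/-- Double transitivity of `⟨A,B⟩` on its unipotent subgroups. -/
theorem doubly_transitive {C₁ C₂ D₁ D₂ : Subgroup G} (h₁ : C₁ ∈ unipotentSubgroups A B)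
    (h₂ : C₂ ∈ unipotentSubgroups A B) (h₃ : D₁ ∈ unipotentSubgroups A B)
    (h₄ : D₂ ∈ unipotentSubgroups A B) (hne : C₁ ≠ C₂) (hne' : D₁ ≠ D₂) :
    ∃ x ∈ A ⊔ B, conjBy C₁ x = D₁ ∧ conjBy C₂ x = D₂ := by
  obtain ⟨x, hx, e₁, e₂⟩ := exists_move_to_pair h h₁ h₂ hne
  obtain ⟨y, hy, e₃, e₄⟩ := exists_move_to_pair h h₃ h₄ hne'
  refine ⟨y⁻¹ * x, Subgroup.mul_mem _ (Subgroup.inv_mem _ hy) hx, ?_, ?_⟩
  · rw [conjBy_mul, e₁, ← e₃, conjBy_inv_conjBy]
  · rw [conjBy_mul, e₂, ← e₄, conjBy_inv_conjBy]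

/-- `(C, D)` for distinct members of the set is again a rank one pair. -/
theorem isRankOnePair_of_mem {C D : Subgroup G} (hC : C ∈ unipotentSubgroups A B)
    (hD : D ∈ unipotentSubgroups A B) (hne : C ≠ D) : IsRankOnePair C D := by
  obtain ⟨x, hx, e₁, e₂⟩ := exists_move_to_pair h hC hD hne
  have e₁' : C = conjBy A x⁻¹ := by rw [← e₁, conjBy_inv_conjBy]
  have e₂' : D = conjBy B x⁻¹ := by rw [← e₂, conjBy_inv_conjBy]
  -- transport along conjugation by x⁻¹
  subst e₁' e₂'
  have hnil : ∀ (U : Subgroup G) (g : G), Group.IsNilpotent U → Group.IsNilpotent (conjBy U g) := by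
    intro U g hU
    have e : U ≃* conjBy U g := U.equivMapOfInjective _ (MulAut.conj g).injective
    exact Group.nilpotent_of_surjective e.toMonoidHom e.surjective
  refine ⟨hne, hnil _ _ h.nilpotent_left, hnil _ _ h.nilpotent_right, ?_, ?_⟩
  · rintro c ⟨a, ha, rfl⟩ hc
    have ha1 : a ≠ 1 := by
      rintro rfl
      apply hc
      simp
    obtain ⟨b, hb, hb1, e⟩ := h.cond_left a ha ha1
    refine ⟨x⁻¹ * b * x⁻¹⁻¹, conj_mem_conjBy hb, ?_, ?_⟩
    · intro hh
      apply hb1
      have : b = x⁻¹⁻¹ * (x⁻¹ * b * x⁻¹⁻¹) * x⁻¹ := by group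
      rw [this, hh]; group
    · have e1 : (x⁻¹ * b * x⁻¹⁻¹)⁻¹ = x⁻¹ * b⁻¹ * x⁻¹⁻¹ := by group
      have e2 : ((MulAut.conj x⁻¹).toMonoidHom a)⁻¹ = x⁻¹ * a⁻¹ * x⁻¹⁻¹ := by
        simp [MulAut.conj_apply, mul_assoc]
      rw [e1, e2, conjBy_conjBy, conjBy_conjBy]
      have e3 : x⁻¹ * b⁻¹ * x⁻¹⁻¹ * x⁻¹ = x⁻¹ * b⁻¹ := by group
      have e4 : x⁻¹ * a⁻¹ * x⁻¹⁻¹ * x⁻¹ = x⁻¹ * a⁻¹ := by group
      rw [e3, e4, conjBy_mul, conjBy_mul, e]
  · rintro c ⟨b, hb, rfl⟩ hc
    have hb1 : b ≠ 1 := by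
      rintro rfl
      apply hc
      simp
    obtain ⟨a, ha, ha1, e⟩ := h.cond_right b hb hb1
    refine ⟨x⁻¹ * a * x⁻¹⁻¹, conj_mem_conjBy ha, ?_, ?_⟩
    · intro hh
      apply ha1
      have : a = x⁻¹⁻¹ * (x⁻¹ * a * x⁻¹⁻¹) * x⁻¹ := by group
      rw [this, hh]; group
    · have e1 : (x⁻¹ * a * x⁻¹⁻¹)⁻¹ = x⁻¹ * a⁻¹ * x⁻¹⁻¹ := by group
      have e2 : ((MulAut.conj x⁻¹).toMonoidHom b)⁻¹ = x⁻¹ * b⁻¹ * x⁻¹⁻¹ := by
        simp [MulAut.conj_apply, mul_assoc]
      rw [e1, e2, conjBy_conjBy, conjBy_conjBy]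
      have e3 : x⁻¹ * b⁻¹ * x⁻¹⁻¹ * x⁻¹ = x⁻¹ * b⁻¹ := by group
      have e4 : x⁻¹ * a⁻¹ * x⁻¹⁻¹ * x⁻¹ = x⁻¹ * a⁻¹ := by group
      rw [e3, e4, conjBy_mul, conjBy_mul, e]

/-- Three distinct members. -/
theorem exists_three : ∃ C₁ ∈ unipotentSubgroups A B, ∃ C₂ ∈ unipotentSubgroups A B,
    ∃ C₃ ∈ unipotentSubgroups A B, C₁ ≠ C₂ ∧ C₁ ≠ C₃ ∧ C₂ ≠ C₃ := by
  obtain ⟨a, ha, ha1⟩ := exists_ne_one_left h
  refine ⟨A, left_mem_unipotent h, B, right_mem_unipotent h, conjBy B a, ?_, h.ne, ?_, ?_⟩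
  · exact (mem_unipotentSubgroups_iff h).2 (Or.inr ⟨a, ha, rfl⟩)
  · exact (conjBy_right_ne_left h ha).symm
  · intro e
    exact ha1 (eq_one_of_mem_normalizer_left h ha (mem_normalizer_iff_conjBy.2 e.symm))

/-- The kernel of the action: an element normalizing every member of the set centralizes `⟨A,B⟩`. -/
theorem commute_of_fixes_all {n : G}
    (hn : ∀ C ∈ unipotentSubgroups A B, conjBy C n = C) : ∀ x ∈ A ⊔ B, n * x = x * n := by
  have hnA : conjBy A n = A := hn A (left_mem_unipotent h)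
  have hnB : conjBy B n = B := hn B (right_mem_unipotent h)
  have hA : ∀ a ∈ A, n * a = a * n := by
    intro a ha
    -- c = n a n⁻¹ a⁻¹
    have hc : n * a * n⁻¹ * a⁻¹ ∈ A := by
      refine A.mul_mem ?_ (A.inv_mem ha)
      have : n * a * n⁻¹ ∈ conjBy A n := conj_mem_conjBy ha
      rwa [hnA] at this
    have hcn : n * a * n⁻¹ * a⁻¹ ∈ Subgroup.normalizer (B : Set G) := by
      rw [mem_normalizer_iff_conjBy]
      have h1 : conjBy (conjBy B a⁻¹) n = conjBy B a⁻¹ :=
        hn _ (unipotent_conj_mem h (Subgroup.mem_sup_left (A.inv_mem ha)) (right_mem_unipotent h))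
      have e : n * a * n⁻¹ * a⁻¹ = n * (a * (n⁻¹ * a⁻¹)) := by group
      rw [e, conjBy_mul, conjBy_mul, conjBy_mul]
      have h2 : conjBy (conjBy B a⁻¹) n⁻¹ = conjBy B a⁻¹ := by
        conv_lhs => rw [← h1]
        exact conjBy_inv_conjBy _ _
      rw [h2, conjBy_conjBy_inv, hnB]
    have := eq_one_of_mem_normalizer_left h hc hcn
    have e2 : n * a = (n * a * n⁻¹ * a⁻¹) * (a * n) := by group
    rw [e2, this, one_mul]
  have hB : ∀ b ∈ B, n * b = b * n := by
    intro b hb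
    have hc : n * b * n⁻¹ * b⁻¹ ∈ B := by
      refine B.mul_mem ?_ (B.inv_mem hb)
      have : n * b * n⁻¹ ∈ conjBy B n := conj_mem_conjBy hb
      rwa [hnB] at this
    have hcn : n * b * n⁻¹ * b⁻¹ ∈ Subgroup.normalizer (A : Set G) := by
      rw [mem_normalizer_iff_conjBy]
      have h1 : conjBy (conjBy A b⁻¹) n = conjBy A b⁻¹ :=
        hn _ (unipotent_conj_mem h (Subgroup.mem_sup_right (B.inv_mem hb)) (left_mem_unipotent h))
      have e : n * b * n⁻¹ * b⁻¹ = n * (b * (n⁻¹ * b⁻¹)) := by group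
      rw [e, conjBy_mul, conjBy_mul, conjBy_mul]
      have h2 : conjBy (conjBy A b⁻¹) n⁻¹ = conjBy A b⁻¹ := by
        conv_lhs => rw [← h1]
        exact conjBy_inv_conjBy _ _
      rw [h2, conjBy_conjBy_inv, hnA]
    have := eq_one_of_mem_normalizer_right h hc hcn
    have e2 : n * b = (n * b * n⁻¹ * b⁻¹) * (b * n) := by group
    rw [e2, this, one_mul]
  intro x hx
  rw [Subgroup.sup_eq_closure] at hx
  induction hx using Subgroup.closure_induction with
  | mem x hx =>
    rcases hx with hx | hx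
    · exact hA x hx
    · exact hB x hx
  | one => simp
  | mul x y _ _ hx hy => rw [← mul_assoc, hx, mul_assoc, hy, mul_assoc]
  | inv x _ hx =>
    have : n * x⁻¹ = x⁻¹ * (x * n) * x⁻¹ := by group
    rw [this, ← hx]; group

end RankOnePair

/-! ### Rank one groups: normal subgroups -/

section RankOneGroup

variable {A B : Subgroup G} (h : IsRankOneGroup G A B)

include h

theorem mem_center_of_fixes_all {n : G}
    (hn : ∀ C ∈ unipotentSubgroups A B, conjBy C n = C) : n ∈ Subgroup.center G := by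
  rw [Subgroup.mem_center_iff]
  intro x
  have hx : x ∈ A ⊔ B := by rw [h.1]; exact Subgroup.mem_top x
  exact (commute_of_fixes_all h.2 hn x hx).symm

/-- An element moving a point of the set has a conjugate moving `A` to `B`. -/
theorem exists_conj_moves {n : G} (hn : ¬ ∀ C ∈ unipotentSubgroups A B, conjBy C n = C) :
    ∃ x : G, conjBy A (x * n * x⁻¹) = B := by
  push Not at hn
  obtain ⟨C, hC, hne⟩ := hn
  have hCn : conjBy C n ∈ unipotentSubgroups A B := by
    apply unipotent_conj_mem h.2 _ hC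
    rw [h.1]; exact Subgroup.mem_top n
  obtain ⟨x, -, e₁, e₂⟩ := exists_move_to_pair h.2 hC hCn hne.symm
  refine ⟨x, ?_⟩
  rw [conjBy_mul, conjBy_mul, ← e₁, conjBy_inv_conjBy, e₂]

theorem normal_dichotomy (N : Subgroup G) [hN : N.Normal] : N ⊔ A = ⊤ ∨ N ≤ Subgroup.center G := by
  by_cases hall : ∀ n ∈ N, ∀ C ∈ unipotentSubgroups A B, conjBy C n = C
  · right
    intro n hn
    exact mem_center_of_fixes_all h (hall n hn)
  · left
    push Not at hall
    obtain ⟨n, hnN, C, hC, hne⟩ := hall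
    obtain ⟨x, e⟩ := exists_conj_moves h (n := n) (fun hh => hne (hh C hC))
    have hn' : x * n * x⁻¹ ∈ N := hN.conj_mem n hnN x
    have hBle : B ≤ N ⊔ A := by
      rw [← e]
      exact conjBy_le_of_le_of_mem le_sup_right (Subgroup.mem_sup_left hn')
    rw [eq_top_iff, ← h.1]
    exact sup_le le_sup_right hBle

theorem center_ne_top : Subgroup.center G ≠ ⊤ := by
  intro e
  obtain ⟨b, hb, hb1⟩ := exists_ne_one_right h.2
  apply hb1
  apply eq_one_of_mem_normalizer_right h.2 hb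
  rw [mem_normalizer_iff_conjBy]
  ext x
  have hc : b ∈ Subgroup.center G := by rw [e]; exact Subgroup.mem_top b
  rw [mem_conjBy]
  have : b⁻¹ * x * b = x := by
    rw [Subgroup.mem_center_iff] at hc
    rw [mul_assoc, hc x]; group
  rw [this]

theorem isQuasisimple_of_isPerfect (hp : Group.IsPerfect G) : IsQuasisimple G := by
  refine ⟨hp, ?_⟩
  have hnt : Nontrivial (G ⧸ Subgroup.center G) := by
    rw [QuotientGroup.nontrivial_iff]
    exact center_ne_top h
  refine ⟨?_⟩
  intro H hH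
  have hN : (H.comap (QuotientGroup.mk' (Subgroup.center G))).Normal := hH.comap _
  rcases normal_dichotomy h (H.comap (QuotientGroup.mk' (Subgroup.center G))) with h1 | h1
  · right
    -- the quotient by N is nilpotent and perfect
    set N := H.comap (QuotientGroup.mk' (Subgroup.center G)) with hNdef
    have hsurj : Function.Surjective ((QuotientGroup.mk' N).comp A.subtype) := by
      intro q
      obtain ⟨x, rfl⟩ := QuotientGroup.mk'_surjective N q
      have hx : x ∈ N ⊔ A := by rw [h1]; exact Subgroup.mem_top x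
      have hx' : x ∈ ((N ⊔ A : Subgroup G) : Set G) := hx
      rw [Subgroup.normal_mul] at hx'
      obtain ⟨n, hn, a, ha, rfl⟩ := Set.mem_mul.1 hx'
      refine ⟨⟨a, ha⟩, ?_⟩
      simp only [MonoidHom.comp_apply, Subgroup.subtype_apply, QuotientGroup.mk'_apply]
      rw [QuotientGroup.eq]
      simpa [mul_assoc] using hN.conj_mem n hn a⁻¹
    have hnilq : Group.IsNilpotent (G ⧸ N) := by
      have := h.2.nilpotent_left
      exact Group.nilpotent_of_surjective _ hsurj
    have hperfq : Group.IsPerfect (G ⧸ N) :=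
      Group.IsPerfect.ofSurjective (QuotientGroup.mk'_surjective N)
    have htriv : ¬ Nontrivial (G ⧸ N) := fun hn => Group.IsPerfect.not_isNilpotent (G := G ⧸ N) hnilq
    have hNtop : N = ⊤ := by
      by_contra hne
      exact htriv (QuotientGroup.nontrivial_iff.2 hne)
    rw [eq_top_iff]
    intro q _
    obtain ⟨x, rfl⟩ := QuotientGroup.mk'_surjective (Subgroup.center G) q
    have : x ∈ N := by rw [hNtop]; exact Subgroup.mem_top x
    exact this
  · left
    rw [eq_bot_iff]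
    intro q hq
    obtain ⟨x, rfl⟩ := QuotientGroup.mk'_surjective (Subgroup.center G) q
    have : x ∈ Subgroup.center G := h1 hq
    simpa [QuotientGroup.eq_one_iff] using this

theorem upperCentralSeries_two_le : Subgroup.upperCentralSeries G 2 ≤ Subgroup.center G := by
  intro z hz
  apply mem_center_of_fixes_all h
  by_contra hcon
  obtain ⟨x, e⟩ := exists_conj_moves h hcon
  have hz' : x * z * x⁻¹ ∈ Subgroup.upperCentralSeries G 2 :=
    (inferInstance : (Subgroup.upperCentralSeries G 2).Normal).conj_mem z hz x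
  set w := x * z * x⁻¹ with hw
  obtain ⟨a, ha, ha1⟩ := exists_ne_one_left h.2
  have hc : ⁅w, a⁆ ∈ Subgroup.upperCentralSeries G 1 :=
    Subgroup.mem_upperCentralSeries_succ_iff.1 hz' a
  rw [Subgroup.upperCentralSeries_one, commutatorElement_def] at hc
  have hb : w * a * w⁻¹ ∈ B := by
    rw [← e]; exact conj_mem_conjBy ha
  have hb1 : w * a * w⁻¹ = 1 := by
    apply eq_one_of_mem_normalizer_right h.2 hb
    rw [mem_normalizer_iff_conjBy]
    have e1 : w * a * w⁻¹ = (w * a * w⁻¹ * a⁻¹) * a := by group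
    rw [e1, conjBy_mul, conjBy_of_mem ha]
    ext y
    rw [mem_conjBy]
    have : (w * a * w⁻¹ * a⁻¹)⁻¹ * y * (w * a * w⁻¹ * a⁻¹) = y := by
      rw [Subgroup.mem_center_iff] at hc
      rw [mul_assoc, hc y]; group
    rw [this]
  apply ha1
  have : a = w⁻¹ * (w * a * w⁻¹) * w := by group
  rw [this, hb1]; group

theorem upperCentralSeries_two_eq : Subgroup.upperCentralSeries G 2 = Subgroup.center G := by
  apply le_antisymm (upperCentralSeries_two_le h)
  rw [← Subgroup.upperCentralSeries_one]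
  exact Subgroup.upperCentralSeries_mono G (by norm_num)

theorem upperCentralSeries_succ_eq (n : ℕ) : Subgroup.upperCentralSeries G (n + 1) = Subgroup.center G := by
  induction n with
  | zero => simp
  | succ n ih =>
    ext x
    have h2 : x ∈ Subgroup.center G ↔ x ∈ Subgroup.upperCentralSeries G 2 := by
      rw [upperCentralSeries_two_eq h]
    rw [h2, Subgroup.mem_upperCentralSeries_succ_iff, ih,
      show (2 : ℕ) = 1 + 1 from rfl, Subgroup.mem_upperCentralSeries_succ_iff,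
      Subgroup.upperCentralSeries_one]

theorem not_isNilpotent : ¬ Group.IsNilpotent G := by
  rintro ⟨n, hn⟩
  apply center_ne_top h
  rw [← upperCentralSeries_succ_eq h n, eq_top_iff, ← hn]
  exact Subgroup.upperCentralSeries_mono G (Nat.le_succ n)

end RankOneGroup

end Cfsg.Agent.Lib.RankOne
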