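import Mathlib
import Cfsg.Prelude.Def_LieRecognition

set_option autoImplicit false
set_option linter.unusedSectionVars false
set_option linter.unusedVariables false
set_option linter.style.haveILetI false

/-!
The rank-one set-up `Cfsg.IsRankOneSetup` (Hering-Kantor-Seitz).
-/

namespace Cfsg.Agent.Lib.RankOneSetup

open Cfsg MulAction

section General

variable {G : Type*} [Group G]

/-- Product decomposition in a join when one factor normalises the other. -/
lemma mem_sup_of_normalizes {H K : Subgroup G} (h : ∀ k ∈ K, ∀ x ∈ H, k * x * k⁻¹ ∈ H) {g : G}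
    (hg : g ∈ H ⊔ K) : ∃ x ∈ H, ∃ k ∈ K, x * k = g := by
  let S : Subgroup G :=
    { carrier := {g | ∃ x ∈ H, ∃ k ∈ K, x * k = g}
      mul_mem' := by
        rintro _ _ ⟨x, hx, k, hk, rfl⟩ ⟨x', hx', k', hk', rfl⟩
        refine ⟨x * (k * x' * k⁻¹), H.mul_mem hx (h k hk x' hx'), k * k', K.mul_mem hk hk', by group⟩
      one_mem' := ⟨1, H.one_mem, 1, K.one_mem, by simp⟩
      inv_mem' := by
        rintro _ ⟨x, hx, k, hk, rfl⟩
        refine ⟨k⁻¹ * x⁻¹ * k⁻¹⁻¹, h k⁻¹ (K.inv_mem hk) _ (H.inv_mem hx), k⁻¹, K.inv_mem hk, by group⟩ }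
  have hle : H ⊔ K ≤ S := sup_le (fun x hx => ⟨x, hx, 1, K.one_mem, by simp⟩)
    (fun k hk => ⟨1, H.one_mem, k, hk, by simp⟩)
  exact hle hg

end General

variable {G Ω : Type*} [Group G] [MulAction G Ω] {a : Ω} {t : G} {Q : Subgroup G}

lemma t_inv (hS : IsRankOneSetup G Ω a t Q) : t⁻¹ = t :=
  inv_eq_of_mul_eq_one_left hS.mul_self

lemma b_ne (hS : IsRankOneSetup G Ω a t Q) : t • a ≠ a := fun h => hS.not_mem h

lemma t_b (hS : IsRankOneSetup G Ω a t Q) : t • t • a = a := by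
  rw [← mul_smul, hS.mul_self, one_smul]

lemma two_trans (hS : IsRankOneSetup G Ω a t Q) {c d e f : Ω} (h1 : c ≠ d) (h2 : e ≠ f) :
    ∃ g : G, g • c = e ∧ g • d = f :=
  (MulAction.is_two_pretransitive_iff.1 hS.two_transitive) h1 h2

lemma Ga_trans (hS : IsRankOneSetup G Ω a t Q) {c d : Ω} (hc : c ≠ a) (hd : d ≠ a) :
    ∃ g ∈ stabilizer G a, g • c = d := by
  obtain ⟨g, h1, h2⟩ := two_trans hS hc.symm hd.symm
  exact ⟨g, h1, h2⟩

lemma decomp (hS : IsRankOneSetup G Ω a t Q) {g : G} (hg : g ∈ stabilizer G a) :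
    ∃ x ∈ Q, ∃ d ∈ (stabilizer G a ⊓ stabilizer G (t • a)), x * d = g := by
  rw [← hS.sup_eq] at hg
  exact mem_sup_of_normalizes (H := Q) (K := stabilizer G a ⊓ stabilizer G (t • a))
    (fun k hk x hx => hS.conj_mem k hk.1 x hx) hg

lemma Q_trans_b (hS : IsRankOneSetup G Ω a t Q) {c : Ω} (hc : c ≠ a) : ∃ x ∈ Q, x • (t • a) = c := by
  obtain ⟨g, hg, hgc⟩ := Ga_trans hS (b_ne hS) hc
  obtain ⟨x, hx, d, hd, rfl⟩ := decomp hS hg
  refine ⟨x, hx, ?_⟩
  rw [mul_smul, show d • t • a = t • a from hd.2] at hgc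
  exact hgc

lemma Q_fix (hS : IsRankOneSetup G Ω a t Q) {x : G} (hx : x ∈ Q) : x • a = a := hS.le hx

lemma Q_smul_ne (hS : IsRankOneSetup G Ω a t Q) {x : G} (hx : x ∈ Q) {c : Ω} (hc : c ≠ a) :
    x • c ≠ a := by
  intro h
  apply hc
  have := congrArg (fun y => x⁻¹ • y) h
  simp only [inv_smul_smul] at this
  rw [this, inv_smul_eq_iff, Q_fix hS hx]

/-- Non-identity elements of `Q` fix only `a`. -/
lemma Q_free (hS : IsRankOneSetup G Ω a t Q) {x : G} (hx : x ∈ Q) {c : Ω} (hc : c ≠ a)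
    (hxc : x • c = c) : x = 1 := by
  obtain ⟨z, hz, rfl⟩ := Q_trans_b hS hc
  have h1 : z⁻¹ * x * z ∈ Q := Q.mul_mem (Q.mul_mem (Q.inv_mem hz) hx) hz
  have h2 : z⁻¹ * x * z ∈ stabilizer G (t • a) := by
    show (z⁻¹ * x * z) • (t • a) = t • a
    rw [mul_smul, mul_smul, hxc, inv_smul_smul]
  have h3 : z⁻¹ * x * z ∈ Q ⊓ stabilizer G (t • a) := ⟨h1, h2⟩
  rw [hS.inf_eq_bot, Subgroup.mem_bot] at h3
  have : x = z * (z⁻¹ * x * z) * z⁻¹ := by group
  rw [this, h3]
  group

lemma Q_eq_of_smul_eq (hS : IsRankOneSetup G Ω a t Q) {x y : G} (hx : x ∈ Q) (hy : y ∈ Q) {c : Ω}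
    (hc : c ≠ a) (h : x • c = y • c) : x = y := by
  have h1 : y⁻¹ * x = 1 := by
    apply Q_free hS (Q.mul_mem (Q.inv_mem hy) hx) hc
    rw [mul_smul, h, inv_smul_smul]
  have : x = y * (y⁻¹ * x) := by group
  rw [this, h1, mul_one]

lemma Q_exists (hS : IsRankOneSetup G Ω a t Q) {c d : Ω} (hc : c ≠ a) (hd : d ≠ a) :
    ∃ x ∈ Q, x • c = d := by
  obtain ⟨x, hx, rfl⟩ := Q_trans_b hS hc
  obtain ⟨y, hy, rfl⟩ := Q_trans_b hS hd
  exact ⟨y * x⁻¹, Q.mul_mem hy (Q.inv_mem hx), by rw [mul_smul, inv_smul_smul]⟩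

/-- `Q` acts regularly on `Ω ∖ {a}`. -/
theorem Q_regular (hS : IsRankOneSetup G Ω a t Q) (b c : Ω) (hb : b ≠ a) (hc : c ≠ a) :
    ∃! x : Q, (x : G) • b = c := by
  obtain ⟨x, hx, h⟩ := Q_exists hS hb hc
  refine ⟨⟨x, hx⟩, h, ?_⟩
  rintro ⟨y, hy⟩ h2
  exact Subtype.ext (Q_eq_of_smul_eq hS hy hx hb (h2.trans h.symm))

/-- The bijection `Option Q ≃ Ω`. -/
noncomputable def optionEquiv (hS : IsRankOneSetup G Ω a t Q) : Option Q ≃ Ω :=
  Equiv.ofBijective (fun o => match o with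
      | none => a
      | some x => (x : G) • (t • a)) (by
    constructor
    · rintro (_ | x) (_ | y) h
      · rfl
      · simp only at h
        exact absurd h.symm (Q_smul_ne hS y.2 (b_ne hS))
      · simp only at h
        exact absurd h (Q_smul_ne hS x.2 (b_ne hS))
      · simp only at h
        rw [Subtype.ext (Q_eq_of_smul_eq hS x.2 y.2 (b_ne hS) h)]
    · intro c
      by_cases hc : c = a
      · exact ⟨none, hc.symm⟩
      · obtain ⟨x, hx, h⟩ := Q_trans_b hS hc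
        exact ⟨some ⟨x, hx⟩, h⟩)

section Dihedral

variable {H : Type*} [Group H]

lemma conj_pow_inv {s u : H} (hs : s * s = 1) (hu : u * u = 1) (k : ℕ) :
    s * (s * u) ^ k * s = ((s * u) ^ k)⁻¹ := by
  have hsi : s⁻¹ = s := inv_eq_of_mul_eq_one_left hs
  have hui : u⁻¹ = u := inv_eq_of_mul_eq_one_left hu
  have h1 : s * (s * u) * s = (s * u)⁻¹ := by
    rw [mul_inv_rev, hsi, hui, ← mul_assoc, hs, one_mul]
  have h0 : s * (s * u) ^ k * s⁻¹ = ((s * u) ^ k)⁻¹ := by
    rw [show s * (s * u) ^ k * s⁻¹ = (s * (s * u) * s⁻¹) ^ k from (conj_pow).symm, hsi, h1, inv_pow]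
  rwa [hsi] at h0

lemma odd_dihedral {s u : H} (hs : s * s = 1) (hu : u * u = 1) {k : ℕ}
    (h : (s * u) ^ (2 * k + 1) = 1) :
    ((s * u) ^ k * s) * ((s * u) ^ k * s) = 1 ∧ ((s * u) ^ k * s) * s * ((s * u) ^ k * s) = u := by
  have hc := conj_pow_inv hs hu k
  have hsi : s⁻¹ = s := inv_eq_of_mul_eq_one_left hs
  constructor
  · calc ((s * u) ^ k * s) * ((s * u) ^ k * s) = (s * u) ^ k * (s * (s * u) ^ k * s) := by group
      _ = 1 := by rw [hc]; group
  · have h2 : (s * u) ^ k * (s * u) ^ k * (s * u) = 1 := by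
      rw [← pow_add, ← pow_succ, ← two_mul]; exact h
    have h3 : (s * u) ^ k * (s * u) ^ k = (s * u)⁻¹ := eq_inv_of_mul_eq_one_left h2
    calc ((s * u) ^ k * s) * s * ((s * u) ^ k * s) = (s * u) ^ k * (s * s) * (s * u) ^ k * s := by
          simp only [mul_assoc]
      _ = (s * u) ^ k * (s * u) ^ k * s := by rw [hs, mul_one]
      _ = (s * u)⁻¹ * s := by rw [h3]
      _ = u := by
          have hui : u⁻¹ = u := inv_eq_of_mul_eq_one_left hu
          rw [mul_inv_rev, hsi, hui, mul_assoc, hs, mul_one]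

lemma even_dihedral {s u : H} (hs : s * s = 1) (hu : u * u = 1) {m : ℕ}
    (hm : orderOf (s * u) = 2 * m) (hm0 : 0 < m) :
    (s * u) ^ m ≠ 1 ∧ (s * u) ^ m * (s * u) ^ m = 1 ∧
      s * (s * u) ^ m = (s * u) ^ m * s ∧ u * (s * u) ^ m = (s * u) ^ m * u := by
  have hsi : s⁻¹ = s := inv_eq_of_mul_eq_one_left hs
  have hui : u⁻¹ = u := inv_eq_of_mul_eq_one_left hu
  have hz1 : (s * u) ^ m ≠ 1 := by
    intro h
    have := orderOf_dvd_of_pow_eq_one h
    rw [hm] at this
    have := Nat.le_of_dvd hm0 this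
    omega
  have hz2 : (s * u) ^ m * (s * u) ^ m = 1 := by
    rw [← pow_add, ← two_mul, ← hm, pow_orderOf_eq_one]
  have hzi : ((s * u) ^ m)⁻¹ = (s * u) ^ m := inv_eq_of_mul_eq_one_left hz2
  have hc := conj_pow_inv hs hu m
  rw [hzi] at hc
  refine ⟨hz1, hz2, ?_, ?_⟩
  · calc s * (s * u) ^ m = (s * (s * u) ^ m * s) * s := by
          rw [mul_assoc _ s s, hs, mul_one]
      _ = _ := by rw [hc]
  · -- `u = s * (s * u)`
    have hu' : u = s * (s * u) := by rw [← mul_assoc, hs, one_mul]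
    have hcomm : (s * u) * (s * u) ^ m = (s * u) ^ m * (s * u) := (pow_succ' _ _).symm.trans (pow_succ _ _)
    have hs' : s * (s * u) ^ m = (s * u) ^ m * s := by
      calc s * (s * u) ^ m = (s * (s * u) ^ m * s) * s := by
            rw [mul_assoc _ s s, hs, mul_one]
        _ = _ := by rw [hc]
    obtain ⟨z, hz⟩ : ∃ z, z = (s * u) ^ m := ⟨_, rfl⟩
    rw [← hz] at hcomm hs' ⊢
    calc u * z = (s * (s * u)) * z := by rw [← hu']
      _ = s * ((s * u) * z) := by simp only [mul_assoc]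
      _ = s * (z * (s * u)) := by rw [hcomm]
      _ = (s * z) * (s * u) := by simp only [mul_assoc]
      _ = z * s * (s * u) := by rw [hs']
      _ = z * (s * (s * u)) := by simp only [mul_assoc]
      _ = z * u := by rw [← hu']

end Dihedral

section Finite

variable [Finite G]

lemma finite_Ω (hS : IsRankOneSetup G Ω a t Q) : Finite Ω :=
  Finite.of_equiv _ (optionEquiv hS)

lemma card_Ω (hS : IsRankOneSetup G Ω a t Q) : Nat.card Ω = Nat.card Q + 1 := by
  rw [← Nat.card_congr (optionEquiv hS), Finite.card_option]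

lemma card_Ga (hS : IsRankOneSetup G Ω a t Q) :
    Nat.card (stabilizer G a) = Nat.card Q * Nat.card ↥(stabilizer G a ⊓ stabilizer G (t • a)) := by
  rw [← Nat.card_prod]
  symm
  apply Nat.card_congr
  refine Equiv.ofBijective (fun p => ⟨(p.1 : G) * p.2, ?_⟩) ⟨?_, ?_⟩
  · exact (stabilizer G a).mul_mem (hS.le p.1.2) p.2.2.1
  · rintro ⟨⟨x, hx⟩, ⟨d, hd⟩⟩ ⟨⟨y, hy⟩, ⟨e, he⟩⟩ h
    simp only [Subtype.mk.injEq] at h
    have h1 : y⁻¹ * x = e * d⁻¹ := by
      have : x = y * e * d⁻¹ := by rw [← h]; group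
      rw [this]; group
    have h2 : y⁻¹ * x ∈ Q ⊓ stabilizer G (t • a) := by
      refine ⟨Q.mul_mem (Q.inv_mem hy) hx, ?_⟩
      rw [h1]
      exact Subgroup.mul_mem _ he.2 (Subgroup.inv_mem _ hd.2)
    rw [hS.inf_eq_bot, Subgroup.mem_bot] at h2
    have hxy : x = y := by
      have : x = y * (y⁻¹ * x) := by group
      rw [this, h2, mul_one]
    subst hxy
    have hde : d = e := mul_left_cancel h
    subst hde
    rfl
  · rintro ⟨g, hg⟩
    obtain ⟨x, hx, d, hd, rfl⟩ := decomp hS hg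
    exact ⟨(⟨x, hx⟩, ⟨d, hd⟩), rfl⟩

lemma index_Ga (hS : IsRankOneSetup G Ω a t Q) : (stabilizer G a).index = Nat.card Q + 1 := by
  have hp : IsPretransitive G Ω := by
    have := hS.two_transitive
    exact MulAction.isPretransitive_of_is_two_pretransitive
  have h := MulAction.index_stabilizer (G := G) a
  rw [h, MulAction.orbit_eq_univ, Set.ncard_univ, card_Ω hS]

lemma card_G (hS : IsRankOneSetup G Ω a t Q) :
    Nat.card G = Nat.card Q * Nat.card ↥(stabilizer G a ⊓ stabilizer G (t • a)) * (Nat.card Q + 1) := by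
  rw [← (stabilizer G a).card_mul_index, card_Ga hS, index_Ga hS]

lemma odd_index (hS : IsRankOneSetup G Ω a t Q) : Odd (Nat.card Q + 1) :=
  hS.even_card.add_one

/-- Some Sylow 2-subgroup lies in `Q`. -/
lemma exists_sylow_le (hS : IsRankOneSetup G Ω a t Q) : ∃ P : Sylow 2 G, (P : Subgroup G) ≤ Q := by
  haveI : Fact (Nat.Prime 2) := ⟨Nat.prime_two⟩
  obtain ⟨S⟩ : Nonempty (Sylow 2 Q) := inferInstance
  have hcard : Nat.card ((S : Subgroup Q).map Q.subtype) = 2 ^ (Nat.card G).factorization 2 := by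
    have h1 : Nat.card ((S : Subgroup Q).map Q.subtype) = Nat.card S := by
      apply Nat.card_congr
      exact ((S : Subgroup Q).equivMapOfInjective Q.subtype Q.subtype_injective).toEquiv.symm
    rw [h1, S.card_eq_multiplicity, card_G hS]
    have hQ : Nat.card Q ≠ 0 := Nat.card_pos.ne'
    have hD : Nat.card ↥(stabilizer G a ⊓ stabilizer G (t • a)) ≠ 0 := Nat.card_pos.ne'
    rw [Nat.factorization_mul (Nat.mul_ne_zero hQ hD) (Nat.succ_ne_zero _),
      Nat.factorization_mul hQ hD]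
    have h2 : ¬ 2 ∣ Nat.card ↥(stabilizer G a ⊓ stabilizer G (t • a)) := by
      rw [← even_iff_two_dvd, Nat.not_even_iff_odd]
      exact hS.odd_card
    have h3 : ¬ 2 ∣ Nat.card Q + 1 := by
      rw [← even_iff_two_dvd, Nat.not_even_iff_odd]
      exact odd_index hS
    rw [Finsupp.add_apply, Finsupp.add_apply, Nat.factorization_eq_zero_of_not_dvd h2,
      Nat.factorization_eq_zero_of_not_dvd h3]
    simp
  refine ⟨Sylow.ofCard _ hcard, ?_⟩
  rw [Sylow.coe_ofCard]
  rintro _ ⟨x, _, rfl⟩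
  exact x.2

/-- Canonical form. -/
lemma canonical_form (hS : IsRankOneSetup G Ω a t Q) (g : G) (hg : g ∉ stabilizer G a) :
    ∃! p : G × G, p.1 ∈ stabilizer G a ∧ p.2 ∈ Q ∧ g = p.1 * t * p.2 := by
  have hg' : g⁻¹ • a ≠ a := by
    intro h
    apply hg
    rw [inv_smul_eq_iff] at h
    exact h.symm
  obtain ⟨y, hy, hy2⟩ := Q_trans_b hS hg'
  -- y • b = g⁻¹ • a ; take the form g = x t y⁻¹
  refine ⟨(g * y * t⁻¹, y⁻¹), ⟨?_, Q.inv_mem hy, by group⟩, ?_⟩
  · show (g * y * t⁻¹) • a = a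
    rw [t_inv hS, mul_smul, mul_smul, hy2, smul_inv_smul]
  · rintro ⟨x', y'⟩ ⟨h1, h2, h3⟩
    simp only at h1 h2 h3
    -- y'⁻¹ • b = g⁻¹ • a
    have h4 : y'⁻¹ • (t • a) = g⁻¹ • a := by
      rw [h3, mul_inv_rev, mul_inv_rev, t_inv hS, mul_smul, mul_smul,
        show x'⁻¹ • a = a from (stabilizer G a).inv_mem h1]
    have h5 : y'⁻¹ = y := Q_eq_of_smul_eq hS (Q.inv_mem h2) hy (b_ne hS) (h4.trans hy2.symm)
    have h6 : y' = y⁻¹ := by rw [← h5, inv_inv]
    subst h6
    simp only [Prod.mk.injEq, and_true]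
    rw [h3]
    group

/-- Normaliser statement: `S1118`. -/
theorem normalizer_le (hS : IsRankOneSetup G Ω a t Q) (X : Set G) (hX : X ⊆ (Q : Set G))
    (hne : ∃ x ∈ X, x ≠ 1) : Subgroup.normalizer X ≤ stabilizer G a := by
  intro g hg
  obtain ⟨x, hx, hx1⟩ := hne
  by_contra hga
  have hga' : g • a ≠ a := hga
  have h1 : g * x * g⁻¹ ∈ X := (Subgroup.mem_set_normalizer_iff.1 hg x).1 hx
  have h2 : g * x * g⁻¹ = 1 := by
    apply Q_free hS (hX h1) hga'
    rw [mul_smul, mul_smul, inv_smul_smul, Q_fix hS (hX hx)]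
  apply hx1
  have : x = g⁻¹ * (g * x * g⁻¹) * g := by group
  rw [this, h2]
  group

lemma exists_Q_ne_one (hS : IsRankOneSetup G Ω a t Q) : ∃ x ∈ Q, x ≠ 1 := by
  by_contra h
  push Not at h
  have : Nat.card Q = 1 := by
    rw [Nat.card_eq_one_iff_unique]
    exact ⟨⟨fun x y => Subtype.ext ((h x x.2).trans (h y y.2).symm)⟩, ⟨1⟩⟩
  have h2 := hS.even_card
  rw [this] at h2
  exact absurd h2 (by decide)

theorem normalizer_Q (hS : IsRankOneSetup G Ω a t Q) :
    Subgroup.normalizer (Q : Set G) = stabilizer G a := by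
  apply le_antisymm
  · exact normalizer_le hS _ subset_rfl (by simpa using exists_Q_ne_one hS)
  · intro g hg
    rw [Subgroup.mem_set_normalizer_iff]
    intro x
    constructor
    · exact fun hx => hS.conj_mem g hg x hx
    · intro hx
      have := hS.conj_mem g⁻¹ ((stabilizer G a).inv_mem hg) _ hx
      simpa [mul_assoc] using this

theorem normalizer_Ga (hS : IsRankOneSetup G Ω a t Q) :
    Subgroup.normalizer (stabilizer G a : Set G) = stabilizer G a := by
  apply le_antisymm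
  · intro g hg
    by_contra hga
    have hga' : g • a ≠ a := hga
    obtain ⟨x, hx, hx1⟩ := exists_Q_ne_one hS
    have h1 : g * x * g⁻¹ ∈ stabilizer G a := (Subgroup.mem_set_normalizer_iff.1 hg x).1 (hS.le hx)
    -- x fixes g⁻¹ • a
    have hg2 : g⁻¹ • a ≠ a := by
      intro h
      apply hga'
      rw [inv_smul_eq_iff] at h
      exact h.symm
    apply hx1
    apply Q_free hS hx hg2
    have := (show (g * x * g⁻¹) • a = a from h1)
    rw [mul_smul, mul_smul, smul_eq_iff_eq_inv_smul] at this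
    exact this
  · exact Subgroup.le_normalizer

/-! ### Involutions -/

lemma involution_mem_Q (hS : IsRankOneSetup G Ω a t Q) {s : G} (hs : s ∈ stabilizer G a) (h2 : s * s = 1) :
    s ∈ Q := by
  obtain ⟨x, hx, d, hd, rfl⟩ := decomp hS hs
  -- d has odd order; modulo Q it squares to 1
  have hdd : d * d ∈ Q := by
    have hw : d * x * d = x⁻¹ := by
      apply eq_inv_of_mul_eq_one_right
      rw [← h2]
      group
    have e : d * d = d * x⁻¹ * d⁻¹ * x⁻¹ := by
      calc d * d = d * d * x * x⁻¹ := by group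
        _ = d * (d * x * d) * d⁻¹ * x⁻¹ := by group
        _ = d * x⁻¹ * d⁻¹ * x⁻¹ := by rw [hw]
    rw [e]
    exact Q.mul_mem (hS.conj_mem d hd.1 x⁻¹ (Q.inv_mem hx)) (Q.inv_mem hx)
  have hd1 : d * d ∈ Q ⊓ stabilizer G (t • a) :=
    ⟨hdd, Subgroup.mul_mem _ hd.2 hd.2⟩
  rw [hS.inf_eq_bot, Subgroup.mem_bot] at hd1
  -- d has odd order in D
  have hdord : d = 1 := by
    have hodd := hS.odd_card
    have h5 : orderOf (⟨d, hd⟩ : ↥(stabilizer G a ⊓ stabilizer G (t • a))) ∣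
        Nat.card ↥(stabilizer G a ⊓ stabilizer G (t • a)) := orderOf_dvd_natCard _
    have h6 : orderOf (⟨d, hd⟩ : ↥(stabilizer G a ⊓ stabilizer G (t • a))) ∣ 2 := by
      apply orderOf_dvd_of_pow_eq_one
      apply Subtype.ext
      simp [pow_two, hd1]
    have h7 : Odd (orderOf (⟨d, hd⟩ : ↥(stabilizer G a ⊓ stabilizer G (t • a)))) := Odd.of_dvd_nat hodd h5
    have h8 := (Nat.dvd_prime Nat.prime_two).1 h6
    rcases h8 with h8 | h8
    · have := orderOf_eq_one_iff.1 h8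
      simpa using congrArg Subtype.val this
    · rw [h8] at h7
      exact absurd h7 (by decide)
  rw [hdord, mul_one]
  exact hx

/-- Involutions in `G_a` have `a` as unique fixed point. -/
lemma involution_fix (hS : IsRankOneSetup G Ω a t Q) {s : G} (hs : s ∈ stabilizer G a) (h2 : s * s = 1)
    (h1 : s ≠ 1) {c : Ω} (hc : s • c = c) : c = a := by
  by_contra hca
  exact h1 (Q_free hS (involution_mem_Q hS hs h2) hca hc)

/-- Cauchy: there is an involution in `Q`. -/
lemma exists_s0 (hS : IsRankOneSetup G Ω a t Q) : ∃ s ∈ Q, s ≠ 1 ∧ s * s = 1 := by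
  haveI : Fact (Nat.Prime 2) := ⟨Nat.prime_two⟩
  obtain ⟨x, hx⟩ := exists_prime_orderOf_dvd_card' (G := Q) 2 (even_iff_two_dvd.1 hS.even_card)
  refine ⟨x, x.2, ?_, ?_⟩
  · intro h
    have : x = 1 := Subtype.ext h
    rw [this, orderOf_one] at hx
    exact absurd hx (by decide)
  · have := pow_orderOf_eq_one x
    rw [hx, pow_two] at this
    exact congrArg Subtype.val this

/-- (S1121, first half) -/
theorem odd_orderOf_mul (hS : IsRankOneSetup G Ω a t Q) {s u : G} (hs : s ∈ stabilizer G a) (hs1 : s ≠ 1)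
    (hs2 : s * s = 1) (hu : u ∉ stabilizer G a) (hu1 : u ≠ 1) (hu2 : u * u = 1) : Odd (orderOf (s * u)) := by
  by_contra hodd
  rw [Nat.not_odd_iff_even] at hodd
  obtain ⟨m, hm⟩ := even_iff_two_dvd.1 hodd
  have hpos : 0 < orderOf (s * u) := orderOf_pos _
  have hm0 : 0 < m := by omega
  obtain ⟨hz1, hz2, hzs, hzu⟩ := even_dihedral hs2 hu2 hm hm0
  set z := (s * u) ^ m with hz
  -- z fixes a
  have hza : z • a = a := by
    apply involution_fix hS hs hs2 hs1
    rw [← mul_smul, hzs, mul_smul, show s • a = a from hs]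
  have hz_st : z ∈ stabilizer G a := hza
  apply hu
  show u • a = a
  apply involution_fix hS hz_st hz2 hz1
  rw [← mul_smul, ← hzu, mul_smul, hza]

/-- involutions outside `G_a` are conjugate to `s0 ∈ G_a`. -/
lemma conj_of_not_mem (hS : IsRankOneSetup G Ω a t Q) {s u : G} (hs : s ∈ stabilizer G a) (hs1 : s ≠ 1)
    (hs2 : s * s = 1) (hu : u ∉ stabilizer G a) (hu1 : u ≠ 1) (hu2 : u * u = 1) :
    ∃ w : G, w * w = 1 ∧ w * s * w = u := by
  obtain ⟨k, hk⟩ := odd_orderOf_mul hS hs hs1 hs2 hu hu1 hu2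
  have : (s * u) ^ (2 * k + 1) = 1 := by rw [← hk]; exact pow_orderOf_eq_one _
  exact ⟨_, (odd_dihedral hs2 hu2 this).1, (odd_dihedral hs2 hu2 this).2⟩

/-- Every involution is conjugate to a given involution of `G_a`. -/
lemma conj_of_invol (hS : IsRankOneSetup G Ω a t Q) {s u : G} (hs : s ∈ stabilizer G a) (hs1 : s ≠ 1)
    (hs2 : s * s = 1) (hu1 : u ≠ 1) (hu2 : u * u = 1) : ∃ g : G, g * s * g⁻¹ = u := by
  by_cases hu : u ∈ stabilizer G a
  · -- conjugate u out of G_a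
    have hu' : t * u * t⁻¹ ∉ stabilizer G a := by
      intro h
      have h1 : (t * u * t⁻¹) • a = a := h
      have h1' : u • (t⁻¹ • a) = t⁻¹ • a := by
        have := congrArg (t⁻¹ • ·) h1
        simpa [mul_smul] using this
      have := involution_fix hS hu hu2 hu1 h1'
      apply b_ne hS
      rw [t_inv hS] at this
      exact this
    have h1' : t * u * t⁻¹ ≠ 1 := by
      intro h
      apply hu1
      have : u = t⁻¹ * (t * u * t⁻¹) * t := by group
      rw [this, h]; group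
    have h2' : (t * u * t⁻¹) * (t * u * t⁻¹) = 1 := by
      have : (t * u * t⁻¹) * (t * u * t⁻¹) = t * (u * u) * t⁻¹ := by group
      rw [this, hu2]; group
    obtain ⟨w, hw, hwu⟩ := conj_of_not_mem hS hs hs1 hs2 hu' h1' h2'
    have hwi : w⁻¹ = w := inv_eq_of_mul_eq_one_left hw
    refine ⟨t⁻¹ * w, ?_⟩
    rw [mul_inv_rev, hwi, inv_inv]
    have : t⁻¹ * w * s * (w * t) = t⁻¹ * (w * s * w) * t := by group
    rw [this, hwu]
    group
  · obtain ⟨w, hw, hwu⟩ := conj_of_not_mem hS hs hs1 hs2 hu hu1 hu2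
    refine ⟨w, ?_⟩
    rw [inv_eq_of_mul_eq_one_left hw, hwu]

/-- (S1121, second half) any two involutions are conjugate. -/
theorem invol_conj (hS : IsRankOneSetup G Ω a t Q) {u v : G} (hu1 : u ≠ 1) (hu2 : u * u = 1) (hv1 : v ≠ 1)
    (hv2 : v * v = 1) : ∃ g : G, g * u * g⁻¹ = v := by
  obtain ⟨s, hsQ, hs1, hs2⟩ := exists_s0 hS
  have hs := hS.le hsQ
  obtain ⟨g, hg⟩ := conj_of_invol hS hs hs1 hs2 hu1 hu2
  obtain ⟨g', hg'⟩ := conj_of_invol hS hs hs1 hs2 hv1 hv2
  refine ⟨g' * g⁻¹, ?_⟩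
  rw [← hg', ← hg]
  group

/-- Involutions have a fixed point. -/
lemma invol_fix_exists (hS : IsRankOneSetup G Ω a t Q) {u : G} (hu1 : u ≠ 1) (hu2 : u * u = 1) :
    ∃ c : Ω, u • c = c := by
  obtain ⟨s, hsQ, hs1, hs2⟩ := exists_s0 hS
  obtain ⟨g, rfl⟩ := conj_of_invol hS (hS.le hsQ) hs1 hs2 hu1 hu2
  refine ⟨g • a, ?_⟩
  rw [mul_smul, mul_smul, inv_smul_smul, show s • a = a from hS.le hsQ]

/-- ... and it is unique. -/
lemma invol_fix_unique (hS : IsRankOneSetup G Ω a t Q) {u : G} (hu1 : u ≠ 1) (hu2 : u * u = 1) {c d : Ω}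
    (hc : u • c = c) (hd : u • d = d) : c = d := by
  obtain ⟨s, hsQ, hs1, hs2⟩ := exists_s0 hS
  obtain ⟨g, rfl⟩ := conj_of_invol hS (hS.le hsQ) hs1 hs2 hu1 hu2
  have key : ∀ e : Ω, (g * s * g⁻¹) • e = e → g⁻¹ • e = a := by
    intro e he
    apply involution_fix hS (hS.le hsQ) hs2 hs1
    rw [mul_smul, mul_smul, smul_eq_iff_eq_inv_smul] at he
    exact he
  have h1 := key c hc
  have h2 := key d hd
  rw [inv_smul_eq_iff] at h1 h2
  rw [h1, h2]

/-! ### The involutions swapping `a` and `b` -/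

/-- The involutions swapping `a` and `b = t • a`. -/
def IsJ (a : Ω) (t u : G) : Prop := u * u = 1 ∧ u • a = t • a

lemma isJ_t (hS : IsRankOneSetup G Ω a t Q) : IsJ a t t := ⟨hS.mul_self, rfl⟩

lemma IsJ.swap {u : G} (hu : IsJ a t u) : u • (t • a) = a := by
  rw [← hu.2, ← mul_smul, hu.1, one_smul]

lemma IsJ.inv_eq {u : G} (hu : IsJ a t u) : u⁻¹ = u := inv_eq_of_mul_eq_one_left hu.1

lemma IsJ.ne_one (hS : IsRankOneSetup G Ω a t Q) {u : G} (hu : IsJ a t u) : u ≠ 1 := by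
  rintro rfl
  have := hu.2
  rw [one_smul] at this
  exact b_ne hS this.symm

lemma mem_D_of_isJ (hS : IsRankOneSetup G Ω a t Q) {u : G} (hu : IsJ a t u) :
    t * u ∈ stabilizer G a ⊓ stabilizer G (t • a) := by
  constructor
  · show (t * u) • a = a
    rw [mul_smul, hu.2, t_b hS]
  · show (t * u) • (t • a) = t • a
    rw [mul_smul, hu.swap]

lemma inverted_of_isJ (hS : IsRankOneSetup G Ω a t Q) {u : G} (hu : IsJ a t u) :
    t * u ∈ invertedBy (stabilizer G a ⊓ stabilizer G (t • a)) t := by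
  refine ⟨mem_D_of_isJ hS hu, ?_⟩
  rw [mul_inv_rev, hu.inv_eq, t_inv hS, ← mul_assoc, hS.mul_self, one_mul]

lemma isJ_of_inverted (hS : IsRankOneSetup G Ω a t Q) {k : G}
    (hk : k ∈ invertedBy (stabilizer G a ⊓ stabilizer G (t • a)) t) : IsJ a t (t * k) := by
  obtain ⟨hD, hinv⟩ := hk
  rw [t_inv hS] at hinv
  constructor
  · calc t * k * (t * k) = (t * k * t) * k := by group
      _ = 1 := by rw [hinv]; group
  · rw [mul_smul, show k • a = a from hD.1]

lemma t_conj_I (hS : IsRankOneSetup G Ω a t Q) {s : G} (hs : s ∈ involutionsIn (stabilizer G a : Set G)) :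
    t * s * t ≠ 1 ∧ (t * s * t) * (t * s * t) = 1 ∧ (t * s * t) • (t • a) = t • a := by
  obtain ⟨hs0, hs1, hs2⟩ := hs
  refine ⟨?_, ?_, ?_⟩
  · intro h
    apply hs1
    have : s = t * (t * s * t) * t := by
      calc s = (t * t) * s * (t * t) := by rw [hS.mul_self]; group
        _ = _ := by group
    rw [this, h, mul_one, hS.mul_self]
  · calc t * s * t * (t * s * t) = t * s * (t * t) * s * t := by group
      _ = 1 := by rw [hS.mul_self, mul_one, mul_assoc t, hs2, mul_one, hS.mul_self]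
  · rw [mul_smul, mul_smul, t_b hS, show s • a = a from hs0]

/-- The fixed point of `s1` is `b`, so it moves `a`. -/
lemma s1_move (hS : IsRankOneSetup G Ω a t Q) {s1 : G} (h1 : s1 ≠ 1) (h2 : s1 * s1 = 1) (hb : s1 • (t • a) = t • a) :
    s1 • a ≠ a := fun h => b_ne hS (invol_fix_unique hS h1 h2 hb h)

lemma isJ_of_Ib (hS : IsRankOneSetup G Ω a t Q) {s1 r : G} (h2 : s1 * s1 = 1)
    (hr : r ∈ Q) (hra : r⁻¹ • (t • a) = s1 • a) : IsJ a t (r * s1 * r⁻¹) := by
  constructor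
  · calc r * s1 * r⁻¹ * (r * s1 * r⁻¹) = r * (s1 * s1) * r⁻¹ := by group
      _ = 1 := by rw [h2]; group
  · rw [mul_smul, mul_smul, show r⁻¹ • a = a from Q.inv_mem hr |> Q_fix hS, ← hra, smul_inv_smul]

/-- The data attached to `u ∈ J`. -/
lemma Ib_of_J (hS : IsRankOneSetup G Ω a t Q) {u : G} (hu : IsJ a t u) :
    ∃ r ∈ Q, ∃ s1 : G, u = r * s1 * r⁻¹ ∧ s1 ≠ 1 ∧ s1 * s1 = 1 ∧ s1 • (t • a) = t • a ∧ r⁻¹ • (t • a) = s1 • a := by
  have hu1 := hu.ne_one hS
  obtain ⟨f, hf⟩ := invol_fix_exists hS hu1 hu.1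
  have hfa : f ≠ a := by
    rintro rfl
    exact b_ne hS (hu.2.symm.trans hf)
  obtain ⟨r, hr, hrf⟩ := Q_trans_b hS hfa
  have hr1 : r⁻¹ • a = a := Q_fix hS (Q.inv_mem hr)
  refine ⟨r, hr, r⁻¹ * u * r, by group, ?_, ?_, ?_, ?_⟩
  · intro h
    apply hu1
    have : u = r * (r⁻¹ * u * r) * r⁻¹ := by group
    rw [this, h]; group
  · calc r⁻¹ * u * r * (r⁻¹ * u * r) = r⁻¹ * (u * u) * r := by group
      _ = 1 := by rw [hu.1]; group
  · rw [mul_smul, mul_smul, hrf, hf, ← hrf, inv_smul_smul]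
  · rw [mul_smul, mul_smul, Q_fix hS hr, hu.2]

/-- Uniqueness of `r` and `s1` in terms of `u`. -/
lemma r_unique (hS : IsRankOneSetup G Ω a t Q) {s1 r r' : G} (hr : r ∈ Q) (hr' : r' ∈ Q)
    (h : r⁻¹ • (t • a) = s1 • a) (h' : r'⁻¹ • (t • a) = s1 • a) : r = r' := by
  have := Q_eq_of_smul_eq hS (Q.inv_mem hr) (Q.inv_mem hr') (b_ne hS) (h.trans h'.symm)
  exact inv_injective this

lemma r_eq_of_fix (hS : IsRankOneSetup G Ω a t Q) {u s1 r r' : G} (hu : IsJ a t u) (hr : r ∈ Q) (hr' : r' ∈ Q)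
    (he : u = r * s1 * r⁻¹) (he' : u = r' * s1 * r'⁻¹) (hb : s1 • (t • a) = t • a) : r = r' := by
  have hfix : ∀ q : G, u = q * s1 * q⁻¹ → u • (q • (t • a)) = q • (t • a) := by
    intro q hq
    rw [hq, mul_smul, mul_smul, inv_smul_smul, hb]
  have := invol_fix_unique hS (hu.ne_one hS) hu.1 (hfix r he) (hfix r' he')
  exact Q_eq_of_smul_eq hS hr hr' (b_ne hS) this

/-- (S1123) -/
theorem exists_unique_pair (hS : IsRankOneSetup G Ω a t Q) :
    ∃! p : G × G, p.1 ∈ involutionsIn (stabilizer G a : Set G) ∧ p.2 ∈ Q ∧ t * p.1 * t = p.2⁻¹ * t * p.2 := by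
  obtain ⟨r, hr, s1, he, h1, h2, hb, hra⟩ := Ib_of_J hS (isJ_t hS)
  have htt : ∀ x : G, t * (t * x * t) * t = x := by
    intro x
    calc t * (t * x * t) * t = (t * t) * x * (t * t) := by group
      _ = x := by rw [hS.mul_self]; group
  have hs1 : s1 = r⁻¹ * t * r := by rw [he]; group
  refine ⟨(t * s1 * t, r), ⟨⟨?_, ?_, ?_⟩, hr, ?_⟩, ?_⟩
  · show (t * s1 * t) • a = a
    rw [mul_smul, mul_smul, hb, t_b hS]
  · intro h
    have h' : t * s1 * t = 1 := h
    apply h1
    have := htt s1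
    rw [h'] at this
    rw [← this, mul_one, hS.mul_self]
  · calc t * s1 * t * (t * s1 * t) = t * s1 * (t * t) * s1 * t := by group
      _ = 1 := by rw [hS.mul_self, mul_one, mul_assoc t, h2, mul_one, hS.mul_self]
  · simp only
    rw [htt, hs1]
  · rintro ⟨s', r'⟩ ⟨hs', hr', heq⟩
    simp only at hs' hr' heq
    obtain ⟨h1', h2', h3'⟩ := t_conj_I hS hs'
    have hur : t = r' * (t * s' * t) * r'⁻¹ := by rw [heq]; group
    have hrr : r' = r := by
      have hfix : t • (r' • (t • a)) = r' • (t • a) := by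
        have e : t • (r' • (t • a)) = (r' * (t * s' * t) * r'⁻¹) • (r' • (t • a)) := by rw [← hur]
        rw [e, mul_smul, mul_smul, inv_smul_smul, h3']
      have hfix2 : t • (r • (t • a)) = r • (t • a) := by
        have e : t • (r • (t • a)) = (r * s1 * r⁻¹) • (r • (t • a)) := by rw [← he]
        rw [e, mul_smul, mul_smul, inv_smul_smul, hb]
      have := invol_fix_unique hS (hS.ne_one) hS.mul_self hfix hfix2
      exact Q_eq_of_smul_eq hS hr' hr (b_ne hS) this
    subst hrr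
    have : s' = t * s1 * t := by
      rw [hs1, ← heq, htt]
    rw [this]

/-- `K` transitive on `I_a` (S1122, second part). -/
theorem exists_inverted_conj (hS : IsRankOneSetup G Ω a t Q) {s s' : G}
    (hs : s ∈ involutionsIn (stabilizer G a : Set G)) (hs' : s' ∈ involutionsIn (stabilizer G a : Set G)) :
    ∃ k ∈ invertedBy (stabilizer G a ⊓ stabilizer G (t • a)) t, k⁻¹ * s * k = s' := by
  obtain ⟨h1, h2, h3⟩ := t_conj_I hS hs
  have hnot : t * s * t ∉ stabilizer G a := s1_move hS h1 h2 h3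
  obtain ⟨w, hw, hwu⟩ := conj_of_not_mem hS hs'.1 hs'.2.1 hs'.2.2 hnot h1 h2
  have hw2 : w * (t * s * t) * w = s' := by
    rw [← hwu]
    calc w * (w * s' * w) * w = (w * w) * s' * (w * w) := by group
      _ = s' := by rw [hw]; group
  -- w swaps a and b
  have hwJ : IsJ a t w := by
    refine ⟨hw, ?_⟩
    have : (t * s * t) • (w • a) = w • a := by
      rw [← hwu, ← mul_smul]
      have e : w * s' * w * w = w * s' * (w * w) := by group
      rw [e, hw, mul_one, mul_smul, show s' • a = a from hs'.1]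
    exact invol_fix_unique hS h1 h2 this h3
  refine ⟨t * w, inverted_of_isJ hS hwJ, ?_⟩
  rw [mul_inv_rev, hwJ.inv_eq, t_inv hS, ← hw2]
  group

/-- (S1122, first part) -/
theorem card_inverted_eq (hS : IsRankOneSetup G Ω a t Q) :
    Nat.card (invertedBy (stabilizer G a ⊓ stabilizer G (t • a)) t) =
      Nat.card (involutionsIn (stabilizer G a : Set G)) := by
  symm
  apply Nat.card_congr
  -- the relation
  let R : involutionsIn (stabilizer G a : Set G) → invertedBy (stabilizer G a ⊓ stabilizer G (t • a)) t → Prop :=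
    fun s k => ∃ r ∈ Q, r⁻¹ • (t • a) = (t * s.1 * t) • a ∧ t * k.1 = r * (t * s.1 * t) * r⁻¹
  have hR1 : ∀ s, ∃! k, R s k := by
    rintro ⟨s, hs⟩
    obtain ⟨h1, h2, h3⟩ := t_conj_I hS hs
    have hmove := s1_move hS h1 h2 h3
    obtain ⟨y, hy, hye⟩ := Q_trans_b hS hmove
    have hr : y⁻¹ ∈ Q := Q.inv_mem hy
    have hra : (y⁻¹)⁻¹ • (t • a) = (t * s * t) • a := by rwa [inv_inv]
    have hJ := isJ_of_Ib hS h2 hr hra
    refine ⟨⟨_, inverted_of_isJ hS hJ⟩, ⟨y⁻¹, hr, hra, ?_⟩, ?_⟩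
    · show t * (t * (y⁻¹ * (t * s * t) * (y⁻¹)⁻¹)) = _
      rw [← mul_assoc, hS.mul_self, one_mul]
    · rintro ⟨k', hk'⟩ ⟨r', hr', hra', hk2⟩
      apply Subtype.ext
      simp only at hra' hk2 ⊢
      have : r' = y⁻¹ := r_unique hS hr' hr hra' hra
      subst this
      apply mul_left_cancel (a := t)
      rw [hk2]
      have htt' : ∀ x : G, t * (t * x) = x := fun x => by rw [← mul_assoc, hS.mul_self, one_mul]
      exact (htt' _).symm
  have hR2 : ∀ k, ∃! s, R s k := by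
    rintro ⟨k, hk⟩
    have hJ := isJ_of_inverted hS hk
    obtain ⟨r, hr, s1, he, h1, h2, hb, hra⟩ := Ib_of_J hS hJ
    have htt : ∀ x : G, t * (t * x * t) * t = x := by
      intro x
      calc t * (t * x * t) * t = (t * t) * x * (t * t) := by group
        _ = x := by rw [hS.mul_self]; group
    have hs : t * s1 * t ∈ involutionsIn (stabilizer G a : Set G) := by
      refine ⟨?_, ?_, ?_⟩
      · show (t * s1 * t) • a = a
        rw [mul_smul, mul_smul, hb, t_b hS]
      · intro h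
        apply h1
        have := htt s1
        rw [h] at this
        rw [← this, mul_one, hS.mul_self]
      · calc t * s1 * t * (t * s1 * t) = t * s1 * (t * t) * s1 * t := by group
          _ = 1 := by rw [hS.mul_self, mul_one, mul_assoc t, h2, mul_one, hS.mul_self]
    refine ⟨⟨_, hs⟩, ⟨r, hr, ?_, ?_⟩, ?_⟩
    · simp only
      rw [htt]; exact hra
    · simp only
      rw [htt]; exact he
    · rintro ⟨s', hs'⟩ ⟨r', hr', hra', hk2⟩
      apply Subtype.ext
      simp only at hra' hk2 ⊢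
      obtain ⟨h1', h2', h3'⟩ := t_conj_I hS hs'
      have hrr : r' = r := by
        have hfix : (t * k) • (r' • (t • a)) = r' • (t • a) := by
          rw [hk2, mul_smul, mul_smul, inv_smul_smul, h3']
        have hfix2 : (t * k) • (r • (t • a)) = r • (t • a) := by
          rw [he, mul_smul, mul_smul, inv_smul_smul, hb]
        have := invol_fix_unique hS (hJ.ne_one hS) hJ.1 hfix hfix2
        exact Q_eq_of_smul_eq hS hr' hr (b_ne hS) this
      subst hrr
      have h5 : t * s' * t = s1 := by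
        have := hk2.symm.trans he
        exact mul_left_cancel (mul_right_cancel this)
      rw [← h5, htt]
  -- build the equivalence
  choose f hf hfu using hR1
  refine Equiv.ofBijective f ⟨?_, ?_⟩
  · intro s s' h
    obtain ⟨s0, _, hs0⟩ := hR2 (f s)
    rw [hs0 s (hf s), hs0 s' (h ▸ hf s')]
  · intro k
    obtain ⟨s, hs, _⟩ := hR2 k
    exact ⟨s, (hfu s k hs).symm⟩

end Finite

end Cfsg.Agent.Lib.RankOneSetup
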