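import Mathlib
import Cfsg.Prelude.Def_LieRecognition
import Cfsg.Agent.Lib.RankOneSetup

set_option autoImplicit false
set_option linter.unusedSectionVars false
set_option linter.unusedVariables false
set_option linter.style.haveILetI false

/-!
The rank-one set-up, continued: centralisers of subsets of `D` fixing three points.
-/

namespace Cfsg.Agent.Lib.RankOneSetup

open Cfsg MulAction
open scoped Pointwise

section OddInvolution

variable {M : Type*} [Group M] [Finite M]

/-- A square root in a subgroup of odd order. -/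
lemma odd_sqrt_aux {X : Subgroup M} (hodd : Odd (Nat.card X)) {x : M} (hx : x ∈ X) :
    ∃ e : ℕ, ∀ v ∈ X, (v ^ e) * (v ^ e) = v ∧ (v * v) ^ e = v := by
  obtain ⟨k, hk⟩ := hodd
  refine ⟨k + 1, fun v hv => ?_⟩
  have h1 : v ^ (2 * k + 1) = 1 := by
    have := pow_card_eq_one' (G := X) (x := ⟨v, hv⟩)
    rw [hk] at this
    exact congrArg Subtype.val this
  constructor
  · rw [← pow_add]
    have : k + 1 + (k + 1) = (2 * k + 1) + 1 := by ring
    rw [this, pow_succ, h1, one_mul]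
  · rw [← sq, ← pow_mul]
    have : 2 * (k + 1) = (2 * k + 1) + 1 := by ring
    rw [this, pow_succ, h1, one_mul]

/-- Odd-order square roots are unique. -/
lemma odd_sqrt_unique {X : Subgroup M} (hodd : Odd (Nat.card X)) {x y : M} (hx : x ∈ X) (hy : y ∈ X)
    (h : x * x = y * y) : x = y := by
  obtain ⟨e, he⟩ := odd_sqrt_aux hodd hx
  rw [← (he x hx).2, ← (he y hy).2, h]

lemma inverted_pow {X : Subgroup M} {t z : M} (hz : z ∈ invertedBy X t) (n : ℕ) :
    z ^ n ∈ invertedBy X t := by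
  refine ⟨X.pow_mem hz.1 n, ?_⟩
  rw [← conj_pow, hz.2, inv_pow]

lemma inverted_inv {X : Subgroup M} {t z : M} (hz : z ∈ invertedBy X t) :
    z⁻¹ ∈ invertedBy X t := by
  refine ⟨X.inv_mem hz.1, ?_⟩
  rw [← conj_inv, hz.2]

/-- (S1124), part 1. -/
theorem involution_factor (t : M) (ht : orderOf t = 2) (X : Subgroup M) (hodd : Odd (Nat.card X))
    (hnorm : ∀ x ∈ X, t * x * t⁻¹ ∈ X) (x : M) (hx : x ∈ X) :
    ∃! p : M × M, p.1 ∈ X ⊓ Subgroup.centralizer {t} ∧ p.2 ∈ invertedBy X t ∧ x = p.1 * p.2 := by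
  have ht2 : t * t = 1 := by
    have := pow_orderOf_eq_one t
    rwa [ht, sq] at this
  have hti : t⁻¹ = t := inv_eq_of_mul_eq_one_left ht2
  -- `v` the inverse of `x⁻¹ τ(x)` lies in the inverted set
  set v : M := t * x⁻¹ * t * x with hv
  have hvX : v ∈ X := by
    have : v = (t * x * t⁻¹)⁻¹ * x := by rw [hv]; simp only [mul_inv_rev, inv_inv, hti]; group
    rw [this]
    exact X.mul_mem (X.inv_mem (hnorm x hx)) hx
  have hvinv : v ∈ invertedBy X t := by
    refine ⟨hvX, ?_⟩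
    rw [hv, hti]
    calc t * (t * x⁻¹ * t * x) * t = (t * t) * x⁻¹ * t * x * t := by group
      _ = x⁻¹ * t * x * t := by rw [ht2, one_mul]
      _ = (t * x⁻¹ * t * x)⁻¹ := by
          rw [show (t * x⁻¹ * t * x)⁻¹ = x⁻¹ * t⁻¹ * x * t⁻¹ by group, hti]
  obtain ⟨e, he⟩ := odd_sqrt_aux hodd hx
  set z : M := v ^ e with hz
  have hzinv : z ∈ invertedBy X t := inverted_pow hvinv e
  have hzz : z * z = v := (he v hvX).1
  have hzt : z⁻¹ * t = t * z := by
    have := hzinv.2
    rw [hti] at this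
    calc z⁻¹ * t = (t * z * t) * t := by rw [this]
      _ = t * z * (t * t) := by group
      _ = t * z := by rw [ht2, mul_one]
  have hy : (x * z⁻¹) ∈ X ⊓ Subgroup.centralizer ({t} : Set M) := by
    refine ⟨X.mul_mem hx (X.inv_mem hzinv.1), ?_⟩
    show x * z⁻¹ ∈ Subgroup.centralizer ({t} : Set M)
    rw [Subgroup.mem_centralizer_singleton_iff]
    calc x * z⁻¹ * t = x * (z⁻¹ * t) := by group
      _ = x * (t * z) := by rw [hzt]
      _ = x * (t * (z * z) * z⁻¹) := by group
      _ = x * (t * v * z⁻¹) := by rw [hzz]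
      _ = x * (t * t) * x⁻¹ * t * x * z⁻¹ := by rw [hv]; group
      _ = t * (x * z⁻¹) := by rw [ht2]; group
  refine ⟨(x * z⁻¹, z), ⟨hy, hzinv, by group⟩, ?_⟩
  rintro ⟨y', z'⟩ ⟨hy', hz', hxe⟩
  simp only at hy' hz' hxe
  have hy't : y' * t = t * y' := Subgroup.mem_centralizer_singleton_iff.1 hy'.2
  have hz't : t * z' * t = z'⁻¹ := by
    have := hz'.2
    rwa [hti] at this
  have hvz : v = z' * z' := by
    rw [hv, hxe]
    have e1 : t * (y' * z')⁻¹ * t = t * z'⁻¹ * y'⁻¹ * t := by group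
    have hy'i : y'⁻¹ * t = t * y'⁻¹ := by
      calc y'⁻¹ * t = y'⁻¹ * (t * y') * y'⁻¹ := by group
        _ = y'⁻¹ * (y' * t) * y'⁻¹ := by rw [hy't]
        _ = t * y'⁻¹ := by group
    have hzi : t * z'⁻¹ * t = z' := by
      have : (t * z' * t)⁻¹ = t * z'⁻¹ * t := by
        rw [mul_inv_rev, mul_inv_rev, hti]; group
      rw [← this, hz't, inv_inv]
    calc t * (y' * z')⁻¹ * t * (y' * z') = t * z'⁻¹ * (y'⁻¹ * t) * (y' * z') := by group
      _ = t * z'⁻¹ * (t * y'⁻¹) * (y' * z') := by rw [hy'i]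
      _ = (t * z'⁻¹ * t) * z' := by group
      _ = z' * z' := by rw [hzi]
  have hzz' : z' = z := odd_sqrt_unique hodd hz'.1 hzinv.1 (hvz.symm.trans hzz.symm)
  have hyy : y' = x * z⁻¹ := by rw [hxe, hzz']; group
  simp only [Prod.mk.injEq]
  exact ⟨hyy, hzz'⟩

/-- (S1124), parts 2, 3. -/
theorem involution_card (t : M) (ht : orderOf t = 2) (X : Subgroup M) (hodd : Odd (Nat.card X))
    (hnorm : ∀ x ∈ X, t * x * t⁻¹ ∈ X) :
    Nat.card X = Nat.card ↥(X ⊓ Subgroup.centralizer {t}) * Nat.card (invertedBy X t) := by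
  rw [← Nat.card_prod]
  apply Nat.card_congr
  symm
  refine Equiv.ofBijective
    (fun p : ↥(X ⊓ Subgroup.centralizer ({t} : Set M)) × (invertedBy X t) =>
      (⟨p.1.1 * p.2.1, X.mul_mem p.1.2.1 p.2.2.1⟩ : X)) ⟨?_, ?_⟩
  · rintro ⟨⟨y, hy⟩, ⟨z, hz⟩⟩ ⟨⟨y', hy'⟩, ⟨z', hz'⟩⟩ h
    have h' : y * z = y' * z' := congrArg Subtype.val h
    obtain ⟨p, _, hp⟩ := involution_factor t ht X hodd hnorm (y * z) (X.mul_mem hy.1 hz.1)
    have h1 := hp (y, z) ⟨hy, hz, rfl⟩
    have h2 := hp (y', z') ⟨hy', hz', h'⟩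
    have h3 := h1.trans h2.symm
    simp only [Prod.mk.injEq] at h3
    obtain ⟨rfl, rfl⟩ := h3
    rfl
  · rintro ⟨x, hx⟩
    obtain ⟨⟨y, z⟩, ⟨hy, hz, hxe⟩, _⟩ := involution_factor t ht X hodd hnorm x hx
    simp only at hy hz hxe
    exact ⟨(⟨y, hy⟩, ⟨z, hz⟩), Subtype.ext hxe.symm⟩

theorem involution_normal (t : M) (ht : orderOf t = 2) (X : Subgroup M) (hodd : Odd (Nat.card X))
    (hnorm : ∀ x ∈ X, t * x * t⁻¹ ∈ X) (x : M) (hx : x ∈ X) :
    MulAut.conj x • Subgroup.closure (invertedBy X t) = Subgroup.closure (invertedBy X t) := by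
  have key : x ∈ Subgroup.normalizer (Subgroup.closure (invertedBy X t) : Subgroup M) := by
    obtain ⟨⟨y, z⟩, ⟨hy, hz, hxe⟩, _⟩ := involution_factor t ht X hodd hnorm x hx
    simp only at hy hz hxe
    rw [hxe]
    refine Subgroup.mul_mem _ ?_ ?_
    · -- `y` normalises the inverted set
      have hy't : y * t = t * y := Subgroup.mem_centralizer_singleton_iff.1 hy.2
      have hyi : y⁻¹ * t = t * y⁻¹ := by
        calc y⁻¹ * t = y⁻¹ * (t * y) * y⁻¹ := by group
          _ = y⁻¹ * (y * t) * y⁻¹ := by rw [hy't]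
          _ = t * y⁻¹ := by group
      have himg : ∀ y : M, y ∈ X → y * t = t * y → ∀ w ∈ invertedBy X t, y * w * y⁻¹ ∈ invertedBy X t := by
        intro y hyX hyt w hw
        refine ⟨X.mul_mem (X.mul_mem hyX hw.1) (X.inv_mem hyX), ?_⟩
        have hyi : y⁻¹ * t = t * y⁻¹ := by
          calc y⁻¹ * t = y⁻¹ * (t * y) * y⁻¹ := by group
            _ = y⁻¹ * (y * t) * y⁻¹ := by rw [hyt]
            _ = t * y⁻¹ := by group
        have hti' : t⁻¹ * y⁻¹ = y⁻¹ * t⁻¹ := by
          have : (y * t)⁻¹ = (t * y)⁻¹ := by rw [hyt]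
          rwa [mul_inv_rev, mul_inv_rev] at this
        calc t * (y * w * y⁻¹) * t⁻¹ = (t * y) * w * (y⁻¹ * t⁻¹) := by group
          _ = (y * t) * w * (t⁻¹ * y⁻¹) := by rw [hyt, hti']
          _ = y * (t * w * t⁻¹) * y⁻¹ := by group
          _ = y * w⁻¹ * y⁻¹ := by rw [hw.2]
          _ = (y * w * y⁻¹)⁻¹ := by group
      rw [Subgroup.mem_normalizer_iff]
      intro h
      constructor
      · intro hh
        induction hh using Subgroup.closure_induction with
        | mem w hw => exact Subgroup.subset_closure (himg y hy.1 hy't w hw)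
        | one => simp
        | mul a b _ _ ha hb =>
            have : y * (a * b) * y⁻¹ = (y * a * y⁻¹) * (y * b * y⁻¹) := by group
            rw [this]; exact Subgroup.mul_mem _ ha hb
        | inv a _ ha =>
            have : y * a⁻¹ * y⁻¹ = (y * a * y⁻¹)⁻¹ := by group
            rw [this]; exact Subgroup.inv_mem _ ha
      · intro hh
        have h0 : ∀ c, c ∈ Subgroup.closure (invertedBy X t) → y⁻¹ * c * y ∈ Subgroup.closure (invertedBy X t) := by
          intro c hc
          induction hc using Subgroup.closure_induction with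
          | mem w hw =>
              have := himg y⁻¹ (X.inv_mem hy.1) hyi w hw
              rw [inv_inv] at this
              exact Subgroup.subset_closure this
          | one => simp
          | mul a b _ _ ha hb =>
              have : y⁻¹ * (a * b) * y = (y⁻¹ * a * y) * (y⁻¹ * b * y) := by group
              rw [this]; exact Subgroup.mul_mem _ ha hb
          | inv a _ ha =>
              have : y⁻¹ * a⁻¹ * y = (y⁻¹ * a * y)⁻¹ := by group
              rw [this]; exact Subgroup.inv_mem _ ha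
        have := h0 _ hh
        have e : y⁻¹ * (y * h * y⁻¹) * y = h := by group
        rwa [e] at this
    · exact Subgroup.le_normalizer (Subgroup.subset_closure hz)
  ext g
  rw [Subgroup.mem_pointwise_smul_iff_inv_smul_mem, MulAut.smul_def, MulAut.conj_inv_apply]
  have := (Subgroup.mem_normalizer_iff.1 (Subgroup.inv_mem _ key) g)
  rw [inv_inv] at this
  exact this.symm

end OddInvolution

section Part3

variable {G Ω : Type*} [Group G] [MulAction G Ω] {a : Ω} {t : G} {Q : Subgroup G}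

/-- Elements of `Q_e` moving one fixed point to another centralise. -/
lemma moves (hS : IsRankOneSetup G Ω a t Q) (X : Set G) {g : G} {c d : Ω}
    (he : ∀ x ∈ X, x • (g • a) = g • a) (hc : ∀ x ∈ X, x • c = c) (hd : ∀ x ∈ X, x • d = d)
    (hce : c ≠ g • a) (hde : d ≠ g • a) :
    ∃ y ∈ Subgroup.centralizer X, y • (g • a) = g • a ∧ y • c = d ∧ g⁻¹ * y * g ∈ Q := by
  have hc' : g⁻¹ • c ≠ a := by
    intro h; apply hce; rw [← h, smul_inv_smul]
  have hd' : g⁻¹ • d ≠ a := by
    intro h; apply hde; rw [← h, smul_inv_smul]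
  obtain ⟨y, hy, hyc⟩ := Q_exists hS hc' hd'
  have hcomm : ∀ x ∈ X, (g⁻¹ * x * g) * y * (g⁻¹ * x * g)⁻¹ = y := by
    intro x hx
    have hxa : (g⁻¹ * x * g) ∈ stabilizer G a := by
      show (g⁻¹ * x * g) • a = a
      rw [mul_smul, mul_smul, he x hx, inv_smul_smul]
    have hfc : (g⁻¹ * x * g) • (g⁻¹ • c) = g⁻¹ • c := by
      rw [mul_smul, mul_smul, smul_inv_smul, hc x hx]
    have hfd : (g⁻¹ * x * g) • (g⁻¹ • d) = g⁻¹ • d := by
      rw [mul_smul, mul_smul, smul_inv_smul, hd x hx]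
    apply Q_eq_of_smul_eq hS (hS.conj_mem _ hxa y hy) hy hc'
    rw [mul_smul, mul_smul, inv_smul_eq_iff.2 hfc.symm, hyc, hfd]
  refine ⟨g * y * g⁻¹, ?_, ?_, ?_, ?_⟩
  · rw [Subgroup.mem_centralizer_iff]
    intro x hx
    have := hcomm x hx
    have h2 : (g⁻¹ * x * g) * y = y * (g⁻¹ * x * g) := mul_inv_eq_iff_eq_mul.1 this
    calc x * (g * y * g⁻¹) = g * ((g⁻¹ * x * g) * y) * g⁻¹ := by group
      _ = g * (y * (g⁻¹ * x * g)) * g⁻¹ := by rw [h2]
      _ = g * y * g⁻¹ * x := by group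
  · rw [mul_smul, mul_smul, inv_smul_smul, Q_fix hS hy]
  · rw [mul_smul, mul_smul, hyc, smul_inv_smul]
  · have : g⁻¹ * (g * y * g⁻¹) * g = y := by group
    rwa [this]

/-- Moving points inside the fixed-point set of `X` by elements of the centraliser (for any centre). -/
lemma moves' (hS : IsRankOneSetup G Ω a t Q) (X : Set G) {e c d : Ω}
    (he : ∀ x ∈ X, x • e = e) (hc : ∀ x ∈ X, x • c = c) (hd : ∀ x ∈ X, x • d = d)
    (hce : c ≠ e) (hde : d ≠ e) :
    ∃ y ∈ Subgroup.centralizer X, y • e = e ∧ y • c = d := by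
  have hp : IsPretransitive G Ω := by
    have := hS.two_transitive
    exact MulAction.isPretransitive_of_is_two_pretransitive
  obtain ⟨g, rfl⟩ := MulAction.exists_smul_eq G a e
  obtain ⟨y, hy, h1, h2, _⟩ := moves hS X he hc hd hce hde
  exact ⟨y, hy, h1, h2⟩

/-- Fixed points of `X`, three of them given: transitivity of the centraliser. -/
lemma cent_trans (hS : IsRankOneSetup G Ω a t Q) (X : Set G)
    (h3 : ∃ b c d : Ω, b ≠ c ∧ b ≠ d ∧ c ≠ d ∧ ∀ x ∈ X, x • b = b ∧ x • c = c ∧ x • d = d)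
    {e e' : Ω} (he : ∀ x ∈ X, x • e = e) (he' : ∀ x ∈ X, x • e' = e') :
    ∃ y ∈ Subgroup.centralizer X, y • e = e' := by
  by_cases hee : e = e'
  · exact ⟨1, Subgroup.one_mem _, by simp [hee]⟩
  obtain ⟨b, c, d, hbc, hbd, hcd, hfix⟩ := h3
  -- a third fixed point
  obtain ⟨f, hf, hfe, hfe'⟩ : ∃ f : Ω, (∀ x ∈ X, x • f = f) ∧ e ≠ f ∧ e' ≠ f := by
    by_cases h1 : e ≠ b ∧ e' ≠ b
    · exact ⟨b, fun x hx => (hfix x hx).1, h1.1, h1.2⟩
    by_cases h2 : e ≠ c ∧ e' ≠ c
    · exact ⟨c, fun x hx => (hfix x hx).2.1, h2.1, h2.2⟩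
    refine ⟨d, fun x hx => (hfix x hx).2.2, ?_, ?_⟩
    · rintro rfl
      have h4 : e' = b := by
        by_contra h
        exact h1 ⟨hbd.symm, h⟩
      have h5 : e' = c := by
        by_contra h
        exact h2 ⟨hcd.symm, h⟩
      exact hbc (h4.symm.trans h5)
    · rintro rfl
      have h4 : e = b := by
        by_contra h
        exact h1 ⟨h, hbd.symm⟩
      have h5 : e = c := by
        by_contra h
        exact h2 ⟨h, hcd.symm⟩
      exact hbc (h4.symm.trans h5)
  obtain ⟨y, hy, _, h⟩ := moves' hS X hf he he' hfe hfe'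
  exact ⟨y, hy, h⟩

/-- (S1125, part 1) -/
theorem cent_two_trans (hS : IsRankOneSetup G Ω a t Q) (X : Set G)
    (h3 : ∃ b c d : Ω, b ≠ c ∧ b ≠ d ∧ c ≠ d ∧ ∀ x ∈ X, x • b = b ∧ x • c = c ∧ x • d = d)
    (b₁ b₂ c₁ c₂ : Ω) (hf : ∀ x ∈ X, x • b₁ = b₁ ∧ x • b₂ = b₂ ∧ x • c₁ = c₁ ∧ x • c₂ = c₂)
    (hb : b₁ ≠ b₂) (hc : c₁ ≠ c₂) : ∃ g ∈ Subgroup.centralizer X, g • b₁ = c₁ ∧ g • b₂ = c₂ := by
  obtain ⟨g, hg, hg1⟩ := cent_trans hS X h3 (fun x hx => (hf x hx).1) (fun x hx => (hf x hx).2.2.1)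
  have h2 : g • b₂ ≠ c₁ := by
    rw [← hg1]
    exact fun h => hb (smul_left_cancel _ h).symm
  have hfix : ∀ x ∈ X, x • (g • b₂) = g • b₂ := by
    intro x hx
    have hcomm : x * g = g * x := ((Subgroup.mem_centralizer_iff.1 hg) x hx)
    rw [← mul_smul, hcomm, mul_smul, (hf x hx).2.1]
  obtain ⟨y, hy, hy1, hy2⟩ := moves' hS X (fun x hx => (hf x hx).2.2.1) hfix (fun x hx => (hf x hx).2.2.2) h2 hc.symm
  refine ⟨y * g, Subgroup.mul_mem _ hy hg, ?_, ?_⟩
  · rw [mul_smul, hg1, hy1]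
  · rw [mul_smul, hy2]

section Fin

variable [Finite G]

/-- An involution in `C(X)` swapping `a` and `t • a` when `X ⊆ D` fixes a third point. -/
theorem exists_J_cent (hS : IsRankOneSetup G Ω a t Q) (X : Set G)
    (hX : X ⊆ ((stabilizer G a ⊓ stabilizer G (t • a)) : Set G))
    (h3 : ∃ b c d : Ω, b ≠ c ∧ b ≠ d ∧ c ≠ d ∧ ∀ x ∈ X, x • b = b ∧ x • c = c ∧ x • d = d) :
    ∃ u ∈ Subgroup.centralizer X, IsJ a t u := by
  have hfa : ∀ x ∈ X, x • a = a := fun x hx => (hX hx).1
  have hfb : ∀ x ∈ X, x • (t • a) = t • a := fun x hx => (hX hx).2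
  obtain ⟨g, hg, hg1, hg2⟩ := cent_two_trans hS X h3 a (t • a) (t • a) a
    (fun x hx => ⟨hfa x hx, hfb x hx, hfb x hx, hfa x hx⟩) (b_ne hS).symm (b_ne hS)
  have hgg : g * g ∈ stabilizer G a ⊓ stabilizer G (t • a) := by
    constructor
    · show (g * g) • a = a
      rw [mul_smul, hg1, hg2]
    · show (g * g) • (t • a) = t • a
      rw [mul_smul, hg2, hg1]
  obtain ⟨k, hk⟩ := hS.odd_card
  have hpow : (g * g) ^ (2 * k + 1) = 1 := by
    have := pow_card_eq_one' (G := ↥(stabilizer G a ⊓ stabilizer G (t • a))) (x := ⟨g * g, hgg⟩)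
    rw [hk] at this
    exact congrArg Subtype.val this
  refine ⟨g ^ (2 * k + 1), Subgroup.pow_mem _ hg _, ?_, ?_⟩
  · rw [← pow_add, ← two_mul, pow_mul, sq]
    exact hpow
  · have h1 : ((g * g) ^ k) • a = a := by
      have : (g * g) ^ k ∈ stabilizer G a := Subgroup.pow_mem _ hgg.1 k
      exact this
    rw [pow_succ', pow_mul, sq, mul_smul, h1, hg1]

/-- The involution in `C(X)` fixes a point of `Fix(X)`; conjugate it into `C_Q(X)`. -/
theorem exists_invol_cent_Q (hS : IsRankOneSetup G Ω a t Q) (X : Set G)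
    (hX : X ⊆ ((stabilizer G a ⊓ stabilizer G (t • a)) : Set G))
    (h3 : ∃ b c d : Ω, b ≠ c ∧ b ≠ d ∧ c ≠ d ∧ ∀ x ∈ X, x • b = b ∧ x • c = c ∧ x • d = d) :
    ∃ s ∈ Subgroup.centralizer X ⊓ Q, s ≠ 1 ∧ s * s = 1 := by
  obtain ⟨u, hu, hJ⟩ := exists_J_cent hS X hX h3
  have hu1 := hJ.ne_one hS
  obtain ⟨f, hf⟩ := invol_fix_exists hS hu1 hJ.1
  have hfix : ∀ x ∈ X, x • f = f := by
    intro x hx
    have hcomm : x * u = u * x := ((Subgroup.mem_centralizer_iff.1 hu) x hx)
    apply invol_fix_unique hS hu1 hJ.1 _ hf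
    rw [← mul_smul, ← hcomm, mul_smul, hf]
  obtain ⟨g, hg, hga⟩ := cent_trans hS X h3 hfix (fun x hx => (hX hx).1)
  have hs : g * u * g⁻¹ ∈ stabilizer G a := by
    show (g * u * g⁻¹) • a = a
    rw [← hga, mul_smul, mul_smul, inv_smul_smul, hf]
  have hs2 : (g * u * g⁻¹) * (g * u * g⁻¹) = 1 := by
    calc (g * u * g⁻¹) * (g * u * g⁻¹) = g * (u * u) * g⁻¹ := by group
      _ = 1 := by rw [hJ.1]; group
  refine ⟨g * u * g⁻¹, ⟨?_, involution_mem_Q hS hs hs2⟩, ?_, hs2⟩
  · exact Subgroup.mul_mem _ (Subgroup.mul_mem _ hg hu) (Subgroup.inv_mem _ hg)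
  · intro h
    apply hu1
    have : u = g⁻¹ * (g * u * g⁻¹) * g := by group
    rw [this, h]; group

theorem even_cent_Q (hS : IsRankOneSetup G Ω a t Q) (X : Set G)
    (hX : X ⊆ ((stabilizer G a ⊓ stabilizer G (t • a)) : Set G))
    (h3 : ∃ b c d : Ω, b ≠ c ∧ b ≠ d ∧ c ≠ d ∧ ∀ x ∈ X, x • b = b ∧ x • c = c ∧ x • d = d) :
    Even (Nat.card ↥(Subgroup.centralizer X ⊓ Q)) := by
  obtain ⟨s, hs, hs1, hs2⟩ := exists_invol_cent_Q hS X hX h3
  have h : orderOf (⟨s, hs⟩ : ↥(Subgroup.centralizer X ⊓ Q)) = 2 := by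
    apply orderOf_eq_prime
    · apply Subtype.ext
      simpa [sq] using hs2
    · intro h
      exact hs1 (congrArg Subtype.val h)
  have hd : 2 ∣ Nat.card ↥(Subgroup.centralizer X ⊓ Q) := by
    rw [← h]; exact orderOf_dvd_natCard _
  exact even_iff_two_dvd.2 hd

theorem cent_Ga_eq (hS : IsRankOneSetup G Ω a t Q) (X : Set G)
    (hX : X ⊆ ((stabilizer G a ⊓ stabilizer G (t • a)) : Set G)) :
    (Subgroup.centralizer X ⊓ Q) ⊔ (Subgroup.centralizer X ⊓ (stabilizer G a ⊓ stabilizer G (t • a))) =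
      Subgroup.centralizer X ⊓ stabilizer G a := by
  apply le_antisymm
  · apply sup_le
    · exact le_inf inf_le_left (inf_le_right.trans hS.le)
    · exact le_inf inf_le_left (inf_le_right.trans inf_le_left)
  · rintro h ⟨hc, ha⟩
    have ha' : h • a = a := ha
    have hb : h • (t • a) ≠ a := by
      intro e
      apply b_ne hS
      apply smul_left_cancel h
      rw [e, ha']
    obtain ⟨y, hy, hyb⟩ := Q_trans_b hS hb
    have hyc : y ∈ Subgroup.centralizer X := by
      rw [Subgroup.mem_centralizer_iff]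
      intro x hx
      have hxa : x ∈ stabilizer G a := (hX hx).1
      have hxb : x • (t • a) = t • a := (hX hx).2
      have hcomm : x * h = h * x := (Subgroup.mem_centralizer_iff.1 hc) x hx
      have hxhb : x • (h • (t • a)) = h • (t • a) := by
        rw [← mul_smul, hcomm, mul_smul, hxb]
      have : x * y * x⁻¹ = y := by
        apply Q_eq_of_smul_eq hS (hS.conj_mem x hxa y hy) hy (b_ne hS)
        have hxi : x⁻¹ • (t • a) = t • a := by rw [inv_smul_eq_iff, hxb]
        rw [mul_smul, mul_smul, hxi, hyb, hxhb]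
      exact mul_inv_eq_iff_eq_mul.1 this
    have : h = y * (y⁻¹ * h) := by group
    rw [this]
    refine Subgroup.mul_mem _ (Subgroup.mem_sup_left ⟨hyc, hy⟩) (Subgroup.mem_sup_right ⟨?_, ?_, ?_⟩)
    · exact Subgroup.mul_mem _ (Subgroup.inv_mem _ hyc) hc
    · show (y⁻¹ * h) • a = a
      rw [mul_smul, ha', inv_smul_eq_iff, Q_fix hS hy]
    · show (y⁻¹ * h) • (t • a) = t • a
      rw [mul_smul, ← hyb, inv_smul_smul]

/-- `k` inverted by `t` in `D`: rewrite. -/
lemma K_t_conj (hS : IsRankOneSetup G Ω a t Q) {k : G} (hk : k ∈ invertedBy (stabilizer G a ⊓ stabilizer G (t • a)) t) :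
    t * k * t = k⁻¹ := by
  have := hk.2
  rwa [t_inv hS] at this

/-- Any `IsJ` element is conjugate under `D` to any other: `D` is transitive on `J`. -/
theorem D_trans_J (hS : IsRankOneSetup G Ω a t Q) {u v : G} (hu : IsJ a t u) (hv : IsJ a t v) :
    ∃ k ∈ stabilizer G a ⊓ stabilizer G (t • a), k * u * k⁻¹ = v := by
  obtain ⟨r, hr, s1, he, h1, h2, hb, hra⟩ := Ib_of_J hS hu
  obtain ⟨r', hr', s1', he', h1', h2', hb', hra'⟩ := Ib_of_J hS hv
  have htt : ∀ x : G, t * (t * x * t) * t = x := by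
    intro x
    calc t * (t * x * t) * t = (t * t) * x * (t * t) := by group
      _ = x := by rw [hS.mul_self]; group
  have hI : ∀ s : G, s ≠ 1 → s * s = 1 → s • (t • a) = t • a → t * s * t ∈ involutionsIn (stabilizer G a : Set G) := by
    intro s hs1 hs2 hsb
    refine ⟨?_, ?_, ?_⟩
    · show (t * s * t) • a = a
      rw [mul_smul, mul_smul, hsb, t_b hS]
    · intro h
      apply hs1
      have := htt s
      rw [h] at this
      rw [← this, mul_one, hS.mul_self]
    · calc t * s * t * (t * s * t) = t * s * (t * t) * s * t := by group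
        _ = 1 := by rw [hS.mul_self, mul_one, mul_assoc t, hs2, mul_one, hS.mul_self]
  obtain ⟨k, hk, hks⟩ := exists_inverted_conj hS (hI s1 h1 h2 hb) (hI s1' h1' h2' hb')
  have htk := K_t_conj hS hk
  have htki : t * k⁻¹ * t = k := by
    have e : t * k⁻¹ * t = (t * k * t)⁻¹ := by
      rw [mul_inv_rev, mul_inv_rev, t_inv hS]; group
    rw [e, htk, inv_inv]
  have hks' : k * s1 * k⁻¹ = s1' := by
    have e0 : t * (k⁻¹ * (t * s1 * t) * k) * t = s1' := by rw [hks, htt]
    rw [← e0]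
    calc k * s1 * k⁻¹ = (t * k⁻¹ * t) * s1 * (t * k * t) := by rw [htk, htki]
      _ = t * (k⁻¹ * (t * s1 * t) * k) * t := by group
  have hkD := hk.1
  have hrk : k * r * k⁻¹ ∈ Q := hS.conj_mem k hkD.1 r hr
  have hkib : k⁻¹ • (t • a) = t • a := by rw [inv_smul_eq_iff]; exact hkD.2.symm
  have hkia : k⁻¹ • a = a := by rw [inv_smul_eq_iff]; exact hkD.1.symm
  have hrr : k * r * k⁻¹ = r' := by
    apply r_unique hS hrk hr' (s1 := s1') _ hra'
    rw [show (k * r * k⁻¹)⁻¹ = k * r⁻¹ * k⁻¹ by group, mul_smul, mul_smul, hkib, hra, ← hks', mul_smul, mul_smul, hkia]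
  refine ⟨k, hkD, ?_⟩
  rw [he, he', ← hrr, ← hks']
  group

/-- (S1126) -/
theorem D_conj_V (hS : IsRankOneSetup G Ω a t Q) (X : Set G)
    (hX : X ⊆ ((stabilizer G a ⊓ stabilizer G (t • a)) : Set G))
    (h3 : ∃ b c d : Ω, b ≠ c ∧ b ≠ d ∧ c ≠ d ∧ ∀ x ∈ X, x • b = b ∧ x • c = c ∧ x • d = d) :
    ∃ k ∈ (stabilizer G a ⊓ stabilizer G (t • a)), ∀ x ∈ X, (k * x * k⁻¹) * t = t * (k * x * k⁻¹) := by
  obtain ⟨u, hu, hJ⟩ := exists_J_cent hS X hX h3
  obtain ⟨k, hk, hku⟩ := D_trans_J hS hJ (isJ_t hS)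
  refine ⟨k, hk, fun x hx => ?_⟩
  have hcomm : x * u = u * x := (Subgroup.mem_centralizer_iff.1 hu) x hx
  rw [← hku]
  calc k * x * k⁻¹ * (k * u * k⁻¹) = k * (x * u) * k⁻¹ := by group
    _ = k * (u * x) * k⁻¹ := by rw [hcomm]
    _ = k * u * k⁻¹ * (k * x * k⁻¹) := by group

/-- (S1128) -/
theorem K_fpf (hS : IsRankOneSetup G Ω a t Q) {x : G}
    (hx : x ∈ invertedBy (stabilizer G a ⊓ stabilizer G (t • a)) t) (hx1 : x ≠ 1) :
    Q ⊓ Subgroup.centralizer {x} = ⊥ := by
  rw [eq_bot_iff]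
  rintro y ⟨hy, hyc⟩
  rw [Subgroup.mem_bot]
  by_contra hy1
  have hxy : y * x = x * y := Subgroup.mem_centralizer_singleton_iff.1 hyc
  have hxa : x • a = a := hx.1.1
  have hxb : x • (t • a) = t • a := hx.1.2
  have hyb : y • (t • a) ≠ t • a := by
    intro h
    exact hy1 (Q_free hS hy (b_ne hS) h)
  have hya : y • (t • a) ≠ a := Q_smul_ne hS hy (b_ne hS)
  have hxyb : x • (y • (t • a)) = y • (t • a) := by
    rw [← mul_smul, ← hxy, mul_smul, hxb]
  obtain ⟨u, hu, hJ⟩ := exists_J_cent hS ({x} : Set G)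
    (by
      rintro z rfl
      exact hx.1)
    ⟨a, t • a, y • (t • a), (b_ne hS).symm, hya.symm, hyb.symm, by
      rintro z rfl
      exact ⟨hxa, hxb, hxyb⟩⟩
  have hux : x * u = u * x := (Subgroup.mem_centralizer_iff.1 hu) x rfl
  have hw : u * t ∈ stabilizer G a ⊓ stabilizer G (t • a) := by
    constructor
    · show (u * t) • a = a
      rw [mul_smul]
      exact hJ.swap
    · show (u * t) • (t • a) = t • a
      rw [mul_smul, t_b hS]
      exact hJ.2
  have htx : t * x * t = x⁻¹ := K_t_conj hS hx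
  have hwx : ∀ n : ℕ, (u * t) ^ n * x * ((u * t) ^ n)⁻¹ = if Even n then x else x⁻¹ := by
    intro n
    induction n with
    | zero => simp
    | succ n ih =>
      have hui : u⁻¹ = u := hJ.inv_eq
      have hti : t⁻¹ = t := t_inv hS
      have hinv : x⁻¹ * u = u * x⁻¹ := by
        calc x⁻¹ * u = x⁻¹ * (u * x) * x⁻¹ := by group
          _ = x⁻¹ * (x * u) * x⁻¹ := by rw [hux]
          _ = u * x⁻¹ := by group
      have hstep : ∀ z : G, (z = x ∨ z = x⁻¹) → (u * t) * z * (u * t)⁻¹ = z⁻¹ := by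
        rintro z (rfl | rfl)
        · calc (u * t) * z * (u * t)⁻¹ = u * (t * z * t) * u := by
                rw [mul_inv_rev, hui, hti]; group
            _ = z⁻¹ * (u * u) := by rw [htx, ← hinv]; group
            _ = z⁻¹ := by rw [hJ.1, mul_one]
        · have hti2 : t * x⁻¹ * t = x := by
            have e : t * x⁻¹ * t = (t * x * t)⁻¹ := by
              rw [mul_inv_rev, mul_inv_rev, hti]; group
            rw [e, htx, inv_inv]
          calc (u * t) * x⁻¹ * (u * t)⁻¹ = u * (t * x⁻¹ * t) * u := by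
                rw [mul_inv_rev, hui, hti]; group
            _ = x * (u * u) := by rw [hti2, ← hux, mul_assoc]
            _ = x⁻¹⁻¹ := by rw [hJ.1, mul_one, inv_inv]
      have e : (u * t) ^ (n + 1) * x * ((u * t) ^ (n + 1))⁻¹ =
          (u * t) * ((u * t) ^ n * x * ((u * t) ^ n)⁻¹) * (u * t)⁻¹ := by
        have hps : (u * t) ^ (n + 1) = (u * t) * (u * t) ^ n := pow_succ' _ _
        rw [hps, mul_inv_rev]
        simp only [mul_assoc]
      rw [e, ih]
      by_cases hn : Even n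
      · rw [if_pos hn, hstep x (Or.inl rfl), if_neg (by simpa [Nat.even_add_one] using hn)]
      · rw [if_neg hn, hstep x⁻¹ (Or.inr rfl), if_pos (by simpa [Nat.even_add_one] using hn), inv_inv]
  obtain ⟨k, hk⟩ := hS.odd_card
  have hpow : (u * t) ^ (2 * k + 1) = 1 := by
    have := pow_card_eq_one' (G := ↥(stabilizer G a ⊓ stabilizer G (t • a))) (x := ⟨u * t, hw⟩)
    rw [hk] at this
    exact congrArg Subtype.val this
  have h1 := hwx (2 * k + 1)
  rw [hpow, if_neg (by simp [Nat.even_add_one])] at h1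
  have hxx : x = x⁻¹ := by simpa using h1
  have hx2 : x * x = 1 := by
    nth_rw 2 [hxx]
    simp
  obtain ⟨k', hk'⟩ := hS.odd_card
  have hpx : x ^ (2 * k' + 1) = 1 := by
    have := pow_card_eq_one' (G := ↥(stabilizer G a ⊓ stabilizer G (t • a))) (x := ⟨x, hx.1⟩)
    rw [hk'] at this
    exact congrArg Subtype.val this
  apply hx1
  rw [pow_succ, pow_mul, sq, hx2, one_pow, one_mul] at hpx
  exact hpx

/-- `d ∈ D` centralising the `s1` of `u ∈ J` centralises `u`. -/
lemma comm_J (hS : IsRankOneSetup G Ω a t Q) {d s1 r : G} (hd : d ∈ stabilizer G a ⊓ stabilizer G (t • a))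
    (hr : r ∈ Q) (hra : r⁻¹ • (t • a) = s1 • a) (hc : d * s1 = s1 * d) : d * r = r * d := by
  have hda : d • a = a := hd.1
  have hdb : d • (t • a) = t • a := hd.2
  have hdib : d⁻¹ • (t • a) = t • a := by rw [inv_smul_eq_iff]; exact hdb.symm
  have hrk : d * r * d⁻¹ ∈ Q := hS.conj_mem d hd.1 r hr
  have : d * r * d⁻¹ = r := by
    apply r_unique hS hrk hr (s1 := s1) _ hra
    rw [show (d * r * d⁻¹)⁻¹ = d * r⁻¹ * d⁻¹ by group, mul_smul, mul_smul, hdib, hra, ← mul_smul, hc, mul_smul, hda]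
  exact mul_inv_eq_iff_eq_mul.1 this

/-- Conjugation by `t` preserves `D`. -/
lemma t_conj_D (hS : IsRankOneSetup G Ω a t Q) {d : G} (hd : d ∈ stabilizer G a ⊓ stabilizer G (t • a)) :
    t * d * t ∈ stabilizer G a ⊓ stabilizer G (t • a) := by
  have hda : d • a = a := hd.1
  have hdb : d • (t • a) = t • a := hd.2
  constructor
  · show (t * d * t) • a = a
    rw [mul_smul, mul_smul, hdb, t_b hS]
  · show (t * d * t) • (t • a) = t • a
    rw [mul_smul, mul_smul, t_b hS, hda]

/-- (S1127, part 1) -/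
theorem cent_t_eq_cent_s (hS : IsRankOneSetup G Ω a t Q) (s r : G)
    (hs : s ∈ involutionsIn (stabilizer G a : Set G)) (hr : r ∈ Q) (he : t * s * t = r⁻¹ * t * r) :
    (stabilizer G a ⊓ stabilizer G (t • a)) ⊓ Subgroup.centralizer {t} =
      (stabilizer G a ⊓ stabilizer G (t • a)) ⊓ Subgroup.centralizer {s} := by
  have hti : t⁻¹ = t := t_inv hS
  have ht2 := hS.mul_self
  obtain ⟨p, _, hp⟩ := exists_unique_pair hS
  apply le_antisymm
  · rintro d ⟨hd, hdt⟩
    refine ⟨hd, ?_⟩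
    have hdt' : d * t = t * d := Subgroup.mem_centralizer_singleton_iff.1 hdt
    show d ∈ Subgroup.centralizer ({s} : Set G)
    rw [Subgroup.mem_centralizer_singleton_iff]
    have hdti : d⁻¹ * t = t * d⁻¹ := by
      calc d⁻¹ * t = d⁻¹ * (t * d) * d⁻¹ := by group
        _ = d⁻¹ * (d * t) * d⁻¹ := by rw [hdt']
        _ = t * d⁻¹ := by group
    have h1 := hp (s, r) ⟨hs, hr, he⟩
    have h2 := hp (d * s * d⁻¹, d * r * d⁻¹) ⟨by
        refine ⟨?_, ?_, ?_⟩
        · exact Subgroup.mul_mem _ (Subgroup.mul_mem _ hd.1 hs.1) (Subgroup.inv_mem _ hd.1)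
        · intro h
          have h' : d * s * d⁻¹ = 1 := h
          apply hs.2.1
          have : s = d⁻¹ * (d * s * d⁻¹) * d := by group
          rw [this, h']; group
        · calc d * s * d⁻¹ * (d * s * d⁻¹) = d * (s * s) * d⁻¹ := by group
            _ = 1 := by rw [hs.2.2]; group,
      hS.conj_mem d hd.1 r hr, by
        simp only
        calc t * (d * s * d⁻¹) * t = d * (t * s * t) * d⁻¹ := by
              calc t * (d * s * d⁻¹) * t = (t * d) * s * (d⁻¹ * t) := by group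
                _ = (d * t) * s * (t * d⁻¹) := by rw [hdt', hdti]
                _ = d * (t * s * t) * d⁻¹ := by group
          _ = d * (r⁻¹ * t * r) * d⁻¹ := by rw [he]
          _ = (d * r⁻¹) * (d⁻¹ * d) * t * r * d⁻¹ := by group
          _ = d * r⁻¹ * d⁻¹ * (d * t) * r * d⁻¹ := by group
          _ = d * r⁻¹ * d⁻¹ * (t * d) * r * d⁻¹ := by rw [hdt']
          _ = (d * r * d⁻¹)⁻¹ * t * (d * r * d⁻¹) := by group⟩
    have h3 := h2.trans h1.symm
    simp only [Prod.mk.injEq] at h3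
    exact mul_inv_eq_iff_eq_mul.1 h3.1
  · rintro d ⟨hd, hds⟩
    refine ⟨hd, ?_⟩
    have hds' : d * s = s * d := Subgroup.mem_centralizer_singleton_iff.1 hds
    show d ∈ Subgroup.centralizer ({t} : Set G)
    rw [Subgroup.mem_centralizer_singleton_iff]
    have htt : ∀ x : G, t * (t * x * t) * t = x := by
      intro x
      calc t * (t * x * t) * t = (t * t) * x * (t * t) := by group
        _ = x := by rw [ht2]; group
    -- `d' = t d t` commutes with `s1 = t s t`
    set s1 := t * s * t with hs1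
    have hd' := t_conj_D hS hd
    have hcs : (t * d * t) * s1 = s1 * (t * d * t) := by
      calc (t * d * t) * s1 = t * d * (t * t) * s * t := by rw [hs1]; group
        _ = t * (d * s) * t := by rw [ht2]; group
        _ = t * (s * d) * t := by rw [hds']
        _ = t * s * (t * t) * d * t := by rw [ht2]; group
        _ = s1 * (t * d * t) := by rw [hs1]; group
    have hsb : s1 • (t • a) = t • a := by
      rw [hs1, mul_smul, mul_smul, t_b hS]
      have : s • a = a := hs.1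
      rw [this]
    have hrb : r⁻¹ • (t • a) = s1 • a := by
      have hte : t = r * s1 * r⁻¹ := by rw [he]; group
      have hfix : t • (r • (t • a)) = r • (t • a) := by
        have e : t • (r • (t • a)) = (r * s1 * r⁻¹) • (r • (t • a)) := by rw [← hte]
        rw [e, mul_smul, mul_smul, inv_smul_smul, hsb]
      -- Now compute `r⁻¹ • (t • a)`: as `t` fixes `r • b`, `t r b = r b`.
      have e1 : r⁻¹ • (t • a) = s1 • (r⁻¹ • a) := by
        have : r⁻¹ * t = s1 * r⁻¹ := by rw [hte]; group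
        have e2 : r⁻¹ • (t • a) = (r⁻¹ * t) • a := by rw [mul_smul]
        rw [e2, this, mul_smul]
      rw [e1, Q_fix hS (Q.inv_mem hr)]
    have hcr : (t * d * t) * r = r * (t * d * t) := comm_J hS hd' hr hrb hcs
    have hcu : (t * d * t) * t = t * (t * d * t) := by
      have hte : t = r * s1 * r⁻¹ := by rw [he]; group
      have hri : (t * d * t) * r⁻¹ = r⁻¹ * (t * d * t) := by
        calc (t * d * t) * r⁻¹ = r⁻¹ * (r * (t * d * t)) * r⁻¹ := by group
          _ = r⁻¹ * ((t * d * t) * r) * r⁻¹ := by rw [hcr]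
          _ = r⁻¹ * (t * d * t) := by group
      generalize t * d * t = d' at hcr hri hcs ⊢
      calc d' * t = d' * (r * s1 * r⁻¹) := by rw [← hte]
        _ = (d' * r) * s1 * r⁻¹ := by group
        _ = r * (d' * s1) * r⁻¹ := by rw [hcr]; group
        _ = r * s1 * (d' * r⁻¹) := by rw [hcs]; group
        _ = r * s1 * r⁻¹ * d' := by rw [hri]; group
        _ = t * d' := by rw [← hte]
    have h1 : t * d * t * t = t * d := by rw [mul_assoc _ t t, ht2, mul_one]
    have h2 : t * (t * d * t) = d * t := by rw [← mul_assoc, ← mul_assoc, ht2, one_mul]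
    rw [h1, h2] at hcu
    exact hcu.symm

/-- (S1127, part 2) -/
theorem cent_K_eq (hS : IsRankOneSetup G Ω a t Q) :
    (stabilizer G a ⊓ stabilizer G (t • a)) ⊓ Subgroup.centralizer {t} ⊓
        Subgroup.centralizer (invertedBy (stabilizer G a ⊓ stabilizer G (t • a)) t) =
      (stabilizer G a ⊓ stabilizer G (t • a)) ⊓ Subgroup.centralizer (involutionsIn (stabilizer G a : Set G)) := by
  have ht2 := hS.mul_self
  have hti : t⁻¹ = t := t_inv hS
  obtain ⟨⟨s₀, r₀⟩, ⟨hs₀, hr₀, he₀⟩, _⟩ := exists_unique_pair hS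
  simp only at hs₀ hr₀ he₀
  have hCC := cent_t_eq_cent_s hS s₀ r₀ hs₀ hr₀ he₀
  apply le_antisymm
  · rintro d ⟨⟨hd, hdt⟩, hdK⟩
    refine ⟨hd, ?_⟩
    have hds0 : d ∈ (stabilizer G a ⊓ stabilizer G (t • a)) ⊓ Subgroup.centralizer {s₀} := by
      rw [← hCC]; exact ⟨hd, hdt⟩
    have hds0' : d * s₀ = s₀ * d := Subgroup.mem_centralizer_singleton_iff.1 hds0.2
    show d ∈ Subgroup.centralizer (involutionsIn (stabilizer G a : Set G))
    rw [Subgroup.mem_centralizer_iff]
    intro s' hs'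
    obtain ⟨k, hk, hks⟩ := exists_inverted_conj hS hs₀ hs'
    have hdk : k * d = d * k := (Subgroup.mem_centralizer_iff.1 hdK) k hk
    have hdki : k⁻¹ * d = d * k⁻¹ := by
      calc k⁻¹ * d = k⁻¹ * (d * k) * k⁻¹ := by group
        _ = k⁻¹ * (k * d) * k⁻¹ := by rw [hdk]
        _ = d * k⁻¹ := by group
    rw [← hks]
    calc k⁻¹ * s₀ * k * d = k⁻¹ * s₀ * (k * d) := by group
      _ = k⁻¹ * s₀ * (d * k) := by rw [hdk]
      _ = k⁻¹ * (s₀ * d) * k := by group
      _ = k⁻¹ * (d * s₀) * k := by rw [hds0']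
      _ = (k⁻¹ * d) * s₀ * k := by group
      _ = (d * k⁻¹) * s₀ * k := by rw [hdki]
      _ = d * (k⁻¹ * s₀ * k) := by group
  · rintro d ⟨hd, hdI⟩
    have hdt : d ∈ (stabilizer G a ⊓ stabilizer G (t • a)) ⊓ Subgroup.centralizer {t} := by
      rw [hCC]
      refine ⟨hd, ?_⟩
      show d ∈ Subgroup.centralizer ({s₀} : Set G)
      rw [Subgroup.mem_centralizer_singleton_iff]
      exact ((Subgroup.mem_centralizer_iff.1 hdI) s₀ hs₀).symm
    refine ⟨hdt, ?_⟩
    have hdt' : d * t = t * d := Subgroup.mem_centralizer_singleton_iff.1 hdt.2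
    show d ∈ Subgroup.centralizer (invertedBy (stabilizer G a ⊓ stabilizer G (t • a)) t)
    rw [Subgroup.mem_centralizer_iff]
    intro k hk
    have hJ := isJ_of_inverted hS hk
    obtain ⟨r, hr, s1, he, h1, h2, hb, hra⟩ := Ib_of_J hS hJ
    have hIs : t * s1 * t ∈ involutionsIn (stabilizer G a : Set G) := by
      refine ⟨?_, ?_, ?_⟩
      · show (t * s1 * t) • a = a
        rw [mul_smul, mul_smul, hb, t_b hS]
      · intro h
        apply h1
        have : s1 = t * (t * s1 * t) * t := by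
          calc s1 = (t * t) * s1 * (t * t) := by rw [ht2]; group
            _ = _ := by group
        rw [this, h]
        simp [ht2]
      · calc t * s1 * t * (t * s1 * t) = t * s1 * (t * t) * s1 * t := by group
          _ = 1 := by rw [ht2, mul_one, mul_assoc t, h2, mul_one, ht2]
    have hd1 : (t * s1 * t) * d = d * (t * s1 * t) := (Subgroup.mem_centralizer_iff.1 hdI) _ hIs
    have hds1 : d * s1 = s1 * d := by
      have hti' : t * d = d * t := hdt'.symm
      have h3 : t * (s1 * d) * t = t * (d * s1) * t := by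
        calc t * (s1 * d) * t = (t * s1 * t) * (t * d) * t := by
              rw [show (t * s1 * t) * (t * d) * t = t * s1 * (t * t) * d * t by group, ht2]; group
          _ = (t * s1 * t) * (d * t) * t := by rw [hti']
          _ = ((t * s1 * t) * d) * (t * t) := by group
          _ = (d * (t * s1 * t)) * (t * t) := by rw [hd1]
          _ = (d * t) * s1 * (t * t) * t := by group
          _ = (t * d) * s1 * (t * t) * t := by rw [hdt']
          _ = t * (d * s1) * t := by rw [ht2]; group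
      have h4 := mul_left_cancel (mul_right_cancel h3)
      exact h4.symm
    have hdr : d * r = r * d := comm_J hS hd hr hra hds1
    have hdri : d * r⁻¹ = r⁻¹ * d := by
      calc d * r⁻¹ = r⁻¹ * (r * d) * r⁻¹ := by group
        _ = r⁻¹ * (d * r) * r⁻¹ := by rw [hdr]
        _ = r⁻¹ * d := by group
    have hdu : d * (t * k) = (t * k) * d := by
      rw [he]
      calc d * (r * s1 * r⁻¹) = (d * r) * s1 * r⁻¹ := by group
        _ = r * (d * s1) * r⁻¹ := by rw [hdr]; group
        _ = r * s1 * (d * r⁻¹) := by rw [hds1]; group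
        _ = r * s1 * r⁻¹ * d := by rw [hdri]; group
    -- `d` commutes with `k`
    have h5 : t * (d * k) = t * (k * d) := by
      calc t * (d * k) = (t * d) * k := by group
        _ = (d * t) * k := by rw [hdt']
        _ = d * (t * k) := by group
        _ = (t * k) * d := hdu
        _ = t * (k * d) := by group
    exact (mul_left_cancel h5).symm

end Fin

end Part3

end Cfsg.Agent.Lib.RankOneSetup
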