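import Mathlib

set_option autoImplicit false

namespace Cfsg.Agent.Lib.RegUni

open Matrix Module

variable {ι F : Type*} [Fintype ι] [DecidableEq ι] [Field F]

/-- Kernels of powers. -/
abbrev KK (N : Matrix ι ι F) (j : ℕ) : Submodule F (ι → F) := LinearMap.ker (Matrix.mulVecLin (N ^ j))

theorem mem_KK {N : Matrix ι ι F} {j : ℕ} {x : ι → F} : x ∈ KK N j ↔ (N ^ j) *ᵥ x = 0 := by
  rw [LinearMap.mem_ker, Matrix.mulVecLin_apply]

theorem finrank_ker_le (N : Matrix ι ι F) (hreg : N.rank = Fintype.card ι - 1) :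
    finrank F (LinearMap.ker (Matrix.mulVecLin N)) ≤ 1 := by
  have h := LinearMap.finrank_range_add_finrank_ker (Matrix.mulVecLin N)
  have h2 : finrank F (LinearMap.range (Matrix.mulVecLin N)) = N.rank := rfl
  rw [h2, hreg, Module.finrank_pi] at h
  omega

theorem finrank_KK_succ_le (N : Matrix ι ι F) (hreg : N.rank = Fintype.card ι - 1) (j : ℕ) :
    finrank F (KK N (j + 1)) ≤ finrank F (KK N j) + 1 := by
  let g : KK N (j + 1) →ₗ[F] (ι → F) := (Matrix.mulVecLin N).domRestrict (KK N (j + 1))
  have h := LinearMap.finrank_range_add_finrank_ker g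
  have h1 : LinearMap.range g ≤ KK N j := by
    rintro _ ⟨x, rfl⟩
    have hx := mem_KK.1 x.2
    rw [mem_KK]
    show N ^ j *ᵥ (N *ᵥ (x : ι → F)) = 0
    rw [Matrix.mulVec_mulVec, ← pow_succ]
    exact hx
  have h2 := Submodule.finrank_mono h1
  have h3 : finrank F (LinearMap.ker g) ≤ finrank F (LinearMap.ker (Matrix.mulVecLin N)) := by
    let i : LinearMap.ker g →ₗ[F] LinearMap.ker (Matrix.mulVecLin N) :=
      { toFun := fun x => ⟨(x.1 : ι → F), by
          have := x.2
          rw [LinearMap.mem_ker] at this ⊢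
          exact this⟩
        map_add' := fun _ _ => rfl
        map_smul' := fun _ _ => rfl }
    apply LinearMap.finrank_le_finrank_of_injective (f := i)
    intro a b hab
    apply Subtype.ext
    apply Subtype.ext
    exact congrArg (fun y => (y.1 : ι → F)) hab
  have h4 := finrank_ker_le N hreg
  omega

theorem finrank_KK_zero (N : Matrix ι ι F) : finrank F (KK N 0) = 0 := by
  have : KK N 0 = ⊥ := by
    rw [eq_bot_iff]
    intro x hx
    have := mem_KK.1 hx
    rw [pow_zero, Matrix.one_mulVec] at this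
    simpa using this
  rw [this, finrank_bot]

theorem finrank_KK_le (N : Matrix ι ι F) (hreg : N.rank = Fintype.card ι - 1) (j : ℕ) : finrank F (KK N j) ≤ j := by
  induction j with
  | zero => rw [finrank_KK_zero]
  | succ k ih =>
    have := finrank_KK_succ_le N hreg k
    omega

theorem finrank_KK_top {N : Matrix ι ι F} {n : ℕ} (hcard : Fintype.card ι = n) (hnil : N ^ n = 0) : finrank F (KK N n) = n := by
  have : KK N n = ⊤ := by
    rw [eq_top_iff]
    intro x _
    rw [mem_KK, hnil, Matrix.zero_mulVec]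
  rw [this, finrank_top, Module.finrank_pi, hcard]

theorem finrank_KK {N : Matrix ι ι F} {n : ℕ} (hcard : Fintype.card ι = n) (hnil : N ^ n = 0) (hreg : N.rank = n - 1) {j : ℕ} (hj : j ≤ n) :
    finrank F (KK N j) = j := by
  subst hcard
  apply le_antisymm (finrank_KK_le N hreg j)
  have key : ∀ k, k ≤ Fintype.card ι → Fintype.card ι ≤ finrank F (KK N (Fintype.card ι - k)) + k := by
    intro k
    induction k with
    | zero =>
      intro _
      rw [Nat.sub_zero, finrank_KK_top rfl hnil]
      omega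
    | succ k ih =>
      intro hk
      have h1 := ih (by omega)
      have h2 := finrank_KK_succ_le N hreg (Fintype.card ι - (k + 1))
      have e : Fintype.card ι - (k + 1) + 1 = Fintype.card ι - k := by omega
      rw [e] at h2
      omega
  have h3 := key (Fintype.card ι - j) (by omega)
  have e : Fintype.card ι - (Fintype.card ι - j) = j := by omega
  rw [e] at h3
  omega

/-- Invariant subspaces of a nilpotent matrix are killed by the power given by their dimension. -/
theorem le_KK {N : Matrix ι ι F} {n : ℕ} (hnil : N ^ n = 0) (W : Submodule F (ι → F)) (hW : ∀ v ∈ W, N *ᵥ v ∈ W) :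
    W ≤ KK N (finrank F W) := by
  let g : Module.End F W := (Matrix.mulVecLin N).restrict hW
  have hg : ∀ (k : ℕ) (x : W), (((g ^ k) x : W) : ι → F) = (N ^ k) *ᵥ (x : ι → F) := by
    intro k
    induction k with
    | zero =>
      intro x
      simp
    | succ k ih =>
      intro x
      rw [pow_succ', Module.End.mul_apply, pow_succ', ← Matrix.mulVec_mulVec, ← ih]
      rfl
  have h1 : g ^ n = 0 := by
    ext1 x
    apply Subtype.ext
    rw [hg, hnil, Matrix.zero_mulVec]
    rfl
  have h2 : LinearMap.ker (g ^ n) ≤ LinearMap.ker (g ^ finrank F W) := Module.End.ker_pow_le_ker_pow_finrank g n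
  intro x hx
  have h3 : (⟨x, hx⟩ : W) ∈ LinearMap.ker (g ^ n) := by
    rw [h1]
    simp
  have h4 := h2 h3
  rw [LinearMap.mem_ker] at h4
  rw [mem_KK, ← show (((g ^ finrank F W) ⟨x, hx⟩ : W) : ι → F) = (N ^ finrank F W) *ᵥ x from hg _ _, h4]
  rfl

theorem finrank_le_n {n : ℕ} (hcard : Fintype.card ι = n) (W : Submodule F (ι → F)) : finrank F W ≤ n := by
  have := Submodule.finrank_le W
  rwa [Module.finrank_pi, hcard] at this

/-- An invariant subspace of a regular nilpotent is a kernel. -/
theorem inv_eq_ker {N : Matrix ι ι F} {n : ℕ} (hcard : Fintype.card ι = n) (hnil : N ^ n = 0) (hreg : N.rank = n - 1) (W : Submodule F (ι → F))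
    (hW : ∀ v ∈ W, N *ᵥ v ∈ W) : W = KK N (finrank F W) := by
  apply Submodule.eq_of_le_of_finrank_eq (le_KK hnil W hW)
  rw [finrank_KK hcard hnil hreg (finrank_le_n hcard W)]

/-- Monotonicity of kernels. -/
theorem KK_mono (N : Matrix ι ι F) {i j : ℕ} (hij : i ≤ j) : KK N i ≤ KK N j := by
  intro x hx
  rw [mem_KK] at hx ⊢
  obtain ⟨k, rfl⟩ := Nat.exists_eq_add_of_le hij
  rw [add_comm, pow_add, ← Matrix.mulVec_mulVec, hx, Matrix.mulVec_zero]

/-- `N`-invariance from `1 + N`-invariance. -/
theorem inv_of_inv {u : Matrix ι ι F} {W : Submodule F (ι → F)} (hW : ∀ v ∈ W, u *ᵥ v ∈ W) : ∀ v ∈ W, (u - 1) *ᵥ v ∈ W := by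
  intro v hv
  rw [Matrix.sub_mulVec, Matrix.one_mulVec]
  exact W.sub_mem (hW v hv) hv

end Cfsg.Agent.Lib.RegUni
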