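import Cfsg.Agent.Lib.RegUni

set_option autoImplicit false

namespace Cfsg.Agent.Lib.RegUni2

open Matrix Module Polynomial Cfsg.Agent.Lib.RegUni

variable {ι F : Type*} [Fintype ι] [DecidableEq ι] [Field F]

/-- The cyclic submodule. -/
noncomputable def PP (N : Matrix ι ι F) (x : ι → F) : F[X] →ₗ[F] (ι → F) :=
  { toFun := fun p => (aeval N p) *ᵥ x
    map_add' := fun a b => by rw [map_add, Matrix.add_mulVec]
    map_smul' := fun c a => by rw [map_smul, Matrix.smul_mulVec]; rfl }

@[simp] theorem PP_apply (N : Matrix ι ι F) (x : ι → F) (p : F[X]) : PP N x p = (aeval N p) *ᵥ x := rfl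

theorem comm_aeval (N : Matrix ι ι F) (p : F[X]) : N * aeval N p = aeval N p * N := by
  have : aeval N (X * p) = aeval N (p * X) := by rw [mul_comm]
  simpa only [map_mul, aeval_X] using this

variable {n : ℕ}

/-- Vectors outside the large kernel are cyclic. -/
theorem cyclic_of_not_mem {N : Matrix ι ι F} (hcard : Fintype.card ι = n) (hnil : N ^ n = 0) (hreg : N.rank = n - 1) {x : ι → F}
    (hx : x ∉ KK N (n - 1)) : LinearMap.range (PP N x) = ⊤ := by
  set W := LinearMap.range (PP N x) with hW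
  have hinv : ∀ v ∈ W, N *ᵥ v ∈ W := by
    rintro _ ⟨p, rfl⟩
    refine ⟨X * p, ?_⟩
    rw [PP_apply, PP_apply, map_mul, aeval_X, Matrix.mulVec_mulVec]
  have hxW : x ∈ W := ⟨1, by rw [PP_apply, map_one, Matrix.one_mulVec]⟩
  have e := inv_eq_ker hcard hnil hreg W hinv
  have hd := finrank_le_n hcard W
  by_cases hlt : finrank F W ≤ n - 1
  · exfalso
    apply hx
    exact KK_mono N hlt (e ▸ hxW)
  · apply Submodule.eq_top_of_finrank_eq
    rw [Module.finrank_pi, hcard]
    omega

/-- A cyclic vector exists. -/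
theorem exists_cyclic {N : Matrix ι ι F} (hcard : Fintype.card ι = n) (hn : 1 ≤ n) (hnil : N ^ n = 0) (hreg : N.rank = n - 1) :
    ∃ x : ι → F, x ∉ KK N (n - 1) := by
  by_contra hcon
  push Not at hcon
  have h1 : KK N (n - 1) = ⊤ := eq_top_iff.2 fun x _ => hcon x
  have h2 := finrank_KK hcard hnil hreg (j := n - 1) (by omega)
  rw [h1, finrank_top, Module.finrank_pi, hcard] at h2
  omega

/-- A matrix commuting with `N` and agreeing with another on a cyclic vector agrees everywhere. -/
theorem eq_of_comm {N A B : Matrix ι ι F} {x : ι → F} (hc : LinearMap.range (PP N x) = ⊤) (hA : Commute A N) (hB : Commute B N)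
    (he : A *ᵥ x = B *ᵥ x) : A = B := by
  have hA' : ∀ p : F[X], Commute A (aeval N p) := fun p => by
    refine Polynomial.induction_on p ?_ ?_ ?_
    · intro a
      rw [aeval_C]
      exact Algebra.commutes a A |>.symm
    · intro p q hp hq
      rw [map_add]
      exact hp.add_right hq
    · intro k a h
      rw [pow_succ, ← mul_assoc, map_mul, aeval_X]
      exact h.mul_right hA
  have hB' : ∀ p : F[X], Commute B (aeval N p) := fun p => by
    refine Polynomial.induction_on p ?_ ?_ ?_
    · intro a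
      rw [aeval_C]
      exact Algebra.commutes a B |>.symm
    · intro p q hp hq
      rw [map_add]
      exact hp.add_right hq
    · intro k a h
      rw [pow_succ, ← mul_assoc, map_mul, aeval_X]
      exact h.mul_right hB
  apply Matrix.mulVec_injective
  funext y
  have hy : y ∈ LinearMap.range (PP N x) := by
    rw [hc]
    trivial
  obtain ⟨p, rfl⟩ := hy
  rw [PP_apply, Matrix.mulVec_mulVec, Matrix.mulVec_mulVec, (hA' p).eq, (hB' p).eq, ← Matrix.mulVec_mulVec, ← Matrix.mulVec_mulVec, he]

theorem commute_aeval (N : Matrix ι ι F) (p : F[X]) : Commute (aeval N p) N := (comm_aeval N p).symm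

/-- A commuting matrix is a polynomial in `N`. -/
theorem exists_poly {N A : Matrix ι ι F} {x : ι → F} (hc : LinearMap.range (PP N x) = ⊤) (hA : Commute A N) : ∃ p : F[X], A = aeval N p := by
  have hy : A *ᵥ x ∈ LinearMap.range (PP N x) := by
    rw [hc]
    trivial
  obtain ⟨p, hp⟩ := hy
  exact ⟨p, eq_of_comm hc hA (commute_aeval N p) hp.symm⟩

/-- `N` preserves nothing outside: invertible commuting matrices keep the complement of the large kernel. -/
theorem not_mem_of_unit {N : Matrix ι ι F} {n : ℕ} {g : GL ι F} (hg : Commute (g : Matrix ι ι F) N) {x : ι → F} (hx : x ∉ KK N n) :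
    (g : Matrix ι ι F) *ᵥ x ∉ KK N n := by
  intro h
  apply hx
  rw [mem_KK] at h ⊢
  have h2 : (N ^ n) * (g : Matrix ι ι F) = (g : Matrix ι ι F) * N ^ n := ((hg.pow_right n).eq).symm
  rw [Matrix.mulVec_mulVec, h2, ← Matrix.mulVec_mulVec] at h
  have h3 : (((g⁻¹ : GL ι F) : Matrix ι ι F)) *ᵥ ((g : Matrix ι ι F) *ᵥ (N ^ n *ᵥ x)) = N ^ n *ᵥ x := by
    rw [Matrix.mulVec_mulVec, ← Units.val_mul, inv_mul_cancel, Units.val_one, Matrix.one_mulVec]
  rw [h, Matrix.mulVec_zero] at h3
  exact h3.symm

/-- Existence of an invertible commuting matrix with a given image of a cyclic vector. -/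
theorem exists_unit {N : Matrix ι ι F} (hcard : Fintype.card ι = n) (hnil : N ^ n = 0) (hreg : N.rank = n - 1) {x y : ι → F}
    (hx : x ∉ KK N (n - 1)) (hy : y ∉ KK N (n - 1)) :
    ∃ g : GL ι F, Commute (g : Matrix ι ι F) N ∧ (g : Matrix ι ι F) *ᵥ x = y := by
  have hcx := cyclic_of_not_mem hcard hnil hreg hx
  have hcy := cyclic_of_not_mem hcard hnil hreg hy
  have h1 : y ∈ LinearMap.range (PP N x) := by
    rw [hcx]
    trivial
  have h2 : x ∈ LinearMap.range (PP N y) := by
    rw [hcy]
    trivial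
  obtain ⟨p, hp⟩ := h1
  obtain ⟨p', hp'⟩ := h2
  rw [PP_apply] at hp hp'
  have e1 : aeval N p' * aeval N p = 1 := by
    apply eq_of_comm hcx ((commute_aeval N p').mul_left (commute_aeval N p)) (Commute.one_left N)
    rw [← Matrix.mulVec_mulVec, hp, hp', Matrix.one_mulVec]
  have e2 : aeval N p * aeval N p' = 1 := by
    rw [← map_mul, mul_comm, map_mul, e1]
  refine ⟨⟨aeval N p, aeval N p', e2, e1⟩, commute_aeval N p, hp⟩

/-- The centraliser of a regular nilpotent as a set of vectors. -/
noncomputable def centEquiv {N : Matrix ι ι F} (hcard : Fintype.card ι = n) (hnil : N ^ n = 0) (hreg : N.rank = n - 1) {e : ι → F}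
    (he : e ∉ KK N (n - 1)) : {g : GL ι F // Commute (g : Matrix ι ι F) N} ≃ {x : ι → F // x ∉ KK N (n - 1)} :=
  Equiv.ofBijective (fun g => ⟨(g.1 : Matrix ι ι F) *ᵥ e, not_mem_of_unit g.2 he⟩) (by
    constructor
    · intro g g' hgg
      apply Subtype.ext
      apply Units.ext
      exact eq_of_comm (cyclic_of_not_mem hcard hnil hreg he) g.2 g'.2 (congrArg Subtype.val hgg)
    · rintro ⟨y, hy⟩
      obtain ⟨g, hg, hgy⟩ := exists_unit hcard hnil hreg he hy
      exact ⟨⟨g, hg⟩, Subtype.ext hgy⟩)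

theorem card_compl [Fintype F] {N : Matrix ι ι F} (hcard : Fintype.card ι = n) (hn : 1 ≤ n) (hnil : N ^ n = 0) (hreg : N.rank = n - 1) :
    Nat.card {x : ι → F // x ∉ KK N (n - 1)} = (Fintype.card F - 1) * Fintype.card F ^ (n - 1) := by
  classical
  have h1 : Nat.card (KK N (n - 1)) = Fintype.card F ^ (n - 1) := by
    rw [Module.natCard_eq_pow_finrank (K := F), finrank_KK hcard hnil hreg (by omega), Nat.card_eq_fintype_card]
  have h2 : Nat.card (ι → F) = Fintype.card F ^ n := by
    rw [Nat.card_eq_fintype_card, Fintype.card_fun, hcard]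
  have h3 : Nat.card (KK N (n - 1)) + Nat.card {x : ι → F // x ∉ KK N (n - 1)} = Nat.card (ι → F) := by
    rw [Nat.card_eq_fintype_card, Nat.card_eq_fintype_card, Nat.card_eq_fintype_card]
    exact Fintype.card_subtype_compl (fun x : ι → F => x ∈ KK N (n - 1)) ▸ (by
      have := Fintype.card_subtype_le (fun x : ι → F => x ∈ KK N (n - 1))
      rw [show Fintype.card (KK N (n - 1)) = Fintype.card {x : ι → F // x ∈ KK N (n - 1)} from rfl]
      omega)
  have hq : 1 ≤ Fintype.card F := Fintype.card_pos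
  obtain ⟨k, hk⟩ : ∃ k, n = k + 1 := ⟨n - 1, by omega⟩
  subst hk
  simp only [Nat.add_sub_cancel] at *
  rw [h1, h2] at h3
  have e : (Fintype.card F - 1) * Fintype.card F ^ k + Fintype.card F ^ k = Fintype.card F ^ (k + 1) := by
    obtain ⟨r, hr⟩ : ∃ r, Fintype.card F = r + 1 := ⟨Fintype.card F - 1, by omega⟩
    rw [hr, Nat.add_sub_cancel, pow_succ]
    ring
  omega

end Cfsg.Agent.Lib.RegUni2
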