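import Cfsg.Agent.Lib.RegUni2

set_option autoImplicit false

namespace Cfsg.Agent.Lib.RegUni3

open Matrix Module Polynomial Cfsg.Agent.Lib.RegUni Cfsg.Agent.Lib.RegUni2

variable {ι F : Type*} [Fintype ι] [DecidableEq ι] [Field F]

/-- Determinant of scalar plus nilpotent. -/
theorem det_add_nilp {M : Matrix ι ι F} (hM : IsNilpotent M) (c : F) : (c • (1 : Matrix ι ι F) + M).det = c ^ Fintype.card ι := by
  have h1 := Matrix.isNilpotent_charpoly_sub_pow_of_isNilpotent hM
  have h2 : M.charpoly - X ^ Fintype.card ι = 0 := h1.eq_zero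
  have h3 : M.charpoly = X ^ Fintype.card ι := sub_eq_zero.1 h2
  have h4 := Matrix.eval_charpoly M (-c)
  rw [h3, eval_pow, eval_X] at h4
  have h5 : Matrix.scalar ι (-c) - M = -(c • (1 : Matrix ι ι F) + M) := by
    have h7 : Matrix.scalar ι (-c) = -(c • (1 : Matrix ι ι F)) := by
      ext i j
      by_cases hij : i = j
      · subst hij
        simp [Matrix.scalar_apply, Matrix.diagonal_apply]
      · simp [Matrix.scalar_apply, Matrix.diagonal_apply, Matrix.one_apply, hij]
    rw [h7]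
    abel
  rw [h5, Matrix.det_neg, neg_pow] at h4
  have h6 : ((-1 : F) ^ Fintype.card ι) * ((-1 : F) ^ Fintype.card ι) = 1 := by
    rw [← mul_pow]
    simp
  calc (c • (1 : Matrix ι ι F) + M).det = ((-1 : F) ^ Fintype.card ι) * ((-1 : F) ^ Fintype.card ι) * (c • (1 : Matrix ι ι F) + M).det := by rw [h6, one_mul]
    _ = c ^ Fintype.card ι := by
      rw [mul_assoc, ← h4, ← mul_assoc, h6, one_mul]

variable {n : ℕ}

/-- Determinant of an invertible matrix commuting with a regular nilpotent. -/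
theorem det_comm {N : Matrix ι ι F} (hcard : Fintype.card ι = n) (hn : 1 ≤ n) (hnil : N ^ n = 0) (hreg : N.rank = n - 1) {g : GL ι F}
    (hg : Commute (g : Matrix ι ι F) N) : ∃ c : Fˣ, (g : Matrix ι ι F).det = (c : F) ^ n := by
  obtain ⟨e, he⟩ := exists_cyclic hcard hn hnil hreg
  obtain ⟨p, hp⟩ := exists_poly (cyclic_of_not_mem hcard hnil hreg he) hg
  set M := aeval N (divX p) * N with hM
  have hMn : IsNilpotent M := by
    refine ⟨n, ?_⟩
    rw [hM, (commute_aeval N (divX p)).mul_pow, hnil, mul_zero]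
  have e1 : (g : Matrix ι ι F) = (p.coeff 0) • (1 : Matrix ι ι F) + M := by
    rw [hp]
    conv_lhs => rw [← divX_mul_X_add p]
    rw [map_add, map_mul, aeval_X, aeval_C, add_comm]
    congr 1
    exact (Algebra.algebraMap_eq_smul_one _)
  have e2 : (g : Matrix ι ι F).det = (p.coeff 0) ^ n := by
    rw [e1, det_add_nilp hMn, hcard]
  have e3 : p.coeff 0 ≠ 0 := by
    intro h0
    have h1 : IsUnit (g : Matrix ι ι F).det := by
      have := g.isUnit
      exact (Matrix.isUnit_iff_isUnit_det _).1 this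
    rw [e2, h0, zero_pow (by omega)] at h1
    exact not_isUnit_zero h1
  exact ⟨Units.mk0 _ e3, by rw [e2]; rfl⟩

/-- The family of iterates spans. -/
theorem span_iter {N : Matrix ι ι F} (hcard : Fintype.card ι = n) (hn : 1 ≤ n) (hnil : N ^ n = 0) (hreg : N.rank = n - 1) {e : ι → F} (he : e ∉ KK N (n - 1)) :
    (⊤ : Submodule F (ι → F)) ≤ Submodule.span F (Set.range fun i : Fin n => (N ^ (i : ℕ)) *ᵥ e) := by
  set W := Submodule.span F (Set.range fun i : Fin n => (N ^ (i : ℕ)) *ᵥ e) with hW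
  have hinv : ∀ v ∈ W, N *ᵥ v ∈ W := by
    intro v hv
    induction hv using Submodule.span_induction with
    | mem y hy =>
      obtain ⟨i, rfl⟩ := hy
      simp only
      rw [Matrix.mulVec_mulVec, ← pow_succ']
      by_cases hi : (i : ℕ) + 1 < n
      · exact Submodule.subset_span ⟨⟨(i : ℕ) + 1, hi⟩, rfl⟩
      · have : (i : ℕ) + 1 = n := by have := i.2; omega
        rw [this, hnil, Matrix.zero_mulVec]
        exact W.zero_mem
    | zero =>
      rw [Matrix.mulVec_zero]
      exact W.zero_mem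
    | add a b _ _ ha hb =>
      rw [Matrix.mulVec_add]
      exact W.add_mem ha hb
    | smul c a _ ha =>
      rw [Matrix.mulVec_smul]
      exact W.smul_mem c ha
  have heW : e ∈ W := Submodule.subset_span ⟨⟨0, by omega⟩, by simp⟩
  have e1 := inv_eq_ker hcard hnil hreg W hinv
  have hd := finrank_le_n hcard W
  by_cases hlt : finrank F W ≤ n - 1
  · exfalso
    apply he
    exact KK_mono N hlt (e1 ▸ heW)
  · rw [top_le_iff]
    apply Submodule.eq_top_of_finrank_eq
    rw [Module.finrank_pi, hcard]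
    omega

/-- Any two regular nilpotents are conjugate. -/
theorem exists_conj {N N' : Matrix ι ι F} (hcard : Fintype.card ι = n) (hn : 1 ≤ n) (hnil : N ^ n = 0) (hreg : N.rank = n - 1)
    (hnil' : N' ^ n = 0) (hreg' : N'.rank = n - 1) : ∃ g : GL ι F, (g : Matrix ι ι F) * N = N' * (g : Matrix ι ι F) := by
  classical
  obtain ⟨e, he⟩ := exists_cyclic hcard hn hnil hreg
  obtain ⟨e', he'⟩ := exists_cyclic hcard hn hnil' hreg'
  have hc : Fintype.card (Fin n) = finrank F (ι → F) := by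
    rw [Module.finrank_pi, hcard, Fintype.card_fin]
  let b := basisOfTopLeSpanOfCardEqFinrank _ (span_iter hcard hn hnil hreg he) hc
  let b' := basisOfTopLeSpanOfCardEqFinrank _ (span_iter hcard hn hnil' hreg' he') hc
  have hb : ∀ i, b i = (N ^ (i : ℕ)) *ᵥ e := fun i => by
    simp [b]
  have hb' : ∀ i, b' i = (N' ^ (i : ℕ)) *ᵥ e' := fun i => by
    simp [b']
  let L : (ι → F) ≃ₗ[F] (ι → F) := b.equiv b' (Equiv.refl _)
  have hL : ∀ i : Fin n, L ((N ^ (i : ℕ)) *ᵥ e) = (N' ^ (i : ℕ)) *ᵥ e' := by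
    intro i
    rw [← hb, ← hb']
    simp [L]
  have hLN : ∀ x, L (N *ᵥ x) = N' *ᵥ L x := by
    intro x
    have hlin : (L : (ι → F) →ₗ[F] (ι → F)) ∘ₗ Matrix.mulVecLin N = Matrix.mulVecLin N' ∘ₗ (L : (ι → F) →ₗ[F] (ι → F)) := by
      apply b.ext
      intro i
      simp only [LinearMap.comp_apply, LinearEquiv.coe_coe, Matrix.mulVecLin_apply]
      rw [hb, Matrix.mulVec_mulVec, ← pow_succ', hL i, Matrix.mulVec_mulVec, ← pow_succ']
      by_cases hi : (i : ℕ) + 1 < n
      · exact hL ⟨(i : ℕ) + 1, hi⟩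
      · have : (i : ℕ) + 1 = n := by have := i.2; omega
        rw [this, hnil, hnil', Matrix.zero_mulVec, Matrix.zero_mulVec, map_zero]
    exact LinearMap.congr_fun hlin x
  let ginv : Matrix ι ι F := LinearMap.toMatrix' (L.symm : (ι → F) →ₗ[F] (ι → F))
  let g0 : Matrix ι ι F := LinearMap.toMatrix' (L : (ι → F) →ₗ[F] (ι → F))
  have hg0 : ∀ x, g0 *ᵥ x = L x := fun x => by
    simp [g0, LinearMap.toMatrix'_mulVec]
  have hginv : ∀ x, ginv *ᵥ x = L.symm x := fun x => by
    simp [ginv, LinearMap.toMatrix'_mulVec]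
  have e1 : g0 * ginv = 1 := by
    apply Matrix.mulVec_injective
    funext x
    rw [← Matrix.mulVec_mulVec, hginv, hg0, L.apply_symm_apply, Matrix.one_mulVec]
  have e2 : ginv * g0 = 1 := by
    apply Matrix.mulVec_injective
    funext x
    rw [← Matrix.mulVec_mulVec, hg0, hginv, L.symm_apply_apply, Matrix.one_mulVec]
  refine ⟨⟨g0, ginv, e1, e2⟩, ?_⟩
  apply Matrix.mulVec_injective
  funext x
  show (g0 * N) *ᵥ x = (N' * g0) *ᵥ x
  rw [← Matrix.mulVec_mulVec, ← Matrix.mulVec_mulVec, hg0, hg0, hLN]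

end Cfsg.Agent.Lib.RegUni3
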