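import Cfsg.Agent.Lib.RankOne

/-!
Abstract root subgroups: the first lemmas on the trichotomy.
-/

set_option autoImplicit false

open Cfsg
open scoped commutatorElement

namespace Cfsg.Agent.Lib.RootSet

open Cfsg.Agent.Lib.RankOne

variable {G : Type*} [Group G]

theorem mem_unipotent_symm {A B C : Subgroup G} (h : IsRankOnePair A B)
    (hC : C ∈ unipotentSubgroups A B) : C ∈ unipotentSubgroups B A := by
  obtain ⟨x, hx, rfl⟩ := hC
  apply unipotent_conj_mem (RankOnePair_symm h) (by rwa [sup_comm]) (right_mem_unipotent (RankOnePair_symm h))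

/-- If `x` commutes with every element of `C` then `x` normalizes `C`. -/
theorem conjBy_of_commute {C : Subgroup G} {x : G} (hx : ∀ c ∈ C, x * c = c * x) :
    conjBy C x = C := by
  ext y
  rw [mem_conjBy]
  constructor
  · intro hy
    have := hx _ hy
    have e : x * (x⁻¹ * y * x) * x⁻¹ = y := by group
    rw [← e]
    have e2 : x * (x⁻¹ * y * x) = (x⁻¹ * y * x) * x := this
    rw [e2]
    simpa [mul_assoc] using hy
  · intro hy
    have := hx _ hy
    have e : x⁻¹ * y * x = y := by
      rw [mul_assoc, ← this]; group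
    rwa [e]

theorem mem_normalizer_of_commute {C : Subgroup G} {x : G} (hx : ∀ c ∈ C, x * c = c * x) :
    x ∈ Subgroup.normalizer (C : Set G) :=
  mem_normalizer_iff_conjBy.2 (conjBy_of_commute hx)

theorem commute_of_mem_centralizer {U : Subgroup G} {z u : G}
    (hz : z ∈ Subgroup.centralizer (U : Set G)) (hu : u ∈ U) : z * u = u * z :=
  ((Subgroup.mem_centralizer_iff.1 hz) u hu).symm

theorem exists_commutator_ne_one {A B : Subgroup G} {a : G}
    (hcl : Subgroup.closure ((fun b : G => a * b * a⁻¹ * b⁻¹) '' (B : Set G)) = ⁅A, B⁆)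
    (hF : ⁅A, B⁆ ≠ ⊥) : ∃ b ∈ B, a * b * a⁻¹ * b⁻¹ ≠ 1 := by
  by_contra hcon
  push Not at hcon
  apply hF
  rw [← hcl, eq_bot_iff, Subgroup.closure_le]
  rintro _ ⟨b, hb, rfl⟩
  exact hcon b hb

/-- The key lemma on root elements. If `(A, C)` is a rank one pair in `S`, `z` centralizes `⟨A,C⟩`,
`a ∈ A#` and `z a` is a non-identity element of `E ∈ S` then `E = A`. -/
theorem eq_of_central_mul_mem {S : Set (Subgroup G)} (hS : IsRootSubgroupSet S)
    {A C E : Subgroup G} (hC : C ∈ S) (h : IsRankOnePair A C) {z a : G}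
    (hz : z ∈ Subgroup.centralizer ((A ⊔ C : Subgroup G) : Set G)) (ha : a ∈ A) (ha1 : a ≠ 1)
    (hE : E ∈ S) (he : z * a ∈ E) (he1 : z * a ≠ 1) : E = A := by
  have hzC : ∀ c ∈ C, z * c = c * z := fun c hc =>
    commute_of_mem_centralizer hz (Subgroup.mem_sup_right hc)
  have hzA : ∀ c ∈ A, z * c = c * z := fun c hc =>
    commute_of_mem_centralizer hz (Subgroup.mem_sup_left hc)
  have hzinvC : conjBy C z⁻¹ = C := by
    apply conjBy_of_commute
    intro c hc
    have := hzC c hc
    calc z⁻¹ * c = z⁻¹ * (c * z) * z⁻¹ := by group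
      _ = z⁻¹ * (z * c) * z⁻¹ := by rw [this]
      _ = c * z⁻¹ := by group
  have hne : conjBy C a⁻¹ ≠ C := by
    intro e
    apply ha1
    have := eq_one_of_mem_normalizer_left h (A.inv_mem ha) (mem_normalizer_iff_conjBy.2 e)
    simpa using this
  rcases hS.pair E hE C hC with hcomm | hpair | hcase
  · -- commuting
    exfalso
    apply ha1
    apply eq_one_of_mem_normalizer_left h ha
    apply mem_normalizer_of_commute
    intro c hc
    have h1 : (z * a) * c * (z * a)⁻¹ * c⁻¹ = 1 := by
      have : ⁅z * a, c⁆ ∈ ⁅E, C⁆ := Subgroup.commutator_mem_commutator he hc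
      rw [hcomm] at this
      simpa [commutatorElement_def] using this
    have h2 : (z * a) * c = c * (z * a) := by
      have := h1
      rwa [mul_inv_eq_one, mul_inv_eq_iff_eq_mul] at this
    have h3 : z * (a * c) = z * (c * a) := by
      calc z * (a * c) = (z * a) * c := by group
        _ = c * (z * a) := h2
        _ = (c * z) * a := by group
        _ = (z * c) * a := by rw [hzC c hc]
        _ = z * (c * a) := by group
    exact mul_left_cancel h3
  · -- rank one
    obtain ⟨c, hc, hc1, e⟩ := hpair.cond_left (z * a) he he1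
    have e2 : conjBy C (z * a)⁻¹ = conjBy C a⁻¹ := by
      rw [mul_inv_rev, conjBy_mul, hzinvC]
    rw [e2] at e
    have hEeq : E = conjBy (conjBy C a⁻¹) c := by
      rw [← e, conjBy_conjBy]; simp
    have hEmem : E ∈ unipotentSubgroups A C := by
      rw [hEeq, conjBy_conjBy]
      apply unipotent_conj_mem h _ (right_mem_unipotent h)
      exact Subgroup.mul_mem _ (Subgroup.mem_sup_right hc) (Subgroup.mem_sup_left (A.inv_mem ha))
    by_contra hEA
    apply ha1
    apply eq_one_of_fixes h ha hEmem hEA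
    have hEz : conjBy E z⁻¹ = E := by
      apply conjBy_of_commute
      intro c' hc'
      have hc'' := commute_of_mem_centralizer hz (unipotent_le h hEmem hc')
      calc z⁻¹ * c' = z⁻¹ * (c' * z) * z⁻¹ := by group
        _ = z⁻¹ * (z * c') * z⁻¹ := by rw [hc'']
        _ = c' * z⁻¹ := by group
    have e3 : a = z⁻¹ * (z * a) := by group
    rw [e3, conjBy_mul, conjBy_of_mem he, hEz]
  · -- commutator case
    exfalso
    obtain ⟨hFS, hFc, hcl, -⟩ := hcase
    obtain ⟨c, hc, hf⟩ := exists_commutator_ne_one (hcl (z * a) he he1) (hS.ne_bot _ hFS)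
    have hfmem : (z * a) * c * (z * a)⁻¹ * c⁻¹ ∈ ⁅E, C⁆ := by
      have : ⁅z * a, c⁆ ∈ ⁅E, C⁆ := Subgroup.commutator_mem_commutator he hc
      simpa [commutatorElement_def] using this
    set f := (z * a) * c * (z * a)⁻¹ * c⁻¹ with hfdef
    have hfeq : a * c * a⁻¹ = f * c := by
      have hza : z * a = a * z := hzA a ha
      have : f * c = (z * a) * c * (z * a)⁻¹ := by rw [hfdef]; group
      rw [this]
      calc a * c * a⁻¹ = z⁻¹ * (z * a * c * a⁻¹ * z⁻¹) * z := by group
        _ = z⁻¹ * (z * (a * c * a⁻¹) * z⁻¹) * z := by group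
        _ = _ := by
          have h1 : a * c * a⁻¹ = z * (a * c * a⁻¹) * z⁻¹ := by
            have e1 : z * a * z⁻¹ = a := by rw [hza]; group
            have e2 : z * c * z⁻¹ = c := by rw [hzC c hc]; group
            calc a * c * a⁻¹ = (z * a * z⁻¹) * (z * c * z⁻¹) * (z * a * z⁻¹)⁻¹ := by rw [e1, e2]
              _ = _ := by group
          rw [← h1]
          calc z⁻¹ * (a * c * a⁻¹) * z = z⁻¹ * (z * (a * c * a⁻¹) * z⁻¹) * z := by rw [← h1]
            _ = a * c * a⁻¹ := by group
            _ = _ := by rw [h1]; group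
    have hfC : conjBy C f = C := by
      apply conjBy_of_commute
      intro y hy
      exact hFc f hfmem y (Subgroup.mem_sup_right hy)
    have hfix : conjBy (conjBy C a⁻¹) c = conjBy C a⁻¹ := by
      have e4 : c * a⁻¹ = a⁻¹ * (a * c * a⁻¹) := by group
      rw [conjBy_conjBy, e4, conjBy_mul, hfeq, conjBy_mul, conjBy_of_mem hc, hfC]
    have hpoint : conjBy C a⁻¹ ∈ unipotentSubgroups C A :=
      mem_unipotent_symm h (unipotent_conj_mem h (Subgroup.mem_sup_left (A.inv_mem ha)) (right_mem_unipotent h))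
    have hc1 := eq_one_of_fixes (RankOnePair_symm h) hc hpoint hne hfix
    apply hf
    rw [hfdef, hc1]; group

/-- S5025 -/
theorem not_central_mul_mem {S : Set (Subgroup G)} (hS : IsRootSubgroupSet S)
    {A B : Subgroup G} (hB : B ∈ S) (h : IsRankOnePair A B) {z : G}
    (hz : z ∈ Subgroup.centralizer ((A ⊔ B : Subgroup G) : Set G)) (hz1 : z ≠ 1) {a : G}
    (ha : a ∈ A) (ha1 : a ≠ 1) : z * a ∉ rootElements S := by
  rintro ⟨he1, E, hE, he⟩
  have hEA := eq_of_central_mul_mem hS hB h hz ha ha1 hE he he1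
  subst hEA
  have hzE : z ∈ E := by
    have := E.mul_mem he (E.inv_mem ha)
    simpa using this
  apply hz1
  apply eq_one_of_mem_normalizer_left h hzE
  apply mem_normalizer_of_commute
  intro c hc
  exact commute_of_mem_centralizer hz (Subgroup.mem_sup_right hc)

theorem exists_partner_of_not_isolated {S : Set (Subgroup G)} {A : Subgroup G}
    (hA : ¬ IsIsolatedIn (FAdj S) S A) (hAS : A ∈ S) : ∃ B ∈ S, IsRankOnePair A B := by
  by_contra hcon
  push Not at hcon
  apply hA
  refine ⟨hAS, fun B => ⟨?_, ?_⟩⟩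
  · rintro ⟨-, hB, h⟩
    exact hcon B hB h
  · rintro ⟨hB, -, h⟩
    exact hcon B hB (RankOnePair_symm h)

/-- S5028 -/
theorem inf_eq_bot_or_eq {S : Set (Subgroup G)} (hS : IsRootSubgroupSet S)
    {A C B : Subgroup G} (hC : C ∈ S) (h : IsRankOnePair A C) (hB : B ∈ S) :
    A ⊓ B = ⊥ ∨ A = B := by
  rcases (A ⊓ B).bot_or_exists_ne_one with hbot | ⟨x, hx, hx1⟩
  · exact Or.inl hbot
  · right
    have hz : (1 : G) ∈ Subgroup.centralizer ((A ⊔ C : Subgroup G) : Set G) := Subgroup.one_mem _
    exact (eq_of_central_mul_mem hS hC h hz hx.1 hx1 hB (by simpa using hx.2) (by simpa using hx1)).symm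

/-- S5027 -/
theorem upperCentralSeries_two_eq_center {S : Set (Subgroup G)} (hS : IsRootSubgroupSet S)
    (hF : ∀ A ∈ S, ¬ IsIsolatedIn (FAdj S) S A) :
    Subgroup.upperCentralSeries G 2 = Subgroup.center G := by
  apply le_antisymm
  · intro z hz
    have hcomm : ∀ A ∈ S, ∀ a ∈ A, z * a = a * z := by
      intro A hA a ha
      obtain ⟨B, hB, h⟩ := exists_partner_of_not_isolated (hF A hA) hA
      by_cases ha1 : a = 1
      · simp [ha1]
      by_contra hne
      have hc : ⁅z, a⁆ ∈ Subgroup.upperCentralSeries G 1 :=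
        Subgroup.mem_upperCentralSeries_succ_iff.1 hz a
      rw [Subgroup.upperCentralSeries_one, commutatorElement_def] at hc
      set c := z * a * z⁻¹ * a⁻¹ with hcdef
      have hc1 : c ≠ 1 := by
        intro h1
        apply hne
        rw [hcdef, mul_inv_eq_one, mul_inv_eq_iff_eq_mul] at h1
        exact h1
      have hcz : c ∈ Subgroup.centralizer ((A ⊔ B : Subgroup G) : Set G) := by
        rw [Subgroup.mem_centralizer_iff]
        intro g _
        exact (Subgroup.mem_center_iff.1 hc) g
      apply not_central_mul_mem hS hB h hcz hc1 ha ha1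
      have e : c * a = z * a * z⁻¹ := by rw [hcdef]; group
      rw [e]
      refine ⟨?_, conjBy A z, hS.conj_mem A hA z, conj_mem_conjBy ha⟩
      intro h1
      apply ha1
      have : a = z⁻¹ * (z * a * z⁻¹) * z := by group
      rw [this, h1]; group
    rw [Subgroup.mem_center_iff]
    intro g
    have hg : g ∈ ⨆ A ∈ S, A := by rw [hS.generates]; exact Subgroup.mem_top g
    have hle : (⨆ A ∈ S, A) ≤ Subgroup.centralizer ({z} : Set G) := by
      apply iSup₂_le
      intro A hA a ha
      rw [Subgroup.mem_centralizer_iff]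
      intro h hh
      rw [Set.mem_singleton_iff] at hh
      subst hh
      exact hcomm A hA a ha
    have := hle hg
    rw [Subgroup.mem_centralizer_iff] at this
    exact (this z rfl).symm
  · rw [← Subgroup.upperCentralSeries_one]
    exact Subgroup.upperCentralSeries_mono G (by norm_num)

theorem mem_centralizer_zpowers_iff {c x : G} :
    c ∈ Subgroup.centralizer ((Subgroup.zpowers x : Subgroup G) : Set G) ↔ c * x = x * c := by
  rw [Subgroup.mem_centralizer_iff]
  constructor
  · intro h
    exact (h x (Subgroup.mem_zpowers x)).symm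
  · rintro h _ ⟨k, rfl⟩
    exact ((Commute.zpow_left (show Commute x c from h.symm) k))

/-- S5026 -/
theorem centralizingMembers_mul {S : Set (Subgroup G)} (hS : IsRootSubgroupSet S)
    (hdeg : IsDegenerateRootSet S) {a b : G} (ha : a ∈ rootElements S) (hb : b ∈ rootElements S)
    (hab : a * b = b * a) (hab1 : a * b ≠ 1) :
    centralizingMembers S (Subgroup.zpowers (a * b)) =
      centralizingMembers S (Subgroup.zpowers a) ∩ centralizingMembers S (Subgroup.zpowers b) := by
  -- the general step
  have key : ∀ (a b : G), a ∈ rootElements S → b ∈ rootElements S → a * b = b * a → a * b ≠ 1 →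
      ∀ C ∈ S, (∀ c ∈ C, c * (a * b) = (a * b) * c) → ∀ c ∈ C, c * a = a * c := by
    rintro a b ⟨ha1, A, hA, ha⟩ ⟨hb1, B, hB, hb⟩ hab hab1 C hC hcomm
    rcases hS.pair A hA C hC with h0 | h1 | h2
    · intro c hc
      have : ⁅a, c⁆ ∈ ⁅A, C⁆ := Subgroup.commutator_mem_commutator ha hc
      rw [h0, Subgroup.mem_bot, commutatorElement_def, mul_inv_eq_one, mul_inv_eq_iff_eq_mul] at this
      exact this.symm
    · exfalso
      -- `[A,B] = 1`
      have hAB : ∀ a' ∈ A, b * a' = a' * b := by
        rcases hS.pair A hA B hB with h0 | h1' | h2'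
        · intro a' ha'
          have : ⁅a', b⁆ ∈ ⁅A, B⁆ := Subgroup.commutator_mem_commutator ha' hb
          rw [h0, Subgroup.mem_bot, commutatorElement_def, mul_inv_eq_one, mul_inv_eq_iff_eq_mul] at this
          exact this.symm
        · exfalso
          apply ha1
          have hpt : conjBy A b ∈ unipotentSubgroups A B :=
            unipotent_conj_mem h1' (Subgroup.mem_sup_right hb) (left_mem_unipotent h1')
          have hne : conjBy A b ≠ A := fun e =>
            hb1 (eq_one_of_mem_normalizer_right h1' hb (mem_normalizer_iff_conjBy.2 e))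
          apply eq_one_of_fixes h1' ha hpt hne
          rw [conjBy_conjBy, hab, conjBy_mul, conjBy_of_mem ha]
        · exact absurd h2' (hdeg A hA B hB)
      have hzA : ∀ a' ∈ A, (a * b) * a' = a' * (a * b) := by
        intro a' ha'
        have hAc : IsMulCommutative A := hS.commutative A hA
        have e1 : a * a' = a' * a := by
          have := (hAc.is_comm.comm ⟨a, ha⟩ ⟨a', ha'⟩)
          simpa using congrArg Subtype.val this
        calc a * b * a' = a * (b * a') := by group
          _ = a * (a' * b) := by rw [hAB a' ha']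
          _ = (a * a') * b := by group
          _ = (a' * a) * b := by rw [e1]
          _ = a' * (a * b) := by group
      have hzc : a * b ∈ Subgroup.centralizer ((A ⊔ C : Subgroup G) : Set G) := by
        have hle : A ⊔ C ≤ Subgroup.centralizer ({a * b} : Set G) := by
          apply sup_le
          · intro a' ha'
            rw [Subgroup.mem_centralizer_iff]
            intro y hy
            rw [Set.mem_singleton_iff] at hy
            subst hy
            exact hzA a' ha'
          · intro c hc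
            rw [Subgroup.mem_centralizer_iff]
            intro y hy
            rw [Set.mem_singleton_iff] at hy
            subst hy
            exact (hcomm c hc).symm
        rw [Subgroup.mem_centralizer_iff]
        intro g hg
        have := hle hg
        rw [Subgroup.mem_centralizer_iff] at this
        exact (this _ rfl).symm
      apply not_central_mul_mem hS hC h1 hzc hab1 (A.inv_mem ha) (by simpa using ha1)
      have e : a * b * a⁻¹ = b := by rw [hab]; group
      rw [e]
      exact ⟨hb1, B, hB, hb⟩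
    · exact absurd h2 (hdeg A hA C hC)
  ext C
  simp only [centralizingMembers, Set.mem_inter_iff]
  constructor
  · rintro ⟨hC, hcent⟩
    have hc' : ∀ c ∈ C, c * (a * b) = (a * b) * c := fun c hc =>
      mem_centralizer_zpowers_iff.1 (hcent hc)
    have h1 := key a b ha hb hab hab1 C hC hc'
    have h2 := key b a hb ha hab.symm (by rw [← hab]; exact hab1) C hC (by rw [← hab]; exact hc')
    exact ⟨⟨hC, fun c hc => mem_centralizer_zpowers_iff.2 (h1 c hc)⟩,
      ⟨hC, fun c hc => mem_centralizer_zpowers_iff.2 (h2 c hc)⟩⟩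
  · rintro ⟨⟨hC, h1⟩, ⟨-, h2⟩⟩
    refine ⟨hC, fun c hc => mem_centralizer_zpowers_iff.2 ?_⟩
    have e1 := mem_centralizer_zpowers_iff.1 (h1 hc)
    have e2 := mem_centralizer_zpowers_iff.1 (h2 hc)
    rw [← mul_assoc, e1, mul_assoc, e2, mul_assoc]

theorem commute_of_mem_commutative {A : Subgroup G} (hA : IsMulCommutative A) {a b : G}
    (ha : a ∈ A) (hb : b ∈ A) : a * b = b * a := by
  have := hA.is_comm.comm ⟨a, ha⟩ ⟨b, hb⟩
  simpa using congrArg Subtype.val this

/-- A member of `S` inside `⟨C,D⟩` moving a point of `Ω(C,D)` lies in `Ω(C,D)`. -/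
theorem mem_unipotent_of_le {S : Set (Subgroup G)} (hS : IsRootSubgroupSet S)
    {A C D : Subgroup G} (hA : A ∈ S) (hC : C ∈ S) (hCD : IsRankOnePair C D)
    (hle : A ≤ C ⊔ D) {a : G} (ha : a ∈ A) (ha1 : a ≠ 1) {E : Subgroup G}
    (hE : E ∈ unipotentSubgroups C D) (hmove : conjBy E a ≠ E) : A ∈ unipotentSubgroups C D := by
  have hES : E ∈ S := by
    obtain ⟨x, -, rfl⟩ := hE
    exact hS.conj_mem C hC x
  rcases hS.pair A hA E hES with h0 | h1 | h2
  · exfalso
    apply hmove
    apply conjBy_of_commute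
    intro c hc
    have : ⁅a, c⁆ ∈ ⁅A, E⁆ := Subgroup.commutator_mem_commutator ha hc
    rw [h0, Subgroup.mem_bot, commutatorElement_def, mul_inv_eq_one, mul_inv_eq_iff_eq_mul] at this
    exact this
  · obtain ⟨e, he, -, eq⟩ := h1.cond_left a ha ha1
    have hAeq : A = conjBy (conjBy E a⁻¹) e := by
      rw [← eq, conjBy_conjBy]; simp
    rw [hAeq, conjBy_conjBy]
    apply unipotent_conj_mem hCD _ hE
    exact Subgroup.mul_mem _ (unipotent_le hCD hE he) ((C ⊔ D).inv_mem (hle ha))
  · exfalso
    obtain ⟨hFS, hFc, hcl, -⟩ := h2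
    obtain ⟨e, he, hf⟩ := exists_commutator_ne_one (hcl a ha ha1) (hS.ne_bot _ hFS)
    have hfmem : a * e * a⁻¹ * e⁻¹ ∈ ⁅A, E⁆ := by
      have : ⁅a, e⁆ ∈ ⁅A, E⁆ := Subgroup.commutator_mem_commutator ha he
      simpa [commutatorElement_def] using this
    have hE' : conjBy E a ∈ unipotentSubgroups C D :=
      unipotent_conj_mem hCD (hle ha) hE
    have hpair : IsRankOnePair E (conjBy E a) :=
      isRankOnePair_of_mem hCD hE hE' hmove.symm
    have hEab : IsMulCommutative E := hS.commutative E hES
    have hcomm : ∀ y ∈ E, (a * e * a⁻¹) * y = y * (a * e * a⁻¹) := by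
      intro y hy
      have e1 : a * e * a⁻¹ = (a * e * a⁻¹ * e⁻¹) * e := by group
      rw [e1]
      have e2 := hFc _ hfmem y (Subgroup.mem_sup_right hy)
      have e3 := commute_of_mem_commutative hEab he hy
      calc a * e * a⁻¹ * e⁻¹ * e * y = (a * e * a⁻¹ * e⁻¹) * (e * y) := by group
        _ = (a * e * a⁻¹ * e⁻¹) * (y * e) := by rw [e3]
        _ = ((a * e * a⁻¹ * e⁻¹) * y) * e := by group
        _ = (y * (a * e * a⁻¹ * e⁻¹)) * e := by rw [e2]
        _ = _ := by group
    have h1 := eq_one_of_mem_normalizer_right hpair (conj_mem_conjBy he)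
      (mem_normalizer_of_commute hcomm)
    apply hf
    rw [h1]
    have : e = 1 := by
      have e4 : e = a⁻¹ * (a * e * a⁻¹) * a := by group
      rw [e4, h1]; group
    rw [this]; group

/-- S5024 -/
theorem sup_eq_of_le {S : Set (Subgroup G)} (hS : IsRootSubgroupSet S)
    {A B C D : Subgroup G} (hA : A ∈ S) (hB : B ∈ S) (hC : C ∈ S)
    (hAB : IsRankOnePair A B) (hCD : IsRankOnePair C D)
    (hle : A ⊔ B ≤ C ⊔ D) :
    A ⊔ B = C ⊔ D ∧ C ∈ unipotentSubgroups A B ∧ D ∈ unipotentSubgroups A B := by
  -- elements of `A#`, `B#` move some point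
  have hmoveA : ∀ (A' B' : Subgroup G), IsRankOnePair A' B' → A' ≤ C ⊔ D → B' ≤ C ⊔ D → ∀ a ∈ A', a ≠ 1 →
      ∃ E ∈ unipotentSubgroups C D, conjBy E a ≠ E := by
    intro A' B' hp hA' hB' a ha ha1
    by_contra hcon
    push Not at hcon
    have hcomm := commute_of_fixes_all hCD hcon
    apply ha1
    apply eq_one_of_mem_normalizer_left hp ha
    apply mem_normalizer_of_commute
    intro b hb
    exact hcomm b (hB' hb)
  have hAle : A ≤ C ⊔ D := le_trans le_sup_left hle
  have hBle : B ≤ C ⊔ D := le_trans le_sup_right hle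
  have hAmem : A ∈ unipotentSubgroups C D := by
    obtain ⟨a, ha, ha1⟩ := exists_ne_one_left hAB
    obtain ⟨E, hE, hm⟩ := hmoveA A B hAB hAle hBle a ha ha1
    exact mem_unipotent_of_le hS hA hC hCD hAle ha ha1 hE hm
  have hBmem : B ∈ unipotentSubgroups C D := by
    obtain ⟨a, ha, ha1⟩ := exists_ne_one_right hAB
    obtain ⟨E, hE, hm⟩ := hmoveA B A (RankOnePair_symm hAB) hBle hAle a ha ha1
    exact mem_unipotent_of_le hS hB hC hCD hBle ha ha1 hE hm
  obtain ⟨x, hx, e₁, e₂⟩ := exists_move_to_pair hCD hAmem hBmem hAB.ne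
  have hCeq : C = conjBy A x := e₁.symm
  have hDeq : D = conjBy B x := e₂.symm
  have hsup : A ⊔ B = C ⊔ D := by
    apply conjBy_injective x
    show conjBy (A ⊔ B) x = conjBy (C ⊔ D) x
    have e3 : conjBy (A ⊔ B) x = conjBy A x ⊔ conjBy B x := Subgroup.map_sup _ _ _
    rw [conjBy_of_mem hx, e3, e₁, e₂]
  have hxAB : x ∈ A ⊔ B := by rw [hsup]; exact hx
  refine ⟨hsup, ?_, ?_⟩
  · exact ⟨x, hxAB, hCeq⟩
  · rw [hDeq]
    exact unipotent_conj_mem hAB hxAB (right_mem_unipotent hAB)

end Cfsg.Agent.Lib.RootSet
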