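import Cfsg.Agent.Lib.RuPD
/-! The letters preserve the graph. -/
set_option autoImplicit false
set_option maxRecDepth 1000000
namespace Cfsg.Agent.Lib.RuPD
open Cfsg.Agent.Lib.PChain Cfsg.Agent.Lib.PermChain Cfsg.Agent.Lib.PermChain2

theorem gP0_2 : allR (presV dD gE 0) 512 768 = true := by decide +kernel
theorem gP0_3 : allR (presV dD gE 0) 768 1024 = true := by decide +kernel

end Cfsg.Agent.Lib.RuPD

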