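import Cfsg.Agent.Lib.RuPD
/-! The letters preserve the graph. -/
set_option autoImplicit false
set_option maxRecDepth 1000000
namespace Cfsg.Agent.Lib.RuPD
open Cfsg.Agent.Lib.PChain Cfsg.Agent.Lib.PermChain Cfsg.Agent.Lib.PermChain2

theorem gP0_8 : allR (presV dD gE 0) 2048 2304 = true := by decide +kernel
theorem gP0_9 : allR (presV dD gE 0) 2304 2560 = true := by decide +kernel
theorem gP0_10 : allR (presV dD gE 0) 2560 2816 = true := by decide +kernel
theorem gP0_11 : allR (presV dD gE 0) 2816 3072 = true := by decide +kernel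

end Cfsg.Agent.Lib.RuPD
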