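import Cfsg.Agent.Lib.SteinerCases
import Mathlib

set_option autoImplicit false

/-! Double counting in a Steiner system `S(3,6,22)`. -/

namespace Cfsg.Agent.Lib.S322Graph

open Cfsg Cfsg.Agent.SteinerCount

variable {α : Type*} [Fintype α] [DecidableEq α] {B : Set (Finset α)}

/-- The blocks, as a finite set. -/
noncomputable def bf (B : Set (Finset α)) : Finset (Finset α) := (Set.toFinite B).toFinset

theorem mem_bf {c : Finset α} : c ∈ bf B ↔ c ∈ B := Set.Finite.mem_toFinset _

theorem inter02 (hα : Fintype.card α = 22) (hB : IsSteinerSystem 3 6 B) {b c : Finset α} (hb : b ∈ B) (hc : c ∈ B)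
    (hbc : b ≠ c) : (b ∩ c).card = 0 ∨ (b ∩ c).card = 2 := by
  have hf := hf22 hα hB hb
  have hle := inter_le hB (c := c) hb
  have h6 : (b ∩ c).card ≠ 6 := fun h => hbc (eq_of_inter_card hB hb hc h)
  have hno := fun h0 => no_meet b _ hf hc h0
  rw [hB.1 b hb] at hno
  generalize (b ∩ c).card = i at *
  interval_cases i
  · simp
  · exact (hno (by decide)).elim
  · simp
  · exact (hno (by decide)).elim
  · exact (hno (by decide)).elim
  · exact (hno (by decide)).elim
  · exact absurd rfl h6

theorem N_filter (S T : Finset α) : N B S T = ((bf B).filter (fun c => S ⊆ c ∧ Disjoint T c)).card := by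
  rw [N_eq_ncard, ← Set.ncard_coe_finset]
  congr 1
  ext c
  simp [mem_bf]

theorem card_bf (hα : Fintype.card α = 22) (hB : IsSteinerSystem 3 6 B) : (bf B).card = 77 := by
  have h := count_through hB ∅ (by simp)
  rw [hα, N_filter] at h
  have e : (bf B).filter (fun c => ∅ ⊆ c ∧ Disjoint (∅ : Finset α) c) = bf B := by
    apply Finset.filter_true_of_mem
    intro c _
    simp
  rw [e] at h
  have h1 : (bf B).card * 20 = 1540 := h
  omega

theorem lam1 (hα : Fintype.card α = 22) (hB : IsSteinerSystem 3 6 B) (x : α) :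
    ((bf B).filter (fun c => x ∈ c)).card = 21 := by
  have h := count_through hB {x} (by simp)
  rw [hα, N_filter] at h
  have e : (bf B).filter (fun c => ({x} : Finset α) ⊆ c ∧ Disjoint (∅ : Finset α) c) = (bf B).filter (fun c => x ∈ c) := by
    apply Finset.filter_congr
    intro c _
    simp
  rw [e] at h
  have h1 : ((bf B).filter (fun c => x ∈ c)).card * 10 = 210 := h
  omega

theorem lam2 (hα : Fintype.card α = 22) (hB : IsSteinerSystem 3 6 B) {x y : α} (hxy : x ≠ y) :
    ((bf B).filter (fun c => x ∈ c ∧ y ∈ c)).card = 5 := by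
  have hc : ({x, y} : Finset α).card = 2 := Finset.card_pair hxy
  have h := count_through hB {x, y} (by rw [hc]; norm_num)
  rw [hα, N_filter, hc] at h
  have e : (bf B).filter (fun c => ({x, y} : Finset α) ⊆ c ∧ Disjoint (∅ : Finset α) c) = (bf B).filter (fun c => x ∈ c ∧ y ∈ c) := by
    apply Finset.filter_congr
    intro c _
    simp [Finset.insert_subset_iff]
  rw [e] at h
  have h1 : ((bf B).filter (fun c => x ∈ c ∧ y ∈ c)).card * 4 = 20 := h
  omega

/-- Number of disjoint blocks. -/
theorem disj_count (hα : Fintype.card α = 22) (hB : IsSteinerSystem 3 6 B) {b : Finset α} (hb : b ∈ B) :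
    ((bf B).filter (fun c => Disjoint b c)).card = 16 := by
  have hf := hf22 hα hB hb
  have h := N_eq_g B b _ hf b ∅ (by simp) (Finset.Subset.refl b) (by simp)
  rw [N_filter, hB.1 b hb] at h
  have e : (bf B).filter (fun c => (∅ : Finset α) ⊆ c ∧ Disjoint b c) = (bf B).filter (fun c => Disjoint b c) := by
    apply Finset.filter_congr
    intro c _
    simp
  rw [e] at h
  rw [h, Finset.card_empty]
  decide

theorem card_inter_eq_sum (c X : Finset α) : (c ∩ X).card = ∑ x ∈ X, if x ∈ c then 1 else 0 := by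
  rw [← Finset.card_filter, Finset.filter_mem_eq_inter, Finset.inter_comm]

/-- Double counting. -/
theorem sum_single (𝓑 : Finset (Finset α)) (X : Finset α) :
    ∑ c ∈ 𝓑, (c ∩ X).card = ∑ x ∈ X, (𝓑.filter (fun c => x ∈ c)).card := by
  simp only [card_inter_eq_sum, Finset.card_filter]
  rw [Finset.sum_comm]

theorem sum_double (𝓑 : Finset (Finset α)) (X Y : Finset α) :
    ∑ c ∈ 𝓑, (c ∩ X).card * (c ∩ Y).card = ∑ x ∈ X, ∑ y ∈ Y, (𝓑.filter (fun c => x ∈ c ∧ y ∈ c)).card := by
  simp only [card_inter_eq_sum, Finset.card_filter, Finset.sum_mul_sum]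
  rw [Finset.sum_comm]
  apply Finset.sum_congr rfl
  intro x _
  rw [Finset.sum_comm]
  apply Finset.sum_congr rfl
  intro y _
  apply Finset.sum_congr rfl
  intro c _
  by_cases h1 : x ∈ c <;> by_cases h2 : y ∈ c <;> simp [h1, h2]

theorem sum_pairs (hα : Fintype.card α = 22) (hB : IsSteinerSystem 3 6 B) {X Y : Finset α} (hX : X.card = 6) (hY : Y.card = 6) :
    ∑ c ∈ bf B, (c ∩ X).card * (c ∩ Y).card = 180 + 16 * (X ∩ Y).card := by
  rw [sum_double]
  have h1 : ∀ x ∈ X, ∑ y ∈ Y, ((bf B).filter (fun c => x ∈ c ∧ y ∈ c)).card = 30 + 16 * (if x ∈ Y then 1 else 0) := by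
    intro x _
    have h2 : ∀ y ∈ Y, ((bf B).filter (fun c => x ∈ c ∧ y ∈ c)).card = 5 + 16 * (if x = y then 1 else 0) := by
      intro y _
      by_cases hxy : x = y
      · subst hxy
        simp only [and_self, if_true]
        rw [lam1 hα hB]
      · rw [lam2 hα hB hxy, if_neg hxy]
    rw [Finset.sum_congr rfl h2, Finset.sum_add_distrib, ← Finset.mul_sum, Finset.sum_const, hY, Finset.sum_ite_eq]
    simp
  rw [Finset.sum_congr rfl h1, Finset.sum_add_distrib, ← Finset.mul_sum, Finset.sum_const, hX, ← card_inter_eq_sum Y X, Finset.inter_comm Y X]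
  simp

theorem sum_point (hα : Fintype.card α = 22) (hB : IsSteinerSystem 3 6 B) {a : α} {X : Finset α} (hX : X.card = 6) (ha : a ∉ X) :
    ∑ c ∈ (bf B).filter (fun c => a ∈ c), (c ∩ X).card = 30 := by
  rw [sum_single]
  have h1 : ∀ x ∈ X, (((bf B).filter (fun c => a ∈ c)).filter (fun c => x ∈ c)).card = 5 := by
    intro x hx
    rw [Finset.filter_filter]
    exact lam2 hα hB (fun h => ha (h ▸ hx))
  rw [Finset.sum_congr rfl h1, Finset.sum_const, hX]
  rfl

/-- The number of blocks disjoint from two distinct blocks is twice the size of their intersection. -/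
theorem two_disj (hα : Fintype.card α = 22) (hB : IsSteinerSystem 3 6 B) {X Y : Finset α} (hX : X ∈ B) (hY : Y ∈ B) (hXY : X ≠ Y) :
    ((bf B).filter (fun c => Disjoint c X ∧ Disjoint c Y)).card = 2 * (X ∩ Y).card := by
  have hXc := hB.1 X hX
  have hYc := hB.1 Y hY
  have hXm : X ∈ bf B := mem_bf.2 hX
  have hYm : Y ∈ bf B := mem_bf.2 hY
  -- remove the two blocks
  obtain ⟨R, hR⟩ : ∃ R, R = ((bf B).erase X).erase Y := ⟨_, rfl⟩
  have hsplit : ∀ f : Finset α → ℕ, ∑ c ∈ bf B, f c = ∑ c ∈ R, f c + f Y + f X := by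
    intro f
    rw [hR, Finset.sum_erase_add _ _ (Finset.mem_erase.2 ⟨hXY.symm, hYm⟩), Finset.sum_erase_add _ _ hXm]
  have hRmem : ∀ c ∈ R, c ∈ B ∧ c ≠ X ∧ c ≠ Y := by
    intro c hc
    rw [hR, Finset.mem_erase, Finset.mem_erase] at hc
    exact ⟨mem_bf.1 hc.2.2, hc.2.1, hc.1⟩
  have hRcard : R.card = 75 := by
    rw [hR, Finset.card_erase_of_mem (Finset.mem_erase.2 ⟨hXY.symm, hYm⟩), Finset.card_erase_of_mem hXm, card_bf hα hB]
  have hpt : ∀ c ∈ R, 4 * (if Disjoint c X ∧ Disjoint c Y then 1 else 0) + 2 * (c ∩ X).card + 2 * (c ∩ Y).card = 4 + (c ∩ X).card * (c ∩ Y).card := by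
    intro c hc
    obtain ⟨hcB, hcX, hcY⟩ := hRmem c hc
    have e1 : Disjoint c X ↔ (c ∩ X).card = 0 := by
      rw [Finset.card_eq_zero, Finset.disjoint_iff_inter_eq_empty]
    have e2 : Disjoint c Y ↔ (c ∩ Y).card = 0 := by
      rw [Finset.card_eq_zero, Finset.disjoint_iff_inter_eq_empty]
    rcases inter02 hα hB hcB hX hcX with h1 | h1 <;> rcases inter02 hα hB hcB hY hcY with h2 | h2 <;> simp only [e1, e2, h1, h2] <;> norm_num
  have hsum := Finset.sum_congr rfl hpt
  simp only [Finset.sum_add_distrib, ← Finset.mul_sum, Finset.sum_const, hRcard, smul_eq_mul] at hsum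
  have hfilter : ((bf B).filter (fun c => Disjoint c X ∧ Disjoint c Y)).card = ∑ c ∈ R, (if Disjoint c X ∧ Disjoint c Y then 1 else 0) := by
    rw [Finset.card_filter, hsplit]
    have hne : ¬ Disjoint X X := by
      intro h
      rw [disjoint_self] at h
      rw [h] at hXc
      simp at hXc
    have hne' : ¬ Disjoint Y Y := by
      intro h
      rw [disjoint_self] at h
      rw [h] at hYc
      simp at hYc
    rw [if_neg (fun h => hne' h.2), if_neg (fun h => hne h.1)]
    simp
  have hs1 := sum_single (bf B) X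
  have hs2 := sum_single (bf B) Y
  have hX21 : ∀ x ∈ X, ((bf B).filter (fun c => x ∈ c)).card = 21 := fun x _ => lam1 hα hB x
  have hY21 : ∀ x ∈ Y, ((bf B).filter (fun c => x ∈ c)).card = 21 := fun x _ => lam1 hα hB x
  rw [Finset.sum_congr rfl hX21, Finset.sum_const, hXc, hsplit] at hs1
  rw [Finset.sum_congr rfl hY21, Finset.sum_const, hYc, hsplit] at hs2
  have hs3 := sum_pairs hα hB hXc hYc
  rw [hsplit] at hs3
  have e1 : X ∩ X = X := Finset.inter_self X
  have e2 : Y ∩ Y = Y := Finset.inter_self Y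
  have e3 : Y ∩ X = X ∩ Y := Finset.inter_comm _ _
  simp only [e1, e2, e3, hXc, hYc, smul_eq_mul] at hs1 hs2 hs3
  rw [hfilter]
  omega

/-- The number of blocks through a point outside a block and disjoint from the block. -/
theorem point_disj (hα : Fintype.card α = 22) (hB : IsSteinerSystem 3 6 B) {a : α} {X : Finset α} (hX : X ∈ B) (ha : a ∉ X) :
    ((bf B).filter (fun c => a ∈ c ∧ Disjoint c X)).card = 6 := by
  have hXc := hB.1 X hX
  have hs := sum_point hα hB hXc ha
  have hpt : ∀ c ∈ (bf B).filter (fun c => a ∈ c), 2 * (if Disjoint c X then 1 else 0) + (c ∩ X).card = 2 := by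
    intro c hc
    rw [Finset.mem_filter] at hc
    have hcX : c ≠ X := fun h => ha (h ▸ hc.2)
    have e1 : Disjoint c X ↔ (c ∩ X).card = 0 := by
      rw [Finset.card_eq_zero, Finset.disjoint_iff_inter_eq_empty]
    rcases inter02 hα hB (mem_bf.1 hc.1) hX hcX with h1 | h1 <;> simp only [e1, h1] <;> norm_num
  have hsum := Finset.sum_congr rfl hpt
  simp only [Finset.sum_add_distrib, ← Finset.mul_sum, Finset.sum_const, lam1 hα hB a, smul_eq_mul, hs] at hsum
  have hf : ((bf B).filter (fun c => a ∈ c ∧ Disjoint c X)).card = ∑ c ∈ (bf B).filter (fun c => a ∈ c), (if Disjoint c X then 1 else 0) := by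
    rw [← Finset.filter_filter, Finset.card_filter]
  rw [hf]
  omega

end Cfsg.Agent.Lib.S322Graph
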