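import Cfsg.Agent.Lib.TvGL
import Cfsg.Agent.Lib.FormVec

set_option autoImplicit false

namespace Cfsg.Agent.Lib.SLStab

open Matrix Cfsg.Geo Cfsg.Agent.Lib.TvGL Cfsg.Agent.Lib.FormVec
open scoped MatrixGroups

variable {ι : Type} [Fintype ι] [DecidableEq ι] {F : Type*} [Field F]

theorem mem_stab_iff (W : Submodule F (ι → F)) (g : GL ι F) :
    g ∈ subspaceStabilizer W ↔ ∀ v, v ∈ W ↔ (g : Matrix ι ι F) *ᵥ v ∈ W := Iff.rfl

/-- Separating functional for a subspace and a vector outside it. -/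
theorem exists_sep (X : Submodule F (ι → F)) {y : ι → F} (hy : y ∉ X) :
    ∃ φ : ι → F, φ ⬝ᵥ y = 1 ∧ ∀ x ∈ X, φ ⬝ᵥ x = 0 := by
  obtain ⟨ξ, hξ, hξ0⟩ := Submodule.exists_le_ker_of_notMem hy
  obtain ⟨φ, hφ⟩ := exists_dot ξ
  refine ⟨(ξ y)⁻¹ • φ, ?_, ?_⟩
  · rw [smul_dotProduct, hφ, smul_eq_mul, inv_mul_cancel₀ hξ]
  · intro x hx
    rw [smul_dotProduct, hφ]
    have : ξ x = 0 := hξ0 hx
    rw [this, smul_zero]

theorem tv_mem_stab_left (W : Submodule F (ι → F)) {a φ : ι → F} (ha : a ∈ W) (h : φ ⬝ᵥ a = 0) :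
    tv a φ h ∈ subspaceStabilizer W := by
  rw [mem_stab_iff]
  intro v
  rw [tv_mulVec]
  constructor
  · intro hv
    exact W.add_mem hv (W.smul_mem _ ha)
  · intro hv
    have := W.sub_mem hv (W.smul_mem (φ ⬝ᵥ v) ha)
    simpa using this

theorem tv_mem_stab_right (W : Submodule F (ι → F)) {a φ : ι → F} (hφ : ∀ w ∈ W, φ ⬝ᵥ w = 0) (h : φ ⬝ᵥ a = 0) :
    tv a φ h ∈ subspaceStabilizer W := by
  rw [mem_stab_iff]
  intro v
  rw [tv_mulVec]
  constructor
  · intro hv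
    rw [hφ v hv]
    simpa using hv
  · intro hv
    have h0 := hφ _ hv
    rw [dotProduct_add, dotProduct_smul, h, smul_zero, add_zero] at h0
    rw [h0] at hv
    simpa using hv

/-- The transvections with a given centre. -/
def Full (M : Subgroup (GL ι F)) (x : ι → F) : Prop := ∀ ψ (h : ψ ⬝ᵥ x = 0), tv x ψ h ∈ M

theorem Full.conj {M : Subgroup (GL ι F)} {x : ι → F} (hx : Full M x) {g : GL ι F} (hg : g ∈ M) :
    Full M ((g : Matrix ι ι F) *ᵥ x) := by
  intro ψ h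
  have h' : (ψ ᵥ* (g : Matrix ι ι F)) ⬝ᵥ x = 0 := by
    rw [← Matrix.dotProduct_mulVec, h]
  have e := tv_conj g x (ψ ᵥ* (g : Matrix ι ι F)) h'
  have e2 : tv ((g : Matrix ι ι F) *ᵥ x) ψ h = tv ((g : Matrix ι ι F) *ᵥ x) ((ψ ᵥ* (g : Matrix ι ι F)) ᵥ* ((g⁻¹ : GL ι F) : Matrix ι ι F)) (by
      rw [Matrix.dotProduct_mulVec, Matrix.vecMul_vecMul, ← Units.val_mul, inv_mul_cancel, Units.val_one, Matrix.vecMul_one, h']) := by
    apply tv_ext
    rw [Matrix.vecMul_vecMul, ← Units.val_mul, mul_inv_cancel, Units.val_one, Matrix.vecMul_one]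
  rw [e2, ← e]
  exact M.mul_mem (M.mul_mem hg (hx _ h')) (M.inv_mem hg)

theorem Full.smul {M : Subgroup (GL ι F)} {x : ι → F} (hx : Full M x) (c : F) : Full M (c • x) := by
  intro ψ h
  have h' : (c • ψ) ⬝ᵥ x = 0 := by
    rw [dotProduct_smul] at h
    rw [smul_dotProduct, h]
  have e : tv (c • x) ψ h = tv x (c • ψ) h' := tv_ext (vecMulVec_smul_left c x ψ)
  rw [e]
  exact hx _ h'

/-- The transitivity step. -/
theorem full_of_full (W : Submodule F (ι → F)) {M : Subgroup (GL ι F)}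
    (hM : subspaceStabilizer W ⊓ specialLinear ι F ≤ M) {y y' : ι → F}
    (hy : y ∉ W) (hy' : y' ∉ W) (hP : Full M y) : Full M y' := by
  by_cases hc : y' ∈ W ⊔ Submodule.span F {y}
  · obtain ⟨a, ha, b, hb, e⟩ := Submodule.mem_sup.mp hc
    obtain ⟨c, rfl⟩ := Submodule.mem_span_singleton.mp hb
    have hy2 : c • y ∉ W := by
      intro h
      apply hy'
      rw [← e]
      exact W.add_mem ha h
    obtain ⟨φ, hφ1, hφ2⟩ := exists_sep W hy2
    have ht : tv a φ (hφ2 a ha) ∈ M := hM ⟨tv_mem_stab_left W ha _, tv_mem_SL _ _ _⟩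
    have := (hP.smul c).conj ht
    rw [tv_mulVec, hφ1, one_smul, add_comm, e] at this
    exact this
  · obtain ⟨φ₁, h11, h12⟩ := exists_sep _ hc
    obtain ⟨φ₂, h21, h22⟩ := exists_sep W hy
    have hφ1y : φ₁ ⬝ᵥ y = 0 := h12 y (Submodule.mem_sup_right (Submodule.mem_span_singleton_self y))
    let φ := φ₂ + (1 - φ₂ ⬝ᵥ y') • φ₁
    have e1 : φ ⬝ᵥ y = 1 := by
      simp only [φ, add_dotProduct, smul_dotProduct, h21, hφ1y, smul_zero, add_zero]
    have e2 : φ ⬝ᵥ y' = 1 := by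
      simp only [φ, add_dotProduct, smul_dotProduct, h11, smul_eq_mul]
      ring
    have e3 : ∀ w ∈ W, φ ⬝ᵥ w = 0 := by
      intro w hw
      simp only [φ, add_dotProduct, smul_dotProduct, h22 w hw, h12 w (Submodule.mem_sup_left hw), smul_zero, add_zero]
    have e4 : φ ⬝ᵥ (y' - y) = 0 := by
      rw [dotProduct_sub, e1, e2, sub_self]
    have ht : tv (y' - y) φ e4 ∈ M := hM ⟨tv_mem_stab_right W e3 _, tv_mem_SL _ _ _⟩
    have := hP.conj ht
    rw [tv_mulVec, e1, one_smul, add_sub_cancel] at this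
    exact this

/-- The main lemma: a subgroup containing `Stab(W) ∩ SL` and an element outside `Stab(W)`
contains `SL`. -/
theorem sl_le_of_stab (W : Submodule F (ι → F)) {M : Subgroup (GL ι F)}
    (hM : subspaceStabilizer W ⊓ specialLinear ι F ≤ M) {g : GL ι F} (hg : g ∈ M)
    (hgW : g ∉ subspaceStabilizer W) : specialLinear ι F ≤ M := by
  have hW : ∀ x ∈ W, Full M x := fun x hx ψ h => hM ⟨tv_mem_stab_left W hx _, tv_mem_SL _ _ _⟩
  obtain ⟨g', hg', u, hu, hgu⟩ : ∃ g' ∈ M, ∃ u ∈ W, (g' : Matrix ι ι F) *ᵥ u ∉ W := by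
    rw [mem_stab_iff] at hgW
    push Not at hgW
    obtain ⟨v, hv⟩ := hgW
    rcases hv with ⟨h1, h2⟩ | ⟨h1, h2⟩
    · exact ⟨g, hg, v, h1, h2⟩
    · refine ⟨g⁻¹, M.inv_mem hg, _, h2, ?_⟩
      rw [inv_mulVec_mulVec]
      exact h1
  have hP : Full M ((g' : Matrix ι ι F) *ᵥ u) := (hW u hu).conj hg'
  have hall : ∀ x, Full M x := by
    intro x
    by_cases hx : x ∈ W
    · exact hW x hx
    · exact full_of_full W hM hgu hx hP
  have := eq_SL_of_tv_mem (H := M ⊓ specialLinear ι F) inf_le_right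
    (fun a φ h => ⟨hall a φ h, tv_mem_SL _ _ _⟩)
  rw [← this]
  exact inf_le_left

/-- An element of `SL` outside of `Stab(W)`. -/
theorem exists_not_stab (W : Submodule F (ι → F)) (hW0 : W ≠ ⊥) (hW1 : W ≠ ⊤) :
    ∃ g ∈ specialLinear ι F, g ∉ subspaceStabilizer W := by
  obtain ⟨a, ha, ha0⟩ := Submodule.exists_mem_ne_zero_of_ne_bot hW0
  obtain ⟨y, hy⟩ : ∃ y, y ∉ W := by
    by_contra hcon
    push Not at hcon
    exact hW1 (Submodule.eq_top_iff'.mpr hcon)
  have hsep : a ∉ Submodule.span F {y} := by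
    intro h
    obtain ⟨c, hc⟩ := Submodule.mem_span_singleton.mp h
    apply hy
    have hc0 : c ≠ 0 := by
      rintro rfl
      rw [zero_smul] at hc
      exact ha0 hc.symm
    have := W.smul_mem c⁻¹ ha
    rwa [← hc, smul_smul, inv_mul_cancel₀ hc0, one_smul] at this
  obtain ⟨φ, h1, h2⟩ := exists_dot_sep hsep
  refine ⟨tv y φ h2, tv_mem_SL _ _ _, fun h => ?_⟩
  have h3 := ((mem_stab_iff W _).mp h a).mp ha
  rw [tv_mulVec, h1, one_smul] at h3
  apply hy
  have := W.sub_mem h3 ha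
  simpa using this

/-- maximality in `SL`. -/
theorem maximal (W : Submodule F (ι → F)) (hW0 : W ≠ ⊥) (hW1 : W ≠ ⊤) :
    IsMaximalIn (specialLinear ι F) (subspaceStabilizer W ⊓ specialLinear ι F) := by
  constructor
  · refine lt_of_le_of_ne inf_le_right ?_
    intro h
    obtain ⟨g, hg, hg'⟩ := exists_not_stab W hW0 hW1
    apply hg'
    rw [← h] at hg
    exact hg.1
  · intro M hSM hMK
    by_cases hMS : M = subspaceStabilizer W ⊓ specialLinear ι F
    · exact Or.inl hMS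
    right
    obtain ⟨g₀, hg₀M, hg₀S⟩ : ∃ g ∈ M, g ∉ subspaceStabilizer W ⊓ specialLinear ι F := by
      by_contra hcon
      push Not at hcon
      exact hMS (le_antisymm hcon hSM)
    have hg₀ : g₀ ∉ subspaceStabilizer W := fun h => hg₀S ⟨h, hMK hg₀M⟩
    exact le_antisymm hMK (sl_le_of_stab W hSM hg₀M hg₀)

end Cfsg.Agent.Lib.SLStab
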