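import Cfsg.Agent.Lib.LdSelfC
import Cfsg.Agent.Lib.H1Core
import Cfsg.Agent.Lib.Comp2

/-! Self-centralizing elements of prime order: the classes of order `p` and the abelianization. -/

set_option autoImplicit false

namespace Cfsg.Agent.Lib.SelfC2

open Subgroup Cfsg Cfsg.Agent.Lib Cfsg.Agent.Lib.LdSelfC
open scoped commutatorElement

theorem card_le_mul_of_fib {A B : Type*} [Finite A] [Finite B] (f : A → B) (n : ℕ)
    (h : ∀ b, Nat.card {a // f a = b} ≤ n) : Nat.card A ≤ Nat.card B * n := by
  classical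
  haveI := Fintype.ofFinite B
  rw [Nat.card_congr (Equiv.sigmaFiberEquiv f).symm, Nat.card_sigma, Nat.card_eq_fintype_card (α := B),
    ← Finset.card_univ, ← smul_eq_mul]
  exact Finset.sum_le_card_nsmul _ _ _ (fun b _ => h b)

theorem mul_le_card_of_fib {A B : Type*} [Finite A] [Finite B] (f : A → B) (n : ℕ)
    (h : ∀ b, n ≤ Nat.card {a // f a = b}) : Nat.card B * n ≤ Nat.card A := by
  classical
  haveI := Fintype.ofFinite B
  rw [Nat.card_congr (Equiv.sigmaFiberEquiv f).symm, Nat.card_sigma, Nat.card_eq_fintype_card (α := B),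
    ← Finset.card_univ, ← smul_eq_mul]
  exact Finset.card_nsmul_le_sum _ _ _ (fun b _ => h b)

variable {G : Type*} [Group G] [Finite G] {p : ℕ} [hpp : Fact p.Prime] {x : G}

abbrev ClP (p : ℕ) (G : Type*) [Group G] := {C : ConjClasses G // ∃ g ∈ C.carrier, orderOf g = p}
abbrev YP (x : G) := {z : G // z ∈ zpowers x ∧ z ≠ 1}

theorem order_of_mem (hx : orderOf x = p) {z : G} (hz : z ∈ zpowers x) (hz1 : z ≠ 1) :
    orderOf z = p := by
  have h2 : orderOf z ∣ orderOf x := orderOf_dvd_of_mem_zpowers hz
  rw [hx] at h2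
  rcases (Nat.dvd_prime hpp.out).1 h2 with h | h
  · exact absurd (orderOf_eq_one_iff.1 h) hz1
  · exact h

theorem x_ne_one (hx : orderOf x = p) : x ≠ 1 := by
  rintro rfl
  rw [orderOf_one] at hx
  exact hpp.out.one_lt.ne hx

def clsP (hx : orderOf x = p) (z : YP x) : ClP p G :=
  ⟨ConjClasses.mk z.1, z.1, ConjClasses.mem_carrier_mk, order_of_mem hx z.2.1 z.2.2⟩

theorem card_YP (hx : orderOf x = p) : Nat.card (YP x) = p - 1 := by
  classical
  haveI := Fintype.ofFinite G
  rw [Nat.card_eq_fintype_card, Fintype.card_subtype]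
  have h1 : (Finset.univ.filter fun z : G => z ∈ zpowers x ∧ z ≠ 1) =
      (Finset.univ.filter fun z : G => z ∈ zpowers x).erase 1 := by
    ext z
    simp only [Finset.mem_filter, Finset.mem_univ, true_and, Finset.mem_erase]
    tauto
  rw [h1, Finset.card_erase_of_mem (by simp [one_mem]), ← Fintype.card_subtype,
    ← Nat.card_eq_fintype_card]
  have : Nat.card {z : G // z ∈ zpowers x} = orderOf x := Nat.card_zpowers x
  rw [this, hx]

variable (hx : orderOf x = p) (hC : centralizer ({x} : Set G) = zpowers x)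

include hx hC in
theorem clsP_surj : Function.Surjective (clsP hx) := by
  rintro ⟨C, g, hg, ho⟩
  obtain ⟨h, z, hz, hz1, rfl⟩ := conj_of_order hx hC ho
  refine ⟨⟨z, hz, hz1⟩, Subtype.ext ?_⟩
  show ConjClasses.mk z = C
  rw [← ConjClasses.mem_carrier_iff_mk_eq.mp hg, ConjClasses.mk_eq_mk_iff_isConj, isConj_iff]
  exact ⟨h, rfl⟩

include hx hC in
theorem exists_sylow : ∃ Q : Sylow p G, (Q : Subgroup G) = zpowers x := by
  have hP : IsPGroup p (zpowers x) := by
    apply IsPGroup.of_card (n := 1)
    rw [Nat.card_zpowers, hx, pow_one]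
  obtain ⟨Q, hQ⟩ := hP.exists_le_sylow
  exact ⟨Q, sylow_eq hx hC Q (hQ (mem_zpowers x))⟩

include hx hC in
theorem le_commutator_of_disjoint (K : Subgroup G) [hK : K.Normal]
    (hd : ∀ k ∈ K, k ∈ zpowers x → k = 1) : K ≤ commutator G := by
  let f : K → K := fun k =>
    ⟨(k : G)⁻¹ * (x * k * x⁻¹), K.mul_mem (K.inv_mem k.2) (hK.conj_mem _ k.2 _)⟩
  have hf : Function.Injective f := by
    intro a b h
    have h1 : (a : G)⁻¹ * (x * a * x⁻¹) = (b : G)⁻¹ * (x * b * x⁻¹) := congrArg Subtype.val h
    have h2 : (b : G) * (a : G)⁻¹ * x = x * ((b : G) * (a : G)⁻¹) := by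
      have h3 : (a : G)⁻¹ * x * a = (b : G)⁻¹ * x * b := by
        have := congrArg (· * x) h1
        simpa [mul_assoc] using this
      calc (b : G) * (a : G)⁻¹ * x = b * ((a : G)⁻¹ * x * a) * (a : G)⁻¹ := by group
        _ = b * ((b : G)⁻¹ * x * b) * (a : G)⁻¹ := by rw [h3]
        _ = _ := by group
    have h4 := mem_of_comm hx hC h2
    have h5 := hd _ (K.mul_mem b.2 (K.inv_mem a.2)) h4
    apply Subtype.ext
    exact (mul_inv_eq_one.mp h5).symm
  have hs := Finite.injective_iff_surjective.mp hf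
  intro k hk
  obtain ⟨j, hj⟩ := hs ⟨k, hk⟩
  have h1 : k = ⁅(j : G)⁻¹, x⁆ := by
    have h0 : (j : G)⁻¹ * (x * j * x⁻¹) = k := congrArg Subtype.val hj
    rw [← h0, commutatorElement_def]
    group
  rw [h1, _root_.commutator_def]
  exact commutator_mem_commutator (mem_top _) (mem_top _)

include hx in
theorem clsP_inj_of_not_mem (hxG : x ∉ commutator G) : Function.Injective (clsP hx) := by
  intro a b h
  have h1 : IsConj a.1 b.1 := ConjClasses.mk_eq_mk_iff_isConj.mp (congrArg Subtype.val h)
  obtain ⟨g, hg⟩ := isConj_iff.mp h1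
  by_contra hne
  have hne' : a.1 ≠ b.1 := fun h => hne (Subtype.ext h)
  have hmem : b.1 * a.1⁻¹ ∈ zpowers x := (zpowers x).mul_mem b.2.1 ((zpowers x).inv_mem a.2.1)
  have h1' : b.1 * a.1⁻¹ ≠ 1 := by
    intro h
    exact hne' (mul_inv_eq_one.mp h).symm
  have h2 : x ∈ zpowers (b.1 * a.1⁻¹) := mem_zpowers_of_ne hx hmem h1'
  apply hxG
  have h3 : b.1 * a.1⁻¹ ∈ commutator G := by
    have : b.1 * a.1⁻¹ = ⁅g, a.1⁆ := by
      rw [commutatorElement_def, ← hg]
    rw [this, _root_.commutator_def]
    exact commutator_mem_commutator (mem_top _) (mem_top _)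
  exact (zpowers_le.mpr h3) h2

include hx hC in
/-- No fusion in `⟨x⟩` gives a normal `p`-complement equal to the derived subgroup. -/
theorem of_inj (hinj : Function.Injective (clsP hx)) :
    (commutator G).index = p ∧ (Nat.card (commutator G)).Coprime p := by
  obtain ⟨Q, hQ⟩ := exists_sylow hx hC
  have hN : normalizer ((Q : Subgroup G) : Set G) ≤ centralizer ((Q : Subgroup G) : Set G) := by
    intro g hg
    rw [hQ] at hg
    have hgx : g * x * g⁻¹ ∈ zpowers x := (mem_normalizer_iff.mp hg x).mp (mem_zpowers x)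
    have hgx1 : g * x * g⁻¹ ≠ 1 := by
      intro h
      apply x_ne_one hx
      have : g * x * g⁻¹ * g = g := by rw [h, one_mul]
      simpa [mul_assoc] using this
    have h1 : g * x * g⁻¹ = x := by
      have := @hinj ⟨_, hgx, hgx1⟩ ⟨x, mem_zpowers x, x_ne_one hx⟩ (Subtype.ext (by
        show ConjClasses.mk _ = ConjClasses.mk _
        rw [ConjClasses.mk_eq_mk_iff_isConj, isConj_iff]
        exact ⟨g⁻¹, by group⟩))
      exact congrArg Subtype.val this
    have hcomm : Commute g x := by
      show g * x = x * g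
      calc g * x = g * x * g⁻¹ * g := by group
        _ = x * g := by rw [h1]
    rw [hQ, mem_centralizer_iff]
    intro h hh
    obtain ⟨k, rfl⟩ := mem_zpowers_iff.mp hh
    exact (hcomm.zpow_right k).eq.symm
  have hcomp := MonoidHom.ker_transferSylow_isComplement' Q hN
  set f := MonoidHom.transferSylow Q hN with hf
  have hT1 : f.ker ≤ commutator G := by
    apply le_commutator_of_disjoint hx hC
    intro k hk hk2
    have := hcomp.disjoint
    rw [Subgroup.disjoint_def] at this
    exact this hk (by rw [hQ]; exact hk2)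
  have hT2 : commutator G ≤ f.ker := by
    rw [_root_.commutator_def, commutator_le]
    intro a _ b _
    rw [MonoidHom.mem_ker, map_commutatorElement, commutatorElement_eq_one_iff_commute]
    have h1 : ((f a : Q) : G) ∈ zpowers x := by rw [← hQ]; exact (f a).2
    have h2 : ((f b : Q) : G) ∈ zpowers x := by rw [← hQ]; exact (f b).2
    obtain ⟨i, hi⟩ := mem_zpowers_iff.mp h1
    obtain ⟨j, hj⟩ := mem_zpowers_iff.mp h2
    apply Subtype.ext
    show ((f a : Q) : G) * ((f b : Q) : G) = ((f b : Q) : G) * ((f a : Q) : G)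
    rw [← hi, ← hj]
    exact ((Commute.refl x).zpow_zpow i j).eq
  have hT : commutator G = f.ker := le_antisymm hT2 hT1
  rw [hT]
  constructor
  · rw [hcomp.symm.index_eq_card, hQ, Nat.card_zpowers, hx]
  · have := MonoidHom.not_dvd_card_ker_transferSylow Q hN
    exact ((Nat.Prime.coprime_iff_not_dvd hpp.out).mpr this).symm

include hx hC in
theorem card_normalizer_ge (hxG : x ∈ commutator G) :
    p * (commutator G).index ≤ Nat.card (normalizer (zpowers x : Set G)) := by
  classical
  obtain ⟨Q, hQ⟩ := exists_sylow hx hC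
  have hQle : (Q : Subgroup G) ≤ commutator G := by
    rw [hQ]
    exact zpowers_le.mpr hxG
  have hsup0 := Q.normalizer_sup_eq_top' hQle
  have hsup : normalizer (zpowers x : Set G) ⊔ commutator G = ⊤ := by
    have e : (Q : Set G) = (zpowers x : Set G) := by
      rw [← hQ]
      rfl
    rw [← e]
    exact hsup0
  set N := normalizer (zpowers x : Set G) with hNdef
  let φ : N →* G ⧸ commutator G := (QuotientGroup.mk' (commutator G)).comp N.subtype
  have hφ : φ.range = ⊤ := by
    rw [eq_top_iff]
    rintro q -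
    obtain ⟨g, rfl⟩ := QuotientGroup.mk_surjective q
    have hg : g ∈ N ⊔ commutator G := by rw [hsup]; exact mem_top g
    have hg' : g ∈ ((N ⊔ commutator G : Subgroup G) : Set G) := hg
    rw [Subgroup.mul_normal] at hg'
    obtain ⟨y, hy, z, hz, rfl⟩ := Set.mem_mul.mp hg'
    refine ⟨⟨y, hy⟩, ?_⟩
    show ((y : G) : G ⧸ commutator G) = ((y * z : G) : G ⧸ commutator G)
    rw [QuotientGroup.eq]
    simpa using hz
  have hcard : Nat.card φ.ker * φ.ker.index = Nat.card N := Subgroup.card_mul_index _
  have hidx : φ.ker.index = (commutator G).index := by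
    rw [Subgroup.index_ker, hφ]
    simp [Subgroup.index]
  have hp : p ≤ Nat.card φ.ker := by
    have hPN : zpowers x ≤ N := le_normalizer
    let ι : zpowers x → φ.ker := fun z => ⟨⟨z.1, hPN z.2⟩, by
      rw [MonoidHom.mem_ker]
      show ((z.1 : G) : G ⧸ commutator G) = 1
      rw [QuotientGroup.eq_one_iff]
      exact (zpowers_le.mpr hxG) z.2⟩
    have hι : Function.Injective ι := by
      intro a b h
      have h1 := congrArg (fun t : φ.ker => ((t : N) : G)) h
      exact Subtype.ext h1
    have := Nat.card_le_card_of_injective ι hι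
    rwa [Nat.card_zpowers, hx] at this
  rw [← hcard, hidx]
  exact Nat.mul_le_mul_right _ hp

include hx hC in
theorem fib_ge (hxG : x ∈ commutator G) (c : ClP p G) :
    (commutator G).index ≤ Nat.card {z : YP x // clsP hx z = c} := by
  classical
  obtain ⟨z₀, hz₀⟩ := clsP_surj hx hC c
  set N := normalizer (zpowers x : Set G) with hNdef
  have hmemN : ∀ n : N, (n : G) * z₀.1 * (n : G)⁻¹ ∈ zpowers x := fun n =>
    (mem_normalizer_iff.mp n.2 z₀.1).mp z₀.2.1
  have hne : ∀ n : N, (n : G) * z₀.1 * (n : G)⁻¹ ≠ 1 := by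
    intro n h
    apply z₀.2.2
    have : (n : G) * z₀.1 * (n : G)⁻¹ * n = n := by rw [h, one_mul]
    simpa [mul_assoc] using this
  let ψ : N → {z : YP x // clsP hx z = c} := fun n =>
    ⟨⟨_, hmemN n, hne n⟩, by
      rw [← hz₀]
      apply Subtype.ext
      show ConjClasses.mk _ = ConjClasses.mk _
      rw [ConjClasses.mk_eq_mk_iff_isConj, isConj_iff]
      exact ⟨(n : G)⁻¹, by group⟩⟩
  have hfibers : ∀ b, Nat.card {n // ψ n = b} ≤ p := by
    intro b
    by_cases hb : ∃ n₁, ψ n₁ = b
    · obtain ⟨n₁, rfl⟩ := hb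
      let ι : {n // ψ n = ψ n₁} → zpowers x := fun n => ⟨(n₁ : G)⁻¹ * (n.1 : G), by
        have h1 : (n.1 : G) * z₀.1 * (n.1 : G)⁻¹ = (n₁ : G) * z₀.1 * (n₁ : G)⁻¹ :=
          congrArg (fun t : {z : YP x // clsP hx z = c} => (t.1.1 : G)) n.2
        apply mem_of_comm hx hC
        apply comm_of_comm_pow hx z₀.2.1 z₀.2.2
        calc (n₁ : G)⁻¹ * (n.1 : G) * z₀.1
            = (n₁ : G)⁻¹ * ((n.1 : G) * z₀.1 * (n.1 : G)⁻¹) * (n.1 : G) := by group
          _ = (n₁ : G)⁻¹ * ((n₁ : G) * z₀.1 * (n₁ : G)⁻¹) * (n.1 : G) := by rw [h1]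
          _ = _ := by group⟩
      have hι : Function.Injective ι := by
        intro a b h
        have h1 : (n₁ : G)⁻¹ * (a.1 : G) = (n₁ : G)⁻¹ * (b.1 : G) := congrArg Subtype.val h
        exact Subtype.ext (Subtype.ext (mul_left_cancel h1))
      have := Nat.card_le_card_of_injective ι hι
      rwa [Nat.card_zpowers, hx] at this
    · have : IsEmpty {n // ψ n = b} := ⟨fun n => hb ⟨n.1, n.2⟩⟩
      rw [Nat.card_of_isEmpty]
      exact Nat.zero_le _
  have h1 := card_le_mul_of_fib ψ p hfibers
  have h2 := card_normalizer_ge hx hC hxG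
  have hp0 : 0 < p := hpp.out.pos
  have h3 : p * (commutator G).index ≤ p * Nat.card {z : YP x // clsP hx z = c} := by
    rw [mul_comm p (Nat.card _)]
    exact h2.trans h1
  exact Nat.le_of_mul_le_mul_left h3 hp0

include hx hC in
theorem s4495 (t : ℕ) (ht : Nat.card (ClP p G) = t) :
    (t ≠ p - 1 → (commutator G).index * t ≤ p - 1) ∧ (t = p - 1 → (commutator G).index = p) := by
  constructor
  · intro htne
    have hxG : x ∈ commutator G := by
      by_contra hxG
      apply htne
      have h := clsP_inj_of_not_mem hx hxG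
      rw [← ht, ← card_YP hx]
      exact (Nat.card_congr (Equiv.ofBijective _ ⟨h, clsP_surj hx hC⟩)).symm
    have h1 := mul_le_card_of_fib (clsP hx) _ (fib_ge hx hC hxG)
    rw [ht, card_YP hx] at h1
    rwa [mul_comm] at h1
  · intro htp
    have hinj : Function.Injective (clsP hx) := by
      have hle : Nat.card (YP x) ≤ Nat.card (ClP p G) := by
        rw [card_YP hx, ht, htp]
      exact ((clsP_surj hx hC).bijective_of_nat_card_le hle).1
    exact (of_inj hx hC hinj).1

include hx hC in
theorem exists_conj_of_order (hxG : x ∈ commutator G) {y : G} (hy : orderOf y = p)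
    (hyG : y ∈ commutator G) :
    ∃ c ∈ commutator G, ∃ z ∈ zpowers x, z ≠ 1 ∧ y = c * z * c⁻¹ := by
  obtain ⟨g, z, hz, hz1, rfl⟩ := conj_of_order hx hC hy
  obtain ⟨Q, hQ⟩ := exists_sylow hx hC
  have hQle : (Q : Subgroup G) ≤ commutator G := by
    rw [hQ]
    exact zpowers_le.mpr hxG
  have hsup0 := Q.normalizer_sup_eq_top' hQle
  have hsup : commutator G ⊔ normalizer (zpowers x : Set G) = ⊤ := by
    have e : (Q : Set G) = (zpowers x : Set G) := by
      rw [← hQ]
      rfl
    rw [sup_comm, ← e]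
    exact hsup0
  have hg : g ∈ ((commutator G ⊔ normalizer (zpowers x : Set G) : Subgroup G) : Set G) := by
    rw [hsup]
    exact mem_top g
  rw [Subgroup.normal_mul] at hg
  obtain ⟨c, hc, n, hn, rfl⟩ := Set.mem_mul.mp hg
  refine ⟨c, hc, n * z * n⁻¹, (mem_normalizer_iff.mp hn z).mp hz, ?_, by group⟩
  intro h
  apply hz1
  have : n * z * n⁻¹ * n = n := by rw [h, one_mul]
  simpa [mul_assoc] using this

theorem core_inter_trivial (hx : orderOf x = p) {k : G} (hk : k ∈ pPrimeCore p G)
    (hk2 : k ∈ zpowers x) : k = 1 := by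
  by_contra hk1
  have h1 := order_of_mem hx hk2 hk1
  have h2 : orderOf (⟨k, hk⟩ : pPrimeCore p G) ∣ Nat.card (pPrimeCore p G) := orderOf_dvd_natCard _
  rw [Subgroup.orderOf_mk, h1] at h2
  have h3 := H1Core.pPrimeCore_coprime (G := G) p
  have := Nat.Coprime.eq_one_of_dvd h3.symm h2
  exact hpp.out.one_lt.ne' this

include hx hC in
theorem s4497 (t : ℕ) (ht : Nat.card (ClP p G) = t) :
    pPrimeCore p G ≤ commutator G ∧
      (t ≠ p - 1 → ∀ h : ((pPrimeCore p G).subgroupOf (commutator G)).Normal,
        IsSimpleGroup (↥(commutator G) ⧸ (pPrimeCore p G).subgroupOf (commutator G))) ∧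
      (t = p - 1 → commutator G = pPrimeCore p G) := by
  classical
  have h1 : pPrimeCore p G ≤ commutator G :=
    le_commutator_of_disjoint hx hC _ (fun k hk hk2 => core_inter_trivial hx hk hk2)
  refine ⟨h1, ?_, ?_⟩
  · intro htne h
    have hxG : x ∈ commutator G := by
      by_contra hxG
      apply htne
      have h := clsP_inj_of_not_mem hx hxG
      rw [← ht, ← card_YP hx]
      exact (Nat.card_congr (Equiv.ofBijective _ ⟨h, clsP_surj hx hC⟩)).symm
    set H := commutator G with hH
    set K' := (pPrimeCore p G).subgroupOf H with hK'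
    let q : H →* H ⧸ K' := QuotientGroup.mk' K'
    have hqs : Function.Surjective q := QuotientGroup.mk'_surjective K'
    have hqk : ∀ y : H, q y = 1 ↔ (y : G) ∈ pPrimeCore p G := by
      intro y
      show ((y : H) : H ⧸ K') = 1 ↔ _
      rw [QuotientGroup.eq_one_iff, hK', Subgroup.mem_subgroupOf]
    haveI hnt : Nontrivial (H ⧸ K') := by
      refine ⟨⟨q ⟨x, hxG⟩, 1, ?_⟩⟩
      intro h0
      have := core_inter_trivial hx ((hqk _).mp h0) (mem_zpowers x)
      exact x_ne_one hx this
    refine { exists_pair_ne := hnt.exists_pair_ne, eq_bot_or_eq_top_of_normal := ?_ }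
    intro L hL
    let M : Subgroup H := L.comap q
    haveI hMn : M.Normal := hL.comap q
    by_cases hpM : p ∣ Nat.card M
    · right
      obtain ⟨y, hy⟩ := exists_prime_orderOf_dvd_card' (G := M) p hpM
      have hyG : ((y : H) : G) ∈ H := (y : H).2
      have hy' : orderOf ((y : H) : G) = p := by
        rw [Subgroup.orderOf_coe, Subgroup.orderOf_coe]
        exact hy
      obtain ⟨c, hc, z, hz, hz1, hyz⟩ := exists_conj_of_order hx hC hxG hy' hyG
      -- `z ∈ M`
      have hzM : (⟨z, zpowers_le.mpr hxG hz⟩ : H) ∈ M := by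
        have h2 := hMn.conj_mem (y : H) y.2 (⟨c, hc⟩ : H)⁻¹
        convert h2 using 1
        apply Subtype.ext
        simp only [Subgroup.coe_mul, InvMemClass.coe_inv, inv_inv]
        rw [hyz]
        group
      have hxM : (⟨x, hxG⟩ : H) ∈ M := by
        obtain ⟨k, hk⟩ := mem_zpowers_iff.mp (mem_zpowers_of_ne hx hz hz1)
        have h2 := M.zpow_mem hzM k
        convert h2 using 1
        apply Subtype.ext
        simpa using hk.symm
      -- the image of `M`
      let M' : Subgroup G := M.map H.subtype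
      have hM'conj : ∀ c ∈ H, ∀ y ∈ M', c * y * c⁻¹ ∈ M' := by
        rintro c hc y ⟨w, hw, rfl⟩
        exact ⟨_, hMn.conj_mem w hw ⟨c, hc⟩, rfl⟩
      have hxcore : x ∈ M'.normalCore := by
        intro g
        have h3 : g * x * g⁻¹ ∈ H := by
          exact (inferInstance : H.Normal).conj_mem x hxG g
        have h4 : orderOf (g * x * g⁻¹) = p := by
          rw [← MulAut.conj_apply, MulEquiv.orderOf_eq, hx]
        obtain ⟨c, hc, z', hz', hz1', hyz'⟩ := exists_conj_of_order hx hC hxG h4 h3
        rw [hyz']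
        apply hM'conj c hc
        have hxM' : x ∈ M' := ⟨_, hxM, rfl⟩
        exact (zpowers_le.mpr hxM') hz'
      haveI : (M'.normalCore).Normal := Subgroup.normalCore_normal _
      have hpcore : p ∣ Nat.card (M'.normalCore) := by
        have := orderOf_dvd_natCard (⟨x, hxcore⟩ : M'.normalCore)
        rwa [Subgroup.orderOf_mk, hx] at this
      have h5 := (main hx hC (M'.normalCore)).1 hpcore
      have h6 : H ≤ M' := h5.trans (Subgroup.normalCore_le _)
      have hMtop : M = ⊤ := by
        rw [eq_top_iff]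
        rintro w -
        obtain ⟨w', hw', hw''⟩ := h6 w.2
        have : w' = w := Subtype.ext hw''
        rw [← this]
        exact hw'
      rw [eq_top_iff]
      rintro ℓ -
      obtain ⟨w, rfl⟩ := hqs ℓ
      have : w ∈ M := by rw [hMtop]; exact mem_top _
      exact this
    · left
      have hcop : (Nat.card M).Coprime p :=
        ((Nat.Prime.coprime_iff_not_dvd hpp.out).mpr hpM).symm
      have hMO : M ≤ pPrimeCore p H := H1Core.le_pPrimeCore hMn hcop
      let O' : Subgroup G := (pPrimeCore p H).map H.subtype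
      have hO'n : O'.Normal := by
        constructor
        rintro _ ⟨w, hw, rfl⟩ g
        let ϕ : H ≃* H := MulAut.conjNormal g
        have h3 : ϕ w ∈ pPrimeCore p H := by
          have hchar := (Comp2.pPrimeCore_char (G := H) p).fixed ϕ
          have : w ∈ (pPrimeCore p H).comap ϕ.toMonoidHom := by rw [hchar]; exact hw
          exact this
        refine ⟨_, h3, ?_⟩
        exact MulAut.conjNormal_apply g w
      have hO'c : (Nat.card O').Coprime p := by
        have h3 : Nat.card O' = Nat.card (pPrimeCore p H) := by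
          exact Nat.card_congr (Subgroup.equivMapOfInjective _ _ H.subtype_injective).toEquiv.symm
        rw [h3]
        exact H1Core.pPrimeCore_coprime (G := H) p
      have hO'le : O' ≤ pPrimeCore p G := H1Core.le_pPrimeCore hO'n hO'c
      rw [eq_bot_iff]
      intro ℓ hℓ
      obtain ⟨w, rfl⟩ := hqs ℓ
      have hwM : w ∈ M := hℓ
      have : (w : G) ∈ pPrimeCore p G := hO'le ⟨w, hMO hwM, rfl⟩
      rw [Subgroup.mem_bot]
      exact (hqk w).mpr this
  · intro htp
    have hinj : Function.Injective (clsP hx) := by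
      have hle : Nat.card (YP x) ≤ Nat.card (ClP p G) := by
        rw [card_YP hx, ht, htp]
      exact ((clsP_surj hx hC).bijective_of_nat_card_le hle).1
    have h2 := (of_inj hx hC hinj).2
    exact le_antisymm (H1Core.le_pPrimeCore inferInstance h2) h1

end Cfsg.Agent.Lib.SelfC2
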