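import Cfsg.Agent.Lib.SelfC2

/-! Self-centralizing elements of prime order: a normal subgroup of order the number of Sylows. -/

set_option autoImplicit false

namespace Cfsg.Agent.Lib.SelfC2

open Subgroup Cfsg Cfsg.Agent.Lib Cfsg.Agent.Lib.LdSelfC
open scoped commutatorElement

variable {G : Type*} [Group G] [Finite G] {p : ℕ} [hpp : Fact p.Prime] {x : G}
variable (hx : orderOf x = p) (hC : centralizer ({x} : Set G) = zpowers x)

include hx hC in
theorem index_normalizer (n : ℕ) (hn : Nat.card {H : Subgroup G // Nat.card H = p} = 1 + n * p) :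
    (normalizer (zpowers x : Set G)).index = 1 + n * p := by
  classical
  obtain ⟨Q, hQ⟩ := exists_sylow hx hC
  have hcardQ : Nat.card (Q : Subgroup G) = p := by
    rw [hQ, Nat.card_zpowers, hx]
  have hpow : p ^ (Nat.card G).factorization p = p := by
    have := Sylow.card_eq_multiplicity Q
    rw [hcardQ] at this
    exact this.symm
  have h1 := Sylow.card_eq_index_normalizer Q
  have e : (Q : Set G) = (zpowers x : Set G) := by
    rw [← hQ]
    rfl
  rw [e] at h1
  rw [← h1, ← hn]
  refine Nat.card_congr (Equiv.ofBijective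
    (fun R : Sylow p G => (⟨(R : Subgroup G), by rw [Sylow.card_eq_multiplicity, hpow]⟩ :
      {H : Subgroup G // Nat.card H = p})) ⟨?_, ?_⟩)
  · intro a b h
    exact Sylow.ext (congrArg Subtype.val h)
  · rintro ⟨H, hH⟩
    refine ⟨Sylow.ofCard H (by rw [hH, hpow]), Subtype.ext ?_⟩
    exact Sylow.coe_ofCard (p := p) H (by rw [hH, hpow])

theorem disjoint_core_normalizer (hx : orderOf x = p)
    (hC : centralizer ({x} : Set G) = zpowers x) {k : G} (hk : k ∈ pPrimeCore p G)
    (hkN : k ∈ normalizer (zpowers x : Set G)) : k = 1 := by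
  have h1 : k * x * k⁻¹ ∈ zpowers x := (mem_normalizer_iff.mp hkN x).mp (mem_zpowers x)
  have hKn : (pPrimeCore p G).Normal := inferInstance
  have h2 : x * k⁻¹ * x⁻¹ ∈ pPrimeCore p G :=
    hKn.conj_mem _ ((pPrimeCore p G).inv_mem hk) _
  have h3 : (k * x * k⁻¹) * x⁻¹ ∈ pPrimeCore p G := by
    have : (k * x * k⁻¹) * x⁻¹ = k * (x * k⁻¹ * x⁻¹) := by group
    rw [this]
    exact (pPrimeCore p G).mul_mem hk h2
  have h4 : (k * x * k⁻¹) * x⁻¹ ∈ zpowers x := (zpowers x).mul_mem h1 ((zpowers x).inv_mem (mem_zpowers x))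
  have h5 := core_inter_trivial hx h3 h4
  have h6 : k * x = x * k := by
    have : k * x * k⁻¹ = x := mul_inv_eq_one.mp h5
    calc k * x = k * x * k⁻¹ * k := by group
      _ = x * k := by rw [this]
  have h7 := mem_of_comm hx hC h6
  exact core_inter_trivial hx hk h7

include hx hC in
/-- `|K| * m = [G : N]`. -/
theorem core_dvd_index : Nat.card (pPrimeCore p G) ∣ (normalizer (zpowers x : Set G)).index := by
  classical
  set K := pPrimeCore p G with hK
  set N := normalizer (zpowers x : Set G) with hN
  let φ : N →* G ⧸ K := (QuotientGroup.mk' K).comp N.subtype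
  have hφ : Function.Injective φ := by
    rw [injective_iff_map_eq_one]
    intro a ha
    have h1 : (a : G) ∈ K := (QuotientGroup.eq_one_iff _).mp ha
    exact Subtype.ext (disjoint_core_normalizer hx hC h1 a.2)
  have h1 : Nat.card N ∣ Nat.card (G ⧸ K) := Subgroup.card_dvd_of_injective φ hφ
  obtain ⟨m, hm⟩ := h1
  have h2 : Nat.card N * N.index = Nat.card G := Subgroup.card_mul_index N
  have h3 : Nat.card K * K.index = Nat.card G := Subgroup.card_mul_index K
  have h4 : K.index = Nat.card N * m := hm
  have h0 : 0 < Nat.card N := Nat.card_pos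
  refine ⟨m, ?_⟩
  apply Nat.eq_of_mul_eq_mul_left h0
  rw [h2, ← h3, h4]
  ring

include hx hC in
theorem card_core_eq_of_sup (hsup : ∀ g : G, ∃ k ∈ pPrimeCore p G, ∃ n ∈ normalizer (zpowers x : Set G), g = k * n) :
    Nat.card (pPrimeCore p G) = (normalizer (zpowers x : Set G)).index := by
  classical
  set K := pPrimeCore p G with hK
  set N := normalizer (zpowers x : Set G) with hN
  let φ : N →* G ⧸ K := (QuotientGroup.mk' K).comp N.subtype
  have hinj : Function.Injective φ := by
    rw [injective_iff_map_eq_one]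
    intro a ha
    have h1 : (a : G) ∈ K := (QuotientGroup.eq_one_iff _).mp ha
    exact Subtype.ext (disjoint_core_normalizer hx hC h1 a.2)
  have hsurj : Function.Surjective φ := by
    intro q
    obtain ⟨g, rfl⟩ := QuotientGroup.mk_surjective q
    obtain ⟨k, hk, n, hn, rfl⟩ := hsup g
    refine ⟨⟨n, hn⟩, ?_⟩
    show ((n : G) : G ⧸ K) = ((k * n : G) : G ⧸ K)
    rw [QuotientGroup.eq]
    have : n⁻¹ * (k * n) = n⁻¹ * k * n⁻¹⁻¹ := by group
    rw [this]
    exact (inferInstance : K.Normal).conj_mem k hk _
  have h1 : Nat.card N = K.index := Nat.card_congr (Equiv.ofBijective φ ⟨hinj, hsurj⟩)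
  have h2 : Nat.card N * N.index = Nat.card G := Subgroup.card_mul_index N
  have h3 : Nat.card K * K.index = Nat.card G := Subgroup.card_mul_index K
  have h0 : 0 < Nat.card N := Nat.card_pos
  apply Nat.eq_of_mul_eq_mul_left h0
  rw [h2, ← h3, h1, mul_comm]

include hx hC in
theorem t_le (t : ℕ) (ht : Nat.card (ClP p G) = t) : t ≤ p - 1 := by
  rw [← ht, ← card_YP hx]
  exact Nat.card_le_card_of_surjective _ (clsP_surj hx hC)

include hx hC in
theorem mem_comm_of_ne (t : ℕ) (ht : Nat.card (ClP p G) = t) (htne : t ≠ p - 1) :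
    x ∈ commutator G := by
  by_contra hxG
  apply htne
  have h := clsP_inj_of_not_mem hx hxG
  rw [← ht, ← card_YP hx]
  exact (Nat.card_congr (Equiv.ofBijective _ ⟨h, clsP_surj hx hC⟩)).symm

include hx hC in
/-- The case `t = p - 1`. -/
theorem case_top (t : ℕ) (ht : Nat.card (ClP p G) = t) (htp : t = p - 1) (n : ℕ)
    (hn : Nat.card {H : Subgroup G // Nat.card H = p} = 1 + n * p) :
    Nat.card (commutator G) = 1 + n * p ∧ IsCyclic (G ⧸ commutator G) ∧ (commutator G).index = p := by
  have hinj : Function.Injective (clsP hx) := by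
    have hle : Nat.card (YP x) ≤ Nat.card (ClP p G) := by
      rw [card_YP hx, ht, htp]
    exact ((clsP_surj hx hC).bijective_of_nat_card_le hle).1
  have h1 := of_inj hx hC hinj
  have hidx := index_normalizer hx hC n hn
  -- the normalizer is `⟨x⟩`
  have hNle : normalizer (zpowers x : Set G) ≤ zpowers x := by
    intro g hg
    have hgx : g * x * g⁻¹ ∈ zpowers x := (mem_normalizer_iff.mp hg x).mp (mem_zpowers x)
    have hgx1 : g * x * g⁻¹ ≠ 1 := by
      intro h
      apply x_ne_one hx
      have : g * x * g⁻¹ * g = g := by rw [h, one_mul]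
      simpa [mul_assoc] using this
    have h2 : g * x * g⁻¹ = x := by
      have := @hinj ⟨_, hgx, hgx1⟩ ⟨x, mem_zpowers x, x_ne_one hx⟩ (Subtype.ext (by
        show ConjClasses.mk _ = ConjClasses.mk _
        rw [ConjClasses.mk_eq_mk_iff_isConj, isConj_iff]
        exact ⟨g⁻¹, by group⟩))
      exact congrArg Subtype.val this
    apply mem_of_comm hx hC
    calc g * x = g * x * g⁻¹ * g := by group
      _ = x * g := by rw [h2]
  have hNcard : Nat.card (normalizer (zpowers x : Set G)) = p := by
    have : normalizer (zpowers x : Set G) = zpowers x := le_antisymm hNle le_normalizer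
    rw [this, Nat.card_zpowers, hx]
  have h2 : Nat.card (normalizer (zpowers x : Set G)) * (normalizer (zpowers x : Set G)).index = Nat.card G :=
    Subgroup.card_mul_index _
  have h3 : Nat.card (commutator G) * (commutator G).index = Nat.card G := Subgroup.card_mul_index _
  refine ⟨?_, ?_, h1.1⟩
  · rw [hNcard, hidx] at h2
    rw [h1.1] at h3
    have hp0 : 0 < p := hpp.out.pos
    apply Nat.eq_of_mul_eq_mul_right hp0
    rw [h3, ← h2, mul_comm]
  · haveI : Fact (Nat.card (G ⧸ commutator G)).Prime := by
      have : Nat.card (G ⧸ commutator G) = p := h1.1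
      rw [this]
      exact hpp
    exact isCyclic_of_prime_card rfl

include hx hC in
/-- The case `t < p - 1` with `G'' ≠ G'`. -/
theorem case_low (t : ℕ) (ht : Nat.card (ClP p G) = t) (htl : t < p - 1)
    (hne : derivedSeries G 2 ≠ derivedSeries G 1) (n : ℕ)
    (hn : Nat.card {H : Subgroup G // Nat.card H = p} = 1 + n * p) :
    Nat.card (derivedSeries G 2) = 1 + n * p ∧ Nat.card (commutator G) = p * (1 + n * p) := by
  classical
  have htne : t ≠ p - 1 := htl.ne
  have hxG := mem_comm_of_ne hx hC t ht htne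
  have hidx := index_normalizer hx hC n hn
  have hser1 : derivedSeries G 1 = commutator G := derivedSeries_one G
  have hser2 : derivedSeries G 2 = ⁅commutator G, commutator G⁆ := by
    rw [derivedSeries_succ, hser1]
  set K := pPrimeCore p G with hK
  set D := derivedSeries G 2 with hD
  haveI hDn : D.Normal := derivedSeries_normal G 2
  have hDle : D ≤ commutator G := by
    rw [hser2]
    exact commutator_le_right _ _
  -- `D` is a `p'`-group
  have hnp : ¬ p ∣ Nat.card D := by
    intro h
    have h1 := (main hx hC D).1 h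
    apply hne
    rw [hser1]
    exact le_antisymm hDle h1
  have hDK : D ≤ K := H1Core.le_pPrimeCore hDn
    ((Nat.Prime.coprime_iff_not_dvd hpp.out).mpr hnp).symm
  -- `K ≤ D`
  have hKD : K ≤ D := by
    intro k hk
    let f : K → K := fun j =>
      ⟨(j : G)⁻¹ * (x * j * x⁻¹), K.mul_mem (K.inv_mem j.2) ((inferInstance : K.Normal).conj_mem _ j.2 _)⟩
    have hf : Function.Injective f := by
      intro a b h
      have h1 : (a : G)⁻¹ * (x * a * x⁻¹) = (b : G)⁻¹ * (x * b * x⁻¹) := congrArg Subtype.val h
      have h2 : (b : G) * (a : G)⁻¹ * x = x * ((b : G) * (a : G)⁻¹) := by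
        have h3 : (a : G)⁻¹ * x * a = (b : G)⁻¹ * x * b := by
          have := congrArg (· * x) h1
          simpa [mul_assoc] using this
        calc (b : G) * (a : G)⁻¹ * x = b * ((a : G)⁻¹ * x * a) * (a : G)⁻¹ := by group
          _ = b * ((b : G)⁻¹ * x * b) * (a : G)⁻¹ := by rw [h3]
          _ = _ := by group
      have h4 := mem_of_comm hx hC h2
      have h5 := core_inter_trivial hx (K.mul_mem b.2 (K.inv_mem a.2)) h4
      apply Subtype.ext
      exact (mul_inv_eq_one.mp h5).symm
    obtain ⟨j, hj⟩ := (Finite.injective_iff_surjective.mp hf) ⟨k, hk⟩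
    have h0 : (j : G)⁻¹ * (x * j * x⁻¹) = k := congrArg Subtype.val hj
    have h1 : k = ⁅(j : G)⁻¹, x⁆ := by
      rw [← h0, commutatorElement_def]
      group
    have hjG : (j : G) ∈ commutator G :=
      le_commutator_of_disjoint hx hC K (fun k hk hk2 => core_inter_trivial hx hk hk2) j.2
    have h8 : ⁅(j : G)⁻¹, x⁆ ∈ ⁅commutator G, commutator G⁆ :=
      commutator_mem_commutator ((commutator G).inv_mem hjG) hxG
    rw [← hser2] at h8
    rw [h1]
    exact h8
  have hDeqK : D = K := le_antisymm hDK hKD
  -- `G' = K ⟨x⟩`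
  have hsimple := (s4497 hx hC t ht).2.1 htne
  have hKsub : K ≤ commutator G := hDeqK ▸ hDle
  haveI hKn' : (K.subgroupOf (commutator G)).Normal := Subgroup.normal_subgroupOf
  haveI := hsimple hKn'
  set H := commutator G with hH
  let q : H →* H ⧸ K.subgroupOf H := QuotientGroup.mk' _
  have hqs : Function.Surjective q := QuotientGroup.mk'_surjective _
  have hqk : ∀ y : H, q y = 1 ↔ (y : G) ∈ K := by
    intro y
    show ((y : H) : H ⧸ K.subgroupOf H) = 1 ↔ _
    rw [QuotientGroup.eq_one_iff, Subgroup.mem_subgroupOf]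
  -- the quotient is abelian
  have hqc : ∀ a b : H ⧸ K.subgroupOf H, a * b = b * a := by
    intro a b
    obtain ⟨a', rfl⟩ := hqs a
    obtain ⟨b', rfl⟩ := hqs b
    have h1 : q ⁅a', b'⁆ = 1 := by
      rw [hqk]
      apply hDK
      have h8 : ((⁅a', b'⁆ : H) : G) ∈ ⁅commutator G, commutator G⁆ :=
        commutator_mem_commutator a'.2 b'.2
      rw [← hser2] at h8
      exact h8
    rw [map_commutatorElement, commutatorElement_eq_one_iff_commute] at h1
    exact h1
  let xh : H := ⟨x, hxG⟩
  let Z : Subgroup (H ⧸ K.subgroupOf H) := zpowers (q xh)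
  haveI hZn : Z.Normal := by
    constructor
    intro a ha b
    rw [hqc b a]
    simpa using ha
  have hq1 : q xh ≠ 1 := by
    intro h
    exact x_ne_one hx (core_inter_trivial hx ((hqk _).mp h) (mem_zpowers x))
  have hZtop : Z = ⊤ := by
    rcases (IsSimpleGroup.eq_bot_or_eq_top_of_normal Z hZn) with h | h
    · exfalso
      apply hq1
      have : q xh ∈ Z := mem_zpowers _
      rw [h] at this
      simpa using this
    · exact h
  -- decompose elements of `H`
  have hdec : ∀ c : H, ∃ k ∈ K, ∃ i : ℤ, (c : G) = k * x ^ i := by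
    intro c
    have h1 : q c ∈ Z := by rw [hZtop]; exact mem_top _
    obtain ⟨i, hi⟩ := mem_zpowers_iff.mp h1
    have h2 : q (c * xh ^ (-i)) = 1 := by
      rw [map_mul, map_zpow, ← hi]
      group
    refine ⟨_, (hqk _).mp h2, i, ?_⟩
    simp [xh]
  -- `G = K N`
  have hsup : ∀ g : G, ∃ k ∈ K, ∃ n ∈ normalizer (zpowers x : Set G), g = k * n := by
    intro g
    obtain ⟨Q, hQ⟩ := exists_sylow hx hC
    have hQle : (Q : Subgroup G) ≤ commutator G := by
      rw [hQ]
      exact zpowers_le.mpr hxG
    have hsup0 := Q.normalizer_sup_eq_top' hQle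
    have hsup1 : commutator G ⊔ normalizer (zpowers x : Set G) = ⊤ := by
      have e : (Q : Set G) = (zpowers x : Set G) := by
        rw [← hQ]
        rfl
      rw [sup_comm, ← e]
      exact hsup0
    have hg : g ∈ ((commutator G ⊔ normalizer (zpowers x : Set G) : Subgroup G) : Set G) := by
      rw [hsup1]
      exact mem_top g
    rw [Subgroup.normal_mul] at hg
    obtain ⟨c, hc, m, hm, rfl⟩ := Set.mem_mul.mp hg
    obtain ⟨k, hk, i, hi⟩ := hdec ⟨c, hc⟩
    refine ⟨k, hk, x ^ i * m, ?_, ?_⟩
    · exact mul_mem (le_normalizer ((zpowers x).zpow_mem (mem_zpowers x) i)) hm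
    · have : c = k * x ^ i := hi
      rw [this]
      group
  have hKcard := card_core_eq_of_sup hx hC hsup
  rw [hidx] at hKcard
  constructor
  · rw [hDeqK]
    exact hKcard
  · -- `|G'| = p |K|`
    rw [← hKcard]
    let μ : K × zpowers x → H := fun y => ⟨(y.1 : G) * (y.2 : G), (commutator G).mul_mem (hKsub y.1.2)
      ((zpowers_le.mpr hxG) y.2.2)⟩
    have hμinj : Function.Injective μ := by
      rintro ⟨a, b⟩ ⟨a', b'⟩ h
      have h1 : (a : G) * b = a' * b' := congrArg Subtype.val h
      have h2 : (a' : G)⁻¹ * a = b' * (b : G)⁻¹ := by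
        calc (a' : G)⁻¹ * a = (a' : G)⁻¹ * ((a : G) * b) * (b : G)⁻¹ := by group
          _ = (a' : G)⁻¹ * ((a' : G) * b') * (b : G)⁻¹ := by rw [h1]
          _ = _ := by group
      have h3 : (a' : G)⁻¹ * a = 1 :=
        core_inter_trivial hx (K.mul_mem (K.inv_mem a'.2) a.2)
          (h2 ▸ (zpowers x).mul_mem b'.2 ((zpowers x).inv_mem b.2))
      have h4 : (a : G) = a' := by
        have := mul_eq_one_iff_eq_inv.mp h3
        simpa using this.symm
      have h5 : (b : G) = b' := by
        rw [h4] at h1
        exact mul_left_cancel h1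
      exact Prod.ext (Subtype.ext h4) (Subtype.ext h5)
    have hμsurj : Function.Surjective μ := by
      intro c
      obtain ⟨k, hk, i, hi⟩ := hdec c
      refine ⟨(⟨k, hk⟩, ⟨x ^ i, (zpowers x).zpow_mem (mem_zpowers x) i⟩), Subtype.ext ?_⟩
      exact hi.symm
    rw [← Nat.card_congr (Equiv.ofBijective μ ⟨hμinj, hμsurj⟩), Nat.card_prod, Nat.card_zpowers, hx,
      mul_comm]

include hx hC in
theorem s4509 (t : ℕ) (ht : Nat.card (ClP p G) = t) (n : ℕ)
    (hn : Nat.card {H : Subgroup G // Nat.card H = p} = 1 + n * p) :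
    ((∃ S : Subgroup G, S.Normal ∧ Nat.card S = 1 + n * p) ↔
        (t = p - 1 ∨ (t < p - 1 ∧ derivedSeries G 2 ≠ derivedSeries G 1))) ∧
      (t = p - 1 → Nat.card (commutator G) = 1 + n * p ∧ IsCyclic (G ⧸ commutator G) ∧
        (commutator G).index = p) ∧
      (t < p - 1 → derivedSeries G 2 ≠ derivedSeries G 1 →
        Nat.card (derivedSeries G 2) = 1 + n * p ∧ Nat.card (commutator G) = p * (1 + n * p)) := by
  classical
  refine ⟨⟨?_, ?_⟩, fun h => case_top hx hC t ht h n hn, fun h h2 => case_low hx hC t ht h h2 n hn⟩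
  · rintro ⟨S, hSn, hScard⟩
    by_cases htp : t = p - 1
    · exact Or.inl htp
    right
    have htl : t < p - 1 := lt_of_le_of_ne (t_le hx hC t ht) htp
    refine ⟨htl, ?_⟩
    have hxG := mem_comm_of_ne hx hC t ht htp
    -- `S = K` and `G = K N`
    have hScop : (Nat.card S).Coprime p := by
      rw [hScard, Nat.coprime_iff_gcd_eq_one]
      simp
    have hSK : S ≤ pPrimeCore p G := H1Core.le_pPrimeCore hSn hScop
    have hidx := index_normalizer hx hC n hn
    have hdvd := core_dvd_index hx hC
    rw [hidx] at hdvd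
    have hcardK : Nat.card (pPrimeCore p G) = 1 + n * p := by
      apply le_antisymm (Nat.le_of_dvd (by positivity) hdvd)
      rw [← hScard]
      exact Subgroup.card_le_of_le hSK
    -- `G = K N`
    have hsplit : ∀ g : G, ∃ k ∈ pPrimeCore p G, ∃ m ∈ normalizer (zpowers x : Set G), g = k * m := by
      set K := pPrimeCore p G with hK
      set N := normalizer (zpowers x : Set G) with hN
      let φ : N →* G ⧸ K := (QuotientGroup.mk' K).comp N.subtype
      have hinj : Function.Injective φ := by
        rw [injective_iff_map_eq_one]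
        intro a ha
        have h1 : (a : G) ∈ K := (QuotientGroup.eq_one_iff _).mp ha
        exact Subtype.ext (disjoint_core_normalizer hx hC h1 a.2)
      have h2 : Nat.card N * N.index = Nat.card G := Subgroup.card_mul_index N
      have h3 : Nat.card K * K.index = Nat.card G := Subgroup.card_mul_index K
      have hNK : Nat.card N = K.index := by
        have hi0 : 0 < 1 + n * p := by positivity
        rw [hcardK] at h3
        rw [hidx] at h2
        apply Nat.eq_of_mul_eq_mul_right hi0
        rw [h2, ← h3, mul_comm]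
      have hsurj : Function.Surjective φ := by
        have : Nat.card N = Nat.card (G ⧸ K) := hNK
        exact (hinj.bijective_of_nat_card_le this.ge).2
      intro g
      obtain ⟨m, hm⟩ := hsurj (g : G ⧸ K)
      refine ⟨g * (m : G)⁻¹, ?_, m, m.2, by group⟩
      have h5 : ((m : G) : G ⧸ K) = (g : G ⧸ K) := hm
      rw [QuotientGroup.eq] at h5
      have h6 := (inferInstance : K.Normal).conj_mem _ h5 (m : G)
      have h7 : (m : G) * ((m : G)⁻¹ * g) * (m : G)⁻¹ = g * (m : G)⁻¹ := by group
      rwa [h7] at h6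
    -- `G'' ≤ K`
    intro heq
    have hser1 : derivedSeries G 1 = commutator G := derivedSeries_one G
    have hser2 : derivedSeries G 2 = ⁅commutator G, commutator G⁆ := by
      rw [derivedSeries_succ, hser1]
    set K := pPrimeCore p G with hK
    set Gb := G ⧸ K
    let π : G →* Gb := QuotientGroup.mk' K
    have hπ : Function.Surjective π := QuotientGroup.mk'_surjective K
    have hπP : ∀ g h : G, ⁅π g, π h⁆ ∈ (zpowers x).map π := by
      intro g h
      obtain ⟨k, hk, m, hm, rfl⟩ := hsplit g
      obtain ⟨k', hk', m', hm', rfl⟩ := hsplit h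
      have h1 : π k = 1 := (QuotientGroup.eq_one_iff _).mpr hk
      have h2 : π k' = 1 := (QuotientGroup.eq_one_iff _).mpr hk'
      simp only [map_mul, h1, h2, one_mul]
      refine ⟨⁅m, m'⁆, ?_, map_commutatorElement _ _ _⟩
      exact comm_mem_of_norm hx hC ((mem_normalizer_iff.mp hm x).mp (mem_zpowers x))
        ((mem_normalizer_iff.mp hm' x).mp (mem_zpowers x)) hm hm'
    have h1 : commutator Gb ≤ (zpowers x).map π := by
      rw [_root_.commutator_def, commutator_le]
      intro a _ b _
      obtain ⟨g, rfl⟩ := hπ a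
      obtain ⟨h, rfl⟩ := hπ b
      exact hπP g h
    have h2 : ⁅commutator Gb, commutator Gb⁆ = ⊥ := by
      rw [eq_bot_iff, commutator_le]
      intro a ha b hb
      obtain ⟨u, hu, rfl⟩ := h1 ha
      obtain ⟨v, hv, rfl⟩ := h1 hb
      obtain ⟨i, rfl⟩ := mem_zpowers_iff.mp hu
      obtain ⟨j, rfl⟩ := mem_zpowers_iff.mp hv
      rw [Subgroup.mem_bot, commutatorElement_eq_one_iff_commute]
      exact ((Commute.refl x).zpow_zpow i j).map π
    have h3 : (derivedSeries G 2).map π = derivedSeries Gb 2 := map_derivedSeries_eq hπ 2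
    have h4 : derivedSeries Gb 2 = ⊥ := by
      rw [derivedSeries_succ, derivedSeries_one, h2]
    have h5 : x ∈ derivedSeries G 2 := by
      rw [heq, hser1]
      exact hxG
    have h6 : π x = 1 := by
      have : π x ∈ (derivedSeries G 2).map π := ⟨x, h5, rfl⟩
      rw [h3, h4] at this
      simpa using this
    have h7 : x ∈ K := (QuotientGroup.eq_one_iff _).mp h6
    exact x_ne_one hx (core_inter_trivial hx h7 (mem_zpowers x))
  · rintro (htp | ⟨htl, hne⟩)
    · exact ⟨commutator G, inferInstance, (case_top hx hC t ht htp n hn).1⟩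
    · exact ⟨derivedSeries G 2, derivedSeries_normal G 2, (case_low hx hC t ht htl hne n hn).1⟩

end Cfsg.Agent.Lib.SelfC2
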