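import Mathlib

/-! Decomposing a self-dual representation (coprime characteristic) into a symplectic part and an
orthogonal part. -/

set_option autoImplicit false

namespace Cfsg.Agent.Lib.SelfDual

open Module

variable {F : Type*} [Field F] {G : Type*} [Group G] {V : Type*} [AddCommGroup V] [Module F V]

/-- invariant subspace -/
def IsInv (ρ : Representation F G V) (X : Submodule F V) : Prop := ∀ g : G, ∀ x ∈ X, ρ g x ∈ X

/-- right nondegenerate on a subspace -/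
def RN (B : LinearMap.BilinForm F V) (X : Submodule F V) : Prop :=
  ∀ v ∈ X, (∀ w ∈ X, B w v = 0) → v = 0

/-- simple invariant subspace -/
def Simp (ρ : Representation F G V) (X : Submodule F V) : Prop :=
  X ≠ ⊥ ∧ IsInv ρ X ∧ ∀ K : Submodule F V, K ≤ X → IsInv ρ K → K = ⊥ ∨ K = X

/-- invariant and nondegenerate on a subspace -/
def Nice (ρ : Representation F G V) (A : LinearMap.BilinForm F V) (U : Submodule F V) : Prop :=
  (∀ g : G, ∀ x ∈ U, ∀ y ∈ U, A (ρ g x) (ρ g y) = A x y) ∧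
    (∀ x ∈ U, (∀ y ∈ U, A x y = 0) → x = 0)

/-- symplectic type subspace -/
def AltOK (ρ : Representation F G V) (U : Submodule F V) : Prop :=
  ∃ A : LinearMap.BilinForm F V, (∀ x ∈ U, A x x = 0) ∧ Nice ρ A U

/-- orthogonal type subspace -/
def SymOK (p : ℕ) (ρ : Representation F G V) (W : Submodule F V) : Prop :=
  ∃ S : LinearMap.BilinForm F V, (∀ x ∈ W, ∀ y ∈ W, S x y = S y x) ∧ Nice ρ S W ∧
    (p = 2 → ∀ g : G, ∀ w ∈ W, ρ g w = w)

lemma rho_inv_apply (ρ : Representation F G V) (g : G) (x : V) : ρ g⁻¹ (ρ g x) = x := by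
  rw [← Module.End.mul_apply, ← map_mul]; simp

lemma rho_apply_inv (ρ : Representation F G V) (g : G) (x : V) : ρ g (ρ g⁻¹ x) = x := by
  rw [← Module.End.mul_apply, ← map_mul]; simp

/-- flip of a form -/
def flp (D : LinearMap.BilinForm F V) : LinearMap.BilinForm F V := LinearMap.flip D

@[simp] lemma flp_apply (D : LinearMap.BilinForm F V) (x y : V) : flp D x y = D y x := rfl

/-- right orthogonal of a subspace -/
def rperp (D : LinearMap.BilinForm F V) (X : Submodule F V) : Submodule F V where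
  carrier := {v | ∀ x ∈ X, D x v = 0}
  add_mem' := by
    intro a b ha hb x hx
    rw [map_add, ha x hx, hb x hx, add_zero]
  zero_mem' := by intro x _; simp
  smul_mem' := by
    intro c a ha x hx
    rw [map_smul, ha x hx, smul_zero]

lemma mem_rperp {D : LinearMap.BilinForm F V} {X : Submodule F V} {v : V} :
    v ∈ rperp D X ↔ ∀ x ∈ X, D x v = 0 := Iff.rfl

lemma rperp_inv {ρ : Representation F G V} {D : LinearMap.BilinForm F V} {X : Submodule F V}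
    (hD : ∀ (g : G) (x y : V), D (ρ g x) (ρ g y) = D x y) (hX : IsInv ρ X) :
    IsInv ρ (rperp D X) := by
  intro g v hv x hx
  have := hD g (ρ g⁻¹ x) v
  rw [rho_apply_inv] at this
  rw [this]
  exact hv _ (hX _ _ hx)

lemma inf_inv {ρ : Representation F G V} {X Y : Submodule F V} (hX : IsInv ρ X) (hY : IsInv ρ Y) :
    IsInv ρ (X ⊓ Y) := fun g x hx => ⟨hX g x hx.1, hY g x hx.2⟩

lemma sup_inv {ρ : Representation F G V} {X Y : Submodule F V} (hX : IsInv ρ X) (hY : IsInv ρ Y) :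
    IsInv ρ (X ⊔ Y) := by
  intro g v hv
  obtain ⟨x, hx, y, hy, rfl⟩ := Submodule.mem_sup.1 hv
  rw [map_add]
  exact Submodule.add_mem_sup (hX g x hx) (hY g y hy)

lemma flp_inv {ρ : Representation F G V} {D : LinearMap.BilinForm F V}
    (hD : ∀ (g : G) (x y : V), D (ρ g x) (ρ g y) = D x y) :
    ∀ (g : G) (x y : V), flp D (ρ g x) (ρ g y) = flp D x y := fun g x y => hD g y x

lemma simple_kernel {ρ : Representation F G V} {D : LinearMap.BilinForm F V}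
    (hD : ∀ (g : G) (x y : V), D (ρ g x) (ρ g y) = D x y)
    {X Y : Submodule F V} (hX : Simp ρ X) (hY : IsInv ρ Y) (hne : ∃ x ∈ X, ∃ y ∈ Y, D x y ≠ 0) :
    ∀ x ∈ X, (∀ y ∈ Y, D x y = 0) → x = 0 := by
  have hKinv : IsInv ρ (X ⊓ rperp (flp D) Y) := inf_inv hX.2.1 (rperp_inv (flp_inv hD) hY)
  rcases hX.2.2 _ inf_le_left hKinv with h | h
  · intro x hx hx'
    have : x ∈ X ⊓ rperp (flp D) Y := ⟨hx, fun y hy => hx' y hy⟩
    rw [h] at this
    simpa using this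
  · obtain ⟨x, hx, y, hy, hne⟩ := hne
    exfalso
    have : x ∈ X ⊓ rperp (flp D) Y := by rw [h]; exact hx
    exact hne (this.2 y hy)

lemma exists_projs (X Z : Submodule F V) (h : X ⊓ Z = ⊥) :
    ∃ π₁ π₂ : V →ₗ[F] V, (∀ x ∈ X, π₁ x = x ∧ π₂ x = 0) ∧ (∀ z ∈ Z, π₁ z = 0 ∧ π₂ z = z) := by
  let f : (X × Z) →ₗ[F] V := X.subtype.coprod Z.subtype
  have hf : LinearMap.ker f = ⊥ := by
    rw [LinearMap.ker_eq_bot']
    rintro ⟨a, b⟩ hab
    simp only [f, LinearMap.coprod_apply, Submodule.subtype_apply] at hab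
    have ha : (a : V) ∈ X ⊓ Z := ⟨a.2, by
      have : (a : V) = -(b : V) := eq_neg_of_add_eq_zero_left hab
      rw [this]; exact Z.neg_mem b.2⟩
    rw [h, Submodule.mem_bot] at ha
    have hb : (b : V) = 0 := by rw [ha, zero_add] at hab; exact hab
    ext <;> simp [ha, hb]
  obtain ⟨g, hg⟩ := LinearMap.exists_leftInverse_of_injective f hf
  refine ⟨X.subtype ∘ₗ LinearMap.fst F X Z ∘ₗ g, Z.subtype ∘ₗ LinearMap.snd F X Z ∘ₗ g, ?_, ?_⟩
  · intro x hx
    have : g x = (⟨x, hx⟩, 0) := by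
      have := LinearMap.congr_fun hg (⟨x, hx⟩, 0)
      simpa [f] using this
    simp [this]
  · intro z hz
    have : g z = (0, ⟨z, hz⟩) := by
      have := LinearMap.congr_fun hg (0, ⟨z, hz⟩)
      simpa [f] using this
    simp [this]

lemma merge {ρ : Representation F G V} {A₁ A₂ : LinearMap.BilinForm F V} {U₁ U₂ : Submodule F V}
    (h : U₁ ⊓ U₂ = ⊥) (hU₁ : IsInv ρ U₁) (hU₂ : IsInv ρ U₂)
    (h₁ : Nice ρ A₁ U₁) (h₂ : Nice ρ A₂ U₂) :
    ∃ A : LinearMap.BilinForm F V,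
      (∀ a ∈ U₁, ∀ b ∈ U₂, ∀ a' ∈ U₁, ∀ b' ∈ U₂, A (a + b) (a' + b') = A₁ a a' + A₂ b b') ∧
        Nice ρ A (U₁ ⊔ U₂) := by
  obtain ⟨π₁, π₂, hp, hq⟩ := exists_projs U₁ U₂ h
  let A : LinearMap.BilinForm F V := A₁.compl₁₂ π₁ π₁ + A₂.compl₁₂ π₂ π₂
  have hA : ∀ a ∈ U₁, ∀ b ∈ U₂, ∀ a' ∈ U₁, ∀ b' ∈ U₂,
      A (a + b) (a' + b') = A₁ a a' + A₂ b b' := by
    intro a ha b hb a' ha' b' hb'
    simp [A, LinearMap.compl₁₂_apply, (hp a ha).1, (hp a ha).2, (hq b hb).1, (hq b hb).2,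
      (hp a' ha').1, (hp a' ha').2, (hq b' hb').1, (hq b' hb').2]
  refine ⟨A, hA, ?_, ?_⟩
  · intro g v hv w hw
    obtain ⟨a, ha, b, hb, rfl⟩ := Submodule.mem_sup.1 hv
    obtain ⟨a', ha', b', hb', rfl⟩ := Submodule.mem_sup.1 hw
    rw [map_add (ρ g) a b, map_add (ρ g) a' b', hA _ (hU₁ g a ha) _ (hU₂ g b hb) _ (hU₁ g a' ha') _ (hU₂ g b' hb'),
      hA _ ha _ hb _ ha' _ hb', h₁.1 g a ha a' ha', h₂.1 g b hb b' hb']
  · intro v hv hvw
    obtain ⟨a, ha, b, hb, rfl⟩ := Submodule.mem_sup.1 hv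
    have ha0 : a = 0 := h₁.2 a ha (fun a' ha' => by
      have := hvw a' (Submodule.mem_sup_left ha')
      have e := hA a ha b hb a' ha' 0 U₂.zero_mem
      rw [add_zero] at e
      rw [e] at this; simpa using this)
    have hb0 : b = 0 := h₂.2 b hb (fun b' hb' => by
      have := hvw b' (Submodule.mem_sup_right hb')
      have e := hA a ha b hb 0 U₁.zero_mem b' hb'
      rw [zero_add] at e
      rw [e] at this; simpa using this)
    rw [ha0, hb0, add_zero]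

lemma merge_alt {ρ : Representation F G V} {U₁ U₂ : Submodule F V}
    (h : U₁ ⊓ U₂ = ⊥) (hU₁ : IsInv ρ U₁) (hU₂ : IsInv ρ U₂)
    (h₁ : AltOK ρ U₁) (h₂ : AltOK ρ U₂) : AltOK ρ (U₁ ⊔ U₂) := by
  obtain ⟨A₁, ha₁, hn₁⟩ := h₁
  obtain ⟨A₂, ha₂, hn₂⟩ := h₂
  obtain ⟨A, hA, hn⟩ := merge h hU₁ hU₂ hn₁ hn₂
  refine ⟨A, ?_, hn⟩
  intro x hx
  obtain ⟨a, ha, b, hb, rfl⟩ := Submodule.mem_sup.1 hx
  rw [hA a ha b hb a ha b hb, ha₁ a ha, ha₂ b hb, add_zero]

lemma merge_sym {p : ℕ} {ρ : Representation F G V} {U₁ U₂ : Submodule F V}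
    (h : U₁ ⊓ U₂ = ⊥) (hU₁ : IsInv ρ U₁) (hU₂ : IsInv ρ U₂)
    (h₁ : SymOK p ρ U₁) (h₂ : SymOK p ρ U₂) : SymOK p ρ (U₁ ⊔ U₂) := by
  obtain ⟨A₁, ha₁, hn₁, ht₁⟩ := h₁
  obtain ⟨A₂, ha₂, hn₂, ht₂⟩ := h₂
  obtain ⟨A, hA, hn⟩ := merge h hU₁ hU₂ hn₁ hn₂
  refine ⟨A, ?_, hn, ?_⟩
  · intro x hx y hy
    obtain ⟨a, ha, b, hb, rfl⟩ := Submodule.mem_sup.1 hx
    obtain ⟨a', ha', b', hb', rfl⟩ := Submodule.mem_sup.1 hy
    rw [hA a ha b hb a' ha' b' hb', hA a' ha' b' hb' a ha b hb, ha₁ a ha a' ha', ha₂ b hb b' hb']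
  · intro hp g w hw
    obtain ⟨a, ha, b, hb, rfl⟩ := Submodule.mem_sup.1 hw
    rw [map_add, ht₁ hp g a ha, ht₂ hp g b hb]

lemma hyper {ρ : Representation F G V} {B : LinearMap.BilinForm F V}
    (hB : ∀ (g : G) (x y : V), B (ρ g x) (ρ g y) = B x y) {X Z : Submodule F V}
    (h : X ⊓ Z = ⊥) (hX : IsInv ρ X) (hZ : IsInv ρ Z)
    (hPx : ∀ x ∈ X, (∀ z ∈ Z, B x z = 0) → x = 0)
    (hQz : ∀ z ∈ Z, (∀ x ∈ X, B x z = 0) → z = 0) : AltOK ρ (X ⊔ Z) := by
  obtain ⟨π₁, π₂, hp, hq⟩ := exists_projs X Z h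
  let C : LinearMap.BilinForm F V := B.compl₁₂ π₁ π₂
  let A : LinearMap.BilinForm F V := C - flp C
  have hA : ∀ a ∈ X, ∀ b ∈ Z, ∀ a' ∈ X, ∀ b' ∈ Z,
      A (a + b) (a' + b') = B a b' - B a' b := by
    intro a ha b hb a' ha' b' hb'
    simp [A, C, LinearMap.compl₁₂_apply, (hp a ha).1, (hp a ha).2, (hq b hb).1, (hq b hb).2,
      (hp a' ha').1, (hp a' ha').2, (hq b' hb').1, (hq b' hb').2]
  refine ⟨A, ?_, ?_, ?_⟩
  · intro x _
    simp [A]
  · intro g v hv w hw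
    obtain ⟨a, ha, b, hb, rfl⟩ := Submodule.mem_sup.1 hv
    obtain ⟨a', ha', b', hb', rfl⟩ := Submodule.mem_sup.1 hw
    rw [map_add (ρ g) a b, map_add (ρ g) a' b', hA _ (hX g a ha) _ (hZ g b hb) _ (hX g a' ha') _ (hZ g b' hb'),
      hA _ ha _ hb _ ha' _ hb', hB, hB]
  · intro v hv hvw
    obtain ⟨a, ha, b, hb, rfl⟩ := Submodule.mem_sup.1 hv
    have ha0 : a = 0 := hPx a ha (fun b' hb' => by
      have := hvw b' (Submodule.mem_sup_right hb')
      have e := hA a ha b hb 0 X.zero_mem b' hb'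
      rw [zero_add] at e
      rw [e] at this; simpa using this)
    have hb0 : b = 0 := hQz b hb (fun a' ha' => by
      have := hvw a' (Submodule.mem_sup_left ha')
      have e := hA a ha b hb a' ha' 0 Z.zero_mem
      rw [add_zero] at e
      rw [e] at this; simpa using this)
    rw [ha0, hb0, add_zero]

lemma rn_hyper {B : LinearMap.BilinForm F V} {X Z : Submodule F V}
    (hXX : ∀ x ∈ X, ∀ y ∈ X, B x y = 0)
    (hQz : ∀ z ∈ Z, (∀ x ∈ X, B x z = 0) → z = 0)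
    (hQx : ∀ x ∈ X, (∀ z ∈ Z, B z x = 0) → x = 0) : RN B (X ⊔ Z) := by
  intro v hv hw
  obtain ⟨a, ha, b, hb, rfl⟩ := Submodule.mem_sup.1 hv
  have hb0 : b = 0 := hQz b hb (fun x hx => by
    have := hw x (Submodule.mem_sup_left hx)
    rw [map_add, hXX x hx a ha, zero_add] at this; exact this)
  subst hb0
  have ha0 : a = 0 := hQx a ha (fun z hz => by
    have := hw z (Submodule.mem_sup_right hz)
    simpa using this)
  simp [ha0]

section FD

variable [FiniteDimensional F V]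

lemma dim_le (D : LinearMap.BilinForm F V) (X Y : Submodule F V)
    (hinj : ∀ y ∈ Y, (∀ x ∈ X, D x y = 0) → y = 0) : finrank F Y ≤ finrank F X := by
  let Φ : Y →ₗ[F] Module.Dual F X := (flp D).domRestrict₁₂ Y X
  have hinjΦ : Function.Injective Φ := by
    rw [← LinearMap.ker_eq_bot, LinearMap.ker_eq_bot']
    intro y hy
    apply Subtype.ext
    exact hinj y y.2 (fun x hx => LinearMap.congr_fun hy ⟨x, hx⟩)
  have hle := LinearMap.finrank_le_finrank_of_injective hinjΦ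
  rwa [Subspace.dual_finrank_eq] at hle

lemma pair_rep (D : LinearMap.BilinForm F V) (X Y : Submodule F V)
    (hinj : ∀ y ∈ Y, (∀ x ∈ X, D x y = 0) → y = 0) (hdim : finrank F X ≤ finrank F Y)
    (f : Module.Dual F X) : ∃ y ∈ Y, ∀ x : X, D x y = f x := by
  let Φ : Y →ₗ[F] Module.Dual F X := (flp D).domRestrict₁₂ Y X
  have hinjΦ : Function.Injective Φ := by
    rw [← LinearMap.ker_eq_bot, LinearMap.ker_eq_bot']
    intro y hy
    apply Subtype.ext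
    exact hinj y y.2 (fun x hx => LinearMap.congr_fun hy ⟨x, hx⟩)
  have hle := dim_le D X Y hinj
  have heq : finrank F Y = finrank F (Module.Dual F X) := by
    rw [Subspace.dual_finrank_eq]; omega
  have hsurj := (LinearMap.injective_iff_surjective_of_finrank_eq_finrank heq).1 hinjΦ
  obtain ⟨y, hy⟩ := hsurj f
  exact ⟨y, y.2, fun x => by rw [← hy]; rfl⟩

lemma pair_sep (D : LinearMap.BilinForm F V) (X Y : Submodule F V)
    (hinj : ∀ y ∈ Y, (∀ x ∈ X, D x y = 0) → y = 0) (hdim : finrank F X ≤ finrank F Y) :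
    ∀ x ∈ X, (∀ y ∈ Y, D x y = 0) → x = 0 := by
  intro x hx h
  by_contra hne
  have hx' : (⟨x, hx⟩ : X) ≠ 0 := fun h0 => hne (congrArg Subtype.val h0)
  obtain ⟨f, hf⟩ : ∃ f : Module.Dual F X, f ⟨x, hx⟩ ≠ 0 := by
    by_contra hcon
    push_neg at hcon
    exact hx' ((Module.forall_dual_apply_eq_zero_iff F _).1 hcon)
  obtain ⟨y, hy, hfy⟩ := pair_rep D X Y hinj hdim f
  exact hf (by rw [← hfy ⟨x, hx⟩]; exact h y hy)

lemma split {ρ : Representation F G V} {B : LinearMap.BilinForm F V}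
    (hB : ∀ (g : G) (x y : V), B (ρ g x) (ρ g y) = B x y) {V₀ H : Submodule F V}
    (hle : H ≤ V₀) (hV₀ : IsInv ρ V₀) (hH : IsInv ρ H) (hRN : RN B V₀) (hRH : RN B H) :
    ∃ Y, Y ≤ V₀ ∧ IsInv ρ Y ∧ H ⊓ Y = ⊥ ∧ H ⊔ Y = V₀ ∧ RN B Y := by
  have hsup : H ⊔ (V₀ ⊓ rperp B H) = V₀ := by
    apply le_antisymm (sup_le hle inf_le_left)
    intro v hv
    obtain ⟨h, hh, hf⟩ := pair_rep B H H hRH le_rfl ((flp B v) ∘ₗ H.subtype)
    have e : v = h + (v - h) := by abel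
    rw [e]
    refine Submodule.add_mem_sup hh ⟨V₀.sub_mem hv (hle hh), fun x hx => ?_⟩
    have := hf ⟨x, hx⟩
    simp only [LinearMap.comp_apply, Submodule.subtype_apply, flp_apply] at this
    rw [map_sub, this, sub_self]
  refine ⟨V₀ ⊓ rperp B H, inf_le_left, inf_inv hV₀ (rperp_inv hB hH), ?_, hsup, ?_⟩
  · rw [eq_bot_iff]
    rintro x ⟨hx, _, hx'⟩
    exact (Submodule.mem_bot F).2 (hRH x hx hx')
  · intro y hy hw
    apply hRN y hy.1
    intro v hv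
    rw [← hsup] at hv
    obtain ⟨a, ha, b, hb, rfl⟩ := Submodule.mem_sup.1 hv
    rw [map_add, LinearMap.add_apply, hy.2 a ha, hw b hb, add_zero]

lemma exists_simple (ρ : Representation F G V) {V₀ : Submodule F V} (hV₀ : IsInv ρ V₀)
    (hne : V₀ ≠ ⊥) : ∃ X, X ≤ V₀ ∧ Simp ρ X := by
  induction' h : finrank F V₀ using Nat.strong_induction_on with n ih generalizing V₀
  by_cases hs : ∀ K : Submodule F V, K ≤ V₀ → IsInv ρ K → K = ⊥ ∨ K = V₀
  · exact ⟨V₀, le_rfl, hne, hV₀, hs⟩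
  · push_neg at hs
    obtain ⟨K, hK, hKi, hK0, hK1⟩ := hs
    have hlt : finrank F K < finrank F V₀ := Submodule.finrank_lt_finrank_of_lt (lt_of_le_of_ne hK hK1)
    obtain ⟨X, hX, hXs⟩ := ih _ (h ▸ hlt) hKi hK0 rfl
    exact ⟨X, hX.trans hK, hXs⟩

lemma maschke [Finite G] (ρ : Representation F G V) (hc : (Nat.card G : F) ≠ 0)
    {X Y₀ : Submodule F V} (hX : IsInv ρ X) (hY₀ : IsInv ρ Y₀) (hle : X ≤ Y₀) :
    ∃ C, IsInv ρ C ∧ C ≤ Y₀ ∧ X ⊓ C = ⊥ ∧ X ⊔ C = Y₀ := by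
  classical
  letI := Fintype.ofFinite G
  obtain ⟨q, hq⟩ := LinearMap.exists_leftInverse_of_injective X.subtype (Submodule.ker_subtype X)
  let π : V →ₗ[F] V := X.subtype ∘ₗ q
  have hπ₁ : ∀ x ∈ X, π x = x := fun x hx => by
    have := LinearMap.congr_fun hq ⟨x, hx⟩
    simp only [LinearMap.comp_apply, Submodule.subtype_apply, LinearMap.id_apply] at this
    simp [π, this]
  have hπ₂ : ∀ v, π v ∈ X := fun v => (q v).2
  let c : F := (Nat.card G : F)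
  let T : V →ₗ[F] V := c⁻¹ • ∑ g : G, (ρ g) ∘ₗ π ∘ₗ (ρ g⁻¹)
  have hT : ∀ v, T v = c⁻¹ • ∑ g : G, ρ g (π (ρ g⁻¹ v)) := fun v => by
    simp [T, LinearMap.sum_apply]
  have hT₁ : ∀ x ∈ X, T x = x := by
    intro x hx
    rw [hT]
    have : ∀ g : G, ρ g (π (ρ g⁻¹ x)) = x := fun g => by
      rw [hπ₁ _ (hX g⁻¹ x hx), rho_apply_inv]
    simp only [this, Finset.sum_const, Finset.card_univ, ← Nat.card_eq_fintype_card]
    rw [← Nat.cast_smul_eq_nsmul F, smul_smul, inv_mul_cancel₀ hc, one_smul]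
  have hT₂ : ∀ v, T v ∈ X := by
    intro v
    rw [hT]
    exact X.smul_mem _ (X.sum_mem fun g _ => hX g _ (hπ₂ _))
  have hTc : ∀ h v, T (ρ h v) = ρ h (T v) := by
    intro h v
    rw [hT, hT, map_smul, map_sum]
    congr 1
    rw [← Equiv.sum_comp (Equiv.mulLeft h)]
    refine Finset.sum_congr rfl fun g _ => ?_
    have e1 : (Equiv.mulLeft h) g = h * g := rfl
    rw [e1, map_mul, mul_inv_rev, map_mul, Module.End.mul_apply, Module.End.mul_apply, rho_inv_apply]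
  refine ⟨LinearMap.ker T ⊓ Y₀, ?_, inf_le_right, ?_, ?_⟩
  · intro g v hv
    refine ⟨?_, hY₀ g v hv.2⟩
    have h0 : T v = 0 := hv.1
    show T (ρ g v) = 0
    rw [hTc, h0, map_zero]
  · rw [eq_bot_iff]
    rintro x ⟨hx, hx', _⟩
    have h0 : T x = 0 := hx'
    rw [hT₁ x hx] at h0
    exact (Submodule.mem_bot F).2 h0
  · apply le_antisymm (sup_le hle inf_le_right)
    intro y hy
    have e : y = T y + (y - T y) := by abel
    rw [e]
    refine Submodule.add_mem_sup (hT₂ y) ⟨?_, Y₀.sub_mem hy (hle (hT₂ y))⟩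
    show T (y - T y) = 0
    rw [map_sub, hT₁ _ (hT₂ y), sub_self]

lemma exists_Z [Finite G] {ρ : Representation F G V} (hc : (Nat.card G : F) ≠ 0)
    {B : LinearMap.BilinForm F V}
    (hB : ∀ (g : G) (x y : V), B (ρ g x) (ρ g y) = B x y) {V₀ X : Submodule F V}
    (hle : X ≤ V₀) (hV₀ : IsInv ρ V₀) (hRN : RN B V₀) (hXs : Simp ρ X)
    (hXX : ∀ x ∈ X, ∀ y ∈ X, B x y = 0) :
    ∃ Z, Z ≤ V₀ ∧ IsInv ρ Z ∧ (∀ x ∈ X, (∀ z ∈ Z, B x z = 0) → x = 0) ∧
      (∀ z ∈ Z, (∀ x ∈ X, B x z = 0) → z = 0) ∧ (∀ x ∈ X, (∀ z ∈ Z, B z x = 0) → x = 0) := by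
  have hX := hXs.2.1
  have hLN : ∀ x ∈ V₀, (∀ y ∈ V₀, B x y = 0) → x = 0 := pair_sep B V₀ V₀ hRN le_rfl
  have hRinv : IsInv ρ (V₀ ⊓ rperp B X) := inf_inv hV₀ (rperp_inv hB hX)
  have hLinv : IsInv ρ (V₀ ⊓ rperp (flp B) X) := inf_inv hV₀ (rperp_inv (flp_inv hB) hX)
  have hXR : V₀ ⊓ rperp B X ≤ V₀ := inf_le_left
  have hLle : V₀ ⊓ rperp (flp B) X ≤ V₀ := inf_le_left
  obtain ⟨Y, hYi, hYle, hYd, hYs⟩ := maschke ρ hc hRinv hV₀ hXR
  obtain ⟨Y', hY'i, hY'le, hY'd, hY's⟩ := maschke ρ hc hLinv hV₀ hLle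
  have f1 : ∀ y ∈ Y, (∀ x ∈ X, B x y = 0) → y = 0 := by
    intro y hy h
    have : y ∈ (V₀ ⊓ rperp B X) ⊓ Y := ⟨⟨hYle hy, h⟩, hy⟩
    rw [hYd] at this
    simpa using this
  have f2 : ∀ x ∈ X, (∀ y ∈ Y, B x y = 0) → x = 0 := by
    intro x hx h
    apply hLN x (hle hx)
    intro v hv
    rw [← hYs] at hv
    obtain ⟨r, hr, y, hy, rfl⟩ := Submodule.mem_sup.1 hv
    rw [map_add, hr.2 x hx, h y hy, add_zero]
  have f1' : ∀ y ∈ Y', (∀ x ∈ X, B y x = 0) → y = 0 := by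
    intro y hy h
    have : y ∈ (V₀ ⊓ rperp (flp B) X) ⊓ Y' := ⟨⟨hY'le hy, h⟩, hy⟩
    rw [hY'd] at this
    simpa using this
  have f2' : ∀ x ∈ X, (∀ y ∈ Y', B y x = 0) → x = 0 := by
    intro x hx h
    apply hRN x (hle hx)
    intro v hv
    rw [← hY's] at hv
    obtain ⟨r, hr, y, hy, rfl⟩ := Submodule.mem_sup.1 hv
    rw [map_add, LinearMap.add_apply, h y hy, add_zero]
    exact hr.2 x hx
  have dY : finrank F Y ≤ finrank F X := dim_le B X Y f1
  have dY2 : finrank F X ≤ finrank F Y := dim_le (flp B) Y X (fun x hx h => f2 x hx h)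
  have dY' : finrank F Y' ≤ finrank F X := dim_le (flp B) X Y' (fun y hy h => f1' y hy h)
  have dY'2 : finrank F X ≤ finrank F Y' := dim_le B Y' X (fun x hx h => f2' x hx h)
  by_cases ca : ∃ x ∈ X, ∃ y ∈ Y, B y x ≠ 0
  · refine ⟨Y, hYle, hYi, f2, f1, ?_⟩
    exact fun x hx h => simple_kernel (flp_inv hB) hXs hYi
      (by obtain ⟨x, hx, y, hy, h⟩ := ca; exact ⟨x, hx, y, hy, h⟩) x hx h
  by_cases cb : ∃ x ∈ X, ∃ y ∈ Y', B x y ≠ 0
  · have hPx := simple_kernel hB hXs hY'i cb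
    refine ⟨Y', hY'le, hY'i, hPx, ?_, f2'⟩
    exact pair_sep (flp B) Y' X (fun x hx h => hPx x hx h) dY'
  push_neg at ca cb
  have hEinv : IsInv ρ (rperp (B - flp B) X) :=
    rperp_inv (D := B - flp B) (fun g x y => by simp [hB]) hX
  have hmemZ : ∀ y ∈ Y, ∀ y' ∈ Y', (∀ x ∈ X, B x y = B y' x) →
      y + y' ∈ (Y ⊔ Y') ⊓ rperp (B - flp B) X := by
    intro y hy y' hy' h
    refine ⟨Submodule.add_mem_sup hy hy', fun x hx => ?_⟩
    simp only [LinearMap.sub_apply, flp_apply, map_add, LinearMap.add_apply]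
    rw [cb x hx y' hy', ca x hx y hy, h x hx]
    ring
  refine ⟨(Y ⊔ Y') ⊓ rperp (B - flp B) X, inf_le_left.trans (sup_le hYle hY'le),
    inf_inv (sup_inv hYi hY'i) hEinv, ?_, ?_, ?_⟩
  · intro x hx h
    apply f2 x hx
    intro y hy
    obtain ⟨y', hy', hf⟩ := pair_rep (flp B) X Y' (fun y hy h => f1' y hy h) dY'2
      ((flp B y) ∘ₗ X.subtype)
    have hz := h (y + y') (hmemZ y hy y' hy' (fun x' hx' => by
      have := hf ⟨x', hx'⟩
      simpa using this.symm))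
    rw [map_add, cb x hx y' hy', add_zero] at hz
    exact hz
  · rintro z ⟨hz1, hz2⟩ h
    obtain ⟨y, hy, y', hy', rfl⟩ := Submodule.mem_sup.1 hz1
    have hy0 : y = 0 := f1 y hy (fun x hx => by
      have := h x hx
      rw [map_add, cb x hx y' hy', add_zero] at this
      exact this)
    subst hy0
    have hy'0 : y' = 0 := f1' y' hy' (fun x hx => by
      have e := hz2 x hx
      have := h x hx
      simp only [LinearMap.sub_apply, flp_apply] at e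
      rw [this] at e
      simpa using e)
    simp [hy'0]
  · intro x hx h
    apply f2' x hx
    intro y' hy'
    obtain ⟨y, hy, hf⟩ := pair_rep B X Y f1 dY2 ((B y') ∘ₗ X.subtype)
    have hz := h (y + y') (hmemZ y hy y' hy' (fun x' hx' => by
      have := hf ⟨x', hx'⟩
      simpa using this))
    rw [map_add, LinearMap.add_apply, ca x hx y hy, zero_add] at hz
    exact hz

lemma types {p : ℕ} [CharP F p] {ρ : Representation F G V} {B : LinearMap.BilinForm F V}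
    (hB : ∀ (g : G) (x y : V), B (ρ g x) (ρ g y) = B x y) {X : Submodule F V}
    (hXs : Simp ρ X) (hne : ∃ x ∈ X, ∃ y ∈ X, B x y ≠ 0) :
    AltOK ρ X ∨ SymOK p ρ X := by
  have hnd := simple_kernel hB hXs hXs.2.1 hne
  by_cases ha : ∃ x ∈ X, ∃ y ∈ X, B x y ≠ B y x
  · left
    refine ⟨B - flp B, fun x _ => by simp, fun g x _ y _ => by simp [hB], ?_⟩
    apply simple_kernel (D := B - flp B) (fun g x y => by simp [hB]) hXs hXs.2.1
    obtain ⟨x, hx, y, hy, h⟩ := ha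
    exact ⟨x, hx, y, hy, by simpa [sub_eq_zero] using h⟩
  · push_neg at ha
    by_cases hp : p = 2
    · by_cases halt : ∀ x ∈ X, B x x = 0
      · left
        exact ⟨B, halt, fun g x _ y _ => hB g x y, hnd⟩
      · right
        refine ⟨B, ha, ⟨fun g x _ y _ => hB g x y, hnd⟩, fun _ g w hw => ?_⟩
        subst hp
        have h2 : (2 : F) = 0 := by
          have := CharP.cast_eq_zero F 2
          simpa using this
        let K : Submodule F V :=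
          { carrier := {x | x ∈ X ∧ B x x = 0}
            add_mem' := by
              rintro a b ⟨ha1, ha2⟩ ⟨hb1, hb2⟩
              refine ⟨X.add_mem ha1 hb1, ?_⟩
              simp only [map_add, LinearMap.add_apply, ha2, hb2, ha b hb1 a ha1]
              linear_combination (B a b) * h2
            zero_mem' := ⟨X.zero_mem, by simp⟩
            smul_mem' := by
              rintro c a ⟨ha1, ha2⟩
              exact ⟨X.smul_mem c ha1, by simp [ha2]⟩ }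
        have hKi : IsInv ρ K := by
          rintro g x ⟨hx1, hx2⟩
          exact ⟨hXs.2.1 g x hx1, by rw [hB, hx2]⟩
        rcases hXs.2.2 K (fun x hx => hx.1) hKi with h | h
        · have hmem : ρ g w - w ∈ K := by
            have hgw := hXs.2.1 g w hw
            refine ⟨X.sub_mem hgw hw, ?_⟩
            simp only [map_sub, LinearMap.sub_apply, hB, ha w hw _ hgw]
            linear_combination (B w w - B (ρ g w) w) * h2
          rw [h] at hmem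
          exact sub_eq_zero.1 ((Submodule.mem_bot F).1 hmem)
        · exfalso
          apply halt
          intro x hx
          have : x ∈ K := by rw [h]; exact hx
          exact this.2
    · right
      exact ⟨B, ha, ⟨fun g x _ y _ => hB g x y, hnd⟩, fun h => absurd h hp⟩

lemma exists_H [Finite G] {p : ℕ} [CharP F p] {ρ : Representation F G V}
    (hc : (Nat.card G : F) ≠ 0) {B : LinearMap.BilinForm F V}
    (hB : ∀ (g : G) (x y : V), B (ρ g x) (ρ g y) = B x y) {V₀ : Submodule F V}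
    (hV₀ : IsInv ρ V₀) (hRN : RN B V₀) (hne : V₀ ≠ ⊥) :
    ∃ H, H ≤ V₀ ∧ H ≠ ⊥ ∧ IsInv ρ H ∧ RN B H ∧ (AltOK ρ H ∨ SymOK p ρ H) := by
  obtain ⟨X, hXle, hXs⟩ := exists_simple ρ hV₀ hne
  by_cases hXX : ∀ x ∈ X, ∀ y ∈ X, B x y = 0
  · obtain ⟨Z, hZle, hZi, hPx, hQz, hQx⟩ := exists_Z hc hB hXle hV₀ hRN hXs hXX
    have hd : X ⊓ Z = ⊥ := by
      rw [eq_bot_iff]
      rintro v ⟨hv1, hv2⟩
      exact (Submodule.mem_bot F).2 (hQz v hv2 (fun x hx => hXX x hx v hv1))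
    refine ⟨X ⊔ Z, sup_le hXle hZle, ?_, sup_inv hXs.2.1 hZi, rn_hyper hXX hQz hQx,
      Or.inl (hyper hB hd hXs.2.1 hZi hPx hQz)⟩
    intro h
    exact hXs.1 (eq_bot_iff.2 (h ▸ le_sup_left))
  · push_neg at hXX
    obtain ⟨x, hx, y, hy, h⟩ := hXX
    have hne2 : ∃ x ∈ X, ∃ y ∈ X, B x y ≠ 0 := ⟨x, hx, y, hy, h⟩
    have hne3 : ∃ x ∈ X, ∃ y ∈ X, flp B x y ≠ 0 := ⟨y, hy, x, hx, h⟩
    exact ⟨X, hXle, hXs.1, hXs.2.1, simple_kernel (flp_inv hB) hXs hXs.2.1 hne3,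
      types hB hXs hne2⟩

lemma disj_aux {H Y U W : Submodule F V} (h1 : H ⊓ Y = ⊥) (hU : U ≤ Y) (hW : W ≤ Y)
    (h2 : U ⊓ W = ⊥) : (H ⊔ U) ⊓ W = ⊥ := by
  rw [eq_bot_iff]
  rintro v ⟨hv1, hv2⟩
  obtain ⟨a, ha, b, hb, rfl⟩ := Submodule.mem_sup.1 hv1
  have ha' : a ∈ Y := by
    have e : a = (a + b) - b := by abel
    rw [e]
    exact Y.sub_mem (hW hv2) (hU hb)
  have ha0 : a = 0 := by
    have : a ∈ H ⊓ Y := ⟨ha, ha'⟩
    rw [h1] at this
    simpa using this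
  subst ha0
  rw [zero_add] at hv2 ⊢
  have : b ∈ U ⊓ W := ⟨hb, hv2⟩
  rwa [h2] at this

lemma main_ind [Finite G] {p : ℕ} [CharP F p] {ρ : Representation F G V}
    (hc : (Nat.card G : F) ≠ 0) {B : LinearMap.BilinForm F V}
    (hB : ∀ (g : G) (x y : V), B (ρ g x) (ρ g y) = B x y) (n : ℕ) :
    ∀ V₀ : Submodule F V, finrank F V₀ = n → IsInv ρ V₀ → RN B V₀ →
      ∃ U W, U ⊓ W = ⊥ ∧ U ⊔ W = V₀ ∧ IsInv ρ U ∧ IsInv ρ W ∧ AltOK ρ U ∧ SymOK p ρ W := by
  induction' n using Nat.strong_induction_on with n ih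
  intro V₀ hn hV₀ hRN
  by_cases hne : V₀ = ⊥
  · subst hne
    have hbi : IsInv ρ (⊥ : Submodule F V) := by
      intro g x hx
      rw [(Submodule.mem_bot F).1 hx, map_zero]
      exact Submodule.zero_mem _
    refine ⟨⊥, ⊥, by simp, by simp, hbi, hbi, ⟨0, by simp, by simp, ?_⟩,
      ⟨0, by simp, ⟨by simp, ?_⟩, ?_⟩⟩
    · intro x hx _
      exact (Submodule.mem_bot F).1 hx
    · intro x hx _
      exact (Submodule.mem_bot F).1 hx
    · intro _ g w hw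
      rw [(Submodule.mem_bot F).1 hw, map_zero]
  obtain ⟨H, hHle, hHne, hHi, hHR, hHt⟩ := exists_H (p := p) hc hB hV₀ hRN hne
  obtain ⟨Y, hYle, hYi, hd, hs, hYR⟩ := split hB hHle hV₀ hHi hRN hHR
  have hlt : finrank F Y < n := by
    rw [← hn]
    apply Submodule.finrank_lt_finrank_of_lt
    refine lt_of_le_of_ne hYle ?_
    intro e
    apply hHne
    rw [e, inf_eq_left.2 hHle] at hd
    exact hd
  obtain ⟨U', W', hd', hs', hU', hW', hA, hS⟩ := ih _ hlt Y rfl hYi hYR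
  have hU'Y : U' ≤ Y := hs' ▸ le_sup_left
  have hW'Y : W' ≤ Y := hs' ▸ le_sup_right
  rcases hHt with hHA | hHS
  · refine ⟨H ⊔ U', W', disj_aux hd hU'Y hW'Y hd', ?_, sup_inv hHi hU', hW', ?_, hS⟩
    · rw [sup_assoc, hs', hs]
    · refine merge_alt ?_ hHi hU' hHA hA
      rw [eq_bot_iff, ← hd]
      exact inf_le_inf_left _ hU'Y
  · refine ⟨U', H ⊔ W', ?_, ?_, hU', sup_inv hHi hW', hA, ?_⟩
    · rw [inf_comm]
      exact disj_aux hd hW'Y hU'Y (by rwa [inf_comm])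
    · rw [sup_left_comm, hs', hs]
    · refine merge_sym ?_ hHi hW' hHS hS
      rw [eq_bot_iff, ← hd]
      exact inf_le_inf_left _ hW'Y

theorem main_thm [Finite G] (p : ℕ) [CharP F p] (hc : (Nat.card G : F) ≠ 0)
    (ρ : Representation F G V) (B : LinearMap.BilinForm F V) (hB : B.Nondegenerate)
    (hBinv : ∀ g : G, ∀ x y : V, B (ρ g x) (ρ g y) = B x y) :
    ∃ U W : Submodule F V, IsCompl U W ∧ (∀ g : G, ∀ u ∈ U, ρ g u ∈ U) ∧
      (∀ g : G, ∀ w ∈ W, ρ g w ∈ W) ∧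
      (∃ A : LinearMap.BilinForm F V, (∀ x : V, A x x = 0) ∧
        (∀ g : G, ∀ x ∈ U, ∀ y ∈ U, A (ρ g x) (ρ g y) = A x y) ∧
        (∀ x ∈ U, (∀ y ∈ U, A x y = 0) → x = 0)) ∧
      (∃ S : LinearMap.BilinForm F V, (∀ x y : V, S x y = S y x) ∧
        (∀ g : G, ∀ x ∈ W, ∀ y ∈ W, S (ρ g x) (ρ g y) = S x y) ∧
        (∀ x ∈ W, (∀ y ∈ W, S x y = 0) → x = 0)) ∧
      (p = 2 → ∀ g : G, ∀ w ∈ W, ρ g w = w) := by
  have hRN : RN B (⊤ : Submodule F V) := fun v _ hw => hB.2 v (fun x => hw x Submodule.mem_top)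
  have hT : IsInv ρ (⊤ : Submodule F V) := fun g x _ => Submodule.mem_top
  obtain ⟨U, W, hd, hs, hU, hW, ⟨A, hA1, hA2, hA3⟩, ⟨S, hS1, ⟨hS2, hS3⟩, hS4⟩⟩ :=
    main_ind (p := p) hc hBinv _ ⊤ rfl hT hRN
  obtain ⟨π₁, π₂, hp, hq⟩ := exists_projs U W hd
  have hπ₁ : ∀ v, π₁ v ∈ U := by
    intro v
    have hv : v ∈ U ⊔ W := by rw [hs]; exact Submodule.mem_top
    obtain ⟨a, ha, b, hb, rfl⟩ := Submodule.mem_sup.1 hv
    rw [map_add, (hp a ha).1, (hq b hb).1, add_zero]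
    exact ha
  have hπ₂ : ∀ v, π₂ v ∈ W := by
    intro v
    have hv : v ∈ U ⊔ W := by rw [hs]; exact Submodule.mem_top
    obtain ⟨a, ha, b, hb, rfl⟩ := Submodule.mem_sup.1 hv
    rw [map_add, (hp a ha).2, (hq b hb).2, zero_add]
    exact hb
  refine ⟨U, W, ⟨disjoint_iff.2 hd, codisjoint_iff.2 hs⟩, hU, hW, ⟨A.compl₁₂ π₁ π₁, ?_, ?_, ?_⟩,
    ⟨S.compl₁₂ π₂ π₂, ?_, ?_, ?_⟩, hS4⟩
  · intro x
    simp only [LinearMap.compl₁₂_apply]
    exact hA1 _ (hπ₁ x)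
  · intro g x hx y hy
    simp only [LinearMap.compl₁₂_apply]
    rw [(hp _ (hU g x hx)).1, (hp _ (hU g y hy)).1, (hp x hx).1, (hp y hy).1]
    exact hA2 g x hx y hy
  · intro x hx h
    apply hA3 x hx
    intro y hy
    have := h y hy
    simp only [LinearMap.compl₁₂_apply] at this
    rwa [(hp x hx).1, (hp y hy).1] at this
  · intro x y
    simp only [LinearMap.compl₁₂_apply]
    exact hS1 _ (hπ₂ x) _ (hπ₂ y)
  · intro g x hx y hy
    simp only [LinearMap.compl₁₂_apply]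
    rw [(hq _ (hW g x hx)).2, (hq _ (hW g y hy)).2, (hq x hx).2, (hq y hy).2]
    exact hS2 g x hx y hy
  · intro x hx h
    apply hS3 x hx
    intro y hy
    have := h y hy
    simp only [LinearMap.compl₁₂_apply] at this
    rwa [(hq x hx).2, (hq y hy).2] at this

end FD

end Cfsg.Agent.Lib.SelfDual
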