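import Mathlib

/-! Finite sharply doubly transitive groups: the fixed-point-free elements with the identity form
a regular normal elementary abelian subgroup. -/

set_option autoImplicit false

namespace Cfsg.Agent.Lib.Sharp2

open MulAction

variable {G α : Type*} [Group G] [MulAction G α]

/-- the hypothesis of sharp double transitivity, in elementary form -/
structure IsSharp2 (G α : Type*) [Group G] [MulAction G α] : Prop where
  trans : ∀ a b c d : α, a ≠ b → c ≠ d → ∃ g : G, g • a = c ∧ g • b = d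
  sharp : ∀ (g : G) (a b : α), a ≠ b → g • a = a → g • b = b → g = 1

theorem IsSharp2.uniq (h : IsSharp2 G α) {g k : G} {a b : α} (hab : a ≠ b) (h1 : g • a = k • a) (h2 : g • b = k • b) : g = k := by
  have := h.sharp (k⁻¹ * g) a b hab (by rw [mul_smul, h1, inv_smul_smul]) (by rw [mul_smul, h2, inv_smul_smul])
  rw [inv_mul_eq_one] at this
  exact this.symm

theorem IsSharp2.swap (h : IsSharp2 G α) {a b : α} (hab : a ≠ b) : ∃ t : G, t • a = b ∧ t • b = a ∧ t * t = 1 := by
  obtain ⟨t, h1, h2⟩ := h.trans a b b a hab (Ne.symm hab)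
  refine ⟨t, h1, h2, h.sharp _ a b hab ?_ ?_⟩
  · rw [mul_smul, h1, h2]
  · rw [mul_smul, h2, h1]

theorem IsSharp2.fix_unique (h : IsSharp2 G α) {g : G} (hg : g ≠ 1) {a b : α} (h1 : g • a = a) (h2 : g • b = b) : a = b := by
  by_contra hab
  exact hg (h.sharp g a b hab h1 h2)

theorem IsSharp2.transitive (h : IsSharp2 G α) (x y : α) : ∃ k : G, k • x = y := by
  by_cases hxy : x = y
  · exact ⟨1, by simp [hxy]⟩
  · obtain ⟨k, hk, _⟩ := h.trans x y y x hxy (Ne.symm hxy)
    exact ⟨k, hk⟩

/-- two commuting-free involutions agreeing on a moved point coincide -/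
theorem IsSharp2.eq_of_swap (h : IsSharp2 G α) {t u : G} {x y : α} (hxy : x ≠ y) (h1 : t • x = y) (h2 : u • x = y)
    (ht : t * t = 1) (hu : u * u = 1) : t = u := by
  apply h.uniq hxy (by rw [h1, h2])
  have e1 : t • y = x := by rw [← h1, ← mul_smul, ht, one_smul]
  have e2 : u • y = x := by rw [← h2, ← mul_smul, hu, one_smul]
  rw [e1, e2]

section Finite

variable [Fintype α]

theorem IsSharp2.card_group (h : IsSharp2 G α) (hn : 2 ≤ Fintype.card α) : Nat.card G = Fintype.card α * (Fintype.card α - 1) := by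
  classical
  obtain ⟨a, b, hab⟩ := Fintype.exists_pair_of_one_lt_card (α := α) (by omega)
  have hinj : Function.Injective (fun g : G => ((g • a, g • b) : α × α)) := by
    intro g k e
    exact h.uniq hab (congrArg Prod.fst e) (congrArg Prod.snd e)
  let T : Finset (α × α) := Finset.univ.offDiag
  have hrange : ∀ p : α × α, p ∈ T ↔ ∃ g : G, (g • a, g • b) = p := by
    rintro ⟨c, d⟩
    simp only [T, Finset.mem_offDiag, Finset.mem_univ, true_and, Prod.mk.injEq]
    constructor
    · intro hcd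
      obtain ⟨g, h1, h2⟩ := h.trans a b c d hab hcd
      exact ⟨g, h1, h2⟩
    · rintro ⟨g, rfl, rfl⟩ e
      exact hab (smul_left_cancel g e)
  have hcard : Nat.card G = T.card := by
    have e : G ≃ {p // p ∈ T} := Equiv.ofBijective (fun g => ⟨(g • a, g • b), (hrange _).2 ⟨g, rfl⟩⟩) ⟨by
      intro g k e
      exact hinj (congrArg Subtype.val e), by
      rintro ⟨p, hp⟩
      obtain ⟨g, hg⟩ := (hrange p).1 hp
      exact ⟨g, Subtype.ext hg⟩⟩
    rw [Nat.card_congr e, Nat.card_eq_fintype_card, Fintype.card_coe]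
  rw [hcard, Finset.offDiag_card, Finset.card_univ]
  rw [Nat.mul_sub, mul_one]

/-- The fixed-point-free elements, with the identity -/
def NS (G α : Type*) [Group G] [MulAction G α] : Set G := {g : G | g = 1 ∨ ∀ a : α, g • a ≠ a}

/-- number of fixed point free elements, with the identity, is the degree. -/
theorem IsSharp2.card_NS (h : IsSharp2 G α) (hn : 2 ≤ Fintype.card α) [Finite G] : Nat.card (NS G α) = Fintype.card α := by
  classical
  haveI : Fintype G := Fintype.ofFinite G
  haveI : Nonempty α := by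
    rw [← Fintype.card_pos_iff]; omega
  haveI : Fintype (orbitRel.Quotient G α) := Fintype.ofFinite _
  obtain ⟨x₀⟩ := ‹Nonempty α›
  have hb := MulAction.sum_card_fixedBy_eq_card_orbits_mul_card_group G α
  have hq : Fintype.card (orbitRel.Quotient G α) = 1 := by
    refine Fintype.card_eq_one_iff.2 ⟨Quotient.mk _ x₀, fun q => ?_⟩
    induction q using Quotient.inductionOn with
    | h y =>
      apply Quotient.sound
      show y ∈ orbit G x₀
      obtain ⟨k, hk⟩ := h.transitive x₀ y
      exact ⟨k, hk⟩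
  rw [hq, one_mul] at hb
  have key : ∀ g : G, Fintype.card (fixedBy α g) + (if ∀ a : α, g • a ≠ a then 1 else 0) = 1 + (if g = 1 then Fintype.card α - 1 else 0) := by
    intro g
    by_cases hg : g = 1
    · subst hg
      have h1 : Fintype.card (fixedBy α (1 : G)) = Fintype.card α :=
        Fintype.card_congr (Equiv.subtypeUnivEquiv (fun x => by simp))
      have h2 : ¬ ∀ a : α, (1 : G) • a ≠ a := by
        push Not
        exact ⟨x₀, by simp⟩
      rw [h1, if_neg h2, if_pos rfl]
      omega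
    · rw [if_neg hg]
      by_cases hB : ∀ a : α, g • a ≠ a
      · rw [if_pos hB]
        have : IsEmpty (fixedBy α g) := ⟨fun x => hB x.1 x.2⟩
        simp
      · rw [if_neg hB]
        push Not at hB
        obtain ⟨a, ha⟩ := hB
        have : Fintype.card (fixedBy α g) = 1 := by
          refine Fintype.card_eq_one_iff.2 ⟨⟨a, ha⟩, fun y => Subtype.ext ?_⟩
          exact h.fix_unique hg y.2 ha
        omega
  have hsum := Finset.sum_congr (rfl : (Finset.univ : Finset G) = Finset.univ) (fun g _ => key g)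
  rw [Finset.sum_add_distrib, Finset.sum_add_distrib, hb, Finset.sum_boole] at hsum
  simp only [Finset.sum_const, Finset.card_univ, smul_eq_mul, mul_one, Finset.sum_ite_eq', Finset.mem_univ, if_true, Nat.cast_id] at hsum
  have hBcard : (Finset.univ.filter (fun g : G => ∀ a : α, g • a ≠ a)).card = Fintype.card α - 1 := by
    omega
  have hNS : NS G α = ↑(insert (1 : G) (Finset.univ.filter (fun g : G => ∀ a : α, g • a ≠ a))) := by
    ext g
    simp [NS]
  have hnot : (1 : G) ∉ Finset.univ.filter (fun g : G => ∀ a : α, g • a ≠ a) := by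
    simp only [Finset.mem_filter, Finset.mem_univ, true_and, not_forall]
    exact ⟨x₀, by simp⟩
  rw [hNS, Nat.card_coe_set_eq, Set.ncard_coe_finset, Finset.card_insert_of_notMem hnot, hBcard]
  omega

theorem involution_parity (s : G) (hs : s * s = 1) : (Fintype.card α + Nat.card (fixedBy α s)) % 2 = 0 := by
  classical
  have h1 : (MulAction.toPerm s : Equiv.Perm α) ^ 2 = 1 := by
    ext x
    have : (s * s) • x = x := by rw [hs, one_smul]
    rw [mul_smul] at this
    simpa [pow_two] using this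
  have h2 := Equiv.Perm.two_dvd_card_support h1
  have h3 : (MulAction.toPerm s : Equiv.Perm α).support.card + Nat.card (fixedBy α s) = Fintype.card α := by
    rw [Nat.card_eq_fintype_card, ← Set.toFinset_card, ← Finset.card_univ]
    rw [← Finset.card_sdiff_add_card_eq_card (Finset.subset_univ (fixedBy α s).toFinset)]
    congr 2
    ext x
    simp [Equiv.Perm.mem_support, mem_fixedBy]
  omega

theorem IsSharp2.card_fix_le (h : IsSharp2 G α) {g : G} (hg : g ≠ 1) : Nat.card (fixedBy α g) ≤ 1 := by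
  have : Subsingleton (fixedBy α g) := ⟨fun a b => Subtype.ext (h.fix_unique hg a.2 b.2)⟩
  exact Finite.card_le_one_iff_subsingleton.2 this

/-- inverses of fixed point free elements -/
theorem NS_inv {g : G} (hg : g ∈ NS G α) : g⁻¹ ∈ NS G α := by
  rcases hg with rfl | hg
  · left; simp
  · right
    intro a e
    apply hg a
    rw [inv_smul_eq_iff] at e
    exact e.symm

/-- Product of two distinct involutions that are not both fixing a common point is fixed point free -/
theorem IsSharp2.mul_mem_NS_of_no_common (h : IsSharp2 G α) {t u : G} (ht : t * t = 1) (hu : u * u = 1) (htu : t ≠ u)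
    (hcommon : ∀ x : α, t • x = x → u • x = x → False) : ∀ x : α, (t * u) • x ≠ x := by
  intro x e
  rw [mul_smul] at e
  have e1 : u • x = t • x := by
    have : t • (t • (u • x)) = t • x := by rw [e]
    rwa [← mul_smul, ht, one_smul] at this
  by_cases hfix : t • x = x
  · exact hcommon x hfix (e1.trans hfix)
  · exact htu (h.eq_of_swap (Ne.symm hfix) rfl e1 ht hu)

variable (h : IsSharp2 G α) (hn : 2 ≤ Fintype.card α) [Finite G]

include h hn in
/-- the structure theorem in even degree -/
theorem IsSharp2.even_case (heven : Even (Fintype.card α)) : (∀ g ∈ NS G α, g * g = 1) ∧ ∀ g ∈ NS G α, ∀ k ∈ NS G α, g⁻¹ * k ∈ NS G α := by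
  classical
  haveI : Nonempty α := by
    rw [← Fintype.card_pos_iff]; omega
  obtain ⟨a₀⟩ := ‹Nonempty α›
  have hinv : ∀ {t : G}, t * t = 1 → t ≠ 1 → t ∈ NS G α := by
    intro t ht ht1
    right
    intro a e
    have h1 := involution_parity (α := α) t ht
    have h2 := h.card_fix_le ht1
    have h3 : 0 < Nat.card (fixedBy α t) := Nat.card_pos_iff.2 ⟨⟨a, e⟩, inferInstance⟩
    rw [even_iff_two_dvd] at heven
    omega
  have hall : ∀ g ∈ NS G α, g * g = 1 := by
    -- the involutions moving `a₀` exhaust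
    have hex : ∀ b : α, ∃ t : G, t • a₀ = b ∧ t * t = 1 := by
      intro b
      by_cases hb : b = a₀
      · exact ⟨1, by simp [hb], by simp⟩
      · obtain ⟨t, h1, _, h3⟩ := h.swap (Ne.symm hb)
        exact ⟨t, h1, h3⟩
    choose tt htt1 htt2 using hex
    have hinj : Function.Injective tt := by
      intro b c e
      rw [← htt1 b, ← htt1 c, e]
    have hmem : ∀ b, tt b ∈ NS G α := by
      intro b
      by_cases hb : tt b = 1
      · left; exact hb
      · exact hinv (htt2 b) hb
    let φ : α → NS G α := fun b => ⟨tt b, hmem b⟩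
    have hφ : Function.Bijective φ := by
      have hc : Nat.card (NS G α) = Fintype.card α := h.card_NS hn
      haveI : Fintype (NS G α) := Fintype.ofFinite _
      rw [Fintype.bijective_iff_injective_and_card]
      refine ⟨fun b c e => hinj (congrArg Subtype.val e), ?_⟩
      rw [← hc, Nat.card_eq_fintype_card]
    intro g hg
    obtain ⟨b, hb⟩ := hφ.2 ⟨g, hg⟩
    have : tt b = g := congrArg Subtype.val hb
    rw [← this]
    exact htt2 b
  refine ⟨hall, ?_⟩
  intro g hg k hk
  have hg2 := hall g hg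
  have hk2 := hall k hk
  have hginv : g⁻¹ = g := inv_eq_of_mul_eq_one_left hg2
  rw [hginv]
  by_cases hgk : g = k
  · subst hgk; left; exact hg2
  by_cases hg1 : g = 1
  · subst hg1; simpa using hk
  by_cases hk1 : k = 1
  · subst hk1; simpa using hg
  right
  refine h.mul_mem_NS_of_no_common hg2 hk2 hgk ?_
  intro x hx _
  rcases hg with hg | hg
  · exact hg1 hg
  · exact hg x hx

include h hn in
/-- the structure theorem in odd degree -/
theorem IsSharp2.odd_case (hodd : Odd (Fintype.card α)) : ∃ ι : G, ι * ι = 1 ∧ (∀ g ∈ NS G α, ι * g * ι = g⁻¹) ∧ ∀ g ∈ NS G α, ∀ k ∈ NS G α, g⁻¹ * k ∈ NS G α := by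
  classical
  obtain ⟨a, b, hab⟩ := Fintype.exists_pair_of_one_lt_card (α := α) (by omega)
  obtain ⟨t, ht1, ht2, htt⟩ := h.swap hab
  have ht : t ≠ 1 := by
    rintro rfl
    simp at ht1
    exact hab ht1
  have hfix : ∃ d : α, t • d = d := by
    have h1 := involution_parity (α := α) t htt
    rw [Nat.odd_iff] at hodd
    have h2 : Nat.card (fixedBy α t) ≠ 0 := by omega
    obtain ⟨⟨d, hd⟩⟩ := Nat.card_pos_iff.1 (Nat.pos_of_ne_zero h2) |>.1
    exact ⟨d, hd⟩
  obtain ⟨d, hd⟩ := hfix
  have hex : ∀ c : α, ∃ s : G, s • c = c ∧ s * s = 1 ∧ s ≠ 1 := by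
    intro c
    obtain ⟨k, hk⟩ := h.transitive d c
    refine ⟨k * t * k⁻¹, ?_, ?_, ?_⟩
    · rw [← hk]
      simp only [mul_smul, inv_smul_smul, hd]
    · calc k * t * k⁻¹ * (k * t * k⁻¹) = k * (t * t) * k⁻¹ := by group
        _ = 1 := by rw [htt]; group
    · intro e
      apply ht
      have : t = k⁻¹ * (k * t * k⁻¹) * k := by group
      rw [this, e]; group
  choose ι hι1 hι2 hι3 using hex
  have hιinj : Function.Injective ι := by
    intro b c e
    exact h.fix_unique (hι3 b) (hι1 b) (by rw [e]; exact hι1 c)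
  have hmem : ∀ x y : α, ι x * ι y ∈ NS G α := by
    intro x y
    by_cases hxy : x = y
    · subst hxy; left; exact hι2 x
    · right
      refine h.mul_mem_NS_of_no_common (hι2 x) (hι2 y) (fun e => hxy (hιinj e)) ?_
      intro z hz1 hz2
      apply hxy
      exact (h.fix_unique (hι3 x) (hι1 x) hz1).trans (h.fix_unique (hι3 y) hz2 (hι1 y))
  have hbij : ∀ x : α, Function.Bijective (fun y : α => (⟨ι x * ι y, hmem x y⟩ : NS G α)) := by
    intro x
    have hc : Nat.card (NS G α) = Fintype.card α := h.card_NS hn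
    haveI : Fintype (NS G α) := Fintype.ofFinite _
    rw [Fintype.bijective_iff_injective_and_card]
    refine ⟨fun y z e => hιinj (mul_left_cancel (congrArg Subtype.val e)), ?_⟩
    rw [← hc, Nat.card_eq_fintype_card]
  have hrep : ∀ x : α, ∀ g ∈ NS G α, ∃ y, g = ι x * ι y := by
    intro x g hg
    obtain ⟨y, hy⟩ := (hbij x).2 ⟨g, hg⟩
    exact ⟨y, (congrArg Subtype.val hy).symm⟩
  have hinvι : ∀ x, (ι x)⁻¹ = ι x := fun x => inv_eq_of_mul_eq_one_left (hι2 x)
  refine ⟨ι a, hι2 a, ?_, ?_⟩
  · intro g hg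
    obtain ⟨y, rfl⟩ := hrep a g hg
    rw [mul_inv_rev, hinvι, hinvι, ← mul_assoc, hι2, one_mul]
  · intro g hg k hk
    obtain ⟨y, rfl⟩ := hrep a g hg
    obtain ⟨z, rfl⟩ := hrep a k hk
    rw [mul_inv_rev, hinvι, hinvι]
    have : ι y * ι a * (ι a * ι z) = ι y * ι z := by
      rw [mul_assoc, ← mul_assoc (ι a), hι2, one_mul]
    rw [this]
    exact hmem y z

include h hn in
/-- The normal subgroup of fixed point free elements. -/
theorem IsSharp2.exists_subgroup : ∃ N : Subgroup G, (∀ g, g ∈ N ↔ g ∈ NS G α) ∧ ∀ x ∈ N, ∀ y ∈ N, x * y = y * x := by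
  classical
  have hclosed : (∀ g ∈ NS G α, ∀ k ∈ NS G α, g⁻¹ * k ∈ NS G α) ∧ (∀ g ∈ NS G α, ∀ k ∈ NS G α, g * k = k * g) := by
    rcases Nat.even_or_odd (Fintype.card α) with he | ho
    · obtain ⟨h1, h2⟩ := h.even_case hn he
      refine ⟨h2, fun g hg k hk => ?_⟩
      have h3 := h2 g hg k hk
      have hginv : g⁻¹ = g := inv_eq_of_mul_eq_one_left (h1 g hg)
      have hkinv : k⁻¹ = k := inv_eq_of_mul_eq_one_left (h1 k hk)
      rw [hginv] at h3
      have h4 := h1 _ h3
      calc g * k = (g * k)⁻¹ := (inv_eq_of_mul_eq_one_left h4).symm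
        _ = k * g := by rw [mul_inv_rev, hginv, hkinv]
    · obtain ⟨ι, h0, h1, h2⟩ := h.odd_case hn ho
      refine ⟨h2, fun g hg k hk => ?_⟩
      have hgk : g * k ∈ NS G α := by
        have := h2 g⁻¹ (NS_inv hg) k hk
        rwa [inv_inv] at this
      have e1 := h1 _ hgk
      have e2 := h1 g hg
      have e3 := h1 k hk
      have e4 : ι * (g * k) * ι = (ι * g * ι) * (ι * k * ι) := by
        have hinv : ι⁻¹ = ι := inv_eq_of_mul_eq_one_left h0
        calc ι * (g * k) * ι = ι * g * (ι * ι) * k * ι := by rw [h0]; group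
          _ = (ι * g * ι) * (ι * k * ι) := by group
      rw [e1, e2, e3, mul_inv_rev] at e4
      have := congrArg (·⁻¹) e4
      simp only [mul_inv_rev, inv_inv] at this
      exact this.symm ▸ rfl
  refine ⟨{ carrier := NS G α
            one_mem' := Or.inl rfl
            mul_mem' := ?_
            inv_mem' := NS_inv }, fun g => Iff.rfl, hclosed.2⟩
  intro g k hg hk
  have := hclosed.1 g⁻¹ (NS_inv hg) k hk
  rwa [inv_inv] at this

end Finite

section Struct

variable [Fintype α] [Finite G]

theorem IsSharp2.struct (h : IsSharp2 G α) (hn : 2 ≤ Fintype.card α) :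
    ∃ (N : Subgroup G) (p j : ℕ), N.Normal ∧ (∀ g, g ∈ N ↔ g = 1 ∨ ∀ a : α, g • a ≠ a) ∧
      (∀ x ∈ N, ∀ y ∈ N, x * y = y * x) ∧ (∀ a b : α, ∃ g ∈ N, g • a = b) ∧ p.Prime ∧ 1 ≤ j ∧
      Fintype.card α = p ^ j ∧ Nat.card N = p ^ j ∧ (∀ x ∈ N, x ^ p = 1) ∧ IsPGroup p N := by
  classical
  obtain ⟨N, hN, hcomm⟩ := h.exists_subgroup hn
  have hN' : ∀ g, g ∈ N ↔ g = 1 ∨ ∀ a : α, g • a ≠ a := hN
  have hcardN : Nat.card N = Fintype.card α := by
    rw [← h.card_NS hn]
    exact Nat.card_congr (Equiv.subtypeEquivRight (fun g => hN g))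
  haveI hnorm : N.Normal := by
    constructor
    intro g hg k
    rw [hN'] at hg ⊢
    rcases hg with rfl | hg
    · left; group
    · right
      intro a e
      apply hg (k⁻¹ • a)
      have : (k * g * k⁻¹) • a = a := e
      rw [mul_smul, mul_smul] at this
      rw [← smul_eq_iff_eq_inv_smul]
      exact this
  have hreg1 : ∀ g ∈ N, ∀ a : α, g • a = a → g = 1 := by
    intro g hg a ha
    rcases (hN' g).1 hg with h1 | h1
    · exact h1
    · exact absurd ha (h1 a)
  have htrans : ∀ a b : α, ∃ g ∈ N, g • a = b := by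
    intro a b
    have hinj : Function.Injective (fun g : N => (g : G) • a) := by
      intro g k e
      have := hreg1 (k⁻¹ * g : N) (k⁻¹ * g).2 a (by
        show ((k : G)⁻¹ * (g : G)) • a = a
        rw [mul_smul]
        have e' : (g : G) • a = (k : G) • a := e
        rw [e', inv_smul_smul])
      have h3 : k⁻¹ * g = 1 := Subtype.ext this
      exact (inv_mul_eq_one.1 h3).symm
    have hbij : Function.Bijective (fun g : N => (g : G) • a) := by
      haveI : Fintype N := Fintype.ofFinite _
      rw [Fintype.bijective_iff_injective_and_card]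
      refine ⟨hinj, ?_⟩
      rw [← Nat.card_eq_fintype_card, hcardN]
    obtain ⟨g, hg⟩ := hbij.2 b
    exact ⟨g, g.2, hg⟩
  obtain ⟨a₀, b₀, hab⟩ := Fintype.exists_pair_of_one_lt_card (α := α) (by omega)
  obtain ⟨x₀, hx₀, hx₀e⟩ := htrans a₀ b₀
  have hx₀1 : x₀ ≠ 1 := by
    rintro rfl
    simp at hx₀e
    exact hab hx₀e
  -- conjugacy of non-identity elements
  have hconj : ∀ g ∈ N, ∀ k ∈ N, g ≠ 1 → k ≠ 1 → ∃ u : G, u * g * u⁻¹ = k := by
    intro g hg k hk hg1 hk1
    have h1 : g • a₀ ≠ a₀ := fun e => hg1 (hreg1 g hg a₀ e)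
    have h2 : k • a₀ ≠ a₀ := fun e => hk1 (hreg1 k hk a₀ e)
    obtain ⟨u, hu1, hu2⟩ := h.trans a₀ (g • a₀) a₀ (k • a₀) (Ne.symm h1) (Ne.symm h2)
    refine ⟨u, ?_⟩
    have hmem : u * g * u⁻¹ ∈ N := hnorm.conj_mem g hg u
    have : k⁻¹ * (u * g * u⁻¹) = 1 := by
      apply hreg1 _ (N.mul_mem (N.inv_mem hk) hmem) a₀
      rw [mul_smul, mul_smul, mul_smul]
      have e : u⁻¹ • a₀ = a₀ := by rw [inv_smul_eq_iff, hu1]
      rw [e, hu2, inv_smul_smul]
    exact (inv_mul_eq_one.1 this).symm
  have hord : ∀ g ∈ N, g ≠ 1 → orderOf g = orderOf x₀ := by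
    intro g hg hg1
    obtain ⟨u, hu⟩ := hconj x₀ hx₀ g hg hx₀1 hg1
    rw [← hu]
    exact MulEquiv.orderOf_eq (MulAut.conj u) x₀
  have hr0 : 0 < orderOf x₀ := orderOf_pos x₀
  have hr1 : orderOf x₀ ≠ 1 := fun e => hx₀1 (orderOf_eq_one_iff.1 e)
  let p := (orderOf x₀).minFac
  have hp : p.Prime := Nat.minFac_prime hr1
  have hpd : p ∣ orderOf x₀ := Nat.minFac_dvd _
  have hxp : orderOf (x₀ ^ (orderOf x₀ / p)) = p := orderOf_pow_orderOf_div hr0.ne' hpd
  have hp_eq : orderOf x₀ = p := by
    have hmem : x₀ ^ (orderOf x₀ / p) ∈ N := N.pow_mem hx₀ _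
    have hne : x₀ ^ (orderOf x₀ / p) ≠ 1 := by
      intro e
      rw [e, orderOf_one] at hxp
      exact hp.one_lt.ne hxp
    rw [← hord _ hmem hne, hxp]
  have hexp : ∀ x ∈ N, x ^ p = 1 := by
    intro x hx
    by_cases hx1 : x = 1
    · subst hx1; simp
    · rw [← hp_eq, ← hord x hx hx1]
      exact pow_orderOf_eq_one x
  have hpg : IsPGroup p N := by
    intro g
    refine ⟨1, ?_⟩
    apply Subtype.ext
    rw [pow_one]
    exact hexp g g.2
  haveI : Fact p.Prime := ⟨hp⟩
  obtain ⟨j, hj⟩ := IsPGroup.iff_card.1 hpg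
  have hj1 : 1 ≤ j := by
    by_contra hcon
    have : j = 0 := by omega
    rw [this, pow_zero, hcardN] at hj
    omega
  exact ⟨N, p, j, hnorm, hN', hcomm, htrans, hp, hj1, by rw [← hj, hcardN], hj, hexp, hpg⟩

end Struct

end Cfsg.Agent.Lib.Sharp2
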