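import Mathlib

set_option autoImplicit false

namespace Cfsg.Agent.Lib.Shintani

variable {X : Type*} [Group X] (σ : MulAut X)

theorem comm_apply (e : ℕ) (a : X) : (σ ^ e) (σ a) = σ ((σ ^ e) a) := by
  have : σ ^ e * σ = σ * σ ^ e := (Commute.pow_left (Commute.refl σ) e).eq
  exact congrArg (fun f : MulAut X => f a) this

theorem fix_pow {h : X} (hh : σ h = h) (n : ℕ) : (σ ^ n) h = h := by
  induction n with
  | zero => rfl
  | succ n ih =>
    rw [pow_succ]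
    show (σ ^ n) (σ h) = h
    rw [hh, ih]

variable {σ}

/-- `x = τ(a)⁻¹ a` is `σ`-fixed when `g = a σ(a)⁻¹` is `τ`-fixed. -/
theorem x_fixed {e : ℕ} {g a : X} (hg : (σ ^ e) g = g) (ha : g = a * (σ a)⁻¹) :
    σ (((σ ^ e) a)⁻¹ * a) = ((σ ^ e) a)⁻¹ * a := by
  rw [ha, map_mul, map_inv, comm_apply] at hg
  rw [map_mul, map_inv]
  have h1 : a⁻¹ * ((σ ^ e) a * (σ ((σ ^ e) a))⁻¹) * σ a = 1 := by
    rw [hg]; group
  have h2 : ((σ ((σ ^ e) a))⁻¹ * σ a) = (((σ ^ e) a)⁻¹ * a) := by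
    have h3 : a⁻¹ * (σ ^ e) a * ((σ ((σ ^ e) a))⁻¹ * σ a) = 1 := by
      simpa [mul_assoc] using h1
    have h4 := eq_inv_of_mul_eq_one_right h3
    rw [h4]; group
  exact h2

theorem norm_eq {g a : X} (ha : g = a * (σ a)⁻¹) (d : ℕ) :
    ((List.range d).map (fun i => (σ ^ i) g)).prod = a * ((σ ^ d) a)⁻¹ := by
  induction d with
  | zero => simp
  | succ d ih =>
    rw [List.range_succ, List.map_append, List.prod_append, ih]
    simp only [List.map_cons, List.map_nil, List.prod_cons, List.prod_nil, mul_one]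
    rw [ha, map_mul, map_inv]
    have : (σ ^ d) (σ a) = (σ ^ (d + 1)) a := by
      rw [pow_succ]; rfl
    rw [this]
    group

/-- twisted-conjugacy ↔ conjugacy of Shintani images, forward -/
theorem conj_iff {e : ℕ} {g g' a b : X} (hg : (σ ^ e) g = g) (hg' : (σ ^ e) g' = g')
    (ha : g = a * (σ a)⁻¹) (hb : g' = b * (σ b)⁻¹) :
    (∃ k, (σ ^ e) k = k ∧ g' = k * g * (σ k)⁻¹) ↔
      (∃ h, σ h = h ∧ ((σ ^ e) b)⁻¹ * b = h * (((σ ^ e) a)⁻¹ * a) * h⁻¹) := by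
  constructor
  · rintro ⟨k, hk, hg2⟩
    refine ⟨b⁻¹ * k * a, ?_, ?_⟩
    · rw [ha, hb] at hg2
      rw [map_mul, map_mul, map_inv]
      have h1 : b * (σ b)⁻¹ * σ k * σ a = k * a := by
        rw [hg2]; group
      have : b⁻¹ * (b * (σ b)⁻¹ * σ k * σ a) = b⁻¹ * (k * a) := by rw [h1]
      calc (σ b)⁻¹ * σ k * σ a = b⁻¹ * (b * (σ b)⁻¹ * σ k * σ a) := by group
        _ = b⁻¹ * (k * a) := this
        _ = b⁻¹ * k * a := by group
    · have hh : σ (b⁻¹ * k * a) = b⁻¹ * k * a := by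
        rw [ha, hb] at hg2
        rw [map_mul, map_mul, map_inv]
        have h1 : b * (σ b)⁻¹ * σ k * σ a = k * a := by
          rw [hg2]; group
        have : b⁻¹ * (b * (σ b)⁻¹ * σ k * σ a) = b⁻¹ * (k * a) := by rw [h1]
        calc (σ b)⁻¹ * σ k * σ a = b⁻¹ * (b * (σ b)⁻¹ * σ k * σ a) := by group
          _ = b⁻¹ * (k * a) := this
          _ = b⁻¹ * k * a := by group
      have h2 := fix_pow σ hh e
      rw [map_mul, map_mul, map_inv, hk] at h2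
      -- h2 : τ b⁻¹ * k * τ a = b⁻¹ * k * a
      have h3 : ((σ ^ e) b)⁻¹ = b⁻¹ * k * a * ((σ ^ e) a)⁻¹ * k⁻¹ := by
        rw [← h2]; group
      rw [h3]; group
  · rintro ⟨h, hh, hx⟩
    refine ⟨b * h * a⁻¹, ?_, ?_⟩
    · have h2 := fix_pow σ hh e
      rw [map_mul, map_mul, map_inv, h2]
      have h3 : (σ ^ e) b = b * h * a⁻¹ * (σ ^ e) a * h⁻¹ := by
        have : ((σ ^ e) b)⁻¹ = h * (((σ ^ e) a)⁻¹ * a) * h⁻¹ * b⁻¹ := by
          rw [← hx]; group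
        have h5 := congrArg (fun t => t⁻¹) this
        simp only [inv_inv] at h5
        rw [h5]; group
      rw [h3]; group
    · rw [ha, hb, map_mul, map_mul, map_inv, hh]
      group

theorem exists_a {e : ℕ} (hLe : ∀ g : X, ∃ a : X, g = a * ((σ ^ e) a)⁻¹) (x : X) :
    ∃ a : X, ((σ ^ e) a)⁻¹ * a = x := by
  obtain ⟨c, hc⟩ := hLe x⁻¹
  refine ⟨c⁻¹, ?_⟩
  rw [map_inv, inv_inv]
  have := congrArg (fun t => t⁻¹) hc
  simp only [inv_inv] at this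
  rw [this]; group

theorem g_fixed {e : ℕ} {x a : X} (hx : σ x = x) (hax : ((σ ^ e) a)⁻¹ * a = x) :
    (σ ^ e) (a * (σ a)⁻¹) = a * (σ a)⁻¹ := by
  rw [map_mul, map_inv, comm_apply]
  have h1 : (σ ^ e) a = a * x⁻¹ := by
    rw [← hax]; group
  rw [h1, map_mul, map_inv, hx]
  group

theorem tw_iff {G : Type*} [Group G] (K A B L : G) :
    K * (A * B⁻¹) * L⁻¹ = A * B⁻¹ ↔ B⁻¹ * L * B = A⁻¹ * K * A := by
  constructor
  · intro h
    have h1 : L = B * A⁻¹ * K * A * B⁻¹ := by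
      have h2 : K * (A * B⁻¹) = A * B⁻¹ * L := mul_inv_eq_iff_eq_mul.1 h
      calc L = (A * B⁻¹)⁻¹ * (A * B⁻¹ * L) := by group
        _ = (A * B⁻¹)⁻¹ * (K * (A * B⁻¹)) := by rw [h2]
        _ = _ := by group
    rw [h1]; group
  · intro h
    have h1 : L = B * (A⁻¹ * K * A) * B⁻¹ := by
      rw [← h]; group
    rw [h1]; group

theorem comm_iff {G : Type*} [Group G] (T a h : G) :
    T * h * T⁻¹ = a * h * a⁻¹ ↔ h * (T⁻¹ * a) = (T⁻¹ * a) * h := by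
  constructor
  · intro H
    calc h * (T⁻¹ * a) = T⁻¹ * (T * h * T⁻¹) * a := by group
      _ = T⁻¹ * (a * h * a⁻¹) * a := by rw [H]
      _ = _ := by group
  · intro H
    calc T * h * T⁻¹ = T * (h * (T⁻¹ * a)) * a⁻¹ := by group
      _ = T * ((T⁻¹ * a) * h) * a⁻¹ := by rw [H]
      _ = _ := by group

/-- Centraliser correspondence. -/
theorem centralizer_iff {e : ℕ} {g a : X} (ha : g = a * (σ a)⁻¹) (k : X) :
    ((σ ^ e) k = k ∧ k * g * (σ k)⁻¹ = g) ↔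
      (σ (a⁻¹ * k * a) = a⁻¹ * k * a ∧
        (a⁻¹ * k * a) * (((σ ^ e) a)⁻¹ * a) = (((σ ^ e) a)⁻¹ * a) * (a⁻¹ * k * a)) := by
  have key : k * g * (σ k)⁻¹ = g ↔ σ (a⁻¹ * k * a) = a⁻¹ * k * a := by
    rw [ha, map_mul, map_mul, map_inv]
    exact tw_iff _ _ _ _
  have key2 : σ (a⁻¹ * k * a) = a⁻¹ * k * a → ((σ ^ e) k = k ↔
      (a⁻¹ * k * a) * (((σ ^ e) a)⁻¹ * a) = (((σ ^ e) a)⁻¹ * a) * (a⁻¹ * k * a)) := by
    intro hh
    rw [← comm_iff]
    have h1 := fix_pow σ hh e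
    have h2 : k = a * (a⁻¹ * k * a) * a⁻¹ := by group
    set h := a⁻¹ * k * a with hh'
    rw [h2, map_mul, map_mul, map_inv, h1]
  rw [key]
  constructor
  · rintro ⟨h1, h2⟩
    exact ⟨h2, (key2 h2).1 h1⟩
  · rintro ⟨h1, h2⟩
    exact ⟨(key2 h1).2 h2, h1⟩

theorem power_eq {e : ℕ} {g a : X} (hg : (σ ^ e) g = g) (ha : g = a * (σ a)⁻¹) (d : ℕ) :
    (((σ ^ d) ^ e) a)⁻¹ * a = (((σ ^ e) a)⁻¹ * a) ^ d := by
  have hx := x_fixed hg ha
  set x := ((σ ^ e) a)⁻¹ * a with hxdef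
  have hτ : (σ ^ e) x = x := fix_pow σ hx e
  have h1 : (σ ^ d) ^ e = (σ ^ e) ^ d := by
    rw [← pow_mul, ← pow_mul, mul_comm]
  rw [h1]
  clear h1
  have hτa : (σ ^ e) a = a * x⁻¹ := by
    rw [hxdef]; group
  induction d with
  | zero => simp
  | succ d ih =>
    rw [pow_succ (σ ^ e) d, pow_succ x d]
    show ((((σ ^ e) ^ d) ((σ ^ e) a)))⁻¹ * a = _
    rw [hτa, map_mul, map_inv, fix_pow (σ ^ e) hτ d]
    have : (((σ ^ e) ^ d) a * x⁻¹)⁻¹ * a = x * ((((σ ^ e) ^ d) a)⁻¹ * a) := by group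
    rw [this, ih]
    exact (Commute.pow_right (Commute.refl x) d).eq

theorem norm_fixed {e : ℕ} {g a : X} (hg : (σ ^ e) g = g) (ha : g = a * (σ a)⁻¹) (d : ℕ) :
    ((σ ^ d) ^ e) (((List.range d).map (fun i => (σ ^ i) g)).prod) =
      ((List.range d).map (fun i => (σ ^ i) g)).prod := by
  have hx := x_fixed hg ha
  rw [norm_eq ha d, map_mul, map_inv]
  have h1 : (σ ^ d) ^ e = (σ ^ e) ^ d := by
    rw [← pow_mul, ← pow_mul, mul_comm]
  have hp := power_eq hg ha d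
  rw [h1] at hp ⊢
  set x := ((σ ^ e) a)⁻¹ * a with hxdef
  have h2 : ((σ ^ e) ^ d) a = a * (x ^ d)⁻¹ := by
    rw [← hp]; group
  have hc : ((σ ^ e) ^ d) ((σ ^ d) a) = (σ ^ d) (((σ ^ e) ^ d) a) := by
    have : ((σ ^ e) ^ d) * (σ ^ d) = (σ ^ d) * ((σ ^ e) ^ d) :=
      (Commute.pow_left (Commute.pow_left (Commute.pow_right (Commute.refl σ) d) e) d).eq
    exact congrArg (fun f : MulAut X => f a) this
  rw [hc, h2, map_mul, map_inv, map_pow, fix_pow σ hx d]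
  group

end Cfsg.Agent.Lib.Shintani
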