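import Mathlib
import Cfsg.Prelude.Def_Balance
import Cfsg.Agent.Lib.Comp3
import Cfsg.Agent.Lib.H1SZ

set_option autoImplicit false
set_option linter.style.haveILetI false
set_option linter.unusedSectionVars false

/-! Generation of coprime groups by centralizers of hyperplanes of an elementary abelian group. -/

namespace Cfsg.Agent.Lib.SigGen

open Cfsg Cfsg.Agent.Lib.H1Core Cfsg.Agent.Lib.Comp Cfsg.Agent.Lib.Comp2
open scoped commutatorElement Pointwise

universe u

section AVG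

variable {Γ V : Type*} [Group Γ] [Finite Γ] [CommGroup V] [Finite V] {p : ℕ} [hp : Fact p.Prime]

/-- the stabiliser in `Γ` of an element, for an action through endomorphisms. -/
def stabSub (σ : Γ → V →* V) (h1 : ∀ v, σ 1 v = v) (hm : ∀ g h v, σ (g * h) v = σ g (σ h v))
    (w : V) : Subgroup Γ where
  carrier := {g | σ g w = w}
  one_mem' := h1 w
  mul_mem' := by
    intro a b ha hb
    show σ (a * b) w = w
    rw [hm, show σ b w = w from hb, show σ a w = w from ha]
  inv_mem' := by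
    intro a ha
    show σ a⁻¹ w = w
    have : σ a⁻¹ (σ a w) = w := by rw [← hm, inv_mul_cancel, h1]
    rwa [show σ a w = w from ha] at this

theorem index_eq_of_sup {E : Subgroup Γ} (hΓc : ∀ g h : Γ, g * h = h * g) (hΓp : ∀ g : Γ, g ^ p = 1)
    {a : Γ} (ha : a ∉ E) (hs : E ⊔ Subgroup.zpowers a = ⊤) : E.index = p := by
  have hn : E.Normal := ⟨fun n hn g => by rw [hΓc g n]; simpa using hn⟩
  have h1 : a ≠ 1 := fun h => ha (h ▸ E.one_mem)
  have ho : orderOf a = p := orderOf_eq_prime (hΓp a) h1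
  have h2 : E.index = E.relIndex (Subgroup.zpowers a) := by
    rw [← Subgroup.relIndex_sup_left, hs, Subgroup.relIndex_top_right]
  have h3 : E.index ∣ p := by
    rw [h2, ← ho, ← Nat.card_zpowers]
    exact Subgroup.relIndex_dvd_card _ _
  rcases (Nat.dvd_prime hp.out).mp h3 with h4 | h4
  · exfalso
    rw [Subgroup.index_eq_one] at h4
    exact ha (h4 ▸ Subgroup.mem_top a)
  · exact h4

/-- averaging: `V` abelian `p'`-group, `Γ` elementary abelian of rank at least 2 acting;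
if all hyperplanes act without fixed points, then `V` is trivial. -/
theorem avg_trivial (hΓc : ∀ g h : Γ, g * h = h * g) (hΓp : ∀ g : Γ, g ^ p = 1)
    (hcard : p ^ 2 ≤ Nat.card Γ) (hV : (Nat.card V).Coprime p)
    (σ : Γ → V →* V) (h1 : ∀ v, σ 1 v = v) (hm : ∀ g h v, σ (g * h) v = σ g (σ h v))
    (hfix : ∀ D : Subgroup Γ, D.index = p → ∀ v : V, (∀ d ∈ D, σ d v = v) → v = 1) (v : V) :
    v = 1 := by
  classical
  have hcomm : ∀ g h v, σ g (σ h v) = σ h (σ g v) := by
    intro g h v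
    rw [← hm, ← hm, hΓc]
  set St := stabSub σ h1 hm with hSt
  have hStmem : ∀ w g, g ∈ St w ↔ σ g w = w := fun _ _ => Iff.rfl
  have key : ∀ E : Subgroup Γ, ∀ v : V, (∀ e ∈ E, σ e v = v) → v = 1 := by
    intro E
    induction E using WellFoundedGT.induction with
    | ind E ih =>
      intro v hv
      by_cases hEtop : E = ⊤
      · -- a maximal proper subgroup
        have hnt : (⊥ : Subgroup Γ) ≠ ⊤ := by
          intro h
          have h2 : Nat.card Γ = 1 := by
            have := Subgroup.index_bot (G := Γ)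
            rw [h, Subgroup.index_top] at this
            exact this.symm
          rw [h2] at hcard
          have := hp.out.one_lt
          nlinarith
        obtain ⟨D, hD, hDmax⟩ := (wellFounded_gt (α := Subgroup Γ)).has_min
          {E : Subgroup Γ | E ≠ ⊤} ⟨⊥, hnt⟩
        obtain ⟨a, ha⟩ : ∃ a, a ∉ D := by
          by_contra hne
          push Not at hne
          exact hD (eq_top_iff.mpr fun x _ => hne x)
        have hs : D ⊔ Subgroup.zpowers a = ⊤ := by
          by_contra hne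
          refine hDmax _ hne ?_
          refine lt_of_le_of_ne le_sup_left ?_
          intro he
          apply ha
          rw [he]
          exact Subgroup.mem_sup_right (Subgroup.mem_zpowers a)
        exact hfix D (index_eq_of_sup hΓc hΓp ha hs) v fun d _ => hv d (by rw [hEtop]; trivial)
      · obtain ⟨a, ha⟩ : ∃ a, a ∉ E := by
          by_contra hne
          push Not at hne
          exact hEtop (eq_top_iff.mpr fun x _ => hne x)
        by_cases hE₁ : E ⊔ Subgroup.zpowers a = ⊤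
        · exact hfix E (index_eq_of_sup hΓc hΓp ha hE₁) v hv
        · obtain ⟨b, hb⟩ : ∃ b, b ∉ E ⊔ Subgroup.zpowers a := by
            by_contra hne
            push Not at hne
            exact hE₁ (eq_top_iff.mpr fun x _ => hne x)
          -- general fact: for c ∉ E and u fixed by E the sum over ⟨c⟩ vanishes
          have hup : ∀ c, c ∉ E → ∀ w, (∀ e ∈ E, σ e w = w) → σ c w = w → w = 1 := by
            intro c hc w hwE hwc
            apply ih (E ⊔ Subgroup.zpowers c)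
            · refine lt_of_le_of_ne le_sup_left ?_
              intro he
              apply hc
              rw [he]
              exact Subgroup.mem_sup_right (Subgroup.mem_zpowers c)
            · intro g hg
              have hle : E ⊔ Subgroup.zpowers c ≤ St w := by
                refine sup_le (fun e he => hwE e he) ?_
                rw [Subgroup.zpowers_le]
                exact hwc
              exact hle hg
          set T : Γ → V → V := fun c u => ∏ j ∈ Finset.range p, σ (c ^ j) u with hT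
          have hTfixc : ∀ c u, σ c (T c u) = T c u := by
            intro c u
            simp only [hT, map_prod]
            have h2 : ∀ j, σ c (σ (c ^ j) u) = σ (c ^ (j + 1)) u := by
              intro j; rw [← hm, pow_succ']
            simp only [h2]
            have h3 := Finset.prod_range_succ (fun j => σ (c ^ j) u) p
            have h4 := Finset.prod_range_succ' (fun j => σ (c ^ j) u) p
            simp only [hΓp c, h1, pow_zero] at h3 h4
            have h5 := h3.symm.trans h4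
            exact (mul_right_cancel h5).symm
          have hTE : ∀ c u, (∀ e ∈ E, σ e u = u) → ∀ e ∈ E, σ e (T c u) = T c u := by
            intro c u hu e he
            simp only [hT, map_prod]
            refine Finset.prod_congr rfl fun j _ => ?_
            rw [hcomm, hu e he]
          have hT1 : ∀ c, c ∉ E → ∀ w, (∀ e ∈ E, σ e w = w) → T c w = 1 := fun c hc w hw =>
            hup c hc _ (hTE c w hw) (hTfixc c w)
          have haj : ∀ j, 0 < j → j < p → a ^ j ∉ E := by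
            intro j hj0 hjp haj
            apply ha
            have hco : Nat.Coprime j p :=
              (Nat.coprime_of_lt_prime hj0.ne' hjp hp.out).symm
            obtain ⟨m, -, hm1⟩ := Nat.exists_mul_mod_eq_one_of_coprime hco hp.out.one_lt
            have : a = (a ^ j) ^ m := by
              rw [← pow_mul, pow_eq_pow_mod (j * m) (hΓp a), hm1, pow_one]
            rw [this]
            exact E.pow_mem haj m
          have hab : ∀ i, a ^ i * b ∉ E := by
            intro i hi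
            apply hb
            have : b = (a ^ i)⁻¹ * (a ^ i * b) := by group
            rw [this]
            exact (E ⊔ Subgroup.zpowers a).mul_mem
              (Subgroup.mem_sup_right ((Subgroup.zpowers a).inv_mem
                ((Subgroup.zpowers a).pow_mem (Subgroup.mem_zpowers a) i)))
              (Subgroup.mem_sup_left hi)
          have hcomp : ∏ i ∈ Finset.range p, T (a ^ i * b) v = 1 :=
            Finset.prod_eq_one fun i _ => hT1 _ (hab i) v hv
          have hmul : ∀ i j, (a ^ i * b) ^ j = (a ^ j) ^ i * b ^ j := by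
            intro i j
            have hc : Commute (a ^ i) b := hΓc _ _
            rw [hc.mul_pow, ← pow_mul, ← pow_mul, mul_comm]
          have hswap : ∏ i ∈ Finset.range p, T (a ^ i * b) v =
              ∏ j ∈ Finset.range p, T (a ^ j) (σ (b ^ j) v) := by
            simp only [hT]
            rw [Finset.prod_comm]
            refine Finset.prod_congr rfl fun j _ => Finset.prod_congr rfl fun i _ => ?_
            rw [hmul, hm]
          have hsingle : ∏ j ∈ Finset.range p, T (a ^ j) (σ (b ^ j) v) =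
              T (a ^ 0) (σ (b ^ 0) v) := by
            refine Finset.prod_eq_single_of_mem 0 (Finset.mem_range.mpr hp.out.pos) ?_
            intro j hj hj0
            refine hT1 _ (haj j (Nat.pos_of_ne_zero hj0) (Finset.mem_range.mp hj)) _ ?_
            intro e he
            rw [hcomm, hv e he]
          have hvp : v ^ p = 1 := by
            have h0 : T (a ^ 0) (σ (b ^ 0) v) = v ^ p := by
              simp only [hT, pow_zero, one_pow, h1, Finset.prod_const, Finset.card_range]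
            rw [← h0, ← hsingle, ← hswap, hcomp]
          have hcard1 : v ^ Nat.card V = 1 := pow_card_eq_one'
          have hd : orderOf v ∣ Nat.gcd p (Nat.card V) :=
            Nat.dvd_gcd (orderOf_dvd_of_pow_eq_one hvp) (orderOf_dvd_of_pow_eq_one hcard1)
          rw [Nat.coprime_comm.mp hV] at hd
          exact orderOf_eq_one_iff.mp (Nat.dvd_one.mp hd)
  exact key ⊥ v fun e he => by
    rw [Subgroup.mem_bot] at he
    rw [he, h1]

end AVG

section Gen

variable {G : Type*} [Group G] [Finite G] {p q : ℕ} [hp : Fact p.Prime] [hq : Fact q.Prime]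

/-- conjugation by `c ∈ N(R)` as an endomorphism of `↥R`. -/
def conjOn (R : Subgroup G) (c : G) (hc : c ∈ Subgroup.normalizer (R : Set G)) : ↥R →* ↥R :=
  ((MulAut.conj c).toMonoidHom.comp R.subtype).codRestrict R (fun x => by
    show c * (x : G) * c⁻¹ ∈ R
    exact (Subgroup.mem_normalizer_iff.mp hc x).mp x.2)

@[simp] theorem conjOn_coe (R : Subgroup G) (c : G) (hc : c ∈ Subgroup.normalizer (R : Set G))
    (x : ↥R) : (conjOn R c hc x : G) = c * (x : G) * c⁻¹ := rfl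

/-- the action on `center` of a group of a pair of mutually inverse endomorphisms. -/
def centerRestrict {X : Type*} [Group X] (φ ψ : X →* X) (h : ∀ x, φ (ψ x) = x) :
    Subgroup.center X →* Subgroup.center X :=
  (φ.comp (Subgroup.center X).subtype).codRestrict (Subgroup.center X) (fun z => by
    rw [Subgroup.mem_center_iff]
    intro y
    rw [← h y]
    simp only [MonoidHom.comp_apply, Subgroup.subtype_apply, ← map_mul]
    congr 1
    exact Subgroup.mem_center_iff.mp z.2 _)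

theorem elemAb_pgroup {A : Subgroup G} (hA : IsElementaryAbelian p A) : IsPGroup p A :=
  fun g => ⟨1, by
    ext
    simpa using hA.2 g g.2⟩

theorem exists_fixed_hyperplane (hqp : q ≠ p) {A R Q₀ : Subgroup G}
    (hA : IsElementaryAbelian p A) (hA2 : p ^ 2 ≤ Nat.card A) (hR : IsPGroup q R)
    (hQR : Q₀ ≤ R) (hne : Q₀ ≠ R) (hnorm : R ≤ Subgroup.normalizer (Q₀ : Set G))
    (hAR : A ≤ Subgroup.normalizer (R : Set G)) (hAQ : A ≤ Subgroup.normalizer (Q₀ : Set G)) :
    ∃ D : Subgroup G, D ≤ A ∧ D.relIndex A = p ∧ ∃ x ∈ R, x ∉ Q₀ ∧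
      x ∈ Subgroup.centralizer (D : Set G) := by
  classical
  by_contra hcon
  push Not at hcon
  have hN : (Q₀.subgroupOf R).Normal := by
    constructor
    intro n hn g
    rw [Subgroup.mem_subgroupOf] at hn ⊢
    exact (Subgroup.mem_normalizer_iff.mp (hnorm g.2) n).mp hn
  have hconjQ : ∀ c (hc : c ∈ A), Q₀.subgroupOf R ≤
      (Q₀.subgroupOf R).comap (conjOn R c (hAR hc)) := by
    intro c hc x hx
    rw [Subgroup.mem_comap, Subgroup.mem_subgroupOf] at *
    exact (Subgroup.mem_normalizer_iff.mp (hAQ hc) x).mp hx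
  let φ : ∀ c : ↥A, (↥R ⧸ Q₀.subgroupOf R) →* (↥R ⧸ Q₀.subgroupOf R) := fun c =>
    QuotientGroup.map _ _ (conjOn R c (hAR c.2)) (hconjQ c c.2)
  have hφmk : ∀ (c : ↥A) (k : ↥R), φ c (k : ↥R ⧸ Q₀.subgroupOf R) =
      ((conjOn R c (hAR c.2) k : ↥R) : ↥R ⧸ Q₀.subgroupOf R) := fun c k => rfl
  have hφ1 : ∀ x, φ 1 x = x := by
    intro x
    induction x using QuotientGroup.induction_on with
    | H k =>
      rw [hφmk]
      congr 1
      ext
      simp
  have hφm : ∀ g h x, φ (g * h) x = φ g (φ h x) := by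
    intro g h x
    induction x using QuotientGroup.induction_on with
    | H k =>
      rw [hφmk, hφmk, hφmk]
      congr 1
      ext
      simp [mul_assoc]
  have hφinv : ∀ (c : ↥A) x, φ c (φ c⁻¹ x) = x := by
    intro c x
    rw [← hφm, mul_inv_cancel, hφ1]
  let σ : ↥A → Subgroup.center (↥R ⧸ Q₀.subgroupOf R) →* Subgroup.center (↥R ⧸ Q₀.subgroupOf R) :=
    fun c => centerRestrict (φ c) (φ c⁻¹) (hφinv c)
  have hσval : ∀ c v, ((σ c v : Subgroup.center (↥R ⧸ Q₀.subgroupOf R)) : ↥R ⧸ Q₀.subgroupOf R) =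
      φ c v := fun c v => rfl
  have hqV : IsPGroup q (Subgroup.center (↥R ⧸ Q₀.subgroupOf R)) :=
    (hR.to_quotient _).to_subgroup _
  have hcop : (Nat.card (Subgroup.center (↥R ⧸ Q₀.subgroupOf R))).Coprime p := by
    obtain ⟨n, hn⟩ := IsPGroup.iff_card.mp hqV
    rw [hn]
    exact Nat.Coprime.pow_left _ ((Nat.coprime_primes hq.out hp.out).mpr hqp)
  have hcommA : ∀ g h : ↥A, g * h = h * g := by
    intro g h
    exact hA.1.is_comm.comm g h
  have hpowA : ∀ g : ↥A, g ^ p = 1 := by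
    intro g
    ext
    simpa using hA.2 g g.2
  letI instV : CommGroup (Subgroup.center (↥R ⧸ Q₀.subgroupOf R)) :=
    { (inferInstance : Group (Subgroup.center (↥R ⧸ Q₀.subgroupOf R))) with
      mul_comm := fun a b => mul_comm' a b }
  have htriv := avg_trivial (p := p) hcommA hpowA hA2 hcop σ
    (fun v => Subtype.ext (hφ1 _)) (fun g h v => Subtype.ext (hφm g h _)) ?_
  · -- contradiction with nontrivial center
    obtain ⟨x, hxR, hxQ⟩ : ∃ x ∈ R, x ∉ Q₀ := by
      by_contra hno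
      push Not at hno
      exact hne (le_antisymm hQR hno)
    haveI : Nontrivial (↥R ⧸ Q₀.subgroupOf R) := by
      refine ⟨⟨((⟨x, hxR⟩ : ↥R) : ↥R ⧸ Q₀.subgroupOf R), 1, ?_⟩⟩
      intro h
      rw [QuotientGroup.eq_one_iff, Subgroup.mem_subgroupOf] at h
      exact hxQ h
    haveI := IsPGroup.center_nontrivial (hR.to_quotient (Q₀.subgroupOf R))
    obtain ⟨z, hz⟩ := exists_ne (1 : Subgroup.center (↥R ⧸ Q₀.subgroupOf R))
    exact hz (htriv z)
  · intro D hD v hv
    obtain ⟨k, hk⟩ := QuotientGroup.mk_surjective (v : ↥R ⧸ Q₀.subgroupOf R)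
    set D' : Subgroup G := D.map A.subtype with hD'
    have hD'A : D' ≤ A := Subgroup.map_subtype_le _
    have hD'idx : D'.relIndex A = p := by
      rw [Subgroup.relIndex, hD', H1Cop.map_subgroupOf_eq', hD]
    have hD'p : IsPGroup p D' := IsPGroup.to_le (elemAb_pgroup hA) hD'A
    have hfix : ∀ d ∈ D', d * (k : G) * d⁻¹ * (k : G)⁻¹ ∈ Q₀ := by
      intro d hd
      obtain ⟨d₀, hd₀, rfl⟩ := Subgroup.mem_map.mp hd
      have h1 := congrArg Subtype.val (hv d₀ hd₀)
      rw [hσval, ← hk, hφmk, QuotientGroup.eq, Subgroup.mem_subgroupOf] at h1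
      have h2 : ((d₀ : G) * (k : G) * (d₀ : G)⁻¹)⁻¹ * (k : G) ∈ Q₀ := by
        simpa using h1
      have h3 := Q₀.inv_mem h2
      have h4 := (Subgroup.mem_normalizer_iff.mp (hnorm k.2) _).mp h3
      have e : (k : G) * (((d₀ : G) * (k : G) * (d₀ : G)⁻¹)⁻¹ * (k : G))⁻¹ * (k : G)⁻¹ =
          (d₀ : G) * (k : G) * (d₀ : G)⁻¹ * (k : G)⁻¹ := by group
      rw [e] at h4
      simpa using h4
    obtain ⟨n, hn, hnk⟩ := H1Cop.fixed_of_coset (A := D') (N := Q₀) (K := R)
      (hD'A.trans hAR) hQR (hD'A.trans hAQ)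
      (IsPGroup.coprime_card_of_ne p q hqp.symm D' R hD'p hR)
      (Or.inr (by haveI := hR.isNilpotent; infer_instance)) k.2 hfix
    have hmem : n * (k : G) ∈ Q₀ := by
      by_contra hnot
      exact hcon D' hD'A hD'idx _ (Subgroup.mem_inf.mp hnk).1 hnot (Subgroup.mem_inf.mp hnk).2
    have hkQ : (k : G) ∈ Q₀ := by
      have := Q₀.mul_mem (Q₀.inv_mem hn) hmem
      simpa using this
    apply Subtype.ext
    show (v : ↥R ⧸ Q₀.subgroupOf R) = 1
    rw [← hk, QuotientGroup.eq_one_iff, Subgroup.mem_subgroupOf]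
    exact hkQ

/-- The `q`-group version of the generation theorem. -/
theorem gen_qgroup (hqp : q ≠ p) {A Q : Subgroup G}
    (hA : IsElementaryAbelian p A) (hA2 : p ^ 2 ≤ Nat.card A) (hQ : IsPGroup q Q)
    (hAQ : A ≤ Subgroup.normalizer (Q : Set G)) :
    Q ≤ ⨆ D : {D : Subgroup G // D ≤ A ∧ D.relIndex A = p},
      Q ⊓ Subgroup.centralizer ((D : Subgroup G) : Set G) := by
  classical
  set Q₀ : Subgroup G := ⨆ D : {D : Subgroup G // D ≤ A ∧ D.relIndex A = p},
      Q ⊓ Subgroup.centralizer ((D : Subgroup G) : Set G) with hQ₀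
  have hQ₀Q : Q₀ ≤ Q := iSup_le fun D => inf_le_left
  have hmemQ₀ : ∀ D : Subgroup G, D ≤ A → D.relIndex A = p → ∀ x ∈ Q,
      x ∈ Subgroup.centralizer (D : Set G) → x ∈ Q₀ := by
    intro D hD hDi x hx hxD
    exact (le_iSup (fun D : {D : Subgroup G // D ≤ A ∧ D.relIndex A = p} =>
      Q ⊓ Subgroup.centralizer ((D : Subgroup G) : Set G)) ⟨D, hD, hDi⟩)
      (Subgroup.mem_inf.mpr ⟨hx, hxD⟩)
  have hAQ₀ : A ≤ Subgroup.normalizer (Q₀ : Set G) := by
    refine Subgroup.le_normalizer_iff.mpr ?_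
    intro b hb x hx
    have hle : Q₀ ≤ Q₀.comap (MulAut.conj b).toMonoidHom := by
      refine iSup_le fun D => ?_
      intro y hy
      obtain ⟨hyQ, hyD⟩ := Subgroup.mem_inf.mp hy
      show b * y * b⁻¹ ∈ Q₀
      refine hmemQ₀ D.1 D.2.1 D.2.2 _ (H1Cop.conj_mem_of_normalizer hAQ hb hyQ) ?_
      rw [Subgroup.mem_centralizer_iff] at hyD ⊢
      intro d hd
      have h1 := hyD d hd
      have h2 : b * d = d * b := by
        have := hA.1.is_comm.comm (⟨b, hb⟩ : A) ⟨d, D.2.1 hd⟩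
        exact congrArg Subtype.val this
      have h3 : d * b⁻¹ = b⁻¹ * d := by
        rw [eq_inv_mul_iff_mul_eq, ← mul_assoc, h2, mul_assoc, mul_inv_cancel, mul_one]
      calc d * (b * y * b⁻¹) = (d * b) * y * b⁻¹ := by group
        _ = (b * d) * y * b⁻¹ := by rw [h2]
        _ = b * (d * y) * b⁻¹ := by group
        _ = b * (y * d) * b⁻¹ := by rw [h1]
        _ = b * y * (d * b⁻¹) := by group
        _ = b * y * (b⁻¹ * d) := by rw [h3]
        _ = b * y * b⁻¹ * d := by group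
    exact hle hx
  by_contra hnot
  have hlt : Q₀ < Q := lt_of_le_of_ne hQ₀Q fun h => hnot (h ▸ le_rfl)
  haveI hQnil : Group.IsNilpotent Q := hQ.isNilpotent
  have hlt' : Q₀.subgroupOf Q < ⊤ := by
    rw [lt_top_iff_ne_top]
    intro h
    rw [Subgroup.subgroupOf_eq_top] at h
    exact absurd (le_antisymm hQ₀Q h) hlt.ne
  have hlt2 := Group.normalizerCondition_of_isNilpotent (G := Q) _ hlt'
  obtain ⟨y, hyN, hyQ₀⟩ := SetLike.exists_of_lt hlt2
  have hyN' : (y : G) ∈ Subgroup.normalizer (Q₀ : Set G) := by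
    rw [Subgroup.mem_normalizer_iff]
    intro z
    constructor
    · intro hz
      have := (Subgroup.mem_normalizer_iff.mp hyN ⟨z, hQ₀Q hz⟩).mp (by
        rw [Subgroup.mem_subgroupOf]; exact hz)
      rwa [Subgroup.mem_subgroupOf] at this
    · intro hz
      have hzQ : z ∈ Q := by
        have h1 := hQ₀Q hz
        have h2 : z = (y : G)⁻¹ * ((y : G) * z * (y : G)⁻¹) * (y : G) := by group
        rw [h2]
        exact Q.mul_mem (Q.mul_mem (Q.inv_mem y.2) h1) y.2
      have := (Subgroup.mem_normalizer_iff.mp hyN ⟨z, hzQ⟩).mpr (by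
        rw [Subgroup.mem_subgroupOf]; exact hz)
      rwa [Subgroup.mem_subgroupOf] at this
  set R : Subgroup G := Q ⊓ Subgroup.normalizer (Q₀ : Set G) with hR
  have hRQ : R ≤ Q := inf_le_left
  have hQ₀R : Q₀ ≤ R := le_inf hQ₀Q Subgroup.le_normalizer
  have hne : Q₀ ≠ R := by
    intro h
    apply hyQ₀
    rw [Subgroup.mem_subgroupOf, h]
    exact Subgroup.mem_inf.mpr ⟨y.2, hyN'⟩
  have hAR : A ≤ Subgroup.normalizer (R : Set G) := by
    refine Subgroup.le_normalizer_iff.mpr ?_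
    intro b hb x hx
    obtain ⟨hxQ, hxN⟩ := Subgroup.mem_inf.mp hx
    refine Subgroup.mem_inf.mpr ⟨H1Cop.conj_mem_of_normalizer hAQ hb hxQ, ?_⟩
    exact Subgroup.mul_mem _ (Subgroup.mul_mem _ (hAQ₀ hb) hxN) (Subgroup.inv_mem _ (hAQ₀ hb))
  obtain ⟨D, hD, hDi, x, hxR, hxQ₀, hxD⟩ := exists_fixed_hyperplane hqp hA hA2
    (hQ.to_le hRQ) hQ₀R hne inf_le_right hAR hAQ₀
  exact hxQ₀ (hmemQ₀ D hD hDi x (hRQ hxR) hxD)

/-- Generation of a coprime subgroup by the centralizers of the hyperplanes. -/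
theorem gen_general {A X : Subgroup G} (hA : IsElementaryAbelian p A)
    (hA2 : p ^ 2 ≤ Nat.card A) (hX : ¬ p ∣ Nat.card X)
    (hAX : A ≤ Subgroup.normalizer (X : Set G)) :
    X ≤ ⨆ D : {D : Subgroup G // D ≤ A ∧ D.relIndex A = p},
      X ⊓ Subgroup.centralizer ((D : Subgroup G) : Set G) := by
  classical
  set W : Subgroup G := ⨆ D : {D : Subgroup G // D ≤ A ∧ D.relIndex A = p},
      X ⊓ Subgroup.centralizer ((D : Subgroup G) : Set G) with hW
  have hWX : W ≤ X := iSup_le fun D => inf_le_left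
  have hApg : IsPGroup p A := elemAb_pgroup hA
  have hcop : (Nat.card A).Coprime (Nat.card X) := by
    obtain ⟨n, hn⟩ := IsPGroup.iff_card.mp hApg
    rw [hn]
    exact Nat.Coprime.pow_left _ ((Nat.Prime.coprime_iff_not_dvd hp.out).mpr hX)
  have hAsolv : Group.IsSolvable A := by
    haveI := hApg.isNilpotent
    infer_instance
  have hindex : W.relIndex X = 1 := by
    by_contra hne
    obtain ⟨q, hqprime, hqdvd⟩ := Nat.exists_prime_and_dvd hne
    haveI : Fact q.Prime := ⟨hqprime⟩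
    obtain ⟨Q, hQS, hQA⟩ := H1Cop.exists_invariant_sylow hAX hcop (Or.inl hAsolv) q
    obtain ⟨hQX, hQp, hQi⟩ := hQS
    have hqp : q ≠ p := by
      rintro rfl
      apply hX
      have h1 : q ∣ Nat.card X := by
        refine hqdvd.trans ?_
        exact Subgroup.relIndex_dvd_card _ _
      exact h1
    have hQW : Q ≤ W := by
      refine (gen_qgroup hqp hA hA2 hQp hQA).trans ?_
      refine iSup_mono fun D => ?_
      exact inf_le_inf_right _ hQX
    apply hQi
    have h1 : W.relIndex X ∣ Q.relIndex X := by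
      have := Subgroup.relIndex_mul_relIndex Q W X hQW hWX
      rw [← this]
      exact Dvd.intro_left _ rfl
    exact hqdvd.trans h1
  exact Subgroup.relIndex_eq_one.mp hindex

theorem elemAb_of_le {A B : Subgroup G} (hA : IsElementaryAbelian p A) (hB : B ≤ A) :
    IsElementaryAbelian p B := by
  refine ⟨?_, fun a ha => hA.2 a (hB ha)⟩
  refine IsMulCommutative.of_comm fun x y => ?_
  apply Subtype.ext
  show (x : G) * y = y * x
  exact congrArg Subtype.val (hA.1.is_comm.comm (⟨x, hB x.2⟩ : A) ⟨y, hB y.2⟩)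

theorem elemAb_comm {A : Subgroup G} (hA : IsElementaryAbelian p A) {x y : G} (hx : x ∈ A)
    (hy : y ∈ A) : x * y = y * x :=
  congrArg Subtype.val (hA.1.is_comm.comm (⟨x, hx⟩ : A) ⟨y, hy⟩)

/-- `⟨a⟩` for `a ^ p = 1` is coprime to any `p'`-group. -/
theorem zpowers_coprime {a : G} (ha : a ^ p = 1) {K : Subgroup G} (hK : ¬ p ∣ Nat.card K) :
    (Nat.card (Subgroup.zpowers a)).Coprime (Nat.card K) := by
  rw [Nat.card_zpowers]
  have hd : orderOf a ∣ p := orderOf_dvd_of_pow_eq_one ha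
  rcases (Nat.dvd_prime hp.out).mp hd with h | h
  · rw [h]; exact Nat.coprime_one_left _
  · rw [h]; exact (Nat.Prime.coprime_iff_not_dvd hp.out).mpr hK

theorem zpowers_solvable (a : G) : Group.IsSolvable (Subgroup.zpowers a) := by
  haveI : IsMulCommutative (Subgroup.zpowers a) := inferInstance
  exact Group.isSolvable_of_comm (fun x y => mul_comm' x y)

theorem zpowers_le_normalizer {A K : Subgroup G} (hA : ∀ b ∈ A, ∀ u ∈ K, b * u * b⁻¹ ∈ K) {a : G}
    (ha : a ∈ A) : Subgroup.zpowers a ≤ Subgroup.normalizer (K : Set G) := by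
  rw [Subgroup.zpowers_le]
  exact (Subgroup.le_normalizer_iff.mpr hA) ha

/-- Solvability of `XY`. -/
theorem isSolvable_sup_of_normalizes {X Y : Subgroup G} (hn : Y ≤ Subgroup.normalizer (X : Set G))
    (hX : Group.IsSolvable X) (hY : Group.IsSolvable Y) : Group.IsSolvable ↥(X ⊔ Y) := by
  haveI hN : (X.subgroupOf (X ⊔ Y)).Normal := H1Cop.normal_subgroupOf_sup hn
  let g : ↥(X ⊔ Y) →* ↥(X ⊔ Y) ⧸ X.subgroupOf (X ⊔ Y) := QuotientGroup.mk' _
  haveI hAsolv : Group.IsSolvable ↥(X.subgroupOf (X ⊔ Y)) :=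
    Group.isSolvable_of_isSolvable_injective
      (f := (Subgroup.subgroupOfEquivOfLe (le_sup_left : X ≤ X ⊔ Y)).toMonoidHom)
      (Subgroup.subgroupOfEquivOfLe (le_sup_left : X ≤ X ⊔ Y)).injective
  haveI hCsolv : Group.IsSolvable (↥(X ⊔ Y) ⧸ X.subgroupOf (X ⊔ Y)) := by
    let h : ↥Y →* ↥(X ⊔ Y) ⧸ X.subgroupOf (X ⊔ Y) :=
      g.comp (Subgroup.inclusion le_sup_right)
    refine Group.isSolvable_of_surjective (f := h) ?_
    intro z
    obtain ⟨⟨x, hx⟩, rfl⟩ := QuotientGroup.mk_surjective z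
    obtain ⟨u, hu, v, hv, rfl⟩ := (H1Cop.mem_sup_iff hn).mp hx
    refine ⟨⟨v, hv⟩, ?_⟩
    show QuotientGroup.mk _ = QuotientGroup.mk _
    rw [QuotientGroup.eq, Subgroup.mem_subgroupOf]
    have := H1Cop.conj_mem_of_normalizer hn (Y.inv_mem hv) hu
    simpa [mul_assoc] using this
  exact Group.isSolvable_of_ker_le_range (X.subgroupOf (X ⊔ Y)).subtype g (by
    intro x hx
    rw [MonoidHom.mem_ker, QuotientGroup.mk'_apply, QuotientGroup.eq_one_iff] at hx
    exact ⟨⟨x, hx⟩, rfl⟩)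

theorem not_dvd_card_sup {X Y : Subgroup G} (hn : Y ≤ Subgroup.normalizer (X : Set G))
    (hX : ¬ p ∣ Nat.card X) (hY : ¬ p ∣ Nat.card Y) : ¬ p ∣ Nat.card ↥(X ⊔ Y) := by
  intro h
  have h1 := H1Cop.card_sup_mul_inf_of_normalizes hn
  have h2 : p ∣ Nat.card X * Nat.card Y := by
    rw [mul_comm, ← h1, sup_comm]
    exact Dvd.dvd.mul_right h _
  rcases (Nat.Prime.dvd_mul hp.out).mp h2 with h3 | h3
  · exact hX h3
  · exact hY h3

theorem conj_mem_sup {X Y : Subgroup G} {b : G} (hX : ∀ u ∈ X, b * u * b⁻¹ ∈ X)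
    (hY : ∀ u ∈ Y, b * u * b⁻¹ ∈ Y) {u : G} (hu : u ∈ X ⊔ Y) : b * u * b⁻¹ ∈ X ⊔ Y := by
  have : X ⊔ Y ≤ (X ⊔ Y).comap (MulAut.conj b).toMonoidHom := by
    refine sup_le (fun x hx => ?_) (fun x hx => ?_)
    · exact Subgroup.mem_sup_left (hX x hx)
    · exact Subgroup.mem_sup_right (hY x hx)
  exact this hu

/-- `XY` belongs to the family if `X` and `Y` do and `Y` normalizes `X` -/
theorem family_sup {A : Subgroup G} (hA : IsElementaryAbelian p A) {θ : G → Subgroup G}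
    {X Y : Subgroup G} (hX : X ∈ signalizerFamily p A θ) (hY : Y ∈ signalizerFamily p A θ)
    (hn : Y ≤ Subgroup.normalizer (X : Set G)) : X ⊔ Y ∈ signalizerFamily p A θ := by
  obtain ⟨hXs, hXp, hXA, hXθ⟩ := hX
  obtain ⟨hYs, hYp, hYA, hYθ⟩ := hY
  refine ⟨isSolvable_sup_of_normalizes hn hXs hYs, not_dvd_card_sup hn hXp hYp, ?_, ?_⟩
  · intro b hb u hu
    exact conj_mem_sup (hXA b hb) (hYA b hb) hu
  · intro a ha ha1 x hx
    obtain ⟨hxs, hxa⟩ := Subgroup.mem_inf.mp hx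
    obtain ⟨u, hu, v, hv, rfl⟩ := (H1Cop.mem_sup_iff hn).mp hxs
    have hzc : Subgroup.zpowers a ≤ Subgroup.centralizer {u * v} := by
      rw [Subgroup.zpowers_le, Subgroup.mem_centralizer_iff]
      intro y hy
      rw [Set.mem_singleton_iff] at hy
      subst hy
      exact (Subgroup.mem_centralizer_iff.mp hxa a rfl).symm
    have hfix : ∀ c ∈ Subgroup.zpowers a, c * v * c⁻¹ * v⁻¹ ∈ X ⊓ Y := by
      intro c hc
      have hcA : c ∈ A := (Subgroup.zpowers_le.mpr ha) hc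
      have hcomm : c * (u * v) = (u * v) * c := by
        have := Subgroup.mem_centralizer_iff.mp (hzc hc) (u * v) rfl
        exact this.symm
      refine Subgroup.mem_inf.mpr ⟨?_, ?_⟩
      · have h1 : c * v * c⁻¹ * v⁻¹ = (c * u * c⁻¹)⁻¹ * u := by
          have : c * u * v * c⁻¹ = u * v := by
            rw [mul_assoc c, hcomm, mul_assoc, mul_inv_cancel, mul_one]
          calc c * v * c⁻¹ * v⁻¹ = (c * u * c⁻¹)⁻¹ * (c * u * v * c⁻¹) * v⁻¹ := by group
            _ = (c * u * c⁻¹)⁻¹ * (u * v) * v⁻¹ := by rw [this]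
            _ = (c * u * c⁻¹)⁻¹ * u := by group
        rw [h1]
        exact X.mul_mem (X.inv_mem (hXA c hcA u hu)) hu
      · exact Y.mul_mem (hYA c hcA v hv) (Y.inv_mem hv)
    have hcop := zpowers_coprime (hA.2 a ha) hYp
    obtain ⟨n, hn', hnv⟩ := H1Cop.fixed_of_coset (A := Subgroup.zpowers a) (N := X ⊓ Y) (K := Y)
      (zpowers_le_normalizer hYA ha) inf_le_right
      (zpowers_le_normalizer (fun b hb u hu => Subgroup.mem_inf.mpr
        ⟨hXA b hb u (Subgroup.mem_inf.mp hu).1, hYA b hb u (Subgroup.mem_inf.mp hu).2⟩) ha)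
      hcop (Or.inl (zpowers_solvable a)) hv hfix
    obtain ⟨hnvY, hnvc⟩ := Subgroup.mem_inf.mp hnv
    have hac : a ∈ Subgroup.zpowers a := Subgroup.mem_zpowers a
    have h1 : n * v ∈ Y ⊓ Subgroup.centralizer {a} := by
      refine Subgroup.mem_inf.mpr ⟨hnvY, ?_⟩
      rw [Subgroup.mem_centralizer_iff] at hnvc ⊢
      intro y hy
      rw [Set.mem_singleton_iff] at hy
      subst hy
      exact hnvc _ hac
    have h2 : u * n⁻¹ ∈ X ⊓ Subgroup.centralizer {a} := by
      refine Subgroup.mem_inf.mpr ⟨X.mul_mem hu (X.inv_mem (Subgroup.mem_inf.mp hn').1), ?_⟩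
      have e : u * n⁻¹ = (u * v) * (n * v)⁻¹ := by group
      rw [e]
      exact Subgroup.mul_mem _ hxa (Subgroup.inv_mem _ (Subgroup.mem_inf.mp h1).2)
    have e : u * v = (u * n⁻¹) * (n * v) := by group
    rw [e]
    exact (θ a).mul_mem (hXθ a ha ha1 h2) (hYθ a ha ha1 h1)

/-- The normalizer grows in `q`-groups. -/
theorem lt_inf_normalizer {Q Q₀ : Subgroup G} (hQ : IsPGroup q Q) (hlt : Q₀ < Q) :
    Q₀ < Q ⊓ Subgroup.normalizer (Q₀ : Set G) := by
  haveI hQnil : Group.IsNilpotent Q := hQ.isNilpotent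
  have hQ₀Q := hlt.le
  have hlt' : Q₀.subgroupOf Q < ⊤ := by
    rw [lt_top_iff_ne_top]
    intro h
    rw [Subgroup.subgroupOf_eq_top] at h
    exact absurd (le_antisymm hQ₀Q h) hlt.ne
  have hlt2 := Group.normalizerCondition_of_isNilpotent (G := Q) _ hlt'
  obtain ⟨y, hyN, hyQ₀⟩ := SetLike.exists_of_lt hlt2
  have hyN' : (y : G) ∈ Subgroup.normalizer (Q₀ : Set G) := by
    rw [Subgroup.mem_normalizer_iff]
    intro z
    constructor
    · intro hz
      have := (Subgroup.mem_normalizer_iff.mp hyN ⟨z, hQ₀Q hz⟩).mp (by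
        rw [Subgroup.mem_subgroupOf]; exact hz)
      rwa [Subgroup.mem_subgroupOf] at this
    · intro hz
      have hzQ : z ∈ Q := by
        have h1 := hQ₀Q hz
        have h2 : z = (y : G)⁻¹ * ((y : G) * z * (y : G)⁻¹) * (y : G) := by group
        rw [h2]
        exact Q.mul_mem (Q.mul_mem (Q.inv_mem y.2) h1) y.2
      have := (Subgroup.mem_normalizer_iff.mp hyN ⟨z, hzQ⟩).mpr (by
        rw [Subgroup.mem_subgroupOf]; exact hz)
      rwa [Subgroup.mem_subgroupOf] at this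
  refine lt_of_le_of_ne (le_inf hQ₀Q Subgroup.le_normalizer) ?_
  intro h
  apply hyQ₀
  rw [Subgroup.mem_subgroupOf, h]
  exact Subgroup.mem_inf.mpr ⟨y.2, hyN'⟩

theorem normalizer_inf_normalizer {A Q Q₀ : Subgroup G} (hAQ : A ≤ Subgroup.normalizer (Q : Set G))
    (hAQ₀ : A ≤ Subgroup.normalizer (Q₀ : Set G)) :
    A ≤ Subgroup.normalizer ((Q ⊓ Subgroup.normalizer (Q₀ : Set G) : Subgroup G) : Set G) := by
  refine Subgroup.le_normalizer_iff.mpr ?_
  intro b hb x hx
  obtain ⟨hxQ, hxN⟩ := Subgroup.mem_inf.mp hx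
  refine Subgroup.mem_inf.mpr ⟨H1Cop.conj_mem_of_normalizer hAQ hb hxQ, ?_⟩
  exact Subgroup.mul_mem _ (Subgroup.mul_mem _ (hAQ₀ hb) hxN) (Subgroup.inv_mem _ (hAQ₀ hb))

theorem inf_normalizer {A Q₁ Q₂ : Subgroup G} (hA₁ : A ≤ Subgroup.normalizer (Q₁ : Set G))
    (hA₂ : A ≤ Subgroup.normalizer (Q₂ : Set G)) :
    A ≤ Subgroup.normalizer ((Q₁ ⊓ Q₂ : Subgroup G) : Set G) := by
  refine Subgroup.le_normalizer_iff.mpr ?_
  intro b hb x hx
  obtain ⟨h1, h2⟩ := Subgroup.mem_inf.mp hx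
  exact Subgroup.mem_inf.mpr ⟨H1Cop.conj_mem_of_normalizer hA₁ hb h1,
    H1Cop.conj_mem_of_normalizer hA₂ hb h2⟩

/-- two hyperplanes meet nontrivially in a group of rank at least 3 -/
theorem exists_ne_one_inf {A B₁ B₂ : Subgroup G} (hA3 : p ^ 3 ≤ Nat.card A) (hB₁ : B₁ ≤ A)
    (hB₂ : B₂ ≤ A) (h₁ : B₁.relIndex A = p) (h₂ : B₂.relIndex A = p) :
    ∃ a ∈ B₁ ⊓ B₂, a ≠ 1 := by
  by_contra hno
  push Not at hno
  have hbot : B₁.subgroupOf A ⊓ B₂.subgroupOf A = ⊥ := by
    rw [eq_bot_iff]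
    intro x hx
    have hx1 : (x : G) ∈ B₁ := Subgroup.mem_subgroupOf.mp (Subgroup.mem_inf.mp hx).1
    have hx2 : (x : G) ∈ B₂ := Subgroup.mem_subgroupOf.mp (Subgroup.mem_inf.mp hx).2
    have := hno x (Subgroup.mem_inf.mpr ⟨hx1, hx2⟩)
    rw [Subgroup.mem_bot]
    exact Subtype.ext this
  have hle := Subgroup.index_inf_le (H := B₁.subgroupOf A) (K := B₂.subgroupOf A)
  rw [hbot, Subgroup.index_bot] at hle
  have e1 : (B₁.subgroupOf A).index = p := h₁
  have e2 : (B₂.subgroupOf A).index = p := h₂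
  rw [e1, e2] at hle
  have hp2 := hp.out.one_lt
  have : p ^ 3 ≤ p * p := hA3.trans hle
  nlinarith [Nat.pos_of_ne_zero hp.out.ne_zero]

/-- The intersection-step of the transitivity theorem: the element `a` of the Glauberman lemma. -/
theorem exists_common_a (hqp : q ≠ p) {A Q₁ Q₂ : Subgroup G} (hA : IsElementaryAbelian p A)
    (hA3 : p ^ 3 ≤ Nat.card ↥A) (h₁ : IsPGroup q ↥Q₁) (h₂ : IsPGroup q ↥Q₂)
    (hA₁ : A ≤ Subgroup.normalizer (Q₁ : Set G)) (hA₂ : A ≤ Subgroup.normalizer (Q₂ : Set G))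
    (hD₁ : Q₁ ⊓ Q₂ ≠ Q₁) (hD₂ : Q₁ ⊓ Q₂ ≠ Q₂) :
    ∃ a ∈ A, a ≠ 1 ∧
      (∃ x ∈ Q₁, x ∈ Subgroup.normalizer ((Q₁ ⊓ Q₂ : Subgroup G) : Set G) ∧
        x ∈ Subgroup.centralizer {a} ∧ x ∉ Q₁ ⊓ Q₂) ∧
      (∃ x ∈ Q₂, x ∈ Subgroup.normalizer ((Q₁ ⊓ Q₂ : Subgroup G) : Set G) ∧
        x ∈ Subgroup.centralizer {a} ∧ x ∉ Q₁ ⊓ Q₂) := by
  have hlt₁ : Q₁ ⊓ Q₂ < Q₁ := lt_of_le_of_ne inf_le_left hD₁
  have hlt₂ : Q₁ ⊓ Q₂ < Q₂ := lt_of_le_of_ne inf_le_right hD₂
  have hAD := inf_normalizer hA₁ hA₂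
  have hA2 : p ^ 2 ≤ Nat.card A := by
    refine le_trans ?_ hA3
    exact Nat.pow_le_pow_right hp.out.pos (by norm_num)
  obtain ⟨B₁, hB₁, hi₁, x₁, hx₁R, hx₁D, hx₁c⟩ := exists_fixed_hyperplane hqp hA hA2
    (h₁.to_le (inf_le_left : Q₁ ⊓ Subgroup.normalizer ((Q₁ ⊓ Q₂ : Subgroup G) : Set G) ≤ Q₁))
    (lt_inf_normalizer h₁ hlt₁).le (lt_inf_normalizer h₁ hlt₁).ne inf_le_right
    (normalizer_inf_normalizer hA₁ hAD) hAD
  obtain ⟨B₂, hB₂, hi₂, x₂, hx₂R, hx₂D, hx₂c⟩ := exists_fixed_hyperplane hqp hA hA2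
    (h₂.to_le (inf_le_left : Q₂ ⊓ Subgroup.normalizer ((Q₁ ⊓ Q₂ : Subgroup G) : Set G) ≤ Q₂))
    (lt_inf_normalizer h₂ hlt₂).le (lt_inf_normalizer h₂ hlt₂).ne inf_le_right
    (normalizer_inf_normalizer hA₂ hAD) hAD
  obtain ⟨a, ha, ha1⟩ := exists_ne_one_inf hA3 hB₁ hB₂ hi₁ hi₂
  obtain ⟨ha₁, ha₂⟩ := Subgroup.mem_inf.mp ha
  have hc : ∀ (B : Subgroup G) (x : G), a ∈ B → x ∈ Subgroup.centralizer (B : Set G) →
      x ∈ Subgroup.centralizer {a} := by
    intro B x hB hx
    rw [Subgroup.mem_centralizer_iff] at hx ⊢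
    intro y hy
    rw [Set.mem_singleton_iff] at hy
    subst hy
    exact hx _ hB
  obtain ⟨h1, h2⟩ := Subgroup.mem_inf.mp hx₁R
  obtain ⟨h3, h4⟩ := Subgroup.mem_inf.mp hx₂R
  exact ⟨a, hB₁ ha₁, ha1, ⟨x₁, h1, h2, hc B₁ x₁ ha₁ hx₁c, hx₁D⟩, ⟨x₂, h3, h4, hc B₂ x₂ ha₂ hx₂c, hx₂D⟩⟩

theorem family_of_le {A : Subgroup G} {θ : G → Subgroup G} {X Y : Subgroup G}
    (hX : X ∈ signalizerFamily p A θ) (hYX : Y ≤ X) (hA : A ≤ Subgroup.normalizer (Y : Set G)) :
    Y ∈ signalizerFamily p A θ := by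
  obtain ⟨hXs, hXp, hXA, hXθ⟩ := hX
  refine ⟨H1SZ.isSolvable_of_le hYX hXs, fun h => hXp (h.trans (Subgroup.card_dvd_of_le hYX)),
    fun b hb u hu => H1Cop.conj_mem_of_normalizer hA hb hu, ?_⟩
  intro a ha ha1
  exact (inf_le_inf_right _ hYX).trans (hXθ a ha ha1)

theorem family_of_le_theta {A : Subgroup G} {θ : G → Subgroup G}
    (hθ : IsSolvableSignalizerFunctor p A θ) {Y : Subgroup G} {a : G} (ha : a ∈ A) (ha1 : a ≠ 1)
    (hY : Y ≤ θ a) (hAY : A ≤ Subgroup.normalizer (Y : Set G)) :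
    Y ∈ signalizerFamily p A θ := by
  obtain ⟨⟨hc, hp', hinv, hcap⟩, hs⟩ := hθ
  refine ⟨H1SZ.isSolvable_of_le hY (hs a ha ha1),
    fun h => hp' a ha ha1 (h.trans (Subgroup.card_dvd_of_le hY)),
    fun b hb u hu => H1Cop.conj_mem_of_normalizer hAY hb hu, ?_⟩
  intro b hb hb1
  exact (inf_le_inf_right _ hY).trans (hcap a ha ha1 b hb hb1)

theorem mem_signalizerInf_iff {A : Subgroup G} {θ : G → Subgroup G} {c : G} :
    c ∈ signalizerInf A θ ↔ ∀ a ∈ A, a ≠ 1 → c ∈ θ a := by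
  unfold signalizerInf
  rw [Subgroup.mem_iInf]
  constructor
  · intro h a ha ha1
    exact h ⟨a, ha, ha1⟩
  · rintro h ⟨a, ha, ha1⟩
    exact h a ha ha1

/-- Elements of the intersection commute with `A`. -/
theorem signalizerInf_comm {A : Subgroup G} {θ : G → Subgroup G}
    (hθ : IsSignalizerFunctor p A θ) {c : G} (hc : c ∈ signalizerInf A θ) {a : G} (ha : a ∈ A) :
    c * a = a * c := by
  by_cases ha1 : a = 1
  · simp [ha1]
  · have h1 := hθ.1 a ha ha1 (mem_signalizerInf_iff.mp hc a ha ha1)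
    rw [Subgroup.mem_centralizer_iff] at h1
    exact (h1 a rfl).symm

theorem mem_signalizerInf_of {A : Subgroup G} {θ : G → Subgroup G}
    (hθ : IsSignalizerFunctor p A θ) {c a : G} (ha : a ∈ A) (ha1 : a ≠ 1) (hca : c ∈ θ a)
    (hcA : ∀ b ∈ A, c * b = b * c) : c ∈ signalizerInf A θ := by
  rw [mem_signalizerInf_iff]
  intro b hb hb1
  refine hθ.2.2.2 a ha ha1 b hb hb1 (Subgroup.mem_inf.mpr ⟨hca, ?_⟩)
  rw [Subgroup.mem_centralizer_iff]
  intro y hy
  rw [Set.mem_singleton_iff] at hy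
  subst hy
  exact (hcA _ hb).symm

theorem card_map_conj (U : Subgroup G) (c : G) :
    Nat.card (U.map (MulAut.conj c).toMonoidHom) = Nat.card U :=
  Subgroup.card_map_of_injective (MulAut.conj c).injective

theorem mem_map_conj {U : Subgroup G} {c x : G} :
    x ∈ U.map (MulAut.conj c).toMonoidHom ↔ c⁻¹ * x * c ∈ U := by
  constructor
  · rintro ⟨u, hu, rfl⟩
    have : c⁻¹ * ((MulAut.conj c).toMonoidHom u) * c = u := by
      simp [MulAut.conj_apply]
      group
    rwa [this]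
  · intro h
    refine ⟨_, h, ?_⟩
    simp [MulAut.conj_apply]
    group

theorem family_conj {A : Subgroup G} {θ : G → Subgroup G}
    (hθ : IsSignalizerFunctor p A θ) {c : G} (hc : c ∈ signalizerInf A θ) {U : Subgroup G}
    (hU : U ∈ signalizerFamily p A θ) :
    U.map (MulAut.conj c).toMonoidHom ∈ signalizerFamily p A θ := by
  obtain ⟨hs, hpp, hinv, hcap⟩ := hU
  refine ⟨?_, ?_, ?_, ?_⟩
  · exact Group.isSolvable_of_surjective
      (f := (U.equivMapOfInjective (MulAut.conj c).toMonoidHom (MulAut.conj c).injective).toMonoidHom)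
      (U.equivMapOfInjective (MulAut.conj c).toMonoidHom (MulAut.conj c).injective).surjective
  · rwa [card_map_conj]
  · intro b hb u hu
    rw [mem_map_conj] at hu ⊢
    have h1 := hinv b hb _ hu
    have hcb := signalizerInf_comm hθ hc hb
    have e : c⁻¹ * (b * u * b⁻¹) * c = b * (c⁻¹ * u * c) * b⁻¹ := by
      have h2 : c⁻¹ * b = b * c⁻¹ := by
        rw [inv_mul_eq_iff_eq_mul, ← mul_assoc, hcb, mul_assoc, mul_inv_cancel, mul_one]
      have h3 : b⁻¹ * c = c * b⁻¹ := by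
        rw [inv_mul_eq_iff_eq_mul, ← mul_assoc, ← hcb, mul_assoc, mul_inv_cancel, mul_one]
      calc c⁻¹ * (b * u * b⁻¹) * c = (c⁻¹ * b) * u * (b⁻¹ * c) := by group
        _ = (b * c⁻¹) * u * (c * b⁻¹) := by rw [h2, h3]
        _ = b * (c⁻¹ * u * c) * b⁻¹ := by group
    rwa [e]
  · intro a ha ha1 x hx
    obtain ⟨hx1, hx2⟩ := Subgroup.mem_inf.mp hx
    rw [mem_map_conj] at hx1
    have hca := mem_signalizerInf_iff.mp hc a ha ha1
    have hcomm : c * a = a * c := signalizerInf_comm hθ hc ha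
    have h1 : c⁻¹ * x * c ∈ θ a := by
      refine hcap a ha ha1 (Subgroup.mem_inf.mpr ⟨hx1, ?_⟩)
      rw [Subgroup.mem_centralizer_iff] at hx2 ⊢
      intro y hy
      rw [Set.mem_singleton_iff] at hy
      subst hy
      have h0 := hx2 y rfl
      have h2 : c⁻¹ * y = y * c⁻¹ := by
        rw [inv_mul_eq_iff_eq_mul, ← mul_assoc, hcomm, mul_assoc, mul_inv_cancel, mul_one]
      calc y * (c⁻¹ * x * c) = (y * c⁻¹) * x * c := by group
        _ = (c⁻¹ * y) * x * c := by rw [h2]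
        _ = c⁻¹ * (y * x) * c := by group
        _ = c⁻¹ * (x * y) * c := by rw [h0]
        _ = c⁻¹ * x * (y * c) := by group
        _ = c⁻¹ * x * (c * y) := by rw [hcomm]
        _ = c⁻¹ * x * c * y := by group
    have e : x = c * (c⁻¹ * x * c) * c⁻¹ := by group
    rw [e]
    exact (θ a).mul_mem ((θ a).mul_mem hca h1) ((θ a).inv_mem hca)

/-- Maximal `q`-subgroups of the family. -/
def IsMaxQ (p : ℕ) (A : Subgroup G) (θ : G → Subgroup G) (q : ℕ) (Q : Subgroup G) : Prop :=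
  Q ∈ signalizerFamily p A θ ∧ IsPGroup q Q ∧
    ∀ R ∈ signalizerFamily p A θ, IsPGroup q R → Q ≤ R → R = Q

theorem exists_isMaxQ {A : Subgroup G} {θ : G → Subgroup G} {U : Subgroup G}
    (hU : U ∈ signalizerFamily p A θ) (hUq : IsPGroup q U) :
    ∃ Q, IsMaxQ p A θ q Q ∧ U ≤ Q := by
  classical
  obtain ⟨P, hUP, hP⟩ := Set.Finite.exists_le_maximal
    (s := {P : Subgroup G | P ∈ signalizerFamily p A θ ∧ IsPGroup q P})
    (Set.toFinite _) (a := U) ⟨hU, hUq⟩
  refine ⟨P, ⟨hP.1.1, hP.1.2, ?_⟩, hUP⟩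
  intro R hR hRq hPR
  exact le_antisymm (hP.2 ⟨hR, hRq⟩ hPR) hPR

theorem map_conj_map_conj (U : Subgroup G) (c d : G) :
    (U.map (MulAut.conj c).toMonoidHom).map (MulAut.conj d).toMonoidHom =
      U.map (MulAut.conj (d * c)).toMonoidHom := by
  ext x
  simp only [mem_map_conj]
  have e : c⁻¹ * (d⁻¹ * x * d) * c = (d * c)⁻¹ * x * (d * c) := by group
  rw [e]

theorem isMaxQ_conj {A : Subgroup G} {θ : G → Subgroup G}
    (hθ : IsSignalizerFunctor p A θ) {c : G} (hc : c ∈ signalizerInf A θ) {Q : Subgroup G}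
    (hQ : IsMaxQ p A θ q Q) : IsMaxQ p A θ q (Q.map (MulAut.conj c).toMonoidHom) := by
  obtain ⟨h1, h2, h3⟩ := hQ
  refine ⟨family_conj hθ hc h1, h2.map _, ?_⟩
  intro R hR hRq hle
  have hc' : c⁻¹ ∈ signalizerInf A θ := Subgroup.inv_mem _ hc
  have h4 := h3 (R.map (MulAut.conj c⁻¹).toMonoidHom) (family_conj hθ hc' hR) (hRq.map _) (by
    intro x hx
    rw [mem_map_conj, inv_inv]
    apply hle
    rw [mem_map_conj]
    simpa [mul_assoc] using hx)
  ext x
  rw [mem_map_conj, ← h4, mem_map_conj, inv_inv]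
  simp [mul_assoc]

theorem conj_smul_eq_map (c : G) (R : Subgroup G) :
    MulAut.conj c • R = R.map (MulAut.conj c).toMonoidHom := rfl

/-- **Transitivity theorem**, in the form of a well-founded induction. -/
theorem transitivity_aux (hqp : q ≠ p) {A : Subgroup G} (hA : IsElementaryAbelian p A)
    (hA3 : p ^ 3 ≤ Nat.card ↥A) {θ : G → Subgroup G} (hθ : IsSolvableSignalizerFunctor p A θ)
    (D : Subgroup G) : ∀ Q₁ Q₂ : Subgroup G, IsMaxQ p A θ q Q₁ → IsMaxQ p A θ q Q₂ → Q₁ ⊓ Q₂ = D →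
      ∃ c ∈ signalizerInf A θ, Q₁.map (MulAut.conj c).toMonoidHom = Q₂ := by
  induction D using WellFoundedGT.induction with
  | ind D ih =>
    intro Q₁ Q₂ h₁ h₂ hD
    have hθ' := hθ.1
    have h1mem : (1 : G) ∈ signalizerInf A θ := Subgroup.one_mem _
    have hmapone : ∀ U : Subgroup G, U.map (MulAut.conj (1 : G)).toMonoidHom = U := by
      intro U
      ext x
      simp [mem_map_conj]
    by_cases hD₁ : Q₁ ⊓ Q₂ = Q₁
    · refine ⟨1, h1mem, ?_⟩
      rw [hmapone]
      exact (h₁.2.2 Q₂ h₂.1 h₂.2.1 (inf_eq_left.mp hD₁)).symm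
    by_cases hD₂ : Q₁ ⊓ Q₂ = Q₂
    · refine ⟨1, h1mem, ?_⟩
      rw [hmapone]
      exact h₂.2.2 Q₁ h₁.1 h₁.2.1 (inf_eq_right.mp hD₂)
    have hnorm : ∀ {Q : Subgroup G}, Q ∈ signalizerFamily p A θ →
        A ≤ Subgroup.normalizer (Q : Set G) := fun hQ =>
      Subgroup.le_normalizer_iff.mpr hQ.2.2.1
    have hA₁ := hnorm h₁.1
    have hA₂ := hnorm h₂.1
    obtain ⟨a, ha, ha1, ⟨x₁, hx₁Q, hx₁N, hx₁c, hx₁D⟩, ⟨x₂, hx₂Q, hx₂N, hx₂c, hx₂D⟩⟩ :=
      exists_common_a hqp hA hA3 h₁.2.1 h₂.2.1 hA₁ hA₂ hD₁ hD₂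
    rw [hD] at hx₁N hx₁D hx₂N hx₂D
    have hAD : A ≤ Subgroup.normalizer (D : Set G) := by
      rw [← hD]
      exact inf_normalizer hA₁ hA₂
    have hDfam : D ∈ signalizerFamily p A θ :=
      family_of_le h₁.1 (by rw [← hD]; exact inf_le_left) hAD
    have hDq : IsPGroup q D := h₁.2.1.to_le (by rw [← hD]; exact inf_le_left)
    -- the group `H`
    set H : Subgroup G := θ a ⊓ Subgroup.normalizer (D : Set G) with hH
    have hAc : A ≤ Subgroup.normalizer ((Subgroup.centralizer {a} : Subgroup G) : Set G) := by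
      refine Subgroup.le_normalizer_iff.mpr ?_
      intro b hb x hx
      rw [Subgroup.mem_centralizer_iff] at hx ⊢
      intro y hy
      rw [Set.mem_singleton_iff] at hy
      subst hy
      have h0 := hx y rfl
      have h1 : b * y = y * b := elemAb_comm hA hb ha
      have h2 : b⁻¹ * y = y * b⁻¹ := by
        rw [inv_mul_eq_iff_eq_mul, ← mul_assoc, h1, mul_assoc, mul_inv_cancel, mul_one]
      calc y * (b * x * b⁻¹) = (y * b) * x * b⁻¹ := by group
        _ = (b * y) * x * b⁻¹ := by rw [h1]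
        _ = b * (y * x) * b⁻¹ := by group
        _ = b * (x * y) * b⁻¹ := by rw [h0]
        _ = b * x * (y * b⁻¹) := by group
        _ = b * x * (b⁻¹ * y) := by rw [h2]
        _ = b * x * b⁻¹ * y := by group
    have hAθ : A ≤ Subgroup.normalizer ((θ a : Subgroup G) : Set G) :=
      Subgroup.le_normalizer_iff.mpr (hθ'.2.2.1 a ha ha1)
    have hAH : A ≤ Subgroup.normalizer (H : Set G) := by
      refine Subgroup.le_normalizer_iff.mpr ?_
      intro b hb x hx
      obtain ⟨hx1, hx2⟩ := Subgroup.mem_inf.mp hx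
      refine Subgroup.mem_inf.mpr ⟨H1Cop.conj_mem_of_normalizer hAθ hb hx1, ?_⟩
      exact Subgroup.mul_mem _ (Subgroup.mul_mem _ (hAD hb) hx2) (Subgroup.inv_mem _ (hAD hb))
    have hApg : IsPGroup p A := elemAb_pgroup hA
    have hHp : ¬ p ∣ Nat.card H := fun h =>
      hθ'.2.1 a ha ha1 (h.trans (Subgroup.card_dvd_of_le inf_le_left))
    have hcop : (Nat.card A).Coprime (Nat.card H) := by
      obtain ⟨n, hn⟩ := IsPGroup.iff_card.mp hApg
      rw [hn]
      exact Nat.Coprime.pow_left _ ((Nat.Prime.coprime_iff_not_dvd hp.out).mpr hHp)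
    have hHs : Group.IsSolvable H := H1SZ.isSolvable_of_le inf_le_left (hθ.2 a ha ha1)
    -- `M_i`
    have hM : ∀ {Q : Subgroup G}, Q ∈ signalizerFamily p A θ → IsPGroup q Q →
        ∃ R, H1Cop.IsSylowIn q R H ∧
          Subgroup.normalizer (D : Set G) ⊓ Q ⊓ Subgroup.centralizer {a} ≤ R ∧
          A ≤ Subgroup.normalizer (R : Set G) := by
      intro Q hQ hQq
      obtain ⟨hQs, hQp, hQA, hQθ⟩ := hQ
      have hQn : A ≤ Subgroup.normalizer (Q : Set G) := Subgroup.le_normalizer_iff.mpr hQA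
      refine H1Cop.exists_invariant_sylow_containing hAH hcop (Or.inr hHs) q ?_ ?_ ?_
      · intro x hx
        obtain ⟨hx12, hx3⟩ := Subgroup.mem_inf.mp hx
        obtain ⟨hx1, hx2⟩ := Subgroup.mem_inf.mp hx12
        exact Subgroup.mem_inf.mpr ⟨hQθ a ha ha1 (Subgroup.mem_inf.mpr ⟨hx2, hx3⟩), hx1⟩
      · exact hQq.to_le (inf_le_left.trans inf_le_right)
      · refine Subgroup.le_normalizer_iff.mpr ?_
        intro b hb x hx
        obtain ⟨hx12, hx3⟩ := Subgroup.mem_inf.mp hx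
        obtain ⟨hx1, hx2⟩ := Subgroup.mem_inf.mp hx12
        refine Subgroup.mem_inf.mpr ⟨Subgroup.mem_inf.mpr ⟨?_, hQA b hb x hx2⟩,
          H1Cop.conj_mem_of_normalizer hAc hb hx3⟩
        exact Subgroup.mul_mem _ (Subgroup.mul_mem _ (hAD hb) hx1) (Subgroup.inv_mem _ (hAD hb))
    obtain ⟨R₁, hR₁S, hMR₁, hAR₁⟩ := hM h₁.1 h₁.2.1
    obtain ⟨R₂, hR₂S, hMR₂, hAR₂⟩ := hM h₂.1 h₂.2.1
    obtain ⟨c, hcH, hcR⟩ := H1Cop.invariant_sylow_conj hAH hcop (Or.inr hHs) q hR₁S hR₂S hAR₁ hAR₂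
    obtain ⟨hcH1, hcA⟩ := Subgroup.mem_inf.mp hcH
    obtain ⟨hcθ, hcN⟩ := Subgroup.mem_inf.mp hcH1
    have hcInf : c ∈ signalizerInf A θ := by
      refine mem_signalizerInf_of hθ' ha ha1 hcθ ?_
      intro b hb
      exact (Subgroup.mem_centralizer_iff.mp hcA b hb).symm
    have hx₁M : x₁ ∈ R₁ := hMR₁ (Subgroup.mem_inf.mpr ⟨Subgroup.mem_inf.mpr ⟨hx₁N, hx₁Q⟩, hx₁c⟩)
    have hx₂M : x₂ ∈ R₂ := hMR₂ (Subgroup.mem_inf.mpr ⟨Subgroup.mem_inf.mpr ⟨hx₂N, hx₂Q⟩, hx₂c⟩)
    -- `T = D R₁`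
    have hR₁fam : R₁ ∈ signalizerFamily p A θ :=
      family_of_le_theta hθ ha ha1 (hR₁S.1.trans inf_le_left) hAR₁
    have hR₁N : R₁ ≤ Subgroup.normalizer (D : Set G) := hR₁S.1.trans inf_le_right
    have hTfam : D ⊔ R₁ ∈ signalizerFamily p A θ := family_sup hA hDfam hR₁fam hR₁N
    have hTq : IsPGroup q ↥(D ⊔ R₁) := IsPGroup.to_sup_of_normal_left' hDq hR₁S.2.1 hR₁N
    obtain ⟨Q₃, hQ₃, hTQ₃⟩ := exists_isMaxQ hTfam hTq
    have hDQ₁ : D ≤ Q₁ := by rw [← hD]; exact inf_le_left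
    have hDQ₂ : D ≤ Q₂ := by rw [← hD]; exact inf_le_right
    have hgt₁ : D < Q₁ ⊓ Q₃ := by
      refine lt_of_le_of_ne (le_inf hDQ₁ (le_sup_left.trans hTQ₃)) ?_
      intro h
      apply hx₁D
      rw [h]
      exact Subgroup.mem_inf.mpr ⟨hx₁Q, hTQ₃ (Subgroup.mem_sup_right hx₁M)⟩
    obtain ⟨c₁, hc₁, hc₁Q⟩ := ih _ hgt₁ Q₁ Q₃ h₁ hQ₃ rfl
    have hQ₄ := isMaxQ_conj hθ' hcInf hQ₃
    have hDc : D ≤ Q₃.map (MulAut.conj c).toMonoidHom := by
      intro x hx
      rw [mem_map_conj]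
      refine hTQ₃ (Subgroup.mem_sup_left ?_)
      have := (Subgroup.mem_normalizer_iff.mp hcN x).mp hx
      have h2 := (Subgroup.mem_normalizer_iff.mp (Subgroup.inv_mem _ hcN) x).mp hx
      simpa using h2
    have hR₂c : R₂ ≤ Q₃.map (MulAut.conj c).toMonoidHom := by
      intro x hx
      rw [← hcR, conj_smul_eq_map, mem_map_conj] at hx
      rw [mem_map_conj]
      exact hTQ₃ (Subgroup.mem_sup_right hx)
    have hgt₂ : D < Q₃.map (MulAut.conj c).toMonoidHom ⊓ Q₂ := by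
      refine lt_of_le_of_ne (le_inf hDc hDQ₂) ?_
      intro h
      apply hx₂D
      rw [h]
      exact Subgroup.mem_inf.mpr ⟨hR₂c hx₂M, hx₂Q⟩
    obtain ⟨c₂, hc₂, hc₂Q⟩ := ih _ hgt₂ _ Q₂ hQ₄ h₂ rfl
    refine ⟨c₂ * (c * c₁), Subgroup.mul_mem _ hc₂ (Subgroup.mul_mem _ hcInf hc₁), ?_⟩
    rw [← map_conj_map_conj, ← map_conj_map_conj, hc₁Q, hc₂Q]

/-- **Transitivity theorem** -/
theorem transitivity (hqp : q ≠ p) {A : Subgroup G} (hA : IsElementaryAbelian p A)
    (hA3 : p ^ 3 ≤ Nat.card ↥A) {θ : G → Subgroup G} (hθ : IsSolvableSignalizerFunctor p A θ)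
    {Q₁ Q₂ : Subgroup G} (h₁ : IsMaxQ p A θ q Q₁) (h₂ : IsMaxQ p A θ q Q₂) :
    ∃ c ∈ signalizerInf A θ, Q₁.map (MulAut.conj c).toMonoidHom = Q₂ :=
  transitivity_aux hqp hA hA3 hθ _ Q₁ Q₂ h₁ h₂ rfl

end Gen

end Cfsg.Agent.Lib.SigGen
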