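import Mathlib
import Cfsg.Prelude.Def_Balance
import Cfsg.Agent.Lib.SigGen
import Cfsg.Agent.Lib.H1Fit

set_option autoImplicit false
set_option linter.style.haveILetI false
set_option linter.unusedSectionVars false

/-! The balance step for solvable groups. -/

namespace Cfsg.Agent.Lib.SigBal

open Cfsg Cfsg.Agent.Lib.H1Core Cfsg.Agent.Lib.H1Fit Cfsg.Agent.Lib.Comp Cfsg.Agent.Lib.Comp2
  Cfsg.Agent.Lib.Comp3 Cfsg.Agent.Lib.SigGen

variable {C : Type*} [Group C] [Finite C] {p : ℕ} [hp : Fact p.Prime]

/-- A `p'`-subgroup centralized by the element `a` of order dividing `p` and normalized by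
`C_C(a)` lies in the `p'`-core of the solvable group `C`. -/
theorem balance_step [hs : Group.IsSolvable C] {a : C} (ha : a ^ p = 1) {D : Subgroup C}
    (hD : ¬ p ∣ Nat.card D) (hDa : D ≤ Subgroup.centralizer {a})
    (hnorm : Subgroup.centralizer {a} ≤ Subgroup.normalizer (D : Set C)) :
    D ≤ pPrimeCore p C := by
  classical
  set N := pPrimeCore p C with hN
  haveI hNn : N.Normal := pPrimeCore_normal p C
  have hNc : (Nat.card N).Coprime p := pPrimeCore_coprime p
  have hNp : ¬ p ∣ Nat.card N := by
    intro h
    have := Nat.dvd_gcd h (dvd_refl p)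
    rw [hNc] at this
    exact hp.out.one_lt.ne' (Nat.dvd_one.mp this)
  let π : C →* C ⧸ N := QuotientGroup.mk' N
  haveI : Group.IsSolvable (C ⧸ N) := inferInstance
  set P : Subgroup (C ⧸ N) := pCore p (C ⧸ N) with hP
  haveI hPn : P.Normal := pCore_normal p _
  have hPp : IsPGroup p P := pCore_isPGroup p
  have hFP : fittingSubgroup (C ⧸ N) = P :=
    fitting_eq_pCore_of_pPrimeCore_eq_bot p (pPrimeCore_quotient p)
  have hcP : Subgroup.centralizer (P : Set (C ⧸ N)) ≤ P := by
    have := centralizer_fitting_le (G := C ⧸ N)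
    rwa [hFP] at this
  intro d hd
  set d' := π d with hd'
  have hda : d * a = a * d := (Subgroup.mem_centralizer_iff.mp (hDa hd) a rfl).symm
  have hDc : (Nat.card D).Coprime p :=
    ((Nat.Prime.coprime_iff_not_dvd hp.out).mpr hD).symm
  have hDbar : (Nat.card (D.map π)).Coprime p :=
    Nat.Coprime.coprime_dvd_left (Subgroup.card_map_dvd _ _) hDc
  have hd'D : d' ∈ D.map π := Subgroup.mem_map_of_mem _ hd
  have hdcop : (orderOf d').Coprime p := orderOf_coprime_of_mem hDbar hd'D
  have hapow : π a ^ p = 1 := by rw [← map_pow, ha, map_one]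
  have hzp : IsPGroup p (Subgroup.zpowers (π a)) := by
    intro g
    refine ⟨1, ?_⟩
    obtain ⟨g, k, rfl⟩ := g
    ext
    simp only [pow_one, SubgroupClass.coe_pow, OneMemClass.coe_one]
    rw [← zpow_natCast, ← zpow_mul, mul_comm, zpow_mul, zpow_natCast, hapow, one_zpow]
  have hcen : ∀ v ∈ P, d' * v = v * d' := by
    refine ab_lemma (B := Subgroup.zpowers (π a)) hPp hzp ?_ hdcop ?_ ?_ ?_
    · exact fun x _ => by
        rw [Subgroup.mem_normalizer_iff]
        intro h
        exact ⟨fun hh => hPn.conj_mem h hh x, fun hh => by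
          have := hPn.conj_mem _ hh x⁻¹
          simpa [mul_assoc] using this⟩
    · rw [Subgroup.mem_normalizer_iff]
      intro h
      exact ⟨fun hh => hPn.conj_mem h hh d', fun hh => by
          have := hPn.conj_mem _ hh d'⁻¹
          simpa [mul_assoc] using this⟩
    · intro b hb
      have : Subgroup.zpowers (π a) ≤ Subgroup.centralizer {d'} := by
        rw [Subgroup.zpowers_le, Subgroup.mem_centralizer_iff]
        intro y hy
        rw [Set.mem_singleton_iff] at hy
        subst hy
        rw [hd', ← map_mul, hda, map_mul]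
      exact (Subgroup.mem_centralizer_iff.mp (this hb) d' rfl)
    · intro v hv hvc
      obtain ⟨x, hx⟩ := QuotientGroup.mk'_surjective N v
      -- lift to the centralizer of `a`
      have hk : ∀ c ∈ Subgroup.zpowers a, c * x * c⁻¹ * x⁻¹ ∈ N := by
        intro c hc
        rw [← QuotientGroup.ker_mk' N, MonoidHom.mem_ker]
        have hπc : π c ∈ Subgroup.zpowers (π a) := by
          have : (Subgroup.zpowers a).map π ≤ Subgroup.zpowers (π a) := by
            rw [MonoidHom.map_zpowers]
          exact this (Subgroup.mem_map_of_mem _ hc)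
        have h1 := hvc _ hπc
        have hπx : π x = v := hx
        show π (c * x * c⁻¹ * x⁻¹) = 1
        simp only [map_mul, map_inv]
        rw [hπx, ← h1]
        group
      have hcop := zpowers_coprime ha hNp
      obtain ⟨n, hn, hny⟩ := H1Cop.coset_fixed
        (A := Subgroup.zpowers a) (N := N) (fun c _ => by
          rw [Subgroup.mem_normalizer_iff]
          intro h
          exact ⟨fun hh => hNn.conj_mem h hh c, fun hh => by
            have := hNn.conj_mem _ hh c⁻¹
            simpa [mul_assoc] using this⟩)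
        hcop (Or.inl (zpowers_solvable a)) hk
      set y := n * x with hy
      have hπy : π y = v := by
        rw [hy, map_mul]
        have : π n = 1 := by
          rw [← MonoidHom.mem_ker, QuotientGroup.ker_mk']
          exact hn
        rw [this, one_mul]
        exact hx
      have hyc : y ∈ Subgroup.centralizer {a} := by
        rw [Subgroup.mem_centralizer_iff]
        intro z hz
        rw [Set.mem_singleton_iff] at hz
        rw [hz]
        have h1 : y * a * y⁻¹ ∈ Subgroup.zpowers a :=
          (Subgroup.mem_normalizer_iff.mp hny a).mp (Subgroup.mem_zpowers a)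
        have h2 : y * a * y⁻¹ * a⁻¹ ∈ Subgroup.zpowers a :=
          Subgroup.mul_mem _ h1 (Subgroup.inv_mem _ (Subgroup.mem_zpowers a))
        have h3 : y * a * y⁻¹ * a⁻¹ ∈ N := by
          rw [← QuotientGroup.ker_mk' N, MonoidHom.mem_ker]
          have h4 : π y = v := hπy
          have h5 := hvc (π a) (Subgroup.mem_zpowers _)
          show π (y * a * y⁻¹ * a⁻¹) = 1
          rw [map_mul, map_mul, map_mul, map_inv, map_inv, h4, h5]
          group
        have hzpg : IsPGroup p (Subgroup.zpowers a) := by
          intro g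
          refine ⟨1, ?_⟩
          obtain ⟨g, k, rfl⟩ := g
          ext
          simp only [pow_one, SubgroupClass.coe_pow, OneMemClass.coe_one]
          rw [← zpow_natCast, ← zpow_mul, mul_comm, zpow_mul, zpow_natCast, ha, one_zpow]
        have h6 := eq_one_of_mem_pgroup_coprime hzpg hNc h2 h3
        rw [mul_inv_eq_one, mul_inv_eq_iff_eq_mul] at h6
        exact h6.symm
      have hyn := hnorm hyc
      have h7 : y * d * y⁻¹ ∈ D := (Subgroup.mem_normalizer_iff.mp hyn d).mp hd
      have h8 : v * d' * v⁻¹ ∈ D.map π := by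
        refine ⟨y * d * y⁻¹, h7, ?_⟩
        simp only [map_mul, map_inv, hπy]
        rfl
      have h9 : v * d' * v⁻¹ * d'⁻¹ ∈ D.map π :=
        Subgroup.mul_mem _ h8 (Subgroup.inv_mem _ hd'D)
      have h10 : v * (d' * v⁻¹ * d'⁻¹) ∈ P :=
        P.mul_mem hv (hPn.conj_mem _ (P.inv_mem hv) d')
      have h11 : v * d' * v⁻¹ * d'⁻¹ ∈ P := by
        have e : v * d' * v⁻¹ * d'⁻¹ = v * (d' * v⁻¹ * d'⁻¹) := by group
        rw [e]
        exact h10
      have h12 := eq_one_of_mem_pgroup_coprime hPp hDbar h11 h9
      rw [mul_inv_eq_one, mul_inv_eq_iff_eq_mul] at h12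
      exact h12.symm
  have hd'P : d' ∈ P := by
    apply hcP
    rw [Subgroup.mem_centralizer_iff]
    intro v hv
    exact (hcen v hv).symm
  have hone : d' = 1 := eq_one_of_mem_pgroup_coprime hPp hDbar hd'P hd'D
  rw [← QuotientGroup.ker_mk' N, MonoidHom.mem_ker]
  exact hone

end Cfsg.Agent.Lib.SigBal
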