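import Cfsg.Agent.Lib.FormVec

set_option autoImplicit false

namespace Cfsg.Agent.Lib.SimSp

open Matrix Cfsg.Geo Cfsg.Agent.Lib.TvGL Cfsg.Agent.Lib.FormVec
open scoped MatrixGroups

variable {ι : Type} [Fintype ι] [DecidableEq ι] {F : Type*} [Field F]
variable {f : (ι → F) → (ι → F) → F}

theorem toB_alt (hf : IsSymplecticForm f) : (toB hf.bilinear).IsAlt := fun x => hf.alternating x

/-- Two-point transitivity of the determinant-one isometries. -/
theorem exists_two_point (hf : IsSymplecticForm f) {a w a' w' : ι → F} (ha : a ≠ 0) (ha' : a' ≠ 0)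
    (hw : w ∉ Submodule.span F {a}) (hw' : w' ∉ Submodule.span F {a'})
    (h0 : f a w = 0) (h0' : f a' w' = 0) :
    ∃ h : (ι → F) ≃ₗ[F] (ι → F), (∀ u v, f (h u) (h v) = f u v) ∧ h a = a' ∧ h w = w' ∧
      LinearMap.det (h : (ι → F) →ₗ[F] (ι → F)) = 1 := by
  have hB := toB_nondeg hf.bilinear hf.nondegenerate
  have hA := toB_alt hf
  obtain ⟨h1, h1i, -, h1a, h1d⟩ := Cfsg.Agent.Lib.WittAltDet.exists_isom_step (toB hf.bilinear) hB hA ⊥
    (x := a) (y := a') (by simpa using ha) (by simpa using ha') (by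
      intro x hx
      have : x = 0 := by simpa using hx
      subst this
      simp)
  have hw1 : h1 w ∉ Submodule.span F {a'} := by
    intro hm
    obtain ⟨c, hc⟩ := Submodule.mem_span_singleton.mp hm
    apply hw
    rw [Submodule.mem_span_singleton]
    refine ⟨c, ?_⟩
    apply h1.injective
    rw [map_smul, h1a, hc]
  obtain ⟨h2, h2i, h2f, h2a, h2d⟩ := Cfsg.Agent.Lib.WittAltDet.exists_isom_step (toB hf.bilinear) hB hA
    (Submodule.span F {a'}) hw1 hw' (by
      intro x hx
      obtain ⟨c, rfl⟩ := Submodule.mem_span_singleton.mp hx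
      simp only [map_smul, LinearMap.smul_apply, toB_apply]
      congr 1
      rw [h0', ← h1a]
      have := h1i a w
      simp only [toB_apply] at this
      rw [this, h0])
  refine ⟨h1.trans h2, ?_, ?_, ?_, ?_⟩
  · intro u v
    simp only [LinearEquiv.trans_apply]
    have e1 := h2i (h1 u) (h1 v)
    have e2 := h1i u v
    simp only [toB_apply] at e1 e2
    rw [e1, e2]
  · simp only [LinearEquiv.trans_apply]
    rw [h1a]
    exact h2f a' (Submodule.mem_span_singleton_self a')
  · simp only [LinearEquiv.trans_apply]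
    exact h2a
  · rw [Cfsg.Agent.Lib.WittAltDet.det_trans, h1d, h2d, one_mul]

/-- The transvection `y ↦ y + f y w • a`. -/
def tf (hf : IsSymplecticForm f) (a w : ι → F) (h : f a w = 0) : GL ι F :=
  tv a (pv f w) (by rw [pv_dot hf.bilinear]; exact h)

theorem tf_mulVec (hf : IsSymplecticForm f) (a w : ι → F) (h : f a w = 0) (y : ι → F) :
    ((tf hf a w h : GL ι F) : Matrix ι ι F) *ᵥ y = y + f y w • a := by
  rw [tf, tv_mulVec, pv_dot hf.bilinear]

theorem tf_mem_SL (hf : IsSymplecticForm f) (a w : ι → F) (h : f a w = 0) :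
    tf hf a w h ∈ specialLinear ι F := tv_mem_SL _ _ _

/-- The symplectic transvections are isometries. -/
theorem tf_smul_isom (hf : IsSymplecticForm f) (a : ι → F) (c : F) (u v : ι → F) :
    f (((tf hf a (c • a) (by rw [hf.bilinear.smul_right, hf.alternating, mul_zero]) : GL ι F) : Matrix ι ι F) *ᵥ u)
      (((tf hf a (c • a) (by rw [hf.bilinear.smul_right, hf.alternating, mul_zero]) : GL ι F) : Matrix ι ι F) *ᵥ v) = f u v := by
  rw [tf_mulVec, tf_mulVec]
  have hb := hf.bilinear
  simp only [hb.add_left, hb.add_right, hb.smul_left, hb.smul_right, hf.alternating]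
  rw [hf.skew a v]
  ring

theorem isom_mem_sim (g : GL ι F) (h : ∀ u v, f ((g : Matrix ι ι F) *ᵥ u) ((g : Matrix ι ι F) *ᵥ v) = f u v) :
    g ∈ similarityGroup f := ⟨1, fun u v => by rw [h]; simp⟩

/-- If `f(·,x)` and `f(g·,gx)` are proportional for all `x` then `g` is a similarity. -/
theorem mem_sim_of_prop (hf : IsSymplecticForm f) (g : GL ι F)
    (H : ∀ x, ∃ c : F, ∀ u, f u x = c * f ((g : Matrix ι ι F) *ᵥ u) ((g : Matrix ι ι F) *ᵥ x)) :
    g ∈ similarityGroup f := by
  classical
  have hb := hf.bilinear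
  have hnd := hf.nondegenerate
  set G : Matrix ι ι F := (g : Matrix ι ι F) with hG
  have hadd : ∀ u v, G *ᵥ (u + v) = G *ᵥ u + G *ᵥ v := fun u v => Matrix.mulVec_add _ _ _
  have hsmul : ∀ (c : F) v, G *ᵥ (c • v) = c • (G *ᵥ v) := fun c v => Matrix.mulVec_smul _ _ _
  by_cases hV : ∀ x : ι → F, x = 0
  · refine ⟨1, fun u v => ?_⟩
    rw [hV u, hV v]
    simp [G, Matrix.mulVec_zero]
  push Not at hV
  obtain ⟨x₀, hx₀⟩ := hV
  obtain ⟨c₀, hc₀⟩ := H x₀
  have hc₀0 : c₀ ≠ 0 := by
    rintro rfl
    obtain ⟨u, hu⟩ := (hnd x₀ hx₀).1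
    apply hu
    rw [hc₀]; simp
  -- the factor
  have key : ∀ x u, f u x = c₀ * f (G *ᵥ u) (G *ᵥ x) := by
    intro x
    by_cases hdep : x ∈ Submodule.span F {x₀}
    · obtain ⟨a, rfl⟩ := Submodule.mem_span_singleton.mp hdep
      intro u
      rw [hsmul, hb.smul_right, hb.smul_right, hc₀ u]
      ring
    · have hx0 : x ≠ 0 := fun h => hdep (by rw [h]; exact Submodule.zero_mem _)
      obtain ⟨c, hc⟩ := H x
      obtain ⟨d, hd⟩ := H (x + x₀)
      have hc0 : c ≠ 0 := by
        rintro rfl
        obtain ⟨u, hu⟩ := (hnd x hx0).1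
        apply hu
        rw [hc]; simp
      -- f(u, x + x₀ - d c⁻¹ x - d c₀⁻¹ x₀) = 0
      have hz : ∀ u, f u ((1 - d * c⁻¹) • x + (1 - d * c₀⁻¹) • x₀) = 0 := by
        intro u
        have e1 := hd u
        rw [hadd, hb.add_right, hb.add_right] at e1
        have e2 := hc u
        have e3 := hc₀ u
        rw [hb.add_right, hb.smul_right, hb.smul_right]
        have e2' : f (G *ᵥ u) (G *ᵥ x) = c⁻¹ * f u x := by rw [e2]; field_simp
        have e3' : f (G *ᵥ u) (G *ᵥ x₀) = c₀⁻¹ * f u x₀ := by rw [e3]; field_simp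
        rw [e2', e3'] at e1
        linear_combination e1
      have hz0 : (1 - d * c⁻¹) • x + (1 - d * c₀⁻¹) • x₀ = 0 := by
        by_contra hne
        obtain ⟨u, hu⟩ := (hnd _ hne).1
        exact hu (hz u)
      have h1 : 1 - d * c⁻¹ = 0 := by
        by_contra hne
        apply hdep
        rw [Submodule.mem_span_singleton]
        refine ⟨-(1 - d * c₀⁻¹) / (1 - d * c⁻¹), ?_⟩
        have : x = (1 - d * c⁻¹)⁻¹ • ((1 - d * c⁻¹) • x) := by
          rw [smul_smul, inv_mul_cancel₀ hne, one_smul]
        rw [this, eq_neg_of_add_eq_zero_left hz0, smul_neg, smul_smul, ← neg_smul]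
        congr 1
        field_simp
      have h2 : 1 - d * c₀⁻¹ = 0 := by
        rw [h1, zero_smul, zero_add] at hz0
        rcases smul_eq_zero.mp hz0 with h | h
        · exact h
        · exact absurd h hx₀
      have h3 : c = c₀ := by
        have e1 : d = c := by
          have := sub_eq_zero.mp h1
          field_simp at this
          exact this.symm
        have e2 : d = c₀ := by
          have := sub_eq_zero.mp h2
          field_simp at this
          exact this.symm
        rw [← e1, e2]
      rw [← h3]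
      exact hc
  refine ⟨Units.mk0 c₀⁻¹ (inv_ne_zero hc₀0), fun u v => ?_⟩
  rw [key v u, Units.val_mk0]
  field_simp
  rfl

/-- Conjugates of the transvections by isometries. -/
theorem conj_tf_of_isom (hf : IsSymplecticForm f) (a w : ι → F) (h0 : f a w = 0)
    (h : (ι → F) ≃ₗ[F] (ι → F)) (hi : ∀ u v, f (h u) (h v) = f u v) (h0' : f (h a) (h w) = 0) :
    glOf h * tf hf a w h0 * (glOf h)⁻¹ = tf hf (h a) (h w) h0' := by
  rw [tf, tv_conj, tf]
  apply Units.ext
  rw [tv_val, tv_val, glOf_mulVec]
  congr 2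
  apply dot_ext
  intro y
  rw [conj_dot, pv_dot hf.bilinear, pv_dot hf.bilinear, glOf_inv_mulVec, ← hi]
  simp

/-- Main theorem: the similarities of a symplectic form are maximal in SL. -/
theorem maximal (hf : IsSymplecticForm f) (hcard : 3 ≤ Fintype.card ι) :
    IsMaximalIn (specialLinear ι F) (similarityGroup f ⊓ specialLinear ι F) := by
  classical
  have hb := hf.bilinear
  have hnd := hf.nondegenerate
  constructor
  · -- strictness
    refine lt_of_le_of_ne inf_le_right ?_
    intro heq
    -- choose `a`, `w`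
    obtain ⟨i0, i1, i2, h01, h02, h12⟩ : ∃ i0 i1 i2 : ι, i0 ≠ i1 ∧ i0 ≠ i2 ∧ i1 ≠ i2 := by
      have : Nonempty (Fin 3 ↪ ι) := Function.Embedding.nonempty_of_card_le (by simpa using hcard)
      obtain ⟨e⟩ := this
      exact ⟨e 0, e 1, e 2, fun h => by simpa using e.injective h, fun h => by simpa using e.injective h,
        fun h => by simpa using e.injective h⟩
    let a : ι → F := Pi.single i0 1
    have ha : a ≠ 0 := by
      intro h
      have := congrFun h i0
      simp [a] at this
    obtain ⟨w, hw0, hw⟩ : ∃ w : ι → F, f a w = 0 ∧ w ∉ Submodule.span F {a} := by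
      by_cases h1 : f a (Pi.single i1 1) = 0
      · refine ⟨Pi.single i1 1, h1, ?_⟩
        intro hm
        obtain ⟨c, hc⟩ := Submodule.mem_span_singleton.mp hm
        have e1 := congrFun hc i1
        have e0 := congrFun hc i0
        simp [a, h01, h01.symm] at e1 
      · refine ⟨f a (Pi.single i2 1) • Pi.single i1 1 - f a (Pi.single i1 1) • Pi.single i2 1, ?_, ?_⟩
        · have : ∀ x y : ι → F, x - y = x + (-1 : F) • y := by intro x y; simp [sub_eq_add_neg]
          rw [this, hb.add_right, hb.smul_right, hb.smul_right, hb.smul_right]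
          ring
        · intro hm
          obtain ⟨c, hc⟩ := Submodule.mem_span_singleton.mp hm
          have e2 := congrFun hc i2
          simp [a, h02, h12, h02.symm, h12.symm] at e2
          exact h1 e2
    -- `u`, `v`
    have hwa : a ∉ Submodule.span F {w} := by
      intro hm
      obtain ⟨c, hc⟩ := Submodule.mem_span_singleton.mp hm
      apply hw
      have hc0 : c ≠ 0 := by
        rintro rfl
        apply ha
        rw [← hc, zero_smul]
      rw [Submodule.mem_span_singleton]
      refine ⟨c⁻¹, ?_⟩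
      rw [← hc, smul_smul, inv_mul_cancel₀ hc0, one_smul]
    obtain ⟨φ, hφ1, hφ0⟩ := exists_dot_sep hwa
    obtain ⟨u, hu⟩ := exists_rep_right hb hnd φ
    have hua : f u a = 1 := by rw [hu, hφ1]
    have huw : f u w = 0 := by rw [hu, hφ0]
    have hwu : w ∉ Submodule.span F {u} := by
      intro hm
      obtain ⟨c, hc⟩ := Submodule.mem_span_singleton.mp hm
      have : f w a = c * f u a := by rw [← hc, hb.smul_left]
      rw [hf.skew w a, hw0, hua] at this
      have hc0 : c = 0 := by simpa using this.symm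
      apply hw
      rw [← hc, hc0, zero_smul]
      exact Submodule.zero_mem _
    obtain ⟨ψ, hψ1, hψ0⟩ := exists_dot_sep hwu
    obtain ⟨v, hv⟩ := exists_rep_right hb hnd ψ
    have hvw : f v w = 1 := by rw [hv, hψ1]
    have hvu : f v u = 0 := by rw [hv, hψ0]
    have hmem : tf hf a w hw0 ∈ similarityGroup f ⊓ specialLinear ι F := by
      rw [heq]; exact tf_mem_SL hf a w hw0
    obtain ⟨c, hc⟩ := hmem.1
    have e := hc u v
    rw [tf_mulVec, tf_mulVec, huw, hvw, zero_smul, add_zero, one_smul, hb.add_right, hua, hf.skew u v, hvu] at e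
    simp at e
  · intro M hSM hMK
    by_cases hMS : M = similarityGroup f ⊓ specialLinear ι F
    · exact Or.inl hMS
    right
    obtain ⟨g, hgM, hgS⟩ : ∃ g ∈ M, g ∉ similarityGroup f ⊓ specialLinear ι F := by
      by_contra hcon
      push Not at hcon
      exact hMS (le_antisymm hcon hSM)
    have hgSim : g ∉ similarityGroup f := fun h => hgS ⟨h, hMK hgM⟩
    have hprop : ¬ ∀ x, ∃ c : F, ∀ u, f u x = c * f ((g : Matrix ι ι F) *ᵥ u) ((g : Matrix ι ι F) *ᵥ x) :=
      fun h => hgSim (mem_sim_of_prop hf g h)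
    push Not at hprop
    obtain ⟨x, hx⟩ := hprop
    -- isometries with determinant one lie in `M`
    have hiso : ∀ h : (ι → F) ≃ₗ[F] (ι → F), (∀ u v, f (h u) (h v) = f u v) →
        LinearMap.det (h : (ι → F) →ₗ[F] (ι → F)) = 1 → glOf h ∈ M := by
      intro h hi hd
      apply hSM
      refine Subgroup.mem_inf.mpr ⟨isom_mem_sim _ ?_, ?_⟩
      · intro u v
        rw [glOf_mulVec, glOf_mulVec, hi]
      · rw [mem_SL_iff, glOf_det, hd]
    have hsp : ∀ (a : ι → F) (c : F) (h0 : f a (c • a) = 0), tf hf a (c • a) h0 ∈ M := by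
      intro a c h0
      apply hSM
      exact Subgroup.mem_inf.mpr ⟨isom_mem_sim _ (tf_smul_isom hf a c), tf_mem_SL hf _ _ _⟩
    -- the conjugate
    have hx1 : f x ((1 : F) • x) = 0 := by rw [one_smul, hf.alternating]
    obtain ⟨w, hw⟩ := exists_rep_left hb hnd (pv f ((1 : F) • x) ᵥ* ((g⁻¹ : GL ι F) : Matrix ι ι F))
    have hwy : ∀ y, f y w = f (((g⁻¹ : GL ι F) : Matrix ι ι F) *ᵥ y) x := by
      intro y
      rw [← pv_dot hb w y, hw, conj_dot, pv_dot hb, one_smul]
    set a : ι → F := (g : Matrix ι ι F) *ᵥ x with ha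
    have haw : f a w = 0 := by
      rw [hwy, ha, inv_mulVec_mulVec, hf.alternating]
    have hconj : tf hf a w haw ∈ M := by
      have e : g * tf hf x ((1 : F) • x) hx1 * g⁻¹ = tf hf a w haw := by
        rw [tf, tv_conj, tf]
        apply Units.ext
        rw [tv_val, tv_val, hw]
      rw [← e]
      exact M.mul_mem (M.mul_mem hgM (hsp x 1 hx1)) (M.inv_mem hgM)
    have hx0 : x ≠ 0 := by
      rintro rfl
      obtain ⟨u, hu⟩ := hx 0
      apply hu
      have : f u 0 = 0 := by
        have := hb.smul_right 0 u 0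
        simpa using this
      rw [this]; simp
    have ha0 : a ≠ 0 := by
      intro h
      apply hx0
      have := inv_mulVec_mulVec g x
      rw [← ha, h, Matrix.mulVec_zero] at this
      exact this.symm
    have haw' : w ∉ Submodule.span F {a} := by
      intro hm
      obtain ⟨c, hc⟩ := Submodule.mem_span_singleton.mp hm
      obtain ⟨u, hu⟩ := hx c
      apply hu
      have e := hwy ((g : Matrix ι ι F) *ᵥ u)
      rw [inv_mulVec_mulVec, ← hc, hb.smul_right] at e
      exact e.symm
    -- all transvections with independent data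
    have hall : ∀ (a' w' : ι → F) (h0 : f a' w' = 0), a' ≠ 0 → w' ∉ Submodule.span F {a'} → tf hf a' w' h0 ∈ M := by
      intro a' w' h0 ha' hw'
      obtain ⟨h, hi, h1, h2, hd⟩ := exists_two_point hf ha0 ha' haw' hw' haw h0
      have h0'' : f (h a) (h w) = 0 := by rw [hi]; exact haw
      have e := conj_tf_of_isom hf a w haw h hi h0''
      have hm : tf hf (h a) (h w) h0'' ∈ M := by
        rw [← e]
        exact M.mul_mem (M.mul_mem (hiso h hi hd) hconj) (M.inv_mem (hiso h hi hd))
      have : tf hf a' w' h0 = tf hf (h a) (h w) h0'' := by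
        subst h1 h2
        rfl
      rw [this]
      exact hm
    apply eq_SL_of_tv_mem hMK
    intro a' φ hφ
    obtain ⟨w', rfl⟩ := exists_rep_left hb hnd φ
    have h0 : f a' w' = 0 := by rw [← pv_dot hb]; exact hφ
    by_cases ha' : a' = 0
    · subst ha'
      have : tv (0 : ι → F) (pv f w') hφ = 1 := by
        apply Units.ext
        rw [tv_val]
        simp
      rw [this]
      exact M.one_mem
    by_cases hw' : w' ∈ Submodule.span F {a'}
    · obtain ⟨c, rfl⟩ := Submodule.mem_span_singleton.mp hw'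
      exact hsp a' c h0
    · exact hall a' w' h0 ha' hw'

end Cfsg.Agent.Lib.SimSp
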