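import Mathlib

set_option autoImplicit false

namespace Cfsg.Agent.Lib.SimTranspose

open Polynomial Matrix DirectSum Module

variable {F : Type*} [Field F]

/-- A nondegenerate self-adjoint pairing on a polynomial module. -/
structure SAForm {M : Type*} [AddCommGroup M] [Module F[X] M] (B : M → M → F) : Prop where
  add_left : ∀ x y z, B (x + y) z = B x z + B y z
  add_right : ∀ x y z, B x (y + z) = B x y + B x z
  smul_left : ∀ (c : F) x y, B ((C c : F[X]) • x) y = c * B x y
  adj : ∀ (p : F[X]) x y, B (p • x) y = B x (p • y)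
  nondeg : ∀ x, (∀ y, B x y = 0) → x = 0

/-- Transport along an isomorphism. -/
theorem SAForm.transport {M N : Type*} [AddCommGroup M] [Module F[X] M] [AddCommGroup N] [Module F[X] N] {B : M → M → F} (hB : SAForm B)
    (e : N ≃ₗ[F[X]] M) : SAForm (fun x y => B (e x) (e y)) where
  add_left x y z := by simp only [map_add, hB.add_left]
  add_right x y z := by simp only [map_add, hB.add_right]
  smul_left c x y := by simp only [map_smul, hB.smul_left]
  adj p x y := by simp only [map_smul, hB.adj]
  nondeg x hx := by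
    have : e x = 0 := hB.nondeg _ (fun y => by
      have := hx (e.symm y)
      rwa [e.apply_symm_apply] at this)
    simpa using this

theorem SAForm.right_zero {M : Type*} [AddCommGroup M] [Module F[X] M] {B : M → M → F} (hB : SAForm B) (x : M) : B x 0 = 0 := by
  have := hB.add_right x 0 0
  rw [add_zero] at this
  simpa using this

/-- Direct sums. -/
theorem sum_form {ι : Type*} [Fintype ι] [DecidableEq ι] (M : ι → Type*) [∀ i, AddCommGroup (M i)] [∀ i, Module F[X] (M i)]
    (B : ∀ i, M i → M i → F) (hB : ∀ i, SAForm (B i)) : SAForm (M := ⨁ i, M i) (fun x y => ∑ i, B i (x i) (y i)) where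
  add_left x y z := by
    simp only [DirectSum.add_apply, (hB _).add_left, Finset.sum_add_distrib]
  add_right x y z := by
    simp only [DirectSum.add_apply, (hB _).add_right, Finset.sum_add_distrib]
  smul_left c x y := by
    simp only [DirectSum.smul_apply, (hB _).smul_left, Finset.mul_sum]
  adj p x y := by
    simp only [DirectSum.smul_apply, (hB _).adj]
  nondeg x hx := by
    apply DFinsupp.ext
    intro j
    apply (hB j).nondeg
    intro z
    have h := hx (DirectSum.of M j z)
    simp only at h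
    rw [Finset.sum_eq_single j] at h
    · rwa [DirectSum.of_eq_same] at h
    · intro i _ hij
      rw [DirectSum.of_eq_of_ne _ _ _ hij, (hB i).right_zero]
    · simp

/-- The cyclic case. -/
theorem cyclic_form {f : F[X]} (hf : f ≠ 0) : ∃ B : (F[X] ⧸ Submodule.span F[X] {f}) → (F[X] ⧸ Submodule.span F[X] {f}) → F, SAForm B := by
  classical
  set S := Submodule.span F[X] {f} with hS
  set g := f * C f.leadingCoeff⁻¹ with hg
  have hgm : g.Monic := monic_mul_leadingCoeff_inv hf
  have hfg : g ∣ f := by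
    refine ⟨C f.leadingCoeff, ?_⟩
    rw [hg, mul_assoc, ← C_mul, inv_mul_cancel₀ (leadingCoeff_ne_zero.2 hf), C_1, mul_one]
  have hgf : f ∣ g := ⟨_, rfl⟩
  set d := g.natDegree with hd
  let ℓ : F[X] → F := fun a => (a %ₘ g).coeff (d - 1)
  have ℓadd : ∀ a b, ℓ (a + b) = ℓ a + ℓ b := by
    intro a b
    simp only [ℓ, add_modByMonic, coeff_add]
  have ℓC : ∀ c a, ℓ (C c * a) = c * ℓ a := by
    intro c a
    simp only [ℓ]
    rw [← smul_eq_C_mul, smul_modByMonic, coeff_smul, smul_eq_mul]
  have ℓdvd : ∀ a, f ∣ a → ℓ a = 0 := by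
    intro a ha
    simp only [ℓ]
    rw [(modByMonic_eq_zero_iff_dvd hgm).2 (hfg.trans ha)]
    simp
  let π : F[X] → (F[X] ⧸ S) := Submodule.Quotient.mk
  have hπ : Function.Surjective π := Submodule.Quotient.mk_surjective _
  have hπeq : ∀ a b, π a = π b ↔ f ∣ a - b := by
    intro a b
    rw [Submodule.Quotient.eq, hS, Submodule.mem_span_singleton]
    constructor
    · rintro ⟨c, hc⟩
      exact ⟨c, by rw [← hc, smul_eq_mul, mul_comm]⟩
    · rintro ⟨c, hc⟩
      exact ⟨c, by rw [hc, smul_eq_mul, mul_comm]⟩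
  let rep : (F[X] ⧸ S) → F[X] := Function.surjInv hπ
  have hrep : ∀ x, π (rep x) = x := Function.surjInv_eq hπ
  let B : (F[X] ⧸ S) → (F[X] ⧸ S) → F := fun x y => ℓ (rep x * rep y)
  have hB : ∀ a b, B (π a) (π b) = ℓ (a * b) := by
    intro a b
    have h1 : f ∣ rep (π a) - a := (hπeq _ _).1 (hrep _)
    have h2 : f ∣ rep (π b) - b := (hπeq _ _).1 (hrep _)
    have h3 : f ∣ rep (π a) * rep (π b) - a * b := by
      have e : rep (π a) * rep (π b) - a * b = (rep (π a) - a) * rep (π b) + a * (rep (π b) - b) := by ring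
      rw [e]
      exact dvd_add (h1.mul_right _) (h2.mul_left _)
    have h4 := ℓdvd _ h3
    have e2 : rep (π a) * rep (π b) = (rep (π a) * rep (π b) - a * b) + a * b := by ring
    show ℓ (rep (π a) * rep (π b)) = _
    rw [e2, ℓadd, h4, zero_add]
  have hπadd : ∀ a b, π a + π b = π (a + b) := fun a b => rfl
  have hπsmul : ∀ p a, p • π a = π (p * a) := fun p a => rfl
  refine ⟨B, ?_⟩
  constructor
  · intro x y z
    obtain ⟨a, rfl⟩ := hπ x
    obtain ⟨b, rfl⟩ := hπ y
    obtain ⟨c, rfl⟩ := hπ z
    rw [hπadd, hB, hB, hB, add_mul, ℓadd]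
  · intro x y z
    obtain ⟨a, rfl⟩ := hπ x
    obtain ⟨b, rfl⟩ := hπ y
    obtain ⟨c, rfl⟩ := hπ z
    rw [hπadd, hB, hB, hB, mul_add, ℓadd]
  · intro c x y
    obtain ⟨a, rfl⟩ := hπ x
    obtain ⟨b, rfl⟩ := hπ y
    rw [hπsmul, hB, hB, mul_assoc, ℓC]
  · intro p x y
    obtain ⟨a, rfl⟩ := hπ x
    obtain ⟨b, rfl⟩ := hπ y
    rw [hπsmul, hπsmul, hB, hB]
    congr 1
    ring
  · intro x hx
    obtain ⟨a, rfl⟩ := hπ x
    set r := a %ₘ g with hr
    have hrd : r.degree < g.degree := degree_modByMonic_lt a hgm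
    have har : g ∣ a - r := by
      have := modByMonic_add_div a g
      refine ⟨a /ₘ g, ?_⟩
      rw [hr]
      linear_combination -this
    have hfar : f ∣ a - r := hgf.trans har
    by_cases hr0 : r = 0
    · have h0 : π a = π 0 := by
        rw [hπeq, sub_zero]
        rw [hr0, sub_zero] at hfar
        exact hfar
      rw [h0]
      rfl
    · exfalso
      have hrn : r.natDegree < d := natDegree_lt_natDegree hr0 hrd
      have h1 := hx (π (X ^ (d - 1 - r.natDegree)))
      rw [hB] at h1
      -- reduce to the remainder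
      have h2 : ℓ (a * X ^ (d - 1 - r.natDegree)) = ℓ (r * X ^ (d - 1 - r.natDegree)) := by
        have e : a * X ^ (d - 1 - r.natDegree) = (a - r) * X ^ (d - 1 - r.natDegree) + r * X ^ (d - 1 - r.natDegree) := by ring
        rw [e, ℓadd, ℓdvd _ (hfar.mul_right _), zero_add]
      rw [h2] at h1
      have hdeg : (r * X ^ (d - 1 - r.natDegree)).natDegree = d - 1 := by
        rw [natDegree_mul_X_pow _ hr0]
        omega
      have h3 : (r * X ^ (d - 1 - r.natDegree)).degree < g.degree := by
        apply degree_lt_degree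
        rw [hdeg]
        show d - 1 < d
        omega
      have h4 : (r * X ^ (d - 1 - r.natDegree)) %ₘ g = r * X ^ (d - 1 - r.natDegree) := (modByMonic_eq_self_iff hgm).2 h3
      have h5 : ℓ (r * X ^ (d - 1 - r.natDegree)) = (r * X ^ (d - 1 - r.natDegree)).coeff (d - 1) := by
        simp only [ℓ]
        rw [h4]
      rw [h5] at h1
      have h6 : (r * X ^ (d - 1 - r.natDegree)).coeff (d - 1) = r.leadingCoeff := by
        obtain ⟨k, hk⟩ : ∃ k, k = d - 1 - r.natDegree := ⟨_, rfl⟩
        rw [← hk]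
        have e3 : d - 1 = r.natDegree + k := by omega
        rw [e3, coeff_mul_X_pow]
        rfl
      rw [h6] at h1
      exact hr0 (leadingCoeff_eq_zero.1 h1)

/-- Every finite torsion polynomial module has a pairing. -/
theorem exists_form (M : Type*) [AddCommGroup M] [Module F[X] M] (ι : Type*) [Fintype ι] (p : ι → F[X]) (hp : ∀ i, p i ≠ 0)
    (e : M ≃ₗ[F[X]] ⨁ i : ι, F[X] ⧸ Submodule.span F[X] {p i}) : ∃ B : M → M → F, SAForm B := by
  classical
  choose B hB using fun i => cyclic_form (hp i)
  exact ⟨_, (sum_form (fun i => F[X] ⧸ Submodule.span F[X] {p i}) B hB).transport e⟩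

variable {n : Type*} [Fintype n] [DecidableEq n]

/-- A square matrix is similar to its transpose. -/
theorem exists_conj (A : Matrix n n F) : ∃ G : Matrix n n F, G.det ≠ 0 ∧ G * A = Aᵀ * G := by
  classical
  let φ : Module.End F (n → F) := Matrix.mulVecLin A
  let N := Module.AEval' φ
  let ofN : (n → F) ≃ₗ[F] N := Module.AEval'.of φ
  haveI : Module.Finite F[X] N := Module.Finite.of_restrictScalars_finite F F[X] N
  have htor : Module.IsTorsion F[X] N := Module.AEval.isTorsion_of_finiteDimensional (K := F) (M := n → F) φ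
  obtain ⟨ι, hι, p, hp, e, ⟨E⟩⟩ := Module.equiv_directSum_of_isTorsion htor
  obtain ⟨B, hB⟩ := exists_form (F := F) N ι (fun i => p i ^ e i) (fun i => pow_ne_zero _ (hp i).ne_zero) E
  have hCs : ∀ (c : F) (x : n → F), ofN (c • x) = (C c : F[X]) • ofN x := by
    intro c x
    rw [map_smul]
    exact (Module.AEval.C_smul _ _ _).symm
  have hXs : ∀ x : n → F, ofN (A *ᵥ x) = (X : F[X]) • ofN x := by
    intro x
    exact (Module.AEval'.X_smul_of φ x).symm
  let β : (n → F) →ₗ[F] (n → F) →ₗ[F] F := LinearMap.mk₂ F (fun x y => B (ofN x) (ofN y))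
    (fun x y z => by simp only [map_add, hB.add_left])
    (fun c x y => by
      rw [hCs, hB.smul_left, smul_eq_mul])
    (fun x y z => by simp only [map_add, hB.add_right])
    (fun c x y => by
      rw [hCs, ← hB.adj, hB.smul_left, smul_eq_mul])
  have hβ : ∀ x y, β x y = B (ofN x) (ofN y) := fun x y => rfl
  let G : Matrix n n F := LinearMap.toMatrix₂' F β
  have hG : ∀ x y, x ⬝ᵥ (G *ᵥ y) = β x y := by
    intro x y
    rw [← Matrix.toLinearMap₂'_apply', Matrix.toLinearMap₂'_toMatrix']
  refine ⟨G, ?_, ?_⟩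
  · apply Matrix.separatingLeft_iff_det_ne_zero.1
    rw [Matrix.separatingLeft_def]
    intro v hv
    have h1 : ofN v = 0 := by
      apply hB.nondeg
      intro y
      have := hv (ofN.symm y)
      rw [hG, hβ, ofN.apply_symm_apply] at this
      exact this
    simpa using h1
  · have key : ∀ x y, x ⬝ᵥ ((G * A) *ᵥ y) = x ⬝ᵥ ((Aᵀ * G) *ᵥ y) := by
      intro x y
      rw [← Matrix.mulVec_mulVec, ← Matrix.mulVec_mulVec, hG, Matrix.dotProduct_mulVec, Matrix.vecMul_transpose, hG, hβ, hβ, hXs, hXs, hB.adj]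
    ext i j
    have := key (Pi.single i 1) (Pi.single j 1)
    simpa [Matrix.mulVec_single_one] using this

/-- A square matrix is conjugate to its transpose. -/
theorem isConj_transpose (A : Matrix n n F) : IsConj A Aᵀ := by
  obtain ⟨G, hG, h⟩ := exists_conj A
  exact ⟨Matrix.nonsingInvUnit G (isUnit_iff_ne_zero.2 hG), h⟩

end Cfsg.Agent.Lib.SimTranspose
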