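import Cfsg.Agent.Lib.SpStab
import Cfsg.Agent.S0752

set_option autoImplicit false

namespace Cfsg.Agent.Lib.SpDecomp

open Matrix Cfsg.Geo Cfsg.Agent.Lib.SympBasic Cfsg.Agent.Lib.FormVec Cfsg.Agent.Lib.SpGL Cfsg.Agent.Lib.SpStab
open scoped MatrixGroups

/-- Two non-degenerate alternating forms on spaces of equal dimension are isometric. -/
theorem exists_alt_isom {F V₁ V₂ : Type*} [Field F] [AddCommGroup V₁] [Module F V₁] [FiniteDimensional F V₁]
    [AddCommGroup V₂] [Module F V₂] [FiniteDimensional F V₂]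
    (B₁ : LinearMap.BilinForm F V₁) (B₂ : LinearMap.BilinForm F V₂) (hA₁ : B₁.IsAlt) (hA₂ : B₂.IsAlt)
    (hN₁ : B₁.Nondegenerate) (hN₂ : B₂.Nondegenerate) (hdim : Module.finrank F V₁ = Module.finrank F V₂) :
    ∃ φ : V₁ ≃ₗ[F] V₂, ∀ x y, B₂ (φ x) (φ y) = B₁ x y := by
  classical
  obtain ⟨m₁, k₁, b₁, h11, h12, h13, h14⟩ := Cfsg.Agent.S0752.result B₁ hA₁
  obtain ⟨m₂, k₂, b₂, h21, h22, h23, h24⟩ := Cfsg.Agent.S0752.result B₂ hA₂
  have hk₁ : k₁ = 0 := by
    by_contra h
    have j : Fin k₁ := ⟨0, by omega⟩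
    have := hN₁.1 (b₁ (Sum.inr j)) (fun v => h14 j v)
    exact b₁.ne_zero _ this
  have hk₂ : k₂ = 0 := by
    by_contra h
    have j : Fin k₂ := ⟨0, by omega⟩
    have := hN₂.1 (b₂ (Sum.inr j)) (fun v => h24 j v)
    exact b₂.ne_zero _ this
  subst hk₁ hk₂
  have hc₁ := Module.finrank_eq_card_basis b₁
  have hc₂ := Module.finrank_eq_card_basis b₂
  simp only [Fintype.card_sum, Fintype.card_fin] at hc₁ hc₂
  have hm : m₁ = m₂ := by omega
  subst hm
  refine ⟨b₁.equiv b₂ (Equiv.refl _), ?_⟩
  let φ := b₁.equiv b₂ (Equiv.refl _)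
  have hφ : ∀ i, φ (b₁ i) = b₂ i := fun i => by simp [φ]
  have key : (B₂.comp (φ : V₁ →ₗ[F] V₂) (φ : V₁ →ₗ[F] V₂)) = B₁ := by
    apply LinearMap.BilinForm.ext_basis b₁
    intro i j
    simp only [LinearMap.BilinForm.comp_apply, LinearEquiv.coe_coe, hφ]
    rcases i with (i | i) | i
    · rcases j with (j | j) | j
      · rw [h22, h12]
      · rw [h21, h11]
      · exact j.elim0
    · rcases j with (j | j) | j
      · rw [← hA₂.neg_eq, ← hA₁.neg_eq, h21, h11]
      · rw [h23, h13]
      · exact j.elim0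
    · exact i.elim0
  intro x y
  have := LinearMap.BilinForm.congr_fun key x y
  simpa using this

variable {F : Type*} [Field F] {m t k : ℕ} {D : Fin t → Submodule F (Fin m ⊕ Fin m → F)}

local notation "f" => Cfsg.sympForm m F
local notation "V" => (Fin m ⊕ Fin m → F)
local notation "GG" => GL (Fin m ⊕ Fin m) F
local notation "MM" => Matrix (Fin m ⊕ Fin m) (Fin m ⊕ Fin m) F
local notation "BB" => toB (symp_bilinear (m := m) (F := F))

theorem perp_isCompl (W : Submodule F V) (hW : IsNondegenerateOn (Cfsg.sympForm m F) W) :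
    IsCompl W (LinearMap.BilinForm.orthogonal BB W) := by
  have hR : (BB).IsRefl := symp_B_alt.isRefl
  refine LinearMap.BilinForm.isCompl_orthogonal_of_restrict_nondegenerate hR ?_
  refine LinearMap.BilinForm.nondegenerate_restrict_of_disjoint_orthogonal BB hR ?_
  rw [Submodule.disjoint_def]
  intro x hx hxp
  by_contra h0
  obtain ⟨y, hy, hyx⟩ := (hW x hx h0).1
  exact hyx (LinearMap.BilinForm.mem_orthogonal_iff.mp hxp y hy)

noncomputable def prj' (W : Submodule F V) (hW : IsNondegenerateOn (Cfsg.sympForm m F) W) : V →ₗ[F] W :=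
  W.projectionOnto (LinearMap.BilinForm.orthogonal BB W) (perp_isCompl W hW)

noncomputable def prj (W : Submodule F V) (hW : IsNondegenerateOn (Cfsg.sympForm m F) W) : V →ₗ[F] V :=
  W.subtype ∘ₗ prj' W hW

theorem prj_apply (W : Submodule F V) (hW : IsNondegenerateOn (Cfsg.sympForm m F) W) (x : V) :
    prj W hW x = (prj' W hW x : V) := rfl

theorem prj_mem (W : Submodule F V) (hW : IsNondegenerateOn (Cfsg.sympForm m F) W) (x : V) :
    prj W hW x ∈ W := (prj' W hW x).2

theorem prj_of_mem (W : Submodule F V) (hW : IsNondegenerateOn (Cfsg.sympForm m F) W) {x : V} (hx : x ∈ W) :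
    prj W hW x = x := by
  rw [prj_apply, prj', Submodule.projectionOnto_apply_of_mem_left _ hx]

theorem prj_of_perp (W : Submodule F V) (hW : IsNondegenerateOn (Cfsg.sympForm m F) W) {x : V}
    (hx : ∀ a ∈ W, f a x = 0) : prj W hW x = 0 := by
  have h : x ∈ LinearMap.BilinForm.orthogonal BB W := LinearMap.BilinForm.mem_orthogonal_iff.mpr hx
  rw [prj_apply, prj', Submodule.projectionOnto_apply_of_mem_right _ h]
  rfl

theorem sub_prj_perp (W : Submodule F V) (hW : IsNondegenerateOn (Cfsg.sympForm m F) W) (x : V) :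
    ∀ a ∈ W, f a (x - prj W hW x) = 0 := by
  have h : x - prj W hW x ∈ LinearMap.BilinForm.orthogonal BB W := by
    have h0 : prj' W hW (x - prj W hW x) = 0 := by
      apply Subtype.ext
      rw [← prj_apply, map_sub, prj_of_mem W hW (prj_mem W hW x), sub_self]
      rfl
    exact (Submodule.projectionOnto_apply_eq_zero_iff _).mp h0
  exact fun a ha => LinearMap.BilinForm.mem_orthogonal_iff.mp h a ha

theorem form_prj (W : Submodule F V) (hW : IsNondegenerateOn (Cfsg.sympForm m F) W) (x : V) {a : V} (ha : a ∈ W) :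
    f a (prj W hW x) = f a x := by
  have := sub_prj_perp W hW x a ha
  have e : x = prj W hW x + (x - prj W hW x) := by abel
  conv_rhs => rw [e, sympForm_add_right, this, add_zero]

theorem skew0 {u v : V} (h : f u v = 0) : f v u = 0 := by
  rw [sympForm_skew, h, neg_zero]

/-! ### Projections on the members of a decomposition -/

noncomputable def P (hD : IsNondegenerateMDecomposition (Cfsg.sympForm m F) k D) (i : Fin t) : V →ₗ[F] V :=
  prj (D i) (hD.nondegenerate i)

section
variable (hD : IsNondegenerateMDecomposition (Cfsg.sympForm m F) k D)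
include hD

theorem P_mem (i : Fin t) (x : V) : P hD i x ∈ D i := prj_mem _ _ x

theorem P_self {i : Fin t} {x : V} (hx : x ∈ D i) : P hD i x = x := prj_of_mem _ _ hx

theorem P_other {i j : Fin t} {x : V} (hx : x ∈ D j) (hij : j ≠ i) : P hD i x = 0 :=
  prj_of_perp _ _ (fun a ha => hD.orthogonal i j hij.symm a ha x hx)

theorem P_P_self (i : Fin t) (x : V) : P hD i (P hD i x) = P hD i x := P_self hD (P_mem hD i x)

theorem P_P_other {i j : Fin t} (hij : j ≠ i) (x : V) : P hD i (P hD j x) = 0 :=
  P_other hD (P_mem hD j x) hij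

theorem form_P {i : Fin t} {a : V} (ha : a ∈ D i) (x : V) : f a (P hD i x) = f a x :=
  form_prj _ _ x ha

theorem sum_P (x : V) : ∑ i, P hD i x = x := by
  classical
  have hx : x ∈ iSup D := by rw [hD.decomp.iSup_eq_top]; trivial
  induction hx using Submodule.iSup_induction' with
  | mem j y hy =>
    rw [Finset.sum_eq_single j]
    · exact P_self hD hy
    · intro b _ hb
      exact P_other hD hy hb.symm
    · simp
  | zero => simp
  | add a b _ _ ha hb =>
    simp only [map_add, Finset.sum_add_distrib, ha, hb]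

theorem ext_P {x y : V} (h : ∀ i, P hD i x = P hD i y) : x = y := by
  rw [← sum_P hD x, ← sum_P hD y]
  exact Finset.sum_congr rfl fun i _ => h i

theorem D_ne_bot (i : Fin t) : D i ≠ ⊥ := by
  intro h
  have h1 := hD.decomp.finrank_eq i
  rw [h, finrank_bot] at h1
  have := hD.decomp.pos
  omega

theorem exists_ne (i : Fin t) : ∃ x ∈ D i, x ≠ 0 := Submodule.exists_mem_ne_zero_of_ne_bot (D_ne_bot hD i)

theorem exists_pair {i : Fin t} {u : V} (hu : u ∈ D i) (hu0 : u ≠ 0) : ∃ w ∈ D i, f w u = 1 := by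
  obtain ⟨x, hx, hxu⟩ := (hD.nondegenerate i u hu hu0).1
  refine ⟨(f x u)⁻¹ • x, (D i).smul_mem _ hx, ?_⟩
  rw [sympForm_smul_left, inv_mul_cancel₀ hxu]

/-- A linear map permuting the members is in the stabiliser. -/
theorem mem_H_of_maps {g : GG} (hg : g ∈ Cfsg.spGL m F) (σ : Equiv.Perm (Fin t))
    (h : ∀ i, ∀ x ∈ D i, (g : MM) *ᵥ x ∈ D (σ i)) : g ∈ decompositionStabilizer D ⊓ Cfsg.spGL m F := by
  refine ⟨⟨σ, fun i => ?_⟩, hg⟩
  have hle : (D i).map (Matrix.toLin' (g : MM)) ≤ D (σ i) := by
    rintro _ ⟨x, hx, rfl⟩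
    exact h i x hx
  refine Submodule.eq_of_le_of_finrank_eq hle ?_
  rw [hD.decomp.finrank_eq, ← hD.decomp.finrank_eq i]
  have hinj : Function.Injective (Matrix.toLin' (g : MM)) := by
    intro a b hab
    rw [Matrix.toLin'_apply, Matrix.toLin'_apply] at hab
    have := congrArg (fun z => ((g⁻¹ : GG) : MM) *ᵥ z) hab
    simpa only [inv_mulVec_mulVec] using this
  exact (Submodule.equivMapOfInjective _ hinj (D i)).finrank_eq.symm

end

/-! ### Vectors whose transvections lie in a subgroup -/

def InS (M : Subgroup GG) (x : V) : Prop := ∀ c, stv x c ∈ M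

theorem InS.conj {M : Subgroup GG} (hMK : M ≤ Cfsg.spGL m F) {x : V} (hx : InS M x) {g : GG} (hg : g ∈ M) :
    InS M ((g : MM) *ᵥ x) := by
  intro c
  rw [← conj_stv (hMK hg)]
  exact M.mul_mem (M.mul_mem hg (hx c)) (M.inv_mem hg)

theorem InS.add_smul {M : Subgroup GG} (hMK : M ≤ Cfsg.spGL m F) {x y : V} (hx : InS M x) (hy : InS M y)
    (h : f y x ≠ 0) (d : F) : InS M (y + d • x) := by
  have := hy.conj hMK (hx (d / f y x))
  rw [stv_mulVec] at this
  rwa [div_mul_cancel₀ _ h] at this


section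
variable (hD : IsNondegenerateMDecomposition (Cfsg.sympForm m F) k D)
include hD

theorem inS_of_mem {M : Subgroup GG} (hSM : decompositionStabilizer D ⊓ Cfsg.spGL m F ≤ M) {i : Fin t} {x : V}
    (hx : x ∈ D i) : InS M x := by
  intro c
  apply hSM
  refine mem_H_of_maps hD (stv_mem x c) 1 ?_
  intro j y hy
  rw [stv_mulVec]
  by_cases hj : j = i
  · subst hj
    exact (D j).add_mem hy ((D j).smul_mem _ hx)
  · rw [hD.orthogonal j i hj y hy x hx]
    simpa using hy

/-- Moving one component. -/
theorem block_move (i : Fin t) {a a' : V} (ha : a ∈ D i) (ha' : a' ∈ D i) (ha0 : a ≠ 0) (ha'0 : a' ≠ 0) :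
    ∃ h : V ≃ₗ[F] V, (∀ u v, f (h u) (h v) = f u v) ∧ (∀ x, (∀ u ∈ D i, f u x = 0) → h x = x) ∧
      (∀ x ∈ D i, h x ∈ D i) ∧ h a = a' := by
  let X' : Submodule F V := LinearMap.BilinForm.orthogonal BB (D i)
  have hX' : ∀ x, x ∈ X' ↔ ∀ u ∈ D i, f u x = 0 := fun x => LinearMap.BilinForm.mem_orthogonal_iff
  have hnot : ∀ b ∈ D i, b ≠ 0 → b ∉ X' := by
    intro b hb hb0 hbX
    obtain ⟨w, hw, hwb⟩ := (hD.nondegenerate i b hb hb0).1
    exact hwb ((hX' b).mp hbX w hw)
  obtain ⟨h, hi, hfix, hh⟩ := witt_step X' (hnot a ha ha0) (hnot a' ha' ha'0) (by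
    intro x' hx'
    rw [skew0 ((hX' x').mp hx' a ha), skew0 ((hX' x').mp hx' a' ha')])
  refine ⟨h, hi, fun x hx => hfix x ((hX' x).mpr hx), ?_, hh⟩
  intro x hx
  apply perp_perp
  intro u hu
  have h1 := hi u x
  rw [hfix u ((hX' u).mpr hu)] at h1
  rw [h1]
  exact skew0 (hu x hx)

theorem glOf_block_mem {i : Fin t} {h : V ≃ₗ[F] V} (hi : ∀ u v, f (h u) (h v) = f u v)
    (hfix : ∀ x, (∀ u ∈ D i, f u x = 0) → h x = x) (hmap : ∀ x ∈ D i, h x ∈ D i) :
    glOf h ∈ decompositionStabilizer D ⊓ Cfsg.spGL m F := by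
  refine mem_H_of_maps hD (glOf_mem_spGL h hi) 1 ?_
  intro j x hx
  rw [glOf_mulVec]
  by_cases hj : j = i
  · subst hj
    exact hmap x hx
  · rw [hfix x (fun u hu => hD.orthogonal i j (Ne.symm hj) u hu x hx)]
    exact hx

/-- Transitivity on vectors of the same support. -/
theorem same_supp_aux (B : Finset (Fin t)) : ∀ x x' : V, (∀ i, P hD i x = 0 ↔ P hD i x' = 0) →
    (∀ i, i ∉ B → P hD i x = P hD i x') →
    ∃ g ∈ decompositionStabilizer D ⊓ Cfsg.spGL m F, (g : MM) *ᵥ x = x' := by
  classical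
  induction B using Finset.induction_on with
  | empty =>
    intro x x' _ h2
    refine ⟨1, Subgroup.one_mem _, ?_⟩
    rw [Units.val_one, Matrix.one_mulVec]
    exact ext_P hD (fun i => h2 i (by simp))
  | insert i B hiB ih =>
    intro x x' h1 h2
    by_cases he : P hD i x = P hD i x'
    · apply ih x x' h1
      intro j hj
      by_cases hji : j = i
      · rw [hji]; exact he
      · exact h2 j (by simp [hji, hj])
    · have h0 : P hD i x ≠ 0 := by
        intro h
        apply he
        rw [h, (h1 i).mp h]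
      have h0' : P hD i x' ≠ 0 := by
        intro h
        apply he
        rw [h, (h1 i).mpr h]
      obtain ⟨h, hi, hfix, hmap, hh⟩ := block_move hD i (P_mem hD i x) (P_mem hD i x') h0 h0'
      have hx1 : h x = x - P hD i x + P hD i x' := by
        have e : x = P hD i x + (x - P hD i x) := by abel
        have hp : ∀ u ∈ D i, f u (x - P hD i x) = 0 := sub_prj_perp _ _ x
        conv_lhs => rw [e, map_add, hh, hfix _ hp]
        abel
      have hPi : P hD i (h x) = P hD i x' := by
        rw [hx1, map_add, map_sub, P_P_self, P_P_self]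
        abel
      have hPj : ∀ j, j ≠ i → P hD j (h x) = P hD j x := by
        intro j hj
        rw [hx1, map_add, map_sub, P_P_other hD (Ne.symm hj), P_P_other hD (Ne.symm hj)]
        abel
      obtain ⟨g, hg, hgx⟩ := ih (h x) x' (by
        intro j
        by_cases hj : j = i
        · rw [hj, hPi]
        · rw [hPj j hj]
          exact h1 j) (by
        intro j hj
        by_cases hji : j = i
        · rw [hji, hPi]
        · rw [hPj j hji]
          exact h2 j (by simp [hji, hj]))
      refine ⟨g * glOf h, Subgroup.mul_mem _ hg (glOf_block_mem hD hi hfix hmap), ?_⟩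
      rw [Units.val_mul, ← Matrix.mulVec_mulVec, glOf_mulVec, hgx]

theorem same_supp {M : Subgroup GG} (hSM : decompositionStabilizer D ⊓ Cfsg.spGL m F ≤ M)
    (hMK : M ≤ Cfsg.spGL m F) {x x' : V} (hx : InS M x) (h : ∀ i, P hD i x = 0 ↔ P hD i x' = 0) :
    InS M x' := by
  obtain ⟨g, hg, hgx⟩ := same_supp_aux hD Finset.univ x x' h (by simp)
  rw [← hgx]
  exact hx.conj hMK (hSM hg)

/-- The swap of two members. -/
theorem swap_exists {a b : Fin t} (hab : a ≠ b) :
    ∃ h : V ≃ₗ[F] V, (∀ u v, f (h u) (h v) = f u v) ∧ (∀ x ∈ D a, h x ∈ D b) ∧ (∀ x ∈ D b, h x ∈ D a) ∧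
      ∀ l, l ≠ a → l ≠ b → ∀ x ∈ D l, h x = x := by
  have hnd : ∀ i, ((BB).restrict (D i)).Nondegenerate := by
    intro i
    have hR : (BB).IsRefl := symp_B_alt.isRefl
    exact LinearMap.BilinForm.nondegenerate_restrict_of_disjoint_orthogonal BB hR (perp_isCompl (D i) (hD.nondegenerate i)).disjoint
  have halt : ∀ i, ((BB).restrict (D i)).IsAlt := by
    intro i x
    exact symp_B_alt (x : V)
  obtain ⟨φ, hφ⟩ := exists_alt_isom _ _ (halt a) (halt b) (hnd a) (hnd b)
    (by rw [hD.decomp.finrank_eq, hD.decomp.finrank_eq])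
  have hφ' : ∀ x y : D a, f (φ x : V) (φ y : V) = f (x : V) (y : V) := fun x y => hφ x y
  have hφs : ∀ x y : D b, f (φ.symm x : V) (φ.symm y : V) = f (x : V) (y : V) := by
    intro x y
    have := hφ' (φ.symm x) (φ.symm y)
    rw [φ.apply_symm_apply, φ.apply_symm_apply] at this
    exact this.symm
  let Pa' := prj' (D a) (hD.nondegenerate a)
  let Pb' := prj' (D b) (hD.nondegenerate b)
  let h₀ : V →ₗ[F] V := LinearMap.id - P hD a - P hD b + (D b).subtype ∘ₗ (φ : D a →ₗ[F] D b) ∘ₗ Pa' +
    (D a).subtype ∘ₗ (φ.symm : D b →ₗ[F] D a) ∘ₗ Pb'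
  have h₀_apply : ∀ x, h₀ x = (x - P hD a x - P hD b x) + (φ (Pa' x) : V) + (φ.symm (Pb' x) : V) := fun x => rfl
  have hab0 : ∀ p ∈ D a, ∀ q ∈ D b, f p q = 0 := fun p hp q hq => hD.orthogonal a b hab p hp q hq
  have hba0 : ∀ p ∈ D b, ∀ q ∈ D a, f p q = 0 := fun p hp q hq => hD.orthogonal b a hab.symm p hp q hq
  have hra : ∀ x, ∀ d ∈ D a, f d (x - P hD a x - P hD b x) = 0 := by
    intro x d hd
    have h1 := sub_prj_perp (D a) (hD.nondegenerate a) x d hd
    rw [sub_eq_add_neg, sympForm_add_right]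
    have h2 : f d (-(P hD b x)) = 0 := by
      have : -(P hD b x) = (-1 : F) • P hD b x := by simp
      rw [this, sympForm_smul_right, hab0 d hd _ (P_mem hD b x), mul_zero]
    rw [h2, add_zero]
    exact h1
  have hrb : ∀ x, ∀ d ∈ D b, f d (x - P hD a x - P hD b x) = 0 := by
    intro x d hd
    have h1 := sub_prj_perp (D b) (hD.nondegenerate b) x d hd
    have e : x - P hD a x - P hD b x = (x - P hD b x) + (-1 : F) • P hD a x := by
      simp only [neg_smul, one_smul]
      abel
    rw [e, sympForm_add_right, sympForm_smul_right, hba0 d hd _ (P_mem hD a x), mul_zero, add_zero]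
    exact h1
  have hiso : ∀ x y, f (h₀ x) (h₀ y) = f x y := by
    intro x y
    have hxe : x = P hD a x + P hD b x + (x - P hD a x - P hD b x) := by abel
    have hye : y = P hD a y + P hD b y + (y - P hD a y - P hD b y) := by abel
    have hAx : (Pa' x : V) = P hD a x := rfl
    have hBx : (Pb' x : V) = P hD b x := rfl
    have hAy : (Pa' y : V) = P hD a y := rfl
    have hBy : (Pb' y : V) = P hD b y := rfl
    set r := x - P hD a x - P hD b x with hr
    set s := y - P hD a y - P hD b y with hs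
    have r1 : ∀ d ∈ D a, f d s = 0 := fun d hd => hra y d hd
    have r2 : ∀ d ∈ D b, f d s = 0 := fun d hd => hrb y d hd
    have r3 : ∀ d ∈ D a, f r d = 0 := fun d hd => skew0 (hra x d hd)
    have r4 : ∀ d ∈ D b, f r d = 0 := fun d hd => skew0 (hrb x d hd)
    have t1 : f (φ (Pa' x) : V) (φ (Pa' y) : V) = f (P hD a x) (P hD a y) := hφ' _ _
    have t2 : f (φ.symm (Pb' x) : V) (φ.symm (Pb' y) : V) = f (P hD b x) (P hD b y) := hφs _ _
    have t3 : f (φ (Pa' x) : V) (φ.symm (Pb' y) : V) = 0 := hba0 _ (φ (Pa' x)).2 _ (φ.symm (Pb' y)).2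
    have t4 : f (φ.symm (Pb' x) : V) (φ (Pa' y) : V) = 0 := hab0 _ (φ.symm (Pb' x)).2 _ (φ (Pa' y)).2
    have t5 : f r (φ (Pa' y) : V) = 0 := r4 _ (φ (Pa' y)).2
    have t6 : f r (φ.symm (Pb' y) : V) = 0 := r3 _ (φ.symm (Pb' y)).2
    have t7 : f (φ (Pa' x) : V) s = 0 := r2 _ (φ (Pa' x)).2
    have t8 : f (φ.symm (Pb' x) : V) s = 0 := r1 _ (φ.symm (Pb' x)).2
    have u1 : f (P hD a x) (P hD b y) = 0 := hab0 _ (P_mem hD a x) _ (P_mem hD b y)
    have u2 : f (P hD b x) (P hD a y) = 0 := hba0 _ (P_mem hD b x) _ (P_mem hD a y)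
    have u3 : f (P hD a x) s = 0 := r1 _ (P_mem hD a x)
    have u4 : f (P hD b x) s = 0 := r2 _ (P_mem hD b x)
    have u5 : f r (P hD a y) = 0 := r3 _ (P_mem hD a y)
    have u6 : f r (P hD b y) = 0 := r4 _ (P_mem hD b y)
    rw [h₀_apply, h₀_apply, ← hr, ← hs]
    conv_rhs => rw [hxe, hye]
    simp only [sympForm_add_left, sympForm_add_right]
    rw [t1, t2, t3, t4, t5, t6, t7, t8, u1, u2, u3, u4, u5, u6]
    ring
  have hinj : Function.Injective h₀ := by
    rw [injective_iff_map_eq_zero]
    intro z hz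
    by_contra h0
    obtain ⟨y, hy⟩ := (symp_nondeg z h0).2
    apply hy
    rw [← hiso, hz]
    simp [sympForm_apply]
  refine ⟨LinearEquiv.ofInjectiveEndo h₀ hinj, fun u v => hiso u v, ?_, ?_, ?_⟩
  · intro x hx
    show h₀ x ∈ D b
    have h1 : P hD a x = x := P_self hD hx
    have h2 : P hD b x = 0 := P_other hD hx hab
    have h3 : Pb' x = 0 := Subtype.ext h2
    rw [h₀_apply, h1, h2, h3]
    simpa using (φ (Pa' x)).2
  · intro x hx
    show h₀ x ∈ D a
    have h1 : P hD b x = x := P_self hD hx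
    have h2 : P hD a x = 0 := P_other hD hx hab.symm
    have h3 : Pa' x = 0 := Subtype.ext h2
    rw [h₀_apply, h1, h2, h3]
    simpa using (φ.symm (Pb' x)).2
  · intro l hla hlb x hx
    show h₀ x = x
    have h1 : P hD a x = 0 := P_other hD hx hla
    have h2 : P hD b x = 0 := P_other hD hx hlb
    have h3 : Pa' x = 0 := Subtype.ext h1
    have h4 : Pb' x = 0 := Subtype.ext h2
    rw [h₀_apply, h1, h2, h3, h4]
    simp

theorem glOf_swap_mem {a b : Fin t} {h : V ≃ₗ[F] V} (hi : ∀ u v, f (h u) (h v) = f u v)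
    (h1 : ∀ x ∈ D a, h x ∈ D b) (h2 : ∀ x ∈ D b, h x ∈ D a) (h3 : ∀ l, l ≠ a → l ≠ b → ∀ x ∈ D l, h x = x) :
    glOf h ∈ decompositionStabilizer D ⊓ Cfsg.spGL m F := by
  classical
  refine mem_H_of_maps hD (glOf_mem_spGL h hi) (Equiv.swap a b) ?_
  intro j x hx
  rw [glOf_mulVec]
  by_cases hja : j = a
  · subst hja
    rw [Equiv.swap_apply_left]
    exact h1 x hx
  by_cases hjb : j = b
  · subst hjb
    rw [Equiv.swap_apply_right]
    exact h2 x hx
  · rw [Equiv.swap_apply_of_ne_of_ne hja hjb, h3 j hja hjb x hx]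
    exact hx

end

/-- All vectors with a given two-element support. -/
def Two (M : Subgroup GG) (D : Fin t → Submodule F (Fin m ⊕ Fin m → F)) (a b : Fin t) : Prop :=
  ∀ u ∈ D a, ∀ v ∈ D b, u ≠ 0 → v ≠ 0 → InS M (u + v)

theorem Two.symm {M : Subgroup GG} {a b : Fin t} (h : Two M D a b) : Two M D b a := by
  intro u hu v hv hu0 hv0
  rw [add_comm]
  exact h v hv u hu hv0 hu0

section
variable (hD : IsNondegenerateMDecomposition (Cfsg.sympForm m F) k D)
include hD

/-- Moving the second index. -/
theorem Two.move {M : Subgroup GG} (hSM : decompositionStabilizer D ⊓ Cfsg.spGL m F ≤ M)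
    (hMK : M ≤ Cfsg.spGL m F) {a b c : Fin t} (h : Two M D a b) (hab : a ≠ b) (hca : c ≠ a) : Two M D a c := by
  by_cases hcb : c = b
  · rw [hcb]; exact h
  intro u hu v hv hu0 hv0
  obtain ⟨s, hs, h1, h2, h3⟩ := swap_exists hD (Ne.symm hcb)
  have hsm := hSM (glOf_swap_mem hD hs h1 h2 h3)
  have hsu : s u = u := h3 a hab (Ne.symm hca) u hu
  have e := InS.conj hMK (h u hu (s v) (h2 v hv) hu0 (by
    intro h0
    exact hv0 (s.injective (by rw [h0, map_zero])))) (M.inv_mem hsm)
  have e2 : u + s v = s (u + v) := by rw [map_add, hsu]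
  rw [e2] at e
  have e3 : ((glOf s)⁻¹ : GG).val *ᵥ (s (u + v)) = u + v := by
    rw [glOf_inv_mulVec, s.symm_apply_apply]
  rwa [e3] at e

/-- Descent to two-element supports. -/
theorem two_of_supp {M : Subgroup GG} (hSM : decompositionStabilizer D ⊓ Cfsg.spGL m F ≤ M)
    (hMK : M ≤ Cfsg.spGL m F)
    (hex : ∀ b, ∀ v ∈ D b, v ≠ 0 → ∃ w ∈ D b, w ≠ 0 ∧ w ≠ v ∧ f w v = 0)
    {x₀ : V} (hx₀ : InS M x₀) {a b : Fin t} (hab : a ≠ b) (ha : P hD a x₀ ≠ 0) (hb : P hD b x₀ ≠ 0) :
    Two M D a b := by
  intro u hu v hv hu0 hv0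
  obtain ⟨wa, hwa, hwau⟩ := exists_pair hD hu hu0
  obtain ⟨wb, hwb, hwb0, hwbv, hwbv0⟩ := hex b v hv hv0
  have hwa0 : wa ≠ 0 := by
    rintro rfl
    rw [show Cfsg.sympForm m F 0 u = 0 by simp [sympForm_apply]] at hwau
    exact zero_ne_one hwau
  let w : V := x₀ - P hD a x₀ - P hD b x₀ + wa + wb
  have wa1 : P hD a w = wa := by
    simp only [w, map_add, map_sub, P_P_self, P_P_other hD hab.symm, P_self hD hwa, P_other hD hwb hab.symm]
    abel
  have wb1 : P hD b w = wb := by
    simp only [w, map_add, map_sub, P_P_self, P_P_other hD hab, P_self hD hwb, P_other hD hwa hab]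
    abel
  have wo : ∀ i, i ≠ a → i ≠ b → P hD i w = P hD i x₀ := by
    intro i hia hib
    simp only [w, map_add, map_sub, P_P_other hD hia.symm, P_P_other hD hib.symm, P_other hD hwa hia.symm, P_other hD hwb hib.symm]
    abel
  have hw : InS M w := same_supp hD hSM hMK hx₀ (by
    intro i
    by_cases hia : i = a
    · rw [hia, wa1]
      exact iff_of_false ha hwa0
    by_cases hib : i = b
    · rw [hib, wb1]
      exact iff_of_false hb hwb0
    · rw [wo i hia hib])
  let y : V := u + v - w
  have hfuu : f u u = 0 := sympForm_self u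
  have hy : InS M y := same_supp hD hSM hMK hx₀ (by
    intro i
    by_cases hia : i = a
    · subst hia
      have : P hD i y = u - wa := by
        simp only [y, map_sub, map_add, wa1, P_self hD hu, P_other hD hv hab.symm, add_zero]
      rw [this]
      refine iff_of_false ha ?_
      intro h0
      have h1 : f (u - wa) u = 0 := by rw [h0]; simp [sympForm_apply]
      rw [sub_eq_add_neg, sympForm_add_left, hfuu, zero_add, show -wa = (-1 : F) • wa by simp, sympForm_smul_left, hwau] at h1
      have : (1 : F) = 0 := by linear_combination -h1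
      exact one_ne_zero this
    by_cases hib : i = b
    · subst hib
      have : P hD i y = v - wb := by
        simp only [y, map_sub, map_add, wb1, P_self hD hv, P_other hD hu hab, zero_add]
      rw [this]
      refine iff_of_false hb ?_
      intro h0
      exact hwbv (sub_eq_zero.mp h0).symm
    · have : P hD i y = - P hD i x₀ := by
        simp only [y, map_sub, map_add, wo i hia hib, P_other hD hu (Ne.symm hia), P_other hD hv (Ne.symm hib)]
        abel
      rw [this, neg_eq_zero])
  have hfyw : f y w ≠ 0 := by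
    have h1 : f u w = - 1 := by
      rw [← form_P hD hu w, wa1, sympForm_skew, hwau]
    have h2 : f v w = 0 := by
      rw [← form_P hD hv w, wb1, sympForm_skew, hwbv0, neg_zero]
    have h3 : f w w = 0 := sympForm_self w
    have e : f y w = -1 := by
      show f (u + v - w) w = -1
      rw [sub_eq_add_neg, sympForm_add_left, sympForm_add_left, h1, h2, show -w = (-1 : F) • w by simp, sympForm_smul_left, h3]
      ring
    rw [e]
    exact neg_ne_zero.mpr one_ne_zero
  have := hw.add_smul hMK hy hfyw 1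
  rw [one_smul] at this
  have e : y + w = u + v := by
    simp only [y]
    abel
  rwa [e] at this

/-- From two-element supports to everything. -/
theorem all_of_two {M : Subgroup GG} (hSM : decompositionStabilizer D ⊓ Cfsg.spGL m F ≤ M)
    (hMK : M ≤ Cfsg.spGL m F) (h2 : ∀ a b, a ≠ b → Two M D a b) (z : V) : InS M z := by
  classical
  induction' hn : (Finset.univ.filter (fun i => P hD i z ≠ 0)).card using Nat.strong_induction_on with n ih generalizing z
  by_cases hone : ∃ l i, l ≠ i ∧ P hD l z ≠ 0 ∧ P hD i z ≠ 0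
  · obtain ⟨l, i, hli, hl, hi⟩ := hone
    obtain ⟨wi, hwi, hwiz⟩ := exists_pair hD (P_mem hD i z) hi
    have hwi0 : wi ≠ 0 := by
      rintro rfl
      rw [show Cfsg.sympForm m F 0 (P hD i z) = 0 by simp [sympForm_apply]] at hwiz
      exact zero_ne_one hwiz
    let x' : V := P hD l z + wi
    have hx' : InS M x' := h2 l i hli _ (P_mem hD l z) _ hwi hl hwi0
    let y : V := z - x'
    have hyl : P hD l y = 0 := by
      simp only [y, x', map_sub, map_add, P_P_self, P_other hD hwi hli.symm]
      abel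
    have hyi : P hD i y = P hD i z - wi := by
      simp only [y, x', map_sub, map_add, P_self hD hwi, P_P_other hD hli, zero_add]
    have hyo : ∀ j, j ≠ l → j ≠ i → P hD j y = P hD j z := by
      intro j hjl hji
      simp only [y, x', map_sub, map_add, P_P_other hD hjl.symm, P_other hD hwi hji.symm]
      abel
    have hy : InS M y := by
      refine ih _ ?_ y rfl
      rw [← hn]
      apply Finset.card_lt_card
      refine ⟨?_, ?_⟩
      · intro j hj
        simp only [Finset.mem_filter, Finset.mem_univ, true_and] at hj ⊢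
        by_cases hjl : j = l
        · rw [hjl]; exact hl
        by_cases hji : j = i
        · rw [hji]; exact hi
        · rwa [hyo j hjl hji] at hj
      · intro hsub
        have := hsub (show l ∈ Finset.univ.filter (fun i => P hD i z ≠ 0) by simp [hl])
        simp only [Finset.mem_filter, Finset.mem_univ, true_and] at this
        exact this hyl
    have hf : f y x' ≠ 0 := by
      have e2 : f z wi = -1 := by
        rw [sympForm_skew, ← form_P hD hwi z, hwiz]
      have e3 : f z (P hD l z) = 0 := by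
        rw [sympForm_skew, ← form_P hD (P_mem hD l z) z, sympForm_self, neg_zero]
      have e4 : f z x' = -1 := by
        show f z (P hD l z + wi) = -1
        rw [sympForm_add_right, e3, e2, zero_add]
      have e5 : f y x' = -1 := by
        show f (z - x') x' = -1
        rw [sub_eq_add_neg, sympForm_add_left, e4, show -x' = (-1 : F) • x' by simp, sympForm_smul_left, sympForm_self x']
        ring
      rw [e5]
      exact neg_ne_zero.mpr one_ne_zero
    have := hx'.add_smul hMK hy hf 1
    rw [one_smul] at this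
    have e : y + x' = z := by
      simp only [y]
      abel
    rwa [e] at this
  · push Not at hone
    by_cases hz : ∃ i, P hD i z ≠ 0
    · obtain ⟨i, hi⟩ := hz
      have hzi : z = P hD i z := by
        apply ext_P hD
        intro j
        by_cases hji : j = i
        · rw [hji, P_P_self]
        · rw [P_P_other hD (Ne.symm hji)]
          by_contra h0
          exact hi (hone j i hji h0)
      rw [hzi]
      exact inS_of_mem hD hSM (P_mem hD i z)
    · push Not at hz
      have hz0 : z = 0 := by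
        apply ext_P hD
        intro j
        rw [hz j, map_zero]
      have ht : 0 < t := by
        have := hD.decomp.two_le
        omega
      rw [hz0]
      exact inS_of_mem hD hSM (D ⟨0, ht⟩).zero_mem

/-- An element outside the stabiliser moves a vector to one with two components. -/
theorem exists_two_supp {g : GG} (hg : g ∈ Cfsg.spGL m F) (hgS : g ∉ decompositionStabilizer D ⊓ Cfsg.spGL m F) :
    ∃ i, ∃ x ∈ D i, ∃ a b, a ≠ b ∧ P hD a ((g : MM) *ᵥ x) ≠ 0 ∧ P hD b ((g : MM) *ᵥ x) ≠ 0 := by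
  classical
  by_contra hcon
  push Not at hcon
  apply hgS
  have hnz : ∀ z : V, z ≠ 0 → ∃ j, P hD j z ≠ 0 := by
    intro z hz
    by_contra h
    push Not at h
    exact hz (ext_P hD (fun i => by rw [h i, map_zero]))
  have hchoice : ∀ i, ∃ j, ∀ x ∈ D i, (g : MM) *ᵥ x ∈ D j := by
    intro i
    obtain ⟨x₀, hx₀, hx₀0⟩ := exists_ne hD i
    have hgx₀ : (g : MM) *ᵥ x₀ ≠ 0 := by
      intro h
      apply hx₀0
      have := inv_mulVec_mulVec g x₀
      rw [h, Matrix.mulVec_zero] at this
      exact this.symm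
    obtain ⟨j, hj⟩ := hnz _ hgx₀
    refine ⟨j, fun x hx => ?_⟩
    have hPj : ∀ j', j' ≠ j → P hD j' ((g : MM) *ᵥ x) = 0 := by
      intro j' hj'
      by_contra h0
      have hP0 : P hD j' ((g : MM) *ᵥ x₀) = 0 := hcon i x₀ hx₀ j j' (Ne.symm hj') hj
      have hjx : P hD j ((g : MM) *ᵥ x) = 0 := hcon i x hx j' j hj' h0
      have := hcon i (x + x₀) ((D i).add_mem hx hx₀) j' j hj' (by
        rw [Matrix.mulVec_add, map_add, hP0, add_zero]
        exact h0)
      rw [Matrix.mulVec_add, map_add, hjx, zero_add] at this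
      exact hj this
    have e : (g : MM) *ᵥ x = P hD j ((g : MM) *ᵥ x) := by
      apply ext_P hD
      intro j'
      by_cases hj' : j' = j
      · rw [hj', P_P_self]
      · rw [hPj j' hj', P_P_other hD (Ne.symm hj')]
    rw [e]
    exact P_mem hD j _
  choose σ hσ using hchoice
  have hinj : Function.Injective σ := by
    intro i i' hii'
    by_contra hne
    obtain ⟨x₀, hx₀, hx₀0⟩ := exists_ne hD i
    have hle : (D i').map (Matrix.toLin' (g : MM)) ≤ D (σ i') := by
      rintro _ ⟨x, hx, rfl⟩
      exact hσ i' x hx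
    have hinj : Function.Injective (Matrix.toLin' (g : MM)) := by
      intro a b hab
      rw [Matrix.toLin'_apply, Matrix.toLin'_apply] at hab
      have := congrArg (fun z => ((g⁻¹ : GG) : MM) *ᵥ z) hab
      simpa only [inv_mulVec_mulVec] using this
    have heq : (D i').map (Matrix.toLin' (g : MM)) = D (σ i') := by
      refine Submodule.eq_of_le_of_finrank_eq hle ?_
      rw [hD.decomp.finrank_eq, ← hD.decomp.finrank_eq i']
      exact (Submodule.equivMapOfInjective _ hinj (D i')).finrank_eq.symm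
    have h1 : (g : MM) *ᵥ x₀ ∈ D (σ i') := by
      rw [← hii']
      exact hσ i x₀ hx₀
    rw [← heq] at h1
    obtain ⟨x', hx', e⟩ := h1
    have e2 := hinj e
    rw [← e2] at hx₀
    -- x' = x₀ lies in both
    have h3 : P hD i' x' = 0 := P_other hD hx₀ hne
    rw [P_self hD hx'] at h3
    apply hx₀0
    rw [← e2, h3]
  let σ' : Equiv.Perm (Fin t) := Equiv.ofBijective σ (Finite.injective_iff_bijective.mp hinj)
  exact mem_H_of_maps hD hg σ' (fun i x hx => hσ i x hx)

/-- The exception lemma. -/
theorem exists_other [Fintype F] (hex : ¬ (k = 2 ∧ Fintype.card F = 2)) (b : Fin t) {v : V} (hv : v ∈ D b) (hv0 : v ≠ 0) :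
    ∃ w ∈ D b, w ≠ 0 ∧ w ≠ v ∧ f w v = 0 := by
  classical
  by_cases hk : k = 2
  · have hq : Fintype.card F ≠ 2 := fun h => hex ⟨hk, h⟩
    have hq2 : 2 < Fintype.card F := by
      have := Fintype.one_lt_card (α := F)
      omega
    obtain ⟨c, hc0, hc1⟩ : ∃ c : F, c ≠ 0 ∧ c ≠ 1 := by
      by_contra hcon
      push Not at hcon
      have : (Finset.univ : Finset F) ⊆ {0, 1} := by
        intro c _
        by_cases h0 : c = 0
        · simp [h0]
        · simp [hcon c h0]
      have h3 := Finset.card_le_card this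
      rw [Finset.card_univ] at h3
      have h4 : ({0, 1} : Finset F).card ≤ 2 := Finset.card_le_two
      omega
    refine ⟨c • v, (D b).smul_mem _ hv, smul_ne_zero hc0 hv0, ?_, ?_⟩
    · intro h
      apply hc1
      have : (c - 1) • v = 0 := by rw [sub_smul, h, one_smul, sub_self]
      have := (smul_eq_zero.mp this).resolve_right hv0
      exact sub_eq_zero.mp this
    · rw [sympForm_smul_left, sympForm_self, mul_zero]
  · obtain ⟨a, ha, hav⟩ := exists_pair hD hv hv0
    have hk1 : k ≠ 1 := by
      intro h1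
      -- a one-dimensional non-degenerate alternating space does not exist
      have h2 := hD.decomp.finrank_eq b
      rw [h1] at h2
      have h3 : a ∈ Submodule.span F {v} := by
        have hv' : (⟨v, hv⟩ : D b) ≠ 0 := fun h => hv0 (congrArg Subtype.val h)
        obtain ⟨c, hc⟩ := (finrank_eq_one_iff_of_nonzero' (⟨v, hv⟩ : D b) hv').mp h2 ⟨a, ha⟩
        exact Submodule.mem_span_singleton.mpr ⟨c, congrArg Subtype.val hc⟩
      obtain ⟨c, hc⟩ := Submodule.mem_span_singleton.mp h3
      rw [← hc, sympForm_smul_left, sympForm_self, mul_zero] at hav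
      exact zero_ne_one hav
    have hk0 : k ≠ 0 := hD.decomp.pos.ne'
    have hk3 : 3 ≤ k := by omega
    -- a vector outside the span of `v` and `a`
    let Y : Submodule F V := Submodule.span F {v, a}
    have hYdim : Module.finrank F Y ≤ 2 := by
      have h1 := finrank_span_finset_le_card (R := F) ({v, a} : Finset V)
      have h2 : ({v, a} : Finset V).card ≤ 2 := Finset.card_le_two
      rw [Finset.coe_insert, Finset.coe_singleton] at h1
      exact h1.trans h2
    obtain ⟨c, hc, hcY⟩ : ∃ c ∈ D b, c ∉ Y := by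
      by_contra hcon
      push Not at hcon
      have := Submodule.finrank_mono (show D b ≤ Y from hcon)
      rw [hD.decomp.finrank_eq] at this
      omega
    let w := c - (f c v) • a
    have hwY : w ∉ Y := by
      intro h
      apply hcY
      have h2 : (f c v) • a ∈ Y := Y.smul_mem _ (Submodule.subset_span (by simp))
      have := Y.add_mem h h2
      simpa [w] using this
    refine ⟨w, (D b).sub_mem hc ((D b).smul_mem _ ha), ?_, ?_, ?_⟩
    · intro h
      apply hwY
      rw [h]
      exact Y.zero_mem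
    · intro h
      apply hwY
      rw [h]
      exact Submodule.subset_span (by simp)
    · show f (c - (f c v) • a) v = 0
      rw [sub_eq_add_neg, sympForm_add_left, ← neg_smul, sympForm_smul_left, hav]
      ring

/-- The main theorem. -/
theorem maximal [Fintype F] (hex : ¬ (k = 2 ∧ Fintype.card F = 2)) :
    IsMaximalIn (Cfsg.spGL m F) (decompositionStabilizer D ⊓ Cfsg.spGL m F) := by
  classical
  have ht := hD.decomp.two_le
  let a0 : Fin t := ⟨0, by omega⟩
  let a1 : Fin t := ⟨1, by omega⟩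
  have ha01 : a0 ≠ a1 := by
    intro h
    have := congrArg Fin.val h
    simp [a0, a1] at this
  constructor
  · refine lt_of_le_of_ne inf_le_right ?_
    intro heq
    obtain ⟨u, hu, hu0⟩ := exists_ne hD a0
    obtain ⟨v, hv, hv0⟩ := exists_ne hD a1
    obtain ⟨w, hw, hwu⟩ := exists_pair hD hu hu0
    have hmem : stv (u + v) (1 : F) ∈ decompositionStabilizer D ⊓ Cfsg.spGL m F := by
      rw [heq]; exact stv_mem _ _
    obtain ⟨σ, hσ⟩ := hmem.1
    have h1 : ((stv (u + v) (1 : F) : GG) : MM) *ᵥ w ∈ D (σ a0) := by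
      rw [← hσ a0]
      exact ⟨w, hw, rfl⟩
    have hwv : f w v = 0 := hD.orthogonal a0 a1 ha01 w hw v hv
    have e : ((stv (u + v) (1 : F) : GG) : MM) *ᵥ w = w + (u + v) := by
      rw [stv_mulVec, sympForm_add_right, hwu, hwv, add_zero, mul_one, one_smul]
    rw [e] at h1
    have hPa0 : P hD a0 (w + (u + v)) = w + u := by
      rw [map_add, map_add, P_self hD hw, P_self hD hu, P_other hD hv ha01.symm, add_zero]
    have hPa1 : P hD a1 (w + (u + v)) = v := by
      rw [map_add, map_add, P_other hD hw ha01, P_other hD hu ha01, P_self hD hv, zero_add, zero_add]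
    have hwu0 : w + u ≠ 0 := by
      intro h
      have h2 : f (w + u) u = 0 := by rw [h]; simp [sympForm_apply]
      rw [sympForm_add_left, hwu, sympForm_self, add_zero] at h2
      exact one_ne_zero h2
    by_cases hj : σ a0 = a0
    · rw [hj] at h1
      exact hv0 (by rw [← hPa1]; exact P_other hD h1 ha01)
    · exact hwu0 (by rw [← hPa0]; exact P_other hD h1 hj)
  · intro M hSM hMK
    by_cases hMS : M = decompositionStabilizer D ⊓ Cfsg.spGL m F
    · exact Or.inl hMS
    right
    obtain ⟨g₀, hg₀M, hg₀S⟩ : ∃ g ∈ M, g ∉ decompositionStabilizer D ⊓ Cfsg.spGL m F := by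
      by_contra hcon
      push Not at hcon
      exact hMS (le_antisymm hcon hSM)
    obtain ⟨i, x, hx, a, b, hab, ha, hb⟩ := exists_two_supp hD (hMK hg₀M) hg₀S
    have hy : InS M ((g₀ : MM) *ᵥ x) := (inS_of_mem hD hSM hx).conj hMK hg₀M
    have hT := two_of_supp hD hSM hMK (fun b v hv hv0 => exists_other hD hex b hv hv0) hy hab ha hb
    have hT2 : ∀ c d, c ≠ d → Two M D c d := by
      intro c d hcd
      -- first a `Two M D d e`
      obtain ⟨e, hde, hTde⟩ : ∃ e, d ≠ e ∧ Two M D d e := by
        by_cases hda : d = a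
        · rw [hda]
          exact ⟨b, hab, hT⟩
        · exact ⟨a, hda, (hT.move hD hSM hMK hab hda).symm⟩
      exact (hTde.move hD hSM hMK hde hcd).symm
    apply le_antisymm hMK
    have hall := all_of_two hD hSM hMK hT2
    have := eq_spGL_of_stv_mem (H := M) hMK (fun v c => hall v c)
    rw [this]

end

end Cfsg.Agent.Lib.SpDecomp
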