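import Cfsg.Agent.Lib.SpDecomp
import Cfsg.Agent.Lib.SLStab

set_option autoImplicit false

namespace Cfsg.Agent.Lib.SpPair

open Matrix Cfsg.Geo Cfsg.Agent.Lib.SympBasic Cfsg.Agent.Lib.FormVec Cfsg.Agent.Lib.SpGL Cfsg.Agent.Lib.SpStab
open Cfsg.Agent.Lib.SpDecomp (InS skew0)
open scoped MatrixGroups

variable {F : Type*} [Field F] {m : ℕ}

local notation "f" => Cfsg.sympForm m F
local notation "V" => (Fin m ⊕ Fin m → F)
local notation "GG" => GL (Fin m ⊕ Fin m) F
local notation "MM" => Matrix (Fin m ⊕ Fin m) (Fin m ⊕ Fin m) F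
local notation "BB" => toB (symp_bilinear (m := m) (F := F))

/-! ### General dimension lemmas -/

theorem finrank_le_inf_ker_add_one {V' : Type*} [AddCommGroup V'] [Module F V'] [FiniteDimensional F V']
    (X : Submodule F V) (L : V →ₗ[F] V') (E : Submodule F V') (hE : Module.finrank F E ≤ 1)
    (hX : ∀ x ∈ X, L x ∈ E) : Module.finrank F X ≤ Module.finrank F (X ⊓ LinearMap.ker L : Submodule F V) + 1 := by
  have h1 := LinearMap.finrank_range_add_finrank_ker (L.domRestrict X)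
  have h2 : Module.finrank F (LinearMap.range (L.domRestrict X)) ≤ 1 := by
    refine le_trans (Submodule.finrank_mono ?_) hE
    rintro _ ⟨x, rfl⟩
    exact hX x x.2
  have h3 : LinearMap.ker (L.domRestrict X) = Submodule.comap X.subtype (X ⊓ LinearMap.ker L) := by
    ext x
    simp [LinearMap.mem_ker]
  have h4 : Module.finrank F (LinearMap.ker (L.domRestrict X)) = Module.finrank F (X ⊓ LinearMap.ker L : Submodule F V) := by
    rw [h3]
    exact (Submodule.comapSubtypeEquivOfLe (inf_le_left : X ⊓ LinearMap.ker L ≤ X)).finrank_eq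
  omega

theorem exists_not_mem_of_finrank_lt {Y C : Submodule F V} (h : Module.finrank F C < Module.finrank F Y) :
    ∃ y ∈ Y, y ∉ C := by
  by_contra hcon
  push Not at hcon
  have := Submodule.finrank_mono (show Y ≤ C from hcon)
  omega

theorem finrank_span_singleton_le (x : V) : Module.finrank F (Submodule.span F {x}) ≤ 1 := by
  classical
  have h1 := finrank_span_finset_le_card (R := F) ({x} : Finset V)
  rw [Finset.coe_singleton, Finset.card_singleton] at h1
  exact h1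

theorem finrank_span_pair_le (x y : V) : Module.finrank F (Submodule.span F {x, y}) ≤ 2 := by
  classical
  have h1 := finrank_span_finset_le_card (R := F) ({x, y} : Finset V)
  have h2 : ({x, y} : Finset V).card ≤ 2 := Finset.card_le_two
  rw [Finset.coe_insert, Finset.coe_singleton] at h1
  exact h1.trans h2

/-- Two proper subspaces do not cover. -/
theorem exists_not_mem_two {X₁ X₂ : Submodule F V} {Z : Submodule F V} {b₁ b₂ : V} (h1 : b₁ ∈ Z) (h2 : b₂ ∈ Z)
    (h1' : b₁ ∉ X₁) (h2' : b₂ ∉ X₂) : ∃ b ∈ Z, b ∉ X₁ ∧ b ∉ X₂ := by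
  by_cases h3 : b₁ ∈ X₂
  · by_cases h4 : b₂ ∈ X₁
    · refine ⟨b₁ + b₂, Z.add_mem h1 h2, ?_, ?_⟩
      · intro h
        apply h1'
        have := X₁.sub_mem h h4
        simpa using this
      · intro h
        apply h2'
        have := X₂.sub_mem h h3
        simpa using this
    · exact ⟨b₂, h2, h4, h2'⟩
  · exact ⟨b₁, h1, h1', h3⟩

/-! ### Root element identities -/

theorem tau_comm {a b : V} (hab : f a b = 0) : tau a b = tau b a := by
  apply gl_ext_mulVec
  intro x
  rw [tau_mulVec hab, tau_mulVec (skew0 hab)]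
  abel

theorem tau_conj {g : GG} (hg : g ∈ Cfsg.spGL m F) (a b : V) :
    g * tau a b * g⁻¹ = tau ((g : MM) *ᵥ a) ((g : MM) *ᵥ b) := by
  have e : g * tau a b * g⁻¹ = (g * stv (a + b) 1 * g⁻¹) * (g * stv a (-1) * g⁻¹) * (g * stv b (-1) * g⁻¹) := by
    simp only [tau]
    group
  rw [e, conj_stv hg, conj_stv hg, conj_stv hg, Matrix.mulVec_add, tau]

theorem tau_mul_swap {a b c : V} (hab : f a b = 0) (hac : f a c = 0) :
    tau a b * tau a c = stv a (2 * f c b) * (tau a c * tau a b) := by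
  have hba := skew0 hab
  have hca := skew0 hac
  have hbc : f b c = - f c b := sympForm_skew b c
  apply gl_ext_mulVec
  intro x
  have e1 : ((tau a b : GG) : MM) *ᵥ (((tau a c : GG) : MM) *ᵥ x) = x + f x a • (b + c) + (f x b + f x c + f x a * f c b) • a := by
    rw [tau_mulVec hac, tau_mulVec hab]
    simp only [sympForm_add_left, sympForm_smul_left, sympForm_self, hca, hab, mul_zero, add_zero, smul_add, add_smul]
    abel
  have e2 : ((tau a c : GG) : MM) *ᵥ (((tau a b : GG) : MM) *ᵥ x) = x + f x a • (b + c) + (f x b + f x c + f x a * f b c) • a := by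
    rw [tau_mulVec hab, tau_mulVec hac]
    simp only [sympForm_add_left, sympForm_smul_left, sympForm_self, hba, hac, mul_zero, add_zero, smul_add, add_smul]
    abel
  rw [Units.val_mul, Units.val_mul, Units.val_mul, ← Matrix.mulVec_mulVec, ← Matrix.mulVec_mulVec, ← Matrix.mulVec_mulVec, e1, e2, stv_mulVec]
  simp only [sympForm_add_left, sympForm_add_right, sympForm_smul_left, sympForm_self, hba, hca, mul_zero, add_zero, smul_add, add_smul, hbc]
  ext i
  simp only [Pi.add_apply, Pi.smul_apply, smul_eq_mul]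
  ring

/-- The commutator of two short root elements with a common vector. -/
theorem stv_mem_of_tau {M : Subgroup GG} {a b c : V} (hab : f a b = 0) (hac : f a c = 0)
    (h1 : tau a b ∈ M) (h2 : tau a c ∈ M) : stv a (2 * f c b) ∈ M := by
  have e : stv a (2 * f c b) = tau a b * tau a c * (tau a b)⁻¹ * (tau a c)⁻¹ := by
    rw [tau_mul_swap hab hac]
    group
  rw [e]
  exact M.mul_mem (M.mul_mem (M.mul_mem h1 h2) (M.inv_mem h1)) (M.inv_mem h2)

/-! ### Pairs of complementary totally isotropic subspaces -/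

structure Pair (m : ℕ) (A B : Submodule F (Fin m ⊕ Fin m → F)) : Prop where
  compl : IsCompl A B
  a0 : ∀ u ∈ A, ∀ v ∈ A, Cfsg.sympForm m F u v = 0
  b0 : ∀ u ∈ B, ∀ v ∈ B, Cfsg.sympForm m F u v = 0
  da : Module.finrank F A = m
  db : Module.finrank F B = m

variable {A B : Submodule F (Fin m ⊕ Fin m → F)}

theorem Pair.symm (h : Pair m A B) : Pair m B A := ⟨h.compl.symm, h.b0, h.a0, h.db, h.da⟩

noncomputable def pa (h : Pair m A B) : V →ₗ[F] V := A.projection B h.compl

noncomputable abbrev pb (h : Pair m A B) : V →ₗ[F] V := pa h.symm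

section
variable (h : Pair m A B)
include h

theorem pa_mem (x : V) : pa h x ∈ A := (A.projectionOnto B h.compl x).2

theorem pa_self {x : V} (hx : x ∈ A) : pa h x = x := by
  show ((A.projectionOnto B h.compl x : A) : V) = x
  rw [Submodule.projectionOnto_apply_of_mem_left _ hx]

theorem pa_eq_zero_iff {x : V} : pa h x = 0 ↔ x ∈ B := by
  rw [← Submodule.projectionOnto_apply_eq_zero_iff h.compl]
  show ((A.projectionOnto B h.compl x : A) : V) = 0 ↔ _
  exact Submodule.coe_eq_zero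

theorem pa_add_pb (x : V) : pa h x + pb h x = x := by
  have hx : x ∈ A ⊔ B := by rw [h.compl.sup_eq_top]; trivial
  obtain ⟨a, ha, b, hb, rfl⟩ := Submodule.mem_sup.mp hx
  rw [map_add, map_add, pa_self h ha, pa_self h.symm hb, (pa_eq_zero_iff h).mpr hb, (pa_eq_zero_iff h.symm).mpr ha]
  simp

theorem mem_A_iff {x : V} : x ∈ A ↔ pb h x = 0 := ((pa_eq_zero_iff h.symm)).symm

/-- pairing of an element of `A` with a vector only sees the `B`-part. -/
theorem form_a {u : V} (hu : u ∈ A) (x : V) : f u x = f u (pb h x) := by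
  conv_lhs => rw [← pa_add_pb h x, sympForm_add_right, h.a0 u hu _ (pa_mem h x), zero_add]

theorem form_a' {u : V} (hu : u ∈ A) (x : V) : f x u = f (pb h x) u := by
  rw [sympForm_skew, form_a h hu x, ← sympForm_skew]

theorem form_b {u : V} (hu : u ∈ B) (x : V) : f u x = f u (pa h x) := form_a h.symm hu x

theorem form_b' {u : V} (hu : u ∈ B) (x : V) : f x u = f (pa h x) u := form_a' h.symm hu x

/-- Separating vectors. -/
theorem sep {X : Submodule F V} (hXA : X ≤ A) {a' : V} (ha' : a' ∈ A) (hnot : a' ∉ X) :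
    ∃ r ∈ B, (∀ x ∈ X, f x r = 0) ∧ f a' r = 1 := by
  have hnot' : a' ∉ X ⊔ B := by
    intro hm
    obtain ⟨x, hx, b, hb, e⟩ := Submodule.mem_sup.mp hm
    have hbA : b ∈ A := by
      have := A.sub_mem ha' (hXA hx)
      rwa [← e, add_sub_cancel_left] at this
    have hb0 : b = 0 := by
      have := Submodule.disjoint_def.mp h.compl.disjoint b hbA hb
      exact this
    rw [hb0, add_zero] at e
    exact hnot (e ▸ hx)
  obtain ⟨φ, h1, h2⟩ := Cfsg.Agent.Lib.SLStab.exists_sep _ hnot'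
  obtain ⟨w, hw⟩ := exists_rep_left (symp_bilinear (m := m) (F := F)) symp_nondeg φ
  have hw' : ∀ y, f y w = φ ⬝ᵥ y := by
    intro y
    rw [← hw, pv_dot symp_bilinear]
  refine ⟨pb h w, pa_mem h.symm w, ?_, ?_⟩
  · intro x hx
    rw [← form_a h (hXA hx) w, hw', h2 x (Submodule.mem_sup_left hx)]
  · rw [← form_a h ha' w, hw', h1]

/-- Dimension count: vectors of `B` orthogonal to two vectors, outside a small subspace. -/
theorem exists_perp_outside (x₁ x₂ : V) {C : Submodule F V} (hC : Module.finrank F C + 2 < m) :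
    ∃ n ∈ B, f x₁ n = 0 ∧ f x₂ n = 0 ∧ n ∉ C := by
  have hB := toB_nondeg (symp_bilinear (m := m) (F := F)) symp_nondeg
  let Z : Submodule F V := Submodule.span F {x₁, x₂}
  let O := LinearMap.BilinForm.orthogonal BB Z
  have hZ : Module.finrank F Z ≤ 2 := finrank_span_pair_le x₁ x₂
  have hO : Module.finrank F O = 2 * m - Module.finrank F Z := by
    have := LinearMap.BilinForm.finrank_orthogonal hB Z
    rw [this]
    simp [two_mul]
  have hsum := Submodule.finrank_sup_add_finrank_inf_eq B O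
  have hsup : Module.finrank F (B ⊔ O : Submodule F V) ≤ 2 * m := by
    have := Submodule.finrank_le (B ⊔ O)
    simpa [two_mul] using this
  have hdb := h.db
  have hlarge : Module.finrank F C < Module.finrank F (B ⊓ O : Submodule F V) := by omega
  obtain ⟨n, hn, hnC⟩ := exists_not_mem_of_finrank_lt hlarge
  have hnO : n ∈ O := hn.2
  have hmem : ∀ z ∈ Z, f z n = 0 := fun z hz => LinearMap.BilinForm.mem_orthogonal_iff.mp hnO z hz
  exact ⟨n, hn.1, hmem x₁ (Submodule.subset_span (by simp)), hmem x₂ (Submodule.subset_span (by simp)), hnC⟩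

/-- Prescribing pairings with two independent vectors. -/
theorem exists_dual_two (hm : 3 ≤ m) {a₁ a₂ : V} (h1 : a₁ ∈ A) (h2 : a₂ ∈ A) (h10 : a₁ ≠ 0) (h21 : a₂ ∉ Submodule.span F {a₁})
    (s₁ s₂ : F) : ∃ r ∈ B, r ≠ 0 ∧ f a₁ r = s₁ ∧ f a₂ r = s₂ := by
  have h12 : a₁ ∉ Submodule.span F {a₂} := by
    intro hc
    obtain ⟨c, hc⟩ := Submodule.mem_span_singleton.mp hc
    apply h21
    have hc0 : c ≠ 0 := by
      rintro rfl
      rw [zero_smul] at hc
      exact h10 hc.symm
    rw [Submodule.mem_span_singleton]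
    refine ⟨c⁻¹, ?_⟩
    rw [← hc, smul_smul, inv_mul_cancel₀ hc0, one_smul]
  have hle : ∀ x ∈ A, Submodule.span F {x} ≤ A := fun x hx => by
    rw [Submodule.span_singleton_le_iff_mem]
    exact hx
  obtain ⟨ra, hra, hra1, hra2⟩ := sep h (hle a₂ h2) h1 h12
  obtain ⟨rb, hrb, hrb1, hrb2⟩ := sep h (hle a₁ h1) h2 h21
  have e1 : f a₂ ra = 0 := hra1 a₂ (Submodule.mem_span_singleton_self _)
  have e2 : f a₁ rb = 0 := hrb1 a₁ (Submodule.mem_span_singleton_self _)
  let r₀ : V := s₁ • ra + s₂ • rb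
  have hr₀B : r₀ ∈ B := B.add_mem (B.smul_mem _ hra) (B.smul_mem _ hrb)
  have p1 : f a₁ r₀ = s₁ := by
    simp only [r₀, sympForm_add_right, sympForm_smul_right, hra2, e2]
    ring
  have p2 : f a₂ r₀ = s₂ := by
    simp only [r₀, sympForm_add_right, sympForm_smul_right, hrb2, e1]
    ring
  by_cases hr : r₀ = 0
  · obtain ⟨n, hnB, hn1, hn2, hnC⟩ := exists_perp_outside h a₁ a₂ (C := ⊥) (by simp; omega)
    refine ⟨n, hnB, by simpa using hnC, ?_, ?_⟩
    · rw [hn1, ← p1, hr]
      simp [sympForm_apply]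
    · rw [hn2, ← p2, hr]
      simp [sympForm_apply]
  · exact ⟨r₀, hr₀B, hr, p1, p2⟩

end

/-! ### Moves -/

/-- The hypotheses on a subgroup. -/
def HasTau (M : Subgroup GG) (A B : Submodule F (Fin m ⊕ Fin m → F)) : Prop :=
  ∀ a ∈ A, ∀ b ∈ B, Cfsg.sympForm m F a b = 0 → tau a b ∈ M

theorem HasTau.symm {M : Subgroup GG} (hτ : HasTau M A B) : HasTau M B A := by
  intro b hb a ha hba
  rw [tau_comm hba]
  exact hτ a ha b hb (skew0 hba)

section
variable (h : Pair m A B) {M : Subgroup (GL (Fin m ⊕ Fin m) F)} (hτ : HasTau M A B)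
include h hτ

theorem move_direct {x x' z : V} (hx : x ∈ A) (hx' : x' ∈ A) (hx0 : x ≠ 0) (hz : z ∈ B) (hxz : f x z = f x' z)
    (hnot : x' ∉ Submodule.span F {x}) : ∃ g ∈ M, (g : MM) *ᵥ x = x' ∧ (g : MM) *ᵥ z = z := by
  let p := x' - x
  have hp : p ∈ A := A.sub_mem hx' hx
  have hxp : x ∉ Submodule.span F {p} := by
    intro hc
    obtain ⟨c, hc⟩ := Submodule.mem_span_singleton.mp hc
    have hc0 : c ≠ 0 := by
      rintro rfl
      rw [zero_smul] at hc
      exact hx0 hc.symm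
    apply hnot
    rw [Submodule.mem_span_singleton]
    refine ⟨(1 + c) * c⁻¹, ?_⟩
    have e : c • x' = (1 + c) • x := by
      have : c • (x' - x) = x := hc
      rw [smul_sub] at this
      rw [add_smul, one_smul]
      exact sub_eq_iff_eq_add'.mp this |>.trans (add_comm _ _)
    rw [mul_comm, mul_smul, ← e, smul_smul, inv_mul_cancel₀ hc0, one_smul]
  obtain ⟨r, hr, hr1, hr2⟩ := sep h (Submodule.span_singleton_le_iff_mem p A |>.mpr hp) hx hxp
  have hpr : f p r = 0 := hr1 p (Submodule.mem_span_singleton_self p)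
  refine ⟨tau p r, hτ p hp r hr hpr, ?_, ?_⟩
  · rw [tau_mulVec hpr, h.a0 x hx p hp, hr2]
    simp [p]
  · have hzp : f z p = 0 := by
      rw [sympForm_skew]
      show - f (x' - x) z = 0
      rw [sub_eq_add_neg, sympForm_add_left, show -x = (-1 : F) • x by simp, sympForm_smul_left, hxz]
      ring
    rw [tau_mulVec hpr, hzp, h.b0 z hz r hr]
    simp

theorem move (hm : 4 ≤ m) {x x' z : V} (hx : x ∈ A) (hx' : x' ∈ A) (hx0 : x ≠ 0) (hx'0 : x' ≠ 0) (hz : z ∈ B)
    (hxz : f x z = f x' z) : ∃ g ∈ M, (g : MM) *ᵥ x = x' ∧ (g : MM) *ᵥ z = z := by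
  by_cases hc : x' ∈ Submodule.span F {x}
  · by_cases he : x' = x
    · exact ⟨1, M.one_mem, by rw [he]; simp, by simp⟩
    obtain ⟨c, hc⟩ := Submodule.mem_span_singleton.mp hc
    have hxz0 : f x z = 0 := by
      have hc1 : c ≠ 1 := by
        rintro rfl
        rw [one_smul] at hc
        exact he hc.symm
      have : (c - 1) * f x z = 0 := by
        rw [← hc, sympForm_smul_left] at hxz
        linear_combination -hxz
      exact (mul_eq_zero.mp this).resolve_left (sub_ne_zero.mpr hc1)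
    obtain ⟨n, hnA, hn1, -, hnC⟩ := exists_perp_outside h.symm z z (C := Submodule.span F {x}) (by
      have := finrank_span_singleton_le (m := m) (F := F) x
      omega)
    have hn0 : n ≠ 0 := by
      rintro rfl
      exact hnC (Submodule.zero_mem _)
    obtain ⟨g₁, hg₁, e1, e2⟩ := move_direct h hτ hx hnA hx0 hz (by rw [hxz0, skew0 hn1]) hnC
    have hnot : x' ∉ Submodule.span F {n} := by
      intro h3
      obtain ⟨d, hd⟩ := Submodule.mem_span_singleton.mp h3
      apply hnC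
      rw [Submodule.mem_span_singleton]
      have hd0 : d ≠ 0 := by
        rintro rfl
        rw [zero_smul] at hd
        exact hx'0 hd.symm
      refine ⟨d⁻¹ * c, ?_⟩
      rw [mul_smul, hc, ← hd, smul_smul, inv_mul_cancel₀ hd0, one_smul]
    obtain ⟨g₂, hg₂, e3, e4⟩ := move_direct h hτ hnA hx' hn0 hz (by rw [skew0 hn1, ← hxz, hxz0]) hnot
    refine ⟨g₂ * g₁, M.mul_mem hg₂ hg₁, ?_, ?_⟩
    · rw [Units.val_mul, ← Matrix.mulVec_mulVec, e1, e3]
    · rw [Units.val_mul, ← Matrix.mulVec_mulVec, e2, e4]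
  · exact move_direct h hτ hx hx' hx0 hz hxz hc

/-- Transitivity on vectors of `A` (without fixing anything). -/
theorem move₀ (hm : 4 ≤ m) {x x' : V} (hx : x ∈ A) (hx' : x' ∈ A) (hx0 : x ≠ 0) (hx'0 : x' ≠ 0) :
    ∃ g ∈ M, (g : MM) *ᵥ x = x' := by
  obtain ⟨g, hg, e, -⟩ := move h hτ hm hx hx' hx0 hx'0 B.zero_mem (by simp [sympForm_apply])
  exact ⟨g, hg, e⟩

/-- Transitivity on mixed vectors with the same pairing. -/
theorem trans_mixed (hm : 4 ≤ m) {x₁ x₁' x₂ x₂' : V} (h1 : x₁ ∈ A) (h1' : x₁' ∈ A) (h2 : x₂ ∈ B) (h2' : x₂' ∈ B)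
    (h10 : x₁ ≠ 0) (h10' : x₁' ≠ 0) (h20 : x₂ ≠ 0) (h20' : x₂' ≠ 0) (hl : f x₁ x₂ = f x₁' x₂') :
    ∃ g ∈ M, (g : MM) *ᵥ (x₁ + x₂) = x₁' + x₂' := by
  classical
  have hτ' := hτ.symm
  obtain ⟨x₃, hx₃, hx₃n⟩ : ∃ x₃ ∈ A, x₃ ∉ Submodule.span F {x₁, x₁'} := by
    apply exists_not_mem_of_finrank_lt
    have := finrank_span_pair_le (m := m) (F := F) x₁ x₁'
    rw [h.da]
    omega
  have hx₃0 : x₃ ≠ 0 := by
    rintro rfl
    exact hx₃n (Submodule.zero_mem _)
  have n1 : x₃ ∉ Submodule.span F {x₁} := fun hc => hx₃n (Submodule.span_mono (by simp) hc)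
  have n2 : x₁' ∉ Submodule.span F {x₃} := by
    intro hc
    obtain ⟨c, hc⟩ := Submodule.mem_span_singleton.mp hc
    have hc0 : c ≠ 0 := by
      rintro rfl
      rw [zero_smul] at hc
      exact h10' hc.symm
    apply hx₃n
    have : x₃ = c⁻¹ • x₁' := by rw [← hc, smul_smul, inv_mul_cancel₀ hc0, one_smul]
    rw [this]
    exact Submodule.smul_mem _ _ (Submodule.subset_span (by simp))
  set l := f x₁ x₂ with hldef
  obtain ⟨xa, hxa, hxa0, ha1, ha2⟩ := exists_dual_two h (by omega) h1 hx₃ h10 n1 l l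
  obtain ⟨xb, hxb, hxb0, hb1, hb2⟩ := exists_dual_two h (by omega) hx₃ h1' hx₃0 n2 l l
  -- the five moves
  obtain ⟨g₁, hg₁, e11, e12⟩ := move h.symm hτ' hm h2 hxa h20 hxa0 h1 (by
    rw [sympForm_skew, ← hldef, sympForm_skew xa x₁, ha1])
  obtain ⟨g₂, hg₂, e21, e22⟩ := move h hτ hm h1 hx₃ h10 hx₃0 hxa (by rw [ha1, ha2])
  obtain ⟨g₃, hg₃, e31, e32⟩ := move h.symm hτ' hm hxa hxb hxa0 hxb0 hx₃ (by
    rw [sympForm_skew, ha2, sympForm_skew xb x₃, hb1])
  obtain ⟨g₄, hg₄, e41, e42⟩ := move h hτ hm hx₃ h1' hx₃0 h10' hxb (by rw [hb1, hb2])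
  obtain ⟨g₅, hg₅, e51, e52⟩ := move h.symm hτ' hm hxb h2' hxb0 h20' h1' (by
    rw [sympForm_skew, hb2, sympForm_skew x₂' x₁', hl])
  refine ⟨g₅ * g₄ * g₃ * g₂ * g₁, M.mul_mem (M.mul_mem (M.mul_mem (M.mul_mem hg₅ hg₄) hg₃) hg₂) hg₁, ?_⟩
  simp only [Units.val_mul, ← Matrix.mulVec_mulVec, Matrix.mulVec_add, e11, e12, e21, e22, e31, e32, e41, e42, e51, e52]

end

/-! ### The key lemma -/

theorem key (h : Pair m A B) (h2 : (2 : F) ≠ 0) (hm : 5 ≤ m) {M : Subgroup GG} (hMK : M ≤ Cfsg.spGL m F)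
    (hτ : HasTau M A B) {y b : V} (hyb : f y b = 0) (hT : ∀ α : F, tau y (α • b) ∈ M)
    (h1 : pa h b ∉ Submodule.span F {pa h y}) (h3 : pb h b ∉ Submodule.span F {pb h y}) : InS M y := by
  classical
  have hle : ∀ {A' : Submodule F V} {x : V}, x ∈ A' → Submodule.span F {x} ≤ A' := fun hx => by
    rw [Submodule.span_singleton_le_iff_mem]
    exact hx
  obtain ⟨w₀, hw₀, hw₀1, hw₀2⟩ := sep h (hle (pa_mem h y)) (pa_mem h b) h1
  have hw₀y : f (pa h y) w₀ = 0 := hw₀1 _ (Submodule.mem_span_singleton_self _)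
  let C : Submodule F V := Submodule.span F {pb h b, pb h y}
  have hC : Module.finrank F C ≤ 2 := finrank_span_pair_le _ _
  obtain ⟨w, hw, hw1, hw2, hwC⟩ : ∃ w ∈ B, f (pa h y) w = 0 ∧ f (pa h b) w = 1 ∧ w ∉ C := by
    by_cases hw₀C : w₀ ∈ C
    · obtain ⟨n, hn, hn1, hn2, hnC⟩ := exists_perp_outside h (pa h y) (pa h b) (C := C) (by omega)
      refine ⟨w₀ + n, B.add_mem hw₀ hn, ?_, ?_, ?_⟩
      · rw [sympForm_add_right, hw₀y, hn1, add_zero]
      · rw [sympForm_add_right, hw₀2, hn2, add_zero]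
      · intro hc
        apply hnC
        have := C.sub_mem hc hw₀C
        simpa using this
    · exact ⟨w₀, hw₀, hw₀y, hw₀2, hw₀C⟩
  have h4 : pb h b ∉ Submodule.span F {w, pb h y} := by
    intro hc
    obtain ⟨α, β, e⟩ := Submodule.mem_span_pair.mp hc
    by_cases hα : α = 0
    · apply h3
      rw [Submodule.mem_span_singleton]
      refine ⟨β, ?_⟩
      rw [← e, hα, zero_smul, zero_add]
    · apply hwC
      have : w = α⁻¹ • pb h b + (-(α⁻¹ * β)) • pb h y := by
        rw [← e, smul_add, smul_smul, smul_smul, inv_mul_cancel₀ hα, one_smul, neg_smul]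
        abel
      rw [this]
      exact C.add_mem (C.smul_mem _ (Submodule.subset_span (by simp))) (C.smul_mem _ (Submodule.subset_span (by simp)))
  have hle2 : Submodule.span F {w, pb h y} ≤ B := by
    rw [Submodule.span_le]
    rintro _ (rfl | rfl)
    · exact hw
    · exact pa_mem h.symm y
  obtain ⟨v, hv, hv1, hv2⟩ := sep h.symm hle2 (pa_mem h.symm b) h4
  have hwv : f w v = 0 := hv1 w (Submodule.subset_span (by simp))
  have hyv' : f (pb h y) v = 0 := hv1 _ (Submodule.subset_span (by simp))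
  have hvw : f v w = 0 := skew0 hwv
  have hg : tau v w ∈ M := hτ v hv w hw hvw
  have hyv : f y v = 0 := by rw [form_a' h hv y, hyv']
  have hyw : f y w = 0 := by rw [form_b' h hw y, hw1]
  have hbv : f b v = 1 := by rw [form_a' h hv b, hv2]
  have hbw : f b w = 1 := by rw [form_b' h hw b, hw2]
  have egy : ((tau v w : GG) : MM) *ᵥ y = y := by
    rw [tau_mulVec hvw, hyv, hyw]
    simp
  have egb : ((tau v w : GG) : MM) *ᵥ b = b + w + v := by
    rw [tau_mulVec hvw, hbv, hbw]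
    simp
  -- `c = b + w + v`
  have hc1 : f y (b + w + v) = 0 := by
    rw [sympForm_add_right, sympForm_add_right, hyb, hyw, hyv]
    ring
  have hc2 : tau y (b + w + v) ∈ M := by
    have := M.mul_mem (M.mul_mem hg (hT 1)) (M.inv_mem hg)
    rw [tau_conj (hMK hg), Matrix.mulVec_smul, one_smul, egb, egy] at this
    exact this
  have hcb : f (b + w + v) b = -2 := by
    have e1 : f w b = -1 := by rw [sympForm_skew, hbw]
    have e2 : f v b = -1 := by rw [sympForm_skew, hbv]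
    rw [sympForm_add_left, sympForm_add_left, sympForm_self, e1, e2]
    ring
  intro c
  have hmem := stv_mem_of_tau (M := M) (a := y) (b := (-(c / 4)) • b) (c := b + w + v)
    (by rw [sympForm_smul_right, hyb, mul_zero]) hc1 (hT _) hc2
  rw [sympForm_smul_right, hcb] at hmem
  have h4' : (4 : F) ≠ 0 := by
    have : (4 : F) = 2 * 2 := by norm_num
    rw [this]
    exact mul_ne_zero h2 h2
  have e : 2 * (-(c / 4) * -2) = c := by
    field_simp
    ring
  rwa [e] at hmem

/-! ### Closure -/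

/-- Every vector. -/
theorem closure_all (h : Pair m A B) (h2 : (2 : F) ≠ 0) (hm : 5 ≤ m) {M : Subgroup GG} (hMK : M ≤ Cfsg.spGL m F)
    (hτ : HasTau M A B) {s : GG} (hs : s ∈ M) (hsA : ∀ x ∈ A, (s : MM) *ᵥ x ∈ B) (hsB : ∀ x ∈ B, (s : MM) *ᵥ x ∈ A)
    {y : V} (hy0 : y ≠ 0) (hy : InS M y) (z : V) : InS M z := by
  classical
  have hτ' := hτ.symm
  have hm4 : 4 ≤ m := by omega
  have hinj : ∀ {x : V}, x ≠ 0 → (s : MM) *ᵥ x ≠ 0 := by
    intro x hx e
    apply hx
    have := inv_mulVec_mulVec s x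
    rw [e, Matrix.mulVec_zero] at this
    exact this.symm
  -- transitivity inside `A` and `B`
  have hAB : ∀ x₁ ∈ A, ∀ x₂ ∈ A, x₁ ≠ 0 → x₂ ≠ 0 → InS M x₁ → InS M x₂ := by
    intro x₁ h1 x₂ h2' h10 h20 hx
    obtain ⟨g, hg, e⟩ := move₀ h hτ hm4 h1 h2' h10 h20
    rw [← e]
    exact hx.conj hMK hg
  have hBA : ∀ x₁ ∈ B, ∀ x₂ ∈ B, x₁ ≠ 0 → x₂ ≠ 0 → InS M x₁ → InS M x₂ := by
    intro x₁ h1 x₂ h2' h10 h20 hx
    obtain ⟨g, hg, e⟩ := move₀ h.symm hτ' hm4 h1 h2' h10 h20
    rw [← e]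
    exact hx.conj hMK hg
  -- some mixed vector
  have hmixed₀ : ∀ {a : V}, a ∈ A → a ≠ 0 → InS M a → ∃ x₁ ∈ A, ∃ x₂ ∈ B, x₁ ≠ 0 ∧ x₂ ≠ 0 ∧ InS M (x₁ + x₂) := by
    intro a ha ha0 hSa
    obtain ⟨r, hr, hr1⟩ : ∃ r ∈ B, f a r = 1 := by
      obtain ⟨r, hr, -, hr1⟩ := sep h (X := ⊥) bot_le ha (by simpa using ha0)
      exact ⟨r, hr, hr1⟩
    have hr0 : r ≠ 0 := by
      rintro rfl
      rw [show Cfsg.sympForm m F a 0 = 0 by simp [sympForm_apply]] at hr1
      exact zero_ne_one hr1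
    have hSr : InS M r := hBA _ (hsA a ha) r hr (hinj ha0) hr0 (hSa.conj hMK hs)
    refine ⟨a, ha, r, hr, ha0, hr0, ?_⟩
    have hne : f r a ≠ 0 := by
      rw [sympForm_skew, hr1]
      exact neg_ne_zero.mpr one_ne_zero
    have := hSa.add_smul hMK hSr hne 1
    rwa [one_smul, add_comm] at this
  obtain ⟨x₁, hx₁, x₂, hx₂, hx₁0, hx₂0, hSx⟩ : ∃ x₁ ∈ A, ∃ x₂ ∈ B, x₁ ≠ 0 ∧ x₂ ≠ 0 ∧ InS M (x₁ + x₂) := by
    by_cases hya : pb h y = 0
    · have hyA : y ∈ A := (mem_A_iff h).mpr hya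
      exact hmixed₀ hyA hy0 hy
    by_cases hyb : pa h y = 0
    · have hyB : y ∈ B := (pa_eq_zero_iff h).mp hyb
      exact hmixed₀ (hsB y hyB) (hinj hy0) (hy.conj hMK hs)
    · refine ⟨pa h y, pa_mem h y, pb h y, pa_mem h.symm y, hyb, hya, ?_⟩
      rw [pa_add_pb h y]
      exact hy
  set l := f x₁ x₂ with hl
  -- all mixed vectors with pairing `l`
  have hO : ∀ a ∈ A, ∀ b ∈ B, a ≠ 0 → b ≠ 0 → f a b = l → InS M (a + b) := by
    intro a ha b hb ha0 hb0 hab
    obtain ⟨g, hg, e⟩ := trans_mixed h hτ hm4 hx₁ ha hx₂ hb hx₁0 ha0 hx₂0 hb0 hab.symm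
    rw [← e]
    exact hSx.conj hMK hg
  -- all mixed vectors
  have hOall : ∀ w₁ ∈ A, ∀ w₂ ∈ B, w₁ ≠ 0 → w₂ ≠ 0 → InS M (w₁ + w₂) := by
    intro w₁ hw₁ w₂ hw₂ hw₁0 hw₂0
    set t := f w₁ w₂ with ht
    let A₀ : F := (t + 1) / 2
    let B₀ : F := (t - 1) / 2
    -- choose `a`
    obtain ⟨e₀, he₀, he₀1⟩ : ∃ e ∈ A, f e w₂ = 1 := by
      obtain ⟨e, he, -, he1⟩ := sep h.symm (X := ⊥) bot_le hw₂ (by simpa using hw₂0)
      refine ⟨(-1 : F) • e, A.smul_mem _ he, ?_⟩
      rw [sympForm_smul_left, sympForm_skew, he1]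
      ring
    let a₀ : V := A₀ • e₀
    have ha₀ : a₀ ∈ A := A.smul_mem _ he₀
    have ha₀w : f a₀ w₂ = A₀ := by
      simp only [a₀, sympForm_smul_left, he₀1, mul_one]
    obtain ⟨n, hn, hn1, -, hnC⟩ := exists_perp_outside h.symm w₂ w₂ (C := Submodule.span F {w₁, a₀}) (by
      have := finrank_span_pair_le (m := m) (F := F) w₁ a₀
      omega)
    let a : V := a₀ + n
    have ha : a ∈ A := A.add_mem ha₀ hn
    have haw : f a w₂ = A₀ := by
      simp only [a, sympForm_add_left, ha₀w, skew0 hn1, add_zero]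
    have hanot : a ∉ Submodule.span F {w₁} := by
      intro hc
      obtain ⟨c, hc⟩ := Submodule.mem_span_singleton.mp hc
      apply hnC
      have : n = c • w₁ - a₀ := by
        rw [hc]
        simp [a]
      rw [this]
      exact Submodule.sub_mem _ (Submodule.smul_mem _ _ (Submodule.subset_span (by simp))) (Submodule.subset_span (by simp))
    have ha0 : a ≠ 0 := by
      intro he
      apply hanot
      rw [he]
      exact Submodule.zero_mem _
    obtain ⟨b₀, hb₀, -, hb₀1, hb₀2⟩ := exists_dual_two h (by omega) hw₁ ha hw₁0 hanot B₀ l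
    obtain ⟨n', hn', hn'1, hn'2, hn'C⟩ := exists_perp_outside h w₁ a (C := Submodule.span F {w₂, b₀}) (by
      have := finrank_span_pair_le (m := m) (F := F) w₂ b₀
      omega)
    let b : V := b₀ + n'
    have hb : b ∈ B := B.add_mem hb₀ hn'
    have hwb : f w₁ b = B₀ := by
      simp only [b, sympForm_add_right, hb₀1, hn'1, add_zero]
    have hab : f a b = l := by
      simp only [b, sympForm_add_right, hb₀2, hn'2, add_zero]
    have hbnot : b ∉ Submodule.span F {w₂} := by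
      intro hc
      obtain ⟨c, hc⟩ := Submodule.mem_span_singleton.mp hc
      apply hn'C
      have : n' = c • w₂ - b₀ := by
        rw [hc]
        simp [b]
      rw [this]
      exact Submodule.sub_mem _ (Submodule.smul_mem _ _ (Submodule.subset_span (by simp))) (Submodule.subset_span (by simp))
    have hb0 : b ≠ 0 := by
      intro he
      apply hbnot
      rw [he]
      exact Submodule.zero_mem _
    have hx0 : w₁ - a ≠ 0 := by
      intro he
      apply hanot
      rw [← sub_eq_zero.mp he]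
      exact Submodule.mem_span_singleton_self _
    have hx'0 : w₂ - b ≠ 0 := by
      intro he
      apply hbnot
      rw [← sub_eq_zero.mp he]
      exact Submodule.mem_span_singleton_self _
    have hAB₀ : A₀ + B₀ = t := by
      simp only [A₀, B₀]
      field_simp
      ring
    have hAB₁ : B₀ - A₀ = -1 := by
      simp only [A₀, B₀]
      field_simp
      ring
    have hneg : ∀ p q r : V, f (p - q) r = f p r - f q r := by
      intro p q r
      rw [sub_eq_add_neg, sympForm_add_left, show -q = (-1 : F) • q by simp, sympForm_smul_left]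
      ring
    have hneg' : ∀ p q r : V, f r (p - q) = f r p - f r q := by
      intro p q r
      rw [sub_eq_add_neg, sympForm_add_right, show -q = (-1 : F) • q by simp, sympForm_smul_right]
      ring
    have hS1 : InS M (a + b) := hO a ha b hb ha0 hb0 hab
    have hS2 : InS M ((w₁ - a) + (w₂ - b)) := by
      refine hO _ (A.sub_mem hw₁ ha) _ (B.sub_mem hw₂ hb) hx0 hx'0 ?_
      rw [hneg', hneg, hneg]
      rw [← ht, hwb, haw, hab]
      linear_combination -hAB₀
    have hne : f ((w₁ - a) + (w₂ - b)) (a + b) ≠ 0 := by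
      have e1 : f (w₁ - a) a = 0 := h.a0 _ (A.sub_mem hw₁ ha) _ ha
      have e2 : f (w₂ - b) b = 0 := h.b0 _ (B.sub_mem hw₂ hb) _ hb
      have e3 : f (w₁ - a) b = B₀ - l := by
        rw [hneg, hwb, hab]
      have e4 : f (w₂ - b) a = -A₀ + l := by
        rw [hneg, sympForm_skew w₂ a, haw, sympForm_skew b a, hab]
        ring
      have e5 : f ((w₁ - a) + (w₂ - b)) (a + b) = f (w₁ - a) a + f (w₁ - a) b + (f (w₂ - b) a + f (w₂ - b) b) := by
        rw [sympForm_add_left]
        exact congrArg₂ (· + ·) (sympForm_add_right _ _ _) (sympForm_add_right _ _ _)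
      rw [e5, e1, e2, e3, e4]
      have : 0 + (B₀ - l) + (-A₀ + l + 0) = -1 := by linear_combination hAB₁
      rw [this]
      exact neg_ne_zero.mpr one_ne_zero
    have := hS1.add_smul hMK hS2 hne 1
    rw [one_smul] at this
    have e : w₁ - a + (w₂ - b) + (a + b) = w₁ + w₂ := by abel
    rwa [e] at this
  have hS0 : InS M (0 : V) := by
    intro c
    have := stv_smul (0 : V) (0 : F) c
    rw [zero_smul, show (0 : F) ^ 2 * c = 0 by ring, stv_zero] at this
    rw [this]
    exact M.one_mem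
  have hhalf : ∀ {p r : V}, InS M (p + r) → InS M (p - r) → f p r ≠ 0 → InS M (p + p) := by
    intro p r h5 h6 h7
    have hne : f (p - r) (p + r) ≠ 0 := by
      have e : f (p - r) (p + r) = 2 * f p r := by
        rw [sub_eq_add_neg, show -r = (-1 : F) • r by simp]
        simp only [sympForm_add_left, sympForm_add_right, sympForm_smul_left, sympForm_smul_right, sympForm_self]
        rw [sympForm_skew r p]
        ring
      rw [e]
      exact mul_ne_zero h2 h7
    have := h5.add_smul hMK h6 hne 1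
    rw [one_smul] at this
    have e : p - r + (p + r) = p + p := by abel
    rwa [e] at this
  have htwo : ∀ x : V, (2⁻¹ : F) • x + (2⁻¹ : F) • x = x := by
    intro x
    rw [← add_smul, show (2⁻¹ : F) + 2⁻¹ = 1 by field_simp; norm_num, one_smul]
  have hA : ∀ a ∈ A, InS M a := by
    intro a ha
    by_cases ha0 : a = 0
    · rw [ha0]; exact hS0
    obtain ⟨r, hr, -, hr1⟩ := sep h (X := ⊥) bot_le ha (by simpa using ha0)
    have hr0 : r ≠ 0 := by
      rintro rfl
      rw [show Cfsg.sympForm m F a 0 = 0 by simp [sympForm_apply]] at hr1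
      exact zero_ne_one hr1
    have hp0 : (2⁻¹ : F) • a ≠ 0 := smul_ne_zero (inv_ne_zero h2) ha0
    have h5 := hOall _ (A.smul_mem _ ha) r hr hp0 hr0
    have h6 := hOall _ (A.smul_mem _ ha) (-r) (B.neg_mem hr) hp0 (neg_ne_zero.mpr hr0)
    rw [← sub_eq_add_neg] at h6
    have := hhalf h5 h6 (by
      rw [sympForm_smul_left, hr1, mul_one]
      exact inv_ne_zero h2)
    rwa [htwo] at this
  have hB : ∀ b ∈ B, InS M b := by
    intro a ha
    by_cases ha0 : a = 0
    · rw [ha0]; exact hS0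
    obtain ⟨r, hr, -, hr1⟩ := sep h.symm (X := ⊥) bot_le ha (by simpa using ha0)
    have hr0 : r ≠ 0 := by
      rintro rfl
      rw [show Cfsg.sympForm m F a 0 = 0 by simp [sympForm_apply]] at hr1
      exact zero_ne_one hr1
    have hp0 : (2⁻¹ : F) • a ≠ 0 := smul_ne_zero (inv_ne_zero h2) ha0
    have h5 := hOall r hr _ (B.smul_mem _ ha) hr0 hp0
    have h6 := hOall (-r) (A.neg_mem hr) _ (B.smul_mem _ ha) (neg_ne_zero.mpr hr0) hp0
    rw [add_comm] at h5
    rw [add_comm, ← sub_eq_add_neg] at h6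
    have := hhalf h5 h6 (by
      rw [sympForm_smul_left, hr1, mul_one]
      exact inv_ne_zero h2)
    rwa [htwo] at this
  by_cases hz1 : pa h z = 0
  · exact hB z ((pa_eq_zero_iff h).mp hz1)
  by_cases hz2 : pb h z = 0
  · exact hA z ((mem_A_iff h).mpr hz2)
  have := hOall _ (pa_mem h z) _ (pa_mem h.symm z) hz1 hz2
  rwa [pa_add_pb h z] at this

/-! ### Existence of a good pair -/

theorem far_lemma (h : Pair m A B) {W' : Submodule F V} (hW'd : Module.finrank F W' = m)
    (far1 : Module.finrank F (W' ⊓ A : Submodule F V) + 3 ≤ m) (far2 : Module.finrank F (W' ⊓ B : Submodule F V) + 3 ≤ m) (y : V) :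
    ∃ b ∈ W', f y b = 0 ∧ pa h b ∉ Submodule.span F {pa h y} ∧ pb h b ∉ Submodule.span F {pb h y} := by
  let Z : Submodule F V := W' ⊓ LinearMap.ker ((BB) y)
  have hZ : Module.finrank F W' ≤ Module.finrank F Z + 1 :=
    finrank_le_inf_ker_add_one W' ((BB) y) ⊤ (by simp) (fun x _ => trivial)
  obtain ⟨b₁, hb₁, hb₁n⟩ : ∃ b ∈ Z, pa h b ∉ Submodule.span F {pa h y} := by
    by_contra hcon
    push Not at hcon
    have h1 := finrank_le_inf_ker_add_one Z (pa h) _ (finrank_span_singleton_le _) hcon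
    have h2 : (Z ⊓ LinearMap.ker (pa h) : Submodule F V) ≤ W' ⊓ B := by
      intro x hx
      exact ⟨hx.1.1, (pa_eq_zero_iff h).mp hx.2⟩
    have h3 := Submodule.finrank_mono h2
    omega
  obtain ⟨b₂, hb₂, hb₂n⟩ : ∃ b ∈ Z, pb h b ∉ Submodule.span F {pb h y} := by
    by_contra hcon
    push Not at hcon
    have h1 := finrank_le_inf_ker_add_one Z (pb h) _ (finrank_span_singleton_le _) hcon
    have h2 : (Z ⊓ LinearMap.ker (pb h) : Submodule F V) ≤ W' ⊓ A := by
      intro x hx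
      exact ⟨hx.1.1, (pa_eq_zero_iff h.symm).mp hx.2⟩
    have h3 := Submodule.finrank_mono h2
    omega
  obtain ⟨b, hb, h1, h2⟩ := exists_not_mem_two (X₁ := Submodule.comap (pa h) (Submodule.span F {pa h y}))
    (X₂ := Submodule.comap (pb h) (Submodule.span F {pb h y})) hb₁ hb₂ hb₁n hb₂n
  exact ⟨b, hb.1, hb.2, h1, h2⟩

theorem near_lemma (h : Pair m A B) (hm : 7 ≤ m) {W W' : Submodule F V} (hW'd : Module.finrank F W' = m)
    (hnear : m ≤ Module.finrank F (W ⊓ A : Submodule F V) + 2) (hne1 : W' ≠ A) (hne2 : W' ≠ B) :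
    ∃ y b, y ≠ 0 ∧ y ∈ W ∧ b ∈ W' ∧ f y b = 0 ∧ pa h b ∉ Submodule.span F {pa h y} ∧ pb h b ∉ Submodule.span F {pb h y} := by
  have hnot : ∀ {X : Submodule F V}, Module.finrank F X = m → W' ≠ X → ∃ b ∈ W', b ∉ X := by
    intro X hX hne
    by_contra hcon
    push Not at hcon
    exact hne (Submodule.eq_of_le_of_finrank_eq (show W' ≤ X from hcon) (by rw [hW'd, hX]))
  obtain ⟨b₁, hb₁, hb₁n⟩ := hnot h.da hne1
  obtain ⟨b₂, hb₂, hb₂n⟩ := hnot h.db hne2
  obtain ⟨b, hb, hbA, hbB⟩ := exists_not_mem_two hb₁ hb₂ hb₁n hb₂n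
  have hpa : pa h b ≠ 0 := fun h0 => hbB ((pa_eq_zero_iff h).mp h0)
  have hpb : pb h b ≠ 0 := fun h0 => hbA ((pa_eq_zero_iff h.symm).mp h0)
  let Y : Submodule F V := (W ⊓ A) ⊓ LinearMap.ker ((BB).flip b)
  have hY : Module.finrank F (W ⊓ A : Submodule F V) ≤ Module.finrank F Y + 1 :=
    finrank_le_inf_ker_add_one _ ((BB).flip b) ⊤ (by simp) (fun x _ => trivial)
  have hsp := finrank_span_singleton_le (m := m) (F := F) (pa h b)
  obtain ⟨y, hy, hyn⟩ := exists_not_mem_of_finrank_lt (Y := Y) (C := Submodule.span F {pa h b}) (by omega)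
  have hyA : y ∈ A := hy.1.2
  have hyb : f y b = 0 := hy.2
  have hy0 : y ≠ 0 := by
    rintro rfl
    exact hyn (Submodule.zero_mem _)
  have hpay : pa h y = y := pa_self h hyA
  have hpby : pb h y = 0 := (mem_A_iff h).mp hyA
  refine ⟨y, b, hy0, hy.1.1, hb, hyb, ?_, ?_⟩
  · rw [hpay]
    intro hc
    obtain ⟨c, hc⟩ := Submodule.mem_span_singleton.mp hc
    have hc0 : c ≠ 0 := by
      rintro rfl
      rw [zero_smul] at hc
      exact hpa hc.symm
    apply hyn
    rw [Submodule.mem_span_singleton]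
    refine ⟨c⁻¹, ?_⟩
    rw [← hc, smul_smul, inv_mul_cancel₀ hc0, one_smul]
  · rw [hpby]
    simpa using hpb

theorem exists_good (h : Pair m A B) (hm : 7 ≤ m) {W W' : Submodule F V} (hWd : Module.finrank F W = m)
    (hW'd : Module.finrank F W' = m) (hdisj : Disjoint W W') (hne : ¬ ((W = A ∧ W' = B) ∨ (W = B ∧ W' = A))) :
    ∃ y b, y ≠ 0 ∧ f y b = 0 ∧ ((y ∈ W ∧ b ∈ W') ∨ (y ∈ W' ∧ b ∈ W)) ∧
      pa h b ∉ Submodule.span F {pa h y} ∧ pb h b ∉ Submodule.span F {pb h y} := by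
  have hne0 : ∀ {X : Submodule F V}, Module.finrank F X = m → ∃ y ∈ X, y ≠ 0 := by
    intro X hX
    apply Submodule.exists_mem_ne_zero_of_ne_bot
    rintro rfl
    rw [finrank_bot] at hX
    omega
  by_cases far' : Module.finrank F (W' ⊓ A : Submodule F V) + 3 ≤ m ∧ Module.finrank F (W' ⊓ B : Submodule F V) + 3 ≤ m
  · obtain ⟨y, hy, hy0⟩ := hne0 hWd
    obtain ⟨b, hb, h1, h2, h3⟩ := far_lemma h hW'd far'.1 far'.2 y
    exact ⟨y, b, hy0, h1, Or.inl ⟨hy, hb⟩, h2, h3⟩
  by_cases far : Module.finrank F (W ⊓ A : Submodule F V) + 3 ≤ m ∧ Module.finrank F (W ⊓ B : Submodule F V) + 3 ≤ m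
  · obtain ⟨y, hy, hy0⟩ := hne0 hW'd
    obtain ⟨b, hb, h1, h2, h3⟩ := far_lemma h hWd far.1 far.2 y
    exact ⟨y, b, hy0, h1, Or.inr ⟨hy, hb⟩, h2, h3⟩
  have nearW' : m ≤ Module.finrank F (W' ⊓ A : Submodule F V) + 2 ∨ m ≤ Module.finrank F (W' ⊓ B : Submodule F V) + 2 := by omega
  have nearW : m ≤ Module.finrank F (W ⊓ A : Submodule F V) + 2 ∨ m ≤ Module.finrank F (W ⊓ B : Submodule F V) + 2 := by omega
  by_cases hc : W' = A ∨ W' = B
  · have hnA : W ≠ A := by
      intro he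
      rcases hc with hc | hc
      · obtain ⟨y, hy, hy0⟩ := hne0 h.da
        exact hy0 (Submodule.disjoint_def.mp hdisj y (he ▸ hy) (hc ▸ hy))
      · exact hne (Or.inl ⟨he, hc⟩)
    have hnB : W ≠ B := by
      intro he
      rcases hc with hc | hc
      · exact hne (Or.inr ⟨he, hc⟩)
      · obtain ⟨y, hy, hy0⟩ := hne0 h.db
        exact hy0 (Submodule.disjoint_def.mp hdisj y (he ▸ hy) (hc ▸ hy))
    rcases nearW' with hn | hn
    · obtain ⟨y, b, h0, h1, h2, h3, h4, h5⟩ := near_lemma h hm hWd hn hnA hnB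
      exact ⟨y, b, h0, h3, Or.inr ⟨h1, h2⟩, h4, h5⟩
    · obtain ⟨y, b, h0, h1, h2, h3, h4, h5⟩ := near_lemma h.symm hm hWd hn hnB hnA
      exact ⟨y, b, h0, h3, Or.inr ⟨h1, h2⟩, h5, h4⟩
  · push Not at hc
    rcases nearW with hn | hn
    · obtain ⟨y, b, h0, h1, h2, h3, h4, h5⟩ := near_lemma h hm hW'd hn hc.1 hc.2
      exact ⟨y, b, h0, h3, Or.inl ⟨h1, h2⟩, h4, h5⟩
    · obtain ⟨y, b, h0, h1, h2, h3, h4, h5⟩ := near_lemma h.symm hm hW'd hn hc.2 hc.1
      exact ⟨y, b, h0, h3, Or.inl ⟨h1, h2⟩, h5, h4⟩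

/-! ### The swap -/

theorem exists_swap (h : Pair m A B) :
    ∃ s : V ≃ₗ[F] V, (∀ u v, f (s u) (s v) = f u v) ∧ (∀ x ∈ A, s x ∈ B) ∧ (∀ x ∈ B, s x ∈ A) := by
  classical
  let e := Module.finBasis F A
  let pa' : V →ₗ[F] A := A.projectionOnto B h.compl
  let pb' : V →ₗ[F] B := B.projectionOnto A h.compl.symm
  have hpa' : ∀ x, (pa' x : V) = pa h x := fun x => rfl
  have hpb' : ∀ x, (pb' x : V) = pb h x := fun x => rfl
  have hr : ∀ i, ∃ r ∈ B, ∀ x : A, f (x : V) r = e.repr x i := by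
    intro i
    let ξ : V →ₗ[F] F := (e.coord i) ∘ₗ pa'
    obtain ⟨φ, hφ⟩ := exists_dot ξ
    obtain ⟨w, hw⟩ := exists_rep_left (symp_bilinear (m := m) (F := F)) symp_nondeg φ
    have hw' : ∀ y, f y w = ξ y := by
      intro y
      rw [← hφ, ← hw, pv_dot symp_bilinear]
    refine ⟨pb h w, pa_mem h.symm w, fun x => ?_⟩
    rw [← form_a h x.2 w, hw']
    show e.coord i (pa' (x : V)) = _
    have : pa' (x : V) = x := Submodule.projectionOnto_apply_left _ x
    rw [this]
    rfl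
  choose r hrB hrf using hr
  let Φ₀ : A →ₗ[F] V := ∑ i, (e.coord i).smulRight (r i)
  have hΦ₀ : ∀ x, Φ₀ x = ∑ i, (e.repr x i) • r i := by
    intro x
    simp [Φ₀, Module.Basis.coord_apply]
  have hΦ₀B : ∀ x, Φ₀ x ∈ B := by
    intro x
    rw [hΦ₀]
    exact Submodule.sum_mem _ fun i _ => B.smul_mem _ (hrB i)
  have hΦ₀f : ∀ x y : A, f (x : V) (Φ₀ y) = ∑ i, e.repr y i * e.repr x i := by
    intro x y
    rw [hΦ₀]
    have : ∀ (S : Finset (Fin (Module.finrank F A))), f (x : V) (∑ i ∈ S, (e.repr y i) • r i) = ∑ i ∈ S, e.repr y i * e.repr x i := by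
      intro S
      induction S using Finset.induction_on with
      | empty =>
        simp [sympForm_apply]
      | insert a S ha ih =>
        rw [Finset.sum_insert ha, Finset.sum_insert ha, sympForm_add_right, sympForm_smul_right, ih, hrf]
    exact this _
  have hsym : ∀ x y : A, f (x : V) (Φ₀ y) = f (y : V) (Φ₀ x) := by
    intro x y
    rw [hΦ₀f, hΦ₀f]
    exact Finset.sum_congr rfl fun i _ => mul_comm _ _
  let Φ₁ : A →ₗ[F] B := Φ₀.codRestrict B hΦ₀B
  have hΦ₁ : ∀ x, (Φ₁ x : V) = Φ₀ x := fun x => rfl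
  have hinj : Function.Injective Φ₁ := by
    rw [injective_iff_map_eq_zero]
    intro x hx
    apply e.repr.injective
    ext j
    have h1 := hΦ₀f (e j) x
    rw [← hΦ₁, hx] at h1
    have h2 : ∑ i, e.repr x i * e.repr (e j) i = e.repr x j := by
      simp [Module.Basis.repr_self, Finsupp.single_apply]
    rw [h2] at h1
    rw [← h1]
    simp [sympForm_apply]
  let Φ : A ≃ₗ[F] B := LinearMap.linearEquivOfInjective Φ₁ hinj (by rw [h.da, h.db])
  have hΦ : ∀ x, (Φ x : V) = Φ₀ x := fun x => rfl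
  have hΦs : ∀ x : B, f ((Φ.symm x : A) : V) (x : V) = f ((Φ.symm x : A) : V) (Φ (Φ.symm x) : V) := by
    intro x
    rw [Φ.apply_symm_apply]
  let s₀ : V →ₗ[F] V := B.subtype ∘ₗ (Φ : A →ₗ[F] B) ∘ₗ pa' - A.subtype ∘ₗ (Φ.symm : B →ₗ[F] A) ∘ₗ pb'
  have hs₀ : ∀ x, s₀ x = (Φ (pa' x) : V) - (Φ.symm (pb' x) : V) := fun x => rfl
  have hiso : ∀ x y, f (s₀ x) (s₀ y) = f x y := by
    intro x y
    have t1 : f (Φ (pa' x) : V) (Φ (pa' y) : V) = 0 := h.b0 _ (Φ _).2 _ (Φ _).2
    have t2 : f (Φ.symm (pb' x) : V) (Φ.symm (pb' y) : V) = 0 := h.a0 _ (Φ.symm _).2 _ (Φ.symm _).2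
    have t3 : f (Φ.symm (pb' y) : V) (Φ (pa' x) : V) = f (pa' x : V) (pb' y : V) := by
      rw [hΦ, hsym, ← hΦ, Φ.apply_symm_apply]
    have t4 : f (Φ.symm (pb' x) : V) (Φ (pa' y) : V) = f (pa' y : V) (pb' x : V) := by
      rw [hΦ, hsym, ← hΦ, Φ.apply_symm_apply]
    have t5 : f (Φ (pa' x) : V) (Φ.symm (pb' y) : V) = - f (pa' x : V) (pb' y : V) := by
      rw [sympForm_skew, t3]
    have hx : x = (pa' x : V) + (pb' x : V) := (pa_add_pb h x).symm
    have hy : y = (pa' y : V) + (pb' y : V) := (pa_add_pb h y).symm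
    have u1 : f (pa' x : V) (pa' y : V) = 0 := h.a0 _ (pa' x).2 _ (pa' y).2
    have u2 : f (pb' x : V) (pb' y : V) = 0 := h.b0 _ (pb' x).2 _ (pb' y).2
    have u3 : f (pb' x : V) (pa' y : V) = - f (pa' y : V) (pb' x : V) := sympForm_skew _ _
    have neg1 : ∀ p q r : V, f (p - q) r = f p r - f q r := by
      intro p q r
      rw [sub_eq_add_neg, sympForm_add_left, show -q = (-1 : F) • q by simp, sympForm_smul_left]
      ring
    have neg2 : ∀ p q r : V, f r (p - q) = f r p - f r q := by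
      intro p q r
      rw [sub_eq_add_neg, sympForm_add_right, show -q = (-1 : F) • q by simp, sympForm_smul_right]
      ring
    rw [hs₀, hs₀, neg1, neg2, neg2, t1, t2, t4, t5]
    conv_rhs => rw [hx, hy, sympForm_add_left, sympForm_add_right, sympForm_add_right, u1, u2, u3]
    ring
  have hinj₀ : Function.Injective s₀ := by
    rw [injective_iff_map_eq_zero]
    intro z hz
    by_contra h0
    obtain ⟨y, hy⟩ := (symp_nondeg z h0).2
    apply hy
    rw [← hiso, hz]
    simp [sympForm_apply]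
  refine ⟨LinearEquiv.ofInjectiveEndo s₀ hinj₀, hiso, ?_, ?_⟩
  · intro x hx
    show s₀ x ∈ B
    have h1 : pa' x = ⟨x, hx⟩ := Submodule.projectionOnto_apply_of_mem_left _ hx
    have h2 : pb' x = 0 := Subtype.ext ((mem_A_iff h).mp hx)
    rw [hs₀, h2, map_zero]
    simpa using (Φ (pa' x)).2
  · intro x hx
    show s₀ x ∈ A
    have h1 : pa' x = 0 := Subtype.ext ((pa_eq_zero_iff h).mpr hx)
    rw [hs₀, h1, map_zero]
    simpa using (Φ.symm (pb' x)).2

/-! ### The main theorem -/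

theorem mem_H_of_maps' {D : Fin 2 → Submodule F V} (hD : IsMDecomposition m D) {g : GG} (hg : g ∈ Cfsg.spGL m F) (σ : Equiv.Perm (Fin 2))
    (h : ∀ i, ∀ x ∈ D i, (g : MM) *ᵥ x ∈ D (σ i)) : g ∈ decompositionStabilizer D ⊓ Cfsg.spGL m F := by
  refine ⟨⟨σ, fun i => ?_⟩, hg⟩
  have hle : (D i).map (Matrix.toLin' (g : MM)) ≤ D (σ i) := by
    rintro _ ⟨x, hx, rfl⟩
    exact h i x hx
  refine Submodule.eq_of_le_of_finrank_eq hle ?_
  have hinj : Function.Injective (Matrix.toLin' (g : MM)) := by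
    intro a b hab
    rw [Matrix.toLin'_apply, Matrix.toLin'_apply] at hab
    have := congrArg (fun z => ((g⁻¹ : GG) : MM) *ᵥ z) hab
    simpa only [inv_mulVec_mulVec] using this
  exact ((Submodule.equivMapOfInjective _ hinj (D i)).finrank_eq.symm.trans (hD.finrank_eq i)).trans (hD.finrank_eq (σ i)).symm

theorem maximal {D : Fin 2 → Submodule F V} (hD : IsMDecomposition m D)
    (hts : ∀ i, IsTotallySingularFor (Cfsg.sympForm m F) (D i)) (h2 : (2 : F) ≠ 0) (hm : 7 ≤ m) :
    IsMaximalIn (Cfsg.spGL m F) (decompositionStabilizer D ⊓ Cfsg.spGL m F) := by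
  classical
  have hdisj01 : Disjoint (D 0) (D 1) := hD.indep.pairwiseDisjoint (by decide)
  have hcod : D 0 ⊔ D 1 = ⊤ := by
    rw [eq_top_iff, ← hD.iSup_eq_top]
    apply iSup_le
    intro i
    fin_cases i
    · exact le_sup_left
    · exact le_sup_right
  have h' : Pair m (D 0) (D 1) :=
    ⟨⟨hdisj01, codisjoint_iff.mpr hcod⟩, hts 0, hts 1, hD.finrank_eq 0, hD.finrank_eq 1⟩
  have hτH : HasTau (decompositionStabilizer D ⊓ Cfsg.spGL m F) (D 0) (D 1) := by
    intro a ha b hb hab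
    refine mem_H_of_maps' hD (tau_mem a b) 1 ?_
    intro i x hx
    rw [tau_mulVec hab]
    fin_cases i
    · show _ ∈ D 0
      rw [hts 0 x hx a ha]
      simpa using (D 0).add_mem hx ((D 0).smul_mem _ ha)
    · show _ ∈ D 1
      rw [hts 1 x hx b hb]
      simpa using (D 1).add_mem hx ((D 1).smul_mem _ hb)
  obtain ⟨s, hs1, hs2, hs3⟩ := exists_swap h'
  have hsH : glOf s ∈ decompositionStabilizer D ⊓ Cfsg.spGL m F := by
    refine mem_H_of_maps' hD (glOf_mem_spGL s hs1) (Equiv.swap 0 1) ?_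
    intro i x hx
    rw [glOf_mulVec]
    fin_cases i
    · show s x ∈ D (Equiv.swap 0 1 0)
      rw [Equiv.swap_apply_left]
      exact hs2 x hx
    · show s x ∈ D (Equiv.swap 0 1 1)
      rw [Equiv.swap_apply_right]
      exact hs3 x hx
  have hne0 : ∃ y ∈ D 0, y ≠ 0 := by
    apply Submodule.exists_mem_ne_zero_of_ne_bot
    intro h0
    have := hD.finrank_eq 0
    rw [h0, finrank_bot] at this
    omega
  constructor
  · refine lt_of_le_of_ne inf_le_right ?_
    intro heq
    obtain ⟨y, hy, hy0⟩ := hne0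
    obtain ⟨r, hr, -, hr1⟩ := sep h' (X := ⊥) bot_le hy (by simpa using hy0)
    have hmem : stv y (-1 : F) ∈ decompositionStabilizer D ⊓ Cfsg.spGL m F := by
      rw [heq]; exact stv_mem _ _
    obtain ⟨σ, hσ⟩ := hmem.1
    have hry : f r y = -1 := by rw [sympForm_skew, hr1]
    have h1 : ((stv y (-1 : F) : GG) : MM) *ᵥ r ∈ D (σ 1) := by
      rw [← hσ 1]
      exact ⟨r, hr, rfl⟩
    have e : ((stv y (-1 : F) : GG) : MM) *ᵥ r = r + y := by
      rw [stv_mulVec, hry]
      simp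
    rw [e] at h1
    have hcases : ∀ j : Fin 2, j = 0 ∨ j = 1 := by decide
    rcases hcases (σ 1) with hj | hj
    · rw [hj] at h1
      have h3 : r ∈ D 0 := by
        have := (D 0).sub_mem h1 hy
        simpa using this
      have h4 := Submodule.disjoint_def.mp hdisj01 r h3 hr
      rw [h4] at hr1
      rw [show Cfsg.sympForm m F y 0 = 0 by simp [sympForm_apply]] at hr1
      exact zero_ne_one hr1
    · rw [hj] at h1
      have h3 : y ∈ D 1 := by
        have := (D 1).sub_mem h1 hr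
        simpa using this
      exact hy0 (Submodule.disjoint_def.mp hdisj01 y hy h3)
  · intro M hSM hMK
    by_cases hMS : M = decompositionStabilizer D ⊓ Cfsg.spGL m F
    · exact Or.inl hMS
    right
    obtain ⟨g, hgM, hgS⟩ : ∃ g ∈ M, g ∉ decompositionStabilizer D ⊓ Cfsg.spGL m F := by
      by_contra hcon
      push Not at hcon
      exact hMS (le_antisymm hcon hSM)
    have hτ : HasTau M (D 0) (D 1) := fun a ha b hb hab => hSM (hτH a ha b hb hab)
    have hgSp := hMK hgM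
    have hinj : Function.Injective (Matrix.toLin' (g : MM)) := by
      intro a b hab
      rw [Matrix.toLin'_apply, Matrix.toLin'_apply] at hab
      have := congrArg (fun z => ((g⁻¹ : GG) : MM) *ᵥ z) hab
      simpa only [inv_mulVec_mulVec] using this
    let W : Fin 2 → Submodule F V := fun i => (D i).map (Matrix.toLin' (g : MM))
    have hWd : ∀ i, Module.finrank F (W i) = m := fun i =>
      (Submodule.equivMapOfInjective _ hinj (D i)).finrank_eq.symm.trans (hD.finrank_eq i)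
    have hWdisj : Disjoint (W 0) (W 1) := by
      rw [Submodule.disjoint_def]
      rintro x ⟨a, ha, rfl⟩ ⟨b, hb, e⟩
      have e2 : b = a := hinj e
      rw [e2] at hb
      rw [Submodule.disjoint_def.mp hdisj01 a ha hb, map_zero]
    have hne : ¬ ((W 0 = D 0 ∧ W 1 = D 1) ∨ (W 0 = D 1 ∧ W 1 = D 0)) := by
      rintro (⟨h3, h4⟩ | ⟨h3, h4⟩)
      · apply hgS
        refine ⟨⟨1, fun i => ?_⟩, hgSp⟩
        fin_cases i
        · exact h3
        · exact h4
      · apply hgS
        refine ⟨⟨Equiv.swap 0 1, fun i => ?_⟩, hgSp⟩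
        fin_cases i
        · show W 0 = D (Equiv.swap 0 1 0)
          rw [Equiv.swap_apply_left]
          exact h3
        · show W 1 = D (Equiv.swap 0 1 1)
          rw [Equiv.swap_apply_right]
          exact h4
    obtain ⟨y, b, hy0, hyb, hmem, hc1, hc2⟩ := exists_good h' hm (hWd 0) (hWd 1) hWdisj hne
    have hT : ∀ α : F, tau y (α • b) ∈ M := by
      intro α
      rcases hmem with ⟨⟨p, hp, e1⟩, ⟨r, hr, e2⟩⟩ | ⟨⟨p, hp, e1⟩, ⟨r, hr, e2⟩⟩
      · have e1' : (g : MM) *ᵥ p = y := e1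
        have e2' : (g : MM) *ᵥ r = b := e2
        have hpr : f p r = 0 := by
          rw [← hgSp p r]
          show f ((g : MM) *ᵥ p) ((g : MM) *ᵥ r) = 0
          rw [e1', e2', hyb]
        have h3 := hSM (hτH p hp (α • r) ((D 1).smul_mem _ hr) (by rw [sympForm_smul_right, hpr, mul_zero]))
        have h4 := M.mul_mem (M.mul_mem hgM h3) (M.inv_mem hgM)
        rwa [tau_conj hgSp, Matrix.mulVec_smul, e1', e2'] at h4
      · have e1' : (g : MM) *ᵥ p = y := e1
        have e2' : (g : MM) *ᵥ r = b := e2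
        have hpr : f p r = 0 := by
          rw [← hgSp p r]
          show f ((g : MM) *ᵥ p) ((g : MM) *ᵥ r) = 0
          rw [e1', e2', hyb]
        have hrp : f (α • r) p = 0 := by rw [sympForm_smul_left, skew0 hpr, mul_zero]
        have h3 := hSM (hτH (α • r) ((D 0).smul_mem _ hr) p hp hrp)
        rw [tau_comm hrp] at h3
        have h4 := M.mul_mem (M.mul_mem hgM h3) (M.inv_mem hgM)
        rwa [tau_conj hgSp, Matrix.mulVec_smul, e1', e2'] at h4
    have hS := key h' h2 (by omega) hMK hτ hyb hT hc1 hc2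
    have hall := closure_all h' h2 (by omega) hMK hτ (hSM hsH) (fun x hx => by rw [glOf_mulVec]; exact hs2 x hx)
      (fun x hx => by rw [glOf_mulVec]; exact hs3 x hx) hy0 hS
    exact le_antisymm hMK (by
      rw [eq_spGL_of_stv_mem (H := M) hMK (fun v c => hall v c)])

end Cfsg.Agent.Lib.SpPair
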