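import Cfsg.Agent.Lib.SpGL

set_option autoImplicit false

namespace Cfsg.Agent.Lib.SpStab

open Matrix Cfsg.Geo Cfsg.Agent.Lib.SympBasic Cfsg.Agent.Lib.FormVec Cfsg.Agent.Lib.SpGL
open scoped MatrixGroups

variable {F : Type*} [Field F] {m : ℕ}

local notation "f" => Cfsg.sympForm m F
local notation "V" => (Fin m ⊕ Fin m → F)
local notation "GG" => GL (Fin m ⊕ Fin m) F
local notation "MM" => Matrix (Fin m ⊕ Fin m) (Fin m ⊕ Fin m) F

theorem mem_stab_iff (W : Submodule F V) (g : GG) :
    g ∈ subspaceStabilizer W ↔ ∀ v, v ∈ W ↔ (g : MM) *ᵥ v ∈ W := Iff.rfl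

/-- transvections in the perp stabilise `W`. -/
theorem stv_mem_stab (W : Submodule F V) {v : V} (hv : ∀ w ∈ W, f w v = 0) (c : F) :
    stv v c ∈ subspaceStabilizer W := by
  rw [mem_stab_iff]
  intro x
  rw [stv_mulVec]
  constructor
  · intro hx
    rw [hv x hx]
    simpa using hx
  · intro hx
    have h0 := hv _ hx
    rw [sympForm_add_left, sympForm_smul_left, sympForm_self, mul_zero, add_zero] at h0
    rw [h0] at hx
    simpa using hx

theorem isom_fix_mem_stab (W : Submodule F V) (h : V ≃ₗ[F] V) (hfix : ∀ x ∈ W, h x = x) :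
    glOf h ∈ subspaceStabilizer W := by
  rw [mem_stab_iff]
  intro v
  rw [glOf_mulVec]
  constructor
  · intro hv
    rw [hfix v hv]
    exact hv
  · intro hv
    have := hfix _ hv
    have e := h.injective this
    rw [← e]
    exact hv

/-- Formula for `τ`. -/
noncomputable def tau (a b : V) : GG := stv (a + b) 1 * stv a (-1) * stv b (-1)

theorem tau_mem (a b : V) : tau a b ∈ Cfsg.spGL m F :=
  (Cfsg.spGL m F).mul_mem ((Cfsg.spGL m F).mul_mem (stv_mem _ _) (stv_mem _ _)) (stv_mem _ _)

theorem tau_mulVec {a b : V} (hab : f a b = 0) (x : V) :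
    ((tau a b : GG) : MM) *ᵥ x = x + f x a • b + f x b • a := by
  have hba : f b a = 0 := by rw [sympForm_skew, hab, neg_zero]
  rw [tau, Units.val_mul, Units.val_mul, ← Matrix.mulVec_mulVec, ← Matrix.mulVec_mulVec, stv_mulVec, stv_mulVec, stv_mulVec]
  simp only [sympForm_add_left, sympForm_add_right, sympForm_smul_left, sympForm_self, hab, hba, smul_add, add_smul, mul_zero, zero_mul, add_zero, zero_add, smul_eq_mul]
  ext i
  simp only [Pi.add_apply, Pi.smul_apply, smul_eq_mul]
  ring

theorem tau_mem_stab (W : Submodule F V) (hW : IsTotallySingularFor (Cfsg.sympForm m F) W) {a b : V} (ha : a ∈ W)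
    (hab : f a b = 0) : tau a b ∈ subspaceStabilizer W := by
  have hba : f b a = 0 := by rw [sympForm_skew, hab, neg_zero]
  rw [mem_stab_iff]
  intro x
  rw [tau_mulVec hab]
  constructor
  · intro hx
    rw [hW x hx a ha]
    simp only [zero_smul, add_zero]
    exact W.add_mem hx (W.smul_mem _ ha)
  · intro hx
    have h0 := hW _ hx a ha
    simp only [sympForm_add_left, sympForm_smul_left, sympForm_self, hba, mul_zero, add_zero] at h0
    rw [h0] at hx
    simp only [zero_smul, add_zero] at hx
    have := W.sub_mem hx (W.smul_mem (f x b) ha)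
    simpa using this


/-- transvections with vector in `W` stabilise `W`. -/
theorem stv_mem_stab_of_mem (W : Submodule F V) {v : V} (hv : v ∈ W) (c : F) :
    stv v c ∈ subspaceStabilizer W := by
  rw [mem_stab_iff]
  intro x
  rw [stv_mulVec]
  constructor
  · intro hx
    exact W.add_mem hx (W.smul_mem _ hv)
  · intro hx
    have := W.sub_mem hx (W.smul_mem (c * Cfsg.sympForm m F x v) hv)
    simpa using this

/-- An isometry fixing `W⊥` pointwise stabilises `W`. -/
theorem isom_fix_perp_mem_stab (W : Submodule F V) (h : V ≃ₗ[F] V)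
    (hi : ∀ u v, f (h u) (h v) = f u v)
    (hfix : ∀ u, (∀ w ∈ W, f w u = 0) → h u = u) :
    glOf h ∈ subspaceStabilizer W := by
  rw [mem_stab_iff]
  intro v
  rw [glOf_mulVec]
  constructor
  · intro hv
    apply perp_perp
    intro u hu
    rw [← hfix u hu, hi, sympForm_skew, hu v hv, neg_zero]
  · intro hv
    apply perp_perp
    intro u hu
    rw [← hi, hfix u hu, sympForm_skew, hu _ hv, neg_zero]

end Cfsg.Agent.Lib.SpStab
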