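import Mathlib

/-!
# A double cover of the alternating group: a twisted group algebra over `𝔽₃`
-/

set_option autoImplicit false
set_option linter.unusedVariables false
set_option linter.unusedSectionVars false
set_option linter.style.longLine false

open scoped commutatorElement

namespace Cfsg.Agent.Lib.SpinCover

variable (n : ℕ)

/-- The index set. -/
abbrev VV := Fin n → ZMod 2

/-- The ambient matrix ring. -/
abbrev AA := Matrix (VV n) (VV n) (ZMod 3)

variable {n}

/-- The sign cocycle. -/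
def bil (x y : VV n) : ZMod 2 := ∑ i, ∑ j, if j ≤ i then x i * y j else 0

/-- The sign. -/
def sg (a : ZMod 2) : ZMod 3 := if a = 0 then 1 else -1

theorem sg_add (a b : ZMod 2) : sg (a + b) = sg a * sg b := by
  revert a b
  decide

theorem sg_zero : sg 0 = 1 := by decide

theorem sg_one : sg 1 = -1 := by decide

theorem add_self_V (x : VV n) : x + x = 0 := by
  funext i
  exact CharTwo.add_self_eq_zero (x i)

theorem eq_add_iff (u x t : VV n) : u = x + t ↔ t = x + u := by
  constructor
  · rintro rfl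
    rw [← add_assoc, add_self_V, zero_add]
  · rintro rfl
    rw [← add_assoc, add_self_V, zero_add]

theorem eq_add_iff' (u x t : VV n) : u = t + x ↔ t = u + x := by
  constructor
  · rintro rfl
    rw [add_assoc, add_self_V, add_zero]
  · rintro rfl
    rw [add_assoc, add_self_V, add_zero]

theorem bil_add_left (x y z : VV n) : bil (x + y) z = bil x z + bil y z := by
  simp only [bil, ← Finset.sum_add_distrib]
  apply Finset.sum_congr rfl
  intro i _
  apply Finset.sum_congr rfl
  intro j _
  simp only [Pi.add_apply]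
  split_ifs <;> ring

theorem bil_add_right (x y z : VV n) : bil x (y + z) = bil x y + bil x z := by
  simp only [bil, ← Finset.sum_add_distrib]
  apply Finset.sum_congr rfl
  intro i _
  apply Finset.sum_congr rfl
  intro j _
  simp only [Pi.add_apply]
  split_ifs <;> ring

theorem bil_zero_left (z : VV n) : bil 0 z = 0 := by
  simp [bil]

theorem bil_zero_right (z : VV n) : bil z 0 = 0 := by
  simp [bil]

/-- Left multiplication. -/
def LL (x : VV n) : AA n := Matrix.of fun u v => if u = x + v then sg (bil x v) else 0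

/-- Right multiplication. -/
def RR (y : VV n) : AA n := Matrix.of fun u v => if u = v + y then sg (bil v y) else 0

/-- The weight. -/
def wt (u : VV n) : ZMod 2 := ∑ i, u i

theorem wt_add (u v : VV n) : wt (u + v) = wt u + wt v := by
  simp [wt, Finset.sum_add_distrib]

theorem wt_zero : wt (0 : VV n) = 0 := by simp [wt]

/-- The grading operator. -/
def DD : AA n := Matrix.diagonal fun u => sg (wt u)

theorem LL_apply (x u v : VV n) : LL x u v = if u = x + v then sg (bil x v) else 0 := rfl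

theorem RR_apply (x u v : VV n) : RR x u v = if u = v + x then sg (bil v x) else 0 := rfl

theorem LL_zero : LL (0 : VV n) = 1 := by
  ext u v
  rw [LL_apply, zero_add, bil_zero_left, sg_zero, Matrix.one_apply]

theorem LL_mul_LL (x y : VV n) : LL x * LL y = sg (bil x y) • LL (x + y) := by
  ext u v
  rw [Matrix.mul_apply, Finset.sum_eq_single (y + v)]
  · rw [LL_apply, LL_apply y, if_pos rfl, Matrix.smul_apply, LL_apply, smul_eq_mul, ← add_assoc]
    by_cases h : u = x + y + v
    · rw [if_pos h, if_pos h, bil_add_right, bil_add_left, sg_add, sg_add]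
      ring
    · rw [if_neg h, if_neg h]
      simp
  · intro t _ ht
    rw [LL_apply y t v, if_neg ht, mul_zero]
  · simp

theorem LL_mul_RR (x y : VV n) : LL x * RR y = RR y * LL x := by
  ext u v
  rw [Matrix.mul_apply, Matrix.mul_apply, Finset.sum_eq_single (v + y), Finset.sum_eq_single (x + v)]
  · rw [LL_apply, RR_apply y (v + y) v, if_pos rfl, RR_apply, LL_apply x (x + v) v, if_pos rfl, ← add_assoc]
    by_cases h : u = x + v + y
    · rw [if_pos h, if_pos h, bil_add_right, bil_add_left, sg_add, sg_add]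
      ring
    · rw [if_neg h, if_neg h]
      simp
  · intro t _ ht
    rw [LL_apply x t v, if_neg ht, mul_zero]
  · simp
  · intro t _ ht
    rw [RR_apply y t v, if_neg ht, mul_zero]
  · simp

theorem DD_mul_LL (x : VV n) : DD * LL x = sg (wt x) • (LL x * DD) := by
  ext u v
  simp only [DD, Matrix.diagonal_mul, Matrix.mul_diagonal, Matrix.smul_apply, smul_eq_mul, LL_apply]
  split_ifs with h
  · rw [h, wt_add, sg_add]
    ring
  · simp

/-- The unit vectors. -/
def del (k : Fin n) : VV n := Pi.single k 1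

theorem wt_del (k : Fin n) : wt (del k) = 1 := by
  simp [wt, del]

theorem bil_del_right (w : VV n) (k : Fin n) : bil w (del k) = ∑ i, if k ≤ i then w i else 0 := by
  simp only [bil, del]
  apply Finset.sum_congr rfl
  intro i _
  rw [Finset.sum_eq_single k]
  · simp
  · intro j _ hj
    simp [Pi.single_apply, hj]
  · simp

theorem bil_del_left (w : VV n) (k : Fin n) : bil (del k) w = ∑ j, if j ≤ k then w j else 0 := by
  simp only [bil, del]
  rw [Finset.sum_eq_single k]
  · simp
  · intro i _ hi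
    simp [Pi.single_apply, hi]
  · simp

theorem bil_sum (w : VV n) (k : Fin n) : bil w (del k) + bil (del k) w = wt w + w k := by
  rw [bil_del_right, bil_del_left, wt, ← Finset.sum_add_distrib]
  have h : ∀ i : Fin n, ((if k ≤ i then w i else 0) + (if i ≤ k then w i else 0)) = w i + (if i = k then w i else 0) := by
    intro i
    rcases lt_trichotomy i k with h | h | h
    · simp [h.not_ge, h.le, h.ne]
    · subst h
      simp
    · simp [h.not_ge, h.le, h.ne']
  simp only [h]
  rw [Finset.sum_add_distrib]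
  simp

/-- The Clifford generators. -/
def ee (k : Fin n) : AA n := LL (del k)

theorem del_add_self (k : Fin n) : del k + del k = 0 := add_self_V _

theorem ee_sq (k : Fin n) : ee k * ee k = -1 := by
  rw [ee, LL_mul_LL, del_add_self, LL_zero]
  have h : bil (del k) (del k) = 1 := by
    rw [bil_del_right]
    simp [del, Pi.single_apply]
    rw [Finset.sum_eq_single k]
    · simp
    · intro b _ hb
      simp [hb]
    · simp
  rw [h, sg_one]
  simp

theorem sg_of_add_one {a b : ZMod 2} (h : a + b = 1) : sg a = - sg b := by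
  revert a b
  decide

theorem ee_anti {k l : Fin n} (h : k ≠ l) : ee k * ee l = -(ee l * ee k) := by
  have h1 : bil (del k) (del l) + bil (del l) (del k) = 1 := by
    rw [bil_sum, wt_del]
    simp [del, Pi.single_apply, h, Ne.symm h]
  rw [ee, ee, LL_mul_LL, LL_mul_LL, sg_of_add_one h1, add_comm (del l)]
  simp

theorem ee_inj : Function.Injective (ee : Fin n → AA n) := by
  intro k l h
  by_contra hne
  have h1 := congrFun (congrFun h (del k)) 0
  simp only [ee, LL_apply, add_zero, if_true, bil_zero_right, sg_zero] at h1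
  rw [if_neg] at h1
  · exact one_ne_zero h1
  · intro h2
    have h3 := congrFun h2 k
    simp [del, Pi.single_apply, hne] at h3

theorem three_eq_zero : (3 : AA n) = 0 := by
  have h : ((3 : ℕ) : AA n) = Matrix.diagonal fun _ => ((3 : ℕ) : ZMod 3) := by
    rw [Matrix.diagonal_natCast]
  have h2 : ((3 : ℕ) : ZMod 3) = 0 := by decide
  rw [h2] at h
  have h3 : (3 : AA n) = ((3 : ℕ) : AA n) := by norm_cast
  rw [h3, h]
  simp

/-- The reflection elements. -/
def ss (i j : Fin n) : AA n := ee i - ee j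

theorem ss_sq {i j : Fin n} (h : i ≠ j) : ss i j * ss i j = 1 := by
  have h3 : (3 : AA n) = 0 := three_eq_zero
  have h4 : (1 : AA n) = -(2 : AA n) := by
    have : (1 : AA n) + 2 = 3 := by norm_num
    rw [h3] at this
    exact eq_neg_of_add_eq_zero_left this
  have h5 : ss i j * ss i j = -(2 : AA n) := by
    simp only [ss, sub_mul, mul_sub, ee_sq, ee_anti h]
    rw [show (2 : AA n) = 1 + 1 from by norm_num]
    abel
  rw [h5, ← h4]

theorem ss_mul_ee {i j : Fin n} (h : i ≠ j) (t : Fin n) :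
    ss i j * ee t = -(ee (Equiv.swap i j t) * ss i j) := by
  by_cases h1 : t = i
  · subst h1
    rw [Equiv.swap_apply_left]
    simp only [ss, sub_mul, mul_sub, ee_sq]
    noncomm_ring
  by_cases h2 : t = j
  · subst h2
    rw [Equiv.swap_apply_right]
    simp only [ss, sub_mul, mul_sub, ee_sq]
    noncomm_ring
  rw [Equiv.swap_apply_of_ne_of_ne h1 h2]
  simp only [ss, sub_mul, mul_sub]
  rw [ee_anti (Ne.symm h1), ee_anti (Ne.symm h2)]
  noncomm_ring

theorem ss_mul_RR (i j : Fin n) (y : VV n) : ss i j * RR y = RR y * ss i j := by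
  simp only [ss, sub_mul, mul_sub, ee, LL_mul_RR]

theorem DD_mul_ee (k : Fin n) : DD * ee k = -(ee k * DD) := by
  rw [ee, DD_mul_LL, wt_del, sg_one]
  simp

theorem ss_mul_DD (i j : Fin n) : ss i j * DD = -(DD * ss i j) := by
  simp only [ss, sub_mul, mul_sub, DD_mul_ee]
  noncomm_ring

section Group

open Equiv.Perm

/-- The sign of a permutation in `𝔽₃`. -/
def sgn (p : Equiv.Perm (Fin n)) : ZMod 3 := ((sign p : ℤˣ) : ℤ)

theorem sgn_mul (p q : Equiv.Perm (Fin n)) : sgn (p * q) = sgn p * sgn q := by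
  simp [sgn, Equiv.Perm.sign_mul]

theorem sgn_one : sgn (1 : Equiv.Perm (Fin n)) = 1 := by
  simp [sgn]

theorem sgn_inv (p : Equiv.Perm (Fin n)) : sgn p⁻¹ = sgn p := by
  simp [sgn, sign_inv]

theorem sgn_sq (p : Equiv.Perm (Fin n)) : sgn p * sgn p = 1 := by
  rw [← sgn_mul]
  simp [sgn, Equiv.Perm.sign_mul]

theorem sgn_swap {i j : Fin n} (h : i ≠ j) : sgn (Equiv.swap i j) = -1 := by
  simp [sgn, sign_swap h]

variable (n) in
/-- The pin group with its permutation. -/
def GG : Subgroup ((AA n)ˣ × Equiv.Perm (Fin n)) where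
  carrier := {q | (∀ k, (q.1 : AA n) * ee k = sgn q.2 • (ee (q.2 k) * (q.1 : AA n))) ∧
    (∀ y, (q.1 : AA n) * RR y = RR y * (q.1 : AA n)) ∧
    (q.1 : AA n) * DD = sgn q.2 • (DD * (q.1 : AA n))}
  one_mem' := by
    refine ⟨?_, ?_, ?_⟩ <;> simp [sgn_one]
  mul_mem' := by
    rintro ⟨g, p⟩ ⟨h, q⟩ ⟨h1, h2, h3⟩ ⟨h4, h5, h6⟩
    simp only [Set.mem_ofPred_eq] at *
    refine ⟨?_, ?_, ?_⟩
    · intro k
      simp only [Prod.fst_mul, Prod.snd_mul, Units.val_mul, sgn_mul, Equiv.Perm.mul_apply]
      rw [mul_assoc, h4 k, Matrix.mul_smul, ← mul_assoc, h1 (q k), Matrix.smul_mul, smul_smul, mul_assoc, mul_comm (sgn q)]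
    · intro y
      simp only [Prod.fst_mul, Units.val_mul]
      rw [mul_assoc, h5 y, ← mul_assoc, h2 y, mul_assoc]
    · simp only [Prod.fst_mul, Prod.snd_mul, Units.val_mul, sgn_mul]
      rw [mul_assoc, h6, Matrix.mul_smul, ← mul_assoc, h3, Matrix.smul_mul, smul_smul, mul_assoc, mul_comm (sgn q)]
  inv_mem' := by
    rintro ⟨g, p⟩ ⟨h1, h2, h3⟩
    simp only [Set.mem_ofPred_eq] at *
    have hg1 : ((g⁻¹ : (AA n)ˣ) : AA n) * (g : AA n) = 1 := Units.inv_mul g
    have hg2 : (g : AA n) * ((g⁻¹ : (AA n)ˣ) : AA n) = 1 := Units.mul_inv g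
    have hsgn : ∀ x : AA n, sgn p • (sgn p • x) = x := by
      intro x
      rw [smul_smul, sgn_sq, one_smul]
    refine ⟨?_, ?_, ?_⟩
    · intro k
      simp only [Prod.fst_inv, Prod.snd_inv, sgn_inv]
      have h4 := h1 (p⁻¹ k)
      rw [show p (p⁻¹ k) = k from by simp] at h4
      -- g⁻¹ e_k = ε e_{p⁻¹ k} g⁻¹
      have h5 : ee k * (g : AA n) = sgn p • ((g : AA n) * ee (p⁻¹ k)) := by
        rw [h4, hsgn]
      calc ((g⁻¹ : (AA n)ˣ) : AA n) * ee k = ((g⁻¹ : (AA n)ˣ) : AA n) * (ee k * (g : AA n)) * ((g⁻¹ : (AA n)ˣ) : AA n) := by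
            rw [mul_assoc, mul_assoc, hg2, mul_one]
        _ = _ := by
            rw [h5, Matrix.mul_smul, ← mul_assoc, hg1, one_mul, Matrix.smul_mul]
    · intro y
      simp only [Prod.fst_inv]
      calc ((g⁻¹ : (AA n)ˣ) : AA n) * RR y = ((g⁻¹ : (AA n)ˣ) : AA n) * (RR y * (g : AA n)) * ((g⁻¹ : (AA n)ˣ) : AA n) := by
            rw [mul_assoc, mul_assoc, hg2, mul_one]
        _ = _ := by
            rw [← h2, ← mul_assoc, hg1, one_mul]
    · simp only [Prod.fst_inv, Prod.snd_inv, sgn_inv]
      have h5 : DD * (g : AA n) = sgn p • ((g : AA n) * DD) := by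
        rw [h3, hsgn]
      calc ((g⁻¹ : (AA n)ˣ) : AA n) * DD = ((g⁻¹ : (AA n)ˣ) : AA n) * (DD * (g : AA n)) * ((g⁻¹ : (AA n)ˣ) : AA n) := by
            rw [mul_assoc, mul_assoc, hg2, mul_one]
        _ = _ := by
            rw [h5, Matrix.mul_smul, ← mul_assoc, hg1, one_mul, Matrix.smul_mul]

/-- The unit `ss i j`. -/
def sU {i j : Fin n} (h : i ≠ j) : (AA n)ˣ := ⟨ss i j, ss i j, ss_sq h, ss_sq h⟩

theorem sU_mem {i j : Fin n} (h : i ≠ j) : (sU h, Equiv.swap i j) ∈ GG n := by
  refine ⟨?_, ?_, ?_⟩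
  · intro k
    show ss i j * ee k = sgn (Equiv.swap i j) • (ee (Equiv.swap i j k) * ss i j)
    rw [sgn_swap h, ss_mul_ee h, neg_smul, one_smul]
  · intro y
    exact ss_mul_RR i j y
  · show ss i j * DD = sgn (Equiv.swap i j) • (DD * ss i j)
    rw [sgn_swap h, ss_mul_DD, neg_smul, one_smul]

/-- The projection to permutations. -/
def piP : GG n →* Equiv.Perm (Fin n) := (MonoidHom.snd _ _).comp (GG n).subtype

theorem piP_surjective : Function.Surjective (piP (n := n)) := by
  rw [← MonoidHom.range_eq_top, eq_top_iff, ← Equiv.Perm.closure_isSwap (α := Fin n), Subgroup.closure_le]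
  rintro _ ⟨i, j, h, rfl⟩
  exact ⟨⟨(sU h, Equiv.swap i j), sU_mem h⟩, rfl⟩

variable (n) in
/-- The double cover. -/
abbrev Gam : Subgroup (GG n) := (alternatingGroup (Fin n)).comap piP

/-- The projection to the alternating group. -/
def piA : Gam n →* alternatingGroup (Fin n) := piP.subgroupComap _

theorem piA_surjective : Function.Surjective (piA (n := n)) :=
  piP.subgroupComap_surjective_of_surjective _ piP_surjective

end Group

section Kernel

theorem mul_RR_zero (g : AA n) (u y : VV n) : (g * RR y) u 0 = g u y := by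
  rw [Matrix.mul_apply, Finset.sum_eq_single y]
  · rw [RR_apply, zero_add, if_pos rfl, bil_zero_left, sg_zero, mul_one]
  · intro t _ ht
    rw [RR_apply, zero_add, if_neg ht, mul_zero]
  · simp

theorem RR_mul_zero (g : AA n) (u y : VV n) : (RR y * g) u 0 = sg (bil (u + y) y) * g (u + y) 0 := by
  rw [Matrix.mul_apply, Finset.sum_eq_single (u + y)]
  · rw [RR_apply, if_pos ((eq_add_iff' _ _ _).mpr rfl)]
  · intro t _ ht
    rw [RR_apply, if_neg (fun h => ht ((eq_add_iff' _ _ _).mp h)), zero_mul]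
  · simp

theorem mul_LL_zero (g : AA n) (u x : VV n) : (g * LL x) u 0 = g u x := by
  rw [Matrix.mul_apply, Finset.sum_eq_single x]
  · rw [LL_apply, add_zero, if_pos rfl, bil_zero_right, sg_zero, mul_one]
  · intro t _ ht
    rw [LL_apply, add_zero, if_neg ht, mul_zero]
  · simp

theorem LL_mul_zero (g : AA n) (u x : VV n) : (LL x * g) u 0 = sg (bil x (x + u)) * g (x + u) 0 := by
  rw [Matrix.mul_apply, Finset.sum_eq_single (x + u)]
  · rw [LL_apply, if_pos ((eq_add_iff _ _ _).mpr rfl)]
  · intro t _ ht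
    rw [LL_apply, if_neg (fun h => ht ((eq_add_iff _ _ _).mp h)), zero_mul]
  · simp

theorem sg_sub_ne {a b : ZMod 2} (h : a + b = 1) (c : ZMod 3) (h2 : (sg a - sg b) * c = 0) : c = 0 := by
  revert a b c
  decide

theorem scalar_of_comm (g : AA n) (hR : ∀ y, g * RR y = RR y * g) (hL : ∀ k, g * ee k = ee k * g)
    (hD : g * DD = DD * g) : ∃ c : ZMod 3, g = c • 1 := by
  have h1 : ∀ u y, g u y = sg (bil (u + y) y) * g (u + y) 0 := by
    intro u y
    have e := mul_RR_zero g u y
    rw [hR, RR_mul_zero] at e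
    exact e.symm
  have h2 : ∀ (w : VV n) (k : Fin n), (sg (bil w (del k)) - sg (bil (del k) w)) * g w 0 = 0 := by
    intro w k
    have e1 := h1 (w + del k) (del k)
    have e2 : g (w + del k) (del k) = sg (bil (del k) (del k + (w + del k))) * g (del k + (w + del k)) 0 := by
      have e := mul_LL_zero g (w + del k) (del k)
      rw [← ee, hL, ee, LL_mul_zero] at e
      exact e.symm
    have e3 : w + del k + del k = w := by rw [add_assoc, add_self_V, add_zero]
    have e4 : del k + (w + del k) = w := by rw [add_comm (del k), e3]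
    rw [e3] at e1
    rw [e4] at e2
    rw [sub_mul, ← e1, ← e2, sub_self]
  have h3 : ∀ u, g u 0 = sg (wt u) * g u 0 := by
    intro u
    have e := congrFun (congrFun hD u) 0
    simp only [DD, Matrix.diagonal_mul, Matrix.mul_diagonal, wt_zero, sg_zero, mul_one] at e
    exact e
  have h4 : ∀ w : VV n, w ≠ 0 → g w 0 = 0 := by
    intro w hw
    have hex : ∃ k, w k ≠ 0 := by
      by_contra hcon
      push Not at hcon
      exact hw (funext hcon)
    obtain ⟨k, hk⟩ := hex
    have hk1 : ∀ a : ZMod 2, a ≠ 0 → a = 1 := by decide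
    by_cases hwt : wt w = 0
    · have e := bil_sum w k
      rw [hwt, zero_add, hk1 _ hk] at e
      exact sg_sub_ne e _ (h2 w k)
    · have e := h3 w
      rw [hk1 _ hwt, sg_one] at e
      have hz : ∀ c : ZMod 3, c = -1 * c → c = 0 := by decide
      exact hz _ e
  refine ⟨g 0 0, ?_⟩
  ext u y
  rw [h1, Matrix.smul_apply, Matrix.one_apply, smul_eq_mul]
  by_cases huy : u = y
  · subst huy
    rw [add_self_V, bil_zero_left, sg_zero, if_pos rfl, one_mul, mul_one]
  · rw [if_neg huy, h4 (u + y) (fun h => huy ?_)]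
    · simp
    · calc u = u + (y + y) := by rw [add_self_V, add_zero]
        _ = (u + y) + y := (add_assoc _ _ _).symm
        _ = y := by rw [h, zero_add]

end Kernel

section Final

theorem anti_ss {i j k l : Fin n} (h1 : j ≠ i) (h2 : j ≠ k) (h3 : l ≠ i) (h4 : l ≠ k) :
    ss j l * ss i k = -(ss i k * ss j l) := by
  simp only [ss, sub_mul, mul_sub]
  rw [ee_anti h1, ee_anti h2, ee_anti h3, ee_anti h4]
  noncomm_ring

theorem mul_ee_two {i j k l : Fin n} (hij : i ≠ j) (hkl : k ≠ l) (t : Fin n) :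
    (ss i j * ss k l) * ee t = ee ((Equiv.swap i j * Equiv.swap k l) t) * (ss i j * ss k l) := by
  rw [mul_assoc, ss_mul_ee hkl, mul_neg, ← mul_assoc, ss_mul_ee hij, neg_mul, neg_neg, mul_assoc, Equiv.Perm.mul_apply]

/-- The central element. -/
def zG : GG n := ⟨(-1, 1), by
  refine ⟨?_, ?_, ?_⟩
  · intro k
    simp [sgn_one]
  · intro y
    simp
  · simp [sgn_one]⟩

/-- The central element in the cover. -/
def zz : Gam n := ⟨zG, by
  show piP zG ∈ alternatingGroup (Fin n)
  have : piP (zG (n := n)) = 1 := rfl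
  rw [this]
  exact Subgroup.one_mem _⟩

theorem zz_ne_one : (zz : Gam n) ≠ 1 := by
  intro h
  have h1 : ((zz : Gam n) : GG n) = 1 := congrArg Subtype.val h
  have h2 : ((zz : Gam n) : GG n).1.1 = 1 := congrArg (fun x : GG n => x.1.1) h1
  have h3 : (-1 : AA n) = 1 := congrArg Units.val h2
  have h4 := congrFun (congrFun h3 0) 0
  simp at h4
  revert h4
  decide

theorem zz_sq : (zz : Gam n) ^ 2 = 1 := by
  rw [pow_two]
  apply Subtype.ext
  apply Subtype.ext
  apply Prod.ext
  · apply Units.ext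
    show (-1 : AA n) * (-1) = 1
    simp
  · show (1 : Equiv.Perm (Fin n)) * 1 = 1
    simp

theorem zz_central (x : Gam n) : x * zz = zz * x := by
  apply Subtype.ext
  apply Subtype.ext
  apply Prod.ext
  · apply Units.ext
    show (x.1.1.1 : AA n) * (-1) = (-1) * (x.1.1.1 : AA n)
    simp
  · show x.1.1.2 * 1 = 1 * x.1.1.2
    simp

theorem ker_eq (x : Gam n) (hx : piA x = 1) : x = 1 ∨ x = zz := by
  have hp : x.1.1.2 = 1 := congrArg Subtype.val hx
  obtain ⟨h1, h2, h3⟩ := x.1.2
  rw [hp, sgn_one] at h1 h3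
  obtain ⟨c, hc⟩ := scalar_of_comm (x.1.1.1 : AA n) h2 (fun k => by
    have := h1 k
    simpa using this) (by simpa using h3)
  have hall : ∀ c : ZMod 3, c = 0 ∨ c = 1 ∨ c = -1 := by decide
  rcases hall c with h | h | h
  · exfalso
    rw [h, zero_smul] at hc
    have hu := (x.1.1.1).isUnit
    rw [hc] at hu
    exact not_isUnit_zero hu
  · left
    apply Subtype.ext
    apply Subtype.ext
    apply Prod.ext
    · apply Units.ext
      rw [hc, h, one_smul]
      rfl
    · exact hp
  · right
    apply Subtype.ext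
    apply Subtype.ext
    apply Prod.ext
    · apply Units.ext
      rw [hc, h]
      show (-1 : ZMod 3) • (1 : AA n) = -1
      simp
    · exact hp

theorem key_rel {i j k l : Fin n} (hij : i ≠ j) (hik : i ≠ k) (hil : i ≠ l) (hjk : j ≠ k) (hjl : j ≠ l) (hkl : k ≠ l) :
    (ss i j * ss k l) * (ss i k * ss j l) = -((ss i k * ss j l) * (ss i j * ss k l)) := by
  have e1 : (ss i j * ss k l) * ss i k = ss j l * (ss i j * ss k l) := by
    rw [show ss i k = ee i - ee k from rfl, show ss j l = ee j - ee l from rfl, mul_sub, mul_ee_two hij hkl, mul_ee_two hij hkl, sub_mul]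
    rw [Equiv.Perm.mul_apply, Equiv.Perm.mul_apply, Equiv.swap_apply_of_ne_of_ne hik hil, Equiv.swap_apply_left,
      Equiv.swap_apply_left, Equiv.swap_apply_of_ne_of_ne hil.symm hjl.symm]
  have e2 : (ss i j * ss k l) * ss j l = ss i k * (ss i j * ss k l) := by
    rw [show ss i k = ee i - ee k from rfl, show ss j l = ee j - ee l from rfl, mul_sub, mul_ee_two hij hkl, mul_ee_two hij hkl, sub_mul]
    rw [Equiv.Perm.mul_apply, Equiv.Perm.mul_apply, Equiv.swap_apply_of_ne_of_ne hjk hjl, Equiv.swap_apply_right,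
      Equiv.swap_apply_right, Equiv.swap_apply_of_ne_of_ne hik.symm hjk.symm]
  rw [← mul_assoc, e1, mul_assoc, e2, ← mul_assoc, anti_ss hij.symm hjk hil.symm hkl.symm]
  noncomm_ring

theorem units_neg_comm {R : Type*} [Ring R] (A B : Rˣ) (h : (A : R) * B = -((B : R) * A)) : A * B * A⁻¹ * B⁻¹ = -1 := by
  have h1 : A * B = (-1) * (B * A) := by
    apply Units.ext
    simp only [Units.val_mul, Units.val_neg, Units.val_one, neg_mul, one_mul]
    exact h
  rw [h1]
  simp [mul_assoc]

theorem zz_mem_comm (hn : 4 ≤ n) : (zz : Gam n) ∈ commutator (Gam n) := by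
  let i : Fin n := ⟨0, by omega⟩
  let j : Fin n := ⟨1, by omega⟩
  let k : Fin n := ⟨2, by omega⟩
  let l : Fin n := ⟨3, by omega⟩
  have hij : i ≠ j := by simp [i, j, Fin.ext_iff]
  have hik : i ≠ k := by simp [i, k, Fin.ext_iff]
  have hil : i ≠ l := by simp [i, l, Fin.ext_iff]
  have hjk : j ≠ k := by simp [j, k, Fin.ext_iff]
  have hjl : j ≠ l := by simp [j, l, Fin.ext_iff]
  have hkl : k ≠ l := by simp [k, l, Fin.ext_iff]
  have mkA : ∀ {a b c d : Fin n} (hab : a ≠ b) (hcd : c ≠ d),
      ∃ x : Gam n, ((x : GG n) : (AA n)ˣ × Equiv.Perm (Fin n)).1 = sU hab * sU hcd := by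
    intro a b c d hab hcd
    have hm : (sU hab * sU hcd, Equiv.swap a b * Equiv.swap c d) ∈ GG n := by
      have := (GG n).mul_mem (sU_mem hab) (sU_mem hcd)
      rwa [Prod.mk_mul_mk] at this
    refine ⟨⟨⟨_, hm⟩, ?_⟩, rfl⟩
    show Equiv.swap a b * Equiv.swap c d ∈ alternatingGroup (Fin n)
    rw [Equiv.Perm.mem_alternatingGroup, Equiv.Perm.sign_mul, Equiv.Perm.sign_swap hab, Equiv.Perm.sign_swap hcd]
    rfl
  obtain ⟨a, ha⟩ := mkA hij hkl
  obtain ⟨b, hb⟩ := mkA hik hjl
  have hfirst : ((⁅a, b⁆ : Gam n) : GG n).1.1 = -1 := by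
    have e : ((⁅a, b⁆ : Gam n) : GG n).1.1 = a.1.1.1 * b.1.1.1 * (a.1.1.1)⁻¹ * (b.1.1.1)⁻¹ := rfl
    rw [e, ha, hb]
    apply units_neg_comm
    exact key_rel hij hik hil hjk hjl hkl
  have hsecond : ((⁅a, b⁆ : Gam n) : GG n).1.2 = 1 := by
    have hw := (⁅a, b⁆ : Gam n).2
    have hw1 : Equiv.Perm.sign ((⁅a, b⁆ : Gam n) : GG n).1.2 = 1 := Equiv.Perm.mem_alternatingGroup.mp hw
    have hs : sgn ((⁅a, b⁆ : Gam n) : GG n).1.2 = 1 := by
      simp [sgn, hw1]
    obtain ⟨h1, -, -⟩ := ((⁅a, b⁆ : Gam n) : GG n).2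
    rw [hs, hfirst] at h1
    ext1 t
    have h2 := h1 t
    simp only [Units.val_neg, Units.val_one, neg_mul, one_mul, mul_neg, mul_one, one_smul, neg_inj] at h2
    have h3 := ee_inj h2
    simp [← h3]
  have hcomm : ⁅a, b⁆ = zz := by
    apply Subtype.ext
    apply Subtype.ext
    exact Prod.ext hfirst hsecond
  rw [← hcomm]
  exact Subgroup.commutator_mem_commutator (Subgroup.mem_top a) (Subgroup.mem_top b)

theorem s0891 (n : ℕ) (hn : 4 ≤ n) : ∃ (Γ : Type) (_ : Group Γ) (_ : Finite Γ) (z : Γ) (hz : z ∈ Subgroup.center Γ),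
    orderOf z = 2 ∧ z ∈ commutator Γ ∧ ∃ _ : (Subgroup.zpowers z).Normal,
      Nonempty (Γ ⧸ Subgroup.zpowers z ≃* alternatingGroup (Fin n)) := by
  have hker : (piA (n := n)).ker = Subgroup.zpowers zz := by
    apply le_antisymm
    · intro x hx
      rcases ker_eq x hx with rfl | rfl
      · exact Subgroup.one_mem _
      · exact Subgroup.mem_zpowers _
    · rw [Subgroup.zpowers_le]
      exact (Subtype.ext (rfl : (zG (n := n)).1.2 = 1))
  haveI hN : (Subgroup.zpowers (zz : Gam n)).Normal := by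
    rw [← hker]
    exact MonoidHom.normal_ker _
  refine ⟨Gam n, inferInstance, inferInstance, zz, ?_, ?_, zz_mem_comm hn, hN, ⟨?_⟩⟩
  · rw [Subgroup.mem_center_iff]
    exact fun x => zz_central x
  · haveI : Fact (Nat.Prime 2) := ⟨Nat.prime_two⟩
    exact orderOf_eq_prime zz_sq zz_ne_one
  · exact (QuotientGroup.quotientMulEquivOfEq hker.symm).trans (QuotientGroup.quotientKerEquivOfSurjective piA piA_surjective)

end Final

end Cfsg.Agent.Lib.SpinCover
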