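import Cfsg.Agent.Lib.SteinerCount

/-! The triangles of the Steiner systems S(5,8,24), S(4,7,23), S(3,6,22), S(5,6,12). -/

set_option autoImplicit false

namespace Cfsg.Agent.SteinerCount

variable {α : Type*} [Fintype α] [DecidableEq α] {B : Set (Finset α)}

theorem hf24 (hα : Fintype.card α = 24) (hB : IsSteinerSystem 5 8 B) {b : Finset α} (hb : b ∈ B) :
    ∀ S ⊆ b, N B S ∅ = seqOf [759, 253, 77, 21, 5] S.card := by
  refine f_of_list hB hb _ rfl ?_
  rw [hα]
  intro i hi n hn
  interval_cases i
  · have h : n * 56 = 42504 := hn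
    show n = 759
    omega
  · have h : n * 35 = 8855 := hn
    show n = 253
    omega
  · have h : n * 20 = 1540 := hn
    show n = 77
    omega
  · have h : n * 10 = 210 := hn
    show n = 21
    omega
  · have h : n * 4 = 20 := hn
    show n = 5
    omega

theorem hf23 (hα : Fintype.card α = 23) (hB : IsSteinerSystem 4 7 B) {b : Finset α} (hb : b ∈ B) :
    ∀ S ⊆ b, N B S ∅ = seqOf [253, 77, 21, 5] S.card := by
  refine f_of_list hB hb _ rfl ?_
  rw [hα]
  intro i hi n hn
  interval_cases i
  · have h : n * 35 = 8855 := hn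
    show n = 253
    omega
  · have h : n * 20 = 1540 := hn
    show n = 77
    omega
  · have h : n * 10 = 210 := hn
    show n = 21
    omega
  · have h : n * 4 = 20 := hn
    show n = 5
    omega

theorem hf22 (hα : Fintype.card α = 22) (hB : IsSteinerSystem 3 6 B) {b : Finset α} (hb : b ∈ B) :
    ∀ S ⊆ b, N B S ∅ = seqOf [77, 21, 5] S.card := by
  refine f_of_list hB hb _ rfl ?_
  rw [hα]
  intro i hi n hn
  interval_cases i
  · have h : n * 20 = 1540 := hn
    show n = 77
    omega
  · have h : n * 10 = 210 := hn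
    show n = 21
    omega
  · have h : n * 4 = 20 := hn
    show n = 5
    omega

theorem hf12 (hα : Fintype.card α = 12) (hB : IsSteinerSystem 5 6 B) {b : Finset α} (hb : b ∈ B) :
    ∀ S ⊆ b, N B S ∅ = seqOf [132, 66, 30, 12, 4] S.card := by
  refine f_of_list hB hb _ rfl ?_
  rw [hα]
  intro i hi n hn
  interval_cases i
  · have h : n * 6 = 792 := hn
    show n = 132
    omega
  · have h : n * 5 = 330 := hn
    show n = 66
    omega
  · have h : n * 4 = 120 := hn
    show n = 30
    omega
  · have h : n * 3 = 36 := hn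
    show n = 12
    omega
  · have h : n * 2 = 8 := hn
    show n = 4
    omega

/-- Size of the intersection of blocks. -/
theorem inter_le {t k : ℕ} (hB : IsSteinerSystem t k B) {b c : Finset α} (hb : b ∈ B) :
    (b ∩ c).card ≤ k := by
  rw [← hB.1 b hb]
  exact Finset.card_le_card Finset.inter_subset_left

/-- Parity of intersection with a symmetric difference. -/
theorem card_symmDiff_inter (x y z : Finset α) :
    (symmDiff x y ∩ z).card + 2 * (x ∩ y ∩ z).card = (x ∩ z).card + (y ∩ z).card := by
  have h1 : ((x ∩ z) \ y).card + ((x ∩ z) ∩ y).card = (x ∩ z).card :=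
    Finset.card_sdiff_add_card_inter _ _
  have h2 : ((y ∩ z) \ x).card + ((y ∩ z) ∩ x).card = (y ∩ z).card :=
    Finset.card_sdiff_add_card_inter _ _
  have h3 : (x ∩ z) ∩ y = x ∩ y ∩ z := by
    ext a; simp only [Finset.mem_inter]; tauto
  have h4 : (y ∩ z) ∩ x = x ∩ y ∩ z := by
    ext a; simp only [Finset.mem_inter]; tauto
  have h5 : symmDiff x y ∩ z = ((x ∩ z) \ y) ∪ ((y ∩ z) \ x) := by
    ext a
    simp only [Finset.mem_inter, Finset.mem_symmDiff, Finset.mem_union, Finset.mem_sdiff]
    tauto
  have h6 : Disjoint ((x ∩ z) \ y) ((y ∩ z) \ x) := by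
    rw [Finset.disjoint_left]
    intro a ha hb
    simp only [Finset.mem_inter, Finset.mem_sdiff] at ha hb
    exact ha.2 hb.1.1
  rw [h5, Finset.card_union_of_disjoint h6]
  rw [h3] at h1
  rw [h4] at h2
  omega

theorem card_symmDiff_eq (x y : Finset α) :
    (symmDiff x y).card + 2 * (x ∩ y).card = x.card + y.card := by
  have h := card_symmDiff_inter x y Finset.univ
  simpa using h

end Cfsg.Agent.SteinerCount
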