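import Cfsg.Prelude.Def_Sporadic_a
import Mathlib.Tactic

/-! Counting lemmas for Steiner systems: the Leech triangle. -/

set_option autoImplicit false

namespace Cfsg.Agent.SteinerCount

/-- Number of blocks containing `S` and disjoint from `T`. -/
noncomputable def N {α : Type*} (B : Set (Finset α)) (S T : Finset α) : ℕ :=
  {c : Finset α | c ∈ B ∧ S ⊆ c ∧ Disjoint T c}.ncard

theorem N_eq_ncard {α : Type*} (B : Set (Finset α)) (S T : Finset α) :
    N B S T = {c : Finset α | c ∈ B ∧ S ⊆ c ∧ Disjoint T c}.ncard := rfl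

/-- Pascal's rule. -/
theorem pascal {α : Type*} [Fintype α] [DecidableEq α] (B : Set (Finset α)) (S T : Finset α)
    (a : α) : N B S T = N B (insert a S) T + N B S (insert a T) := by
  unfold N
  rw [← Set.ncard_union_eq _ (Set.toFinite _) (Set.toFinite _)]
  · congr 1
    ext c
    simp only [Set.mem_ofPred_eq, Set.mem_union, Finset.insert_subset_iff,
      Finset.disjoint_insert_left]
    by_cases h : a ∈ c <;> simp [h]
  · rw [Set.disjoint_left]
    rintro c ⟨_, h1, _⟩ ⟨_, _, h2⟩
    rw [Finset.insert_subset_iff] at h1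
    rw [Finset.disjoint_insert_left] at h2
    exact h2.1 h1.1

/-- The triangle determined by a sequence. -/
def g (f : ℕ → ℕ) : ℕ → ℕ → ℕ
  | 0, i => f i
  | j + 1, i => g f j i - g f j (i + 1)

/-- The count `N B S T` depends only on the sizes of `S` and `T`. -/
theorem N_eq_g {α : Type*} [Fintype α] [DecidableEq α] (B : Set (Finset α)) (b : Finset α)
    (f : ℕ → ℕ) (hf : ∀ S ⊆ b, N B S ∅ = f S.card) (T : Finset α) :
    ∀ S : Finset α, S ⊆ b → T ⊆ b → Disjoint S T → N B S T = g f T.card S.card := by
  induction T using Finset.induction_on with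
  | empty =>
    intro S hS _ _
    simpa [g] using hf S hS
  | insert a T ha ih =>
    intro S hS hT hd
    rw [Finset.insert_subset_iff] at hT
    rw [Finset.disjoint_insert_right] at hd
    have h1 := pascal B S T a
    have h2 := ih S hS hT.2 hd.2
    have h3 := ih (insert a S) (Finset.insert_subset hT.1 hS) hT.2 (by
      rw [Finset.disjoint_insert_left]; exact ⟨ha, hd.2⟩)
    rw [Finset.card_insert_of_notMem hd.1] at h3
    rw [Finset.card_insert_of_notMem ha]
    simp only [g]
    omega

section
variable {α : Type*} [Fintype α] [DecidableEq α] {t k : ℕ} {B : Set (Finset α)}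

/-- Key double count. -/
theorem count_through (hB : IsSteinerSystem t k B) (S : Finset α) (hS : S.card ≤ t) :
    N B S ∅ * Nat.choose (k - S.card) (t - S.card) =
      Nat.choose (Fintype.card α - S.card) (t - S.card) := by
  have hfin : {c : Finset α | c ∈ B ∧ S ⊆ c ∧ Disjoint ∅ c}.Finite := Set.toFinite _
  set Y := hfin.toFinset with hY
  have hN : N B S ∅ = Y.card := Set.ncard_eq_toFinset_card _ hfin
  set X := Finset.powersetCard (t - S.card) (Finset.univ \ S) with hX
  have hXc : X.card = Nat.choose (Fintype.card α - S.card) (t - S.card) := by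
    rw [hX, Finset.card_powersetCard, Finset.card_sdiff_of_subset (Finset.subset_univ _),
      Finset.card_univ]
  have hsum := Finset.sum_card_bipartiteAbove_eq_sum_card_bipartiteBelow (s := X) (t := Y)
    (fun s c => s ⊆ c)
  have h1 : ∀ s ∈ X, (Finset.bipartiteAbove (fun s c => s ⊆ c) Y s).card = 1 := by
    intro s hs
    rw [hX, Finset.mem_powersetCard] at hs
    have hd : Disjoint S s := by
      rw [Finset.disjoint_left]
      intro a ha has
      have := hs.1 has
      simp [ha] at this
    have hcard : (S ∪ s).card = t := by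
      rw [Finset.card_union_of_disjoint hd, hs.2]; omega
    obtain ⟨c, ⟨hc, hSc⟩, huniq⟩ := hB.2 (S ∪ s) hcard
    rw [Finset.card_eq_one]
    refine ⟨c, ?_⟩
    ext c'
    simp only [Finset.bipartiteAbove, Finset.mem_filter, Finset.mem_singleton, hY,
      Set.Finite.mem_toFinset, Set.mem_ofPred_eq]
    constructor
    · rintro ⟨⟨h1, h2, _⟩, h3⟩
      exact huniq c' ⟨h1, Finset.union_subset h2 h3⟩
    · rintro rfl
      refine ⟨⟨hc, Finset.union_subset_left hSc, by simp⟩, Finset.union_subset_right hSc⟩
  have h2 : ∀ c ∈ Y, (Finset.bipartiteBelow (fun s c => s ⊆ c) X c).card =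
      Nat.choose (k - S.card) (t - S.card) := by
    intro c hc
    simp only [hY, Set.Finite.mem_toFinset, Set.mem_ofPred_eq] at hc
    have hcc : (c \ S).card = k - S.card := by
      rw [Finset.card_sdiff_of_subset hc.2.1, hB.1 c hc.1]
    rw [← hcc, ← Finset.card_powersetCard]
    congr 1
    ext s
    simp only [Finset.bipartiteBelow, Finset.mem_filter, hX, Finset.mem_powersetCard]
    constructor
    · rintro ⟨⟨h1, h2⟩, h3⟩
      refine ⟨?_, h2⟩
      intro a ha
      have := h1 ha
      simp only [Finset.mem_sdiff, Finset.mem_univ, true_and] at this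
      exact Finset.mem_sdiff.2 ⟨h3 ha, this⟩
    · rintro ⟨h1, h2⟩
      refine ⟨⟨?_, h2⟩, ?_⟩
      · intro a ha
        have := Finset.mem_sdiff.1 (h1 ha)
        simp [this.2]
      · intro a ha
        exact (Finset.mem_sdiff.1 (h1 ha)).1
  rw [Finset.sum_congr rfl h1, Finset.sum_congr rfl h2] at hsum
  simp only [Finset.sum_const, smul_eq_mul, mul_one] at hsum
  rw [← hXc, hsum, hN]

/-- Beyond the strength a set inside a block lies in that block only. -/
theorem count_large (hB : IsSteinerSystem t k B) {b : Finset α} (hb : b ∈ B) (S : Finset α)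
    (hSb : S ⊆ b) (hS : t ≤ S.card) : N B S ∅ = 1 := by
  obtain ⟨s, hsS, hs⟩ := Finset.exists_subset_card_eq hS
  obtain ⟨c, _, huniq⟩ := hB.2 s hs
  have hbc : b = c := huniq b ⟨hb, hsS.trans hSb⟩
  subst hbc
  unfold N
  rw [Set.ncard_eq_one]
  refine ⟨b, ?_⟩
  ext c
  simp only [Set.mem_ofPred_eq, Set.mem_singleton_iff, Finset.disjoint_empty_left, and_true]
  constructor
  · rintro ⟨h1, h2⟩
    exact huniq c ⟨h1, hsS.trans h2⟩
  · rintro rfl
    exact ⟨hb, hSb⟩

/-- The blocks meeting `b` exactly in `s`. -/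
theorem exact_count {b s : Finset α} (hs : s ⊆ b) :
    {c : Finset α | c ∈ B ∧ b ∩ c = s}.ncard = N B s (b \ s) := by
  rw [N_eq_ncard]
  congr 1
  ext c
  simp only [Set.mem_ofPred_eq]
  refine and_congr_right ?_
  intro _
  constructor
  · rintro rfl
    refine ⟨Finset.inter_subset_right, ?_⟩
    rw [Finset.disjoint_left]
    intro a ha hac
    simp only [Finset.mem_sdiff, Finset.mem_inter] at ha
    exact ha.2 ⟨ha.1, hac⟩
  · rintro ⟨h1, h2⟩
    ext a
    simp only [Finset.mem_inter]
    constructor
    · rintro ⟨h3, h4⟩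
      by_contra h5
      exact (Finset.disjoint_left.1 h2) (Finset.mem_sdiff.2 ⟨h3, h5⟩) h4
    · intro h3
      exact ⟨hs h3, h1 h3⟩

theorem exact_count_g (b : Finset α) (f : ℕ → ℕ) (hf : ∀ S ⊆ b, N B S ∅ = f S.card)
    {s : Finset α} (hs : s ⊆ b) :
    {c : Finset α | c ∈ B ∧ b ∩ c = s}.ncard = g f (b.card - s.card) s.card := by
  rw [exact_count hs, N_eq_g B b f hf (b \ s) s hs Finset.sdiff_subset
    Finset.disjoint_sdiff, Finset.card_sdiff_of_subset hs]

/-- If the triangle entry vanishes no block meets `b` exactly in a set of that size. -/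
theorem no_meet (b : Finset α) (f : ℕ → ℕ) (hf : ∀ S ⊆ b, N B S ∅ = f S.card)
    {c : Finset α} (hc : c ∈ B) (h0 : g f (b.card - (b ∩ c).card) (b ∩ c).card = 0) : False := by
  have h := exact_count_g (B := B) b f hf (s := b ∩ c) Finset.inter_subset_left
  rw [h0, Set.ncard_eq_zero (Set.toFinite _)] at h
  have : c ∈ ({c : Finset α | c ∈ B ∧ b ∩ c = b ∩ c} : Set (Finset α)) := ⟨hc, rfl⟩
  have h2 : c ∈ {c' : Finset α | c' ∈ B ∧ b ∩ c' = b ∩ c} := ⟨hc, rfl⟩
  rw [h] at h2
  exact h2

/-- A block containing a block equals it (same size). -/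
theorem eq_of_inter_card {b c : Finset α} (hB : IsSteinerSystem t k B) (hb : b ∈ B) (hc : c ∈ B)
    (h : (b ∩ c).card = k) : b = c := by
  have h1 : b ∩ c = b := Finset.eq_of_subset_of_card_le Finset.inter_subset_left
    (by rw [h, hB.1 b hb])
  have h2 : b ∩ c = c := Finset.eq_of_subset_of_card_le Finset.inter_subset_right
    (by rw [h, hB.1 c hc])
  rw [← h1]; exact h2

/-- Sequence for the triangle when values up to `t` are listed. -/
def seqOf (l : List ℕ) (i : ℕ) : ℕ := l.getD i 1

theorem f_of_list (hB : IsSteinerSystem t k B) {b : Finset α} (hb : b ∈ B) (l : List ℕ)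
    (hl : l.length = t)
    (hvals : ∀ i, i < t → ∀ n, n * Nat.choose (k - i) (t - i) =
      Nat.choose (Fintype.card α - i) (t - i) → n = l.getD i 1) :
    ∀ S ⊆ b, N B S ∅ = seqOf l S.card := by
  intro S hS
  by_cases h : S.card < t
  · exact hvals _ h _ (count_through hB S h.le)
  · rw [count_large hB hb S hS (not_lt.1 h)]
    unfold seqOf
    rw [List.getD_eq_default]
    rw [hl]; exact not_lt.1 h

end

end Cfsg.Agent.SteinerCount
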