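import Mathlib
import Cfsg.Agent.Lib.FGSBasic
import Cfsg.Prelude.Def_KGroupFacts

/-!
Stem extensions of groups with a cyclic subgroup of index two inverted by an outer element.
-/

namespace Cfsg.Agent.Lib.StemDihedral

universe u

variable {Γ : Type*} [Group Γ]

/-- conjugation invariance of a cyclic subgroup -/
theorem mem_normalizer_zpowers [Finite Γ] (w g : Γ) (h : g * w * g⁻¹ ∈ Subgroup.zpowers w) :
    g ∈ Subgroup.normalizer ((Subgroup.zpowers w : Subgroup Γ) : Set Γ) := by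
  classical
  have hle : (Subgroup.zpowers w).map (MulAut.conj g).toMonoidHom ≤ Subgroup.zpowers w := by
    rw [Subgroup.map_le_iff_le_comap, Subgroup.zpowers_le, Subgroup.mem_comap]
    exact h
  have hcard : Nat.card ((Subgroup.zpowers w).map (MulAut.conj g).toMonoidHom) = Nat.card (Subgroup.zpowers w) :=
    Nat.card_congr (Subgroup.equivMapOfInjective _ _ (MulAut.conj g).injective).toEquiv.symm
  have heq := Subgroup.eq_of_le_of_card_ge hle hcard.ge
  exact (Cfsg.Agent.Lib.FGSBasic.map_conj_eq_self_iff _ g).mp heq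

/-- Every element of the central kernel `K ≤ Γ'` is a power of `w = [S, R]`. -/
theorem mem_zpowers_of_mem [Finite Γ] (K : Subgroup Γ) (hKc : K ≤ Subgroup.center Γ) (hKd : K ≤ commutator Γ)
    (R S c : Γ) (hc : c ∈ K) (hSR : S * R * S⁻¹ = R⁻¹ * c)
    (hgen : ∀ g : Γ, ∃ (i : ℤ), ∃ k ∈ K, g = R ^ i * k ∨ g = S * R ^ i * k) :
    ∀ k ∈ K, k ∈ Subgroup.zpowers (R⁻¹ * R⁻¹ * c) := by
  have hcc : ∀ x : Γ, x * c = c * x := fun x => Subgroup.mem_center_iff.mp (hKc hc) x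
  set w := R⁻¹ * R⁻¹ * c with hw
  have hSw : S * w * S⁻¹ = w⁻¹ := by
    have h1 : S * R⁻¹ * S⁻¹ = c⁻¹ * R := by
      have := congrArg (fun x => x⁻¹) hSR
      simp only [mul_inv_rev, inv_inv] at this
      rw [← this]; group
    have h2 : S * c * S⁻¹ = c := by
      rw [hcc S]; group
    have h3 : S * w * S⁻¹ = (S * R⁻¹ * S⁻¹) * (S * R⁻¹ * S⁻¹) * (S * c * S⁻¹) := by
      rw [hw]; group
    rw [h3, h1, h2, hw]
    have hcinv : ∀ x : Γ, x * c⁻¹ = c⁻¹ * x := fun x => by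
      have := hcc x
      calc x * c⁻¹ = c⁻¹ * (c * x) * c⁻¹ := by group
        _ = c⁻¹ * (x * c) * c⁻¹ := by rw [hcc x]
        _ = c⁻¹ * x := by group
    simp only [mul_inv_rev, inv_inv]
    calc c⁻¹ * R * (c⁻¹ * R) * c = c⁻¹ * (R * c⁻¹) * R * c := by group
      _ = c⁻¹ * (c⁻¹ * R) * R * c := by rw [hcinv R]
      _ = c⁻¹ * (c⁻¹ * R * (R * c)) := by group
      _ = c⁻¹ * (c⁻¹ * R * (c * R)) := by rw [hcc R]
      _ = c⁻¹ * (c⁻¹ * (R * c) * R) := by group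
      _ = c⁻¹ * (c⁻¹ * (c * R) * R) := by rw [hcc R]
      _ = c⁻¹ * (R * R) := by group
  have hRw : R * w * R⁻¹ = w := by
    rw [hw]
    calc R * (R⁻¹ * R⁻¹ * c) * R⁻¹ = R⁻¹ * (c * R⁻¹) := by group
      _ = R⁻¹ * (R⁻¹ * c) := by rw [hcc R⁻¹]
      _ = R⁻¹ * R⁻¹ * c := by group
  have hgenset : Subgroup.closure (({R, S} : Set Γ) ∪ (K : Set Γ)) = ⊤ := by
    rw [eq_top_iff]
    intro g _
    have hR : R ∈ Subgroup.closure (({R, S} : Set Γ) ∪ (K : Set Γ)) :=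
      Subgroup.subset_closure (Or.inl (Or.inl rfl))
    have hS : S ∈ Subgroup.closure (({R, S} : Set Γ) ∪ (K : Set Γ)) :=
      Subgroup.subset_closure (Or.inl (Or.inr rfl))
    have hK' : ∀ k ∈ K, k ∈ Subgroup.closure (({R, S} : Set Γ) ∪ (K : Set Γ)) :=
      fun k hk => Subgroup.subset_closure (Or.inr hk)
    obtain ⟨i, k, hk, h | h⟩ := hgen g
    · rw [h]
      exact mul_mem (zpow_mem hR i) (hK' k hk)
    · rw [h]
      exact mul_mem (mul_mem hS (zpow_mem hR i)) (hK' k hk)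
  have hnorm : (Subgroup.zpowers w).Normal := by
    rw [← Subgroup.normalizer_eq_top_iff, eq_top_iff, ← hgenset, Subgroup.closure_le]
    rintro g ((rfl | rfl) | hg)
    · apply mem_normalizer_zpowers
      rw [hRw]; exact Subgroup.mem_zpowers w
    · apply mem_normalizer_zpowers
      rw [hSw]; exact inv_mem (Subgroup.mem_zpowers w)
    · apply mem_normalizer_zpowers
      have : g * w = w * g := (Subgroup.mem_center_iff.mp (hKc hg) w).symm
      rw [this]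
      simp
  have hle : commutator Γ ≤ Subgroup.zpowers w := by
    apply Cfsg.Agent.Lib.FGSBasic.commutator_le_of_generators (Subgroup.zpowers w) _ hgenset
    have hcen : ∀ k ∈ K, ∀ x : Γ, k * x = x * k := fun k hk x =>
      (Subgroup.mem_center_iff.mp (hKc hk) x).symm
    have hRS : S * R * S⁻¹ * R⁻¹ = w := by
      rw [hSR, hw]
      calc R⁻¹ * c * R⁻¹ = R⁻¹ * (c * R⁻¹) := by group
        _ = R⁻¹ * (R⁻¹ * c) := by rw [hcc R⁻¹]
        _ = R⁻¹ * R⁻¹ * c := by group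
    rintro s ((rfl | rfl) | hs) t ((rfl | rfl) | ht)
    · simp
    · have h1 : s * t * s⁻¹ * t⁻¹ = (t * s * t⁻¹ * s⁻¹)⁻¹ := by group
      rw [h1, hRS]
      exact inv_mem (Subgroup.mem_zpowers w)
    · rw [← hcen t ht s]; simp
    · rw [hRS]; exact Subgroup.mem_zpowers w
    · simp
    · rw [← hcen t ht s]; simp
    · rw [hcen s hs t]; simp
    · rw [hcen s hs t]; simp
    · rw [hcen s hs t]; simp
  exact fun k hk => hle (hKd hk)

/-- The key relation: if `R ^ m ∈ K` then `w ^ m = 1`. -/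
theorem w_pow_eq_one (K : Subgroup Γ) (hKc : K ≤ Subgroup.center Γ)
    (R S c : Γ) (hc : c ∈ K) (hSR : S * R * S⁻¹ = R⁻¹ * c) (m : ℕ) (hm : S * R ^ m = R ^ m * S) :
    (R⁻¹ * R⁻¹ * c) ^ m = 1 := by
  have hcc : Commute R c := Subgroup.mem_center_iff.mp (hKc hc) R
  have h1 : S * R ^ m * S⁻¹ = (R⁻¹ * c) ^ m := by
    rw [← hSR, conj_pow]
  have h2 : S * R ^ m * S⁻¹ = R ^ m := by
    rw [hm]; group
  rw [h2] at h1
  have hcc' : Commute R⁻¹ c := hcc.inv_left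
  rw [hcc'.mul_pow] at h1
  -- R ^ m = R⁻¹ ^ m * c ^ m
  have hcomm : Commute (R⁻¹ * R⁻¹) c := hcc'.mul_left hcc'
  rw [hcomm.mul_pow, (Commute.refl R⁻¹).mul_pow]
  calc R⁻¹ ^ m * R⁻¹ ^ m * c ^ m = R⁻¹ ^ m * (R⁻¹ ^ m * c ^ m) := by group
    _ = R⁻¹ ^ m * R ^ m := by rw [← h1]
    _ = 1 := by rw [inv_pow]; group

/-- Elements of `K` are involutions or trivial. -/
theorem sq_eq_one_of_mem [Finite Γ] (K : Subgroup Γ) (hKc : K ≤ Subgroup.center Γ) (hKd : K ≤ commutator Γ)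
    (R S c : Γ) (hc : c ∈ K) (hSR : S * R * S⁻¹ = R⁻¹ * c)
    (hgen : ∀ g : Γ, ∃ (i : ℤ), ∃ k ∈ K, g = R ^ i * k ∨ g = S * R ^ i * k) :
    ∀ k ∈ K, k ^ 2 = 1 := by
  intro k hk
  obtain ⟨j, rfl⟩ := Subgroup.mem_zpowers_iff.mp (mem_zpowers_of_mem K hKc hKd R S c hc hSR hgen k hk)
  have hcc : ∀ x : Γ, x * c = c * x := fun x => Subgroup.mem_center_iff.mp (hKc hc) x
  set w := R⁻¹ * R⁻¹ * c with hw
  have hSw : S * w * S⁻¹ = w⁻¹ := by
    have h1 : S * R⁻¹ * S⁻¹ = c⁻¹ * R := by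
      have := congrArg (fun x => x⁻¹) hSR
      simp only [mul_inv_rev, inv_inv] at this
      rw [← this]; group
    have h2 : S * c * S⁻¹ = c := by
      rw [hcc S]; group
    have h3 : S * w * S⁻¹ = (S * R⁻¹ * S⁻¹) * (S * R⁻¹ * S⁻¹) * (S * c * S⁻¹) := by
      rw [hw]; group
    rw [h3, h1, h2, hw]
    have hcinv : ∀ x : Γ, x * c⁻¹ = c⁻¹ * x := fun x => by
      calc x * c⁻¹ = c⁻¹ * (c * x) * c⁻¹ := by group
        _ = c⁻¹ * (x * c) * c⁻¹ := by rw [hcc x]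
        _ = c⁻¹ * x := by group
    simp only [mul_inv_rev, inv_inv]
    calc c⁻¹ * R * (c⁻¹ * R) * c = c⁻¹ * (R * c⁻¹) * R * c := by group
      _ = c⁻¹ * (c⁻¹ * R) * R * c := by rw [hcinv R]
      _ = c⁻¹ * (c⁻¹ * R * (R * c)) := by group
      _ = c⁻¹ * (c⁻¹ * R * (c * R)) := by rw [hcc R]
      _ = c⁻¹ * (c⁻¹ * (R * c) * R) := by group
      _ = c⁻¹ * (c⁻¹ * (c * R) * R) := by rw [hcc R]
      _ = c⁻¹ * (R * R) := by group
  have h1 : S * w ^ j * S⁻¹ = (w ^ j)⁻¹ := by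
    rw [← conj_zpow, hSw, inv_zpow]
  have h2 : S * w ^ j * S⁻¹ = w ^ j := by
    rw [Subgroup.mem_center_iff.mp (hKc hk) S]; group
  rw [h2] at h1
  rw [pow_two]
  nth_rewrite 1 [h1]
  simp

/-- Existence part for trivial multiplier. -/
theorem exists_trivial_stem (G : Type u) [Group G] [Finite G] :
    ∃ (Γ : Type u) (_ : Group Γ) (_ : Finite Γ) (σ : Γ →* G), Cfsg.IsStemExtension σ ∧
      Nonempty (σ.ker ≃* Multiplicative (ZMod 1)) := by
  refine ⟨G, inferInstance, inferInstance, MonoidHom.id G, ?_, ?_⟩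
  · refine ⟨Function.surjective_id, ?_, ?_⟩
    · intro x hx
      have : x = 1 := by simpa using hx
      rw [this]; exact one_mem _
    · intro x hx
      have : x = 1 := by simpa using hx
      rw [this]; exact one_mem _
  · refine ⟨MulEquiv.ofBijective (1 : (MonoidHom.id G).ker →* Multiplicative (ZMod 1)) ?_⟩
    constructor
    · intro a b _
      ext
      have ha : (a : G) = 1 := by simpa using a.2
      have hb : (b : G) = 1 := by simpa using b.2
      rw [ha, hb]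
    · intro a
      refine ⟨1, ?_⟩
      exact Subsingleton.elim _ _

/-- A surjection from the trivial group onto a trivial kernel. -/
theorem surj_of_trivial (K : Subgroup Γ) (h : ∀ k ∈ K, k = 1) :
    ∃ π : Multiplicative (ZMod 1) →* K, Function.Surjective π :=
  ⟨1, fun k => ⟨1, Subtype.ext (h k k.2).symm⟩⟩

/-- A surjection from `ℤ/2` onto a subgroup of `{1, u}` with `u ^ 2 = 1`. -/
theorem surj_of_two (K : Subgroup Γ) (hK2 : ∀ k ∈ K, k ^ 2 = 1)
    (hK : ∀ k ∈ K, ∀ l ∈ K, k ≠ 1 → l ≠ 1 → k = l) :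
    ∃ π : Multiplicative (ZMod 2) →* K, Function.Surjective π := by
  classical
  by_cases h : ∀ k ∈ K, k = 1
  · exact ⟨1, fun k => ⟨1, Subtype.ext (h k k.2).symm⟩⟩
  · push_neg at h
    obtain ⟨k₀, hk₀, hk₀1⟩ := h
    have hsq : (⟨k₀, hk₀⟩ : K) * ⟨k₀, hk₀⟩ = 1 := by
      apply Subtype.ext
      have := hK2 k₀ hk₀
      rw [pow_two] at this
      exact this
    let f : Multiplicative (ZMod 2) → K := fun x => if Multiplicative.toAdd x = 0 then 1 else ⟨k₀, hk₀⟩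
    have hf : ∀ x y, f (x * y) = f x * f y := by
      intro x y
      have hx : ∀ z : ZMod 2, z = 0 ∨ z = 1 := by decide
      simp only [f, toAdd_mul]
      rcases hx (Multiplicative.toAdd x) with h1 | h1 <;> rcases hx (Multiplicative.toAdd y) with h2 | h2 <;>
        simp [h1, h2, hsq]
      intro hne
      exact absurd (by decide) hne
    refine ⟨MonoidHom.mk' f hf, ?_⟩
    intro k
    by_cases hk : (k : Γ) = 1
    · exact ⟨Multiplicative.ofAdd 0, by
        apply Subtype.ext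
        show ((f (Multiplicative.ofAdd 0) : K) : Γ) = k
        simp [f, hk]⟩
    · refine ⟨Multiplicative.ofAdd 1, ?_⟩
      apply Subtype.ext
      show ((f (Multiplicative.ofAdd 1) : K) : Γ) = k
      simp only [f, toAdd_ofAdd, one_ne_zero, if_false]
      exact hK k₀ hk₀ k k.2 hk₀1 hk

/-- Description of the kernel of a stem extension of a group with a rotation `ρ` and reflection `s`. -/
theorem kernel_description {G : Type*} [Group G] (ρ s : G) (h1 : s * ρ * s⁻¹ = ρ⁻¹)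
    (h2 : ∀ g : G, ∃ i : ℤ, g = ρ ^ i ∨ g = s * ρ ^ i) [Finite Γ] (σ : Γ →* G)
    (hσ : Cfsg.IsStemExtension σ) (R S : Γ) (hR : σ R = ρ) (hS : σ S = s) :
    let c := R * (S * R * S⁻¹)
    c ∈ σ.ker ∧ S * R * S⁻¹ = R⁻¹ * c ∧
      (∀ k ∈ σ.ker, k ^ 2 = 1) ∧
      ∀ k ∈ σ.ker, ∃ j : ℤ, k = (R⁻¹ * R⁻¹ * c) ^ j ∧ (orderOf ρ : ℤ) ∣ 2 * j := by
  intro c
  obtain ⟨-, hKc, hKd⟩ := hσ
  have hc : c ∈ σ.ker := by
    rw [MonoidHom.mem_ker]
    simp only [c, map_mul, map_inv, hR, hS, h1]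
    simp
  have hSR : S * R * S⁻¹ = R⁻¹ * c := by
    simp only [c]; group
  have hgen : ∀ g : Γ, ∃ (i : ℤ), ∃ k ∈ σ.ker, g = R ^ i * k ∨ g = S * R ^ i * k := by
    intro g
    obtain ⟨i, hi | hi⟩ := h2 (σ g)
    · refine ⟨i, (R ^ i)⁻¹ * g, ?_, Or.inl (by group)⟩
      rw [MonoidHom.mem_ker, map_mul, map_inv, map_zpow, hR, hi]; simp
    · refine ⟨i, (S * R ^ i)⁻¹ * g, ?_, Or.inr (by group)⟩
      rw [MonoidHom.mem_ker, map_mul, map_inv, map_mul, map_zpow, hR, hS, hi]; simp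
  refine ⟨hc, hSR, sq_eq_one_of_mem σ.ker hKc hKd R S c hc hSR hgen, ?_⟩
  intro k hk
  obtain ⟨j, rfl⟩ := Subgroup.mem_zpowers_iff.mp (mem_zpowers_of_mem σ.ker hKc hKd R S c hc hSR hgen k hk)
  refine ⟨j, rfl, ?_⟩
  have h3 : σ ((R⁻¹ * R⁻¹ * c) ^ j) = 1 := hk
  have hcc : σ c = 1 := hc
  rw [map_zpow, map_mul, map_mul, map_inv, hR, hcc, mul_one] at h3
  have h4 : ρ ^ (2 * j) = 1 := by
    have h5 : (ρ⁻¹ * ρ⁻¹) ^ j = (ρ ^ (2 * j))⁻¹ := by
      rw [zpow_mul, ← inv_zpow]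
      congr 1
      rw [zpow_two]
      group
    rw [h5] at h3
    exact inv_eq_one.mp h3
  exact orderOf_dvd_iff_zpow_eq_one.mpr h4

end Cfsg.Agent.Lib.StemDihedral
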