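import Cfsg.Agent.Lib.StrongEmb

set_option autoImplicit false

/-! Bender's setting with centralizers of involutions elementary abelian. -/

namespace Cfsg.Agent.Lib.StrongEmb

open Cfsg.Agent.Lib.Invol

section zass

variable {G Ω : Type*} [Group G] [MulAction G Ω]

structure ZAct (G Ω : Type*) [Group G] [MulAction G Ω] : Prop extends FixOne G Ω where
  comm : ∀ (x : Ω) (s t : G), orderOf s = 2 → orderOf t = 2 → s • x = x → t • x = x → s * t = t * s
  cent : ∀ t : G, orderOf t = 2 → ∀ c : G, c * t = t * c → c ^ 2 = 1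
  two : ∀ x : Ω, ∃ s t : G, s ≠ t ∧ orderOf s = 2 ∧ orderOf t = 2 ∧ s • x = x ∧ t • x = x

variable (G) in
/-- The two point stabilizer. -/
def DD (x y : Ω) : Subgroup G := MulAction.stabilizer G x ⊓ MulAction.stabilizer G y

theorem mem_DD {g : G} {x y : Ω} : g ∈ DD G x y ↔ g • x = x ∧ g • y = y := by
  simp [DD, Subgroup.mem_inf, MulAction.mem_stabilizer_iff]

variable (h : ZAct G Ω)
include h

theorem ZAct.ex_inv (x : Ω) : ∃ u : G, orderOf u = 2 ∧ u • x = x := by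
  obtain ⟨s, _, _, hs, _, hsx, _⟩ := h.two x
  exact ⟨s, hs, hsx⟩

theorem ZAct.ex_swap [Finite G] {x y : Ω} (hxy : x ≠ y) : ∃ i : G, orderOf i = 2 ∧ i • x = y := by
  obtain ⟨u, hu, hux⟩ := h.ex_inv x
  obtain ⟨v, hv, hvy⟩ := h.ex_inv y
  obtain ⟨i, hi, _, hix⟩ := h.exists_swap hu hv hux hvy hxy
  exact ⟨i, hi, hix⟩

theorem ZAct.eq_one_of_sq {x y : Ω} (hxy : x ≠ y) {d : G} (hd : d ∈ DD G x y) (h2 : d ^ 2 = 1) : d = 1 := by
  by_contra hne
  have := mem_DD.mp hd
  exact hxy (h.fix_unique d x y (orderOf_two_of h2 hne) this.1 this.2)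

theorem ZAct.trans [Finite G] {x y : Ω} (hxy : x ≠ y) {s t : G} (hs : orderOf s = 2) (ht : orderOf t = 2)
    (hsx : s • x = x) (htx : t • x = x) : ∃ d ∈ DD G x y, d * s * d⁻¹ = t := by
  obtain ⟨i, hi, hix⟩ := h.ex_swap hxy
  have hiy := swap_of hi hix
  have ht' : orderOf (i * t * i⁻¹) = 2 := by rw [orderOf_conj']; exact ht
  have hty : (i * t * i⁻¹) • y = y := by
    rw [← hix, mul_smul, mul_smul, inv_smul_smul, htx]
  obtain ⟨k, hk, hc, hkx⟩ := h.exists_swap hs ht' hsx hty hxy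
  have hky := swap_of hk hkx
  refine ⟨i * k, mem_DD.mpr ⟨?_, ?_⟩, ?_⟩
  · rw [mul_smul, hkx, hiy]
  · rw [mul_smul, hky, hix]
  · calc i * k * s * (i * k)⁻¹ = i * (k * s * k⁻¹) * i⁻¹ := by group
      _ = i * (i * t * i⁻¹) * i⁻¹ := by rw [hc]
      _ = (i * i) * t * (i * i)⁻¹ := by group
      _ = t := by rw [mul_self_eq_one hi]; simp

theorem ZAct.reg {x y : Ω} (hxy : x ≠ y) {d t : G} (hd : d ∈ DD G x y) (ht : orderOf t = 2)
    (hc : d * t = t * d) : d = 1 :=
  h.eq_one_of_sq hxy hd (h.cent t ht d hc)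

theorem ZAct.card_DD [Finite G] {x y : Ω} (hxy : x ≠ y) :
    Nat.card (DD G x y) = Nat.card {t : G // orderOf t = 2 ∧ t • x = x} := by
  obtain ⟨s, hs, hsx⟩ := h.ex_inv x
  let f : DD G x y → {t : G // orderOf t = 2 ∧ t • x = x} := fun d =>
    ⟨d.1 * s * d.1⁻¹, by
      have hdx := (mem_DD.mp d.2).1
      refine ⟨by rw [orderOf_conj']; exact hs, ?_⟩
      have h2 : d.1⁻¹ • x = x := by rw [inv_smul_eq_iff]; exact hdx.symm
      rw [mul_smul, mul_smul, h2, hsx, hdx]⟩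
  apply Nat.card_congr
  refine Equiv.ofBijective f ⟨?_, ?_⟩
  · intro a b hab
    have h1 : a.1 * s * a.1⁻¹ = b.1 * s * b.1⁻¹ := congrArg Subtype.val hab
    have h2 : (b⁻¹ * a : DD G x y).1 = 1 := by
      apply h.reg hxy (b⁻¹ * a : DD G x y).2 hs
      show b.1⁻¹ * a.1 * s = s * (b.1⁻¹ * a.1)
      calc b.1⁻¹ * a.1 * s = b.1⁻¹ * (a.1 * s * a.1⁻¹) * a.1 := by group
        _ = b.1⁻¹ * (b.1 * s * b.1⁻¹) * a.1 := by rw [h1]
        _ = s * (b.1⁻¹ * a.1) := by group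
    have h3 : b⁻¹ * a = 1 := Subtype.ext h2
    exact (inv_mul_eq_one.mp h3).symm
  · rintro ⟨t, ht, htx⟩
    obtain ⟨d, hd, hc⟩ := h.trans hxy hs ht hsx htx
    exact ⟨⟨d, hd⟩, Subtype.ext hc⟩

theorem ZAct.inverts [Finite G] [Finite Ω] [MulAction.IsPretransitive G Ω] {x y : Ω} (hxy : x ≠ y)
    {i : G} (hi : orderOf i = 2) (hix : i • x = y) {d : G} (hd : d ∈ DD G x y) : i * d * i⁻¹ = d⁻¹ := by
  have hiy := swap_of hi hix
  let f : {k : G // orderOf k = 2 ∧ k • x = y} → DD G x y := fun k =>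
    ⟨i * k.1, mem_DD.mpr ⟨by rw [mul_smul, k.2.2, hiy], by rw [mul_smul, swap_of k.2.1 k.2.2, hix]⟩⟩
  have hf : Function.Injective f := fun a b hab =>
    Subtype.ext (mul_left_cancel (congrArg Subtype.val hab))
  have hcard : Nat.card (DD G x y) ≤ Nat.card {k : G // orderOf k = 2 ∧ k • x = y} := by
    rw [h.card_DD hxy, h.toFixOne.card_J hxy ⟨i, hi⟩, card_I_eq x y]
  obtain ⟨k, hk⟩ := (hf.bijective_of_nat_card_le hcard).2 ⟨d, hd⟩
  have hd' : d = i * k.1 := (congrArg Subtype.val hk).symm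
  rw [hd', ← mul_assoc, mul_self_eq_one hi, one_mul, mul_inv_rev, inv_eq_self k.2.1]

theorem ZAct.DD_comm [Finite G] [Finite Ω] [MulAction.IsPretransitive G Ω] {x y : Ω} (hxy : x ≠ y)
    {a b : G} (ha : a ∈ DD G x y) (hb : b ∈ DD G x y) : a * b = b * a := by
  obtain ⟨i, hi, hix⟩ := h.ex_swap hxy
  have h1 := h.inverts hxy hi hix ((DD G x y).mul_mem ha hb)
  have h2 := h.inverts hxy hi hix ha
  have h3 := h.inverts hxy hi hix hb
  have h4 : i * (a * b) * i⁻¹ = (i * a * i⁻¹) * (i * b * i⁻¹) := by group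
  rw [h4, h2, h3, mul_inv_rev] at h1
  have h5 : (a⁻¹ * b⁻¹)⁻¹ = (b⁻¹ * a⁻¹)⁻¹ := by rw [h1]
  have h6 : b * a = a * b := by simpa using h5
  exact h6.symm

theorem ZAct.ne_bot [Finite G] {x y : Ω} (hxy : x ≠ y) : ∃ e ∈ DD G x y, e ≠ 1 := by
  obtain ⟨s, t, hst, hs, ht, hsx, htx⟩ := h.two x
  obtain ⟨d, hd, hc⟩ := h.trans hxy hs ht hsx htx
  refine ⟨d, hd, ?_⟩
  rintro rfl
  apply hst
  simpa using hc

theorem ZAct.norm [Finite G] {x y : Ω} (hxy : x ≠ y) {g : G} (hgx : g • x = x)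
    (hg : ∀ d ∈ DD G x y, g * d * g⁻¹ ∈ DD G x y) : g ∈ DD G x y := by
  obtain ⟨s, hs, hsx⟩ := h.ex_inv x
  have hs' : orderOf (g * s * g⁻¹) = 2 := by rw [orderOf_conj']; exact hs
  have hginv : g⁻¹ • x = x := by rw [inv_smul_eq_iff]; exact hgx.symm
  have hsx' : (g * s * g⁻¹) • x = x := by rw [mul_smul, mul_smul, hginv, hsx, hgx]
  obtain ⟨d, hd, hc⟩ := h.trans hxy hs hs' hsx hsx'
  have hdx := (mem_DD.mp hd).1
  have hdinv : d⁻¹ • x = x := by rw [inv_smul_eq_iff]; exact hdx.symm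
  set c := d⁻¹ * g with hcdef
  have hcs : c * s = s * c := by
    calc c * s = d⁻¹ * (g * s * g⁻¹) * g := by rw [hcdef]; group
      _ = d⁻¹ * (d * s * d⁻¹) * g := by rw [hc]
      _ = s * c := by rw [hcdef]; group
  have hc2 : c ^ 2 = 1 := h.cent s hs c hcs
  have hcx : c • x = x := by rw [hcdef, mul_smul, hgx, hdinv]
  have hcn : ∀ e ∈ DD G x y, c * e * c⁻¹ ∈ DD G x y := by
    intro e he
    have h1 : c * e * c⁻¹ = d⁻¹ * (g * e * g⁻¹) * d := by rw [hcdef]; group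
    rw [h1]
    have h2 := (DD G x y).mul_mem ((DD G x y).mul_mem ((DD G x y).inv_mem hd) (hg e he)) hd
    exact h2
  by_cases hc1 : c = 1
  · have : g = d := by
      rw [hcdef, inv_mul_eq_one] at hc1
      exact hc1.symm
    rw [this]; exact hd
  · exfalso
    have hco : orderOf c = 2 := orderOf_two_of hc2 hc1
    obtain ⟨e, he, he1⟩ := h.ne_bot hxy
    have hex := (mem_DD.mp he).1
    have heinv : e⁻¹ • x = x := by rw [inv_smul_eq_iff]; exact hex.symm
    have hcinv : c⁻¹ = c := inv_eq_self hco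
    set f := c * e * c⁻¹ * e⁻¹ with hfdef
    have hfD : f ∈ DD G x y := (DD G x y).mul_mem (hcn e he) ((DD G x y).inv_mem he)
    have hce : orderOf (e * c * e⁻¹) = 2 := by rw [orderOf_conj']; exact hco
    have hcex : (e * c * e⁻¹) • x = x := by rw [mul_smul, mul_smul, heinv, hcx, hex]
    have hcomm := h.comm x c (e * c * e⁻¹) hco hce hcx hcex
    have hf2 : f ^ 2 = 1 := by
      have h1 : f = c * (e * c * e⁻¹) := by
        rw [hfdef, hcinv]
        group
      rw [h1, (show Commute c (e * c * e⁻¹) from hcomm).mul_pow, sq_eq_one hco, sq_eq_one hce, one_mul]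
    have hf1 : f = 1 := h.eq_one_of_sq hxy hfD hf2
    have hec : e * c = c * e := by
      rw [hfdef, mul_inv_eq_one, mul_inv_eq_iff_eq_mul] at hf1
      exact hf1.symm
    exact he1 (h.reg hxy he hco hec)

theorem ZAct.DD_le_of_fix {x y z : Ω} (hz : ∀ d ∈ DD G x y, d • z = z) : DD G x y ≤ DD G x z := by
  intro d hd
  exact mem_DD.mpr ⟨(mem_DD.mp hd).1, hz d hd⟩

theorem ZAct.DD_eq [Finite G] [Finite Ω] [MulAction.IsPretransitive G Ω] {x y z w : Ω} (hxy : x ≠ y) (hzw : z ≠ w)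
    (hle : DD G x y ≤ DD G z w) : DD G x y = DD G z w := by
  apply Subgroup.eq_of_le_of_card_ge hle
  rw [h.card_DD hxy, h.card_DD hzw, card_I_eq x z]

theorem ZAct.fixD [Finite G] [Finite Ω] [MulAction.IsPretransitive G Ω] {x y z : Ω} (hxy : x ≠ y)
    (hz : ∀ d ∈ DD G x y, d • z = z) : z = x ∨ z = y := by
  by_contra hcon
  push Not at hcon
  obtain ⟨hzx, hzy⟩ := hcon
  have h1 : DD G x y = DD G x z := h.DD_eq hxy hzx.symm (by
    intro d hd
    exact mem_DD.mpr ⟨(mem_DD.mp hd).1, hz d hd⟩)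
  have h2 : DD G x y = DD G z y := h.DD_eq hxy hzy (by
    intro d hd
    exact mem_DD.mpr ⟨hz d hd, (mem_DD.mp hd).2⟩)
  obtain ⟨u, hu, hux⟩ := h.ex_swap hxy
  obtain ⟨k, hk, hkx⟩ := h.ex_swap hzx.symm
  obtain ⟨l, hl, hlz⟩ := h.ex_swap hzy
  set g := l * (u * k) with hg
  have huy := swap_of hu hux
  have hkz := swap_of hk hkx
  have hly := swap_of hl hlz
  have hgz : g • z = z := by
    rw [hg, mul_smul, mul_smul, hkz, hux, hly]
  have hgd : ∀ d ∈ DD G x y, g * d * g⁻¹ = d⁻¹ := by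
    intro d hd
    have h3 := h.inverts hzx.symm hk hkx (h1 ▸ hd)
    have h4 := h.inverts hxy hu hux ((DD G x y).inv_mem hd)
    have h5 := h.inverts hzy hl hlz (h2 ▸ hd)
    calc g * d * g⁻¹ = l * (u * (k * d * k⁻¹) * u⁻¹) * l⁻¹ := by rw [hg]; group
      _ = l * (u * d⁻¹ * u⁻¹) * l⁻¹ := by rw [h3]
      _ = l * d * l⁻¹ := by rw [h4, inv_inv]
      _ = d⁻¹ := h5
  have hgD : g ∈ DD G z y := by
    apply h.norm hzy hgz
    intro d hd
    rw [← h2] at hd ⊢
    rw [hgd d hd]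
    exact (DD G x y).inv_mem hd
  rw [← h2] at hgD
  obtain ⟨e, he, he1⟩ := h.ne_bot hxy
  apply he1
  apply h.eq_one_of_sq hxy he
  have h3 := hgd e he
  have h4 := h.DD_comm hxy hgD he
  rw [h4, mul_assoc, mul_inv_cancel, mul_one] at h3
  rw [sq]
  nth_rewrite 1 [h3]
  simp

theorem ZAct.mem_of_comm [Finite G] [Finite Ω] [MulAction.IsPretransitive G Ω] {x y : Ω} (hxy : x ≠ y)
    {g c : G} (hg : g ∈ DD G x y) (hg1 : g ≠ 1) (hcx : c • x = x) (hc : c * g = g * c) : c ∈ DD G x y := by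
  obtain ⟨s, hs, hsx⟩ := h.ex_inv x
  have hs' : orderOf (c * s * c⁻¹) = 2 := by rw [orderOf_conj']; exact hs
  have hcinv : c⁻¹ • x = x := by rw [inv_smul_eq_iff]; exact hcx.symm
  have hsx' : (c * s * c⁻¹) • x = x := by rw [mul_smul, mul_smul, hcinv, hsx, hcx]
  obtain ⟨d, hd, hdc⟩ := h.trans hxy hs hs' hsx hsx'
  have hdx := (mem_DD.mp hd).1
  have hdinv : d⁻¹ • x = x := by rw [inv_smul_eq_iff]; exact hdx.symm
  set t := d⁻¹ * c with ht
  have hts : t * s = s * t := by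
    calc t * s = d⁻¹ * (c * s * c⁻¹) * c := by rw [ht]; group
      _ = d⁻¹ * (d * s * d⁻¹) * c := by rw [hdc]
      _ = s * t := by rw [ht]; group
  have ht2 : t ^ 2 = 1 := h.cent s hs t hts
  have htx : t • x = x := by rw [ht, mul_smul, hcx, hdinv]
  have hdg : d * g = g * d := h.DD_comm hxy hd hg
  have htg : g * t = t * g := by
    rw [ht]
    calc g * (d⁻¹ * c) = d⁻¹ * (d * g * d⁻¹) * c := by group
      _ = d⁻¹ * (g * d * d⁻¹) * c := by rw [hdg]
      _ = d⁻¹ * (g * c) := by group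
      _ = d⁻¹ * (c * g) := by rw [hc]
      _ = d⁻¹ * c * g := by group
  by_cases ht1 : t = 1
  · have : c = d := by
      rw [ht, inv_mul_eq_one] at ht1
      exact ht1.symm
    rw [this]; exact hd
  · exact absurd (h.reg hxy hg (orderOf_two_of ht2 ht1) htg) hg1

theorem ZAct.DD_eq_of_common [Finite G] [Finite Ω] [MulAction.IsPretransitive G Ω] {x y z : Ω} (hxy : x ≠ y)
    (hxz : x ≠ z) {g : G} (hg : g ∈ DD G x y) (hgz : g ∈ DD G x z) (hg1 : g ≠ 1) : DD G x y = DD G x z := by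
  symm
  apply h.DD_eq hxz hxy
  intro e he
  exact h.mem_of_comm hxy hg hg1 (mem_DD.mp he).1 (h.DD_comm hxz he hgz)

theorem ZAct.triple [Finite G] [Finite Ω] [MulAction.IsPretransitive G Ω] {x y z : Ω} (hxy : x ≠ y)
    (hxz : x ≠ z) (hyz : y ≠ z) {g : G} (hgx : g • x = x) (hgy : g • y = y) (hgz : g • z = z) : g = 1 := by
  by_contra hg1
  have h1 := h.DD_eq_of_common hxy hxz (mem_DD.mpr ⟨hgx, hgy⟩) (mem_DD.mpr ⟨hgx, hgz⟩) hg1
  have h2 := h.fixD hxy (z := z) (by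
    intro d hd
    rw [h1] at hd
    exact (mem_DD.mp hd).2)
  rcases h2 with h2 | h2
  · exact hxz h2.symm
  · exact hyz h2.symm

theorem ZAct.comm' {x : Ω} {s t : G} (hs : s ^ 2 = 1) (ht : t ^ 2 = 1) (hsx : s • x = x) (htx : t • x = x) :
    s * t = t * s := by
  by_cases hs1 : s = 1
  · simp [hs1]
  by_cases ht1 : t = 1
  · simp [ht1]
  exact h.comm x s t (orderOf_two_of hs hs1) (orderOf_two_of ht ht1) hsx htx

variable (G) in
/-- The 'Sylow subgroup' at a point. -/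
def TT (h : ZAct G Ω) (x : Ω) : Subgroup G where
  carrier := {t | t ^ 2 = 1 ∧ t • x = x}
  one_mem' := by simp
  mul_mem' := by
    rintro s t ⟨hs, hsx⟩ ⟨ht, htx⟩
    refine ⟨?_, by rw [mul_smul, htx, hsx]⟩
    rw [(show Commute s t from h.comm' hs ht hsx htx).mul_pow, hs, ht, one_mul]
  inv_mem' := by
    rintro s ⟨hs, hsx⟩
    refine ⟨by rw [inv_pow, hs, inv_one], ?_⟩
    rw [inv_smul_eq_iff]; exact hsx.symm

theorem mem_TT {x : Ω} {t : G} : t ∈ TT G h x ↔ t ^ 2 = 1 ∧ t • x = x := Iff.rfl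

theorem ZAct.exists_conj_in [Finite G] [Finite Ω] [MulAction.IsPretransitive G Ω] {x y z : Ω} (hxy : x ≠ y)
    (hxz : x ≠ z) (hyz : y ≠ z) : ∃ a ∈ TT G h x, a • z = y := by
  obtain ⟨e, he, he1⟩ := h.ne_bot hxz
  have hex := (mem_DD.mp he).1
  obtain ⟨s, hs, hsx⟩ := h.ex_inv x
  have hs' : orderOf (e * s * e⁻¹) = 2 := by rw [orderOf_conj']; exact hs
  have heinv : e⁻¹ • x = x := by rw [inv_smul_eq_iff]; exact hex.symm
  have hsx' : (e * s * e⁻¹) • x = x := by rw [mul_smul, mul_smul, heinv, hsx, hex]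
  obtain ⟨d, hd, hdc⟩ := h.trans hxy hs hs' hsx hsx'
  have hdx := (mem_DD.mp hd).1
  have hdinv : d⁻¹ • x = x := by rw [inv_smul_eq_iff]; exact hdx.symm
  set t := d⁻¹ * e with ht
  have hts : t * s = s * t := by
    calc t * s = d⁻¹ * (e * s * e⁻¹) * e := by rw [ht]; group
      _ = d⁻¹ * (d * s * d⁻¹) * e := by rw [hdc]
      _ = s * t := by rw [ht]; group
  have ht2 : t ^ 2 = 1 := h.cent s hs t hts
  have htx : t • x = x := by rw [ht, mul_smul, hex, hdinv]
  have htT : t ∈ TT G h x := ⟨ht2, htx⟩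
  have hd1 : d ≠ 1 := by
    rintro rfl
    apply he1
    have hte : t = e := by rw [ht]; simp
    apply h.eq_one_of_sq hxz he
    rw [← hte]; exact ht2
  -- the map φ
  have hdnorm : ∀ a ∈ TT G h x, d * a⁻¹ * d⁻¹ ∈ TT G h x := by
    rintro a ⟨ha, hax⟩
    refine ⟨?_, ?_⟩
    · rw [conj_pow, inv_pow, ha, inv_one]
      simp
    · have h1 : a⁻¹ • x = x := by rw [inv_smul_eq_iff]; exact hax.symm
      rw [mul_smul, mul_smul, hdinv, h1, hdx]
  let φ : TT G h x → TT G h x := fun a =>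
    ⟨a.1 * (d * a.1⁻¹ * d⁻¹), (TT G h x).mul_mem a.2 (hdnorm a.1 a.2)⟩
  have hφ : Function.Injective φ := by
    intro a b hab
    have h1 : a.1 * (d * a.1⁻¹ * d⁻¹) = b.1 * (d * b.1⁻¹ * d⁻¹) := congrArg Subtype.val hab
    have hcomm : ∀ p ∈ TT G h x, ∀ q ∈ TT G h x, p * q = q * p := by
      rintro p ⟨hp, hpx⟩ q ⟨hq, hqx⟩
      exact h.comm' hp hq hpx hqx
    set c := b.1⁻¹ * a.1 with hc
    have hcT : c ∈ TT G h x := (TT G h x).mul_mem ((TT G h x).inv_mem b.2) a.2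
    have hcd : c = d * c * d⁻¹ := by
      have h2 : b.1⁻¹ * (a.1 * (d * a.1⁻¹ * d⁻¹)) * (d * a.1 * d⁻¹) = b.1⁻¹ * (b.1 * (d * b.1⁻¹ * d⁻¹)) * (d * a.1 * d⁻¹) := by
        rw [h1]
      have h3 : b.1⁻¹ * (a.1 * (d * a.1⁻¹ * d⁻¹)) * (d * a.1 * d⁻¹) = c := by rw [hc]; group
      have h4 : b.1⁻¹ * (b.1 * (d * b.1⁻¹ * d⁻¹)) * (d * a.1 * d⁻¹) = d * c * d⁻¹ := by rw [hc]; group
      rw [h3, h4] at h2
      exact h2
    by_cases hc1 : c = 1
    · rw [hc, inv_mul_eq_one] at hc1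
      exact (Subtype.ext hc1).symm
    · exfalso
      have hdc' : d * c = c * d := by
        nth_rewrite 2 [hcd]
        group
      exact hd1 (h.reg hxy hd (orderOf_two_of hcT.1 hc1) hdc')
  have hφs := (Finite.injective_iff_surjective.mp hφ)
  have hts' : d * t * d⁻¹ ∈ TT G h x := by
    have := hdnorm t⁻¹ ((TT G h x).inv_mem htT)
    simpa using this
  obtain ⟨a, ha⟩ := hφs ⟨d * t * d⁻¹, hts'⟩
  have ha' : a.1 * (d * a.1⁻¹ * d⁻¹) = d * t * d⁻¹ := congrArg Subtype.val ha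
  have hat : a.1 * t = t * a.1 := h.comm' a.2.1 ht2 a.2.2 htx
  have hconj : a.1 * e * a.1⁻¹ = d := by
    have h1 : e = d * t := by rw [ht]; group
    calc a.1 * e * a.1⁻¹ = a.1 * d * t * a.1⁻¹ := by rw [h1]; group
      _ = a.1 * d * (t * a.1⁻¹) := by group
      _ = a.1 * d * (a.1⁻¹ * t) := by
          congr 1
          rw [eq_inv_mul_iff_mul_eq, ← mul_assoc, hat, mul_assoc, mul_inv_cancel, mul_one]
      _ = (a.1 * (d * a.1⁻¹ * d⁻¹)) * d * t := by group
      _ = d * t * d⁻¹ * d * t := by rw [ha']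
      _ = d * (t * t) := by group
      _ = d := by rw [← sq, ht2, mul_one]
  have hax := a.2.2
  have hainv : a.1⁻¹ • x = x := by rw [inv_smul_eq_iff]; exact hax.symm
  have haz : a.1 • z ≠ x := by
    intro hc
    have h3 : a.1 • z = a.1 • x := hc.trans hax.symm
    exact hxz (MulAction.injective a.1 h3).symm
  have hdaz : d ∈ DD G x (a.1 • z) := by
    refine mem_DD.mpr ⟨hdx, ?_⟩
    rw [← hconj, mul_smul, mul_smul, inv_smul_smul, (mem_DD.mp he).2]
  have h1 := h.DD_eq_of_common hxy haz.symm hd hdaz hd1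
  have h2 := h.fixD hxy (z := a.1 • z) (by
    intro f hf
    rw [h1] at hf
    exact (mem_DD.mp hf).2)
  rcases h2 with h2 | h2
  · exact absurd h2 haz
  · exact ⟨a.1, a.2, h2⟩

theorem ZAct.T_regular_exists [Finite G] [Finite Ω] [MulAction.IsPretransitive G Ω] {x y z : Ω} (hxy : x ≠ y)
    (hxz : x ≠ z) : ∃ a ∈ TT G h x, a • y = z := by
  by_cases hyz : y = z
  · exact ⟨1, (TT G h x).one_mem, by simp [hyz]⟩
  · obtain ⟨a, ha, hay⟩ := h.exists_conj_in hxz hxy (Ne.symm hyz)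
    exact ⟨a, ha, hay⟩

theorem ZAct.T_regular_unique {x y : Ω} (hxy : x ≠ y) {a b : G} (ha : a ∈ TT G h x) (hb : b ∈ TT G h x)
    (hab : a • y = b • y) : a = b := by
  have h1 : b⁻¹ * a ∈ TT G h x := (TT G h x).mul_mem ((TT G h x).inv_mem hb) ha
  have h2 : (b⁻¹ * a) • y = y := by rw [mul_smul, hab, inv_smul_smul]
  have h3 : b⁻¹ * a = 1 := by
    by_contra hne
    exact hxy (h.fix_unique _ x y (orderOf_two_of h1.1 hne) h1.2 h2)
  exact (inv_mul_eq_one.mp h3).symm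

theorem ZAct.card_T [Finite G] (x : Ω) :
    Nat.card (TT G h x) = Nat.card {t : G // orderOf t = 2 ∧ t • x = x} + 1 := by
  classical
  have e : TT G h x ≃ Option {t : G // orderOf t = 2 ∧ t • x = x} :=
    { toFun := fun t => if ht : t.1 = 1 then none else some ⟨t.1, orderOf_two_of t.2.1 ht, t.2.2⟩
      invFun := fun o => match o with
        | none => 1
        | some t => ⟨t.1, sq_eq_one t.2.1, t.2.2⟩
      left_inv := by
        intro t
        by_cases ht : t.1 = 1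
        · simp only [ht, dite_true]
          exact (Subtype.ext ht).symm
        · simp [ht]
      right_inv := by
        intro o
        cases o with
        | none => simp
        | some t =>
          have : t.1 ≠ 1 := ne_one_of_two t.2.1
          simp [this] }
  rw [Nat.card_congr e]
  haveI : Finite {t : G // orderOf t = 2 ∧ t • x = x} := inferInstance
  rw [Finite.card_option]

theorem ZAct.card_space [Finite G] [Finite Ω] [MulAction.IsPretransitive G Ω] {x y : Ω} (hxy : x ≠ y) :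
    Nat.card {z : Ω // z ≠ x} = Nat.card (TT G h x) := by
  symm
  apply Nat.card_congr
  refine Equiv.ofBijective (fun a : TT G h x => (⟨a.1 • y, ?_⟩ : {z : Ω // z ≠ x})) ⟨?_, ?_⟩
  · intro hc
    have h1 : a.1 • y = a.1 • x := hc.trans a.2.2.symm
    exact hxy (MulAction.injective a.1 h1).symm
  · intro a b hab
    exact Subtype.ext (h.T_regular_unique hxy a.2 b.2 (congrArg Subtype.val hab))
  · rintro ⟨z, hz⟩
    obtain ⟨a, ha, hay⟩ := h.T_regular_exists hxy (Ne.symm hz)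
    exact ⟨⟨a, ha⟩, Subtype.ext hay⟩

theorem ZAct.D_trans [Finite G] [Finite Ω] [MulAction.IsPretransitive G Ω] {x y z w : Ω} (hxy : x ≠ y)
    (hzx : z ≠ x) (hzy : z ≠ y) (hwx : w ≠ x) (hwy : w ≠ y) : ∃ d ∈ DD G x y, d • z = w := by
  classical
  let f : DD G x y → {v : Ω // v ≠ x ∧ v ≠ y} := fun d => ⟨d.1 • z, by
    have hd := mem_DD.mp d.2
    constructor
    · intro hc
      have h1 : d.1 • z = d.1 • x := hc.trans hd.1.symm
      exact hzx (MulAction.injective d.1 h1)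
    · intro hc
      have h1 : d.1 • z = d.1 • y := hc.trans hd.2.symm
      exact hzy (MulAction.injective d.1 h1)⟩
  have hf : Function.Injective f := by
    intro a b hab
    have h1 : a.1 • z = b.1 • z := congrArg Subtype.val hab
    have h2 : (b⁻¹ * a : DD G x y).1 • z = z := by
      show (b.1⁻¹ * a.1) • z = z
      rw [mul_smul, h1, inv_smul_smul]
    have h3 := mem_DD.mp (b⁻¹ * a : DD G x y).2
    have h4 : (b⁻¹ * a : DD G x y).1 = 1 := h.triple hxy hzx.symm hzy.symm h3.1 h3.2 h2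
    have h5 : b⁻¹ * a = 1 := Subtype.ext h4
    exact (inv_mul_eq_one.mp h5).symm
  have hcard : Nat.card {v : Ω // v ≠ x ∧ v ≠ y} ≤ Nat.card (DD G x y) := by
    rw [h.card_DD hxy]
    have h1 := h.card_space hxy
    rw [h.card_T x] at h1
    have h2 : Nat.card {v : Ω // v ≠ x ∧ v ≠ y} + 1 = Nat.card {z : Ω // z ≠ x} := by
      have e : {z : Ω // z ≠ x} ≃ Option {v : Ω // v ≠ x ∧ v ≠ y} :=
        { toFun := fun t => if ht : t.1 = y then none else some ⟨t.1, t.2, ht⟩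
          invFun := fun o => match o with
            | none => ⟨y, hxy.symm⟩
            | some t => ⟨t.1, t.2.1⟩
          left_inv := by
            intro t
            by_cases ht : t.1 = y
            · simp only [ht, dite_true]
              exact (Subtype.ext ht).symm
            · simp [ht]
          right_inv := by
            intro o
            cases o with
            | none => simp
            | some t =>
              have : t.1 ≠ y := t.2.2
              simp [this] }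
      rw [Nat.card_congr e, Finite.card_option]
    omega
  obtain ⟨d, hd⟩ := (hf.bijective_of_nat_card_le hcard).2 ⟨w, hwx, hwy⟩
  exact ⟨d.1, d.2, congrArg Subtype.val hd⟩

end zass

end Cfsg.Agent.Lib.StrongEmb
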