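import Cfsg.Agent.Lib.StrongEmb2
import Cfsg.Agent.S1226

set_option autoImplicit false

/-! The concrete setting: `T` Sylow, centralizers of involutions elementary abelian. -/

namespace Cfsg.Agent.Lib.StrongEmb

open Cfsg.Agent.Lib.Invol

section general
variable {G Ω : Type*} [Group G] [MulAction G Ω] (h : ZAct G Ω)
include h

theorem ZAct.exists_decomp [Finite G] {x y : Ω} (hxy : x ≠ y) {g : G} (hgx : g • x = x) :
    ∃ d ∈ DD G x y, ∃ t ∈ TT G h x, g = d * t := by
  obtain ⟨s, hs, hsx⟩ := h.ex_inv x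
  have hs' : orderOf (g * s * g⁻¹) = 2 := by rw [orderOf_conj']; exact hs
  have hcinv : g⁻¹ • x = x := by rw [inv_smul_eq_iff]; exact hgx.symm
  have hsx' : (g * s * g⁻¹) • x = x := by rw [mul_smul, mul_smul, hcinv, hsx, hgx]
  obtain ⟨d, hd, hdc⟩ := h.trans hxy hs hs' hsx hsx'
  have hdx := (mem_DD.mp hd).1
  have hdinv : d⁻¹ • x = x := by rw [inv_smul_eq_iff]; exact hdx.symm
  set t := d⁻¹ * g with ht
  have hts : t * s = s * t := by
    calc t * s = d⁻¹ * (g * s * g⁻¹) * g := by rw [ht]; group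
      _ = d⁻¹ * (d * s * d⁻¹) * g := by rw [hdc]
      _ = s * t := by rw [ht]; group
  have ht2 : t ^ 2 = 1 := h.cent s hs t hts
  have htx : t • x = x := by rw [ht, mul_smul, hgx, hdinv]
  exact ⟨d, hd, t, ⟨ht2, htx⟩, by rw [ht]; group⟩

end general

theorem inf_map_conj_eq {G : Type*} [Group G] [Finite G] {H : Subgroup G} (u : G) :
    H ⊓ H.map (MulAut.conj u).toMonoidHom =
      DD G (QuotientGroup.mk 1 : G ⧸ H) (QuotientGroup.mk u : G ⧸ H) := by
  ext g
  rw [Subgroup.mem_inf, mem_DD, mem_map_conj_iff, smul_mk_eq_iff, smul_mk_eq_iff]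
  simp

section concrete

variable {G : Type*} [Group G] [Finite G] (T : Sylow 2 G)

theorem sylow_facts (hnc : ¬ IsCyclic (T : Subgroup G))
    (hC : ∀ t : G, orderOf t = 2 → IsMulCommutative (Subgroup.centralizer ({t} : Set G)) ∧
      ∀ c ∈ Subgroup.centralizer ({t} : Set G), c ^ 2 = 1) :
    (∀ a ∈ (T : Subgroup G), ∀ b ∈ (T : Subgroup G), a * b = b * a) ∧
    (∀ a ∈ (T : Subgroup G), a ^ 2 = 1) ∧
    (∀ i : G, orderOf i = 2 → i ∈ Subgroup.normalizer ((T : Subgroup G) : Set G) → i ∈ (T : Subgroup G)) := by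
  haveI : Fact (Nat.Prime 2) := ⟨Nat.prime_two⟩
  have hTbot : Nontrivial (T : Subgroup G) := by
    by_contra hc
    rw [not_nontrivial_iff_subsingleton] at hc
    exact hnc inferInstance
  have hT2 : IsPGroup 2 (T : Subgroup G) := T.2
  haveI : Nontrivial (Subgroup.center (T : Subgroup G)) := hT2.center_nontrivial
  have hZ2 : IsPGroup 2 (Subgroup.center (T : Subgroup G)) := IsPGroup.to_subgroup hT2 _
  have hdvd : 2 ∣ Nat.card (Subgroup.center (T : Subgroup G)) := by
    obtain ⟨k, hk⟩ := IsPGroup.iff_card.mp hZ2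
    have h1 : 1 < Nat.card (Subgroup.center (T : Subgroup G)) := Finite.one_lt_card
    rw [hk] at h1 ⊢
    rcases k with _ | k
    · simp at h1
    · exact dvd_pow_self 2 (by omega)
  obtain ⟨z, hz⟩ := exists_prime_orderOf_dvd_card' 2 hdvd
  have hzG : orderOf ((z : ↥(T : Subgroup G)) : G) = 2 := by
    rw [Subgroup.orderOf_coe, Subgroup.orderOf_coe]
    exact hz
  have hTC : (T : Subgroup G) ≤ Subgroup.centralizer ({((z : ↥(T : Subgroup G)) : G)} : Set G) := by
    intro x hx
    rw [Subgroup.mem_centralizer_iff]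
    intro y hy
    rw [Set.mem_singleton_iff] at hy
    rw [hy]
    have h1 := (Subgroup.mem_center_iff.mp z.2) ⟨x, hx⟩
    exact (congrArg Subtype.val h1).symm
  have hCcomm := hC _ hzG
  refine ⟨?_, ?_, ?_⟩
  · intro a ha b hb
    have h1 := hCcomm.1.is_comm.comm ⟨a, hTC ha⟩ ⟨b, hTC hb⟩
    exact congrArg Subtype.val h1
  · intro a ha
    exact hCcomm.2 a (hTC ha)
  · intro i hi hiN
    have h2 : IsPGroup 2 (Subgroup.zpowers i) := by
      rw [IsPGroup.iff_card]
      exact ⟨1, by rw [Nat.card_zpowers, hi, pow_one]⟩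
    have h3 := h2.inf_normalizer_sylow T
    have h4 : i ∈ Subgroup.zpowers i ⊓ Subgroup.normalizer ((T : Subgroup G) : Set G) :=
      ⟨Subgroup.mem_zpowers _, hiN⟩
    exact (h3.le h4).2

variable {T}

theorem exists_two_invol (hnc : ¬ IsCyclic (T : Subgroup G))
    (hel : ∀ a ∈ (T : Subgroup G), a ^ 2 = 1) :
    ∃ s ∈ (T : Subgroup G), ∃ t ∈ (T : Subgroup G), s ≠ t ∧ orderOf s = 2 ∧ orderOf t = 2 := by
  by_contra hcon
  push Not at hcon
  apply hnc
  by_cases hT : ∃ s ∈ (T : Subgroup G), s ≠ 1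
  · obtain ⟨s, hs, hs1⟩ := hT
    have hs2 := orderOf_two_of (hel s hs) hs1
    refine ⟨⟨⟨s, hs⟩, ?_⟩⟩
    rintro ⟨x, hx⟩
    by_cases hx1 : x = 1
    · subst hx1
      exact ⟨0, by simp; rfl⟩
    · by_cases hxs : s = x
      · subst hxs
        exact ⟨1, by simp⟩
      · exact absurd (orderOf_two_of (hel x hx) hx1) (hcon s hs x hx hxs hs2)
  · push Not at hT
    have : Subsingleton (T : Subgroup G) := ⟨fun a b => Subtype.ext (by rw [hT a a.2, hT b b.2])⟩
    infer_instance

theorem zact_of (hnc : ¬ IsCyclic (T : Subgroup G)) (hnn : ¬ (T : Subgroup G).Normal)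
    (hC : ∀ t : G, orderOf t = 2 → IsMulCommutative (Subgroup.centralizer ({t} : Set G)) ∧
      ∀ c ∈ Subgroup.centralizer ({t} : Set G), c ^ 2 = 1) :
    ZAct G (G ⧸ Subgroup.normalizer ((T : Subgroup G) : Set G)) := by
  obtain ⟨hcomm, hel, hinv⟩ := sylow_facts T hnc hC
  have hemb := Cfsg.Agent.S1226.result T hnc hnn hC
  refine { toFixOne := fixOne_of_embedded hemb, comm := ?_, cent := ?_, two := ?_ }
  · intro x s t hs ht hsx htx
    induction x using QuotientGroup.induction_on with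
    | H a =>
      rw [smul_mk_eq_iff] at hsx htx
      have h1 : orderOf (a⁻¹ * s * a) = 2 := by
        have := orderOf_conj' a⁻¹ s
        rwa [inv_inv, hs] at this
      have h2 : orderOf (a⁻¹ * t * a) = 2 := by
        have := orderOf_conj' a⁻¹ t
        rwa [inv_inv, ht] at this
      have h3 := hcomm _ (hinv _ h1 hsx) _ (hinv _ h2 htx)
      have h4 : a * ((a⁻¹ * s * a) * (a⁻¹ * t * a)) * a⁻¹ = a * ((a⁻¹ * t * a) * (a⁻¹ * s * a)) * a⁻¹ := by
        rw [h3]
      have h5 : a * ((a⁻¹ * s * a) * (a⁻¹ * t * a)) * a⁻¹ = s * t := by group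
      have h6 : a * ((a⁻¹ * t * a) * (a⁻¹ * s * a)) * a⁻¹ = t * s := by group
      rwa [h5, h6] at h4
  · intro t ht c hc
    exact (hC t ht).2 c (Subgroup.mem_centralizer_singleton_iff.mpr hc)
  · intro x
    induction x using QuotientGroup.induction_on with
    | H a =>
      obtain ⟨s, hs, t, ht, hst, hs2, ht2⟩ := exists_two_invol hnc hel
      refine ⟨a * s * a⁻¹, a * t * a⁻¹, ?_, ?_, ?_, ?_, ?_⟩
      · intro h1
        apply hst
        have h2 : a⁻¹ * (a * s * a⁻¹) * a = a⁻¹ * (a * t * a⁻¹) * a := by rw [h1]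
        simpa [mul_assoc] using h2
      · rw [orderOf_conj']; exact hs2
      · rw [orderOf_conj']; exact ht2
      · rw [smul_mk_eq_iff]
        have : a⁻¹ * (a * s * a⁻¹) * a = s := by group
        rw [this]
        exact Subgroup.le_normalizer hs
      · rw [smul_mk_eq_iff]
        have : a⁻¹ * (a * t * a⁻¹) * a = t := by group
        rw [this]
        exact Subgroup.le_normalizer ht

theorem mem_T_iff (hnc : ¬ IsCyclic (T : Subgroup G)) (hnn : ¬ (T : Subgroup G).Normal)
    (hC : ∀ t : G, orderOf t = 2 → IsMulCommutative (Subgroup.centralizer ({t} : Set G)) ∧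
      ∀ c ∈ Subgroup.centralizer ({t} : Set G), c ^ 2 = 1) (t : G) :
    t ∈ TT G (zact_of hnc hnn hC) (QuotientGroup.mk 1 : G ⧸ Subgroup.normalizer ((T : Subgroup G) : Set G)) ↔
      t ∈ (T : Subgroup G) := by
  obtain ⟨hcomm, hel, hinv⟩ := sylow_facts T hnc hC
  rw [mem_TT, smul_mk_eq_iff]
  simp only [inv_one, one_mul, mul_one]
  constructor
  · rintro ⟨h1, h2⟩
    by_cases ht : t = 1
    · rw [ht]; exact Subgroup.one_mem _
    · exact hinv t (orderOf_two_of h1 ht) h2
  · intro h1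
    exact ⟨hel t h1, Subgroup.le_normalizer h1⟩

end concrete

end Cfsg.Agent.Lib.StrongEmb
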