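import Mathlib

set_option autoImplicit false

/-! A field from a regular action of a commutative group on the nonzero elements of an
abelian group. -/

namespace Cfsg.Agent.Lib.ZassField

universe u v

/-- Regular action data. -/
structure RegData (V : Type u) (Dd : Type v) [AddCommGroup V] [Group Dd] where
  act : Dd → V → V
  t₀ : V
  ht₀ : t₀ ≠ 0
  act_one : ∀ v, act 1 v = v
  act_mul : ∀ a b v, act (a * b) v = act a (act b v)
  act_add : ∀ a v w, act a (v + w) = act a v + act a w
  comm : ∀ a b : Dd, a * b = b * a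
  surj : ∀ v, v ≠ 0 → ∃ d, act d t₀ = v
  inj : ∀ a b, act a t₀ = act b t₀ → a = b

namespace RegData

variable {V : Type u} {Dd : Type v} [AddCommGroup V] [Group Dd] (R : RegData V Dd)

theorem act_zero (a : Dd) : R.act a 0 = 0 := by
  have := R.act_add a 0 0
  rw [add_zero] at this
  exact left_eq_add.mp this

theorem act_eq_zero {a : Dd} {v : V} (h : R.act a v = 0) : v = 0 := by
  have h1 := R.act_mul a⁻¹ a v
  rw [inv_mul_cancel, R.act_one, h, R.act_zero] at h1
  exact h1

open Classical in
/-- The group element attached to a nonzero vector. -/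
noncomputable def δ (v : V) : Dd := if h : v = 0 then 1 else Classical.choose (R.surj v h)

theorem act_δ {v : V} (h : v ≠ 0) : R.act (R.δ v) R.t₀ = v := by
  simp only [δ, h, dite_false]
  exact Classical.choose_spec (R.surj v h)

theorem δ_eq {a : Dd} {v : V} (h : R.act a R.t₀ = v) : R.δ v = a := by
  have hv : v ≠ 0 := fun hc => R.ht₀ (R.act_eq_zero (h.trans hc))
  exact R.inj _ _ ((R.act_δ hv).trans h.symm)

theorem δ_t₀ : R.δ R.t₀ = 1 := R.δ_eq (R.act_one _)

open Classical in
/-- The multiplication. -/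
noncomputable def mulV (a b : V) : V := if a = 0 then 0 else R.act (R.δ a) b

@[simp] theorem zero_mulV (b : V) : R.mulV 0 b = 0 := by simp [mulV]

theorem mulV_of_ne {a : V} (h : a ≠ 0) (b : V) : R.mulV a b = R.act (R.δ a) b := by simp [mulV, h]

@[simp] theorem mulV_zero (a : V) : R.mulV a 0 = 0 := by
  by_cases h : a = 0
  · simp [h]
  · rw [mulV_of_ne R h, R.act_zero]

theorem mulV_ne {a b : V} (ha : a ≠ 0) (hb : b ≠ 0) : R.mulV a b ≠ 0 := by
  rw [mulV_of_ne R ha]
  exact fun hc => hb (R.act_eq_zero hc)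

theorem δ_mulV {a b : V} (ha : a ≠ 0) (hb : b ≠ 0) : R.δ (R.mulV a b) = R.δ a * R.δ b := by
  apply R.δ_eq
  rw [R.act_mul, R.act_δ hb, mulV_of_ne R ha]

theorem mulV_comm (a b : V) : R.mulV a b = R.mulV b a := by
  by_cases ha : a = 0
  · simp [ha]
  by_cases hb : b = 0
  · simp [hb]
  rw [mulV_of_ne R ha, mulV_of_ne R hb]
  calc R.act (R.δ a) b = R.act (R.δ a) (R.act (R.δ b) R.t₀) := by rw [R.act_δ hb]
    _ = R.act (R.δ b) (R.act (R.δ a) R.t₀) := by rw [← R.act_mul, ← R.act_mul, R.comm]
    _ = R.act (R.δ b) a := by rw [R.act_δ ha]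

theorem mulV_assoc (a b c : V) : R.mulV (R.mulV a b) c = R.mulV a (R.mulV b c) := by
  by_cases ha : a = 0
  · simp [ha]
  by_cases hb : b = 0
  · simp [hb]
  rw [mulV_of_ne R (R.mulV_ne ha hb), R.δ_mulV ha hb, R.act_mul, mulV_of_ne R ha, mulV_of_ne R hb]

theorem one_mulV (a : V) : R.mulV R.t₀ a = a := by
  rw [mulV_of_ne R R.ht₀, R.δ_t₀, R.act_one]

theorem mulV_add (a b c : V) : R.mulV a (b + c) = R.mulV a b + R.mulV a c := by
  by_cases ha : a = 0
  · simp [ha]
  rw [mulV_of_ne R ha, mulV_of_ne R ha, mulV_of_ne R ha, R.act_add]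

/-- The commutative ring. -/
noncomputable def ring : CommRing V :=
  { (inferInstance : AddCommGroup V) with
    mul := R.mulV
    one := R.t₀
    mul_assoc := R.mulV_assoc
    one_mul := R.one_mulV
    mul_one := fun a => by
      show R.mulV a R.t₀ = a
      rw [R.mulV_comm, R.one_mulV]
    left_distrib := R.mulV_add
    right_distrib := fun a b c => by
      show R.mulV (a + b) c = R.mulV a c + R.mulV b c
      rw [R.mulV_comm, R.mulV_add, R.mulV_comm c a, R.mulV_comm c b]
    zero_mul := R.zero_mulV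
    mul_zero := R.mulV_zero
    mul_comm := R.mulV_comm }

theorem isField : @IsField V R.ring.toSemiring := by
  letI := R.ring
  refine ⟨⟨0, R.t₀, R.ht₀.symm⟩, R.mulV_comm, ?_⟩
  intro a ha
  refine ⟨R.act (R.δ a)⁻¹ R.t₀, ?_⟩
  show R.mulV a (R.act (R.δ a)⁻¹ R.t₀) = R.t₀
  rw [mulV_of_ne R ha, ← R.act_mul, mul_inv_cancel, R.act_one]

/-- The field. -/
noncomputable def field : Field V :=
  letI := R.ring
  R.isField.toField

theorem field_add (a b : V) : (R.field).add a b = a + b := rfl
theorem field_zero : (R.field).zero = (0 : V) := rfl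
theorem field_mul (a b : V) : (R.field).mul a b = R.mulV a b := rfl
theorem field_one : (R.field).one = R.t₀ := rfl

end RegData

section moebius

variable {F : Type*} [Field F]

open Matrix

/-- Homogeneous coordinates on the projective line. -/
noncomputable def cls (x y : F) : Option F := by
  classical
  exact if y = 0 then none else some (x / y)

theorem cls_zero (x : F) : cls x 0 = none := by simp [cls]

theorem cls_ne (x : F) {y : F} (hy : y ≠ 0) : cls x y = some (x / y) := by simp [cls, hy]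

theorem cls_scale (x y : F) {s : F} (hs : s ≠ 0) : cls (s * x) (s * y) = cls x y := by
  by_cases hy : y = 0
  · simp [hy, cls_zero]
  · rw [cls_ne _ hy, cls_ne _ (mul_ne_zero hs hy), mul_div_mul_left _ _ hs]

/-- Moebius action. -/
noncomputable def moeb (A : SpecialLinearGroup (Fin 2) F) (z : Option F) : Option F :=
  match z with
  | none => cls (A.1 0 0) (A.1 1 0)
  | some w => cls (A.1 0 0 * w + A.1 0 1) (A.1 1 0 * w + A.1 1 1)

theorem moeb_cls (A : SpecialLinearGroup (Fin 2) F) {x y : F} (h : x ≠ 0 ∨ y ≠ 0) :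
    moeb A (cls x y) = cls (A.1 0 0 * x + A.1 0 1 * y) (A.1 1 0 * x + A.1 1 1 * y) := by
  by_cases hy : y = 0
  · subst hy
    have hx : x ≠ 0 := by simpa using h
    rw [cls_zero]
    simp only [moeb, mul_zero, add_zero]
    rw [mul_comm (A.1 0 0), mul_comm (A.1 1 0), cls_scale _ _ hx]
  · rw [cls_ne _ hy]
    simp only [moeb]
    have hyi : y⁻¹ ≠ 0 := inv_ne_zero hy
    rw [← cls_scale (A.1 0 0 * x + A.1 0 1 * y) _ hyi]
    congr 1 <;> field_simp

theorem det_two (A : SpecialLinearGroup (Fin 2) F) : A.1 0 0 * A.1 1 1 - A.1 0 1 * A.1 1 0 = 1 := by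
  have := A.2
  rwa [Matrix.det_fin_two] at this

theorem moeb_mul (A B : SpecialLinearGroup (Fin 2) F) (z : Option F) :
    moeb (A * B) z = moeb A (moeb B z) := by
  have hdet := det_two B
  have hm : ∀ i j, (A * B).1 i j = A.1 i 0 * B.1 0 j + A.1 i 1 * B.1 1 j := by
    intro i j
    show ((A.1 * B.1 : Matrix (Fin 2) (Fin 2) F)) i j = _
    rw [Matrix.mul_apply, Fin.sum_univ_two]
  cases z with
  | none =>
    simp only [moeb]
    have h : B.1 0 0 ≠ 0 ∨ B.1 1 0 ≠ 0 := by
      by_contra hc
      push Not at hc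
      rw [hc.1, hc.2] at hdet
      simp at hdet
    have := moeb_cls A h
    simp only [moeb] at this
    rw [hm, hm]
    exact this.symm
  | some w =>
    simp only [moeb]
    have h : B.1 0 0 * w + B.1 0 1 ≠ 0 ∨ B.1 1 0 * w + B.1 1 1 ≠ 0 := by
      by_contra hc
      push Not at hc
      have h1 : B.1 0 1 = - (B.1 0 0 * w) := by linear_combination hc.1
      have h2 : B.1 1 1 = - (B.1 1 0 * w) := by linear_combination hc.2
      rw [h1, h2] at hdet
      ring_nf at hdet
      simp at hdet
    have := moeb_cls A h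
    simp only [moeb] at this
    rw [hm, hm, hm, hm]
    rw [show (A.1 0 0 * B.1 0 0 + A.1 0 1 * B.1 1 0) * w + (A.1 0 0 * B.1 0 1 + A.1 0 1 * B.1 1 1) =
      A.1 0 0 * (B.1 0 0 * w + B.1 0 1) + A.1 0 1 * (B.1 1 0 * w + B.1 1 1) by ring,
      show (A.1 1 0 * B.1 0 0 + A.1 1 1 * B.1 1 0) * w + (A.1 1 0 * B.1 0 1 + A.1 1 1 * B.1 1 1) =
      A.1 1 0 * (B.1 0 0 * w + B.1 0 1) + A.1 1 1 * (B.1 1 0 * w + B.1 1 1) by ring]
    exact this.symm

theorem moeb_one (z : Option F) : moeb (1 : SpecialLinearGroup (Fin 2) F) z = z := by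
  cases z with
  | none => simp [moeb, cls_zero]
  | some w => simp [moeb, cls_ne]

theorem eq_one_of_moeb (h2 : (2 : F) = 0) (B : SpecialLinearGroup (Fin 2) F)
    (hB : ∀ z, moeb B z = z) : B = 1 := by
  have hdet := det_two B
  have h1 : B.1 1 0 = 0 := by
    by_contra hc
    have := hB none
    simp only [moeb] at this
    rw [cls_ne _ hc] at this
    exact absurd this (by simp)
  rw [h1] at hdet
  have h3 := hB (some 0)
  simp only [moeb, mul_zero, zero_add, h1] at h3
  have hd : B.1 1 1 ≠ 0 := by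
    intro hd
    rw [hd, cls_zero] at h3
    exact absurd h3 (by simp)
  rw [cls_ne _ hd] at h3
  have h4 : B.1 0 1 = 0 := by
    have h5 : B.1 0 1 / B.1 1 1 = 0 := by simpa using h3
    rcases div_eq_zero_iff.mp h5 with h5 | h5
    · exact h5
    · exact absurd h5 hd
  have h6 := hB (some 1)
  simp only [moeb, mul_one, h1, h4, zero_add, add_zero] at h6
  rw [cls_ne _ hd] at h6
  have h7 : B.1 0 0 = B.1 1 1 := by
    have h8 : B.1 0 0 / B.1 1 1 = 1 := by simpa using h6
    exact (div_eq_one_iff_eq hd).mp h8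
  rw [h4, h7] at hdet
  have h9 : (B.1 1 1 - 1) ^ 2 = 0 := by
    linear_combination hdet + (1 - B.1 1 1) * h2
  have h10 : B.1 1 1 = 1 := by
    have := pow_eq_zero_iff (two_ne_zero) |>.mp h9
    linear_combination this
  apply Subtype.ext
  ext i j
  fin_cases i <;> fin_cases j
  · simpa using h7.trans h10
  · simpa using h4
  · simpa using h1
  · simpa using h10

/-- Unipotent matrix. -/
def matT (b : F) : SpecialLinearGroup (Fin 2) F :=
  ⟨!![1, b; 0, 1], by simp [Matrix.det_fin_two]⟩

/-- Diagonal matrix. -/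
noncomputable def matD (f : F) (hf : f ≠ 0) : SpecialLinearGroup (Fin 2) F :=
  ⟨!![f, 0; 0, f⁻¹], by simp [Matrix.det_fin_two, hf]⟩

/-- Antidiagonal matrix. -/
noncomputable def matU (g : F) (hg : g ≠ 0) (h2 : (2 : F) = 0) : SpecialLinearGroup (Fin 2) F :=
  ⟨!![0, g; g⁻¹, 0], by
    simp only [Matrix.det_fin_two_of]
    rw [mul_inv_cancel₀ hg]
    linear_combination -h2⟩

theorem moeb_matT_none (b : F) : moeb (matT b) none = none := by
  simp [moeb, matT, cls_zero]

theorem moeb_matT_some (b a : F) : moeb (matT b) (some a) = some (a + b) := by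
  simp [moeb, matT, cls_ne]

theorem moeb_matD_none (f : F) (hf : f ≠ 0) : moeb (matD f hf) none = none := by
  simp [moeb, matD, cls_zero]

theorem moeb_matD_some (f : F) (hf : f ≠ 0) (a : F) : moeb (matD f hf) (some a) = some (f ^ 2 * a) := by
  simp only [moeb, matD]
  simp only [Matrix.of_apply, Matrix.cons_val', Matrix.cons_val_zero, Matrix.cons_val_one, Matrix.cons_val_fin_one, Matrix.empty_val']
  rw [cls_ne]
  · congr 1
    field_simp
    ring
  · simp [hf]

theorem moeb_matU_none (g : F) (hg : g ≠ 0) (h2 : (2 : F) = 0) : moeb (matU g hg h2) none = some 0 := by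
  simp only [moeb, matU]
  simp only [Matrix.of_apply, Matrix.cons_val', Matrix.cons_val_zero, Matrix.cons_val_one, Matrix.cons_val_fin_one, Matrix.empty_val']
  rw [cls_ne _ (inv_ne_zero hg)]
  simp

theorem moeb_matU_zero (g : F) (hg : g ≠ 0) (h2 : (2 : F) = 0) : moeb (matU g hg h2) (some 0) = none := by
  simp only [moeb, matU]
  simp only [Matrix.of_apply, Matrix.cons_val', Matrix.cons_val_zero, Matrix.cons_val_one, Matrix.cons_val_fin_one, Matrix.empty_val']
  simp [cls_zero]

theorem moeb_matU_some (g : F) (hg : g ≠ 0) (h2 : (2 : F) = 0) {a : F} (ha : a ≠ 0) :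
    moeb (matU g hg h2) (some a) = some (g ^ 2 / a) := by
  simp only [moeb, matU]
  simp only [Matrix.of_apply, Matrix.cons_val', Matrix.cons_val_zero, Matrix.cons_val_one, Matrix.cons_val_fin_one, Matrix.empty_val']
  rw [cls_ne]
  · congr 1
    rw [zero_mul, zero_add, add_zero, inv_mul_eq_div, div_div_eq_mul_div, sq]
  · simp [hg, ha]

end moebius

end Cfsg.Agent.Lib.ZassField
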