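import Cfsg.Agent.Lib.StrongEmb3
import Cfsg.Agent.Lib.ZassField
import Cfsg.Agent.Lib.ClassicalBasic

set_option autoImplicit false
set_option warn.classDefReducibility false

/-! Identification with `SL₂`. -/

namespace Cfsg.Agent.Lib.StrongEmb

open Cfsg.Agent.Lib.Invol Cfsg.Agent.Lib.ZassField

universe u v

variable {G : Type u} {Ω : Type v} [Group G] [MulAction G Ω] (h : ZAct G Ω)
include h

theorem ZAct.exists_coords [Finite G] [Finite Ω] [MulAction.IsPretransitive G Ω] {x y : Ω} (hxy : x ≠ y) :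
    ∃ (K : Type u) (_ : Field K) (_ : Finite K) (τ ε : K → G),
      Function.Injective τ ∧ (∀ a, τ a ∈ TT G h x) ∧ (∀ t ∈ TT G h x, ∃ a, τ a = t) ∧
      (∀ a b, τ (a + b) = τ a * τ b) ∧ (∀ a, a ≠ 0 → ε a ∈ DD G x y) ∧
      (∀ d ∈ DD G x y, ∃ a, a ≠ 0 ∧ ε a = d) ∧
      (∀ a b, a ≠ 0 → ε a * τ b * (ε a)⁻¹ = τ (a * b)) := by
  letI inst : CommGroup (TT G h x) :=
    { (inferInstance : Group (TT G h x)) with
      mul_comm := fun a b => Subtype.ext (h.comm' a.2.1 b.2.1 a.2.2 b.2.2) }
  have hconj : ∀ (d : DD G x y) (v : TT G h x), d.1 * v.1 * d.1⁻¹ ∈ TT G h x := by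
    intro d v
    have hdx := (mem_DD.mp d.2).1
    have hdinv : d.1⁻¹ • x = x := by rw [inv_smul_eq_iff]; exact hdx.symm
    refine ⟨?_, ?_⟩
    · rw [conj_pow, v.2.1]; simp
    · rw [mul_smul, mul_smul, hdinv, v.2.2, hdx]
  obtain ⟨s, hs, hsx⟩ := h.ex_inv x
  let R : RegData (Additive (TT G h x)) (DD G x y) :=
    { act := fun d v => Additive.ofMul ⟨d.1 * (Additive.toMul v).1 * d.1⁻¹, hconj d _⟩
      t₀ := Additive.ofMul ⟨s, sq_eq_one hs, hsx⟩
      ht₀ := by
        intro hc
        have h1 : (⟨s, sq_eq_one hs, hsx⟩ : TT G h x) = 1 := hc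
        have h2 : s = 1 := congrArg Subtype.val h1
        exact ne_one_of_two hs h2
      act_one := by
        intro v
        apply Additive.toMul.injective
        apply Subtype.ext
        simp
      act_mul := by
        intro a b v
        apply Additive.toMul.injective
        apply Subtype.ext
        simp [mul_assoc]
      act_add := by
        intro a v w
        apply Additive.toMul.injective
        apply Subtype.ext
        simp [mul_assoc]
      comm := fun a b => Subtype.ext (h.DD_comm hxy a.2 b.2)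
      surj := by
        intro v hv
        have hv1 : (Additive.toMul v).1 ≠ 1 := by
          intro hc
          apply hv
          apply Additive.toMul.injective
          exact Subtype.ext hc
        obtain ⟨d, hd, hc⟩ := h.trans hxy hs (orderOf_two_of (Additive.toMul v).2.1 hv1) hsx (Additive.toMul v).2.2
        refine ⟨⟨d, hd⟩, ?_⟩
        apply Additive.toMul.injective
        exact Subtype.ext hc
      inj := by
        intro a b hab
        have h1 : a.1 * s * a.1⁻¹ = b.1 * s * b.1⁻¹ := by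
          have := congrArg (fun v => (Additive.toMul v).1) hab
          exact this
        have h2 : (b⁻¹ * a : DD G x y).1 = 1 := by
          apply h.reg hxy (b⁻¹ * a : DD G x y).2 hs
          show b.1⁻¹ * a.1 * s = s * (b.1⁻¹ * a.1)
          calc b.1⁻¹ * a.1 * s = b.1⁻¹ * (a.1 * s * a.1⁻¹) * a.1 := by group
            _ = b.1⁻¹ * (b.1 * s * b.1⁻¹) * a.1 := by rw [h1]
            _ = s * (b.1⁻¹ * a.1) := by group
        have h3 : b⁻¹ * a = 1 := Subtype.ext h2
        exact (inv_mul_eq_one.mp h3).symm }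
  refine ⟨Additive (TT G h x), R.field, inferInstance, fun a => (Additive.toMul a).1, fun a => (R.δ a).1,
    ?_, ?_, ?_, ?_, ?_, ?_, ?_⟩
  · intro a b hab
    apply Additive.toMul.injective
    exact Subtype.ext hab
  · intro a
    exact (Additive.toMul a).2
  · intro t ht
    exact ⟨Additive.ofMul ⟨t, ht⟩, rfl⟩
  · intro a b
    rfl
  · intro a _
    exact (R.δ a).2
  · intro d hd
    have hne : R.act ⟨d, hd⟩ R.t₀ ≠ 0 := fun hc => R.ht₀ (R.act_eq_zero hc)
    refine ⟨R.act ⟨d, hd⟩ R.t₀, hne, ?_⟩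
    show (R.δ (R.act ⟨d, hd⟩ R.t₀)).1 = d
    rw [R.δ_eq rfl]
  · intro a b ha
    have h1 : R.mulV a b = R.act (R.δ a) b := R.mulV_of_ne ha b
    show (R.δ a).1 * (Additive.toMul b).1 * (R.δ a).1⁻¹ = (Additive.toMul (R.mulV a b)).1
    rw [h1]
    rfl

theorem ZAct.iso_SL2 [Finite G] [Finite Ω] [MulAction.IsPretransitive G Ω] {x y : Ω} (hxy : x ≠ y)
    {u : G} (hu : orderOf u = 2) (hux : u • x = y) :
    ∃ (K : Type u) (_ : Field K) (_ : Finite K), (2 : K) = 0 ∧ Nat.card K = Nat.card (TT G h x) ∧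
      Nonempty (G ≃* Matrix.SpecialLinearGroup (Fin 2) K) := by
  obtain ⟨K, _, _, τ, ε, hτinj, hτT, hτsurj, hτadd, hεD, hεsurj, hετ⟩ := h.exists_coords hxy
  have huy := swap_of hu hux
  have hτ0 : τ 0 = 1 := by
    have h1 := hτadd 0 0
    rw [add_zero] at h1
    exact left_eq_mul.mp h1
  have h2 : (2 : K) = 0 := by
    apply hτinj
    have e : (2 : K) = 1 + 1 := by norm_num
    rw [e, hτadd, hτ0, ← sq]
    exact (hτT 1).1
  have hKT : Nat.card K = Nat.card (TT G h x) := by
    apply Nat.card_congr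
    exact Equiv.ofBijective (fun a : K => (⟨τ a, hτT a⟩ : TT G h x))
      ⟨fun a b hab => hτinj (congrArg Subtype.val hab), fun t => by
        obtain ⟨a, ha⟩ := hτsurj t.1 t.2
        exact ⟨a, Subtype.ext ha⟩⟩
  refine ⟨K, inferInstance, inferInstance, h2, hKT, ?_⟩
  have hτx : ∀ a, τ a • x = x := fun a => (hτT a).2
  let β : Option K → Ω := fun z => match z with
    | none => x
    | some a => τ a • y
  have hβnone : β none = x := rfl
  have hβsome : ∀ a, β (some a) = τ a • y := fun _ => rfl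
  have hne : ∀ a, τ a • y ≠ x := by
    intro a hc
    have h1 : τ a • y = τ a • x := hc.trans (hτx a).symm
    exact hxy (MulAction.injective _ h1).symm
  have hβinj : Function.Injective β := by
    rintro (_ | a) (_ | b) hab
    · rfl
    · exact absurd hab.symm (hne b)
    · exact absurd hab (hne a)
    · have := h.T_regular_unique hxy (hτT a) (hτT b) hab
      rw [hτinj this]
  have hβsurj : Function.Surjective β := by
    intro p
    by_cases hp : p = x
    · exact ⟨none, hp.symm⟩
    · obtain ⟨a, ha, hay⟩ := h.T_regular_exists hxy (Ne.symm hp)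
      obtain ⟨b, rfl⟩ := hτsurj a ha
      exact ⟨some b, hay⟩
  -- action of generators
  have hT : ∀ b z, τ b • β z = β (moeb (matT b) z) := by
    intro b z
    cases z with
    | none => rw [moeb_matT_none]; exact hτx b
    | some a =>
      rw [moeb_matT_some, hβsome, hβsome, ← mul_smul, ← hτadd, add_comm]
  have hεx : ∀ e, e ≠ 0 → ε e • x = x := fun e he => (mem_DD.mp (hεD e he)).1
  have hεy : ∀ e, e ≠ 0 → ε e • y = y := fun e he => (mem_DD.mp (hεD e he)).2
  have hετ' : ∀ e b, e ≠ 0 → ε e • τ b • y = τ (e * b) • y := by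
    intro e b he
    rw [← hετ e b he, mul_smul, mul_smul, inv_smul_eq_iff.mpr (hεy e he).symm]
  have hD : ∀ e f (hf : f ≠ 0), f ^ 2 = e → ∀ z, ε e • β z = β (moeb (matD f hf) z) := by
    intro e f hf hfe z
    have he : e ≠ 0 := by rw [← hfe]; exact pow_ne_zero 2 hf
    cases z with
    | none => rw [moeb_matD_none]; exact hεx e he
    | some a =>
      rw [moeb_matD_some, hβsome, hβsome, hετ' e a he, hfe]
  haveI : Fintype K := Fintype.ofFinite K
  have hchar : ringChar K = 2 := CharP.ringChar_of_prime_eq_zero Nat.prime_two (by exact_mod_cast h2)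
  have hsq : ∀ e : K, e ≠ 0 → ∃ f : K, f ≠ 0 ∧ f ^ 2 = e := by
    intro e he
    obtain ⟨f, hf⟩ := FiniteField.isSquare_of_char_two hchar e
    refine ⟨f, ?_, by rw [sq]; exact hf.symm⟩
    rintro rfl
    apply he
    rw [hf]; simp
  have hτ1 : τ 1 ≠ 1 := by
    intro hc
    rw [← hτ0] at hc
    exact one_ne_zero (hτinj hc)
  -- the image of `τ 1 • y` under `u`
  obtain ⟨c, hc⟩ : ∃ c, u • (τ 1 • y) = β (some c) := by
    have h3 : u • (τ 1 • y) ≠ x := by
      intro hc
      have h4 : u • (τ 1 • y) = u • y := hc.trans huy.symm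
      have h5 := MulAction.injective u h4
      apply hτ1
      by_contra hne1
      exact hxy (h.fix_unique _ x y (orderOf_two_of (hτT 1).1 hne1) (hτx 1) h5)
    obtain ⟨z, hz⟩ := hβsurj (u • (τ 1 • y))
    cases z with
    | none => exact absurd hz.symm h3
    | some c => exact ⟨c, hz.symm⟩
  have hc0 : c ≠ 0 := by
    rintro rfl
    rw [hβsome, hτ0, one_smul] at hc
    have h4 : u • (τ 1 • y) = u • x := hc.trans hux.symm
    have h5 := MulAction.injective u h4
    exact hne 1 h5
  obtain ⟨g, hg0, hgc⟩ := hsq c hc0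
  have hU : ∀ z, u • β z = β (moeb (matU g hg0 h2) z) := by
    intro z
    cases z with
    | none =>
      rw [moeb_matU_none, hβnone, hβsome, hτ0, one_smul]
      exact hux
    | some a =>
      by_cases ha : a = 0
      · subst ha
        rw [moeb_matU_zero, hβsome, hτ0, one_smul]
        exact huy
      · rw [moeb_matU_some _ _ _ ha, hgc]
        have h3 : β (some a) = ε a • (τ 1 • y) := by
          rw [hετ' a 1 ha, mul_one]
        have h4 := h.inverts hxy hu hux (hεD a ha)
        have h5 : u • (ε a • (τ 1 • y)) = (ε a)⁻¹ • (u • (τ 1 • y)) := by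
          rw [← h4]
          simp [mul_smul, inv_eq_self hu, swap_of]
          rw [← mul_smul, mul_self_eq_one hu, one_smul]
        rw [h3, h5, hc, inv_smul_eq_iff, hβsome, hβsome, hετ' a _ ha]
        congr 2
        field_simp
  -- every element acts as a matrix
  have hstab : ∀ g : G, g • x = x → ∃ A : Matrix.SpecialLinearGroup (Fin 2) K, ∀ z, g • β z = β (moeb A z) := by
    intro g hg
    obtain ⟨d, hd, t, ht, rfl⟩ := h.exists_decomp hxy hg
    obtain ⟨e, he, rfl⟩ := hεsurj d hd
    obtain ⟨b, rfl⟩ := hτsurj t ht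
    obtain ⟨f, hf, hfe⟩ := hsq e he
    refine ⟨matD f hf * matT b, fun z => ?_⟩
    rw [mul_smul, hT, hD e f hf hfe, moeb_mul]
  have hall : ∀ g : G, ∃ A : Matrix.SpecialLinearGroup (Fin 2) K, ∀ z, g • β z = β (moeb A z) := by
    intro g
    by_cases hg : g • x = x
    · exact hstab g hg
    · obtain ⟨a, ha, hay⟩ := h.T_regular_exists (x := x) (y := g • x) (z := y) (Ne.symm hg) hxy
      obtain ⟨b, rfl⟩ := hτsurj a ha
      obtain ⟨A, hA⟩ := hstab (u * (τ b * g)) (by
        rw [mul_smul, mul_smul, hay, huy])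
      refine ⟨matT b * (matU _ hg0 h2 * A), fun z => ?_⟩
      have e1 : g = τ b * (u * (u * (τ b * g))) := by
        have h3 : u * (u * (τ b * g)) = τ b * g := by
          rw [← mul_assoc, mul_self_eq_one hu, one_mul]
        rw [h3, ← mul_assoc, ← sq, (hτT b).1, one_mul]
      conv_lhs => rw [e1]
      rw [mul_smul, mul_smul, hA, hU, hT, moeb_mul, moeb_mul]
  have huniq : ∀ A A' : Matrix.SpecialLinearGroup (Fin 2) K, (∀ z, moeb A z = moeb A' z) → A = A' := by
    intro A A' hAA
    have h3 : A'⁻¹ * A = 1 := by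
      apply eq_one_of_moeb h2
      intro z
      rw [moeb_mul, hAA, ← moeb_mul, inv_mul_cancel, moeb_one]
    exact (inv_mul_eq_one.mp h3).symm
  choose φ hφ using hall
  have hφmul : ∀ a b, φ (a * b) = φ a * φ b := by
    intro a b
    apply huniq
    intro z
    apply hβinj
    rw [← hφ, mul_smul, hφ b, hφ a, moeb_mul]
  let Φ : G →* Matrix.SpecialLinearGroup (Fin 2) K := MonoidHom.mk' φ hφmul
  have hinj : Function.Injective Φ := by
    rw [injective_iff_map_eq_one]
    intro g hg
    have hg' : φ g = 1 := hg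
    have hfix : ∀ z, g • β z = β z := fun z => by rw [hφ, hg', moeb_one]
    have h3 : g • x = x := hfix none
    have h4 : g • y = y := by
      have := hfix (some 0)
      rwa [hβsome, hτ0, one_smul] at this
    have h5 : g • (τ 1 • y) = τ 1 • y := hfix (some 1)
    apply h.triple hxy (z := τ 1 • y) (hne 1).symm ?_ h3 h4 h5
    intro hc
    apply hτ1
    by_contra hne1
    exact hxy (h.fix_unique _ x y (orderOf_two_of (hτT 1).1 hne1) (hτx 1) hc.symm)
  have hcardΩ : Nat.card Ω = Nat.card K + 1 := by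
    rw [← Nat.card_congr (Equiv.ofBijective β ⟨hβinj, hβsurj⟩), Finite.card_option]
  have hcardG : Nat.card G = Nat.card (MulAction.stabilizer G x) * Nat.card Ω := by
    rw [← MulAction.index_stabilizer_of_transitive G x, Subgroup.card_mul_index]
  have hstabcard : Nat.card (MulAction.stabilizer G x) = Nat.card (DD G x y) * Nat.card (TT G h x) := by
    rw [← Nat.card_prod]
    apply Nat.card_congr
    symm
    refine Equiv.ofBijective (fun p : DD G x y × TT G h x =>
      (⟨p.1.1 * p.2.1, ?_⟩ : MulAction.stabilizer G x)) ⟨?_, ?_⟩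
    · rw [MulAction.mem_stabilizer_iff, mul_smul, p.2.2.2, (mem_DD.mp p.1.2).1]
    · rintro ⟨d, t⟩ ⟨d', t'⟩ hab
      have h3 : d.1 * t.1 = d'.1 * t'.1 := congrArg Subtype.val hab
      have h4 : d'.1⁻¹ * d.1 = t'.1 * t.1⁻¹ := by
        rw [inv_mul_eq_iff_eq_mul, ← mul_assoc, eq_mul_inv_iff_mul_eq, h3]
      have h5 : (t'.1 * t.1⁻¹) ∈ TT G h x := (TT G h x).mul_mem t'.2 ((TT G h x).inv_mem t.2)
      have h6 : d'.1⁻¹ * d.1 ∈ DD G x y := (DD G x y).mul_mem ((DD G x y).inv_mem d'.2) d.2
      have h7 : d'.1⁻¹ * d.1 = 1 := by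
        apply h.eq_one_of_sq hxy h6
        rw [h4]
        exact h5.1
      have h8 : d.1 = d'.1 := (inv_mul_eq_one.mp h7).symm
      have h9 : t.1 = t'.1 := by
        rw [h8] at h3
        exact mul_left_cancel h3
      rw [Subtype.ext h8, Subtype.ext h9]
    · rintro ⟨g, hg⟩
      obtain ⟨d, hd, t, ht, hgdt⟩ := h.exists_decomp hxy (MulAction.mem_stabilizer_iff.mp hg)
      exact ⟨(⟨d, hd⟩, ⟨t, ht⟩), Subtype.ext hgdt.symm⟩
  have hDcard : Nat.card (DD G x y) + 1 = Nat.card K := by
    rw [h.card_DD hxy, hKT, h.card_T x]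
  have h6 := Cfsg.Agent.Lib.ClassicalBasic.card_GL_eq (F := K) 2 (by norm_num)
  rw [Matrix.card_GL_field, Fin.prod_univ_two] at h6
  rw [Nat.card_eq_fintype_card (α := K)] at hDcard hcardΩ
  rw [← hKT, Nat.card_eq_fintype_card (α := K)] at hstabcard
  set r := Nat.card (DD G x y) with hr
  have hq : Fintype.card K = r + 1 := hDcard.symm
  rw [hq] at h6 hcardΩ hstabcard
  have hrpos : 0 < r := by
    rw [hr, Nat.card_pos_iff]
    exact ⟨⟨1, (DD G x y).one_mem⟩, inferInstance⟩
  have e1 : (r + 1) ^ 2 - (r + 1) ^ ((0 : Fin 2) : ℕ) = r * (r + 2) := by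
    have : (r + 1) ^ 2 = r * (r + 2) + 1 := by ring
    simp only [Fin.val_zero, pow_zero]
    omega
  have e2 : (r + 1) ^ 2 - (r + 1) ^ ((1 : Fin 2) : ℕ) = r * (r + 1) := by
    have : (r + 1) ^ 2 = r * (r + 1) + (r + 1) := by ring
    simp only [Fin.val_one, pow_one]
    omega
  rw [e1, e2] at h6
  have h7 : Nat.card (Matrix.SpecialLinearGroup (Fin 2) K) = (r + 2) * (r * (r + 1)) := by
    have h8 : r + 1 - 1 = r := by omega
    rw [h8] at h6
    have h9 : r * ((r + 2) * (r * (r + 1))) = r * Nat.card (Matrix.SpecialLinearGroup (Fin 2) K) := by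
      rw [← h6]; ring
    exact (Nat.eq_of_mul_eq_mul_left hrpos h9).symm
  have hle : Nat.card (Matrix.SpecialLinearGroup (Fin 2) K) ≤ Nat.card G := by
    rw [h7, hcardG, hstabcard, hcardΩ]
    apply le_of_eq
    ring
  exact ⟨MulEquiv.ofBijective Φ (hinj.bijective_of_nat_card_le hle)⟩

end Cfsg.Agent.Lib.StrongEmb
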