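import Cfsg.Agent.Lib.SympPrim

set_option autoImplicit false

namespace Cfsg.Agent.Lib.SympSimple

open Matrix Cfsg.Agent.Lib.SympBasic Cfsg.Agent.Lib.SympTrans Cfsg.Agent.Lib.SympGen Cfsg.Agent.Lib.SympPerfect Cfsg.Agent.Lib.SympCenter Cfsg.Agent.Lib.SympPrim
open scoped LinearAlgebra.Projectivization Pointwise
open MulAction

variable {F : Type*} [Field F] {m : ℕ}

local notation "f" => Cfsg.sympForm m F
local notation "M" => Matrix (Fin m ⊕ Fin m) (Fin m ⊕ Fin m) F

/-- The root group of `v`. -/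
def rootGroup (v : Vec m F) : Subgroup (Sp m F) where
  carrier := {A | ∃ c : F, A = tv v c}
  mul_mem' := by
    rintro _ _ ⟨a, rfl⟩ ⟨b, rfl⟩
    exact ⟨a + b, tv_add v a b⟩
  one_mem' := ⟨0, (tv_zero_right v).symm⟩
  inv_mem' := by
    rintro _ ⟨a, rfl⟩
    exact ⟨-a, tv_inv v a⟩

theorem mem_rootGroup {v : Vec m F} {A : Sp m F} : A ∈ rootGroup v ↔ ∃ c : F, A = tv v c := Iff.rfl

theorem rootGroup_smul (v : Vec m F) {a : F} (ha : a ≠ 0) : rootGroup (a • v) = rootGroup v := by
  ext A
  simp only [mem_rootGroup]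
  constructor
  · rintro ⟨c, rfl⟩
    exact ⟨a ^ 2 * c, tv_smul v a c⟩
  · rintro ⟨c, rfl⟩
    refine ⟨(a ^ 2)⁻¹ * c, ?_⟩
    rw [tv_smul, mul_inv_cancel_left₀ (pow_ne_zero 2 ha)]

theorem rootGroup_conj (g : Sp m F) (v : Vec m F) :
    rootGroup ((g : M) *ᵥ v) = MulAut.conj g • rootGroup v := by
  ext A
  rw [Subgroup.mem_smul_pointwise_iff_exists]
  simp only [mem_rootGroup]
  constructor
  · rintro ⟨c, rfl⟩
    refine ⟨tv v c, ⟨c, rfl⟩, ?_⟩
    rw [MulAut.smul_def, MulAut.conj_apply, tv_conj]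
  · rintro ⟨_, ⟨c, rfl⟩, rfl⟩
    refine ⟨c, ?_⟩
    rw [MulAut.smul_def, MulAut.conj_apply, tv_conj]

theorem rep_rootGroup {v : Vec m F} (hv : v ≠ 0) : rootGroup (Projectivization.mk F v hv).rep = rootGroup v := by
  obtain ⟨a, ha⟩ := Projectivization.exists_smul_eq_mk_rep F v hv
  rw [← ha]
  exact rootGroup_smul v a.ne_zero

/-- The Iwasawa structure of `Sp` on points. -/
noncomputable def spIwasawa : IwasawaStructure (Sp m F) (ℙ F (Vec m F)) where
  T p := rootGroup p.rep
  is_comm p := by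
    constructor
    constructor
    rintro ⟨_, a, rfl⟩ ⟨_, b, rfl⟩
    apply Subtype.ext
    show tv p.rep a * tv p.rep b = tv p.rep b * tv p.rep a
    rw [tv_add, tv_add, add_comm]
  is_conj g p := by
    induction p using Projectivization.ind with | h v hv => ?_
    rw [smul_mk_eq g hv (mulVec_ne_zero g hv), rep_rootGroup, rep_rootGroup, rootGroup_conj]
  is_generator := by
    rw [eq_top_iff, ← tvGroup_top (m := m) (F := F), tvGroup, Subgroup.closure_le]
    rintro A ⟨w, -, c, rfl⟩
    by_cases hw : w = 0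
    · subst hw
      rw [tv_zero_left]
      exact Subgroup.one_mem _
    · apply Subgroup.mem_iSup_of_mem (Projectivization.mk F w hw)
      rw [rep_rootGroup]
      exact ⟨c, rfl⟩

/-- Kernel of the action on points. -/
theorem mem_center_iff_fix (hm : 1 ≤ m) (z : Sp m F) :
    z ∈ Subgroup.center (Sp m F) ↔ ∀ p : ℙ F (Vec m F), z • p = p := by
  let i0 : Fin m := ⟨0, by omega⟩
  have he : (eV i0 : Vec m F) ≠ 0 := by
    intro h
    have := congrFun h (Sum.inl i0)
    simp [eV] at this
  constructor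
  · intro hz p
    induction p using Projectivization.ind with | h v hv => ?_
    rw [smul_mk_eq z hv (mulVec_ne_zero z hv), Projectivization.mk_eq_mk_iff']
    rcases (center_eq hm z).mp hz with rfl | rfl
    · exact ⟨1, by simp⟩
    · exact ⟨-1, by rw [negOne_mulVec]; simp⟩
  · intro h
    rw [center_eq hm]
    obtain ⟨c, hc⟩ := scalar_of_eigen (Matrix.mulVecLin (z : M)) (fun x hx => by
      have h1 := h (Projectivization.mk F x hx)
      rw [smul_mk_eq z hx (mulVec_ne_zero z hx), Projectivization.mk_eq_mk_iff'] at h1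
      obtain ⟨a, ha⟩ := h1
      refine ⟨a, ?_⟩
      simpa using ha.symm) he
    simp only [Matrix.mulVecLin_apply] at hc
    have h2 := sp_preserves z (fV i0) (eV i0)
    rw [hc, hc, sympForm_smul_left, sympForm_smul_right, form_fV_eV] at h2
    have h3 : (c - 1) * (c + 1) = 0 := by linear_combination h2
    rcases mul_eq_zero.mp h3 with h4 | h4
    · left
      have : c = 1 := sub_eq_zero.mp h4
      subst this
      apply sp_ext
      intro x
      rw [hc]
      simp
    · right
      have : c = -1 := eq_neg_of_add_eq_zero_left h4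
      subst this
      apply sp_ext
      intro x
      rw [hc, negOne_mulVec]
      simp

theorem exists_not_center (hm : 1 ≤ m) : ∃ g : Sp m F, g ∉ Subgroup.center (Sp m F) := by
  let i0 : Fin m := ⟨0, by omega⟩
  refine ⟨tv (eV i0) 1, ?_⟩
  intro h
  obtain ⟨c, -, hc⟩ := central_scalar hm h
  have h1 := hc (fV i0)
  rw [tv_mulVec, one_mul, form_fV_eV, one_smul] at h1
  have h2 := congrFun h1 (Sum.inl i0)
  simp [fV, eV] at h2

/-- The main theorem. -/
theorem PSp_isSimple [Fintype F] (hm : 2 ≤ m) (h : m = 2 → 3 ≤ Fintype.card F) : IsSimpleGroup (Cfsg.PSp m F) := by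
  haveI : IsPreprimitive (Sp m F) (ℙ F (Vec m F)) := preprimitive (by omega)
  have hperf : commutator (Sp m F) = ⊤ := by
    apply commutator_eq_top
    by_cases h3 : 3 ≤ m
    · exact Or.inl h3
    · right; left
      have : m = 2 := by omega
      exact ⟨this, h this⟩
  exact Cfsg.Agent.Lib.IwasawaQuot.isSimpleGroup_quotient spIwasawa hperf (Subgroup.center (Sp m F))
    (mem_center_iff_fix (by omega)) (exists_not_center (by omega))

end Cfsg.Agent.Lib.SympSimple
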