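import Cfsg.Agent.Lib.TensForm
import Cfsg.Agent.Lib.Frame3

set_option autoImplicit false

/-! Frames of symmetric forms on three-dimensional spaces over the field with three elements, and
the overgroups of tensor stabilisers with such a factor. -/

namespace Cfsg.Agent.Lib.TensFrame3

open Matrix Cfsg Cfsg.Geo Cfsg.Agent.Lib.TensForm Cfsg.Agent.Lib.Frame3 Cfsg.Agent.Lib.OrthE
open Cfsg.Agent.Lib.OrthChar Cfsg.Agent.Lib.OrthNeg
open scoped MatrixGroups

variable {F : Type*} [Field F] [Fintype F]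

section frame
variable {m : ℕ}

def qf (f : (Fin m → F) → (Fin m → F) → F) (v : Fin m → F) : F := - f v v

theorem polar_qf (hF : Fintype.card F = 3) {f : (Fin m → F) → (Fin m → F) → F} (hf : IsSymmetricForm f) :
    QuadraticMap.polar (qf f) = f := by
  funext u v
  have h3 := three_zero hF
  simp only [QuadraticMap.polar, qf, hf.bilinear.add_left, hf.bilinear.add_right, hf.symm v u]
  linear_combination (- f u v) * h3

theorem qf_nondeg (hF : Fintype.card F = 3) {f : (Fin m → F) → (Fin m → F) → F} (hf : IsSymmetricForm f) :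
    IsNondegenerateQuadraticForm (qf f) where
  smul c v := by
    simp only [qf, hf.bilinear.smul_left, hf.bilinear.smul_right]
    ring
  polar_bilinear := by
    rw [polar_qf hF hf]
    exact hf.bilinear
  nondegenerate := by
    rw [polar_qf hF hf]
    exact hf.nondegenerate

theorem nondeg_top {f : (Fin m → F) → (Fin m → F) → F} (hf : IsNondegenerateForm f) : IsNondegenerateOn f ⊤ := by
  intro w _ hw
  obtain ⟨⟨x, hx⟩, ⟨y, hy⟩⟩ := hf w hw
  exact ⟨⟨x, trivial, hx⟩, ⟨y, trivial, hy⟩⟩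

/-- three orthogonal non-singular vectors, two of the same norm -/
theorem three_orth (hF : Fintype.card F = 3) {f : (Fin m → F) → (Fin m → F) → F} (hf : IsSymmetricForm f) (hm : 3 ≤ m) :
    ∃ y₁ y₂ z, f y₂ y₂ = f y₁ y₁ ∧ f y₁ y₁ ≠ 0 ∧ f z z ≠ 0 ∧ f y₁ y₂ = 0 ∧ f y₁ z = 0 ∧ f y₂ z = 0 := by
  have h2 := two_ne hF
  have hQ := qf_nondeg hF hf
  have hpol := polar_qf hF hf
  have hd : Module.finrank F (⊤ : Submodule F (Fin m → F)) = (m - 3 + 2) + 1 := by
    rw [finrank_top, Module.finrank_fintype_fun_eq_card, Fintype.card_fin]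
    omega
  have hnd : IsNondegenerateOn (QuadraticMap.polar (qf f)) (⊤ : Submodule F (Fin m → F)) := by
    rw [hpol]
    exact nondeg_top hf.nondegenerate
  obtain ⟨v₀, -, h0, W₁, -, hd₁, hn₁, ho₁, -⟩ := step hQ h2 ⊤ _ hd hnd
  obtain ⟨v₁, hv₁, h1, W₂, hW₂, hd₂, hn₂, ho₂, -⟩ := step hQ h2 W₁ _ hd₁ hn₁
  obtain ⟨v₂, hv₂, h2', W₃, -, -, -, -, -⟩ := step hQ h2 W₂ _ hd₂ hn₂
  rw [hpol] at ho₁ ho₂
  have h10 : f v₀ v₁ = 0 := by rw [hf.symm]; exact ho₁ _ hv₁
  have h20 : f v₀ v₂ = 0 := by rw [hf.symm]; exact ho₁ _ (hW₂ hv₂)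
  have h21 : f v₁ v₂ = 0 := by rw [hf.symm]; exact ho₂ _ hv₂
  have ne : ∀ v, qf f v ≠ 0 → f v v ≠ 0 := fun v hv h => hv (by simp [qf, h])
  have h0' := ne _ h0
  have h1' := ne _ h1
  have h2'' := ne _ h2'
  have hc : ∀ a : F, a ≠ 0 → a = 1 ∨ a = -1 := fun a ha => by
    rcases sq_cases hF a with h | h
    · exact absurd h ha
    · exact h
  have key : f v₀ v₀ = f v₁ v₁ ∨ f v₀ v₀ = f v₂ v₂ ∨ f v₁ v₁ = f v₂ v₂ := by
    rcases hc _ h0' with a | a <;> rcases hc _ h1' with b | b <;> rcases hc _ h2'' with c | c <;> simp [a, b, c]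
  rcases key with h | h | h
  · exact ⟨v₀, v₁, v₂, h.symm, h0', h2'', h10, h20, h21⟩
  · exact ⟨v₀, v₂, v₁, h.symm, h0', h1', h20, h10, by rw [hf.symm]; exact h21⟩
  · exact ⟨v₁, v₂, v₀, h.symm, h1', h0', h21, by rw [hf.symm]; exact h10, by rw [hf.symm]; exact h20⟩

end frame

/-- An orthogonal frame of equal norms. -/
structure IsFrame (f : (Fin 3 → F) → (Fin 3 → F) → F) (ε : F) (w : Fin 3 → Fin 3 → F) : Prop where
  ne : ε ≠ 0
  diag : ∀ j, f (w j) (w j) = ε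
  off : ∀ j j', j ≠ j' → f (w j) (w j') = 0
  span : ∀ v, ∃ a : Fin 3 → F, v = a 0 • w 0 + a 1 • w 1 + a 2 • w 2

theorem exists_frame (hF : Fintype.card F = 3) {f : (Fin 3 → F) → (Fin 3 → F) → F} (hf : IsSymmetricForm f) :
    ∃ (ε : F) (w : Fin 3 → Fin 3 → F), IsFrame f ε w := by
  have hQ := qf_nondeg hF hf
  have hpol := polar_qf hF hf
  have hnd : IsNondegenerateOn (QuadraticMap.polar (qf f)) (⊤ : Submodule F (Fin 3 → F)) := by
    rw [hpol]
    exact nondeg_top hf.nondegenerate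
  obtain ⟨ε, hε, w, -, hQw, hBw, hsp⟩ := frame3 hQ hF ⊤ (by simp) hnd
  refine ⟨-ε, w, neg_ne_zero.2 hε, ?_, ?_, fun v => hsp v trivial⟩
  · intro j
    have := hQw j
    simp only [qf] at this
    linear_combination -this
  · intro j j' h
    have := hBw j j' h
    rwa [hpol] at this

/-- the canonical property of frame vectors -/
def Fr (f : (Fin 3 → F) → (Fin 3 → F) → F) (v : Fin 3 → F) : Prop :=
  f v v ≠ 0 ∧ ∀ s, f s v = 0 → f s s = 0 → s = 0

section
variable {f : (Fin 3 → F) → (Fin 3 → F) → F} {ε : F} {w : Fin 3 → Fin 3 → F}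

theorem coord_form (hf : IsSymmetricForm f) (hw : IsFrame f ε w) (a b : Fin 3 → F) :
    f (a 0 • w 0 + a 1 • w 1 + a 2 • w 2) (b 0 • w 0 + b 1 • w 1 + b 2 • w 2) =
      ε * (a 0 * b 0 + a 1 * b 1 + a 2 * b 2) := by
  have h01 := hw.off 0 1 (by decide)
  have h02 := hw.off 0 2 (by decide)
  have h12 := hw.off 1 2 (by decide)
  have h10 := hw.off 1 0 (by decide)
  have h20 := hw.off 2 0 (by decide)
  have h21 := hw.off 2 1 (by decide)
  simp only [hf.bilinear.add_left, hf.bilinear.add_right, hf.bilinear.smul_left, hf.bilinear.smul_right,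
    hw.diag, h01, h02, h12, h10, h20, h21]
  ring

theorem Fr_w (hF : Fintype.card F = 3) (hf : IsSymmetricForm f) (hw : IsFrame f ε w) (j : Fin 3) : Fr f (w j) := by
  have h01 := hw.off 0 1 (by decide)
  have h02 := hw.off 0 2 (by decide)
  have h12 := hw.off 1 2 (by decide)
  have h10 := hw.off 1 0 (by decide)
  have h20 := hw.off 2 0 (by decide)
  have h21 := hw.off 2 1 (by decide)
  refine ⟨by rw [hw.diag]; exact hw.ne, ?_⟩
  intro s hs hss
  obtain ⟨a, rfl⟩ := hw.span s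
  rw [coord_form hf hw a a] at hss
  have hss' := (mul_eq_zero.1 hss).resolve_left hw.ne
  have e0 : f (a 0 • w 0 + a 1 • w 1 + a 2 • w 2) (w 0) = a 0 * ε := by
    simp only [hf.bilinear.add_left, hf.bilinear.smul_left, hw.diag, h10, h20]
    ring
  have e1 : f (a 0 • w 0 + a 1 • w 1 + a 2 • w 2) (w 1) = a 1 * ε := by
    simp only [hf.bilinear.add_left, hf.bilinear.smul_left, hw.diag, h01, h21]
    ring
  have e2 : f (a 0 • w 0 + a 1 • w 1 + a 2 • w 2) (w 2) = a 2 * ε := by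
    simp only [hf.bilinear.add_left, hf.bilinear.smul_left, hw.diag, h02, h12]
    ring
  fin_cases j
  · have hs' : f (a 0 • w 0 + a 1 • w 1 + a 2 • w 2) (w 0) = 0 := hs
    rw [e0] at hs'
    have h := (mul_eq_zero.1 hs').resolve_right hw.ne
    have h3 := anis hF (x := a 1) (y := a 2) (by rw [h] at hss'; linear_combination hss')
    rw [h, h3.1, h3.2]; simp
  · have hs' : f (a 0 • w 0 + a 1 • w 1 + a 2 • w 2) (w 1) = 0 := hs
    rw [e1] at hs'
    have h := (mul_eq_zero.1 hs').resolve_right hw.ne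
    have h3 := anis hF (x := a 0) (y := a 2) (by rw [h] at hss'; linear_combination hss')
    rw [h, h3.1, h3.2]; simp
  · have hs' : f (a 0 • w 0 + a 1 • w 1 + a 2 • w 2) (w 2) = 0 := hs
    rw [e2] at hs'
    have h := (mul_eq_zero.1 hs').resolve_right hw.ne
    have h3 := anis hF (x := a 0) (y := a 1) (by rw [h] at hss'; linear_combination hss')
    rw [h, h3.1, h3.2]; simp

theorem Fr_imp (hF : Fintype.card F = 3) (hf : IsSymmetricForm f) (hw : IsFrame f ε w) {v : Fin 3 → F} (hv : Fr f v) :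
    ∃ (j : Fin 3) (c : F), c ≠ 0 ∧ v = c • w j := by
  have h3 := three_zero hF
  obtain ⟨a, rfl⟩ := hw.span v
  obtain ⟨hv1, hv2⟩ := hv
  rw [coord_form hf hw a a] at hv1
  have hno : ∀ b : Fin 3 → F, a 0 * b 0 + a 1 * b 1 + a 2 * b 2 = 0 → b 0 ^ 2 + b 1 ^ 2 + b 2 ^ 2 = 0 → b = 0 := by
    intro b hb hb2
    have h1 : b 0 • w 0 + b 1 • w 1 + b 2 • w 2 = 0 := by
      apply hv2
      · rw [coord_form hf hw b a]
        have : b 0 * a 0 + b 1 * a 1 + b 2 * a 2 = 0 := by linear_combination hb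
        rw [this, mul_zero]
      · rw [coord_form hf hw b b]
        have : b 0 * b 0 + b 1 * b 1 + b 2 * b 2 = 0 := by linear_combination hb2
        rw [this, mul_zero]
    funext i
    have h5 := congrArg (fun s => f s (w i)) h1
    have hz : f 0 (w i) = 0 := by
      have := hf.bilinear.smul_left 0 0 (w i)
      simpa using this
    have h01 := hw.off 0 1 (by decide)
    have h02 := hw.off 0 2 (by decide)
    have h12 := hw.off 1 2 (by decide)
    have h10 := hw.off 1 0 (by decide)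
    have h20 := hw.off 2 0 (by decide)
    have h21 := hw.off 2 1 (by decide)
    simp only [hf.bilinear.add_left, hf.bilinear.smul_left, hz] at h5
    fin_cases i
    · simp only [hw.diag, h10, h20, mul_zero, add_zero, Fin.zero_eta, Pi.zero_apply] at h5 ⊢
      exact (mul_eq_zero.1 h5).resolve_right hw.ne
    · simp only [hw.diag, h01, h21, mul_zero, add_zero, zero_add, Fin.mk_one, Pi.zero_apply] at h5 ⊢
      exact (mul_eq_zero.1 h5).resolve_right hw.ne
    · simp only [hw.diag, h02, h12, mul_zero, zero_add, Fin.reduceFinMk, Pi.zero_apply] at h5 ⊢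
      exact (mul_eq_zero.1 h5).resolve_right hw.ne
  have hsq : ∀ x : F, x ≠ 0 → x ^ 2 = 1 := fun x hx => sq_one hF hx
  by_cases h0 : a 0 = 0 <;> by_cases h1 : a 1 = 0 <;> by_cases h2 : a 2 = 0
  · exfalso
    apply hv1
    rw [h0, h1, h2]
    ring
  · exact ⟨2, a 2, h2, by rw [h0, h1]; simp⟩
  · exact ⟨1, a 1, h1, by rw [h0, h2]; simp⟩
  · exfalso
    have := hno ![1, a 2, - a 1] (by simp [h0]; ring) (by
      simp
      rw [hsq _ h1, hsq _ h2]
      linear_combination h3)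
    have h5 := congrFun this 0
    simp at h5
  · exact ⟨0, a 0, h0, by rw [h1, h2]; simp⟩
  · exfalso
    have := hno ![a 2, 1, - a 0] (by simp [h1]; ring) (by
      simp
      rw [hsq _ h0, hsq _ h2]
      linear_combination h3)
    have h5 := congrFun this 1
    simp at h5
  · exfalso
    have := hno ![a 1, - a 0, 1] (by simp [h2]; ring) (by
      simp
      rw [hsq _ h0, hsq _ h1]
      linear_combination h3)
    have h5 := congrFun this 2
    simp at h5
  · exfalso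
    apply hv1
    have : a 0 * a 0 + a 1 * a 1 + a 2 * a 2 = 0 := by
      have e0 := hsq _ h0
      have e1 := hsq _ h1
      have e2 := hsq _ h2
      linear_combination e0 + e1 + e2 + h3
    rw [this, mul_zero]

theorem Fr_sim (hf : IsSymmetricForm f) (A : GL (Fin 3) F) {μ : F} (hμ : μ ≠ 0)
    (hA : ∀ u v, f ((A : Matrix (Fin 3) (Fin 3) F) *ᵥ u) ((A : Matrix (Fin 3) (Fin 3) F) *ᵥ v) = μ * f u v)
    {v : Fin 3 → F} (hv : Fr f v) : Fr f ((A : Matrix (Fin 3) (Fin 3) F) *ᵥ v) := by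
  refine ⟨by rw [hA]; exact mul_ne_zero hμ hv.1, ?_⟩
  intro s hs hss
  have e : (A : Matrix (Fin 3) (Fin 3) F) *ᵥ (((A⁻¹ : GL (Fin 3) F) : Matrix (Fin 3) (Fin 3) F) *ᵥ s) = s := by
    rw [mulVec_mulVec, ← Units.val_mul, mul_inv_cancel, Units.val_one, one_mulVec]
  rw [← e, hA] at hs
  rw [← e, hA] at hss
  have h1 := hv.2 _ ((mul_eq_zero.1 hs).resolve_left hμ) ((mul_eq_zero.1 hss).resolve_left hμ)
  rw [← e, h1, mulVec_zero]

end

section tensor
variable {ι : Type} [Fintype ι] [DecidableEq ι] {r : ℕ}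

/-- Abstract tensor data. -/
structure IsTensData (J : (Fin 3 → F) → (Fin r → F) →ₗ[F] (ι → F)) (h : (ι → F) → (ι → F) → F)
    (f₃ : (Fin 3 → F) → (Fin 3 → F) → F) (f₂ : (Fin r → F) → (Fin r → F) → F) (c : F) : Prop where
  hc : c ≠ 0
  smul : ∀ (k : F) w y, J (k • w) y = J w (k • y)
  add : ∀ w w' y, J (w + w') y = J w y + J w' y
  TF : ∀ w w' y y', h (J w y) (J w' y') = c * (f₃ w w' * f₂ y y')
  prop : ∀ a a' u u', a ≠ 0 → J a u = J a' u' → ∃ l : F, u = l • u'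

variable {J : (Fin 3 → F) → (Fin r → F) →ₗ[F] (ι → F)} {h : (ι → F) → (ι → F) → F}
  {f₃ : (Fin 3 → F) → (Fin 3 → F) → F} {f₂ : (Fin r → F) → (Fin r → F) → F} {c ε : F} {w : Fin 3 → Fin 3 → F}

theorem tens_stab (hF : Fintype.card F = 3) (hd : IsTensData J h f₃ f₂ c) (hf : IsSymmetricForm f₃) (hw : IsFrame f₃ ε w)
    {y₁ y₂ : Fin r → F} (hy : f₂ y₁ y₂ ≠ 0) (g : GL ι F) (A : GL (Fin 3) F) (B : GL (Fin r) F)
    (hg : ∀ a y, (g : Matrix ι ι F) *ᵥ J a y = J ((A : Matrix (Fin 3) (Fin 3) F) *ᵥ a) ((B : Matrix (Fin r) (Fin r) F) *ᵥ y))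
    (hpres : ∀ u v, h ((g : Matrix ι ι F) *ᵥ u) ((g : Matrix ι ι F) *ᵥ v) = h u v) :
    g ∈ decompositionStabilizer (fun j => LinearMap.range (J (w j))) := by
  classical
  have hp : ∀ a a' y y', f₃ ((A : Matrix (Fin 3) (Fin 3) F) *ᵥ a) ((A : Matrix (Fin 3) (Fin 3) F) *ᵥ a') * f₂ ((B : Matrix (Fin r) (Fin r) F) *ᵥ y) ((B : Matrix (Fin r) (Fin r) F) *ᵥ y') = f₃ a a' * f₂ y y' := by
    intro a a' y y'
    have h1 := hpres (J a y) (J a' y')
    rw [hg, hg, hd.TF, hd.TF] at h1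
    exact mul_left_cancel₀ hd.hc h1
  have hB : f₂ ((B : Matrix (Fin r) (Fin r) F) *ᵥ y₁) ((B : Matrix (Fin r) (Fin r) F) *ᵥ y₂) ≠ 0 := by
    intro h0
    have := hp (w 0) (w 0) y₁ y₂
    rw [h0, mul_zero, hw.diag] at this
    exact mul_ne_zero hw.ne hy this.symm
  have hμ : f₂ y₁ y₂ * (f₂ ((B : Matrix (Fin r) (Fin r) F) *ᵥ y₁) ((B : Matrix (Fin r) (Fin r) F) *ᵥ y₂))⁻¹ ≠ 0 :=
    mul_ne_zero hy (inv_ne_zero hB)
  have hsim : ∀ u v, f₃ ((A : Matrix (Fin 3) (Fin 3) F) *ᵥ u) ((A : Matrix (Fin 3) (Fin 3) F) *ᵥ v) = (f₂ y₁ y₂ * (f₂ ((B : Matrix (Fin r) (Fin r) F) *ᵥ y₁) ((B : Matrix (Fin r) (Fin r) F) *ᵥ y₂))⁻¹) * f₃ u v := by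
    intro u v
    have := hp u v y₁ y₂
    field_simp
    linear_combination this
  have hact : ∀ j, ∃ (j' : Fin 3) (k : F), k ≠ 0 ∧ (A : Matrix (Fin 3) (Fin 3) F) *ᵥ w j = k • w j' :=
    fun j => Fr_imp hF hf hw (Fr_sim hf A hμ hsim (Fr_w hF hf hw j))
  choose τ k hk hτ using hact
  have hτinj : Function.Injective τ := by
    intro i j hij
    by_contra hne
    have h1 := hsim (w i) (w j)
    rw [hw.off i j hne, mul_zero, hτ i, hτ j, hf.bilinear.smul_left, hf.bilinear.smul_right, hij, hw.diag] at h1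
    exact mul_ne_zero (hk i) (mul_ne_zero (hk j) hw.ne) h1
  let σ : Equiv.Perm (Fin 3) := Equiv.ofBijective τ (Finite.injective_iff_bijective.mp hτinj)
  refine ⟨σ, fun j => ?_⟩
  have hσ : σ j = τ j := rfl
  rw [hσ]
  apply le_antisymm
  · rintro _ ⟨x, ⟨y, rfl⟩, rfl⟩
    refine ⟨k j • ((B : Matrix (Fin r) (Fin r) F) *ᵥ y), ?_⟩
    change J (w (τ j)) _ = (g : Matrix ι ι F) *ᵥ _
    rw [hg, hτ j, hd.smul]
  · rintro _ ⟨y, rfl⟩
    refine ⟨J (w j) (((B⁻¹ : GL (Fin r) F) : Matrix (Fin r) (Fin r) F) *ᵥ ((k j)⁻¹ • y)), ⟨_, rfl⟩, ?_⟩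
    change (g : Matrix ι ι F) *ᵥ _ = _
    rw [hg, hτ j, hd.smul, mulVec_mulVec]
    have h5 : (B : Matrix (Fin r) (Fin r) F) * ((B⁻¹ : GL (Fin r) F) : Matrix (Fin r) (Fin r) F) = 1 := by
      rw [← Units.val_mul, mul_inv_cancel, Units.val_one]
    rw [h5, one_mulVec, smul_smul, mul_inv_cancel₀ (hk j), one_smul]

theorem not_tens (hd : IsTensData J h f₃ f₂ c) {w₀ w₁ : Fin 3 → F} (hw₀ : w₀ ≠ 0) (hw₁ : w₁ ≠ 0)
    (T : GL ι F) (A : GL (Fin 3) F) (B : GL (Fin r) F)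
    (hg : ∀ a y, (T : Matrix ι ι F) *ᵥ J a y = J ((A : Matrix (Fin 3) (Fin 3) F) *ᵥ a) ((B : Matrix (Fin r) (Fin r) F) *ᵥ y))
    {y y' : Fin r → F} (hy : y ≠ 0) (h1 : (T : Matrix ι ι F) *ᵥ J w₁ y = J w₁ y)
    (h0 : (T : Matrix ι ι F) *ᵥ J w₀ y = J w₀ y') (hne : ∀ l : F, y' ≠ l • y) : False := by
  rw [hg] at h1 h0
  obtain ⟨l₁, hl₁⟩ := hd.prop w₁ _ y _ hw₁ h1.symm
  obtain ⟨l₂, hl₂⟩ := hd.prop w₀ _ y' _ hw₀ h0.symm
  have hl₁0 : l₁ ≠ 0 := by
    rintro rfl
    apply hy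
    rw [hl₁, zero_smul]
  have hBy : (B : Matrix (Fin r) (Fin r) F) *ᵥ y = l₁⁻¹ • y := by
    rw [eq_inv_smul_iff₀ hl₁0]
    exact hl₁.symm
  rw [hBy, smul_smul] at hl₂
  exact hne _ hl₂

end tensor

section omega
variable {ι : Type} [Fintype ι] [DecidableEq ι] {Q : (ι → F) → F}

theorem RR_mem_omega (hQ : IsNondegenerateQuadraticForm Q) (h2 : (2 : F) ≠ 0) (hn : 2 ≤ Fintype.card ι) {x y : ι → F}
    (hx : Q x ≠ 0) (hxy : Q y = Q x) : R Q x * R Q y ∈ omegaGL Q := by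
  have hy : Q y ≠ 0 := by rw [hxy]; exact hx
  have hρ : prodR hQ [x, y] ∈ Omega F Q := by
    rw [list_mem_omega_iff hQ h2 hn]
    · refine ⟨by simp, ?_⟩
      simp only [List.map_cons, List.map_nil, List.prod_cons, List.prod_nil, mul_one]
      rw [hxy]
      exact ⟨Q x, rfl⟩
    · intro v hv
      simp only [List.mem_cons, List.not_mem_nil, or_false] at hv
      rcases hv with rfl | rfl
      · exact hx
      · exact hy
  have hv : ((prodR hQ [x, y] : ↥(isometryGroup F Q)) : GL ι F) = R Q x * R Q y := by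
    rw [prodR_cons, prodR_cons, prodR_nil, mul_one, rr_eq hQ hx, rr_eq hQ hy]
    rfl
  rw [← hv]
  exact ⟨_, hρ, rfl⟩

theorem polar_of_omega (g : GL ι F) (hg : g ∈ omegaGL Q) (u v : ι → F) :
    QuadraticMap.polar Q ((g : Matrix ι ι F) *ᵥ u) ((g : Matrix ι ι F) *ᵥ v) = QuadraticMap.polar Q u v := by
  obtain ⟨h, -, rfl⟩ := hg
  have h2 := (mem_O_iff _).1 h.2
  change QuadraticMap.polar Q (((h.1 : GL ι F) : Matrix ι ι F) *ᵥ u) (((h.1 : GL ι F) : Matrix ι ι F) *ᵥ v) = _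
  unfold QuadraticMap.polar
  rw [← Matrix.mulVec_add, h2, h2, h2]

/-- The main construction, for `Ω`. -/
theorem omega_main (hF : Fintype.card F = 3) (hQ : IsNondegenerateQuadraticForm Q) (hn : 2 ≤ Fintype.card ι) {n₂ : ℕ}
    (hn₂ : 3 ≤ n₂) (e : ι ≃ Fin 3 × Fin n₂) (P : GL ι F) {f₁ : (Fin 3 → F) → (Fin 3 → F) → F}
    {f₂ : (Fin n₂ → F) → (Fin n₂ → F) → F} (hf₁ : IsSymmetricForm f₁) (hf₂ : IsSymmetricForm f₂)
    (hT : IsTensorFormStructure id (QuadraticMap.polar Q) f₁ f₂ e P) :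
    ∃ K : Subgroup (GL ι F), tensorProductSubgroup 3 n₂ e P ⊓ omegaGL Q < K ∧ K < omegaGL Q := by
  classical
  have h2 := two_ne hF
  have h3 := three_zero hF
  obtain ⟨c, hc, hH⟩ := hT
  have TF : ∀ (w w' : Fin 3 → F) (y y' : Fin n₂ → F),
      QuadraticMap.polar Q (Jl e P w y) (Jl e P w' y') = c * (f₁ w w' * f₂ y y') := by
    intro w w' y y'
    have h1 := hH (tens w y) (tens w' y')
    rw [gram_tens (σ := id) (fun a b => rfl), ← form_eq (σ := id) f₁ hf₁.bilinear.add_left hf₁.bilinear.smul_left hf₁.bilinear.add_right hf₁.bilinear.smul_right,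
      ← form_eq (σ := id) f₂ hf₂.bilinear.add_left hf₂.bilinear.smul_left hf₂.bilinear.add_right hf₂.bilinear.smul_right] at h1
    exact h1
  have hd : IsTensData (Jl e P) (QuadraticMap.polar Q) f₁ f₂ c :=
    ⟨hc, fun k w y => by rw [Jl_apply, Jl_apply, tens_smul_swap], fun w w' y => by
      rw [Jl_apply, Jl_apply, Jl_apply, tens_add_left, map_add], TF,
      fun a a' u u' ha h => tens_prop (iota_inj e P h) ha⟩
  obtain ⟨ε, w, hfr⟩ := exists_frame hF hf₁
  obtain ⟨y₁, y₂, z, h21, h11, hzz, h12, h1z, h2z⟩ := three_orth hF hf₂ hn₂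
  have h01' : (0 : Fin 3) ≠ 1 := by decide
  let D : Fin 3 → Submodule F (ι → F) := fun j => LinearMap.range (Jl e P (w j))
  have hQv : ∀ v, Q v = - QuadraticMap.polar Q v v := by
    intro v
    rw [B_self hQ]
    linear_combination (Q v) * h3
  have hQJ : ∀ a y, Q (Jl e P a y) = -(c * (f₁ a a * f₂ y y)) := by
    intro a y
    rw [hQv, TF]
  set κ := f₂ y₁ y₁ with hκ
  have hε := hfr.ne
  have hw0 := hfr.diag
  have hoff := hfr.off
  -- a, b
  have hQa : Q (Jl e P (w 0) y₁) ≠ 0 := by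
    rw [hQJ, hw0]
    exact neg_ne_zero.2 (mul_ne_zero hc (mul_ne_zero hε h11))
  have hQb : Q (Jl e P (w 0) y₂) = Q (Jl e P (w 0) y₁) := by
    rw [hQJ, hQJ, h21]
  have hww : f₁ (w 0 + w 1) (w 0 + w 1) = 2 * ε := by
    rw [hf₁.bilinear.add_left, hf₁.bilinear.add_right, hf₁.bilinear.add_right, hw0, hw0, hoff 0 1 h01', hoff 1 0 h01'.symm]
    ring
  have hQa' : Q (Jl e P (w 0 + w 1) y₁) ≠ 0 := by
    rw [hQJ, hww]
    exact neg_ne_zero.2 (mul_ne_zero hc (mul_ne_zero (mul_ne_zero h2 hε) h11))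
  have hQb' : Q (Jl e P (w 0 + w 1) y₂) = Q (Jl e P (w 0 + w 1) y₁) := by
    rw [hQJ, hQJ, h21]
  have hpair : ∀ j l, j ≠ l → ∀ x ∈ D j, ∀ u, QuadraticMap.polar Q x (Jl e P (w l) u) = 0 := by
    rintro j l hjl _ ⟨v, rfl⟩ u
    rw [TF, hoff j l hjl]
    simp
  -- reflections in the first block stabilise the decomposition
  have hRstab : ∀ y, Q (Jl e P (w 0) y) ≠ 0 → R Q (Jl e P (w 0) y) ∈ decompositionStabilizer D := by
    intro y hy
    apply stab_of_le
    intro j x hx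
    rw [R_mulVec hQ hy]
    by_cases hj : j = 0
    · subst hj
      exact Submodule.sub_mem _ hx (Submodule.smul_mem _ _ ⟨y, rfl⟩)
    · rw [hpair j 0 hj x hx, mul_zero, zero_smul, sub_zero]
      exact hx
  let T : GL ι F := R Q (Jl e P (w 0) y₁) * R Q (Jl e P (w 0) y₂)
  have hTΩ : T ∈ omegaGL Q := RR_mem_omega hQ h2 hn hQa hQb
  have hTstab : T ∈ decompositionStabilizer D :=
    Subgroup.mul_mem _ (hRstab _ hQa) (hRstab _ (by rw [hQb]; exact hQa))
  have hQb0 : Q (Jl e P (w 0) y₂) ≠ 0 := by rw [hQb]; exact hQa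
  have hTnot : T ∉ tensorProductSubgroup 3 n₂ e P := by
    intro hmem
    obtain ⟨A, B, hAB⟩ := tensor_act e P T hmem
    have hg : ∀ a y, (T : Matrix ι ι F) *ᵥ Jl e P a y = Jl e P ((A : Matrix (Fin 3) (Fin 3) F) *ᵥ a) ((B : Matrix (Fin n₂) (Fin n₂) F) *ᵥ y) := hAB
    have hw0ne : ∀ j, w j ≠ 0 := by
      intro j hj
      have h5 := hw0 j
      rw [hj] at h5
      have h6 := hf₁.bilinear.smul_left 0 0 0
      simp only [zero_smul, zero_mul] at h6
      rw [h6] at h5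
      exact hε h5.symm
    have hy0 : y₁ + z ≠ 0 := by
      intro h0
      have h5 : f₂ (y₁ + z) z = 0 := by
        rw [h0]
        have h6 := hf₂.bilinear.smul_left 0 0 z
        simpa using h6
      rw [hf₂.bilinear.add_left, h1z, zero_add] at h5
      exact hzz h5
    refine not_tens hd (hw0ne 0) (hw0ne 1) T A B hg (y := y₁ + z) (y' := y₁ + z + y₁) hy0 ?_ ?_ ?_
    · have e0 : QuadraticMap.polar Q (Jl e P (w 1) (y₁ + z)) (Jl e P (w 0) y₂) = 0 := by
        rw [TF, hoff 1 0 h01'.symm]; simp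
      have e1 : QuadraticMap.polar Q (Jl e P (w 1) (y₁ + z)) (Jl e P (w 0) y₁) = 0 := by
        rw [TF, hoff 1 0 h01'.symm]; simp
      rw [mul_mulVec, R_mulVec hQ hQb0, e0, mul_zero, zero_smul, sub_zero, R_mulVec hQ hQa, e1, mul_zero, zero_smul, sub_zero]
    · rw [mul_mulVec, R_mulVec hQ hQb0, TF, hw0]
      have e2 : f₂ (y₁ + z) y₂ = 0 := by
        rw [hf₂.bilinear.add_left, h12, hf₂.symm z y₂, h2z, add_zero]
      rw [e2, mul_zero, mul_zero, mul_zero, zero_smul, sub_zero, R_mulVec hQ hQa, TF, hw0, hQJ, hw0]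
      have e3 : f₂ (y₁ + z) y₁ = κ := by
        rw [hf₂.bilinear.add_left, hf₂.symm z y₁, h1z, add_zero]
      rw [e3]
      have e4 : (-(c * (ε * f₂ y₁ y₁)))⁻¹ * (c * (ε * κ)) = -1 := by
        rw [← hκ]
        field_simp
      rw [e4, neg_one_smul, sub_neg_eq_add, ← map_add]
    · intro l h0
      have h5 := congrArg (fun v => f₂ v z) h0
      have h6 := congrArg (fun v => f₂ v y₁) h0
      simp only [hf₂.bilinear.add_left, hf₂.bilinear.smul_left, h1z] at h5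
      simp only [hf₂.bilinear.add_left, hf₂.bilinear.smul_left, hf₂.symm z y₁, h1z] at h6
      have e5 : l = 1 := by
        have : (1 - l) * f₂ z z = 0 := by linear_combination h5
        have := (mul_eq_zero.1 this).resolve_right hzz
        linear_combination -this
      subst e5
      have : κ = 0 := by
        rw [← hκ] at h6
        linear_combination h6
      exact h11 this
  -- the second witness
  let T' : GL ι F := R Q (Jl e P (w 0 + w 1) y₁) * R Q (Jl e P (w 0 + w 1) y₂)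
  have hT'Ω : T' ∈ omegaGL Q := RR_mem_omega hQ h2 hn hQa' hQb'
  have hQb'0 : Q (Jl e P (w 0 + w 1) y₂) ≠ 0 := by rw [hQb']; exact hQa'
  have h001 : f₁ (w 0) (w 0 + w 1) = ε := by
    rw [hf₁.bilinear.add_right, hw0, hoff 0 1 h01', add_zero]
  have h011 : f₁ (w 0 + w 1) (w 1) = ε := by
    rw [hf₁.bilinear.add_left, hw0, hoff 0 1 h01', zero_add]
  have hT'not : T' ∉ decompositionStabilizer D := by
    rintro ⟨σ, hσ⟩
    by_cases h0 : σ 0 = 0
    · have hx : (T' : Matrix ι ι F) *ᵥ Jl e P (w 0) y₂ ∈ D (σ 0) := by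
        rw [← hσ 0]
        exact ⟨_, ⟨y₂, rfl⟩, rfl⟩
      rw [h0] at hx
      have h5 := hpair 0 1 h01' _ hx y₂
      rw [mul_mulVec, R_mulVec hQ hQb'0, R_mulVec hQ hQa'] at h5
      rw [hQJ, hww, TF, h001, h21] at h5
      have e1 : QuadraticMap.polar Q (Jl e P (w 0) y₂ - ((-(c * (2 * ε * κ)))⁻¹ * (c * (ε * κ))) • Jl e P (w 0 + w 1) y₂) (Jl e P (w 0 + w 1) y₁) = 0 := by
        rw [B_sub_left hQ, B_smul_left hQ, TF, TF, hf₂.symm y₂ y₁, h12]
        simp
      rw [e1] at h5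
      simp only [mul_zero, zero_smul, sub_zero] at h5
      rw [B_sub_left hQ, B_smul_left hQ, TF, TF, h011, hoff 0 1 h01', h21] at h5
      have e2 : (-(c * (2 * ε * κ)))⁻¹ * (c * (ε * κ)) = 1 := by
        have h6 : (2 : F) * 2 = 1 := by linear_combination h3
        field_simp
        linear_combination -h3
      rw [e2] at h5
      have : c * (ε * κ) = 0 := by linear_combination -h5
      exact mul_ne_zero hc (mul_ne_zero hε h11) this
    · have hx : (T' : Matrix ι ι F) *ᵥ Jl e P (w 0) z ∈ D (σ 0) := by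
        rw [← hσ 0]
        exact ⟨_, ⟨z, rfl⟩, rfl⟩
      have hfix : (T' : Matrix ι ι F) *ᵥ Jl e P (w 0) z = Jl e P (w 0) z := by
        rw [mul_mulVec, R_mulVec hQ hQb'0, TF, hf₂.symm z y₂, h2z, mul_zero, mul_zero, mul_zero, zero_smul, sub_zero,
          R_mulVec hQ hQa', TF, hf₂.symm z y₁, h1z, mul_zero, mul_zero, mul_zero, zero_smul, sub_zero]
      rw [hfix] at hx
      have h5 := hpair (σ 0) 0 h0 _ hx z
      rw [TF, hw0] at h5
      exact mul_ne_zero hc (mul_ne_zero hε hzz) h5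
  have hle : ∀ g : GL ι F, g ∈ tensorProductSubgroup 3 n₂ e P → g ∈ omegaGL Q → g ∈ decompositionStabilizer D := by
    intro g hgt hgO
    obtain ⟨A, B, hAB⟩ := tensor_act e P g hgt
    exact tens_stab hF hd hf₁ hfr (y₁ := y₁) (y₂ := y₁) h11 g A B hAB (polar_of_omega g hgO)
  refine ⟨decompositionStabilizer D ⊓ omegaGL Q, ?_, ?_⟩
  · rw [SetLike.lt_iff_le_and_exists]
    refine ⟨?_, T, ⟨hTstab, hTΩ⟩, fun h => hTnot h.1⟩
    rintro g ⟨hgt, hgO⟩
    exact ⟨hle g hgt hgO, hgO⟩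
  · rw [SetLike.lt_iff_le_and_exists]
    exact ⟨inf_le_right, T', hT'Ω, fun h => hT'not h.1⟩

end omega

end Cfsg.Agent.Lib.TensFrame3
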