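import Cfsg.Agent.Lib.OrthBasis
import Cfsg.Agent.Lib.OrthGram
import Cfsg.Agent.S0833

set_option autoImplicit false

/-! Discriminants and totally isotropic subspaces of half the dimension. -/

namespace Cfsg.Agent.Lib.TensorDisc

open Cfsg Cfsg.Geo Cfsg.Agent.Lib.OrthE Cfsg.Agent.Lib.OrthBasis
open scoped Kronecker TensorProduct

variable {F V : Type*} [Field F] [AddCommGroup V] [Module F V]

local notation "gram" => Cfsg.Agent.Lib.OrthGram.gram

theorem ti_span (B : LinearMap.BilinForm F V) (s : Set V) (h : ∀ x ∈ s, ∀ y ∈ s, B x y = 0) :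
    ∀ x ∈ Submodule.span F s, ∀ y ∈ Submodule.span F s, B x y = 0 := by
  intro x hx y hy
  induction hx using Submodule.span_induction with
  | mem x hx =>
    induction hy using Submodule.span_induction with
    | mem y hy => exact h x hx y hy
    | zero => simp
    | add y z _ _ h1 h2 => rw [map_add, h1, h2, add_zero]
    | smul c y _ h1 => rw [map_smul, h1, smul_zero]
  | zero => simp
  | add x z _ _ h1 h2 => rw [map_add, LinearMap.add_apply, h1, h2, add_zero]
  | smul c x _ h1 => rw [map_smul, LinearMap.smul_apply, h1, smul_zero]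

/-- A totally isotropic subspace of half the dimension forces the discriminant. -/
theorem ti_square [FiniteDimensional F V] (B : LinearMap.BilinForm F V) (hS : B.IsSymm) {d : ℕ}
    (hV : Module.finrank F V = 2 * d) (X : Submodule F V) (hX : Module.finrank F X = d)
    (hti : ∀ x ∈ X, ∀ y ∈ X, B x y = 0) {κ : Type*} [Fintype κ] [DecidableEq κ] (c : Module.Basis κ F V) :
    IsSquare ((-1) ^ d * (gram B c).det) := by
  classical
  obtain ⟨Y, hY⟩ := Submodule.exists_isCompl X
  have hYd : Module.finrank F Y = d := by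
    have := Submodule.finrank_add_eq_of_isCompl hY
    omega
  let b₁ : Module.Basis (Fin d) F X := Module.finBasisOfFinrankEq F X hX
  let b₂ : Module.Basis (Fin d) F Y := Module.finBasisOfFinrankEq F Y hYd
  let b : Module.Basis (Fin d ⊕ Fin d) F V := (b₁.prod b₂).map (Submodule.prodEquivOfIsCompl X Y hY)
  have hb1 : ∀ i, b (Sum.inl i) = (b₁ i : V) := by
    intro i
    simp [b]
  have hb2 : ∀ i, b (Sum.inr i) = (b₂ i : V) := by
    intro i
    simp [b]
  let A : Matrix (Fin d) (Fin d) F := Matrix.of fun i j => B (b (Sum.inl i)) (b (Sum.inr j))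
  let C : Matrix (Fin d) (Fin d) F := Matrix.of fun i j => B (b (Sum.inr i)) (b (Sum.inr j))
  have hg : gram B b = Matrix.fromBlocks 0 A A.transpose C := by
    ext i j
    rcases i with i | i <;> rcases j with j | j
    · simp only [Cfsg.Agent.Lib.OrthGram.gram, Matrix.of_apply, Matrix.fromBlocks_apply₁₁, Matrix.zero_apply]
      rw [hb1, hb1]
      exact hti _ (b₁ i).2 _ (b₁ j).2
    · simp [Cfsg.Agent.Lib.OrthGram.gram, A]
    · simp only [Cfsg.Agent.Lib.OrthGram.gram, Matrix.of_apply, Matrix.fromBlocks_apply₂₁, Matrix.transpose_apply, A]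
      exact (hS.eq _ _).symm
    · simp [Cfsg.Agent.Lib.OrthGram.gram, C]
  have hmul : Matrix.fromBlocks 0 A A.transpose C *
      Matrix.fromBlocks (0 : Matrix (Fin d) (Fin d) F) 1 1 0 = Matrix.fromBlocks A 0 C A.transpose := by
    rw [Matrix.fromBlocks_multiply]
    simp
  have hdet : (gram B b).det * (-1) ^ d = A.det * A.det := by
    have h1 := congrArg Matrix.det hmul
    rw [Matrix.det_mul, Cfsg.Agent.Lib.OrthGram.det_hyp, Matrix.det_fromBlocks_zero₁₂, Matrix.det_transpose, ← hg] at h1
    exact h1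
  obtain ⟨u, hu, hc⟩ := Cfsg.Agent.Lib.OrthGram.gram_change B c b
  refine ⟨u * A.det, ?_⟩
  rw [hc]
  linear_combination (u ^ 2) * hdet

section Exists

variable [Fintype F]

/-- A square discriminant (up to the sign) gives a totally isotropic subspace of half the
dimension. -/
theorem exists_ti_of_square [FiniteDimensional F V] (h2 : (2 : F) ≠ 0) (B : LinearMap.BilinForm F V)
    (hS : B.IsSymm) (hN : B.Nondegenerate) {d : ℕ} (hd : 1 ≤ d)
    (hV : Module.finrank F V = 2 * d) {κ : Type*} [Fintype κ] [DecidableEq κ] (c : Module.Basis κ F V)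
    (hsq : IsSquare ((-1) ^ d * (gram B c).det)) :
    ∃ X : Submodule F V, Module.finrank F X = d ∧ ∀ x ∈ X, ∀ y ∈ X, B x y = 0 := by
  classical
  let e : V ≃ₗ[F] (Fin (2 * d) → F) := LinearEquiv.ofFinrankEq V (Fin (2 * d) → F) (by simp [hV])
  let Q : (Fin (2 * d) → F) → F := fun x => 2⁻¹ * B (e.symm x) (e.symm x)
  have hp : ∀ x y, QuadraticMap.polar Q x y = B (e.symm x) (e.symm y) := by
    intro x y
    simp only [QuadraticMap.polar, Q, map_add, LinearMap.add_apply]
    rw [hS.eq (e.symm y) (e.symm x)]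
    field_simp
    ring
  have hQ : IsNondegenerateQuadraticForm Q := by
    refine ⟨?_, ?_, ?_⟩
    · intro a x
      simp only [Q, map_smul, LinearMap.smul_apply, smul_eq_mul]
      ring
    · constructor
      · intro x y v
        simp only [hp, map_add, LinearMap.add_apply]
      · intro a x v
        simp only [hp, map_smul, LinearMap.smul_apply, smul_eq_mul]
      · intro v x y
        simp only [hp, map_add]
      · intro a v x
        simp only [hp, map_smul, smul_eq_mul]
    · intro v hv
      have hv' : e.symm v ≠ 0 := by simpa using hv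
      constructor
      · by_contra hcon
        push Not at hcon
        apply hv'
        apply hN.2
        intro w
        have := hcon (e w)
        rw [hp] at this
        simpa using this
      · by_contra hcon
        push Not at hcon
        apply hv'
        apply hN.1
        intro w
        have := hcon (e w)
        rw [hp] at this
        simpa using this
  rcases even_basis hQ hd (by simp) with ⟨b, h1, h3, h4⟩ | ⟨b, ζ, hζ, h1, h3, h4, h5, h6, h7, h8⟩
  · -- the plus case
    refine ⟨Submodule.span F (Set.range fun i => e.symm (b (Sum.inl i))), ?_, ?_⟩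
    · have hli : LinearIndependent F (fun i => e.symm (b (Sum.inl i))) := by
        have h5 := b.linearIndependent.comp (Sum.inl : Fin d → Fin d ⊕ Fin d) Sum.inl_injective
        exact h5.map' (e.symm : (Fin (2 * d) → F) →ₗ[F] V) (by simp)
      rw [finrank_span_eq_card hli, Fintype.card_fin]
    · apply ti_span
      rintro _ ⟨i, rfl⟩ _ ⟨j, rfl⟩
      rw [← hp]
      exact (h4 i j).1
  · -- the minus case cannot occur
    exfalso
    let b' : Module.Basis ((Fin (d - 1) ⊕ Fin (d - 1)) ⊕ Fin 2) F V := b.map e.symm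
    have hb' : ∀ i j, B (b' i) (b' j) = QuadraticMap.polar Q (b i) (b j) := by
      intro i j
      rw [hp]
      simp [b']
    have hself : ∀ x, QuadraticMap.polar Q x x = 2 * Q x := fun x => B_self hQ x
    have hg : gram B b' = Matrix.fromBlocks (Matrix.fromBlocks (0 : Matrix (Fin (d - 1)) (Fin (d - 1)) F) 1 1 0) 0 0
        !![2, 1; 1, 2 * ζ] := by
      ext i j
      simp only [Cfsg.Agent.Lib.OrthGram.gram, Matrix.of_apply, hb']
      rcases i with (i | i) | i <;> rcases j with (j | j) | j
      · simpa using (h4 i j).1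
      · simpa [Matrix.one_apply] using h3 i j
      · simpa using (h5 i j).1
      · rw [B_comm hQ]
        simpa [Matrix.one_apply, eq_comm] using h3 j i
      · simpa using (h4 i j).2
      · simpa using (h5 i j).2
      · rw [B_comm hQ]
        simpa using (h5 j i).1
      · rw [B_comm hQ]
        simpa using (h5 j i).2
      · fin_cases i <;> fin_cases j
        · simp [hself, h6]
        · simpa using h7
        · simp only [Fin.mk_one, Fin.zero_eta, Fin.isValue, Matrix.fromBlocks_apply₂₂]
          rw [B_comm hQ, h7]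
          simp
        · simp [hself, h8]
    have hdet : (gram B b').det = (-1) ^ (d - 1) * (4 * ζ - 1) := by
      rw [hg, Matrix.det_fromBlocks_zero₂₁, Cfsg.Agent.Lib.OrthGram.det_hyp, Matrix.det_fin_two]
      simp
      ring
    obtain ⟨u, hu, hc⟩ := Cfsg.Agent.Lib.OrthGram.gram_change B c b'
    obtain ⟨w, hw⟩ := hsq
    rw [hc, hdet] at hw
    obtain ⟨k, rfl⟩ : ∃ k, d = k + 1 := ⟨d - 1, by omega⟩
    simp only [Nat.add_sub_cancel] at hw
    have hsgn : ((-1 : F) ^ (k + 1)) * (-1) ^ k = -1 := by
      rw [pow_succ]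
      have : ((-1 : F) ^ k) * (-1) ^ k = 1 := by
        rw [← mul_pow]
        simp
      linear_combination (-1 : F) * this
    have hw2 : (w / u) ^ 2 = 1 - 4 * ζ := by
      have h9 : w * w = u ^ 2 * (1 - 4 * ζ) := by
        rw [← hw]
        linear_combination (u ^ 2 * (4 * ζ - 1)) * hsgn
      field_simp
      linear_combination h9
    generalize w / u = s at hw2
    apply hζ ((-1 + s) / 2)
    field_simp
    linear_combination hw2

end Exists

section Tensor

variable {U W : Type*} [AddCommGroup U] [Module F U] [AddCommGroup W] [Module F W]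

theorem gram_tensor (B₁ : LinearMap.BilinForm F U) (B₂ : LinearMap.BilinForm F W) {κ₁ κ₂ : Type*}
    [Fintype κ₁] [DecidableEq κ₁] [Fintype κ₂] [DecidableEq κ₂]
    (b₁ : Module.Basis κ₁ F U) (b₂ : Module.Basis κ₂ F W) :
    (gram (B₁.tmul B₂) (b₁.tensorProduct b₂)).det =
      (gram B₁ b₁).det ^ Fintype.card κ₂ * (gram B₂ b₂).det ^ Fintype.card κ₁ := by
  have h : gram (B₁.tmul B₂) (b₁.tensorProduct b₂) = (gram B₁ b₁) ⊗ₖ (gram B₂ b₂) := by
    ext ⟨i, j⟩ ⟨k, l⟩
    simp only [Cfsg.Agent.Lib.OrthGram.gram, Matrix.of_apply, Module.Basis.tensorProduct_apply,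
      Cfsg.Agent.S0833.tm_apply, Matrix.kroneckerMap_apply, smul_eq_mul]
    ring
  rw [h, Matrix.det_kronecker]

theorem tensor_nondeg [FiniteDimensional F U] [FiniteDimensional F W] (B₁ : LinearMap.BilinForm F U)
    (B₂ : LinearMap.BilinForm F W) (h₁ : B₁.Nondegenerate) (h₂ : B₂.Nondegenerate)
    (hS₁ : B₁.IsSymm) (hS₂ : B₂.IsSymm) : (B₁.tmul B₂).Nondegenerate ∧ LinearMap.BilinForm.IsSymm (B₁.tmul B₂) := by
  have hsymm : ∀ x y, (B₁.tmul B₂) x y = (B₁.tmul B₂) y x :=
    Cfsg.Agent.S0833.tm_symm B₁ B₂ (fun a c b d => by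
      rw [hS₁.eq a c, hS₂.eq b d])
  refine ⟨⟨?_, ?_⟩, ⟨fun x y => by simpa using hsymm x y⟩⟩
  · intro x hx
    apply Cfsg.Agent.S0833.tm_sepR B₁ B₂ h₁ h₂
    intro y
    rw [hsymm]
    exact hx y
  · intro x hx
    exact Cfsg.Agent.S0833.tm_sepR B₁ B₂ h₁ h₂ x hx

end Tensor

end Cfsg.Agent.Lib.TensorDisc
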