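import Cfsg.Prelude.Def_SporadicCombinatorics
import Mathlib.Tactic

/-! The length-12 ternary code, explicitly: six free coordinates. -/

set_option autoImplicit false

namespace Cfsg.Agent.TernaryCode

open Cfsg

/-- Parameters: the six free coordinates. -/
abbrev T6 : Type := ZMod 3 × ZMod 3 × ZMod 3 × ZMod 3 × ZMod 3 × ZMod 3

theorem sum3 (f : ZMod 3 → ZMod 3) : ∑ r, f r = f 0 + f 1 + f 2 :=
  Fin.sum_univ_three (M := ZMod 3) f

/-- The word with given free coordinates, as a table by position. -/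
def wd : T6 → ArrayPt → ZMod 3
  | (a, b, c, d, e, f), (i, r) =>
    match i.val, r.val with
    | 0, 0 => a
    | 0, 1 => b
    | 0, 2 => c
    | 1, 0 => d
    | 1, 1 => e
    | 1, 2 => a + b + c + 2 * d + 2 * e
    | 2, 0 => f
    | 2, 1 => 2 * b + c + 2 * d + e + f
    | 2, 2 => a + 2 * b + d + 2 * e + f
    | 3, 0 => a + 2 * b + 2 * c + 2 * d + 2 * f
    | 3, 1 => a + c + d + e + 2 * f
    | 3, 2 => 2 * a + 2 * b + c + 2 * e + 2 * f
    | _, _ => 0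

/-- The scalar of the word. -/
def sc : T6 → ZMod 3
  | (a, b, c, d, e, f) => 2 * a + 2 * b + 2 * c

/-- Every element in the table satisfies the column conditions. -/
theorem wd_col : ∀ (a : T6) (i : Fin 4), ∑ r : ZMod 3, wd a (i, r) = -sc a := by
  decide +kernel

theorem wd_tet : ∀ (a : T6) (u v : ZMod 3),
    ∑ i : Fin 4, wd a (i, u * (![0, 1, 1, 1] : Fin 4 → ZMod 3) i + v * (![1, 0, 1, 2] : Fin 4 → ZMod 3) i) = sc a := by
  decide +kernel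

theorem wd_mem (a : T6) : wd a ∈ ternaryGolayCode := by
  refine ⟨sc a, wd_col a, ?_⟩
  intro t ht
  obtain ⟨u, v, rfl⟩ := Submodule.mem_span_pair.1 ht
  exact wd_tet a u v

/-- The free coordinates of a vector. -/
def fr (x : ArrayPt → ZMod 3) : T6 := (x (0, 0), x (0, 1), x (0, 2), x (1, 0), x (1, 1), x (2, 0))

theorem wd_fr {x : ArrayPt → ZMod 3} (hx : x ∈ ternaryGolayCode) : wd (fr x) = x := by
  obtain ⟨s, h1, h2⟩ := hx
  have h3 : (3 : ZMod 3) = 0 := by decide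
  have e0 : x (0, 0) + x (0, 1) + x (0, 2) = -s := by
    have := h1 0
    rwa [sum3] at this
  have e1 : x (1, 0) + x (1, 1) + x (1, 2) = -s := by
    have := h1 1
    rwa [sum3] at this
  have e2 : x (2, 0) + x (2, 1) + x (2, 2) = -s := by
    have := h1 2
    rwa [sum3] at this
  have e3 : x (3, 0) + x (3, 1) + x (3, 2) = -s := by
    have := h1 3
    rwa [sum3] at this
  have e4 : x (0, 0) + x (1, 0) + x (2, 0) + x (3, 0) = s := by
    have := h2 (0 • ![0, 1, 1, 1] + 0 • ![1, 0, 1, 2]) (Submodule.mem_span_pair.2 ⟨0, 0, rfl⟩)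
    rw [Fin.sum_univ_four] at this
    exact this
  have e5 : x (0, 1) + x (1, 0) + x (2, 1) + x (3, 2) = s := by
    have := h2 (0 • ![0, 1, 1, 1] + 1 • ![1, 0, 1, 2]) (Submodule.mem_span_pair.2 ⟨0, 1, rfl⟩)
    rw [Fin.sum_univ_four] at this
    exact this
  have e7 : x (0, 0) + x (1, 1) + x (2, 1) + x (3, 1) = s := by
    have := h2 (1 • ![0, 1, 1, 1] + 0 • ![1, 0, 1, 2]) (Submodule.mem_span_pair.2 ⟨1, 0, rfl⟩)
    rw [Fin.sum_univ_four] at this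
    exact this
  funext p
  obtain ⟨i, r⟩ := p
  fin_cases i <;> fin_cases r
  · rfl
  · rfl
  · rfl
  · rfl
  · rfl
  · show x (0, 0) + x (0, 1) + x (0, 2) + 2 * x (1, 0) + 2 * x (1, 1) = x (1, 2)
    linear_combination (-2) * e0 + (-1) * e1 + ((1) * x (0, 0) + (1) * x (0, 1) + (1) * x (0, 2) + (1) * x (1, 0) + (1) * x (1, 1) + (1) * s) * h3
  · rfl
  · show 2 * x (0, 1) + x (0, 2) + 2 * x (1, 0) + x (1, 1) + x (2, 0) = x (2, 1)
    linear_combination (-2) * e0 + (-1) * e3 + (-2) * e4 + (-2) * e5 + (-2) * e7 + ((2) * x (0, 0) + (2) * x (0, 1) + (1) * x (0, 2) + (2) * x (1, 0) + (1) * x (1, 1) + (1) * x (2, 0) + (1) * x (2, 1) + (1) * x (3, 0) + (1) * x (3, 1) + (1) * x (3, 2) + (-1) * s) * h3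
  · show x (0, 0) + 2 * x (0, 1) + x (1, 0) + 2 * x (1, 1) + x (2, 0) = x (2, 2)
    linear_combination (-1) * e2 + (-2) * e3 + (-1) * e4 + (-1) * e5 + (-1) * e7 + ((1) * x (0, 0) + (1) * x (0, 1) + (1) * x (1, 0) + (1) * x (1, 1) + (1) * x (2, 0) + (1) * x (2, 1) + (1) * x (3, 0) + (1) * x (3, 1) + (1) * x (3, 2)) * h3
  · show x (0, 0) + 2 * x (0, 1) + 2 * x (0, 2) + 2 * x (1, 0) + 2 * x (2, 0) = x (3, 0)
    linear_combination (-1) * e0 + (-1) * e4 + ((1) * x (0, 0) + (1) * x (0, 1) + (1) * x (0, 2) + (1) * x (1, 0) + (1) * x (2, 0)) * h3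
  · show x (0, 0) + x (0, 2) + x (1, 0) + x (1, 1) + 2 * x (2, 0) = x (3, 1)
    linear_combination (-2) * e0 + (-2) * e3 + (-1) * e4 + (-1) * e5 + (-2) * e7 + ((2) * x (0, 0) + (1) * x (0, 1) + (1) * x (0, 2) + (1) * x (1, 0) + (1) * x (1, 1) + (1) * x (2, 0) + (1) * x (2, 1) + (1) * x (3, 0) + (1) * x (3, 1) + (1) * x (3, 2)) * h3
  · show 2 * x (0, 0) + 2 * x (0, 1) + x (0, 2) + 2 * x (1, 1) + 2 * x (2, 0) = x (3, 2)
    linear_combination (-2) * e0 + (-2) * e3 + (-1) * e4 + (-2) * e5 + (-1) * e7 + ((2) * x (0, 0) + (2) * x (0, 1) + (1) * x (0, 2) + (1) * x (1, 0) + (1) * x (1, 1) + (1) * x (2, 0) + (1) * x (2, 1) + (1) * x (3, 0) + (1) * x (3, 1) + (1) * x (3, 2)) * h3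

theorem fr_wd : ∀ a : T6, fr (wd a) = a := by
  decide +kernel

theorem wd_inj : Function.Injective wd := by
  intro a b h
  rw [← fr_wd a, ← fr_wd b, h]

theorem mem_iff {x : ArrayPt → ZMod 3} : x ∈ ternaryGolayCode ↔ ∃ a, wd a = x :=
  ⟨fun h => ⟨_, wd_fr h⟩, by rintro ⟨a, rfl⟩; exact wd_mem a⟩

theorem range_wd : Set.range wd = (ternaryGolayCode : Set (ArrayPt → ZMod 3)) := by
  ext x
  exact mem_iff.symm

theorem card_code : Nat.card ↥ternaryGolayCode = 729 := by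
  have e : T6 ≃ ↥ternaryGolayCode := Equiv.ofBijective (fun a => ⟨wd a, wd_mem a⟩)
    ⟨fun a b h => wd_inj (congrArg Subtype.val h), fun x => by
      obtain ⟨a, ha⟩ := mem_iff.1 x.2
      exact ⟨a, Subtype.ext ha⟩⟩
  rw [← Nat.card_congr e, Nat.card_eq_fintype_card]
  simp [ZMod.card]

/-- Weight of a table word. -/
def wt (a : T6) : ℕ := (ternarySupport (wd a)).card

theorem wt_cases : ∀ a : T6, a ≠ 0 → wt a = 6 ∨ wt a = 9 ∨ wt a = 12 := by decide +kernel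

theorem wd_zero : wd 0 = 0 := by
  funext p
  obtain ⟨i, r⟩ := p
  revert i r
  decide +kernel

theorem weights {x : ArrayPt → ZMod 3} (hx : x ∈ ternaryGolayCode) (h0 : x ≠ 0) :
    (ternarySupport x).card = 6 ∨ (ternarySupport x).card = 9 ∨ (ternarySupport x).card = 12 := by
  obtain ⟨a, rfl⟩ := mem_iff.1 hx
  apply wt_cases
  rintro rfl
  exact h0 wd_zero

theorem count6 : (Finset.univ.filter fun a : T6 => wt a = 6).card = 264 := by decide +kernel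
theorem count9 : (Finset.univ.filter fun a : T6 => wt a = 9).card = 440 := by decide +kernel
theorem count12 : (Finset.univ.filter fun a : T6 => wt a = 12).card = 24 := by decide +kernel

theorem ncard_weight (k : ℕ) :
    {x : ArrayPt → ZMod 3 | x ∈ ternaryGolayCode ∧ (ternarySupport x).card = k}.ncard =
      (Finset.univ.filter fun a : T6 => wt a = k).card := by
  have h : {x : ArrayPt → ZMod 3 | x ∈ ternaryGolayCode ∧ (ternarySupport x).card = k} =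
      wd '' ((Finset.univ.filter fun a : T6 => wt a = k : Finset T6) : Set T6) := by
    ext x
    simp only [Set.mem_ofPred_eq, Set.mem_image, Finset.coe_filter, Finset.mem_univ, true_and]
    constructor
    · rintro ⟨h1, h2⟩
      obtain ⟨a, rfl⟩ := mem_iff.1 h1
      exact ⟨a, h2, rfl⟩
    · rintro ⟨a, h1, rfl⟩
      exact ⟨wd_mem a, h1⟩
  rw [h, Set.ncard_image_of_injective _ wd_inj, Set.ncard_coe_finset]

theorem wd_expand : ∀ (a : T6) (p : ArrayPt), wd a p =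
    a.1 * wd (1, 0, 0, 0, 0, 0) p + a.2.1 * wd (0, 1, 0, 0, 0, 0) p +
    a.2.2.1 * wd (0, 0, 1, 0, 0, 0) p + a.2.2.2.1 * wd (0, 0, 0, 1, 0, 0) p +
    a.2.2.2.2.1 * wd (0, 0, 0, 0, 1, 0) p + a.2.2.2.2.2 * wd (0, 0, 0, 0, 0, 1) p := by
  decide +kernel

theorem orth_gen : ∀ a : T6,
    ∑ p, wd a p * wd (1, 0, 0, 0, 0, 0) p = 0 ∧ ∑ p, wd a p * wd (0, 1, 0, 0, 0, 0) p = 0 ∧
    ∑ p, wd a p * wd (0, 0, 1, 0, 0, 0) p = 0 ∧ ∑ p, wd a p * wd (0, 0, 0, 1, 0, 0) p = 0 ∧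
    ∑ p, wd a p * wd (0, 0, 0, 0, 1, 0) p = 0 ∧ ∑ p, wd a p * wd (0, 0, 0, 0, 0, 1) p = 0 := by
  decide +kernel

theorem orth (a b : T6) : ∑ p, wd a p * wd b p = 0 := by
  obtain ⟨h1, h2, h3, h4, h5, h6⟩ := orth_gen a
  have : ∀ p, wd a p * wd b p =
      b.1 * (wd a p * wd (1, 0, 0, 0, 0, 0) p) + b.2.1 * (wd a p * wd (0, 1, 0, 0, 0, 0) p) +
      b.2.2.1 * (wd a p * wd (0, 0, 1, 0, 0, 0) p) + b.2.2.2.1 * (wd a p * wd (0, 0, 0, 1, 0, 0) p) +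
      b.2.2.2.2.1 * (wd a p * wd (0, 0, 0, 0, 1, 0) p) + b.2.2.2.2.2 * (wd a p * wd (0, 0, 0, 0, 0, 1) p) := by
    intro p
    rw [wd_expand b p]
    ring
  simp only [this, Finset.sum_add_distrib, ← Finset.mul_sum, h1, h2, h3, h4, h5, h6, mul_zero, add_zero]

/-- Position of a point of the array. -/
def ix (p : ArrayPt) : ℕ := 3 * p.1.val + p.2.val

/-- The set given by a mask. -/
def supM (m : ℕ) : Finset ArrayPt := Finset.univ.filter fun p => m.testBit (ix p) = true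

/-- Mask of the support of a table word. -/
def wM (a : T6) : ℕ := ∑ p : ArrayPt, if wd a p ≠ 0 then 2 ^ ix p else 0

/-- The hexads: masks. -/
def ms : List ℕ := [63, 222, 237, 243, 347, 366, 373, 413, 427, 438, 455, 504, 591, 630, 633, 667, 679, 700, 725, 746, 791, 813, 826, 860, 867, 910, 945, 969, 978, 996, 1117, 1127, 1146, 1175, 1198, 1209, 1227, 1268, 1295, 1331, 1340, 1366, 1385, 1434, 1445, 1484, 1489, 1506, 1566, 1579, 1589, 1619, 1644, 1677, 1714, 1734, 1752, 1761, 1817, 1830, 1861, 1866, 1904, 1923, 1940, 1960, 2135, 2155, 2172, 2191, 2229, 2234, 2265, 2278, 2334, 2343, 2361, 2381, 2418, 2451, 2476, 2506, 2516, 2529, 2589, 2606, 2611, 2650, 2661, 2710, 2729, 2755, 2764, 2800, 2827, 2868, 2886, 2897, 2920, 2949, 2968, 2978, 3099, 3117, 3126, 3150, 3185, 3228, 3235, 3269, 3282, 3304, 3349, 3370, 3395, 3416, 3428, 3462, 3465, 3504, 3591, 3640, 3657, 3668, 3682, 3722,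 3729, 3748, 3852, 3858, 3873, 4032]

/-- Witnesses of the hexads. -/
def wit : List T6 := [(1, 1, 1, 2, 2, 0), (0, 1, 2, 1, 2, 2), (1, 0, 2, 1, 0, 1), (1, 2, 0, 0, 1, 2), (1, 2, 0, 1, 2, 1), (0, 1, 2, 2, 0, 1), (1, 0, 2, 0, 2, 2), (1, 0, 2, 2, 1, 0), (1, 2, 0, 2, 0, 0), (0, 1, 2, 0, 1, 0), (1, 1, 1, 0, 0, 2), (0, 0, 0, 1, 1, 2), (1, 2, 2, 2, 0, 2), (0, 1, 1, 0, 1, 2), (1, 0, 0, 2, 1, 1), (1, 1, 0, 1, 1, 0), (1, 1, 2, 0, 0, 0), (0, 0, 1, 1, 1, 0), (1, 0, 1, 0, 2, 1), (0, 1, 0, 2, 0, 2), (1, 2, 1, 0, 1, 0), (1, 0, 1, 1, 0, 0), (0, 1, 0, 1, 2, 0), (0, 0, 1, 2, 2, 2), (1, 1, 0, 0, 0, 1), (0, 1, 1, 2, 0, 0), (1, 0, 0, 0, 2, 0), (1, 0, 0, 1, 0, 2), (0, 1, 0, 0, 1, 1), (0, 0, 1, 0, 0, 1), (1, 0, 1, 1, 1, 2), (1, 2, 1, 0, 0, 1), (0, 1, 0, 1, 1, 1), (1, 2, 2, 0, 2, 0), (0, 1, 1, 1, 0, 0), (1, 0, 0, 1, 2, 0), (1, 1, 0, 2, 0, 1), (0, 0, 1, 0, 2, 2), (1, 1, 2, 1, 0, 0), (1, 1, 0, 0, 1, 0),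 (0, 0, 1, 2, 1, 0), (0, 1, 1, 0, 2, 1), (1, 0, 0, 2, 0, 2), (0, 1, 0, 2, 2, 0), (1, 0, 1, 0, 0, 0), (0, 0, 1, 1, 0, 1), (1, 0, 0, 0, 1, 1), (0, 1, 0, 0, 0, 2), (0, 1, 2, 2, 1, 0), (1, 2, 0, 1, 0, 0), (1, 0, 2, 0, 1, 0), (1, 1, 0, 0, 2, 2), (0, 0, 1, 2, 0, 1), (1, 0, 1, 2, 0, 0), (0, 1, 0, 0, 2, 0), (0, 1, 2, 0, 0, 1), (0, 0, 0, 1, 2, 1), (1, 0, 0, 0, 0, 2), (1, 0, 0, 2, 2, 0), (0, 1, 1, 0, 0, 0), (1, 0, 2, 0, 0, 1), (0, 1, 0, 1, 0, 2), (0, 0, 0, 0, 1, 2), (1, 2, 0, 0, 0, 0), (0, 0, 1, 0, 1, 0), (0, 0, 0, 1, 0, 0), (1, 1, 2, 0, 1, 1), (1, 1, 0, 1, 0, 2), (0, 0, 1, 1, 2, 1), (1, 2, 1, 1, 0, 0), (1, 0, 1, 0, 1, 0), (0, 1, 0, 2, 1, 0), (1, 0, 0, 2, 2, 2), (0, 1, 1, 0, 0, 1), (0, 1, 1, 1, 1, 0), (1, 2, 2, 0, 0, 0), (1, 0, 0, 1, 1, 0), (1, 0, 1, 2, 0, 1), (0, 1, 0, 0, 2, 2), (1, 1, 0, 0, 2, 0), (0, 0, 1, 2, 0, 0), (0, 1, 0, 1, 0, 1), (0, 0, 1, 0, 1, 2), (1, 0, 0, 0, 0, 1), (1, 0, 2,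 1, 2, 0), (0, 1, 2, 1, 0, 0), (1, 2, 0, 0, 2, 0), (0, 1, 0, 2, 2, 1), (1, 0, 1, 0, 0, 2), (0, 1, 1, 0, 2, 0), (1, 0, 0, 2, 0, 0), (1, 2, 0, 0, 0, 1), (0, 0, 1, 1, 0, 2), (0, 0, 0, 0, 1, 1), (1, 1, 0, 2, 0, 0), (0, 0, 1, 0, 2, 0), (0, 1, 2, 0, 0, 2), (1, 0, 0, 0, 1, 2), (0, 0, 0, 1, 0, 1), (1, 0, 2, 0, 0, 0), (0, 0, 0, 1, 2, 0), (0, 1, 0, 0, 0, 0), (1, 2, 0, 2, 1, 0), (1, 0, 2, 2, 0, 0), (0, 1, 2, 0, 2, 0), (0, 1, 1, 2, 0, 2), (1, 0, 0, 0, 2, 1), (0, 0, 1, 2, 2, 0), (1, 1, 0, 0, 0, 0), (1, 0, 2, 0, 0, 2), (0, 1, 0, 0, 1, 2), (0, 0, 0, 1, 0, 2), (1, 0, 1, 0, 2, 0), (0, 1, 0, 2, 0, 0), (1, 2, 0, 0, 0, 2), (0, 0, 0, 1, 2, 2), (0, 0, 1, 0, 0, 2), (0, 1, 2, 0, 0, 0), (1, 0, 0, 1, 0, 0), (0, 0, 0, 0, 1, 0), (1, 1, 1, 0, 0, 0), (0, 0, 0, 1, 1, 0), (1, 0, 0, 1, 0, 1), (0, 0, 1, 0, 1, 1), (0, 1, 0, 0, 0, 1), (0, 1, 0, 1, 0, 0), (1, 0, 0, 0, 1, 0), (0, 0, 1, 0, 0, 0), (0, 0, 1, 1, 0, 0),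 (0, 1, 0, 0, 1, 0), (1, 0, 0, 0, 0, 0), (0, 0, 0, 0, 0, 1)]

theorem wM_spec : ∀ (a : T6) (p : ArrayPt), wd a p ≠ 0 ↔ (wM a).testBit (ix p) = true := by
  decide +kernel

theorem sup_eq (a : T6) : ternarySupport (wd a) = supM (wM a) := by
  ext p
  simp only [ternarySupport, supM, Finset.mem_filter, Finset.mem_univ, true_and]
  exact wM_spec a p

theorem wM_ms : ∀ a : T6, wt a = 6 → wM a ∈ ms := by decide +kernel

theorem wit_ok : (List.zip ms wit).all (fun q => decide (wt q.2 = 6) && Nat.beq (wM q.2) q.1) = true ∧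
    ms.length = wit.length := by decide +kernel

theorem exists_wit {m : ℕ} (hm : m ∈ ms) : ∃ a, wt a = 6 ∧ wM a = m := by
  obtain ⟨i, hi, rfl⟩ := List.getElem_of_mem hm
  have h := wit_ok
  have hi' : i < wit.length := h.2 ▸ hi
  have h2 := List.all_eq_true.1 h.1 (ms[i], wit[i]) (by
    rw [List.mem_iff_getElem]
    exact ⟨i, by simp [hi, hi'], by rw [List.getElem_zip]; rfl⟩)
  simp only [Bool.and_eq_true, decide_eq_true_eq] at h2
  exact ⟨wit[i], h2.1, Nat.eq_of_beq_eq_true h2.2⟩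

/-- Population count below 12 bits. -/
def pc12 (m : ℕ) : ℕ := (supM m).card

theorem ms_nodup : ms.Nodup := by decide +kernel

theorem ms_lt : ∀ m ∈ ms, m < 4096 := by decide +kernel

theorem ms_card : ∀ m ∈ ms, (supM m).card = 6 := by decide +kernel

/-- The pairs of hexads. -/
theorem ms_pair : ∀ m ∈ ms, ∀ m' ∈ ms, m ≠ m' → (supM (m &&& m')).card ≤ 4 := by
  decide +kernel

theorem supM_and (m m' : ℕ) : supM m ∩ supM m' = supM (m &&& m') := by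
  ext p
  simp [supM, Nat.testBit_and]

theorem supM_inj : ∀ m < 4096, ∀ m' < 4096, supM m = supM m' → m = m' := by
  intro m hm m' hm' h
  apply Nat.eq_of_testBit_eq
  intro i
  by_cases hi : i < 12
  · have hp : ∃ p : ArrayPt, ix p = i := by
      revert i
      decide +kernel
    obtain ⟨p, rfl⟩ := hp
    have h1 : p ∈ supM m ↔ p ∈ supM m' := by rw [h]
    simp only [supM, Finset.mem_filter, Finset.mem_univ, true_and] at h1
    cases h2 : m.testBit (ix p) <;> cases h3 : m'.testBit (ix p) <;> simp_all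
  · have hi' : 12 ≤ i := not_lt.1 hi
    have h4 : (4096 : ℕ) ≤ 2 ^ i := by
      calc (4096 : ℕ) = 2 ^ 12 := by norm_num
        _ ≤ 2 ^ i := Nat.pow_le_pow_right (by norm_num) hi'
    rw [Nat.testBit_lt_two_pow (lt_of_lt_of_le hm h4), Nat.testBit_lt_two_pow (lt_of_lt_of_le hm' h4)]

/-- The hexads as a finite set. -/
def BL : Finset (Finset ArrayPt) := ms.toFinset.image supM

theorem card_BL : BL.card = 132 := by
  unfold BL
  rw [Finset.card_image_of_injOn, List.toFinset_card_of_nodup ms_nodup]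
  · decide +kernel
  · intro m hm m' hm' h
    exact supM_inj m (ms_lt m (by simpa using hm)) m' (ms_lt m' (by simpa using hm')) h

theorem pair_BL : ∀ h ∈ BL, ∀ h' ∈ BL, h ≠ h' → (h ∩ h').card ≤ 4 := by
  intro h hh h' hh' hne
  obtain ⟨m, hm, rfl⟩ := Finset.mem_image.1 hh
  obtain ⟨m', hm', rfl⟩ := Finset.mem_image.1 hh'
  rw [supM_and]
  apply ms_pair m (by simpa using hm) m' (by simpa using hm')
  rintro rfl
  exact hne rfl

theorem card_mem_BL : ∀ h ∈ BL, h.card = 6 := by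
  intro h hh
  obtain ⟨m, hm, rfl⟩ := Finset.mem_image.1 hh
  exact ms_card m (by simpa using hm)

theorem blocks_eq : {h : Finset ArrayPt | ∃ x ∈ ternaryGolayCode, ternarySupport x = h ∧ h.card = 6} =
    (BL : Set (Finset ArrayPt)) := by
  ext h
  simp only [Set.mem_ofPred_eq, Finset.mem_coe, BL, Finset.mem_image, List.mem_toFinset]
  constructor
  · rintro ⟨x, hx, rfl, h6⟩
    obtain ⟨a, rfl⟩ := mem_iff.1 hx
    exact ⟨wM a, wM_ms a h6, (sup_eq a).symm⟩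
  · rintro ⟨m, hm, rfl⟩
    obtain ⟨a, ha, rfl⟩ := exists_wit hm
    exact ⟨wd a, wd_mem a, sup_eq a, by rw [← sup_eq]; exact ha⟩

theorem steiner_of (BL : Finset (Finset ArrayPt)) (card_BL : BL.card = 132)
    (pair_BL : ∀ h ∈ BL, ∀ h' ∈ BL, h ≠ h' → (h ∩ h').card ≤ 4)
    (card_mem_BL : ∀ h ∈ BL, h.card = 6) : IsSteinerSystem 5 6 (BL : Set (Finset ArrayPt)) := by
  refine ⟨fun b hb => card_mem_BL b hb, ?_⟩
  -- count the pairs
  have hdisj : (BL : Set (Finset ArrayPt)).PairwiseDisjoint (fun h => Finset.powersetCard 5 h) := by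
    intro h hh h' hh' hne
    rw [Function.onFun, Finset.disjoint_left]
    intro s hs hs'
    rw [Finset.mem_powersetCard] at hs hs'
    have := Finset.card_le_card (Finset.subset_inter hs.1 hs'.1)
    have h2 := pair_BL h hh h' hh' hne
    omega
  have hcard : (BL.biUnion fun h => Finset.powersetCard 5 h).card = 792 := by
    rw [Finset.card_biUnion hdisj]
    rw [Finset.sum_congr rfl (fun h hh => by rw [Finset.card_powersetCard, card_mem_BL h hh])]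
    rw [Finset.sum_const, card_BL]
    norm_num [Nat.choose]
  have hsub : (BL.biUnion fun h => Finset.powersetCard 5 h) ⊆
      Finset.powersetCard 5 (Finset.univ : Finset ArrayPt) := by
    intro s hs
    obtain ⟨h, _, hs⟩ := Finset.mem_biUnion.1 hs
    rw [Finset.mem_powersetCard] at hs ⊢
    exact ⟨Finset.subset_univ _, hs.2⟩
  have heq := Finset.eq_of_subset_of_card_le hsub (by
    rw [hcard, Finset.card_powersetCard]
    have h12 : (Finset.univ : Finset ArrayPt).card = 12 := by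
      rw [Finset.card_univ, Fintype.card_prod, Fintype.card_fin, ZMod.card]
    rw [h12]
    norm_num [Nat.choose])
  intro s hs
  have hm : s ∈ Finset.powersetCard 5 (Finset.univ : Finset ArrayPt) :=
    Finset.mem_powersetCard.2 ⟨Finset.subset_univ _, hs⟩
  rw [← heq] at hm
  obtain ⟨h, hh, hsh⟩ := Finset.mem_biUnion.1 hm
  rw [Finset.mem_powersetCard] at hsh
  refine ⟨h, ⟨hh, hsh.1⟩, ?_⟩
  rintro h' ⟨hh', hsh'⟩
  by_contra hne
  have := Finset.card_le_card (Finset.subset_inter hsh.1 hsh')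
  have h2 := pair_BL h hh h' hh' (Ne.symm hne)
  omega

theorem steiner : IsSteinerSystem 5 6 (BL : Set (Finset ArrayPt)) :=
  steiner_of BL card_BL pair_BL card_mem_BL

end Cfsg.Agent.TernaryCode
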