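import Cfsg.Agent.Lib.TvConj
import Cfsg.Agent.Lib.SympOrder

set_option autoImplicit false

namespace Cfsg.Agent.Lib.TvCount

open Matrix Cfsg.Agent.Lib.FormVec Cfsg.Agent.Lib.TvGL Cfsg.Agent.Lib.TvConj

variable {F : Type*} [Field F] {n : ℕ}

/-- Pairs defining a transvection. -/
def PP (F : Type*) [Field F] (n : ℕ) : Type _ :=
  {p : (Fin n → F) × (Fin n → F) // p.1 ≠ 0 ∧ p.2 ≠ 0 ∧ p.2 ⬝ᵥ p.1 = 0}

theorem rank_vv {ι : Type} [Fintype ι] [DecidableEq ι] {a φ : ι → F} (ha : a ≠ 0) (hφ : φ ≠ 0) :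
    (vecMulVec a φ).rank = 1 := by
  have h1 := Matrix.rank_vecMulVec_le a φ
  have h2 : (vecMulVec a φ).rank ≠ 0 := by
    intro h
    have h0 : vecMulVec a φ = 0 := by
      rw [Matrix.rank] at h
      have h4 := LinearMap.range_eq_bot.1 (Submodule.finrank_eq_zero.1 h)
      ext i j
      have h5 := congrFun (LinearMap.congr_fun h4 (Pi.single j 1)) i
      simpa using h5
    obtain ⟨i, hi⟩ := Function.ne_iff.1 ha
    obtain ⟨j, hj⟩ := Function.ne_iff.1 hφ
    have h3 := congrFun (congrFun h0 i) j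
    simp only [vecMulVec_apply, Matrix.zero_apply] at h3
    exact mul_ne_zero hi hj h3
  omega

theorem isTransvection_tv {ι : Type} [Fintype ι] [DecidableEq ι] {a φ : ι → F} (ha : a ≠ 0) (hφ : φ ≠ 0) (h : φ ⬝ᵥ a = 0) :
    Cfsg.IsTransvection (1 + vecMulVec a φ) := by
  have e : (1 + vecMulVec a φ) - 1 = vecMulVec a φ := by abel
  refine ⟨by rw [e]; exact rank_vv ha hφ, ?_⟩
  rw [e]
  exact vv_sq h

/-- The group element attached to a pair. -/
def piT (x : PP F n) : {t : GL (Fin n) F // Cfsg.IsTransvection (t : Matrix (Fin n) (Fin n) F)} :=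
  ⟨tv x.1.1 x.1.2 x.2.2.2, isTransvection_tv x.2.1 x.2.2.1 x.2.2.2⟩

theorem piT_surj : Function.Surjective (piT (F := F) (n := n)) := by
  rintro ⟨t, ht⟩
  obtain ⟨a, φ, ha, hφ, h, e⟩ := exists_pair ht
  refine ⟨⟨(a, φ), ha, hφ, h⟩, ?_⟩
  apply Subtype.ext
  apply Units.ext
  exact e.symm

theorem vv_eq_iff {ι : Type} [Fintype ι] {a φ a' φ' : ι → F} (ha : a ≠ 0) (hφ : φ ≠ 0)
    (h : vecMulVec a φ = vecMulVec a' φ') : ∃ l : F, l ≠ 0 ∧ a' = l • a ∧ φ' = l⁻¹ • φ := by
  obtain ⟨i, hi⟩ := Function.ne_iff.1 ha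
  obtain ⟨j, hj⟩ := Function.ne_iff.1 hφ
  have hij : ∀ k l, a k * φ l = a' k * φ' l := fun k l => by
    have := congrFun (congrFun h k) l
    simpa [vecMulVec_apply] using this
  have h1 := hij i j
  simp only [Pi.zero_apply] at hi hj
  have hi' : a' i ≠ 0 := by
    intro h0
    rw [h0, zero_mul] at h1
    exact mul_ne_zero hi hj h1
  have hj' : φ' j ≠ 0 := by
    intro h0
    rw [h0, mul_zero] at h1
    exact mul_ne_zero hi hj h1
  refine ⟨a' i / a i, div_ne_zero hi' hi, ?_, ?_⟩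
  · funext k
    have h3 := hij k j
    simp only [Pi.smul_apply, smul_eq_mul]
    field_simp
    have h5 : a' k * a i * φ' j = a' i * a k * φ' j := by
      calc a' k * a i * φ' j = (a' k * φ' j) * a i := by ring
        _ = (a k * φ j) * a i := by rw [h3]
        _ = a k * (a i * φ j) := by ring
        _ = a k * (a' i * φ' j) := by rw [h1]
        _ = _ := by ring
    exact mul_right_cancel₀ hj' h5
  · funext k
    have h3 := hij i k
    simp only [Pi.smul_apply, smul_eq_mul]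
    rw [inv_div]
    field_simp
    exact (by linear_combination -h3 : φ' k * a' i = a i * φ k)

/-- The fibre of `piT` is a copy of the units. -/
theorem card_fiber [Fintype F] (t : {t : GL (Fin n) F // Cfsg.IsTransvection (t : Matrix (Fin n) (Fin n) F)}) :
    Nat.card {x : PP F n // piT x = t} = Fintype.card F - 1 := by
  classical
  obtain ⟨x₀, rfl⟩ := piT_surj t
  have hu : Nat.card Fˣ = Fintype.card F - 1 := by
    rw [Nat.card_eq_fintype_card, Fintype.card_units]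
  rw [← hu]
  apply Nat.card_congr
  symm
  refine Equiv.ofBijective (fun l : Fˣ => ⟨⟨((l : F) • x₀.1.1, (l : F)⁻¹ • x₀.1.2), ?_, ?_, ?_⟩, ?_⟩) ⟨?_, ?_⟩
  · exact smul_ne_zero l.ne_zero x₀.2.1
  · exact smul_ne_zero (inv_ne_zero l.ne_zero) x₀.2.2.1
  · simp only
    rw [dotProduct_smul, smul_dotProduct, x₀.2.2.2]
    simp
  · apply Subtype.ext
    apply Units.ext
    show (1 : Matrix (Fin n) (Fin n) F) + vecMulVec _ _ = 1 + vecMulVec _ _
    congr 1
    ext i j
    simp only [vecMulVec_apply, Pi.smul_apply, smul_eq_mul]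
    have := l.ne_zero
    field_simp
  · intro l l' h
    have h1 := congrArg (fun y : {x : PP F n // piT x = piT x₀} => y.1.1.1) h
    simp only at h1
    have h2 := x₀.2.1
    obtain ⟨i, hi⟩ := Function.ne_iff.1 h2
    have h3 := congrFun h1 i
    simp only [Pi.smul_apply, smul_eq_mul] at h3
    exact Units.ext (mul_right_cancel₀ hi h3)
  · rintro ⟨⟨⟨a, φ⟩, ha, hφ, h⟩, hy⟩
    have h0 : vecMulVec x₀.1.1 x₀.1.2 = vecMulVec a φ := by
      have h1 := congrArg (fun y => ((y.1 : GL (Fin n) F) : Matrix (Fin n) (Fin n) F)) hy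
      have h2 : (1 : Matrix (Fin n) (Fin n) F) + vecMulVec a φ = 1 + vecMulVec x₀.1.1 x₀.1.2 := h1
      exact (add_left_cancel h2).symm
    obtain ⟨l, hl0, h1, h2⟩ := vv_eq_iff x₀.2.1 x₀.2.2.1 h0
    refine ⟨Units.mk0 l hl0, ?_⟩
    apply Subtype.ext
    apply Subtype.ext
    simp only
    rw [show ((Units.mk0 l hl0 : Fˣ) : F) = l from rfl, ← h1, ← h2]

theorem card_hyper [Fintype F] (a : Fin n → F) (ha : a ≠ 0) :
    Nat.card {φ : Fin n → F // φ ⬝ᵥ a = 0} * Fintype.card F = Fintype.card F ^ n := by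
  classical
  let L : (Fin n → F) →ₗ[F] F :=
    { toFun := fun φ => φ ⬝ᵥ a
      map_add' := fun x y => add_dotProduct x y a
      map_smul' := fun c x => smul_dotProduct c x a }
  have hsurj : Function.Surjective L := by
    obtain ⟨ψ, hψ⟩ := exists_dot_ne ha
    intro y
    refine ⟨(y / (ψ ⬝ᵥ a)) • ψ, ?_⟩
    show ((y / (ψ ⬝ᵥ a)) • ψ) ⬝ᵥ a = y
    rw [smul_dotProduct, smul_eq_mul]
    field_simp
  have hr := LinearMap.finrank_range_add_finrank_ker L
  rw [LinearMap.range_eq_top.2 hsurj, finrank_top, Module.finrank_self,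
    Module.finrank_fintype_fun_eq_card, Fintype.card_fin] at hr
  have hc : Nat.card {φ : Fin n → F // φ ⬝ᵥ a = 0} = Nat.card (LinearMap.ker L) := rfl
  rw [hc, Nat.card_eq_fintype_card, Module.card_eq_pow_finrank (K := F) (V := LinearMap.ker L), ← pow_succ]
  congr 1
  omega

theorem card_ne {α : Type*} [Finite α] (a : α) : Nat.card {x : α // x ≠ a} = Nat.card α - 1 := by
  classical
  haveI := Fintype.ofFinite α
  rw [Nat.card_eq_fintype_card, Nat.card_eq_fintype_card, Fintype.card_subtype_compl, Fintype.card_subtype_eq]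

theorem card_PP [Fintype F] : Nat.card (PP F n) = (Fintype.card F ^ n - 1) * (Fintype.card F ^ (n - 1) - 1) := by
  classical
  set q := Fintype.card F with hq
  have hq2 : 2 ≤ q := Fintype.one_lt_card
  let E : PP F n ≃ Σ a : {a : Fin n → F // a ≠ 0}, {φ : {φ : Fin n → F // φ ⬝ᵥ a.1 = 0} // φ ≠ ⟨0, zero_dotProduct _⟩} :=
    { toFun := fun x => ⟨⟨x.1.1, x.2.1⟩, ⟨⟨x.1.2, x.2.2.2⟩, fun h => x.2.2.1 (congrArg Subtype.val h)⟩⟩
      invFun := fun y => ⟨(y.1.1, y.2.1.1), y.1.2, fun h => y.2.2 (Subtype.ext h), y.2.1.2⟩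
      left_inv := fun x => rfl
      right_inv := fun y => rfl }
  rw [Nat.card_congr E, Nat.card_sigma]
  have hfib : ∀ a : {a : Fin n → F // a ≠ 0},
      Nat.card {φ : {φ : Fin n → F // φ ⬝ᵥ a.1 = 0} // φ ≠ ⟨0, zero_dotProduct _⟩} = q ^ (n - 1) - 1 := by
    intro a
    have h1 := card_hyper a.1 a.2
    rw [← hq] at h1
    have hn : 1 ≤ n := by
      rcases n with _ | n
      · exact absurd (Subsingleton.elim _ _) a.2
      · omega
    have h2 : Nat.card {φ : Fin n → F // φ ⬝ᵥ a.1 = 0} = q ^ (n - 1) := by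
      have : q ^ n = q ^ (n - 1) * q := by
        rw [← pow_succ]
        congr 1
        omega
      rw [this] at h1
      exact Nat.eq_of_mul_eq_mul_right (by omega) h1
    rw [card_ne, h2]
  simp only [hfib]
  rw [Finset.sum_const, Finset.card_univ, smul_eq_mul]
  congr 1
  have h3 := card_ne (0 : Fin n → F)
  rw [Nat.card_eq_fintype_card (α := {a : Fin n → F // a ≠ 0})] at h3
  rw [h3, Nat.card_eq_fintype_card, Fintype.card_fun, Fintype.card_fin]

/-- The set of transvections has the expected size. -/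
theorem card_T [Fintype F] : Nat.card {t : GL (Fin n) F // Cfsg.IsTransvection (t : Matrix (Fin n) (Fin n) F)} * (Fintype.card F - 1) =
    (Fintype.card F ^ n - 1) * (Fintype.card F ^ (n - 1) - 1) := by
  classical
  haveI : Finite (PP F n) := by
    unfold PP
    infer_instance
  rw [← card_PP]
  rw [Nat.card_congr (Equiv.sigmaFiberEquiv (piT (F := F) (n := n))).symm, Nat.card_sigma]
  simp only [card_fiber]
  rw [Finset.sum_const, Finset.card_univ, smul_eq_mul, Nat.card_eq_fintype_card]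

/-- Any two pairs are related by an element of `GL`. -/
theorem gl_rel {ι : Type} [Fintype ι] [DecidableEq ι] (hn : 2 ≤ Fintype.card ι) {a φ a' φ' : ι → F} (ha : a ≠ 0) (ha' : a' ≠ 0) (hφ : φ ≠ 0) (hφ' : φ' ≠ 0)
    (hφa : φ ⬝ᵥ a = 0) (hφa' : φ' ⬝ᵥ a' = 0) :
    ∃ g : GL ι F, (g : Matrix ι ι F) *ᵥ a = a' ∧ φ' ᵥ* (g : Matrix ι ι F) = φ := by
  by_cases h3 : 3 ≤ Fintype.card ι
  · obtain ⟨g, h1, h2⟩ := rel_all h3 ha ha' hφ hφ' hφa hφa'
    refine ⟨SpecialLinearGroup.toGL g, h1, h2⟩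
  have hc : Fintype.card ι = 2 := by omega
  have hpartner : ∀ {ψ : ι → F}, ψ ≠ 0 → ∃ b : ι → F, ψ ⬝ᵥ b = 1 := by
    intro ψ hψ
    obtain ⟨y, hy⟩ := exists_dot_ne hψ
    rw [dotProduct_comm] at hy
    exact ⟨(ψ ⬝ᵥ y)⁻¹ • y, by rw [dotProduct_smul, smul_eq_mul, inv_mul_cancel₀ hy]⟩
  obtain ⟨b, hb⟩ := hpartner hφ
  obtain ⟨b', hb'⟩ := hpartner hφ'
  have hli : ∀ {x y ψ : ι → F}, x ≠ 0 → ψ ⬝ᵥ x = 0 → ψ ⬝ᵥ y = 1 → LinearIndependent F ![x, y] := by
    intro x y ψ hx hψx hψy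
    rw [LinearIndependent.pair_iff]
    intro s t hst
    have h1 := congrArg (fun v => ψ ⬝ᵥ v) hst
    simp only [dotProduct_add, dotProduct_smul, smul_eq_mul, hψx, hψy, dotProduct_zero, mul_zero, zero_add, mul_one] at h1
    subst h1
    rw [zero_smul, add_zero] at hst
    exact ⟨(smul_eq_zero.1 hst).resolve_right hx, rfl⟩
  have hcard : Fintype.card (Fin 2) = Module.finrank F (ι → F) := by
    simp [hc]
  let B₁ := basisOfLinearIndependentOfCardEqFinrank (hli ha hφa hb) hcard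
  let B₂ := basisOfLinearIndependentOfCardEqFinrank (hli ha' hφa' hb') hcard
  have hB₁ : ∀ i, B₁ i = ![a, b] i := fun i => by simp [B₁]
  have hB₂ : ∀ i, B₂ i = ![a', b'] i := fun i => by simp [B₂]
  let E : (ι → F) ≃ₗ[F] (ι → F) := B₁.equiv B₂ (Equiv.refl _)
  have hE : ∀ i, E (![a, b] i) = ![a', b'] i := by
    intro i
    rw [← hB₁, ← hB₂]
    simp [E]
  refine ⟨glOf E, ?_, ?_⟩
  · rw [glOf_mulVec]
    exact hE 0
  · apply dotProduct_eq
    intro x
    rw [← Matrix.dotProduct_mulVec, glOf_mulVec]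
    let L₁ : (ι → F) →ₗ[F] F :=
      { toFun := fun x => φ' ⬝ᵥ (E x)
        map_add' := fun x y => by rw [map_add, dotProduct_add]
        map_smul' := fun c x => by rw [map_smul, dotProduct_smul]; rfl }
    let L₂ : (ι → F) →ₗ[F] F :=
      { toFun := fun x => φ ⬝ᵥ x
        map_add' := fun x y => by rw [dotProduct_add]
        map_smul' := fun c x => by rw [dotProduct_smul]; rfl }
    have h5 : L₁ = L₂ := by
      apply B₁.ext
      intro i
      show φ' ⬝ᵥ (E (B₁ i)) = φ ⬝ᵥ (B₁ i)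
      rw [hB₁, hE]
      fin_cases i
      · simp [hφa, hφa']
      · simp [hb, hb']
    exact LinearMap.congr_fun h5 x

theorem prod_step (q m : ℕ) :
    ∏ i : Fin (m + 1), (q ^ (m + 1) - q ^ (i : ℕ)) = (q ^ (m + 1) - 1) * q ^ m * ∏ i : Fin m, (q ^ m - q ^ (i : ℕ)) := by
  rw [Fin.prod_univ_succ]
  simp only [Fin.val_zero, pow_zero, Fin.val_succ]
  rw [mul_assoc]
  congr 1
  have : ∀ i : Fin m, q ^ (m + 1) - q ^ ((i : ℕ) + 1) = q * (q ^ m - q ^ (i : ℕ)) := by
    intro i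
    rw [Nat.mul_sub, pow_succ', pow_succ']
  simp only [this]
  rw [Finset.prod_mul_distrib, Finset.prod_const, Finset.card_univ, Fintype.card_fin]

/-- Centraliser of a transvection in `GL`. -/
theorem card_centralizer [Fintype F] (m : ℕ) (t : GL (Fin (m + 2)) F)
    (ht : Cfsg.IsTransvection (t : Matrix (Fin (m + 2)) (Fin (m + 2)) F)) :
    Nat.card ↥(Subgroup.centralizer ({t} : Set (GL (Fin (m + 2)) F))) =
      Fintype.card F ^ (2 * m + 1) * (Fintype.card F - 1) * ∏ i : Fin m, (Fintype.card F ^ m - Fintype.card F ^ (i : ℕ)) := by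
  classical
  set q := Fintype.card F with hq
  have hq2 : 2 ≤ q := Fintype.one_lt_card
  obtain ⟨a, φ, ha, hφ, hφa, ht'⟩ := exists_pair ht
  have hconj : ∀ g : GL (Fin (m + 2)) F, Cfsg.IsTransvection (((g * t * g⁻¹ : GL (Fin (m + 2)) F)) : Matrix (Fin (m + 2)) (Fin (m + 2)) F) := by
    intro g
    have e : t = tv a φ hφa := Units.ext ht'
    rw [e, tv_conj, tv_val]
    apply isTransvection_tv
    · intro h
      apply ha
      have h1 := congrArg (fun v => ((g⁻¹ : GL (Fin (m + 2)) F) : Matrix (Fin (m + 2)) (Fin (m + 2)) F) *ᵥ v) h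
      simp only [Matrix.mulVec_mulVec, Matrix.mulVec_zero] at h1
      rw [← Units.val_mul, inv_mul_cancel] at h1
      simpa using h1
    · intro h
      apply hφ
      have h1 := congrArg (fun v => v ᵥ* (g : Matrix (Fin (m + 2)) (Fin (m + 2)) F)) h
      simp only [Matrix.vecMul_vecMul, Matrix.zero_vecMul] at h1
      rw [← Units.val_mul, inv_mul_cancel] at h1
      simpa using h1
    · rw [Matrix.dotProduct_mulVec, Matrix.vecMul_vecMul, ← Units.val_mul, inv_mul_cancel, Units.val_one, Matrix.vecMul_one]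
      exact hφa
  let Φ : GL (Fin (m + 2)) F → {t : GL (Fin (m + 2)) F // Cfsg.IsTransvection (t : Matrix (Fin (m + 2)) (Fin (m + 2)) F)} :=
    fun g => ⟨g * t * g⁻¹, hconj g⟩
  have hΦ : Function.Surjective Φ := by
    rintro ⟨s, hs⟩
    obtain ⟨a', φ', ha', hφ', hφa', hs'⟩ := exists_pair hs
    obtain ⟨g, h1, h2⟩ := gl_rel (ι := Fin (m + 2)) (by simp) ha ha' hφ hφ' hφa hφa'
    refine ⟨g, Subtype.ext ?_⟩
    show g * t * g⁻¹ = s
    have : g * t = s * g := by
      apply Units.ext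
      rw [Units.val_mul, Units.val_mul, ht', hs']
      exact mul_tv_eq h1 h2
    rw [this]
    group
  have hfib : ∀ x y, Φ x = Φ y ↔ x⁻¹ * y ∈ Subgroup.centralizer ({t} : Set (GL (Fin (m + 2)) F)) := by
    intro x y
    rw [Subgroup.mem_centralizer_singleton_iff]
    constructor
    · intro h
      have h1 : x * t * x⁻¹ = y * t * y⁻¹ := congrArg Subtype.val h
      have : x⁻¹ * y * t * y⁻¹ * x = t := by
        calc x⁻¹ * y * t * y⁻¹ * x = x⁻¹ * (y * t * y⁻¹) * x := by group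
          _ = x⁻¹ * (x * t * x⁻¹) * x := by rw [h1]
          _ = t := by group
      calc x⁻¹ * y * t = (x⁻¹ * y * t * y⁻¹ * x) * (x⁻¹ * y) := by group
        _ = t * (x⁻¹ * y) := by rw [this]
    · intro h
      apply Subtype.ext
      show x * t * x⁻¹ = y * t * y⁻¹
      calc x * t * x⁻¹ = x * (t * (x⁻¹ * y)) * y⁻¹ := by group
        _ = x * (x⁻¹ * y * t) * y⁻¹ := by rw [h]
        _ = y * t * y⁻¹ := by group
  have hcard := Cfsg.Agent.Lib.SympOrder.card_eq_of_fiber _ Φ hΦ hfib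
  have hT := card_T (F := F) (n := m + 2)
  rw [← hq] at hT
  have hG : Nat.card (GL (Fin (m + 2)) F) = (q ^ (m + 2) - 1) * q ^ (m + 1) * ((q ^ (m + 1) - 1) * q ^ m * ∏ i : Fin m, (q ^ m - q ^ (i : ℕ))) := by
    rw [Matrix.card_GL_field, ← hq, prod_step, prod_step]
  have h1 : ∀ k : ℕ, 1 ≤ k → 0 < q ^ k - 1 := by
    intro k hk
    have : 2 ^ k ≤ q ^ k := Nat.pow_le_pow_left hq2 k
    have : 2 ^ 1 ≤ 2 ^ k := Nat.pow_le_pow_right (by norm_num) hk
    omega
  have hpos : 0 < (q ^ (m + 2) - 1) * (q ^ (m + 1) - 1) := Nat.mul_pos (h1 _ (by omega)) (h1 _ (by omega))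
  simp only [Nat.add_sub_cancel, show m + 2 - 1 = m + 1 from rfl] at hT
  apply Nat.eq_of_mul_eq_mul_left hpos
  rw [← hT]
  have h5 : Nat.card {t : GL (Fin (m + 2)) F // Cfsg.IsTransvection (t : Matrix (Fin (m + 2)) (Fin (m + 2)) F)} * (q - 1) *
      Nat.card ↥(Subgroup.centralizer ({t} : Set (GL (Fin (m + 2)) F))) = Nat.card (GL (Fin (m + 2)) F) * (q - 1) := by
    rw [hcard]
    ring
  rw [h5, hG, hT]
  ring

end Cfsg.Agent.Lib.TvCount
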